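import Cfsg.Statements.S0363
import Mathlib
import Cfsg.Agent.Lib.Helper1.GolayEnum
import Cfsg.Agent.S0359
import Cfsg.Agent.S0360

set_option autoImplicit false
open Cfsg

namespace Cfsg.Agent.S0363


theorem support_add (v w : Cfsg.GolayPt → ZMod 2) :
    Cfsg.support₂ (v + w) = symmDiff (Cfsg.support₂ v) (Cfsg.support₂ w) := by
  ext p
  have key : ∀ a b : ZMod 2, a + b ≠ 0 ↔ (a ≠ 0 ∧ ¬ b ≠ 0) ∨ (b ≠ 0 ∧ ¬ a ≠ 0) := by decide
  simp only [Cfsg.support₂, Finset.mem_symmDiff, Finset.mem_filter, Finset.mem_univ, true_and,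
    Pi.add_apply]
  exact key _ _

/-- Two octads sharing at least five points coincide. -/
theorem octad_uniq (b b' : Finset Cfsg.GolayPt) (hb : b ∈ Cfsg.octads) (hb' : b' ∈ Cfsg.octads)
    (h5 : 5 ≤ (b ∩ b').card) : b = b' := by
  obtain ⟨⟨v, hv, rfl⟩, hvc⟩ := hb
  obtain ⟨⟨w, hw, rfl⟩, hwc⟩ := hb'
  have hsum : v + w ∈ Cfsg.golayCode := Submodule.add_mem _ hv hw
  have h1 := Cfsg.Agent.S0359.result (v + w) hsum
  have h2 : hammingNorm (v + w) = (Cfsg.support₂ (v + w)).card := rfl
  have h3 : (Cfsg.support₂ (v + w)).card ≤ 6 := by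
    rw [support_add]
    have e1 := Finset.card_sdiff_add_card_inter (Cfsg.support₂ v) (Cfsg.support₂ w)
    have e2 := Finset.card_sdiff_add_card_inter (Cfsg.support₂ w) (Cfsg.support₂ v)
    rw [Finset.inter_comm] at e2
    have e3 : (symmDiff (Cfsg.support₂ v) (Cfsg.support₂ w)).card
        ≤ (Cfsg.support₂ v \ Cfsg.support₂ w).card + (Cfsg.support₂ w \ Cfsg.support₂ v).card := by
      rw [symmDiff_def]
      exact Finset.card_union_le _ _
    omega
  have h4 : hammingNorm (v + w) = 0 := by omega
  rw [hammingNorm_eq_zero] at h4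
  have key : ∀ a b : ZMod 2, a + b = 0 → a = b := by decide
  have h5 : v = w := by
    funext p
    exact key _ _ (congrFun h4 p)
  rw [h5]

/-- The octads of the length-24 code form a Steiner system S(5, 8, 24) on the 24 points. -/
theorem result : Cfsg.IsSteinerSystem 5 8 Cfsg.octads := by
  classical
  constructor
  · intro b hb; exact hb.2
  · intro s hs
    have hfin : Cfsg.octads.Finite := Set.toFinite _
    have hOcard : hfin.toFinset.card = 759 := by
      rw [← Set.ncard_eq_toFinset_card Cfsg.octads hfin]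
      exact Cfsg.Agent.S0360.result
    have hdisj : (↑hfin.toFinset : Set (Finset Cfsg.GolayPt)).PairwiseDisjoint
        (fun b => Finset.powersetCard 5 b) := by
      intro b hb b' hb' hne
      rw [Function.onFun, Finset.disjoint_left]
      intro T hT hT'
      obtain ⟨hTb, hT5⟩ := Finset.mem_powersetCard.1 hT
      obtain ⟨hTb', -⟩ := Finset.mem_powersetCard.1 hT'
      apply hne
      apply octad_uniq b b' ((Set.Finite.mem_toFinset hfin).1 (Finset.mem_coe.1 hb))
        ((Set.Finite.mem_toFinset hfin).1 (Finset.mem_coe.1 hb'))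
      rw [← hT5]
      exact Finset.card_le_card (Finset.subset_inter hTb hTb')
    have hcardU : (hfin.toFinset.biUnion (fun b => Finset.powersetCard 5 b)).card = 42504 := by
      rw [Finset.card_biUnion hdisj]
      have h3 : ∀ b ∈ hfin.toFinset, (Finset.powersetCard 5 b).card = 56 := by
        intro b hb
        have hb' : b ∈ Cfsg.octads := (Set.Finite.mem_toFinset hfin).1 hb
        rw [Finset.card_powersetCard, hb'.2]
        rfl
      rw [Finset.sum_congr rfl h3, Finset.sum_const, hOcard]
      rfl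
    have hsub : hfin.toFinset.biUnion (fun b => Finset.powersetCard 5 b)
        ⊆ Finset.powersetCard 5 (Finset.univ : Finset Cfsg.GolayPt) := by
      intro T hT
      obtain ⟨b, -, hTb⟩ := Finset.mem_biUnion.1 hT
      rw [Finset.mem_powersetCard] at hTb ⊢
      exact ⟨Finset.subset_univ _, hTb.2⟩
    have hcardAll : (Finset.powersetCard 5 (Finset.univ : Finset Cfsg.GolayPt)).card = 42504 := by
      rw [Finset.card_powersetCard, Finset.card_univ]
      have : Fintype.card Cfsg.GolayPt = 24 := by decide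
      rw [this]
      decide
    have heq := Finset.eq_of_subset_of_card_le hsub (by rw [hcardU, hcardAll])
    have hsmem : s ∈ hfin.toFinset.biUnion (fun b => Finset.powersetCard 5 b) := by
      rw [heq, Finset.mem_powersetCard]
      exact ⟨Finset.subset_univ _, hs⟩
    obtain ⟨b, hb, hsb⟩ := Finset.mem_biUnion.1 hsmem
    have hb' : b ∈ Cfsg.octads := (Set.Finite.mem_toFinset hfin).1 hb
    have hsb' := (Finset.mem_powersetCard.1 hsb).1
    refine ⟨b, ⟨hb', hsb'⟩, ?_⟩
    rintro c ⟨hc, hsc⟩
    apply octad_uniq c b hc hb'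
    rw [← hs]
    exact Finset.card_le_card (Finset.subset_inter hsc hsb')

end Cfsg.Agent.S0363
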