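import Cfsg.Statements.S0370
import Mathlib
import Cfsg.Agent.Lib.Helper1.Golay

set_option autoImplicit false
open Cfsg

namespace Cfsg.Agent.S0370

/-- The permutation x ↦ x + 1 of the residues modulo 23, fixing the extra point, lies in the group of the length-24 code. -/
theorem result : Equiv.optionCongr (Equiv.addRight (1 : ZMod 23)) ∈ Cfsg.M24 := by
  apply Cfsg.Agent.Lib.Helper1.mem_M24_of_forall
  intro t
  have h1 : (fun p => Cfsg.qrWord t (Equiv.optionCongr (Equiv.addRight (1 : ZMod 23)) p))
      = Cfsg.qrWord (t - 1) := funext (Cfsg.Agent.Lib.Helper1.translate_rows t)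
  rw [h1]
  exact Submodule.subset_span (Or.inl (Set.mem_range_self _))

end Cfsg.Agent.S0370
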