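import Cfsg.Statements.S0369
import Mathlib
import Cfsg.Agent.Lib.Helper1.GolayEnum
import Cfsg.Agent.S0363

set_option autoImplicit false
open Cfsg

namespace Cfsg.Agent.S0369


open scoped Pointwise in
theorem span_octads (σ : Equiv.Perm Cfsg.GolayPt)
    (hσ : ∀ b ∈ Cfsg.octads, σ • b ∈ Cfsg.octads) (l : List ℕ)
    (hl : ∀ b ∈ l, Cfsg.support₂ (Cfsg.Agent.Lib.Helper1.gDec b) ∈ Cfsg.octads) :
    ∀ n ∈ Cfsg.Agent.Lib.Helper1.allWords l,
      σ • Cfsg.support₂ (Cfsg.Agent.Lib.Helper1.gDec n)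
        ∈ Cfsg.supports (Cfsg.golayCode : Set (Cfsg.GolayPt → ZMod 2)) := by
  induction l with
  | nil =>
    intro n hn
    simp only [Cfsg.Agent.Lib.Helper1.allWords, List.mem_singleton] at hn
    subst hn
    refine ⟨0, Submodule.zero_mem _, ?_⟩
    rw [Cfsg.Agent.Lib.Helper1.gDec_zero]
    have : Cfsg.support₂ (0 : Cfsg.GolayPt → ZMod 2) = ∅ := by
      simp [Cfsg.support₂]
    rw [this, Finset.smul_finset_empty]
  | cons b bs ih =>
    intro n hn
    simp only [Cfsg.Agent.Lib.Helper1.allWords, List.mem_append, List.mem_map] at hn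
    have ih' := ih (fun c hc => hl c (List.mem_cons_of_mem _ hc))
    rcases hn with hn | ⟨n', hn', rfl⟩
    · exact ih' n hn
    · rw [Cfsg.Agent.Lib.Helper1.gDec_xor, Cfsg.Agent.S0363.support_add, Finset.smul_finset_symmDiff]
      obtain ⟨v, hv, hv'⟩ := (hσ _ (hl b List.mem_cons_self)).1
      obtain ⟨w, hw, hw'⟩ := ih' n' hn'
      refine ⟨v + w, Submodule.add_mem _ hv hw, ?_⟩
      rw [Cfsg.Agent.S0363.support_add, hv', hw']

set_option maxRecDepth 100000 in
theorem gbasis_wt : Cfsg.Agent.Lib.Helper1.gbasis.all (fun n => Cfsg.Agent.Lib.Helper1.pcI 24 n == 8) = true := by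
  decide +kernel

theorem gbasis_octads : ∀ b ∈ Cfsg.Agent.Lib.Helper1.gbasis,
    Cfsg.support₂ (Cfsg.Agent.Lib.Helper1.gDec b) ∈ Cfsg.octads := by
  intro b hb
  refine ⟨⟨_, Cfsg.Agent.Lib.Helper1.gbasis_mem b hb, rfl⟩, ?_⟩
  rw [Cfsg.Agent.Lib.Helper1.card_support_gDec]
  have := List.all_eq_true.1 gbasis_wt b hb
  simpa using this

theorem octads_finite : (Cfsg.octads).Finite := Set.toFinite _


open scoped Pointwise in
theorem le1 : Cfsg.M24 ≤ Cfsg.setSystemAut Cfsg.octads := by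
  classical
  intro σ hσ
  unfold Cfsg.setSystemAut
  rw [MulAction.mem_stabilizer_set' octads_finite]
  rintro b ⟨hb, hbc⟩
  refine ⟨Cfsg.Agent.Lib.Helper1.M24_smul_mem σ hσ b hb, ?_⟩
  rw [Finset.card_smul_finset]
  exact hbc

open scoped Pointwise in
theorem le2 : Cfsg.setSystemAut Cfsg.octads ≤ Cfsg.M24 := by
  classical
  intro σ hσ
  have h1 : ∀ b ∈ Cfsg.octads, σ • b ∈ Cfsg.octads := by
    intro b hb
    have h2 : σ • Cfsg.octads = Cfsg.octads := hσ
    rw [← h2]
    exact Set.smul_mem_smul_set hb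
  unfold Cfsg.M24 Cfsg.setSystemAut
  rw [MulAction.mem_stabilizer_set' Cfsg.Agent.Lib.Helper1.supports_golay_finite]
  rintro b ⟨w, hw, rfl⟩
  obtain ⟨n, hn, rfl⟩ := (Cfsg.Agent.Lib.Helper1.mem_golay_iff w).1 hw
  exact span_octads σ h1 _ gbasis_octads n hn

/-- The group of the length-24 code coincides with the automorphism group of its octad system. -/
theorem result : Cfsg.M24 = Cfsg.setSystemAut Cfsg.octads := by
  exact le_antisymm le1 le2

end Cfsg.Agent.S0369
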