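import Cfsg.Statements.S0358
import Mathlib
import Cfsg.Agent.Lib.Helper1.GolayEnum

set_option autoImplicit false
open Cfsg

namespace Cfsg.Agent.S0358

/-- The length-24 code built from the squares modulo 23 has dimension 12 over the field with two elements. -/
theorem result : Module.finrank (ZMod 2) Cfsg.golayCode = 12 := by
  have hset : (Cfsg.golayCode : Set (Cfsg.GolayPt → ZMod 2))
      = Cfsg.Agent.Lib.Helper1.gDec ''
        (↑(Cfsg.Agent.Lib.Helper1.allWords Cfsg.Agent.Lib.Helper1.gbasis).toFinset : Set ℕ) := by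
    ext w
    rw [SetLike.mem_coe, Cfsg.Agent.Lib.Helper1.mem_golay_iff]
    constructor
    · rintro ⟨n, hn, rfl⟩
      exact ⟨n, by simpa using hn, rfl⟩
    · rintro ⟨n, hn, rfl⟩
      exact ⟨n, by simpa using hn, rfl⟩
  have hinj : Set.InjOn Cfsg.Agent.Lib.Helper1.gDec
      (↑(Cfsg.Agent.Lib.Helper1.allWords Cfsg.Agent.Lib.Helper1.gbasis).toFinset : Set ℕ) := by
    intro m hm n hn h
    simp only [Finset.mem_coe, List.mem_toFinset] at hm hn
    exact Cfsg.Agent.Lib.Helper1.gDec_injOn (Cfsg.Agent.Lib.Helper1.allWords_lt hm)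
      (Cfsg.Agent.Lib.Helper1.allWords_lt hn) h
  have hcard : Nat.card Cfsg.golayCode = 4096 := by
    have h1 : Nat.card Cfsg.golayCode
        = (Cfsg.golayCode : Set (Cfsg.GolayPt → ZMod 2)).ncard := rfl
    rw [h1, hset, hinj.ncard_image, Set.ncard_coe_finset,
      List.toFinset_card_of_nodup Cfsg.Agent.Lib.Helper1.allWords_gbasis_nodup,
      Cfsg.Agent.Lib.Helper1.length_allWords]
  have h2 := Module.natCard_eq_pow_finrank (K := ZMod 2) (V := Cfsg.golayCode)
  rw [hcard, Nat.card_zmod] at h2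
  have h3 : (2 : ℕ) ^ 12 = 2 ^ Module.finrank (ZMod 2) Cfsg.golayCode := by
    rw [← h2]; norm_num
  exact (Nat.pow_right_injective (le_refl 2) h3).symm

end Cfsg.Agent.S0358
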