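import Cfsg.Statements.S0364
import Mathlib
import Cfsg.Agent.Lib.Helper1.M24Order

set_option autoImplicit false
open Cfsg

namespace Cfsg.Agent.S0364


open Cfsg.Agent.Lib.Helper1 in
/-- The five base points. -/
def s5 : Set Cfsg.GolayPt := ↑((Finset.range 5).image pt)

open Cfsg.Agent.Lib.Helper1 in
theorem mem_s5 (p : Cfsg.GolayPt) : p ∈ s5 ↔ ∃ j < 5, pt j = p := by
  unfold s5
  simp

open Cfsg.Agent.Lib.Helper1 in
theorem ncard_s5 : s5.ncard = 5 := by
  unfold s5
  rw [Set.ncard_coe_finset, Finset.card_image_of_injOn, Finset.card_range]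
  intro i hi j hj hij
  simp only [Finset.coe_range, Set.mem_Iio] at hi hj
  exact pt_inj (by omega) (by omega) hij

open Cfsg.Agent.Lib.Helper1 in
set_option maxRecDepth 100000 in
theorem h48_nodup : (h48.map (fun e => (e.1, e.2.1))).Nodup := by decide +kernel

open Cfsg.Agent.Lib.Helper1 in
set_option maxRecDepth 100000 in
theorem h48_len : (h48.map (fun e => (e.1, e.2.1))).length = 48 := by decide +kernel

open Cfsg.Agent.Lib.Helper1 in
theorem fix_apply (g : ↥(fixingSubgroup ↥Cfsg.M24 s5)) (j : ℕ) (hj : j < 5) :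
    ((g : ↥Cfsg.M24) : Equiv.Perm Cfsg.GolayPt) (pt j) = pt j :=
  (mem_fixingSubgroup_iff _).1 g.2 (pt j) ((mem_s5 _).2 ⟨j, hj, rfl⟩)

open Cfsg.Agent.Lib.Helper1 in
theorem card_fix5 : Nat.card ↥(fixingSubgroup ↥Cfsg.M24 s5) = 48 := by
  classical
  let f : ↥(fixingSubgroup ↥Cfsg.M24 s5) → ℕ × ℕ := fun g =>
    (gIdx (((g : ↥Cfsg.M24) : Equiv.Perm Cfsg.GolayPt) (pt 7)),
     gIdx (((g : ↥Cfsg.M24) : Equiv.Perm Cfsg.GolayPt) (pt 5)))
  have hf : Function.Injective f := by
    intro g g' hgg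
    obtain ⟨e, he, h1, h2, h3⟩ := fix5_eq_word _ (g : ↥Cfsg.M24).2 (fun j hj => fix_apply g j hj)
    obtain ⟨e', he', h1', h2', h3'⟩ :=
      fix5_eq_word _ (g' : ↥Cfsg.M24).2 (fun j hj => fix_apply g' j hj)
    have hfg : f g = (e.1, e.2.1) := Prod.ext h2 h3
    have hfg' : f g' = (e'.1, e'.2.1) := Prod.ext h2' h3'
    have hee : (fun e : ℕ × ℕ × List ℕ => (e.1, e.2.1)) e = (fun e : ℕ × ℕ × List ℕ => (e.1, e.2.1)) e' := by
      show (e.1, e.2.1) = (e'.1, e'.2.1)
      rw [← hfg, ← hfg', hgg]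
    have : e = e' := List.inj_on_of_nodup_map h48_nodup he he' hee
    apply Subtype.ext
    apply Subtype.ext
    rw [h1, h1', this]
  have hrange : Set.range f = ↑((h48.map (fun e => (e.1, e.2.1))).toFinset) := by
    ext x
    simp only [Set.mem_range, Finset.mem_coe, List.mem_toFinset, List.mem_map]
    constructor
    · rintro ⟨g, rfl⟩
      obtain ⟨e, he, h1, h2, h3⟩ := fix5_eq_word _ (g : ↥Cfsg.M24).2 (fun j hj => fix_apply g j hj)
      exact ⟨e, he, (Prod.ext h2 h3).symm⟩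
    · rintro ⟨e, he, rfl⟩
      have hw := List.all_eq_true.1 h48_ok e he
      simp only [Bool.and_eq_true, beq_iff_eq, List.all_eq_true, List.mem_range] at hw
      obtain ⟨⟨hw7, hw5⟩, hwj⟩ := hw
      have hmem : (⟨wordPerm e.2.2, wordPerm_mem _⟩ : ↥Cfsg.M24) ∈ fixingSubgroup ↥Cfsg.M24 s5 := by
        rw [mem_fixingSubgroup_iff]
        intro y hy
        obtain ⟨j, hj, rfl⟩ := (mem_s5 y).1 hy
        show wordPerm e.2.2 (pt j) = pt j
        rw [wordPerm_apply _ j (by omega), hwj j hj]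
      refine ⟨⟨_, hmem⟩, ?_⟩
      show (gIdx (wordPerm e.2.2 (pt 7)), gIdx (wordPerm e.2.2 (pt 5))) = (e.1, e.2.1)
      rw [wordPerm_apply _ 7 (by norm_num), wordPerm_apply _ 5 (by norm_num), hw7, hw5,
        gIdx_pt, gIdx_pt]
      · rw [← hw5]; exact wordIdx_lt _ _ (by norm_num)
      · rw [← hw7]; exact wordIdx_lt _ _ (by norm_num)
  rw [← Nat.card_range_of_injective hf, hrange, Nat.card_coe_set_eq, Set.ncard_coe_finset,
    List.toFinset_card_of_nodup h48_nodup, h48_len]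

/-- The permutation group of the 24 points preserving the length-24 code has order 244823040 = 2^10·3^3·5·7·11·23. -/
theorem result : Nat.card Cfsg.M24 = 244823040 := by
  classical
  have h5 : MulAction.IsMultiplyPretransitive ↥Cfsg.M24 Cfsg.GolayPt s5.ncard := by
    rw [ncard_s5]; exact Cfsg.Agent.Lib.Helper1.M24_5trans
  have hidx := MulAction.IsMultiplyPretransitive.index_of_fixingSubgroup_eq s5 h5
  rw [ncard_s5] at hidx
  have hcard : Nat.card Cfsg.GolayPt = 24 := by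
    rw [Nat.card_eq_fintype_card]; decide
  rw [hcard] at hidx
  have hmul := Subgroup.card_mul_index (fixingSubgroup ↥Cfsg.M24 s5)
  rw [hidx, card_fix5] at hmul
  rw [← hmul]
  decide

end Cfsg.Agent.S0364
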