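import Cfsg.Statements.S0382
import Mathlib
import Cfsg.Agent.Lib.Helper1.M24Order
import Cfsg.Agent.S0364
import Cfsg.Agent.S0368
import Cfsg.Agent.S0361

set_option autoImplicit false
open scoped Pointwise
open Cfsg

namespace Cfsg.Agent.S0382


open scoped Pointwise in
theorem orbit_dodecad (d : Finset Cfsg.GolayPt) (hd : d ∈ Cfsg.dodecads) :
    MulAction.orbit ↥Cfsg.M24 d = Cfsg.dodecads := by
  classical
  ext d'
  constructor
  · rintro ⟨g, rfl⟩
    refine ⟨Cfsg.Agent.Lib.Helper1.M24_smul_mem g.1 g.2 d hd.1, ?_⟩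
    show ((g : Equiv.Perm Cfsg.GolayPt) • d).card = 12
    rw [Finset.card_smul_finset]
    exact hd.2
  · intro hd'
    obtain ⟨g, hg⟩ := Cfsg.Agent.S0368.result d d' hd hd'
    exact ⟨g, hg⟩

/-- A dodecad stabiliser in the group of the length-24 code has order 95040 = 2^6·3^3·5·11. -/
theorem result (d : Finset Cfsg.GolayPt) (hd : d ∈ Cfsg.dodecads) : Nat.card (MulAction.stabilizer Cfsg.M24 d) = 95040 := by
  have hidx := MulAction.index_stabilizer (G := ↥Cfsg.M24) (x := d)
  rw [orbit_dodecad d hd, Cfsg.Agent.S0361.result] at hidx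
  have hmul := Subgroup.card_mul_index (MulAction.stabilizer ↥Cfsg.M24 d)
  rw [hidx, Cfsg.Agent.S0364.result] at hmul
  omega

end Cfsg.Agent.S0382
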