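import Cfsg.Statements.S0384
import Mathlib
import Cfsg.Agent.Lib.Helper1.M12Chain
import Cfsg.Agent.S0368
import Cfsg.Agent.S0382

set_option autoImplicit false
open scoped Pointwise
open Cfsg

namespace Cfsg.Agent.S0384


open Cfsg.Agent.Lib.Helper1 in
open scoped Pointwise in
theorem exists5 (d : Finset Cfsg.GolayPt) (hd : d ∈ Cfsg.dodecads) (x y : Fin 5 ↪ Cfsg.GolayPt)
    (hx : ∀ i, x i ∈ d) (hy : ∀ i, y i ∈ d) :
    ∃ g ∈ Cfsg.M24, g • d = d ∧ ∀ i, g (x i) = y i := by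
  obtain ⟨g₁, hg₁, rfl⟩ := Cfsg.Agent.S0368.reach d hd
  have hxd : ∀ i, g₁⁻¹ (x i) ∈ S D0 := fun i => Finset.inv_smul_mem_iff.2 (hx i)
  have hyd : ∀ i, g₁⁻¹ (y i) ∈ S D0 := fun i => Finset.inv_smul_mem_iff.2 (hy i)
  obtain ⟨g, hg, hM, -, hxy⟩ := chain_trans lv12_ok (List.mem_singleton.2 rfl) rfl
    (fun i => g₁⁻¹ (x i)) (fun i => g₁⁻¹ (y i))
    (fun i j h => x.injective (g₁⁻¹.injective h)) (fun i j h => y.injective (g₁⁻¹.injective h))
    hxd hyd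
  refine ⟨g₁ * g * g₁⁻¹, Cfsg.M24.mul_mem (Cfsg.M24.mul_mem hg₁ hg) (Cfsg.M24.inv_mem hg₁), ?_, ?_⟩
  · have h1 := hM D0 (List.mem_singleton.2 rfl)
    show (g₁ * g * g₁⁻¹) • g₁ • S D0 = g₁ • S D0
    rw [mul_smul, mul_smul, inv_smul_smul, h1]
  · intro i
    have h1 : g (g₁⁻¹ (x i)) = g₁⁻¹ (y i) := hxy i
    rw [Equiv.Perm.mul_apply, Equiv.Perm.mul_apply, h1]
    simp

open scoped Pointwise in
theorem stab_trivial (d : Finset Cfsg.GolayPt) (hd : d ∈ Cfsg.dodecads)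
    (x : Fin 5 ↪ Cfsg.GolayPt) (hx : ∀ i, x i ∈ d)
    (g : MulAction.stabilizer Cfsg.M24 d)
    (hg : ∀ i, ((g : Cfsg.M24) : Equiv.Perm Cfsg.GolayPt) (x i) = x i) : g = 1 := by
  classical
  let f : Fin 5 → Cfsg.GolayPt := fun i => x i
  let φ : (Fin 5 ↪ ↥d) → (Fin 5 → Cfsg.GolayPt) := fun e i => ((e i : ↥d) : Cfsg.GolayPt)
  have hφ : Function.Injective φ := by
    intro e e' h
    apply DFunLike.ext
    intro i
    apply Subtype.ext
    exact congrFun h i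
  have hsub : Set.range φ ⊆ MulAction.orbit ↥(MulAction.stabilizer Cfsg.M24 d) f := by
    rintro _ ⟨e, rfl⟩
    obtain ⟨k, hk, hkd, hkx⟩ := exists5 d hd x
      ⟨fun i => ((e i : ↥d) : Cfsg.GolayPt), fun i j h => e.injective (Subtype.ext h)⟩ hx
      (fun i => (e i).2)
    refine ⟨⟨⟨k, hk⟩, hkd⟩, ?_⟩
    funext i
    exact hkx i
  have hcard : (Set.range φ).ncard = 95040 := by
    rw [Set.ncard_range_of_injective hφ, Nat.card_eq_fintype_card, Fintype.card_embedding_eq,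
      Fintype.card_coe, hd.2, Fintype.card_fin]
    rfl
  have hidx := MulAction.index_stabilizer (G := ↥(MulAction.stabilizer Cfsg.M24 d)) (x := f)
  have hmul := Subgroup.card_mul_index
    (MulAction.stabilizer ↥(MulAction.stabilizer Cfsg.M24 d) f)
  rw [Cfsg.Agent.S0382.result d hd, hidx] at hmul
  have hle := Set.ncard_le_ncard hsub (Set.toFinite _)
  rw [hcard] at hle
  have hpos : 0 < Nat.card (MulAction.stabilizer ↥(MulAction.stabilizer Cfsg.M24 d) f) :=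
    Nat.card_pos
  have h1 : Nat.card (MulAction.stabilizer ↥(MulAction.stabilizer Cfsg.M24 d) f) = 1 := by
    nlinarith
  have hbot := (Subgroup.card_eq_one).1 h1
  have hmem : g ∈ MulAction.stabilizer ↥(MulAction.stabilizer Cfsg.M24 d) f := by
    rw [MulAction.mem_stabilizer_iff]
    funext i
    exact hg i
  rw [hbot] at hmem
  exact Subgroup.mem_bot.1 hmem

/-- A dodecad stabiliser is sharply 5-transitive on the dodecad. -/
theorem result (d : Finset Cfsg.GolayPt) (hd : d ∈ Cfsg.dodecads) (x y : Fin 5 ↪ Cfsg.GolayPt) (hx : ∀ i, x i ∈ d) (hy : ∀ i, y i ∈ d) : ∃! g : MulAction.stabilizer Cfsg.M24 d, ∀ i, ((g : Cfsg.M24) : Equiv.Perm Cfsg.GolayPt) (x i) = y i := by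
  obtain ⟨k, hk, hkd, hkx⟩ := exists5 d hd x y hx hy
  refine ⟨⟨⟨k, hk⟩, hkd⟩, hkx, ?_⟩
  intro g' hg'
  have h1 := stab_trivial d hd x hx (g'⁻¹ * ⟨⟨k, hk⟩, hkd⟩) (fun i => by
    show ((g' : Cfsg.M24) : Equiv.Perm Cfsg.GolayPt)⁻¹ (k (x i)) = x i
    rw [hkx i, ← hg' i]
    simp)
  exact inv_mul_eq_one.1 h1

end Cfsg.Agent.S0384
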