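import Cfsg.Statements.S0381
import Mathlib
import Cfsg.Agent.Lib.Helper1.M24Order
import Cfsg.Agent.S0367

set_option autoImplicit false
open Cfsg

namespace Cfsg.Agent.S0381


open Cfsg.Agent.Lib.Helper1 in
/-- Pointwise stabiliser of a set of points in the group of the code. -/
abbrev E (s : Finset Cfsg.GolayPt) : Subgroup (Equiv.Perm Cfsg.GolayPt) :=
  Cfsg.M24 ⊓ fixingSubgroup (Equiv.Perm Cfsg.GolayPt) (s : Set Cfsg.GolayPt)

open Cfsg.Agent.Lib.Helper1 in
set_option maxRecDepth 100000 in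
theorem h16_ok : h48.all (fun e => e.1 != 7 || (wordIdx e.2.2 10 == 10 && wordIdx e.2.2 12 == 12
    && (List.range 24).all (fun i => wordIdx e.2.2 (wordIdx e.2.2 i) == i))) = true := by
  decide +kernel

open Cfsg.Agent.Lib.Helper1 in
set_option maxRecDepth 100000 in
theorem h16_nodup : ((h48.filter (fun e => e.1 == 7)).map (fun e => e.2.1)).Nodup := by
  decide +kernel

open Cfsg.Agent.Lib.Helper1 in
set_option maxRecDepth 100000 in
theorem h16_len : ((h48.filter (fun e => e.1 == 7)).map (fun e => e.2.1)).length = 16 := by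
  decide +kernel

open Cfsg.Agent.Lib.Helper1 in
set_option maxRecDepth 100000 in
theorem O5_bits8 : (List.range 24).all
    (fun i => !O5.testBit i || [0, 1, 2, 3, 4, 7, 10, 12].contains i) = true := by decide +kernel

open Cfsg.Agent.Lib.Helper1 in
theorem fixE (g : Equiv.Perm Cfsg.GolayPt) (hg : g ∈ E (Cfsg.support₂ (gDec O5))) (i : ℕ)
    (hi : i < 24) (hbit : O5.testBit i = true) : g (pt i) = pt i := by
  have h1 := (mem_fixingSubgroup_iff _).1 (Subgroup.mem_inf.1 hg).2 (pt i) (by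
    rw [Finset.mem_coe, mem_support_gDec, gIdx_pt hi]; exact hbit)
  exact h1

open Cfsg.Agent.Lib.Helper1 in
theorem memE_O5 (g : Equiv.Perm Cfsg.GolayPt) (hg : g ∈ E (Cfsg.support₂ (gDec O5))) :
    ∃ e ∈ h48.filter (fun e => e.1 == 7), g = wordPerm e.2.2 ∧ gIdx (g (pt 5)) = e.2.1 := by
  have hj : ∀ j < 5, g (pt j) = pt j := by
    intro j hj
    refine fixE g hg j (by omega) ?_
    have := List.all_eq_true.1 O5_bits.1 j (List.mem_range.2 hj)
    exact this
  obtain ⟨e, he, heq, h7, h5⟩ := fix5_eq_word g (Subgroup.mem_inf.1 hg).1 hj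
  refine ⟨e, ?_, heq, h5⟩
  rw [List.mem_filter]
  refine ⟨he, ?_⟩
  have h7' := fixE g hg 7 (by norm_num) O5_bits.2.1
  rw [h7', gIdx_pt (by norm_num)] at h7
  simp [← h7]

open Cfsg.Agent.Lib.Helper1 in
theorem word_memE (e : ℕ × ℕ × List ℕ) (he : e ∈ h48.filter (fun e => e.1 == 7)) :
    wordPerm e.2.2 ∈ E (Cfsg.support₂ (gDec O5)) ∧ wordPerm e.2.2 * wordPerm e.2.2 = 1
      ∧ gIdx (wordPerm e.2.2 (pt 5)) = e.2.1 := by
  rw [List.mem_filter] at he
  obtain ⟨he, he7⟩ := he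
  have he7' : e.1 = 7 := by simpa using he7
  have hw := List.all_eq_true.1 h48_ok e he
  simp only [Bool.and_eq_true, beq_iff_eq, List.all_eq_true, List.mem_range] at hw
  obtain ⟨⟨hw7, hw5⟩, hwj⟩ := hw
  have hw2 := List.all_eq_true.1 h16_ok e he
  simp only [he7', bne_self_eq_false, Bool.false_or, Bool.and_eq_true, beq_iff_eq,
    List.all_eq_true, List.mem_range] at hw2
  obtain ⟨⟨h10, h12⟩, hsq⟩ := hw2
  refine ⟨Subgroup.mem_inf.2 ⟨wordPerm_mem _, ?_⟩, ?_, ?_⟩
  · rw [mem_fixingSubgroup_iff]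
    intro y hy
    rw [Finset.mem_coe, mem_support_gDec] at hy
    have hy' := List.all_eq_true.1 O5_bits8 (gIdx y) (List.mem_range.2 (gIdx_lt _))
    rw [hy] at hy'
    simp only [Bool.not_true, Bool.false_or] at hy'
    have hy'' : gIdx y < 5 ∨ gIdx y = 7 ∨ gIdx y = 10 ∨ gIdx y = 12 := by
      simp at hy'; omega
    show wordPerm e.2.2 y = y
    have hpy := pt_gIdx y
    rw [← hpy, wordPerm_apply _ _ (gIdx_lt y)]
    congr 1
    rcases hy'' with h | h | h | h
    · exact hwj _ h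
    · rw [h, hw7, he7']
    · rw [h, h10]
    · rw [h, h12]
  · apply perm_ext_idx
    intro i hi
    rw [Equiv.Perm.mul_apply, wordPerm_apply _ i hi, wordPerm_apply _ _ (wordIdx_lt _ _ hi),
      hsq i hi, Equiv.Perm.one_apply]
  · rw [wordPerm_apply _ 5 (by norm_num), hw5, gIdx_pt]
    rw [← hw5]; exact wordIdx_lt _ _ (by norm_num)

open Cfsg.Agent.Lib.Helper1 in
theorem card_E5 : Nat.card ↥(E (Cfsg.support₂ (gDec O5))) = 16 := by
  classical
  let f : ↥(E (Cfsg.support₂ (gDec O5))) → ℕ := fun g =>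
    gIdx ((g : Equiv.Perm Cfsg.GolayPt) (pt 5))
  have hf : Function.Injective f := by
    intro g g' hgg
    obtain ⟨e, he, h1, h2⟩ := memE_O5 _ g.2
    obtain ⟨e', he', h1', h2'⟩ := memE_O5 _ g'.2
    have hee : (fun e : ℕ × ℕ × List ℕ => e.2.1) e = (fun e : ℕ × ℕ × List ℕ => e.2.1) e' := by
      show e.2.1 = e'.2.1
      rw [← h2, ← h2']
      exact hgg
    have : e = e' := List.inj_on_of_nodup_map h16_nodup he he' hee
    apply Subtype.ext
    rw [h1, h1', this]
  have hrange : Set.range f = ↑(((h48.filter (fun e => e.1 == 7)).map (fun e => e.2.1)).toFinset) := by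
    ext x
    simp only [Set.mem_range, Finset.mem_coe, List.mem_toFinset, List.mem_map]
    constructor
    · rintro ⟨g, rfl⟩
      obtain ⟨e, he, h1, h2⟩ := memE_O5 _ g.2
      exact ⟨e, he, h2.symm⟩
    · rintro ⟨e, he, rfl⟩
      obtain ⟨h1, -, h3⟩ := word_memE e he
      exact ⟨⟨_, h1⟩, h3⟩
  rw [← Nat.card_range_of_injective hf, hrange, Nat.card_coe_set_eq, Set.ncard_coe_finset,
    List.toFinset_card_of_nodup h16_nodup, h16_len]

open Cfsg.Agent.Lib.Helper1 in
theorem sq_E5 (g : Equiv.Perm Cfsg.GolayPt) (hg : g ∈ E (Cfsg.support₂ (gDec O5))) : g * g = 1 := by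
  obtain ⟨e, he, h1, -⟩ := memE_O5 g hg
  rw [h1]
  exact (word_memE e he).2.1

open scoped Pointwise in
theorem E_conj (g : Equiv.Perm Cfsg.GolayPt) (hg : g ∈ Cfsg.M24) (s : Finset Cfsg.GolayPt) :
    E (g • s) = (E s).map (MulAut.conj g).toMonoidHom := by
  classical
  ext h
  rw [Subgroup.mem_map]
  constructor
  · intro hh
    obtain ⟨hM, hfix⟩ := Subgroup.mem_inf.1 hh
    refine ⟨g⁻¹ * h * g,
      Subgroup.mem_inf.2 ⟨Cfsg.M24.mul_mem (Cfsg.M24.mul_mem (Cfsg.M24.inv_mem hg) hM) hg, ?_⟩, ?_⟩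
    · rw [mem_fixingSubgroup_iff] at hfix ⊢
      intro y hy
      have h1 : h (g y) = g y := hfix (g • y) (by
        rw [Finset.mem_coe] at hy ⊢
        exact Finset.smul_mem_smul_finset hy)
      show (g⁻¹ * h * g) y = y
      rw [Equiv.Perm.mul_apply, Equiv.Perm.mul_apply, h1]
      simp
    · show g * (g⁻¹ * h * g) * g⁻¹ = h
      group
  · rintro ⟨x, hx, rfl⟩
    obtain ⟨hxM, hxfix⟩ := Subgroup.mem_inf.1 hx
    refine Subgroup.mem_inf.2 ⟨Cfsg.M24.mul_mem (Cfsg.M24.mul_mem hg hxM) (Cfsg.M24.inv_mem hg), ?_⟩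
    rw [mem_fixingSubgroup_iff] at hxfix ⊢
    intro y hy
    rw [Finset.mem_coe] at hy
    have hy' : g⁻¹ • y ∈ s := Finset.inv_smul_mem_iff.2 hy
    have h1 : x (g⁻¹ y) = g⁻¹ y := hxfix _ (by rw [Finset.mem_coe]; exact hy')
    show (g * x * g⁻¹) y = y
    rw [Equiv.Perm.mul_apply, Equiv.Perm.mul_apply, h1]
    simp

open scoped Pointwise in
theorem main (o : Finset Cfsg.GolayPt) (ho : o ∈ Cfsg.octads) :
    Nat.card ↥(E o) = 16 ∧ ∀ g ∈ E o, g * g = 1 := by
  classical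
  obtain ⟨g, hg, rfl⟩ := Cfsg.Agent.S0367.reach o ho
  have hE := E_conj g hg (Cfsg.support₂ (Cfsg.Agent.Lib.Helper1.gDec 5279))
  constructor
  · rw [hE, Subgroup.card_map_of_injective (MulAut.conj g).injective]
    exact card_E5
  · intro h hh
    rw [hE, Subgroup.mem_map] at hh
    obtain ⟨x, hx, rfl⟩ := hh
    have h1 : x * x = 1 := sq_E5 x hx
    show g * x * g⁻¹ * (g * x * g⁻¹) = 1
    have h2 : g * x * g⁻¹ * (g * x * g⁻¹) = g * (x * x) * g⁻¹ := by group
    rw [h2, h1]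
    group

/-- The pointwise stabiliser of an octad in the group of the length-24 code has order 16 and every element of it squares to the identity. -/
theorem result (o : Finset Cfsg.GolayPt) (ho : o ∈ Cfsg.octads) : Nat.card ↥(Cfsg.M24 ⊓ fixingSubgroup (Equiv.Perm Cfsg.GolayPt) (o : Set Cfsg.GolayPt)) = 16 ∧ ∀ g ∈ Cfsg.M24 ⊓ fixingSubgroup (Equiv.Perm Cfsg.GolayPt) (o : Set Cfsg.GolayPt), g * g = 1 := by
  exact main o ho

end Cfsg.Agent.S0381
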