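import Cfsg.Statements.S1553
import Mathlib
import Cfsg.Agent.Lib.Helper1.M24Base
import Cfsg.Agent.S0360
import Cfsg.Agent.S0364
import Cfsg.Agent.S0381

set_option autoImplicit false
open scoped Pointwise
open Cfsg

namespace Cfsg.Agent.S1553


open scoped Pointwise in
theorem stab_iff (o : Finset Cfsg.GolayPt) (g : Equiv.Perm Cfsg.GolayPt) (hg : g • o = o)
    (x : Cfsg.GolayPt) : g x ∈ o ↔ x ∈ o := by
  constructor
  · intro h
    have h1 : g • x ∈ g • o := by rw [hg]; exact h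
    exact (Finset.smul_mem_smul_finset_iff g).1 h1
  · intro h
    have h1 : g • x ∈ g • o := Finset.smul_mem_smul_finset h
    rw [hg] at h1
    exact h1

open scoped Pointwise in
theorem smul_of_iff (o : Finset Cfsg.GolayPt) (g : Equiv.Perm Cfsg.GolayPt)
    (h : ∀ x, g x ∈ o ↔ x ∈ o) : g • o = o := by
  ext y
  rw [← Finset.inv_smul_mem_iff]
  have h1 := h (g⁻¹ y)
  have h2 : g (g⁻¹ y) = y := by simp
  rw [h2] at h1
  exact h1.symm

/-- The set stabiliser of `o` in the group of the code. -/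
def stabP (o : Finset Cfsg.GolayPt) : Subgroup (Equiv.Perm Cfsg.GolayPt) :=
  Cfsg.M24 ⊓ MulAction.stabilizer (Equiv.Perm Cfsg.GolayPt) o

theorem stabP_smul (o : Finset Cfsg.GolayPt) (g : ↥(stabP o)) :
    (g : Equiv.Perm Cfsg.GolayPt) • o = o := (Subgroup.mem_inf.1 g.2).2

/-- Restriction of the set stabiliser to the set. -/
noncomputable def restr (o : Finset Cfsg.GolayPt) : ↥(stabP o) →* Equiv.Perm ↥o where
  toFun g := (g : Equiv.Perm Cfsg.GolayPt).subtypePerm (stab_iff o g (stabP_smul o g))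
  map_one' := by
    apply Equiv.ext
    intro x
    apply Subtype.ext
    rfl
  map_mul' := by
    intro a b
    apply Equiv.ext
    intro x
    apply Subtype.ext
    rfl

theorem restr_apply (o : Finset Cfsg.GolayPt) (g : ↥(stabP o)) (x : ↥o) :
    ((restr o g x : ↥o) : Cfsg.GolayPt) = (g : Equiv.Perm Cfsg.GolayPt) x := rfl

open scoped Pointwise in
theorem orbit_octad (o : Finset Cfsg.GolayPt) (ho : o ∈ Cfsg.octads) :
    MulAction.orbit ↥Cfsg.M24 o = Cfsg.octads := by
  classical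
  ext o'
  constructor
  · rintro ⟨g, rfl⟩
    exact (Cfsg.Agent.Lib.Helper1.smul_mem_octads_iff g.1 g.2 o).2 ho
  · intro ho'
    obtain ⟨g, hg, h1⟩ := Cfsg.Agent.Lib.Helper1.octad_reach o ho
    obtain ⟨g', hg', h1'⟩ := Cfsg.Agent.Lib.Helper1.octad_reach o' ho'
    refine ⟨⟨g' * g⁻¹, Cfsg.M24.mul_mem hg' (Cfsg.M24.inv_mem hg)⟩, ?_⟩
    show (g' * g⁻¹) • o = o'
    rw [← h1, mul_smul, inv_smul_smul, h1']

theorem card_stabP (o : Finset Cfsg.GolayPt) (ho : o ∈ Cfsg.octads) :
    Nat.card ↥(stabP o) = 322560 := by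
  have hmap : stabP o = (MulAction.stabilizer ↥Cfsg.M24 o).map Cfsg.M24.subtype := by
    ext g
    simp only [stabP, Subgroup.mem_inf, Subgroup.mem_map, MulAction.mem_stabilizer_iff]
    constructor
    · rintro ⟨h1, h2⟩
      exact ⟨⟨g, h1⟩, h2, rfl⟩
    · rintro ⟨k, hk, rfl⟩
      exact ⟨k.2, hk⟩
  rw [hmap, Subgroup.card_map_of_injective (Subgroup.subtype_injective _)]
  have hidx := MulAction.index_stabilizer (G := ↥Cfsg.M24) (x := o)
  rw [orbit_octad o ho, Cfsg.Agent.S0360.result] at hidx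
  have hmul := Subgroup.card_mul_index (MulAction.stabilizer ↥Cfsg.M24 o)
  rw [hidx, Cfsg.Agent.S0364.result] at hmul
  omega

theorem fix_le_stabP (o : Finset Cfsg.GolayPt) :
    Cfsg.M24 ⊓ fixingSubgroup (Equiv.Perm Cfsg.GolayPt) (o : Set Cfsg.GolayPt) ≤ stabP o := by
  intro g hg
  obtain ⟨h1, h2⟩ := Subgroup.mem_inf.1 hg
  refine Subgroup.mem_inf.2 ⟨h1, ?_⟩
  rw [MulAction.mem_stabilizer_iff]
  rw [mem_fixingSubgroup_iff] at h2
  apply smul_of_iff
  intro x
  constructor
  · intro hx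
    by_contra hxo
    -- g is injective and fixes g x, so g x = x
    have h3 := h2 (g x) (Finset.mem_coe.2 hx)
    have h4 : g x = x := g.injective h3
    rw [h4] at hx
    exact hxo hx
  · intro hx
    have h3 : g x = x := h2 x (Finset.mem_coe.2 hx)
    rw [h3]
    exact hx

theorem ker_restr (o : Finset Cfsg.GolayPt) :
    (restr o).ker = (Cfsg.M24 ⊓ fixingSubgroup (Equiv.Perm Cfsg.GolayPt)
      (o : Set Cfsg.GolayPt)).subgroupOf (stabP o) := by
  ext g
  rw [MonoidHom.mem_ker, Subgroup.mem_subgroupOf, Subgroup.mem_inf, mem_fixingSubgroup_iff]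
  constructor
  · intro h
    refine ⟨(Subgroup.mem_inf.1 g.2).1, fun y hy => ?_⟩
    have h1 := congrArg (fun e : Equiv.Perm ↥o => ((e ⟨y, Finset.mem_coe.1 hy⟩ : ↥o) : Cfsg.GolayPt)) h
    exact h1
  · rintro ⟨-, h⟩
    apply Equiv.ext
    intro x
    apply Subtype.ext
    exact h x.1 (Finset.mem_coe.2 x.2)

theorem card_ker_restr (o : Finset Cfsg.GolayPt) (ho : o ∈ Cfsg.octads) :
    Nat.card (restr o).ker = 16 := by
  rw [ker_restr, Nat.card_congr (Subgroup.subgroupOfEquivOfLe (fix_le_stabP o)).toEquiv]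
  exact (Cfsg.Agent.S0381.result o ho).1

theorem card_perm_octad (o : Finset Cfsg.GolayPt) (ho : o ∈ Cfsg.octads) :
    Nat.card (Equiv.Perm ↥o) = 40320 := by
  rw [Nat.card_eq_fintype_card, Fintype.card_perm, Fintype.card_coe, ho.2]
  rfl

theorem card_range_restr (o : Finset Cfsg.GolayPt) (ho : o ∈ Cfsg.octads) :
    Nat.card (restr o).range = 20160 := by
  have h1 := Subgroup.card_mul_index (restr o).ker
  rw [Subgroup.index_ker, card_ker_restr o ho, card_stabP o ho] at h1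
  omega

theorem range_restr (o : Finset Cfsg.GolayPt) (ho : o ∈ Cfsg.octads) :
    (restr o).range = alternatingGroup ↥o := by
  apply Equiv.Perm.eq_alternatingGroup_of_index_eq_two
  have h2 := Subgroup.card_mul_index (restr o).range
  rw [card_range_restr o ho, card_perm_octad o ho] at h2
  omega

/-- The stabiliser of an octad in the group of the length-24 code induces on the octad exactly its alternating group. -/
theorem result (o : Finset Cfsg.GolayPt) (ho : o ∈ Cfsg.octads) : {e : Equiv.Perm ↥o | ∃ g : Equiv.Perm Cfsg.GolayPt, g ∈ Cfsg.M24 ∧ ∃ h : (∀ x, g x ∈ o ↔ x ∈ o), g.subtypePerm h = e} = (alternatingGroup ↥o : Set (Equiv.Perm ↥o)) := by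
  rw [← range_restr o ho]
  ext e
  constructor
  · rintro ⟨g, hg, h, rfl⟩
    exact ⟨⟨g, Subgroup.mem_inf.2 ⟨hg, smul_of_iff o g h⟩⟩, rfl⟩
  · rintro ⟨g, rfl⟩
    exact ⟨g, (Subgroup.mem_inf.1 g.2).1, stab_iff o g (stabP_smul o g), rfl⟩

end Cfsg.Agent.S1553
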