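import Cfsg.Statements.S1554
import Mathlib
import Cfsg.Agent.Lib.Helper1.M24Base
import Cfsg.Agent.S0381
import Cfsg.Agent.S1553

set_option autoImplicit false
open scoped Pointwise
open Cfsg

namespace Cfsg.Agent.S1554


open Cfsg.Agent.Lib.Helper1 in
set_option maxRecDepth 100000 in
theorem h16_cover : (List.range 24).all (fun i => O5.testBit i
    || ((h48.filter (fun e => e.1 == 7)).map (fun e => e.2.1)).contains i) = true := by
  decide +kernel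

open Cfsg.Agent.Lib.Helper1 in
open scoped Pointwise in
theorem E_trans (o : Finset Cfsg.GolayPt) (ho : o ∈ Cfsg.octads) (p x : Cfsg.GolayPt)
    (hp : p ∉ o) (hx : x ∉ o) :
    ∃ a ∈ Cfsg.M24 ⊓ fixingSubgroup (Equiv.Perm Cfsg.GolayPt) (o : Set Cfsg.GolayPt),
      a p = x := by
  obtain ⟨g₁, hg₁, rfl, rfl⟩ := octad_npt_reach o ho p hp
  have hx' : O5.testBit (gIdx (g₁⁻¹ x)) = false := by
    by_contra hne
    have hne' : O5.testBit (gIdx (g₁⁻¹ x)) = true := by simpa using hne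
    exact hx ((inv_apply_mem g₁ 0 x).1 hne')
  have h1 := List.all_eq_true.1 h16_cover (gIdx (g₁⁻¹ x)) (List.mem_range.2 (gIdx_lt _))
  rw [hx', Bool.false_or, List.contains_eq_mem, decide_eq_true_eq, List.mem_map] at h1
  obtain ⟨e, he, hei⟩ := h1
  obtain ⟨hw, -, hw5⟩ := Cfsg.Agent.S0381.word_memE e he
  have hw5' : wordPerm e.2.2 (pt 5) = g₁⁻¹ x := by
    have h2 := congrArg pt (hw5.trans hei)
    rwa [pt_gIdx, pt_gIdx] at h2
  obtain ⟨hwM, hwF⟩ := Subgroup.mem_inf.1 hw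
  rw [mem_fixingSubgroup_iff] at hwF
  refine ⟨g₁ * wordPerm e.2.2 * g₁⁻¹, Subgroup.mem_inf.2
    ⟨Cfsg.M24.mul_mem (Cfsg.M24.mul_mem hg₁ hwM) (Cfsg.M24.inv_mem hg₁), ?_⟩, ?_⟩
  · rw [mem_fixingSubgroup_iff]
    intro y hy
    have hy' : g₁⁻¹ • y ∈ S O5 := Finset.inv_smul_mem_iff.2 (Finset.mem_coe.1 hy)
    have h3 : wordPerm e.2.2 (g₁⁻¹ y) = g₁⁻¹ y := hwF (g₁⁻¹ • y) (Finset.mem_coe.2 hy')
    show (g₁ * wordPerm e.2.2 * g₁⁻¹) y = y
    rw [Equiv.Perm.mul_apply, Equiv.Perm.mul_apply, h3]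
    simp
  · rw [Equiv.Perm.mul_apply, Equiv.Perm.mul_apply]
    have h4 : g₁⁻¹ (g₁ (pt 5)) = pt 5 := by simp
    rw [h4, hw5']
    simp

open Cfsg.Agent.Lib.Helper1 in
open scoped Pointwise in
theorem fix_octad_pt (o : Finset Cfsg.GolayPt) (ho : o ∈ Cfsg.octads) (p : Cfsg.GolayPt)
    (hp : p ∉ o) (g : Equiv.Perm Cfsg.GolayPt) (hg : g ∈ Cfsg.M24) (hfix : ∀ y ∈ o, g y = y)
    (hgp : g p = p) : g = 1 := by
  obtain ⟨g₁, hg₁, rfl, rfl⟩ := octad_npt_reach o ho p hp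
  have h1 : g₁⁻¹ * g * g₁ = 1 := by
    apply fix7 _ (Cfsg.M24.mul_mem (Cfsg.M24.mul_mem (Cfsg.M24.inv_mem hg₁) hg) hg₁)
    intro i hi
    rw [Equiv.Perm.mul_apply, Equiv.Perm.mul_apply]
    have hin : i = 5 ∨ (i < 24 ∧ O5.testBit i = true) := by
      simp only [List.mem_cons, List.mem_nil_iff, or_false] at hi
      rcases hi with rfl | rfl | rfl | rfl | rfl | rfl | rfl
      all_goals first | exact Or.inl rfl | exact Or.inr ⟨by norm_num, by decide +kernel⟩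
    rcases hin with rfl | ⟨h24, hbit⟩
    · rw [hgp]
      simp
    · have hmem : g₁ (pt i) ∈ g₁ • S O5 := by
        have h2 : pt i ∈ S O5 := by
          rw [mem_S, gIdx_pt h24]
          exact hbit
        exact Finset.smul_mem_smul_finset h2
      rw [hfix _ hmem]
      simp
  have h2 : g = g₁ * (g₁⁻¹ * g * g₁) * g₁⁻¹ := by group
  rw [h2, h1]
  group

/-- An octad stabiliser is a split extension: the joint stabiliser of the octad and a point outside it is a complement to the pointwise stabiliser of the octad, and is isomorphic to the alternating group of degree 8. -/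
theorem result (o : Finset Cfsg.GolayPt) (ho : o ∈ Cfsg.octads) (p : Cfsg.GolayPt) (hp : p ∉ o) : (Cfsg.M24 ⊓ fixingSubgroup (Equiv.Perm Cfsg.GolayPt) (o : Set Cfsg.GolayPt)) ⊓ (Cfsg.M24 ⊓ MulAction.stabilizer (Equiv.Perm Cfsg.GolayPt) o ⊓ MulAction.stabilizer (Equiv.Perm Cfsg.GolayPt) p) = ⊥ ∧ (Cfsg.M24 ⊓ fixingSubgroup (Equiv.Perm Cfsg.GolayPt) (o : Set Cfsg.GolayPt)) ⊔ (Cfsg.M24 ⊓ MulAction.stabilizer (Equiv.Perm Cfsg.GolayPt) o ⊓ MulAction.stabilizer (Equiv.Perm Cfsg.GolayPt) p) = (Cfsg.M24 ⊓ MulAction.stabilizer (Equiv.Perm Cfsg.GolayPt) o) ∧ Nonempty (↥(Cfsg.M24 ⊓ MulAction.stabilizer (Equiv.Perm Cfsg.GolayPt) o ⊓ MulAction.stabilizer (Equiv.Perm Cfsg.GolayPt) p) ≃* alternatingGroup (Fin 8)) := by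
  have hbot : (Cfsg.M24 ⊓ fixingSubgroup (Equiv.Perm Cfsg.GolayPt) (o : Set Cfsg.GolayPt))
      ⊓ (Cfsg.M24 ⊓ MulAction.stabilizer (Equiv.Perm Cfsg.GolayPt) o
        ⊓ MulAction.stabilizer (Equiv.Perm Cfsg.GolayPt) p) = ⊥ := by
    rw [eq_bot_iff]
    intro g hg
    obtain ⟨hE, hA⟩ := Subgroup.mem_inf.1 hg
    obtain ⟨hM, hF⟩ := Subgroup.mem_inf.1 hE
    have hgp : g p = p := (Subgroup.mem_inf.1 hA).2
    rw [mem_fixingSubgroup_iff] at hF
    exact Subgroup.mem_bot.2 (fix_octad_pt o ho p hp g hM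
      (fun y hy => hF y (Finset.mem_coe.2 hy)) hgp)
  have hAK : (Cfsg.M24 ⊓ MulAction.stabilizer (Equiv.Perm Cfsg.GolayPt) o
        ⊓ MulAction.stabilizer (Equiv.Perm Cfsg.GolayPt) p) ≤ Cfsg.Agent.S1553.stabP o :=
    inf_le_left
  have hdecomp : ∀ g ∈ Cfsg.Agent.S1553.stabP o,
      ∃ a ∈ (Cfsg.M24 ⊓ fixingSubgroup (Equiv.Perm Cfsg.GolayPt) (o : Set Cfsg.GolayPt)),
      ∃ b ∈ (Cfsg.M24 ⊓ MulAction.stabilizer (Equiv.Perm Cfsg.GolayPt) o
        ⊓ MulAction.stabilizer (Equiv.Perm Cfsg.GolayPt) p), g = a * b := by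
    intro g hg
    obtain ⟨hM, hS⟩ := Subgroup.mem_inf.1 hg
    have hgp : g p ∉ o := fun h => hp ((Cfsg.Agent.S1553.stab_iff o g hS p).1 h)
    obtain ⟨a, ha, hap⟩ := E_trans o ho p (g p) hp hgp
    refine ⟨a, ha, a⁻¹ * g, ?_, by group⟩
    have haK := Cfsg.Agent.S1553.fix_le_stabP o ha
    refine Subgroup.mem_inf.2 ⟨Subgroup.mul_mem _ (Subgroup.inv_mem _ haK) hg, ?_⟩
    rw [MulAction.mem_stabilizer_iff]
    show (a⁻¹ * g) p = p
    rw [Equiv.Perm.mul_apply, ← hap]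
    simp
  refine ⟨hbot, ?_, ?_⟩
  · apply le_antisymm
    · exact sup_le (Cfsg.Agent.S1553.fix_le_stabP o) hAK
    · intro g hg
      obtain ⟨a, ha, b, hb, rfl⟩ := hdecomp g hg
      exact Subgroup.mul_mem_sup ha hb
  · have hinj : Function.Injective
        ((Cfsg.Agent.S1553.restr o).comp (Subgroup.inclusion hAK)) := by
      rw [injective_iff_map_eq_one]
      intro a ha
      have h1 : Subgroup.inclusion hAK a ∈ (Cfsg.Agent.S1553.restr o).ker := ha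
      rw [Cfsg.Agent.S1553.ker_restr, Subgroup.mem_subgroupOf] at h1
      have h2 : (a : Equiv.Perm Cfsg.GolayPt) ∈
          (Cfsg.M24 ⊓ fixingSubgroup (Equiv.Perm Cfsg.GolayPt) (o : Set Cfsg.GolayPt))
          ⊓ (Cfsg.M24 ⊓ MulAction.stabilizer (Equiv.Perm Cfsg.GolayPt) o
            ⊓ MulAction.stabilizer (Equiv.Perm Cfsg.GolayPt) p) := Subgroup.mem_inf.2 ⟨h1, a.2⟩
      rw [hbot, Subgroup.mem_bot] at h2
      exact Subtype.ext h2
    have hrange : ((Cfsg.Agent.S1553.restr o).comp (Subgroup.inclusion hAK)).range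
        = alternatingGroup ↥o := by
      rw [← Cfsg.Agent.S1553.range_restr o ho]
      apply le_antisymm
      · rintro _ ⟨a, rfl⟩
        exact ⟨_, rfl⟩
      · rintro _ ⟨g, rfl⟩
        obtain ⟨a, ha, b, hb, hgab⟩ := hdecomp g.1 g.2
        refine ⟨⟨b, hb⟩, ?_⟩
        have hg' : g = (⟨a, Cfsg.Agent.S1553.fix_le_stabP o ha⟩ : ↥(Cfsg.Agent.S1553.stabP o))
            * ⟨b, hAK hb⟩ := Subtype.ext hgab
        have hka : Cfsg.Agent.S1553.restr o ⟨a, Cfsg.Agent.S1553.fix_le_stabP o ha⟩ = 1 := by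
          rw [← MonoidHom.mem_ker, Cfsg.Agent.S1553.ker_restr, Subgroup.mem_subgroupOf]
          exact ha
        rw [hg', map_mul, hka, one_mul]
        rfl
    have e1 := MonoidHom.ofInjective hinj
    have e2 := MulEquiv.subgroupCongr hrange
    have e3 : ↥o ≃ Fin 8 := Fintype.equivFinOfCardEq (by rw [Fintype.card_coe]; exact ho.2)
    exact ⟨(e1.trans e2).trans (Equiv.altCongrHom e3)⟩

end Cfsg.Agent.S1554
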