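import Cfsg.Statements.S0354
import Mathlib
import Cfsg.Agent.Lib.Helper1.Steiner
import Cfsg.Agent.S0352

set_option autoImplicit false
open Cfsg

namespace Cfsg.Agent.S0354


theorem key2 : ∀ m : ℕ, (m = 0 ∨ m = 2 ∨ m = 4) →
    8 * (if m = 0 then 1 else 0) + 5 * Nat.choose m 1 = 8 * Nat.choose m 0 + 2 * Nat.choose m 2 := by
  rintro m (rfl | rfl | rfl) <;> decide

/-- In an S(5, 8, 24), each block is disjoint from exactly 30 blocks. -/
theorem result {α : Type*} [Fintype α] [DecidableEq α] (hα : Fintype.card α = 24) {B : Set (Finset α)} (hB : Cfsg.IsSteinerSystem 5 8 B) {b : Finset α} (hb : b ∈ B) : {c : Finset α | c ∈ B ∧ Disjoint b c}.ncard = 30 := by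
  classical
  obtain ⟨Bf, hBf, -⟩ := Cfsg.Agent.Lib.Helper1.exists_blockFinset B
  have e0 := Cfsg.Agent.Lib.Helper1.steiner_inter_sum_erase hB Bf hBf b hb 0 (by norm_num)
  have e1 := Cfsg.Agent.Lib.Helper1.steiner_inter_sum_erase hB Bf hBf b hb 1 (by norm_num)
  have e2 := Cfsg.Agent.Lib.Helper1.steiner_inter_sum_erase hB Bf hBf b hb 2 (by norm_num)
  obtain ⟨S0, hS0⟩ : ∃ S, S = ∑ c ∈ Bf.erase b, Nat.choose (b ∩ c).card 0 := ⟨_, rfl⟩
  rw [← hS0, hα] at e0
  norm_num [Nat.choose] at e0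
  obtain ⟨S1, hS1⟩ : ∃ S, S = ∑ c ∈ Bf.erase b, Nat.choose (b ∩ c).card 1 := ⟨_, rfl⟩
  rw [← hS1, hα] at e1
  norm_num [Nat.choose] at e1
  obtain ⟨S2, hS2⟩ : ∃ S, S = ∑ c ∈ Bf.erase b, Nat.choose (b ∩ c).card 2 := ⟨_, rfl⟩
  rw [← hS2, hα] at e2
  norm_num [Nat.choose] at e2
  have hterm : ∀ c ∈ Bf.erase b, 8 * (if Disjoint b c then 1 else 0)
      + 5 * Nat.choose (b ∩ c).card 1
      = 8 * Nat.choose (b ∩ c).card 0 + 2 * Nat.choose (b ∩ c).card 2 := by
    intro c hc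
    obtain ⟨hcb, hcB⟩ := Finset.mem_erase.1 hc
    have h3 := Cfsg.Agent.S0352.result hα hB hb ((hBf c).1 hcB) (Ne.symm hcb)
    have h4 := key2 _ h3
    have h5 : Disjoint b c ↔ (b ∩ c).card = 0 := by
      rw [Finset.card_eq_zero, Finset.disjoint_iff_inter_eq_empty]
    simp only [h5]
    exact h4
  have hsum := Finset.sum_congr rfl hterm
  simp only [Finset.sum_add_distrib, ← Finset.mul_sum] at hsum
  rw [← hS0, ← hS1, ← hS2, ← Finset.card_filter] at hsum
  have hset : {c : Finset α | c ∈ B ∧ Disjoint b c}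
      = ↑((Bf.erase b).filter (fun c => Disjoint b c)) := by
    ext c
    simp only [Set.mem_setOf_eq, Finset.coe_filter, Finset.mem_erase, hBf]
    constructor
    · rintro ⟨hcB, hd⟩
      refine ⟨⟨?_, hcB⟩, hd⟩
      rintro rfl
      have h6 : c = ∅ := by simpa using hd
      have h8 := hB.1 c hcB
      rw [h6] at h8; simp at h8
    · rintro ⟨⟨-, hcB⟩, hd⟩
      exact ⟨hcB, hd⟩
  rw [hset, Set.ncard_coe_finset]
  omega

end Cfsg.Agent.S0354
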