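import Cfsg.Statements.S0024
import Mathlib
import Cfsg.Agent.Lib.Lead.SylowAux2
import Cfsg.Agent.Lib.Lead.Glauberman2

set_option autoImplicit false
open Pointwise
open Cfsg Cfsg.Agent.Lib.Lead

namespace Cfsg.Agent.S0024

open scoped Pointwise commutatorElement

/-- Under coprime action (A normalising K, coprime orders, A or K solvable), any two A-invariant Sylow p-subgroups of K are conjugate by an element of the centraliser of A in K. -/
theorem result {G : Type*} [Group G] [Finite G] (A K : Subgroup G) (hAK : A ≤ Subgroup.normalizer (K : Set G))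
    (hcop : (Nat.card A).Coprime (Nat.card K)) (hsolv : Group.IsSolvable A ∨ Group.IsSolvable K)
    (p : ℕ) [Fact p.Prime] (P Q : Sylow p K)
    (hP : A ≤ Subgroup.normalizer ((P : Subgroup K).map K.subtype : Set G))
    (hQ : A ≤ Subgroup.normalizer ((Q : Subgroup K).map K.subtype : Set G)) :
    ∃ c : K, (c : G) ∈ Subgroup.centralizer (A : Set G) ∧ MulAut.conj c • P = Q := by
  obtain ⟨k, hk⟩ := MulAction.exists_smul_eq K P Q
  have hQG : (Q : Subgroup K).map K.subtype =
      MulAut.conj (k : G) • (P : Subgroup K).map K.subtype := by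
    rw [← hk, sylow_map_smul]
  have hNA : A ≤ Subgroup.normalizer ((K ⊓ Subgroup.normalizer
      (((Q : Subgroup K).map K.subtype : Subgroup G) : Set G) : Subgroup G) : Set G) := by
    apply le_normalizer_of_conj_mem
    intro a ha n hn
    exact ⟨conj_mem_of_mem_normalizer (hAK ha) hn.1,
      Subgroup.mul_mem _ (Subgroup.mul_mem _ (hQ ha) hn.2) (Subgroup.inv_mem _ (hQ ha))⟩
  have hcopN : (Nat.card A).Coprime (Nat.card (K ⊓ Subgroup.normalizer
      (((Q : Subgroup K).map K.subtype : Subgroup G) : Set G) : Subgroup G)) :=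
    Nat.Coprime.coprime_dvd_right (Subgroup.card_dvd_of_le inf_le_left) hcop
  have hNs : Group.IsSolvable A ∨ Group.IsSolvable (K ⊓ Subgroup.normalizer
      (((Q : Subgroup K).map K.subtype : Subgroup G) : Set G) : Subgroup G) := by
    rcases hsolv with hs | hs
    · exact Or.inl hs
    · exact Or.inr (Group.isSolvable_of_isSolvable_injective
        (Subgroup.inclusion_injective (inf_le_left : K ⊓ Subgroup.normalizer
          (((Q : Subgroup K).map K.subtype : Subgroup G) : Set G) ≤ K)))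
  have hkk : ∀ a ∈ A, a⁻¹ * (((k : G)⁻¹)⁻¹ * a * (k : G)⁻¹) ∈ K ⊓ Subgroup.normalizer
      (((Q : Subgroup K).map K.subtype : Subgroup G) : Set G) := by
    intro a ha
    constructor
    · have h1 : a⁻¹ * (((k : G)⁻¹)⁻¹ * a * (k : G)⁻¹) =
          (a⁻¹ * (k : G) * a⁻¹⁻¹) * (k : G)⁻¹ := by group
      rw [h1]
      exact K.mul_mem (conj_mem_of_mem_normalizer (hAK (A.inv_mem ha)) k.2) (K.inv_mem k.2)
    · apply Subgroup.mul_mem _ (Subgroup.inv_mem _ (hQ ha))
      rw [inv_inv, hQG]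
      apply mem_normalizer_of_conj_mem
      intro x hx
      rw [mem_conj_smul] at hx ⊢
      have h2 := conj_mem_of_mem_normalizer (hP ha) hx
      have h3 : (k : G)⁻¹ * ((k : G) * a * (k : G)⁻¹ * x * ((k : G) * a * (k : G)⁻¹)⁻¹) * (k : G)
          = a * ((k : G)⁻¹ * x * (k : G)) * a⁻¹ := by group
      rw [h3]; exact h2
  obtain ⟨n, hn, hn2⟩ := coprime_fix A _ hNA hcopN hNs ((k : G)⁻¹) hkk
  have hcK : (k : G)⁻¹ * n ∈ K := K.mul_mem (K.inv_mem k.2) hn.1
  have hcC : (k : G)⁻¹ * n ∈ Subgroup.centralizer (A : Set G) :=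
    mem_centralizer_of_normalizes A K hAK hcop _ hcK hn2
  refine ⟨(⟨n, hn.1⟩ : K)⁻¹ * k, ?_, ?_⟩
  · have h4 : (((⟨n, hn.1⟩ : K)⁻¹ * k : K) : G) = ((k : G)⁻¹ * n)⁻¹ := by
      show n⁻¹ * (k : G) = _
      group
    rw [h4]; exact Subgroup.inv_mem _ hcC
  · rw [← Sylow.smul_def, mul_smul, hk, Sylow.smul_eq_iff_mem_normalizer]
    apply Subgroup.inv_mem
    have h6 : (⟨n, hn.1⟩ : K) ∈ Subgroup.normalizer ((Q : Subgroup K) : Set K) := by
      apply mem_normalizer_of_conj_mem
      intro y hy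
      have h5 : n * (y : G) * n⁻¹ ∈ (Q : Subgroup K).map K.subtype :=
        conj_mem_of_mem_normalizer hn.2 ⟨y, hy, rfl⟩
      have e2 : n * (y : G) * n⁻¹ ∈ (Q : Subgroup K).map K.subtype ↔
          (⟨n, hn.1⟩ : K) * y * (⟨n, hn.1⟩ : K)⁻¹ ∈ (Q : Subgroup K) :=
        Subgroup.mem_map_iff_mem (f := K.subtype) K.subtype_injective
          (x := (⟨n, hn.1⟩ : K) * y * (⟨n, hn.1⟩ : K)⁻¹)
      exact e2.mp h5
    exact h6

end Cfsg.Agent.S0024
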