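import Mathlib
import Cfsg.Statements.S1280
import Cfsg.Agent.Lib.Helper2.Signal

set_option autoImplicit false
open Cfsg

namespace Cfsg.Agent.S1280

/-- Let θ be a solvable A-signalizer functor (A a noncyclic elementary abelian p-subgroup of the finite group G), and X, Y members of its family with Y ≤ N_G(X). Then X ⊔ Y (= XY) is again in the family. -/
theorem result {G : Type*} [Group G] [Finite G] (p : ℕ) [Fact p.Prime] (A : Subgroup G) (hA : Cfsg.IsElementaryAbelian p A) (hA2 : p ^ 2 ≤ Nat.card ↥A) (θ : G → Subgroup G) (hθ : Cfsg.IsSolvableSignalizerFunctor p A θ) (X Y : Subgroup G) (hX : X ∈ Cfsg.signalizerFamily p A θ) (hY : Y ∈ Cfsg.signalizerFamily p A θ) (hn : Y ≤ Subgroup.normalizer (X : Set G)) : X ⊔ Y ∈ Cfsg.signalizerFamily p A θ := by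
  obtain ⟨hXs, hXp, hXinv, hXθ⟩ := hX
  obtain ⟨hYs, hYp, hYinv, hYθ⟩ := hY
  have hp : p.Prime := Fact.out
  have hAX : A ≤ Subgroup.normalizer (X : Set G) :=
    Cfsg.Agent.Lib.Helper4.le_normalizer_of_conj_mem hXinv
  have hAY : A ≤ Subgroup.normalizer (Y : Set G) :=
    Cfsg.Agent.Lib.Helper4.le_normalizer_of_conj_mem hYinv
  have hdecomp : ∀ g ∈ X ⊔ Y, ∃ y ∈ Y, ∃ x ∈ X, g = y * x := by
    intro g hg
    rw [sup_comm] at hg
    exact Cfsg.Agent.Lib.Helper3.exists_mul_of_mem_sup_of_le_normalizer Y X hn hg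
  refine ⟨Cfsg.Agent.Lib.Helper2.isSolvable_sup_of_le_normalizer X Y hn hXs hYs, ?_, ?_, ?_⟩
  · intro hdvd
    rw [sup_comm] at hdvd
    rcases Cfsg.Agent.Lib.Helper3.prime_dvd_card_sup Y X hn hp hdvd with h | h
    · exact hYp h
    · exact hXp h
  · intro b hb u hu
    obtain ⟨y, hy, x, hx, rfl⟩ := hdecomp u hu
    have h1 : b * (y * x) * b⁻¹ = (b * y * b⁻¹) * (b * x * b⁻¹) := by group
    rw [h1]
    exact Subgroup.mul_mem _ (Subgroup.mem_sup_right (hYinv b hb y hy))
      (Subgroup.mem_sup_left (hXinv b hb x hx))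
  · intro a ha ha1 g hg
    obtain ⟨hg1, hg2⟩ := hg
    obtain ⟨y, hy, x, hx, rfl⟩ := hdecomp g hg1
    have hcomm' : a * (y * x) = y * x * a := Subgroup.mem_centralizer_iff.mp hg2 a rfl
    have hap : a ^ p = 1 := hA.2 a ha
    have haX := hAX ha
    have haY := hAY ha
    have hfix : a * y * a⁻¹ * y⁻¹ ∈ X ⊓ Y := by
      constructor
      · have h2 : a * y = y * x * a * x⁻¹ :=
          eq_mul_inv_of_mul_eq (by rw [mul_assoc]; exact hcomm')
        have h1 : a * y * a⁻¹ * y⁻¹ = y * (x * (a * x * a⁻¹)⁻¹) * y⁻¹ := by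
          rw [h2]; group
        rw [h1]
        exact (Subgroup.mem_normalizer_iff.mp (hn hy) _).mp
          (X.mul_mem hx (X.inv_mem (hXinv a ha x hx)))
      · exact Y.mul_mem (hYinv a ha y hy) (Y.inv_mem hy)
    obtain ⟨c, hcY, hca, hcN⟩ := Cfsg.Agent.Lib.Helper2.coprime_elt_coset_fix p a hap Y (X ⊓ Y)
      hYp haY inf_le_right
      (fun y' hy' => Cfsg.Agent.Lib.Helper2.mem_normalizer_inf X Y y' (hn hy')
        (Subgroup.le_normalizer hy'))
      (Cfsg.Agent.Lib.Helper2.mem_normalizer_inf X Y a haX haY) y hy hfix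
    have hx' : c⁻¹ * y * x ∈ X := by
      have h3 : c⁻¹ * y = (y⁻¹ * c)⁻¹ := by group
      rw [h3]
      exact X.mul_mem (X.inv_mem hcN.1) hx
    have h5 : y * x = c * (c⁻¹ * y * x) := by group
    rw [h5]
    have h6 : a * c⁻¹ = c⁻¹ * a := by
      rw [eq_inv_mul_iff_mul_eq, ← mul_assoc, hca, mul_inv_cancel_right]
    have hcC : c ∈ Subgroup.centralizer ({a} : Set G) := by
      rw [Subgroup.mem_centralizer_iff]
      intro h hh
      rw [Set.mem_singleton_iff] at hh
      subst hh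
      exact hca.symm
    have hxC : c⁻¹ * y * x ∈ Subgroup.centralizer ({a} : Set G) := by
      rw [Subgroup.mem_centralizer_iff]
      intro h hh
      rw [Set.mem_singleton_iff] at hh
      subst hh
      calc h * (c⁻¹ * y * x) = (h * c⁻¹) * (y * x) := by group
        _ = c⁻¹ * (h * (y * x)) := by rw [h6]; group
        _ = c⁻¹ * (y * x * h) := by rw [hcomm']
        _ = c⁻¹ * y * x * h := by group
    exact (θ a).mul_mem (hYθ a ha ha1 ⟨hcY, hcC⟩) (hXθ a ha ha1 ⟨hx', hxC⟩)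

end Cfsg.Agent.S1280
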