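import Mathlib
import Cfsg.Statements.S1282
import Cfsg.Agent.Lib.Helper2.GenCoprime3

set_option autoImplicit false
open Cfsg

namespace Cfsg.Agent.S1282

/-- Let A be an elementary abelian p-subgroup of rank at least 3 of the finite group G, q ≠ p a prime, and Q₁, Q₂ q-subgroups normalized by A with D = Q₁ ∩ Q₂ different from both. Then there is a non-identity a ∈ A such that, for i = 1 and i = 2, N_{Q_i}(D) ∩ C_G(a) is not contained in D. -/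
theorem result {G : Type*} [Group G] [Finite G] (p : ℕ) [Fact p.Prime] (A : Subgroup G) (hA : Cfsg.IsElementaryAbelian p A) (hA3 : p ^ 3 ≤ Nat.card ↥A) (q : ℕ) [Fact q.Prime] (hqp : q ≠ p) (Q₁ Q₂ : Subgroup G) (h₁ : IsPGroup q ↥Q₁) (h₂ : IsPGroup q ↥Q₂) (hA₁ : A ≤ Subgroup.normalizer (Q₁ : Set G)) (hA₂ : A ≤ Subgroup.normalizer (Q₂ : Set G)) (hD₁ : Q₁ ⊓ Q₂ ≠ Q₁) (hD₂ : Q₁ ⊓ Q₂ ≠ Q₂) : ∃ a ∈ A, a ≠ 1 ∧ ¬ (Subgroup.normalizer ((Q₁ ⊓ Q₂ : Subgroup G) : Set G) ⊓ Q₁ ⊓ Subgroup.centralizer {a} ≤ Q₁ ⊓ Q₂) ∧ ¬ (Subgroup.normalizer ((Q₁ ⊓ Q₂ : Subgroup G) : Set G) ⊓ Q₂ ⊓ Subgroup.centralizer {a} ≤ Q₁ ⊓ Q₂) := by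
  have hcommA : ∀ a ∈ A, ∀ b ∈ A, a * b = b * a := by
    intro a ha b hb
    have := hA.1.is_comm.comm ⟨a, ha⟩ ⟨b, hb⟩
    exact congrArg Subtype.val this
  have hp : p.Prime := Fact.out
  have hAD : A ≤ Subgroup.normalizer ((Q₁ ⊓ Q₂ : Subgroup G) : Set G) :=
    fun a ha => Cfsg.Agent.Lib.Helper2.mem_normalizer_inf _ _ a (hA₁ ha) (hA₂ ha)
  obtain ⟨B₁, hB₁A, hB₁rel, hB₁⟩ := Cfsg.Agent.Lib.Helper2.exists_hyperplane_fix p q hqp A Q₁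
    (Q₁ ⊓ Q₂) hcommA hA.2 h₁ hA₁ hAD inf_le_left hD₁
  obtain ⟨B₂, hB₂A, hB₂rel, hB₂⟩ := Cfsg.Agent.Lib.Helper2.exists_hyperplane_fix p q hqp A Q₂
    (Q₁ ⊓ Q₂) hcommA hA.2 h₂ hA₂ hAD inf_le_right hD₂
  have hne : B₁ ⊓ B₂ ≠ ⊥ := by
    intro hbot
    have h1 : (B₁ ⊓ B₂).relIndex A ≤ B₁.relIndex A * B₂.relIndex A := Subgroup.relIndex_inf_le
    rw [hbot, Subgroup.relIndex_bot_left] at h1
    have h2 : B₁.relIndex A ≤ p := Nat.le_of_dvd hp.pos hB₁rel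
    have h3 : B₂.relIndex A ≤ p := Nat.le_of_dvd hp.pos hB₂rel
    have h4 : B₁.relIndex A * B₂.relIndex A ≤ p * p := Nat.mul_le_mul h2 h3
    have h5 : p * p < p ^ 3 := by
      have : p ^ 3 = p * p * p := by ring
      rw [this]
      have hp2 : 2 ≤ p := hp.two_le
      have hpp : 0 < p * p := Nat.mul_pos hp.pos hp.pos
      nlinarith
    omega
  have hex : ∃ a ∈ B₁ ⊓ B₂, a ≠ 1 := by
    by_contra hno
    push Not at hno
    exact hne ((Subgroup.eq_bot_iff_forall _).mpr hno)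
  obtain ⟨a, ha, ha1⟩ := hex
  refine ⟨a, hB₁A ha.1, ha1, ?_, ?_⟩
  · intro hle
    apply hB₁
    refine le_trans (inf_le_inf_left _ (Subgroup.centralizer_le ?_)) hle
    intro z hz
    rw [Set.mem_singleton_iff] at hz
    rw [hz]
    exact ha.1
  · intro hle
    apply hB₂
    refine le_trans (inf_le_inf_left _ (Subgroup.centralizer_le ?_)) hle
    intro z hz
    rw [Set.mem_singleton_iff] at hz
    rw [hz]
    exact ha.2

end Cfsg.Agent.S1282
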