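import Mathlib
import Cfsg.Statements.S1224
import Cfsg.Agent.Lib.Helper2.SEmb

set_option autoImplicit false
open Cfsg

namespace Cfsg.Agent.S1224

/-- Let H be a strongly embedded subgroup of the finite group G and x ≠ y two cosets in G/H. Then the number of involutions i of G with i • x = y equals the number of involutions lying in H. -/
theorem result {G : Type*} [Group G] [Finite G] (H : Subgroup G) (hH : Cfsg.IsStronglyEmbedded H) (x y : G ⧸ H) (hxy : x ≠ y) : Nat.card {i : G // orderOf i = 2 ∧ i • x = y} = Nat.card {t : G // orderOf t = 2 ∧ t ∈ H} := by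
  have hfix := Cfsg.Agent.Lib.Helper2.se_invol_fix H hH
  rw [Cfsg.Agent.Lib.Helper2.card_invol_swap hfix x y hxy]
  obtain ⟨g, rfl⟩ := QuotientGroup.mk_surjective x
  have h1 := Cfsg.Agent.Lib.Helper2.card_invol_fix_eq (G := G) (((1 : G) : G ⧸ H)) g
  have h2 : g • (((1 : G) : G ⧸ H)) = (g : G ⧸ H) := by
    show (((g * 1 : G)) : G ⧸ H) = (g : G ⧸ H)
    rw [mul_one]
  rw [h2] at h1
  rw [h1]
  exact Nat.card_congr (Equiv.subtypeEquivRight (fun i => by
    rw [Cfsg.Agent.Lib.Helper2.smul_mk_one_eq_iff]))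

end Cfsg.Agent.S1224
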