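import Mathlib
import Cfsg.Statements.S1226
import Cfsg.Agent.Lib.Lead.SylowAux

set_option autoImplicit false
open Cfsg

namespace Cfsg.Agent.S1226

/-- Let G be a finite group with a Sylow 2-subgroup T that is neither cyclic nor normal, such that the centralizer of every involution is an elementary abelian 2-group. Then N_G(T) is a strongly embedded subgroup of G. -/
theorem result {G : Type*} [Group G] [Finite G] (T : Sylow 2 G) (hnc : ¬ IsCyclic (T : Subgroup G)) (hnn : ¬ (T : Subgroup G).Normal) (hC : ∀ t : G, orderOf t = 2 → IsMulCommutative (Subgroup.centralizer ({t} : Set G)) ∧ ∀ c ∈ Subgroup.centralizer ({t} : Set G), c ^ 2 = 1) : Cfsg.IsStronglyEmbedded (Subgroup.normalizer ((T : Subgroup G) : Set G)) := by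
  classical
  haveI : Fact (Nat.Prime 2) := ⟨Nat.prime_two⟩
  have hTne : (T : Subgroup G) ≠ ⊥ := by
    intro h0; apply hnn; rw [h0]; infer_instance
  haveI hnt : Nontrivial ↥(T : Subgroup G) := (Subgroup.nontrivial_iff_ne_bot _).mpr hTne
  haveI hcnt := T.2.center_nontrivial
  have hcp : IsPGroup 2 ↥(Subgroup.center ↥(T : Subgroup G)) := T.2.to_subgroup _
  obtain ⟨m, hm⟩ := IsPGroup.iff_card.mp hcp
  have h2dvd : 2 ∣ Nat.card ↥(Subgroup.center ↥(T : Subgroup G)) := by
    rw [hm]
    have hm0 : m ≠ 0 := by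
      intro h0; rw [h0, pow_zero] at hm
      exact (Finite.one_lt_card (α := ↥(Subgroup.center ↥(T : Subgroup G)))).ne' hm
    exact dvd_pow_self 2 hm0
  obtain ⟨x, hx⟩ := exists_prime_orderOf_dvd_card' 2 h2dvd
  have hzord : orderOf (((x : ↥(T : Subgroup G)) : G)) = 2 := by
    rw [Subgroup.orderOf_coe, Subgroup.orderOf_coe]; exact hx
  have hzT : ((x : ↥(T : Subgroup G)) : G) ∈ (T : Subgroup G) := (x : ↥(T : Subgroup G)).2
  have hTleCz : (T : Subgroup G) ≤ Subgroup.centralizer {((x : ↥(T : Subgroup G)) : G)} := by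
    intro y hy
    rw [Subgroup.mem_centralizer_iff]
    intro h hh
    rw [Set.mem_singleton_iff] at hh
    rw [hh]
    have h1 := Subgroup.mem_center_iff.mp x.2 ⟨y, hy⟩
    exact (congrArg Subtype.val h1).symm
  generalize ((x : ↥(T : Subgroup G)) : G) = z at hzord hzT hTleCz
  have hC2 : ∀ t : G, orderOf t = 2 → IsPGroup 2 ↥(Subgroup.centralizer ({t} : Set G)) := by
    intro t ht c
    refine ⟨1, ?_⟩
    apply Subtype.ext
    have h1 := (hC t ht).2 c.1 c.2
    simpa using h1
  have hTeq : ∀ t : G, orderOf t = 2 → (T : Subgroup G) ≤ Subgroup.centralizer {t} →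
      Subgroup.centralizer ({t} : Set G) = T := by
    intro t ht hle
    exact T.3 (hC2 t ht) hle
  have hCz := hTeq z hzord hTleCz
  have hTcomm : ∀ a ∈ (T : Subgroup G), ∀ b ∈ (T : Subgroup G), a * b = b * a := by
    intro a ha b hb
    rw [← hCz] at ha hb
    have h0 := (hC z hzord).1
    have h1 : (⟨a, ha⟩ : ↥(Subgroup.centralizer ({z} : Set G))) * ⟨b, hb⟩ = ⟨b, hb⟩ * ⟨a, ha⟩ :=
      h0.is_comm.comm _ _
    exact congrArg Subtype.val h1
  have hinv : ∀ s ∈ (T : Subgroup G), orderOf s = 2 → Subgroup.centralizer ({s} : Set G) = T := by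
    intro s hs hs2
    apply hTeq s hs2
    intro y hy
    rw [Subgroup.mem_centralizer_iff]
    intro h hh
    rw [Set.mem_singleton_iff] at hh
    rw [hh]
    exact hTcomm s hs y hy
  have hmemT : ∀ s ∈ Subgroup.normalizer ((T : Subgroup G) : Set G), orderOf s = 2 →
      s ∈ (T : Subgroup G) := by
    intro s hs hs2
    exact Cfsg.Agent.Lib.Lead.mem_sylow_of_normalizes T
      (Cfsg.Agent.Lib.Lead.isPGroup_zpowers_invol hs2) hs
  refine ⟨?_, ?_, ?_⟩
  · intro htop
    apply hnn
    exact Subgroup.normalizer_eq_top_iff.mp htop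
  · have h1 : Nat.card ↥(T : Subgroup G) ∣
        Nat.card ↥(Subgroup.normalizer ((T : Subgroup G) : Set G)) :=
      Subgroup.card_dvd_of_le Subgroup.le_normalizer
    have h2 : 2 ∣ Nat.card ↥(T : Subgroup G) := by
      have h3 : orderOf (⟨z, hzT⟩ : ↥(T : Subgroup G)) ∣ Nat.card ↥(T : Subgroup G) :=
        orderOf_dvd_natCard _
      rwa [Subgroup.orderOf_mk, hzord] at h3
    exact even_iff_two_dvd.mpr (dvd_trans h2 h1)
  · intro g hg
    by_contra hodd
    rw [Nat.not_odd_iff_even, even_iff_two_dvd] at hodd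
    obtain ⟨y, hy⟩ := exists_prime_orderOf_dvd_card' 2 hodd
    have hy2 : orderOf (y : G) = 2 := by rw [Subgroup.orderOf_coe]; exact hy
    have hy1 : (y : G) ∈ Subgroup.normalizer ((T : Subgroup G) : Set G) := y.2.1
    obtain ⟨m', hm', hm'eq⟩ := Subgroup.mem_map.mp y.2.2
    have hm'eq' : g * m' * g⁻¹ = (y : G) := hm'eq
    have hm'2 : orderOf m' = 2 := by
      rw [← hy2, ← hm'eq']; exact (Cfsg.Agent.Lib.Lead.orderOf_conj_eq g m').symm
    have hyT := hmemT _ hy1 hy2
    have hm'T := hmemT _ hm' hm'2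
    have hCy := hinv _ hyT hy2
    have hCm := hinv _ hm'T hm'2
    apply hg
    rw [Subgroup.mem_normalizer_iff]
    intro n
    have key : n ∈ Subgroup.centralizer ({m'} : Set G) ↔
        g * n * g⁻¹ ∈ Subgroup.centralizer ({(y : G)} : Set G) := by
      rw [Subgroup.mem_centralizer_iff, Subgroup.mem_centralizer_iff]
      constructor
      · intro h1 h hh
        rw [Set.mem_singleton_iff] at hh
        rw [hh, ← hm'eq']
        have h2 := h1 m' (Set.mem_singleton _)
        calc g * m' * g⁻¹ * (g * n * g⁻¹) = g * (m' * n) * g⁻¹ := by group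
          _ = g * (n * m') * g⁻¹ := by rw [h2]
          _ = g * n * g⁻¹ * (g * m' * g⁻¹) := by group
      · intro h1 h hh
        rw [Set.mem_singleton_iff] at hh
        rw [hh]
        have h2 := h1 (y : G) (Set.mem_singleton _)
        rw [← hm'eq'] at h2
        calc m' * n = g⁻¹ * (g * m' * g⁻¹ * (g * n * g⁻¹)) * g := by group
          _ = g⁻¹ * (g * n * g⁻¹ * (g * m' * g⁻¹)) * g := by rw [h2]
          _ = n * m' := by group
    rw [hCm, hCy] at key
    exact key

end Cfsg.Agent.S1226
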