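import Mathlib
import Cfsg.Statements.S1225
import Cfsg.Agent.Lib.Helper2.SEmb

set_option autoImplicit false
open Cfsg

namespace Cfsg.Agent.S1225

/-- Let H be a strongly embedded subgroup of the finite group G, u an involution outside H and D = H ∩ uHu⁻¹. Then any two involutions of H are conjugate by an element of D, and any two involutions of G are conjugate in G. -/
theorem result {G : Type*} [Group G] [Finite G] (H : Subgroup G) (hH : Cfsg.IsStronglyEmbedded H) (u : G) (hu : orderOf u = 2) (huH : u ∉ H) (s t : G) (hs : orderOf s = 2) (hsH : s ∈ H) (ht : orderOf t = 2) (htH : t ∈ H) : (∃ d ∈ (H ⊓ H.map (MulAut.conj u).toMonoidHom), d * s * d⁻¹ = t) ∧ ∀ a b : G, orderOf a = 2 → orderOf b = 2 → IsConj a b := by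
  have hfix := Cfsg.Agent.Lib.Helper2.se_invol_fix H hH
  have huu := Cfsg.Agent.Lib.Helper2.invol_mul_self hu
  have huinv := Cfsg.Agent.Lib.Helper2.invol_inv hu
  constructor
  · have hxy : ((1 : G) : G ⧸ H) ≠ (u : G ⧸ H) := by
      intro h
      apply huH
      have h1 := QuotientGroup.eq.mp h
      simpa using h1
    have hsx : s • ((1 : G) : G ⧸ H) = ((1 : G) : G ⧸ H) :=
      (Cfsg.Agent.Lib.Helper2.smul_mk_one_eq_iff H s).mpr hsH
    have hty : (u * t * u⁻¹) • (u : G ⧸ H) = (u : G ⧸ H) := by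
      rw [Cfsg.Agent.Lib.Helper2.smul_mk_eq_iff]
      have e : u⁻¹ * (u * t * u⁻¹) * u = t := by group
      rw [e]; exact htH
    obtain ⟨w, hw, hws, hwx⟩ := Cfsg.Agent.Lib.Helper2.exists_invol_conj hfix hs
      (Cfsg.Agent.Lib.Helper2.orderOf_conj_two u ht) hsx hty hxy
    have hwinv := Cfsg.Agent.Lib.Helper2.invol_inv hw
    have hwu : w⁻¹ * u ∈ H := by
      have h0 : w • ((1 : G) : G ⧸ H) = ((w * 1 : G) : G ⧸ H) := rfl
      rw [h0, mul_one] at hwx
      exact QuotientGroup.eq.mp hwx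
    have hd1 : u⁻¹ * w ∈ H := by
      have h1 := H.inv_mem hwu
      have e : (w⁻¹ * u)⁻¹ = u⁻¹ * w := by group
      rwa [e] at h1
    have hd2 : u⁻¹ * w ∈ H.map (MulAut.conj u).toMonoidHom := by
      rw [Cfsg.Agent.Lib.Helper7.mem_map_conj]
      have e : u⁻¹ * (u⁻¹ * w) * u = (u * u)⁻¹ * (w * u) := by group
      rw [e, huu, inv_one, one_mul]
      rw [hwinv] at hwu
      exact hwu
    refine ⟨u⁻¹ * w, ⟨hd1, hd2⟩, ?_⟩
    have e : u⁻¹ * w * s * (u⁻¹ * w)⁻¹ = u⁻¹ * (w * s * w⁻¹) * u := by group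
    rw [e, hws]; group
  · intro a b ha hb
    obtain ⟨x, hax, -⟩ := hfix a ha
    obtain ⟨y, hby, -⟩ := hfix b hb
    have key : ∀ (c d : G) (xc xd : G ⧸ H), orderOf c = 2 → orderOf d = 2 → c • xc = xc →
        d • xd = xd → xc ≠ xd → IsConj c d := by
      intro c d xc xd hc hd hcx hdx hne
      obtain ⟨w, -, hws, -⟩ := Cfsg.Agent.Lib.Helper2.exists_invol_conj hfix hc hd hcx hdx hne
      exact isConj_iff.mpr ⟨w, hws⟩
    by_cases hxy : x = y
    · subst hxy
      have hex : ∃ z : G ⧸ H, z ≠ x := by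
        by_contra hcon
        push Not at hcon
        apply huH
        have h1 : ((1 : G) : G ⧸ H) = (u : G ⧸ H) := by rw [hcon ((1 : G) : G ⧸ H), hcon (u : G ⧸ H)]
        have h2 := QuotientGroup.eq.mp h1
        simpa using h2
      obtain ⟨z, hz⟩ := hex
      obtain ⟨g, hg⟩ := MulAction.exists_smul_eq G x z
      have hc2 := Cfsg.Agent.Lib.Helper2.orderOf_conj_two g ha
      have hcz : (g * a * g⁻¹) • z = z := by
        rw [← hg, smul_smul]
        have e : g * a * g⁻¹ * g = g * a := by group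
        rw [e, mul_smul, hax]
      exact (isConj_iff.mpr ⟨g, rfl⟩ : IsConj a (g * a * g⁻¹)).trans
        (key _ _ z x hc2 hb hcz hby hz)
    · exact key a b x y ha hb hax hby hxy

end Cfsg.Agent.S1225
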