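import Mathlib
import Cfsg.Statements.S1003
import Cfsg.Agent.Lib.Helper2.SimpleOrder4

set_option autoImplicit false
open Cfsg

namespace Cfsg.Agent.S1003

/-- A simple group of order 168 has exactly 21 Sylow 2-subgroups, 28 Sylow 3-subgroups and 8 Sylow 7-subgroups. -/
theorem result {G : Type*} [Group G] [Finite G] [IsSimpleGroup G] (h : Nat.card G = 168) : Nat.card (Sylow 2 G) = 21 ∧ Nat.card (Sylow 3 G) = 28 ∧ Nat.card (Sylow 7 G) = 8 := by
  classical
  haveI : Fact (Nat.Prime 2) := ⟨Nat.prime_two⟩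
  haveI : Fact (Nat.Prime 3) := ⟨Nat.prime_three⟩
  haveI : Fact (Nat.Prime 7) := ⟨by norm_num⟩
  -- Sylow 7
  obtain ⟨P7⟩ : Nonempty (Sylow 7 G) := inferInstance
  obtain ⟨h7c, h7i⟩ := Cfsg.Agent.Lib.Helper2.sylow_card_of_eq 7 P7 24 (by rw [h]) (by norm_num)
  obtain ⟨h7a, h7b, h7n⟩ := Cfsg.Agent.Lib.Helper2.sylow_count 7 P7
  rw [h7i] at h7b
  have h7ne : Nat.card (Sylow 7 G) ≠ 1 :=
    Cfsg.Agent.Lib.Helper2.sylow_not_normal_of_simple 7 P7 (by rw [h7c]; norm_num)
      (by rw [h7c, h]; norm_num)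
  have hn7 : Nat.card (Sylow 7 G) = 8 := by
    obtain ⟨n, hn⟩ : ∃ n, n = Nat.card (Sylow 7 G) := ⟨_, rfl⟩
    rw [← hn] at h7a h7b h7ne ⊢
    have hnle : n ≤ 24 := Nat.le_of_dvd (by norm_num) h7b
    interval_cases n <;> first | omega | exact absurd h7b (by decide)
  have hM : Nat.card (Subgroup.normalizer ((P7 : Subgroup G) : Set G)) = 21 := by
    rw [hn7, h] at h7n; omega
  -- Sylow 3
  obtain ⟨P3⟩ : Nonempty (Sylow 3 G) := inferInstance
  obtain ⟨h3c, h3i⟩ := Cfsg.Agent.Lib.Helper2.sylow_card_of_eq 3 P3 56 (by rw [h]) (by norm_num)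
  obtain ⟨h3a, h3b, h3n⟩ := Cfsg.Agent.Lib.Helper2.sylow_count 3 P3
  rw [h3i] at h3b
  have h3ne : Nat.card (Sylow 3 G) ≠ 1 :=
    Cfsg.Agent.Lib.Helper2.sylow_not_normal_of_simple 3 P3 (by rw [h3c]; norm_num)
      (by rw [h3c, h]; norm_num)
  have h3ne4 : Nat.card (Sylow 3 G) ≠ 4 := by
    intro h4
    have hidx : (Subgroup.normalizer ((P3 : Subgroup G) : Set G)).index = 4 := by
      have h0 := P3.card_eq_index_normalizer
      rw [h4] at h0
      exact h0.symm
    have hne : Subgroup.normalizer ((P3 : Subgroup G) : Set G) ≠ ⊤ := by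
      intro htop
      rw [htop, Subgroup.index_top] at hidx
      omega
    have hd := Cfsg.Agent.Lib.Helper2.simple_card_dvd_factorial _ hne
    rw [hidx, h] at hd
    exact absurd hd (by decide)
  have h3ne7 : Nat.card (Sylow 3 G) ≠ 7 := by
    intro h7
    have hQM : ∀ Q : Sylow 3 G,
        (Q : Subgroup G) ≤ Subgroup.normalizer ((P7 : Subgroup G) : Set G) := by
      intro Q
      obtain ⟨hQc, _⟩ := Cfsg.Agent.Lib.Helper2.sylow_card_of_eq 3 Q 56 (by rw [h]) (by norm_num)
      obtain ⟨_, _, hQn⟩ := Cfsg.Agent.Lib.Helper2.sylow_count 3 Q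
      rw [h7, h] at hQn
      have hNQ : Nat.card (Subgroup.normalizer ((Q : Subgroup G) : Set G)) = 24 := by omega
      have hNQi : (Subgroup.normalizer ((Q : Subgroup G) : Set G)).index = 7 := by
        have h0 := Q.card_eq_index_normalizer
        rw [h7] at h0
        exact h0.symm
      have hMi : (Subgroup.normalizer ((P7 : Subgroup G) : Set G)).index = 8 := by
        have h0 := P7.card_eq_index_normalizer
        rw [hn7] at h0
        exact h0.symm
      obtain ⟨K, hK⟩ : ∃ K : Subgroup G, K = Subgroup.normalizer ((P7 : Subgroup G) : Set G)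
          ⊓ Subgroup.normalizer ((Q : Subgroup G) : Set G) := ⟨_, rfl⟩
      have hKle1 : K ≤ Subgroup.normalizer ((P7 : Subgroup G) : Set G) := by
        rw [hK]; exact inf_le_left
      have hKle2 : K ≤ Subgroup.normalizer ((Q : Subgroup G) : Set G) := by
        rw [hK]; exact inf_le_right
      have hKi : K.index ≤ 56 := by
        have h0 := Subgroup.index_inf_le (H := Subgroup.normalizer ((P7 : Subgroup G) : Set G))
          (K := Subgroup.normalizer ((Q : Subgroup G) : Set G))
        rw [hMi, hNQi, ← hK] at h0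
        exact h0
      have hKc := K.card_mul_index
      rw [h] at hKc
      have hK21 : Nat.card K ∣ 21 := by
        have h0 := Subgroup.card_dvd_of_le hKle1
        rwa [hM] at h0
      have hK24 : Nat.card K ∣ 24 := by
        have h0 := Subgroup.card_dvd_of_le hKle2
        rwa [hNQ] at h0
      have hK3 : Nat.card K = 3 := by
        have hd : Nat.card K ∣ 3 := by
          have h0 := Nat.dvd_gcd hK21 hK24
          have e : Nat.gcd 21 24 = 3 := by decide
          rwa [e] at h0
        have hle : Nat.card K ≤ 3 := Nat.le_of_dvd (by norm_num) hd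
        have hge : 3 ≤ Nat.card K := by
          by_contra hlt
          push Not at hlt
          have h0 : Nat.card K * K.index ≤ 2 * 56 := Nat.mul_le_mul (by omega) hKi
          omega
        omega
      have hKQ : K ≤ (Q : Subgroup G) := by
        intro z hz
        have hz3 : z ^ 3 = 1 := by
          have h0 : orderOf z ∣ Nat.card K := Subgroup.orderOf_dvd_natCard K hz
          rw [hK3] at h0
          exact orderOf_dvd_iff_pow_eq_one.mp h0
        exact Cfsg.Agent.Lib.Lead.mem_sylow_of_normalizes Q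
          (Cfsg.Agent.Lib.Helper2.isPGroup_zpowers_of_pow hz3) (hKle2 hz)
      have hKeq : K = (Q : Subgroup G) :=
        Subgroup.eq_of_le_of_card_ge hKQ (by rw [hK3, hQc])
      rw [← hKeq]
      exact hKle1
    have hcl : Subgroup.normalClosure ((P3 : Subgroup G) : Set G)
        ≤ Subgroup.normalizer ((P7 : Subgroup G) : Set G) := by
      show Subgroup.closure (Group.conjugatesOfSet ((P3 : Subgroup G) : Set G)) ≤ _
      rw [Subgroup.closure_le]
      intro z hz
      obtain ⟨a, ha, hconj⟩ := Group.mem_conjugatesOfSet_iff.mp hz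
      obtain ⟨c, hc⟩ := isConj_iff.mp hconj
      have h1 := Cfsg.Agent.Lib.Lead.conj_mem_conj_smul (g := c) ha
      rw [← Sylow.coe_subgroup_smul] at h1
      rw [← hc]
      exact hQM (c • P3) h1
    have hnorm : (Subgroup.normalClosure ((P3 : Subgroup G) : Set G)).Normal :=
      Subgroup.normalClosure_normal
    rcases hnorm.eq_bot_or_eq_top with hb | ht
    · have h1 : (P3 : Subgroup G) ≤ Subgroup.normalClosure ((P3 : Subgroup G) : Set G) :=
        Subgroup.le_normalClosure
      rw [hb] at h1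
      have h2 : (P3 : Subgroup G) = ⊥ := le_bot_iff.mp h1
      rw [h2, Subgroup.card_bot] at h3c
      omega
    · rw [ht] at hcl
      have h1 : Subgroup.normalizer ((P7 : Subgroup G) : Set G) = ⊤ := top_le_iff.mp hcl
      rw [h1, Subgroup.card_top, h] at hM
      omega
  have hn3 : Nat.card (Sylow 3 G) = 28 := by
    obtain ⟨n, hn⟩ : ∃ n, n = Nat.card (Sylow 3 G) := ⟨_, rfl⟩
    rw [← hn] at h3a h3b h3ne h3ne4 h3ne7 ⊢
    have hnle : n ≤ 56 := Nat.le_of_dvd (by norm_num) h3b
    interval_cases n <;> first | omega | exact absurd h3b (by decide)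
  -- Sylow 2
  obtain ⟨P2⟩ : Nonempty (Sylow 2 G) := inferInstance
  obtain ⟨h2c, h2i⟩ := Cfsg.Agent.Lib.Helper2.sylow_card_of_eq_pow 2 P2 3 21
    (by rw [h]; norm_num) (by norm_num)
  obtain ⟨h2a, h2b, h2n⟩ := Cfsg.Agent.Lib.Helper2.sylow_count 2 P2
  rw [h2i] at h2b
  have h2ne : Nat.card (Sylow 2 G) ≠ 1 :=
    Cfsg.Agent.Lib.Helper2.sylow_not_normal_of_simple 2 P2 (by rw [h2c]; norm_num)
      (by rw [h2c, h]; norm_num)
  have h2ne3 : Nat.card (Sylow 2 G) ≠ 3 := by
    intro h3
    have hidx : (Subgroup.normalizer ((P2 : Subgroup G) : Set G)).index = 3 := by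
      have h0 := P2.card_eq_index_normalizer
      rw [h3] at h0
      exact h0.symm
    have hne : Subgroup.normalizer ((P2 : Subgroup G) : Set G) ≠ ⊤ := by
      intro htop
      rw [htop, Subgroup.index_top] at hidx
      omega
    have hd := Cfsg.Agent.Lib.Helper2.simple_card_dvd_factorial _ hne
    rw [hidx, h] at hd
    exact absurd hd (by decide)
  have h2ne7 : Nat.card (Sylow 2 G) ≠ 7 := by
    intro h7
    have hN2 : Nat.card (Subgroup.normalizer ((P2 : Subgroup G) : Set G)) = 24 := by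
      rw [h7, h] at h2n; omega
    obtain ⟨y', hy'⟩ := exists_prime_orderOf_dvd_card' 3
      (show 3 ∣ Nat.card ↥(Subgroup.normalizer ((P2 : Subgroup G) : Set G)) by
        rw [hN2]; norm_num)
    obtain ⟨y, hyN, hyo⟩ : ∃ y : G, y ∈ Subgroup.normalizer ((P2 : Subgroup G) : Set G) ∧
        orderOf y = 3 := ⟨(y' : G), y'.2, (Subgroup.orderOf_coe y').trans hy'⟩
    have hy3 : y ^ 3 = 1 := by rw [← hyo]; exact pow_orderOf_eq_one y
    obtain ⟨σ, hσ⟩ : ∃ σ : MulAut ↥(P2 : Subgroup G),
        σ = (P2 : Subgroup G).normalizerMonoidHom ⟨y, hyN⟩ := ⟨_, rfl⟩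
    have hσ3 : σ ^ 3 ^ 1 = 1 := by
      rw [hσ, ← map_pow]
      have e : (⟨y, hyN⟩ : ↥(Subgroup.normalizer ((P2 : Subgroup G) : Set G))) ^ 3 ^ 1 = 1 := by
        apply Subtype.ext
        rw [pow_one]
        exact hy3
      rw [e, map_one]
    haveI : Fintype ↥(P2 : Subgroup G) := Fintype.ofFinite _
    have hπ : (MulAut.toPerm ↥(P2 : Subgroup G) σ) ^ 3 ^ 1 = 1 := by
      rw [← map_pow, hσ3, map_one]
    have hmod := Equiv.Perm.card_compl_support_modEq hπ
    rw [← Nat.card_eq_fintype_card, h2c] at hmod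
    have hcard2 : 1 < ((MulAut.toPerm ↥(P2 : Subgroup G) σ).supportᶜ).card := by
      have h0 : ((MulAut.toPerm ↥(P2 : Subgroup G) σ).supportᶜ).card % 3 = 2 ^ 3 % 3 := hmod
      norm_num at h0
      omega
    obtain ⟨a, ha, b, hb, hab⟩ := Finset.one_lt_card.mp hcard2
    obtain ⟨x, hxfix, hx1⟩ : ∃ x : ↥(P2 : Subgroup G), σ x = x ∧ x ≠ 1 := by
      have ha' : σ a = a := by
        have h0 := ha
        rw [Finset.mem_compl, Equiv.Perm.mem_support, not_not] at h0
        exact h0
      have hb' : σ b = b := by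
        have h0 := hb
        rw [Finset.mem_compl, Equiv.Perm.mem_support, not_not] at h0
        exact h0
      by_cases ha1 : a = 1
      · exact ⟨b, hb', fun hb1 => hab (ha1.trans hb1.symm)⟩
      · exact ⟨a, ha', ha1⟩
    have hcomm : y * (x : G) = (x : G) * y := by
      have h0 : ((σ x : ↥(P2 : Subgroup G)) : G) = y * (x : G) * y⁻¹ := by
        rw [hσ]; rfl
      rw [hxfix] at h0
      calc y * (x : G) = (y * (x : G) * y⁻¹) * y := by group
        _ = (x : G) * y := by rw [← h0]
    obtain ⟨Q, hQ⟩ :=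
      (Cfsg.Agent.Lib.Helper2.isPGroup_zpowers_of_pow (p := 3) hy3).exists_le_sylow
    have hyQ : y ∈ (Q : Subgroup G) := hQ (Subgroup.mem_zpowers y)
    obtain ⟨hQc, _⟩ := Cfsg.Agent.Lib.Helper2.sylow_card_of_eq 3 Q 56 (by rw [h]) (by norm_num)
    have hy1 : y ≠ 1 := by
      intro hy1
      rw [hy1, orderOf_one] at hyo
      omega
    have hzp := Cfsg.Agent.Lib.Helper2.zpowers_eq_of_card_prime (Q : Subgroup G)
      Nat.prime_three hQc y hyQ hy1
    obtain ⟨_, _, hQn⟩ := Cfsg.Agent.Lib.Helper2.sylow_count 3 Q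
    rw [hn3, h] at hQn
    have hNQ : Nat.card (Subgroup.normalizer ((Q : Subgroup G) : Set G)) = 6 := by omega
    have hxC : (x : G) ∈ Subgroup.centralizer ((Q : Subgroup G) : Set G) := by
      rw [Subgroup.mem_centralizer_iff]
      intro v hv
      have hv' : v ∈ Subgroup.zpowers y := by rw [hzp]; exact hv
      obtain ⟨i, rfl⟩ := Subgroup.mem_zpowers_iff.mp hv'
      exact (Commute.zpow_left (show Commute y (x : G) from hcomm) i).eq
    have hQC : (Q : Subgroup G) ≤ Subgroup.centralizer ((Q : Subgroup G) : Set G) := by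
      intro a ha
      rw [Subgroup.mem_centralizer_iff]
      intro b hb
      exact (Cfsg.Agent.Lib.Helper2.comm_of_card_prime (Q : Subgroup G) Nat.prime_three hQc)
        b hb a ha
    have hCN : Subgroup.centralizer ((Q : Subgroup G) : Set G)
        ≤ Subgroup.normalizer ((Q : Subgroup G) : Set G) :=
      Subgroup.centralizer_le_normalizer _
    have hCd : Nat.card (Subgroup.centralizer ((Q : Subgroup G) : Set G)) ∣ 6 := by
      have h0 := Subgroup.card_dvd_of_le hCN
      rwa [hNQ] at h0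
    have h3C : 3 ∣ Nat.card (Subgroup.centralizer ((Q : Subgroup G) : Set G)) := by
      have h0 := Subgroup.card_dvd_of_le hQC
      rwa [hQc] at h0
    have hxo8 : orderOf (x : G) ∣ 2 ^ 3 := by
      have h0 : orderOf x ∣ Nat.card ↥(P2 : Subgroup G) := orderOf_dvd_natCard x
      rw [Subgroup.orderOf_coe]
      rwa [h2c] at h0
    have hxoC : orderOf (x : G) ∣ Nat.card (Subgroup.centralizer ((Q : Subgroup G) : Set G)) :=
      Subgroup.orderOf_dvd_natCard _ hxC
    have hxo1 : orderOf (x : G) ≠ 1 := by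
      intro h1
      apply hx1
      apply Subtype.ext
      exact orderOf_eq_one_iff.mp h1
    have h2C : 2 ∣ Nat.card (Subgroup.centralizer ((Q : Subgroup G) : Set G)) := by
      obtain ⟨j, hj, hxj⟩ := (Nat.dvd_prime_pow Nat.prime_two).mp hxo8
      have hj1 : j ≠ 0 := by
        intro h0; rw [h0, pow_zero] at hxj; exact hxo1 hxj
      have h2x : 2 ∣ orderOf (x : G) := by
        rw [hxj]; exact dvd_pow_self 2 hj1
      exact h2x.trans hxoC
    have h6C : 6 ∣ Nat.card (Subgroup.centralizer ((Q : Subgroup G) : Set G)) := by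
      have e6 : (6 : ℕ) = 2 * 3 := by norm_num
      rw [e6]
      exact Nat.Coprime.mul_dvd_of_dvd_of_dvd (by norm_num) h2C h3C
    have hCeq : Subgroup.centralizer ((Q : Subgroup G) : Set G)
        = Subgroup.normalizer ((Q : Subgroup G) : Set G) := by
      apply Subgroup.eq_of_le_of_card_ge hCN
      rw [hNQ]; exact Nat.le_of_dvd Nat.card_pos h6C
    exact Cfsg.Agent.Lib.Helper2.sylow_burnside_of_le 3 Q hQc (by rw [h]; norm_num) hCeq.ge
  have hn2 : Nat.card (Sylow 2 G) = 21 := by
    obtain ⟨n, hn⟩ : ∃ n, n = Nat.card (Sylow 2 G) := ⟨_, rfl⟩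
    rw [← hn] at h2a h2b h2ne h2ne3 h2ne7 ⊢
    have hnle : n ≤ 21 := Nat.le_of_dvd (by norm_num) h2b
    interval_cases n <;> first | omega | exact absurd h2b (by decide)
  exact ⟨hn2, hn3, hn7⟩

end Cfsg.Agent.S1003
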