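import Mathlib
import Cfsg.Statements.S1004
import Cfsg.Agent.Lib.Helper2.Order168

set_option autoImplicit false
open Cfsg

namespace Cfsg.Agent.S1004

/-- Let G be a simple group of order 168 and T a Sylow 2-subgroup. Then T is dihedral of order 8, T is its own normalizer, and T is the centralizer of any non-identity element of T that commutes with every element of T. -/
theorem result {G : Type*} [Group G] [Finite G] [IsSimpleGroup G] (h : Nat.card G = 168) (T : Sylow 2 G) : Nonempty (↥(T : Subgroup G) ≃* DihedralGroup 4) ∧ Subgroup.normalizer ((T : Subgroup G) : Set G) = T ∧ ∀ z : G, z ∈ (T : Subgroup G) → z ≠ 1 → (∀ t ∈ (T : Subgroup G), t * z = z * t) → Subgroup.centralizer ({z} : Set G) = T := by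
  haveI : Fact (Nat.Prime 2) := ⟨Nat.prime_two⟩
  refine ⟨?_, Cfsg.Agent.Lib.Helper2.o168_normalizer_sylow_two h T,
    fun z hzT hz1 hcen => Cfsg.Agent.Lib.Helper2.o168_centralizer_eq h T z hzT hz1 hcen⟩
  have hT8 := Cfsg.Agent.Lib.Helper2.o168_sylow_two_card h T
  apply Cfsg.Agent.Lib.Helper2.dihedral_of_card_eight hT8
  · intro hab
    apply Cfsg.Agent.Lib.Helper2.o168_not_comm h T
    intro a ha b hb
    exact congrArg Subtype.val (hab ⟨a, ha⟩ ⟨b, hb⟩)
  · obtain ⟨u, v, huT, hvT, huo, hvo, huv⟩ := Cfsg.Agent.Lib.Helper2.o168_two_involutions h T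
    refine ⟨⟨u, huT⟩, ⟨v, hvT⟩, ?_, ?_, ?_⟩
    · rw [Subgroup.orderOf_mk]; exact huo
    · rw [Subgroup.orderOf_mk]; exact hvo
    · intro he; exact huv (congrArg Subtype.val he)

end Cfsg.Agent.S1004
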