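import Mathlib
import Cfsg.Statements.S1122
import Cfsg.Agent.Lib.Helper2.RankOne2

set_option autoImplicit false
open Cfsg

namespace Cfsg.Agent.S1122

/-- In the rank-one set-up (`G` finite and doubly transitive on `Ω`, `t` an involution moving `a`, `Q` normal in `G_a` with `G_a = Q D`, `Q ⊓ D = 1` for the two-point stabiliser `D = G_a ⊓ G_{t • a}`, `|Q|` even, `|D|` odd), with `K` the set of elements of `D` inverted by `t`: `|K|` is the number of involutions of `G_a`, and for each involution `s` of `G_a` the `K`-conjugates of `s` are all the involutions of `G_a`. -/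
theorem result {G Ω : Type*} [Group G] [Finite G] [MulAction G Ω] {a : Ω} {t : G} {Q : Subgroup G}
    (hS : Cfsg.IsRankOneSetup G Ω a t Q) :
    Nat.card (Cfsg.invertedBy (MulAction.stabilizer G a ⊓ MulAction.stabilizer G (t • a)) t) = Nat.card (Cfsg.involutionsIn (MulAction.stabilizer G a : Set G)) ∧
      ∀ s ∈ Cfsg.involutionsIn (MulAction.stabilizer G a : Set G), ∀ s' ∈ Cfsg.involutionsIn (MulAction.stabilizer G a : Set G),
        ∃ k ∈ Cfsg.invertedBy (MulAction.stabilizer G a ⊓ MulAction.stabilizer G (t • a)) t, k⁻¹ * s * k = s' := by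
  have hfix := Cfsg.Agent.Lib.Helper2.RankOne.invol_fix hS
  haveI := Cfsg.Agent.Lib.Helper2.RankOne.pretrans hS
  obtain ⟨hcardΩ, hfin⟩ := Cfsg.Agent.Lib.Helper2.RankOne.card_eq hS
  haveI := hfin
  constructor
  · have e1 : Nat.card (Cfsg.invertedBy (MulAction.stabilizer G a ⊓ MulAction.stabilizer G (t • a)) t) =
        Nat.card ({i : G | orderOf i = 2 ∧ i • a = t • a} : Set G) :=
      Cfsg.Agent.Lib.Helper2.RankOne.card_eq_of_invol_mul hS.mul_self (fun k hk => Cfsg.Agent.Lib.Helper2.RankOne.invertedBy_mul hS hk)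
        (fun i hi => Cfsg.Agent.Lib.Helper2.RankOne.mul_mem_invertedBy hS hi.1 hi.2)
    have e2 := Cfsg.Agent.Lib.Helper2.card_invol_swap hfix a (t • a) (Cfsg.Agent.Lib.Helper2.RankOne.ta_ne hS).symm
    have e3 : Nat.card (Cfsg.involutionsIn (MulAction.stabilizer G a : Set G)) =
        Nat.card {i : G // orderOf i = 2 ∧ i • a = a} :=
      Nat.card_congr (Equiv.subtypeEquivRight (fun x => Cfsg.Agent.Lib.Helper2.RankOne.mem_involutionsIn_iff))
    rw [e3, ← e2]; exact e1
  · intro s hs s' hs'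
    rw [Cfsg.Agent.Lib.Helper2.RankOne.mem_involutionsIn_iff] at hs hs'
    obtain ⟨hso, hsa⟩ := hs
    obtain ⟨hso', hsa'⟩ := hs'
    have h1 : orderOf (t * s' * t⁻¹) = 2 := Cfsg.Agent.Lib.Helper2.orderOf_conj_two t hso'
    have h2 : (t * s' * t⁻¹) • (t • a) = t • a := by
      rw [mul_smul, mul_smul, inv_smul_smul, hsa']
    obtain ⟨w, hw, hws, hwa⟩ := Cfsg.Agent.Lib.Helper2.exists_invol_conj hfix hso h1 hsa h2 (Cfsg.Agent.Lib.Helper2.RankOne.ta_ne hS).symm
    refine ⟨(t * w)⁻¹, Cfsg.Agent.Lib.Helper2.RankOne.invertedBy_inv (Cfsg.Agent.Lib.Helper2.RankOne.mul_mem_invertedBy hS hw hwa), ?_⟩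
    rw [inv_inv]
    calc t * w * s * (t * w)⁻¹ = t * (w * s * w⁻¹) * t⁻¹ := by group
      _ = t * (t * s' * t⁻¹) * t⁻¹ := by rw [hws]
      _ = (t * t) * s' * (t * t)⁻¹ := by group
      _ = s' := by rw [hS.mul_self]; group

end Cfsg.Agent.S1122
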