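import Mathlib
import Cfsg.Statements.S1123
import Cfsg.Agent.Lib.Helper2.RankOne2

set_option autoImplicit false
open Cfsg

namespace Cfsg.Agent.S1123

/-- In the rank-one set-up (`G` finite and doubly transitive on `Ω`, `t` an involution moving `a`, `Q` normal in `G_a` with `G_a = Q D`, `Q ⊓ D = 1` for the two-point stabiliser `D = G_a ⊓ G_{t • a}`, `|Q|` even, `|D|` odd), there is a unique pair `(s, r)` with `s` an involution of `G_a`, `r ∈ Q` and `t s t = r⁻¹ t r`. -/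
theorem result {G Ω : Type*} [Group G] [Finite G] [MulAction G Ω] {a : Ω} {t : G} {Q : Subgroup G}
    (hS : Cfsg.IsRankOneSetup G Ω a t Q) :
    ∃! p : G × G, p.1 ∈ Cfsg.involutionsIn (MulAction.stabilizer G a : Set G) ∧ p.2 ∈ Q ∧
      t * p.1 * t = p.2⁻¹ * t * p.2 := by
  have hfix := Cfsg.Agent.Lib.Helper2.RankOne.invol_fix hS
  have hto := Cfsg.Agent.Lib.Helper2.orderOf_eq_two_of hS.ne_one hS.mul_self
  have ht := Cfsg.Agent.Lib.Helper2.RankOne.t_inv hS
  obtain ⟨c, hc, hcu⟩ := hfix t hto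
  have hca : c ≠ a := by
    intro h; rw [h] at hc; exact Cfsg.Agent.Lib.Helper2.RankOne.ta_ne hS hc
  obtain ⟨⟨r, hrQ⟩, hr, hru⟩ := Cfsg.Agent.Lib.Helper2.RankOne.Q_unique hS (Cfsg.Agent.Lib.Helper2.RankOne.ta_ne hS) hca
  have hr' : r • (t • a) = c := hr
  have hrinv : r⁻¹ • c = t • a := by rw [← hr', inv_smul_smul]
  refine ⟨(t * (r⁻¹ * t * r) * t, r), ⟨?_, hrQ, ?_⟩, ?_⟩
  · show t * (r⁻¹ * t * r) * t ∈ Cfsg.involutionsIn (MulAction.stabilizer G a : Set G)
    rw [Cfsg.Agent.Lib.Helper2.RankOne.mem_involutionsIn_iff]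
    constructor
    · have h1 : orderOf (r⁻¹ * t * r⁻¹⁻¹) = 2 := Cfsg.Agent.Lib.Helper2.orderOf_conj_two r⁻¹ hto
      rw [inv_inv] at h1
      have h2 := Cfsg.Agent.Lib.Helper2.orderOf_conj_two t h1
      rw [ht] at h2
      exact h2
    · rw [mul_smul (t * (r⁻¹ * t * r)) t a, mul_smul t (r⁻¹ * t * r) (t • a),
        mul_smul (r⁻¹ * t) r (t • a), hr', mul_smul r⁻¹ t c, hc, hrinv, Cfsg.Agent.Lib.Helper2.RankOne.tta hS]
  · show t * (t * (r⁻¹ * t * r) * t) * t = r⁻¹ * t * r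
    calc t * (t * (r⁻¹ * t * r) * t) * t = (t * t) * (r⁻¹ * t * r) * (t * t) := by group
      _ = r⁻¹ * t * r := by rw [hS.mul_self, one_mul, mul_one]
  · rintro ⟨s', r'⟩ ⟨hs', hr'Q, he⟩
    have hs'' := Cfsg.Agent.Lib.Helper2.RankOne.mem_involutionsIn_iff.mp hs'
    have he' : t * s' * t = r'⁻¹ * t * r' := he
    have h1 : (t * s' * t) • (t • a) = t • a := by
      rw [mul_smul (t * s') t (t • a), Cfsg.Agent.Lib.Helper2.RankOne.tta hS, mul_smul t s' a, hs''.2]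
    have h2 : (r'⁻¹ * t * r') • (r'⁻¹ • c) = r'⁻¹ • c := by
      rw [mul_smul (r'⁻¹ * t) r' (r'⁻¹ • c), smul_inv_smul, mul_smul r'⁻¹ t c, hc]
    have ho : orderOf (t * s' * t) = 2 := by
      have := Cfsg.Agent.Lib.Helper2.orderOf_conj_two t hs''.1
      rw [ht] at this; exact this
    rw [he'] at h1 ho
    have h3 : r'⁻¹ • c = t • a := (hfix _ ho).unique h2 h1
    have h4 : r' • (t • a) = c := by rw [← h3, smul_inv_smul]
    have h5 : r' = r := congrArg Subtype.val (hru ⟨r', hr'Q⟩ h4)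
    have h6 : s' = t * (r⁻¹ * t * r) * t := by
      rw [← h5, ← he']
      calc s' = (t * t) * s' * (t * t) := by rw [hS.mul_self, one_mul, mul_one]
        _ = t * (t * s' * t) * t := by group
    rw [h6, h5]

end Cfsg.Agent.S1123
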