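import Cfsg.Statements.S0044
import Mathlib
import Cfsg.Agent.Lib.Lead.SylowAux2
import Cfsg.Agent.Lib.Helper2.FStar

set_option autoImplicit false
open Cfsg Cfsg.Agent.Lib.Lead

namespace Cfsg.Agent.S0044

open scoped Pointwise commutatorElement

/-- In a finite solvable group, the centraliser of the Fitting subgroup is contained in the Fitting subgroup. -/
theorem result {G : Type*} [Group G] [Finite G] [Group.IsSolvable G] :
    Subgroup.centralizer (Cfsg.fittingSubgroup G : Set G) ≤ Cfsg.fittingSubgroup G := by
  have hl : Cfsg.layer G = ⊥ := by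
    unfold Cfsg.layer
    rw [sSup_eq_bot]
    intro K hK
    exfalso
    exact Cfsg.Agent.Lib.Helper2.quasisimple_not_solvable hK.2 inferInstance
  have h := Cfsg.Agent.Lib.Helper2.centralizer_genFitting_le G
  unfold Cfsg.generalizedFittingSubgroup at h
  rw [hl, bot_sup_eq] at h
  exact h

end Cfsg.Agent.S0044
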