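import Cfsg.Statements.S0017
import Mathlib
import Cfsg.Agent.Lib.Lead.SylowAux2
import Cfsg.Agent.Lib.Helper2.FStar
import Cfsg.Agent.Lib.Helper2.Nilp
import Cfsg.Agent.Lib.Helper3.PPrimeCore
import Cfsg.Agent.Lib.Helper4.PCore
import Cfsg.Agent.S0044

set_option autoImplicit false
open Cfsg Cfsg.Agent.Lib.Lead

namespace Cfsg.Agent.S0017

open scoped Pointwise commutatorElement

/-- In a finite solvable group whose largest normal subgroup of order prime to p is trivial, the centralizer of the p-core is contained in the p-core. -/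
theorem result {G : Type*} [Group G] [Finite G] [Group.IsSolvable G] (p : ℕ) [Fact p.Prime]
    (h : Cfsg.pPrimeCore p G = ⊥) :
    Subgroup.centralizer (Cfsg.pCore p G : Set G) ≤ Cfsg.pCore p G := by
  have hFn : (Cfsg.fittingSubgroup G).Normal := Cfsg.Agent.Lib.Helper2.fitting_normal G
  have hFnil : Group.IsNilpotent (Cfsg.fittingSubgroup G) :=
    Cfsg.Agent.Lib.Helper2.fitting_isNilpotent G
  have hFp : IsPGroup p (Cfsg.fittingSubgroup G) := by
    have hcard : Nat.card (Cfsg.fittingSubgroup G) =
        p ^ (Nat.card (Cfsg.fittingSubgroup G)).primeFactorsList.length := by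
      apply Nat.eq_prime_pow_of_unique_prime_dvd Nat.card_pos.ne'
      intro q hq hqd
      by_contra hqp
      haveI : Fact q.Prime := ⟨hq⟩
      obtain Q : Sylow q (Cfsg.fittingSubgroup G) := default
      have hQn : (Q : Subgroup (Cfsg.fittingSubgroup G)).Normal :=
        Sylow.normal_of_normalizerCondition Group.normalizerCondition_of_isNilpotent Q
      have hQc : (Q : Subgroup (Cfsg.fittingSubgroup G)).Characteristic :=
        Q.characteristic_of_normal hQn
      have hQG : ((Q : Subgroup (Cfsg.fittingSubgroup G)).map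
          (Cfsg.fittingSubgroup G).subtype).Normal :=
        ConjAct.normal_of_characteristic_of_normal
      have hcop : (Nat.card ((Q : Subgroup (Cfsg.fittingSubgroup G)).map
          (Cfsg.fittingSubgroup G).subtype)).Coprime p := by
        rw [Subgroup.card_map_of_injective (Subgroup.subtype_injective _)]
        obtain ⟨k, hk⟩ := IsPGroup.iff_card.mp Q.2
        rw [hk]
        exact Nat.Coprime.pow_left k ((Nat.coprime_primes hq Fact.out).mpr hqp)
      have hle := Cfsg.Agent.Lib.Helper3.le_pPrimeCore hQG hcop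
      rw [h, le_bot_iff] at hle
      have hQb : (Q : Subgroup (Cfsg.fittingSubgroup G)) = ⊥ := by
        rw [eq_bot_iff]; intro x hx
        have hx' : (x : G) ∈ (Q : Subgroup (Cfsg.fittingSubgroup G)).map
            (Cfsg.fittingSubgroup G).subtype := ⟨x, hx, rfl⟩
        rw [hle] at hx'
        exact Subtype.ext (Subgroup.mem_bot.mp hx')
      exact Q.ne_bot_of_dvd_card hqd hQb
    exact IsPGroup.of_card hcard
  have hFle : Cfsg.fittingSubgroup G ≤ Cfsg.pCore p G := Cfsg.Agent.Lib.Helper4.le_pCore hFn hFp
  have hEq : Cfsg.pCore p G = Cfsg.fittingSubgroup G :=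
    le_antisymm (Cfsg.Agent.Lib.Helper2.pCore_le_fitting p G) hFle
  rw [hEq]
  exact Cfsg.Agent.S0044.result

end Cfsg.Agent.S0017
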