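import Cfsg.Statements.S0012
import Mathlib
import Cfsg.Agent.Lib.Lead.SylowAux

set_option autoImplicit false
open Cfsg Cfsg.Agent.Lib.Lead

namespace Cfsg.Agent.S0012

open scoped commutatorElement

/-- In a finite p-group every commutator and every p-th power lies in the Frattini subgroup, so the Frattini quotient is elementary abelian. -/
theorem result {G : Type*} [Group G] [Finite G] (p : ℕ) [Fact p.Prime]
    (hG : IsPGroup p G) : commutator G ≤ frattini G ∧ ∀ x : G, x ^ p ∈ frattini G := by
  have hnil : Group.IsNilpotent G := hG.isNilpotent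
  have hcoatom : ∀ M : Subgroup G, IsCoatom M → commutator G ≤ M ∧ ∀ x : G, x ^ p ∈ M := by
    intro M hM
    have q := (Group.isNilpotent_of_finite_tfae (G := G)).out 0 2
    have hMn : M.Normal := q.mp hnil M hM
    have hQp : IsPGroup p (G ⧸ M) := hG.to_quotient M
    have hcard : p ∣ Nat.card (G ⧸ M) := by
      rcases hQp.card_eq_or_dvd with h1 | h1
      · exfalso
        exact hM.1 (Subgroup.index_eq_one.mp h1)
      · exact h1
    obtain ⟨z, hz⟩ := exists_prime_orderOf_dvd_card' p hcard
    have hsur : Function.Surjective (QuotientGroup.mk' M) := QuotientGroup.mk'_surjective M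
    have hztop : Subgroup.zpowers z = ⊤ := by
      have hle : M ≤ (Subgroup.zpowers z).comap (QuotientGroup.mk' M) := by
        intro g hg
        rw [Subgroup.mem_comap]
        have : (QuotientGroup.mk' M) g = 1 := (QuotientGroup.eq_one_iff g).mpr hg
        rw [this]; exact Subgroup.one_mem _
      have hne : M ≠ (Subgroup.zpowers z).comap (QuotientGroup.mk' M) := by
        intro heq
        obtain ⟨g, hg⟩ := hsur z
        have hgm : g ∈ (Subgroup.zpowers z).comap (QuotientGroup.mk' M) := by
          rw [Subgroup.mem_comap, hg]; exact Subgroup.mem_zpowers z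
        rw [← heq] at hgm
        have hz1 : z = 1 := by rw [← hg]; exact (QuotientGroup.eq_one_iff g).mpr hgm
        rw [hz1, orderOf_one] at hz
        exact (Fact.out : p.Prime).one_lt.ne hz
      have h1 := hM.2 _ (lt_of_le_of_ne hle hne)
      apply Subgroup.comap_injective hsur
      rw [h1, Subgroup.comap_top]
    have hcardQ : Nat.card (G ⧸ M) = p := by
      rw [← hz, ← Nat.card_zpowers, hztop, Subgroup.card_top]
    constructor
    · rw [_root_.commutator_def, Subgroup.commutator_le]
      intro a _ b _
      rw [← QuotientGroup.eq_one_iff]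
      have h1 : ((⁅a, b⁆ : G) : G ⧸ M) = ⁅(QuotientGroup.mk' M) a, (QuotientGroup.mk' M) b⁆ :=
        map_commutatorElement (QuotientGroup.mk' M) a b
      rw [h1, commutatorElement_eq_one_iff_commute]
      have ha : (QuotientGroup.mk' M) a ∈ Subgroup.zpowers z := by rw [hztop]; trivial
      have hb : (QuotientGroup.mk' M) b ∈ Subgroup.zpowers z := by rw [hztop]; trivial
      obtain ⟨i, hi⟩ := Subgroup.mem_zpowers_iff.mp ha
      obtain ⟨j, hj⟩ := Subgroup.mem_zpowers_iff.mp hb
      rw [← hi, ← hj]
      exact (Commute.refl z).zpow_zpow i j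
    · intro x
      rw [← QuotientGroup.eq_one_iff, QuotientGroup.mk_pow, ← hcardQ]
      exact pow_card_eq_one'
  constructor
  · simp only [frattini, Order.radical, le_iInf_iff]
    intro M hM
    exact (hcoatom M hM).1
  · intro x
    simp only [frattini, Order.radical, Subgroup.mem_iInf]
    intro M hM
    exact (hcoatom M hM).2 x

end Cfsg.Agent.S0012
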