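import Cfsg.Statements.S2617
import Mathlib

set_option autoImplicit false
open Cfsg

namespace Cfsg.Agent.S2617

theorem inner_sum {F : Type*} [Field F] [Fintype F] [DecidableEq F] (a c x : F) :
    (∑ y : F, if a + x * y = c then 1 else 0) =
      if x = 0 then (if a = c then Fintype.card F else 0) else 1 := by
  by_cases hx : x = 0
  · subst hx
    simp
  · rw [if_neg hx]
    have h1 : ∀ y : F, (a + x * y = c) ↔ y = (c - a) / x := by
      intro y
      constructor
      · intro h
        field_simp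
        linear_combination h
      · intro h
        rw [h]
        field_simp
        ring
    simp only [h1]
    simp

theorem mid_sum {F : Type*} [Field F] [Fintype F] [DecidableEq F] (a c : F) :
    (∑ x : F, ∑ y : F, if a + x * y = c then 1 else 0) + 1 =
      (if a = c then Fintype.card F else 0) + Fintype.card F := by
  simp only [inner_sum]
  rw [← Finset.add_sum_erase Finset.univ _ (Finset.mem_univ (0 : F))]
  rw [if_pos rfl]
  have h1 : ∑ x ∈ Finset.univ.erase (0 : F),
      (if x = 0 then (if a = c then Fintype.card F else 0) else 1) = Fintype.card F - 1 := by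
    rw [Finset.sum_congr rfl (fun x hx => if_neg (Finset.ne_of_mem_erase hx))]
    simp [Finset.card_erase_of_mem]
  rw [h1]
  have := Fintype.card_pos (α := F)
  omega

theorem card_hyp_ext {F : Type*} [Field F] [Fintype F] [DecidableEq F] {T : Type*} [Fintype T]
    (B : T → F) (c : F) :
    Fintype.card {p : T × F × F // B p.1 + p.2.1 * p.2.2 = c} + Fintype.card T =
      Fintype.card F * Fintype.card {t : T // B t = c} + Fintype.card F * Fintype.card T := by
  have h1 : Fintype.card {p : T × F × F // B p.1 + p.2.1 * p.2.2 = c} =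
      ∑ t : T, ∑ x : F, ∑ y : F, if B t + x * y = c then 1 else 0 := by
    rw [Fintype.card_subtype, Finset.card_filter, Fintype.sum_prod_type]
    apply Finset.sum_congr rfl
    intro t _
    rw [Fintype.sum_prod_type]
  have h2 : Fintype.card {t : T // B t = c} = ∑ t : T, if B t = c then 1 else 0 := by
    rw [Fintype.card_subtype, Finset.card_filter]
  rw [h1, h2]
  have h3 : ∀ t, (∑ x : F, ∑ y : F, if B t + x * y = c then 1 else 0) + 1 =
      Fintype.card F * (if B t = c then 1 else 0) + Fintype.card F := by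
    intro t
    rw [mid_sum]
    split_ifs <;> simp
  calc (∑ t : T, ∑ x : F, ∑ y : F, if B t + x * y = c then 1 else 0) + Fintype.card T
      = ∑ t : T, ((∑ x : F, ∑ y : F, if B t + x * y = c then 1 else 0) + 1) := by
        rw [Finset.sum_add_distrib]
        simp
    _ = ∑ t : T, (Fintype.card F * (if B t = c then 1 else 0) + Fintype.card F) :=
        Finset.sum_congr rfl (fun t _ => h3 t)
    _ = _ := by
        rw [Finset.sum_add_distrib, ← Finset.mul_sum]
        simp [mul_comm]

/-- The number of zeros of `Σ x_i y_i + A z`. -/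
noncomputable def cnt (F : Type*) [Field F] [Fintype F] (Z : Type*) [Fintype Z] (A : Z → F)
    (k : ℕ) : ℕ :=
  Nat.card {p : (Fin k → F × F) × Z // ∑ i, (p.1 i).1 * (p.1 i).2 + A p.2 = 0}

theorem cnt_succ (F : Type*) [Field F] [Fintype F] (Z : Type*) [Fintype Z] (A : Z → F) (k : ℕ) :
    cnt F Z A (k + 1) + Fintype.card F ^ (2 * k) * Fintype.card Z =
      Fintype.card F * cnt F Z A k + Fintype.card F * (Fintype.card F ^ (2 * k) * Fintype.card Z) := by
  classical
  have hT : Fintype.card ((Fin k → F × F) × Z) = Fintype.card F ^ (2 * k) * Fintype.card Z := by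
    rw [Fintype.card_prod, Fintype.card_fun, Fintype.card_prod, Fintype.card_fin, pow_mul, pow_two]
  have key := card_hyp_ext (F := F) (T := (Fin k → F × F) × Z)
    (fun t => ∑ i, (t.1 i).1 * (t.1 i).2 + A t.2) 0
  rw [hT] at key
  have e : {p : (Fin (k + 1) → F × F) × Z // ∑ i, (p.1 i).1 * (p.1 i).2 + A p.2 = 0} ≃
      {p : ((Fin k → F × F) × Z) × F × F //
        (∑ i, (p.1.1 i).1 * (p.1.1 i).2 + A p.1.2) + p.2.1 * p.2.2 = 0} :=
    Equiv.subtypeEquiv
      { toFun := fun p => ((Fin.tail p.1, p.2), (p.1 0).1, (p.1 0).2)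
        invFun := fun p => (Fin.cons (p.2.1, p.2.2) p.1.1, p.1.2)
        left_inv := fun p => by
          refine Prod.ext ?_ rfl
          simp
        right_inv := fun p => by
          simp }
      (fun p => by
        simp only [Equiv.coe_fn_mk, Fin.sum_univ_succ, Fin.tail]
        constructor
        · intro h; rw [← h]; ring
        · intro h; rw [← h]; ring)
  unfold cnt
  rw [Nat.card_congr e, Nat.card_eq_fintype_card, Nat.card_eq_fintype_card]
  exact key

theorem cnt_zero_unit (F : Type*) [Field F] [Fintype F] :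
    cnt F Unit (fun _ => (0 : F)) 0 = 1 := by
  unfold cnt
  rw [Nat.card_eq_one_iff_unique]
  refine ⟨⟨fun a b => Subtype.ext (Prod.ext (funext fun i => i.elim0) rfl)⟩,
    ⟨⟨(fun i => i.elim0, ()), by simp⟩⟩⟩

theorem cnt_zero_minus (F : Type*) [Field F] [Fintype F] (ζ : F)
    (hζ : ∀ t : F, t ^ 2 + t + ζ ≠ 0) :
    cnt F (Fin 2 → F) (fun z => z 0 ^ 2 + 1 * z 0 * z 1 + ζ * z 1 ^ 2) 0 = 1 := by
  unfold cnt
  rw [Nat.card_eq_one_iff_unique]
  have hz : ∀ z : Fin 2 → F, z 0 ^ 2 + 1 * z 0 * z 1 + ζ * z 1 ^ 2 = 0 → z = 0 := by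
    intro z hz
    have h1 : z 1 = 0 := by
      by_contra h1
      apply hζ (z 0 / z 1)
      field_simp
      linear_combination hz
    have h0 : z 0 = 0 := by
      rw [h1] at hz
      simpa using hz
    ext j
    fin_cases j
    · exact h0
    · exact h1
  refine ⟨⟨fun a b => Subtype.ext (Prod.ext (funext fun i => i.elim0) ?_)⟩,
    ⟨⟨(fun i => i.elim0, 0), by simp⟩⟩⟩
  have ha := a.2
  have hb := b.2
  simp only [Finset.univ_eq_empty, Finset.sum_empty, zero_add] at ha hb
  rw [hz _ ha, hz _ hb]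

theorem cnt_ne (F : Type*) [Field F] [Fintype F] (ζ : F) (hζ : ∀ t : F, t ^ 2 + t + ζ ≠ 0)
    (k : ℕ) : cnt F Unit (fun _ => (0 : F)) (k + 1) ≠
      cnt F (Fin 2 → F) (fun z => z 0 ^ 2 + 1 * z 0 * z 1 + ζ * z 1 ^ 2) k := by
  have hq : 2 ≤ Fintype.card F := Fintype.one_lt_card
  have hZ : Fintype.card (Fin 2 → F) = Fintype.card F ^ 2 := by
    rw [Fintype.card_fun, Fintype.card_fin]
  have hD : ∀ k, cnt F Unit (fun _ => (0 : F)) (k + 1) + 2 * Fintype.card F ^ k =
      cnt F (Fin 2 → F) (fun z => z 0 ^ 2 + 1 * z 0 * z 1 + ζ * z 1 ^ 2) k +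
        2 * Fintype.card F ^ (k + 1) := by
    intro k
    induction k with
    | zero =>
      have h1 := cnt_succ F Unit (fun _ => (0 : F)) 0
      rw [cnt_zero_unit] at h1
      rw [cnt_zero_minus F ζ hζ]
      simp at h1 ⊢
      omega
    | succ k ih =>
      have h1 := cnt_succ F Unit (fun _ => (0 : F)) (k + 1)
      have h2 := cnt_succ F (Fin 2 → F) (fun z => z 0 ^ 2 + 1 * z 0 * z 1 + ζ * z 1 ^ 2) k
      rw [hZ] at h2
      simp only [Fintype.card_unit, mul_one] at h1
      have e1 : Fintype.card F ^ (2 * (k + 1)) = Fintype.card F ^ (2 * k) * Fintype.card F ^ 2 := by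
        ring
      rw [e1] at h1
      rw [pow_succ' (Fintype.card F) k] at ih
      rw [pow_succ' (Fintype.card F) (k + 1), pow_succ' (Fintype.card F) k]
      have ih' : Fintype.card F * cnt F Unit (fun _ => (0 : F)) (k + 1) +
          2 * (Fintype.card F * Fintype.card F ^ k) =
          Fintype.card F * cnt F (Fin 2 → F) (fun z => z 0 ^ 2 + 1 * z 0 * z 1 + ζ * z 1 ^ 2) k +
            2 * (Fintype.card F * (Fintype.card F * Fintype.card F ^ k)) := by
        calc Fintype.card F * cnt F Unit (fun _ => (0 : F)) (k + 1) +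
              2 * (Fintype.card F * Fintype.card F ^ k)
            = Fintype.card F * (cnt F Unit (fun _ => (0 : F)) (k + 1) + 2 * Fintype.card F ^ k) := by
              ring
          _ = Fintype.card F * (cnt F (Fin 2 → F) (fun z => z 0 ^ 2 + 1 * z 0 * z 1 + ζ * z 1 ^ 2) k +
              2 * (Fintype.card F * Fintype.card F ^ k)) := by rw [ih]
          _ = _ := by ring
      linarith [h1, h2, ih']
  intro h
  have h1 := hD k
  rw [h] at h1
  have h2 : Fintype.card F ^ k = Fintype.card F ^ (k + 1) := by omega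
  have h3 : Fintype.card F ^ k < Fintype.card F ^ (k + 1) :=
    Nat.pow_lt_pow_right (by omega) (by omega)
  omega


/-- The two standard quadratic forms of even dimension 2m over a finite field are not isometric: there is no linear isomorphism carrying the elliptic form Σ_(i<m−1) x_i y_i + z₁² + z₁z₂ + ζ z₂² (t² + t + ζ without roots) to the hyperbolic form Σ_(i<m) x_i y_i (they have different Witt index). -/
theorem result {F : Type*} [Field F] [Finite F] {m : ℕ} (hm : 1 ≤ m) (ζ : F) (hζ : ∀ t : F, t ^ 2 + t + ζ ≠ 0) (g : (Fin m ⊕ Fin m → F) ≃ₗ[F] ((Fin (m - 1) ⊕ Fin (m - 1)) ⊕ Fin 2 → F)) : ¬ (∀ v : Fin m ⊕ Fin m → F, Cfsg.quadFormMinus (m - 1) F 1 ζ (g v) = Cfsg.quadFormPlus m F v) := by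
  obtain ⟨k, rfl⟩ : ∃ k, m = k + 1 := ⟨m - 1, by omega⟩
  intro hg
  have hg' : ∀ v : Fin (k + 1) ⊕ Fin (k + 1) → F,
      Cfsg.quadFormMinus k F 1 ζ (g v) = Cfsg.quadFormPlus (k + 1) F v := hg
  obtain ⟨g', hg''⟩ : ∃ g' : (Fin (k + 1) ⊕ Fin (k + 1) → F) ≃ ((Fin k ⊕ Fin k) ⊕ Fin 2 → F),
      ∀ v, Cfsg.quadFormMinus k F 1 ζ (g' v) = Cfsg.quadFormPlus (k + 1) F v :=
    ⟨g.toEquiv, hg'⟩
  have : Fintype F := Fintype.ofFinite F
  apply cnt_ne F ζ hζ k
  have e1 : {v : Fin (k + 1) ⊕ Fin (k + 1) → F // Cfsg.quadFormPlus (k + 1) F v = 0} ≃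
      {w : (Fin k ⊕ Fin k) ⊕ Fin 2 → F // Cfsg.quadFormMinus k F 1 ζ w = 0} :=
    Equiv.subtypeEquiv g' (fun v => by rw [hg''])
  have e2 : {v : Fin (k + 1) ⊕ Fin (k + 1) → F // Cfsg.quadFormPlus (k + 1) F v = 0} ≃
      {p : (Fin (k + 1) → F × F) × Unit // ∑ i, (p.1 i).1 * (p.1 i).2 + (0 : F) = 0} :=
    Equiv.subtypeEquiv
      { toFun := fun v => (fun i => (v (Sum.inl i), v (Sum.inr i)), ())
        invFun := fun p => Sum.elim (fun i => (p.1 i).1) (fun i => (p.1 i).2)
        left_inv := fun v => by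
          funext j
          rcases j with j | j <;> rfl
        right_inv := fun p => rfl }
      (fun v => by
        unfold Cfsg.quadFormPlus
        simp only [add_zero]
        exact Iff.rfl)
  have e3 : {w : (Fin k ⊕ Fin k) ⊕ Fin 2 → F // Cfsg.quadFormMinus k F 1 ζ w = 0} ≃
      {p : (Fin k → F × F) × (Fin 2 → F) //
        ∑ i, (p.1 i).1 * (p.1 i).2 + (p.2 0 ^ 2 + 1 * p.2 0 * p.2 1 + ζ * p.2 1 ^ 2) = 0} :=
    Equiv.subtypeEquiv
      { toFun := fun w => (fun i => (w (Sum.inl (Sum.inl i)), w (Sum.inl (Sum.inr i))),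
          fun j => w (Sum.inr j))
        invFun := fun p => Sum.elim (Sum.elim (fun i => (p.1 i).1) (fun i => (p.1 i).2)) p.2
        left_inv := fun w => by
          funext j
          rcases j with (j | j) | j <;> rfl
        right_inv := fun p => rfl }
      (fun w => by
        unfold Cfsg.quadFormMinus
        exact Iff.rfl)
  unfold cnt
  rw [← Nat.card_congr e2, ← Nat.card_congr e3, Nat.card_congr e1]

end Cfsg.Agent.S2617
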