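import Cfsg.Statements.S0907
import Mathlib
import Cfsg.Agent.Lib.Lead.SylowAux2
import Cfsg.Agent.Lib.Lead.BlockOrtho
import Cfsg.Agent.Lib.Lead.BlockAux2
import Cfsg.Agent.Lib.Lead.BlockKer
import Cfsg.Agent.Lib.Lead.CharRing
import Cfsg.Agent.Lib.Lead.CharCount
import Cfsg.Agent.Lib.Lead.CharOrtho

set_option autoImplicit false
open scoped ComplexConjugate
open Cfsg Cfsg.Agent.Lib.Lead

namespace Cfsg.Agent.S0907

open scoped Pointwise commutatorElement

/-- Weak block orthogonality. Let B be a block of the finite group G relative to a maximal ideal M of the algebraic integers containing the prime p. If the order of x is prime to p and the order of y is divisible by p, then the sum over χ ∈ B of χ x * conj (χ y) is zero. -/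
theorem result {G : Type*} [Group G] [Finite G] (p : ℕ) [Fact p.Prime] (M : Ideal Cfsg.AlgInt) (hM : Cfsg.IsPModular p M) (B : Set (Cfsg.IrrCharacter G)) (hB : Cfsg.IsPBlock M B) (x y : G) (hx : ¬ p ∣ orderOf x) (hy : p ∣ orderOf y) : ∑ᶠ χ ∈ B, (χ : G → ℂ) x * conj ((χ : G → ℂ) y) = 0 := by
  classical
  haveI : Fintype G := Fintype.ofFinite G
  haveI : Fintype (Cfsg.IrrCharacter G) := Fintype.ofFinite _
  obtain ⟨hp, hMmax, hpM⟩ := hM
  have hMprime : M.IsPrime := hMmax.isPrime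
  obtain ⟨χ₀, rfl⟩ := hB
  have hG0 : (Nat.card G : ℂ) ≠ 0 := by exact_mod_cast Nat.card_pos.ne'
  have hcl : Cfsg.IsClassFunction G (Cfsg.blockCoeff (Cfsg.blockOf M (χ₀ : G → ℂ))) :=
    fun g h => blockCoeff_classFun_lead _ g h
  have hx' : ¬ p ∣ orderOf x⁻¹ := by
    rw [orderOf_inv]
    exact hx
  have h0 := idem_twist_lead p hp hMprime hpM _ hcl
    (fun g => osima_lead p hp M hMprime hpM χ₀ g)
    (fun g => (blockCoeff_conv_lead _ g).symm) x⁻¹ y hx' hy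
  have hterm : ∀ φ : Cfsg.IrrCharacter G,
      ∑ g : G, (φ : G → ℂ) 1 * (starRingEnd ℂ) ((φ : G → ℂ) (x⁻¹ * g * y * g⁻¹)) =
        (Nat.card G : ℂ) * ((φ : G → ℂ) x * (starRingEnd ℂ) ((φ : G → ℂ) y)) := by
    intro φ
    obtain ⟨d, hd0, hd⟩ := irr_one φ.2
    have hdC : (d : ℂ) ≠ 0 := by exact_mod_cast hd0
    have hφc := isCharacter_of_isIrrCharacter φ.2
    have e0 : ∑ g : G, (starRingEnd ℂ) ((φ : G → ℂ) (x⁻¹ * g * y * g⁻¹)) =
        (starRingEnd ℂ) (∑ g : G, (φ : G → ℂ) (x⁻¹ * g * y * g⁻¹)) :=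
      (map_sum (starRingEnd ℂ) _ _).symm
    rw [← Finset.mul_sum, e0, sum_char_conj_mul_lead (φ : G → ℂ) φ.2 x⁻¹ y, hd,
      isCharacter_inv hφc x]
    simp only [map_mul, map_div₀, map_natCast, Complex.conj_conj]
    have hdd : (d : ℂ) * (d : ℂ)⁻¹ = 1 := mul_inv_cancel₀ hdC
    linear_combination (Nat.card G : ℂ) *
      ((φ : G → ℂ) x * (starRingEnd ℂ) ((φ : G → ℂ) y)) * hdd
  have h1 : ∑ g : G, Cfsg.blockCoeff (Cfsg.blockOf M (χ₀ : G → ℂ)) (x⁻¹ * g * y * g⁻¹) =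
      ∑ φ : Cfsg.IrrCharacter G, if φ ∈ Cfsg.blockOf M (χ₀ : G → ℂ) then
        (φ : G → ℂ) x * (starRingEnd ℂ) ((φ : G → ℂ) y) else 0 := by
    calc ∑ g : G, Cfsg.blockCoeff (Cfsg.blockOf M (χ₀ : G → ℂ)) (x⁻¹ * g * y * g⁻¹)
        = ∑ g : G, (Nat.card G : ℂ)⁻¹ * ∑ φ : Cfsg.IrrCharacter G,
            if φ ∈ Cfsg.blockOf M (χ₀ : G → ℂ) then
              (φ : G → ℂ) 1 * (starRingEnd ℂ) ((φ : G → ℂ) (x⁻¹ * g * y * g⁻¹)) else 0 :=
          Finset.sum_congr rfl (fun g _ => blockCoeff_eq_sum_lead _ _)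
      _ = (Nat.card G : ℂ)⁻¹ * ∑ φ : Cfsg.IrrCharacter G, ∑ g : G,
            if φ ∈ Cfsg.blockOf M (χ₀ : G → ℂ) then
              (φ : G → ℂ) 1 * (starRingEnd ℂ) ((φ : G → ℂ) (x⁻¹ * g * y * g⁻¹)) else 0 := by
          rw [← Finset.mul_sum, Finset.sum_comm]
      _ = (Nat.card G : ℂ)⁻¹ * ∑ φ : Cfsg.IrrCharacter G,
            if φ ∈ Cfsg.blockOf M (χ₀ : G → ℂ) then
              (Nat.card G : ℂ) * ((φ : G → ℂ) x * (starRingEnd ℂ) ((φ : G → ℂ) y)) else 0 := by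
          congr 1
          apply Finset.sum_congr rfl
          intro φ _
          by_cases hφB : φ ∈ Cfsg.blockOf M (χ₀ : G → ℂ)
          · simp only [if_pos hφB]
            exact hterm φ
          · simp only [if_neg hφB, Finset.sum_const_zero]
      _ = ∑ φ : Cfsg.IrrCharacter G, if φ ∈ Cfsg.blockOf M (χ₀ : G → ℂ) then
            (φ : G → ℂ) x * (starRingEnd ℂ) ((φ : G → ℂ) y) else 0 := by
          rw [Finset.mul_sum]
          apply Finset.sum_congr rfl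
          intro φ _
          by_cases hφB : φ ∈ Cfsg.blockOf M (χ₀ : G → ℂ)
          · rw [if_pos hφB, if_pos hφB, ← mul_assoc, inv_mul_cancel₀ hG0, one_mul]
          · rw [if_neg hφB, if_neg hφB, mul_zero]
  rw [h0] at h1
  rw [finsum_mem_def, finsum_eq_sum_of_fintype]
  refine Eq.trans ?_ h1.symm
  apply Finset.sum_congr rfl
  intro φ _
  by_cases h : φ ∈ Cfsg.blockOf M (χ₀ : G → ℂ)
  · rw [Set.indicator_of_mem h, if_pos h]
  · rw [Set.indicator_of_notMem h, if_neg h]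

end Cfsg.Agent.S0907
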