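import Cfsg.Statements.S4653
import Mathlib
import Cfsg.Agent.Lib.Helper7.SuppSpec
-- import your own Cfsg.Agent.* helpers here

set_option autoImplicit false
open Cfsg
open Cfsg.Agent.Lib.Helper7 Cfsg.Agent.Lib.Lead

namespace Cfsg.Agent.S4653

/-- Fix a prime p and a maximal ideal M of the algebraic integers containing p. Let P be a normal p-subgroup of the finite group G and B a p-block of G. Then the idempotent of B is supported on C_G(P): its coefficient at every element of G outside C_G(P) is zero. -/
theorem result {G : Type*} [Group G] [Fintype G] (p : ℕ) [Fact p.Prime] (M : Ideal Cfsg.AlgInt) (hM : Cfsg.IsPModular p M) (P : Subgroup G) [P.Normal] (hP : IsPGroup p P) (B : Set (Cfsg.IrrCharacter G)) (hB : Cfsg.IsPBlock M B) (g : G) (hg : g ∉ Subgroup.centralizer (P : Set G)) : Cfsg.blockCoeff B g = 0 := by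
  classical
  obtain ⟨χ₀, rfl⟩ := hB
  haveI hCn : (Subgroup.centralizer (P : Set G)).Normal := Subgroup.normal_centralizer
  have hMprime : M.IsPrime := hM.2.1.isPrime
  apply supp_of_separated (Subgroup.centralizer (P : Set G)) _ _ g hg
  intro χ hχ ψ hψ
  by_contra hcon
  push_neg at hcon
  apply hψ
  have h1 : Cfsg.SameBlock M (χ : G → ℂ) (ψ : G → ℂ) := by
    intro k
    by_cases hk : k ∈ Subgroup.centralizer (P : Set G)
    · rw [hcon k hk, sub_self]
      exact memLocalIdeal_zero_lead hMprime.ne_top
    · exact memLocalIdeal_sub_lead hMprime (centralChar_mem_of_not_centralizer p M hM P hP χ k hk)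
        (centralChar_mem_of_not_centralizer p M hM P hP ψ k hk)
  exact sameBlock_trans_lead hMprime hχ h1


end Cfsg.Agent.S4653
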