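import Cfsg.Statements.S0908
import Mathlib
import Cfsg.Agent.Lib.Lead.SylowAux2
import Cfsg.Agent.Lib.Lead.BlockDefGrp
import Cfsg.Agent.Lib.Lead.BlockOsima
import Cfsg.Agent.Lib.Lead.BlockOsimaSupp
import Cfsg.Agent.Lib.Lead.BlockKer
import Cfsg.Agent.Lib.Lead.BlockAux
import Cfsg.Agent.Lib.Lead.BlockAux2
import Cfsg.Agent.Lib.Lead.BrauerR2
import Cfsg.Agent.Lib.Lead.CharZeros
import Cfsg.Agent.Lib.Lead.CharOrtho
import Cfsg.Agent.Lib.Lead.CharCongr

set_option autoImplicit false
open Cfsg Cfsg.Agent.Lib.Lead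

namespace Cfsg.Agent.S0908

open scoped Pointwise commutatorElement

/-- Let B be a block of the finite group G relative to a maximal ideal M of the algebraic integers containing the prime p, and let D be a defect group of B. Then the order of D is p ^ d, where d is the exponent of p in the order of G minus the least exponent of p in the degrees of the members of B. -/
theorem result {G : Type*} [Group G] [Finite G] (p : ℕ) [Fact p.Prime] (M : Ideal Cfsg.AlgInt) (hM : Cfsg.IsPModular p M) (B : Set (Cfsg.IrrCharacter G)) (hB : Cfsg.IsPBlock M B) (D : Subgroup G) (hD : Cfsg.IsDefectGroup p M B D) : Nat.card D = p ^ Cfsg.blockDefect p B := by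
  classical
  haveI : Fintype G := Fintype.ofFinite G
  haveI : Fintype (Cfsg.IrrCharacter G) := Fintype.ofFinite _
  obtain ⟨hp, hMmax, hpM⟩ := hM
  have hMprime : M.IsPrime := hMmax.isPrime
  have hMtop : M ≠ ⊤ := hMprime.ne_top
  obtain ⟨χ₀, rfl⟩ := hB
  obtain ⟨g, ⟨hgR, hgI, hgω⟩, P, rfl⟩ := hD
  haveI : Fintype (Subgroup.centralizer ({g} : Set G)) := Fintype.ofFinite _
  haveI : Fintype (P : Subgroup (Subgroup.centralizer ({g} : Set G))) := Fintype.ofFinite _
  have hnatint : ∀ k : ℕ, IsIntegral ℤ (k : ℂ) := fun k => isIntegral_natCast k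
  have hpI : Cfsg.MemLocalIdeal M (p : ℂ) :=
    memLocalIdeal_of_mem_lead hMtop (p : Cfsg.AlgInt) hpM
  have hp0 : (p : ℂ) ≠ 0 := by exact_mod_cast hp.ne_zero
  have hcl : Cfsg.IsClassFunction G (Cfsg.blockCoeff (Cfsg.blockOf M (χ₀ : G → ℂ))) :=
    fun g h => blockCoeff_classFun_lead _ g h
  have hcR : ∀ x : G, Cfsg.MemLocalRing M
      (Cfsg.blockCoeff (Cfsg.blockOf M (χ₀ : G → ℂ)) x) :=
    fun x => osima_lead p hp M hMprime hpM χ₀ x
  have hidem : ∀ x : G, ∑ y : G, Cfsg.blockCoeff (Cfsg.blockOf M (χ₀ : G → ℂ)) y *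
      Cfsg.blockCoeff (Cfsg.blockOf M (χ₀ : G → ℂ)) (y⁻¹ * x) =
      Cfsg.blockCoeff (Cfsg.blockOf M (χ₀ : G → ℂ)) x :=
    fun x => (blockCoeff_conv_lead _ x).symm
  have hsing : ∀ y : G, p ∣ orderOf y →
      Cfsg.blockCoeff (Cfsg.blockOf M (χ₀ : G → ℂ)) y = 0 :=
    fun y hy => idem_psingular_lead p hp hMprime hpM _ hcl hcR hidem y hy
  have hreg : ¬ p ∣ orderOf g := by
    intro h
    apply hgI
    rw [hsing g h]
    exact memLocalIdeal_zero_lead hMtop
  have hcardD : Nat.card ((P : Subgroup (Subgroup.centralizer ({g} : Set G))).map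
      (Subgroup.centralizer ({g} : Set G)).subtype) =
      Nat.card (P : Subgroup (Subgroup.centralizer ({g} : Set G))) :=
    Nat.card_congr ((P : Subgroup (Subgroup.centralizer ({g} : Set G))).equivMapOfInjective _
      (Subgroup.subtype_injective _)).toEquiv.symm
  rw [hcardD]
  obtain ⟨δ, hδ⟩ := IsPGroup.exists_card_eq P.isPGroup'
  rw [hδ]
  have hG0 : Nat.card G ≠ 0 := Nat.card_pos.ne'
  have hidx0 : (Subgroup.centralizer ({g} : Set G)).index ≠ 0 :=
    Subgroup.index_ne_zero_of_finite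
  obtain ⟨e, r, hr, her⟩ := Nat.exists_eq_pow_mul_and_not_dvd hidx0 p hp.ne_one
  have hPidx : ¬ p ∣ (P : Subgroup (Subgroup.centralizer ({g} : Set G))).index :=
    P.not_dvd_index
  obtain ⟨c', hc'⟩ : ∃ c' : ℕ,
      c' = (P : Subgroup (Subgroup.centralizer ({g} : Set G))).index := ⟨_, rfl⟩
  rw [← hc'] at hPidx
  have hCcard : Nat.card (Subgroup.centralizer ({g} : Set G)) = p ^ δ * c' := by
    rw [hc', ← hδ]
    exact (Subgroup.card_mul_index _).symm
  have hGcard : Nat.card G = p ^ δ * c' * (p ^ e * r) := by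
    rw [← hCcard, ← her]
    exact (Subgroup.card_mul_index _).symm
  have hc'0 : c' ≠ 0 := by
    rintro rfl
    exact hPidx (dvd_zero p)
  have hr0 : r ≠ 0 := by
    rintro rfl
    exact hr (dvd_zero p)
  have hnd : ¬ p ∣ c' * r := fun h => (hp.dvd_mul.mp h).elim hPidx hr
  have hfac : (Nat.card G).factorization p = δ + e := by
    have h1 : Nat.card G = p ^ (δ + e) * (c' * r) := by
      rw [hGcard, pow_add]
      ring
    rw [h1, Nat.factorization_mul (pow_ne_zero _ hp.ne_zero) (mul_ne_zero hc'0 hr0),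
      Finsupp.add_apply, Nat.Prime.factorization_pow hp, Finsupp.single_eq_same,
      Nat.factorization_eq_zero_of_not_dvd hnd, add_zero]
  -- (I) the `p`-part of the class size divides all degrees
  have hI : ∀ χ ∈ Cfsg.blockOf M (χ₀ : G → ℂ),
      e ≤ (Cfsg.charDegree (χ : G → ℂ)).factorization p := by
    intro χ hχ
    obtain ⟨hd1, hd0⟩ := charDegree_irr χ.2
    have hχc := isCharacter_of_isIrrCharacter χ.2
    obtain ⟨j, d', hd', hdj⟩ := Nat.exists_eq_pow_mul_and_not_dvd hd0 p hp.ne_one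
    rw [← Nat.Prime.pow_dvd_iff_le_factorization hp hd0]
    by_contra hcon
    have hje : j < e := by
      by_contra hje
      apply hcon
      rw [hdj]
      exact Dvd.dvd.mul_right (pow_dvd_pow p (not_lt.mp hje)) d'
    apply hgω χ hχ
    obtain ⟨t, ht⟩ : ∃ t : ℕ, e = j + 1 + t := ⟨e - (j + 1), by omega⟩
    have hcop : Nat.Coprime d' p := ((Nat.Prime.coprime_iff_not_dvd hp).mpr hd').symm
    have hd'M : ((d' : ℕ) : Cfsg.AlgInt) ∉ M := natCast_not_mem_lead hMtop p d' hcop hpM
    have h1 : Cfsg.MemLocalRing M ((d' : ℂ)⁻¹) := memLocalRing_inv_lead hd'M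
    have hint : IsIntegral ℤ ((p : ℂ) ^ t * (r : ℂ) * (χ : G → ℂ) g) :=
      (((hnatint p).pow t).mul (hnatint r)).mul (isIntegral_isCharacter hχc g)
    have h2 : Cfsg.MemLocalRing M
        ((d' : ℂ)⁻¹ * ((p : ℂ) ^ t * (r : ℂ) * (χ : G → ℂ) g)) :=
      memLocalRing_mul_lead hMprime h1 (memLocalRing_isIntegral_lead hMtop hint)
    have h3 := memLocalIdeal_mul_ring_lead hMprime h2 hpI
    have heq : Cfsg.centralChar (χ : G → ℂ) g =
        (d' : ℂ)⁻¹ * ((p : ℂ) ^ t * (r : ℂ) * (χ : G → ℂ) g) * (p : ℂ) := by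
      unfold Cfsg.centralChar
      rw [hd1, her, hdj, ht]
      have hpj : ((p : ℂ) ^ j)⁻¹ * (p : ℂ) ^ j = 1 := inv_mul_cancel₀ (pow_ne_zero j hp0)
      push_cast
      rw [div_eq_mul_inv]
      linear_combination
        ((d' : ℂ)⁻¹ * ((p : ℂ) ^ t * (r : ℂ) * (χ : G → ℂ) g) * (p : ℂ)) * hpj
    rw [heq]
    exact h3
  -- vanishing of the idempotent on `u g`, `u ≠ 1` in `P`
  have hvan : ∀ u : (P : Subgroup (Subgroup.centralizer ({g} : Set G))), u ≠ 1 →
      Cfsg.blockCoeff (Cfsg.blockOf M (χ₀ : G → ℂ))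
        (((u : Subgroup.centralizer ({g} : Set G)) : G) * g) = 0 := by
    intro u hu
    apply hsing
    obtain ⟨k, hk⟩ := P.isPGroup' u
    have hcomm : Commute (((u : Subgroup.centralizer ({g} : Set G)) : G)) g := by
      have h1 := (u : Subgroup.centralizer ({g} : Set G)).2
      rw [Subgroup.mem_centralizer_iff] at h1
      exact (h1 g (Set.mem_singleton g)).symm
    have hx1 : (((u : Subgroup.centralizer ({g} : Set G)) : G)) ≠ 1 := by
      intro h
      apply hu
      apply Subtype.ext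
      apply Subtype.ext
      exact h
    have hxpow : (((u : Subgroup.centralizer ({g} : Set G)) : G)) ^ p ^ k = 1 := by
      have h2 := congrArg (fun w : (P : Subgroup (Subgroup.centralizer ({g} : Set G))) =>
        ((w : Subgroup.centralizer ({g} : Set G)) : G)) hk
      simpa using h2
    have hdiv : orderOf (((u : Subgroup.centralizer ({g} : Set G)) : G)) ∣ p ^ k :=
      orderOf_dvd_of_pow_eq_one hxpow
    obtain ⟨m, -, hm⟩ := (Nat.dvd_prime_pow hp).mp hdiv
    have hm0 : m ≠ 0 := by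
      rintro rfl
      rw [pow_zero, orderOf_eq_one_iff] at hm
      exact hx1 hm
    have hpo : p ∣ orderOf (((u : Subgroup.centralizer ({g} : Set G)) : G)) := by
      rw [hm]
      exact dvd_pow_self p hm0
    have hcop : (orderOf (((u : Subgroup.centralizer ({g} : Set G)) : G))).Coprime
        (orderOf g) := by
      rw [hm]
      exact Nat.Coprime.pow_left m ((Nat.Prime.coprime_iff_not_dvd hp).mpr hreg)
    rw [hcomm.orderOf_mul_eq_mul_orderOf_of_coprime hcop]
    exact Dvd.dvd.mul_right hpo _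
  -- (II) some degree has exactly the `p`-part of the class size
  have hII : ∃ χ ∈ Cfsg.blockOf M (χ₀ : G → ℂ),
      (Cfsg.charDegree (χ : G → ℂ)).factorization p ≤ e := by
    by_contra hcon
    push_neg at hcon
    apply hgI
    exact blockCoeff_pdiv_lead p hp hMprime hpM (Cfsg.blockOf M (χ₀ : G → ℂ)) g
      (P : Subgroup (Subgroup.centralizer ({g} : Set G))) hvan δ e c' r hδ hGcard hPidx hr
      (fun χ hχ => (Nat.Prime.pow_dvd_iff_le_factorization hp (charDegree_irr χ.2).2).mpr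
        (Nat.succ_le_of_lt (hcon χ hχ)))
  have hdef : Cfsg.blockDefect p (Cfsg.blockOf M (χ₀ : G → ℂ)) = δ := by
    unfold Cfsg.blockDefect
    have hinf : sInf ((fun χ : Cfsg.IrrCharacter G =>
        (Cfsg.charDegree (χ : G → ℂ)).factorization p) '' Cfsg.blockOf M (χ₀ : G → ℂ)) = e := by
      apply le_antisymm
      · obtain ⟨χ, hχ, hle⟩ := hII
        exact le_trans (Nat.sInf_le ⟨χ, hχ, rfl⟩) hle
      · apply le_csInf
        · exact ⟨_, ⟨χ₀, sameBlock_refl_lead hMtop _, rfl⟩⟩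
        · rintro _ ⟨χ, hχ, rfl⟩
          exact hI χ hχ
    rw [hinf, hfac]
    omega
  rw [hdef]

end Cfsg.Agent.S0908
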