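import Cfsg.Statements.S0905
import Mathlib
import Cfsg.Agent.Lib.Lead.SylowAux2
import Cfsg.Agent.Lib.Lead.GroupAlgNilp

set_option autoImplicit false
open Cfsg Cfsg.Agent.Lib.Lead

namespace Cfsg.Agent.S0905

open scoped Pointwise commutatorElement

/-- Let F be a field of characteristic p and let g be an element of the finite group G no conjugate of which centralizes O_p(G). Then the class sum of g is a nilpotent element of the group algebra F[G]. -/
theorem result {G : Type*} [Group G] [Finite G] (p : ℕ) [Fact p.Prime] (F : Type*) [Field F] [CharP F p] (g : G) (hg : ∀ x : G, IsConj g x → x ∉ Subgroup.centralizer (Cfsg.pCore p G : Set G)) : IsNilpotent (∑ᶠ x ∈ ConjClasses.carrier (ConjClasses.mk g), MonoidAlgebra.single x (1 : F) : MonoidAlgebra F G) := by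
  classical
  haveI : Fintype G := Fintype.ofFinite G
  haveI hQn : (Cfsg.pCore p G).Normal := Cfsg.Agent.Lib.Helper4.pCore_normal p G
  have hQp : IsPGroup p (Cfsg.pCore p G) := Cfsg.Agent.Lib.Helper4.pCore_isPGroup p G
  have hsum : (∑ᶠ x ∈ ConjClasses.carrier (ConjClasses.mk g), MonoidAlgebra.single x (1 : F) :
      MonoidAlgebra F G)
      = ∑ x ∈ Finset.univ.filter (fun x : G => IsConj g x), MonoidAlgebra.single x (1 : F) := by
    rw [finsum_mem_def, finsum_eq_sum_of_fintype, Finset.sum_filter]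
    refine Finset.sum_congr rfl (fun x _ => ?_)
    rw [Set.indicator_apply]
    refine if_congr ?_ rfl rfl
    rw [ConjClasses.mem_carrier_iff_mk_eq, ConjClasses.mk_eq_mk_iff_isConj]
    exact ⟨fun h => h.symm, fun h => h.symm⟩
  rw [hsum]
  refine nilp_of_map_zero_lead p F (Nat.card (Cfsg.pCore p G)) G (Cfsg.pCore p G) hQp le_rfl _ ?_
  have h1 : MonoidAlgebra.mapDomain (QuotientGroup.mk : G → G ⧸ Cfsg.pCore p G)
      (∑ x ∈ Finset.univ.filter (fun x : G => IsConj g x), MonoidAlgebra.single x (1 : F))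
      = ∑ x ∈ Finset.univ.filter (fun x : G => IsConj g x),
        MonoidAlgebra.single (QuotientGroup.mk x : G ⧸ Cfsg.pCore p G) (1 : F) := by
    have e : MonoidAlgebra.mapDomain (QuotientGroup.mk : G → G ⧸ Cfsg.pCore p G)
        (∑ x ∈ Finset.univ.filter (fun x : G => IsConj g x), MonoidAlgebra.single x (1 : F))
        = (MonoidAlgebra.mapDomainRingHom F (QuotientGroup.mk' (Cfsg.pCore p G)))
          (∑ x ∈ Finset.univ.filter (fun x : G => IsConj g x), MonoidAlgebra.single x (1 : F)) :=
      rfl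
    rw [e, map_sum]
    refine Finset.sum_congr rfl (fun x _ => ?_)
    show MonoidAlgebra.mapDomain (QuotientGroup.mk' (Cfsg.pCore p G))
      (MonoidAlgebra.single x (1 : F)) = _
    rw [MonoidAlgebra.mapDomain_single]
    rfl
  have h2 := Finset.sum_comp (s := Finset.univ.filter (fun x : G => IsConj g x))
    (fun c : G ⧸ Cfsg.pCore p G => MonoidAlgebra.single c (1 : F))
    (QuotientGroup.mk : G → G ⧸ Cfsg.pCore p G)
  refine h1.trans (h2.trans (Finset.sum_eq_zero (fun c _ => ?_)))
  show ((Finset.univ.filter (fun x : G => IsConj g x)).filter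
      (fun x => (QuotientGroup.mk x : G ⧸ Cfsg.pCore p G) = c)).card
    • MonoidAlgebra.single c (1 : F) = 0
  have hdvd : p ∣ ((Finset.univ.filter (fun x : G => IsConj g x)).filter
      (fun x => (QuotientGroup.mk x : G ⧸ Cfsg.pCore p G) = c)).card := by
    letI act : MulAction (Cfsg.pCore p G)
        {x : G // IsConj g x ∧ (QuotientGroup.mk x : G ⧸ Cfsg.pCore p G) = c} :=
      { smul := fun u x => ⟨(u : G) * x.1 * (u : G)⁻¹,
          x.2.1.trans (isConj_iff.mpr ⟨(u : G), rfl⟩), by
            have hu : (QuotientGroup.mk (u : G) : G ⧸ Cfsg.pCore p G) = 1 :=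
              (QuotientGroup.eq_one_iff _).mpr u.2
            have e : (QuotientGroup.mk ((u : G) * x.1 * (u : G)⁻¹) : G ⧸ Cfsg.pCore p G)
                = QuotientGroup.mk (u : G) * QuotientGroup.mk x.1
                  * (QuotientGroup.mk (u : G))⁻¹ := rfl
            rw [e, hu, x.2.2, one_mul, inv_one, mul_one]⟩
        one_smul := fun x => Subtype.ext (by
          show ((1 : Cfsg.pCore p G) : G) * x.1 * ((1 : Cfsg.pCore p G) : G)⁻¹ = x.1
          simp)
        mul_smul := fun u v x => Subtype.ext (by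
          show ((u * v : Cfsg.pCore p G) : G) * x.1 * ((u * v : Cfsg.pCore p G) : G)⁻¹
            = (u : G) * ((v : G) * x.1 * (v : G)⁻¹) * (u : G)⁻¹
          simp [mul_assoc]) }
    have hfix : MulAction.fixedPoints (Cfsg.pCore p G)
        {x : G // IsConj g x ∧ (QuotientGroup.mk x : G ⧸ Cfsg.pCore p G) = c} = ∅ := by
      ext x
      simp only [Set.mem_empty_iff_false, iff_false]
      intro hx
      refine hg x.1 x.2.1 ?_
      rw [Subgroup.mem_centralizer_iff]
      intro u hu
      have h3 := hx ⟨u, hu⟩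
      have h4 : u * x.1 * u⁻¹ = x.1 := congrArg Subtype.val h3
      calc u * x.1 = u * x.1 * u⁻¹ * u := by group
        _ = x.1 * u := by rw [h4]
    have hmod := hQp.card_modEq_card_fixedPoints
      {x : G // IsConj g x ∧ (QuotientGroup.mk x : G ⧸ Cfsg.pCore p G) = c}
    rw [hfix] at hmod
    have h0 : Nat.card (∅ : Set {x : G // IsConj g x ∧
        (QuotientGroup.mk x : G ⧸ Cfsg.pCore p G) = c}) = 0 := Nat.card_of_isEmpty
    rw [h0] at hmod
    have hX : Nat.card {x : G // IsConj g x ∧ (QuotientGroup.mk x : G ⧸ Cfsg.pCore p G) = c}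
        = ((Finset.univ.filter (fun x : G => IsConj g x)).filter
          (fun x => (QuotientGroup.mk x : G ⧸ Cfsg.pCore p G) = c)).card := by
      rw [Nat.card_eq_fintype_card]
      refine Fintype.card_of_subtype _ (fun x => ?_)
      rw [Finset.mem_filter, Finset.mem_filter]
      exact ⟨fun h => ⟨h.1.2, h.2⟩, fun h => ⟨⟨Finset.mem_univ _, h.1⟩, h.2⟩⟩
    rw [← hX]
    exact (Nat.modEq_zero_iff_dvd).mp hmod
  rw [← Nat.cast_smul_eq_nsmul F, (CharP.cast_eq_zero_iff F p _).mpr hdvd, zero_smul]

end Cfsg.Agent.S0905
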