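import Cfsg.Statements.S0912
import Mathlib
import Cfsg.Agent.Lib.Lead.SylowAux2
import Cfsg.Agent.Lib.Lead.BlockNilp
import Cfsg.Agent.S0905
import Cfsg.Agent.Lib.Helper4.PCore

set_option autoImplicit false
open Cfsg Cfsg.Agent.Lib.Lead

namespace Cfsg.Agent.S0912

open scoped Pointwise commutatorElement

/-- Let B be a block of the finite group G relative to a maximal ideal M of the algebraic integers containing the prime p. Every defect group of B contains the largest normal p-subgroup O_p(G). -/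
theorem result {G : Type*} [Group G] [Finite G] (p : ℕ) [Fact p.Prime] (M : Ideal Cfsg.AlgInt) (hM : Cfsg.IsPModular p M) (B : Set (Cfsg.IrrCharacter G)) (hB : Cfsg.IsPBlock M B) (D : Subgroup G) (hD : Cfsg.IsDefectGroup p M B D) : Cfsg.pCore p G ≤ D := by
  classical
  haveI : Fintype G := Fintype.ofFinite G
  obtain ⟨hp, hMmax, hpM⟩ := hM
  have hMprime : M.IsPrime := hMmax.isPrime
  have hMtop : M ≠ ⊤ := hMprime.ne_top
  obtain ⟨χ₀, rfl⟩ := hB
  obtain ⟨z, hz, P, rfl⟩ := hD
  obtain ⟨-, -, hzω⟩ := hz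
  have hχ₀ : χ₀ ∈ Cfsg.blockOf M (χ₀ : G → ℂ) := by
    intro g
    rw [sub_self]
    exact memLocalIdeal_zero_lead hMtop
  have hω := hzω χ₀ hχ₀
  haveI hQn : (Cfsg.pCore p G).Normal := Cfsg.Agent.Lib.Helper4.pCore_normal p G
  have hQp : IsPGroup p (Cfsg.pCore p G) := Cfsg.Agent.Lib.Helper4.pCore_isPGroup p G
  have hzC : z ∈ Subgroup.centralizer (Cfsg.pCore p G : Set G) := by
    by_contra hzn
    apply hω
    refine centralChar_mem_of_nilp_lead p hMprime hpM z ?_ χ₀
    refine Cfsg.Agent.S0905.result p (ZMod p) z ?_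
    intro x hx hxC
    apply hzn
    obtain ⟨t, ht⟩ := isConj_iff.mp hx
    rw [Subgroup.mem_centralizer_iff] at hxC ⊢
    intro u hu
    have hu' : t * u * t⁻¹ ∈ Cfsg.pCore p G := hQn.conj_mem u hu t
    have h1 := hxC (t * u * t⁻¹) hu'
    rw [← ht] at h1
    have e1 : t * u * t⁻¹ * (t * z * t⁻¹) = t * (u * z) * t⁻¹ := by group
    have e2 : t * z * t⁻¹ * (t * u * t⁻¹) = t * (z * u) * t⁻¹ := by group
    rw [e1, e2] at h1
    exact mul_left_cancel (mul_right_cancel h1)
  have hQC : Cfsg.pCore p G ≤ Subgroup.centralizer ({z} : Set G) := by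
    intro u hu
    rw [Subgroup.mem_centralizer_iff]
    intro y hy
    rw [Set.mem_singleton_iff] at hy
    rw [hy]
    rw [Subgroup.mem_centralizer_iff] at hzC
    exact (hzC u hu).symm
  haveI hQ'n : ((Cfsg.pCore p G).subgroupOf (Subgroup.centralizer ({z} : Set G))).Normal :=
    Subgroup.Normal.subgroupOf hQn _
  have hQ'p : IsPGroup p ((Cfsg.pCore p G).subgroupOf (Subgroup.centralizer ({z} : Set G))) :=
    hQp.comap_of_injective _ (Subgroup.subtype_injective _)
  have hle := hQ'p.le_sylow_of_normal P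
  intro u hu
  exact ⟨⟨u, hQC hu⟩, hle (Subgroup.mem_subgroupOf.mpr hu), rfl⟩

end Cfsg.Agent.S0912
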