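import Cfsg.Statements.S0917
import Mathlib
import Cfsg.Agent.Lib.Lead.SylowAux2
import Cfsg.Agent.Lib.Lead.BlockDefect

set_option autoImplicit false
open Cfsg Cfsg.Agent.Lib.Lead

namespace Cfsg.Agent.S0917

open scoped Pointwise commutatorElement

/-- Let H be a subgroup of the finite group G, p a prime and M a maximal ideal of the algebraic integers containing p. If the block b of H induces the block B of G relative to M, then every defect group of b (a subgroup of H, viewed in G) is contained in some defect group of B. -/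
theorem result {G : Type*} [Group G] [Finite G] (p : ℕ) [Fact p.Prime] (M : Ideal Cfsg.AlgInt) (hM : Cfsg.IsPModular p M) (H : Subgroup G) (b : Set (Cfsg.IrrCharacter H)) (hb : Cfsg.IsPBlock M b) (B : Set (Cfsg.IrrCharacter G)) (hB : Cfsg.IsPBlock M B) (hind : Cfsg.IsInducedBlock M H b B) (D : Subgroup H) (hD : Cfsg.IsDefectGroup p M b D) : ∃ E : Subgroup G, Cfsg.IsDefectGroup p M B E ∧ D.map H.subtype ≤ E := by
  classical
  haveI : Fintype G := Fintype.ofFinite G
  haveI : Fintype H := Fintype.ofFinite H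
  haveI : Fintype (ConjClasses H) := Fintype.ofFinite _
  obtain ⟨hp, hMmax, hpM⟩ := hM
  have hMprime : M.IsPrime := hMmax.isPrime
  have hMtop : M ≠ ⊤ := hMprime.ne_top
  obtain ⟨ξ₀, rfl⟩ := hb
  obtain ⟨χ₀, rfl⟩ := hB
  have hξ₀b : ξ₀ ∈ Cfsg.blockOf M (ξ₀ : H → ℂ) := sameBlock_refl_lead hMtop (ξ₀ : H → ℂ)
  have hχ₀B : χ₀ ∈ Cfsg.blockOf M (χ₀ : G → ℂ) := sameBlock_refl_lead hMtop (χ₀ : G → ℂ)
  obtain ⟨-, -, hind'⟩ := hind
  obtain ⟨h₀, hh₀, P₀, rfl⟩ := hD
  obtain ⟨hh₀R, hh₀I, hh₀ω⟩ := hh₀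
  obtain ⟨g, hg⟩ := exists_defectClass_lead p hp M hMprime hpM χ₀
  have hgω : ¬ Cfsg.MemLocalIdeal M (Cfsg.centralChar (χ₀ : G → ℂ) g) := by
    have hg2 := hg
    obtain ⟨-, -, h3⟩ := hg2
    exact h3 χ₀ hχ₀B
  have hindI : ¬ Cfsg.MemLocalIdeal M (Cfsg.inducedCentralChar H (ξ₀ : H → ℂ) g) := by
    intro h0
    apply hgω
    have h1 := memLocalIdeal_sub_lead hMprime h0 (hind' ξ₀ hξ₀b χ₀ hχ₀B g)
    have e : Cfsg.inducedCentralChar H (ξ₀ : H → ℂ) g -
        (Cfsg.inducedCentralChar H (ξ₀ : H → ℂ) g - Cfsg.centralChar (χ₀ : G → ℂ) g) =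
        Cfsg.centralChar (χ₀ : G → ℂ) g := by ring
    rw [e] at h1
    exact h1
  have hex : ∃ h₁ : H, IsConj g (h₁ : G) ∧
      ¬ Cfsg.MemLocalIdeal M (Cfsg.centralChar (ξ₀ : H → ℂ) h₁) := by
    by_contra hcon
    apply hindI
    rw [inducedCentralChar_regroup_lead H (ξ₀ : H → ℂ)
      (fun a b => isClassFunction_of_irr ξ₀.2 a b) g]
    apply memLocalIdeal_sum_lead hMprime
    intro c _
    beta_reduce
    by_cases hc : IsConj g ((Quotient.out c : H) : G)
    · rw [if_pos hc]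
      by_contra h2
      exact hcon ⟨Quotient.out c, hc, h2⟩
    · rw [if_neg hc]
      exact memLocalIdeal_zero_lead hMtop
  obtain ⟨h₁, hh₁g, hh₁ω⟩ := hex
  have hPD : IsPGroup p ((P₀ : Subgroup (Subgroup.centralizer ({h₀} : Set H))).map
      (Subgroup.centralizer ({h₀} : Set H)).subtype) := P₀.isPGroup'.map _
  have hPz : ∀ d ∈ (P₀ : Subgroup (Subgroup.centralizer ({h₀} : Set H))).map
      (Subgroup.centralizer ({h₀} : Set H)).subtype, d * h₀ = h₀ * d := by
    intro d hd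
    obtain ⟨c, -, rfl⟩ := Subgroup.mem_map.mp hd
    exact (Subgroup.mem_centralizer_iff.mp c.2 h₀ (Set.mem_singleton h₀)).symm
  obtain ⟨x, hxh₁, hxfix⟩ := minmax_key_lead p hp M hMprime hpM ξ₀ h₁ h₀ hh₁ω hh₀I _ hPD hPz
  obtain ⟨y, hy⟩ := isConj_iff.mp hxh₁
  obtain ⟨t, ht⟩ := isConj_iff.mp hh₁g
  have hxg : (x : G) = ((y : G)⁻¹ * t) * g * ((y : G)⁻¹ * t)⁻¹ := by
    have h1 : (h₁ : G) = (y : G) * (x : G) * (y : G)⁻¹ := by
      rw [← hy]
      rfl
    rw [h1] at ht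
    calc (x : G) = (y : G)⁻¹ * ((y : G) * (x : G) * (y : G)⁻¹) * (y : G) := by group
      _ = (y : G)⁻¹ * (t * g * t⁻¹) * (y : G) := by rw [ht]
      _ = ((y : G)⁻¹ * t) * g * ((y : G)⁻¹ * t)⁻¹ := by group
  have hxdef : Cfsg.IsDefectClass M (Cfsg.blockOf M (χ₀ : G → ℂ)) (x : G) := by
    rw [hxg]
    exact isDefectClass_conj_lead hg _
  have hDle : ((P₀ : Subgroup (Subgroup.centralizer ({h₀} : Set H))).map
      (Subgroup.centralizer ({h₀} : Set H)).subtype).map H.subtype ≤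
      Subgroup.centralizer ({(x : G)} : Set G) := by
    intro v hv
    obtain ⟨d, hd, rfl⟩ := Subgroup.mem_map.mp hv
    rw [Subgroup.mem_centralizer_iff]
    intro a ha
    rw [Set.mem_singleton_iff.mp ha]
    have h2 := hxfix d hd
    have h3 : (d : G) * (x : G) * (d : G)⁻¹ = (x : G) := congrArg Subtype.val h2
    show (x : G) * (d : G) = (d : G) * (x : G)
    calc (x : G) * (d : G) = (d : G) * (x : G) * (d : G)⁻¹ * (d : G) := by rw [h3]
      _ = (d : G) * (x : G) := by group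
  have hR : IsPGroup p ((((P₀ : Subgroup (Subgroup.centralizer ({h₀} : Set H))).map
      (Subgroup.centralizer ({h₀} : Set H)).subtype).map H.subtype).subgroupOf
        (Subgroup.centralizer ({(x : G)} : Set G))) :=
    ((hPD.map _)).comap_of_injective _ (Subgroup.subtype_injective _)
  obtain ⟨Q, hQ⟩ := hR.exists_le_sylow
  have hE : Cfsg.IsDefectGroup p M (Cfsg.blockOf M (χ₀ : G → ℂ))
      ((Q : Subgroup (Subgroup.centralizer ({(x : G)} : Set G))).map
        (Subgroup.centralizer ({(x : G)} : Set G)).subtype) := by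
    unfold Cfsg.IsDefectGroup
    exact ⟨(x : G), hxdef, Q, rfl⟩
  refine ⟨_, hE, ?_⟩
  intro v hv
  have hv' : v ∈ Subgroup.centralizer ({(x : G)} : Set G) := hDle hv
  have hq : (⟨v, hv'⟩ : Subgroup.centralizer ({(x : G)} : Set G)) ∈
      (((P₀ : Subgroup (Subgroup.centralizer ({h₀} : Set H))).map
        (Subgroup.centralizer ({h₀} : Set H)).subtype).map H.subtype).subgroupOf
          (Subgroup.centralizer ({(x : G)} : Set G)) := by
    rw [Subgroup.mem_subgroupOf]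
    exact hv
  exact Subgroup.mem_map.mpr ⟨⟨v, hv'⟩, hQ hq, rfl⟩

end Cfsg.Agent.S0917
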