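import Cfsg.Statements.S0941
import Mathlib
import Cfsg.Agent.Lib.Helper7.DefectOrd
import Cfsg.Agent.Lib.Lead.BlockOrtho
-- import your own Cfsg.Agent.* helpers here

set_option autoImplicit false
open Cfsg
open Cfsg.Agent.Lib.Helper7 Cfsg.Agent.Lib.Lead
open scoped ComplexConjugate

namespace Cfsg.Agent.S0941

theorem descend_aux {G : Type*} [Group G] [Finite G] (P : Subgroup G) [P.Normal]
    (θ : Cfsg.IrrCharacter G) (hker : ∀ x ∈ P, (θ : G → ℂ) x = (θ : G → ℂ) 1) :
    ∃ χ : Cfsg.IrrCharacter (G ⧸ P), (θ : G → ℂ) = (χ : G ⧸ P → ℂ) ∘ QuotientGroup.mk := by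
  obtain ⟨n, ρ, hρ, hρθ⟩ := θ.2
  have hk : P ≤ MonoidHom.ker ρ := by
    intro x hx
    rw [MonoidHom.mem_ker]
    have h1 := hker x hx
    rw [← hρθ, Representation.char_one] at h1
    have h2 := (char_eq_finrank_iff ρ x).1 h1
    rw [h2]
    rfl
  obtain ⟨ρb, hρb⟩ : ∃ ρb : Representation ℂ (G ⧸ P) (Fin n → ℂ),
      ∀ g : G, ρb (QuotientGroup.mk g) = ρ g :=
    ⟨QuotientGroup.lift P ρ hk, fun g => rfl⟩
  have hirr : ρb.IsIrreducible := by
    let e : Subrepresentation ρb ≃o Subrepresentation ρ :=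
      { toFun := fun U => ⟨U.toSubmodule, fun g v hv => by
          rw [← hρb g]
          exact U.apply_mem_toSubmodule (QuotientGroup.mk g) hv⟩
        invFun := fun U => ⟨U.toSubmodule, fun q v hv => by
          obtain ⟨g, rfl⟩ := QuotientGroup.mk_surjective q
          rw [hρb g]
          exact U.apply_mem_toSubmodule g hv⟩
        left_inv := fun U => rfl
        right_inv := fun U => rfl
        map_rel_iff' := Iff.rfl }
    exact (OrderIso.isSimpleOrder_iff e).mpr hρ
  refine ⟨⟨ρb.character, n, ρb, hirr, rfl⟩, ?_⟩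
  rw [← hρθ]
  funext g
  show LinearMap.trace ℂ _ (ρ g) = LinearMap.trace ℂ _ (ρb (QuotientGroup.mk g))
  rw [hρb g]

theorem exists_ker_aux {G : Type*} [Group G] [Fintype G] (p : ℕ) [Fact p.Prime]
    (M : Ideal Cfsg.AlgInt) (hM : Cfsg.IsPModular p M) (P : Subgroup G) [P.Normal]
    (hP : IsPGroup p P) (B : Set (Cfsg.IrrCharacter G)) (hB : Cfsg.IsPBlock M B) :
    ∃ θ ∈ B, ∀ x ∈ P, (θ : G → ℂ) x = (θ : G → ℂ) 1 := by
  classical
  haveI : Fintype (Cfsg.IrrCharacter G) := Fintype.ofFinite _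
  haveI : Fintype P := Fintype.ofFinite _
  have hp : p.Prime := Fact.out
  have hMprime : M.IsPrime := hM.2.1.isPrime
  have hG0 : (Nat.card G : ℂ) ≠ 0 := by exact_mod_cast Nat.card_pos.ne'
  by_contra hcon
  push_neg at hcon
  have hs : ∀ θ ∈ B, ∑ x : P, (θ : G → ℂ) (x : G) = 0 := by
    intro θ hθ
    obtain ⟨x₀, hx₀P, hx₀⟩ := hcon θ hθ
    obtain ⟨hθ1, hθ0⟩ := charDegree_irr θ.2
    have hθ0' : (θ : G → ℂ) 1 ≠ 0 := by rw [hθ1]; exact_mod_cast hθ0
    have h1 : ∀ x : P, ∑ t : G, (θ : G → ℂ) (x₀ * t * (x : G) * t⁻¹) =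
        (Nat.card G : ℂ) * (θ : G → ℂ) x₀ * (θ : G → ℂ) x / (θ : G → ℂ) 1 :=
      fun x => sum_char_conj_mul_lead _ θ.2 x₀ x
    have h2 : ∑ x : P, ∑ t : G, (θ : G → ℂ) (x₀ * t * (x : G) * t⁻¹) =
        (Nat.card G : ℂ) * ∑ x : P, (θ : G → ℂ) (x₀ * (x : G)) := by
      rw [Finset.sum_comm]
      have h3 : ∀ t : G, ∑ x : P, (θ : G → ℂ) (x₀ * t * (x : G) * t⁻¹) =
          ∑ x : P, (θ : G → ℂ) (x₀ * (x : G)) := by
        intro t
        rw [← Equiv.sum_comp ((MulAut.conjNormal t : MulAut P).toEquiv)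
          (fun x : P => (θ : G → ℂ) (x₀ * (x : G)))]
        apply Finset.sum_congr rfl
        intro x _
        show _ = (θ : G → ℂ) (x₀ * ((MulAut.conjNormal t x : P) : G))
        rw [MulAut.conjNormal_apply]
        congr 1
        group
      rw [Finset.sum_congr rfl (fun t _ => h3 t), Finset.sum_const, Finset.card_univ,
        nsmul_eq_mul, Nat.card_eq_fintype_card]
    rw [Finset.sum_congr rfl (fun x _ => h1 x)] at h2
    have h4 : ∑ x : P, (θ : G → ℂ) (x₀ * (x : G)) = ∑ x : P, (θ : G → ℂ) (x : G) := by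
      rw [← Equiv.sum_comp (Equiv.mulLeft (⟨x₀, hx₀P⟩ : P)) (fun x : P => (θ : G → ℂ) (x : G))]
      rfl
    rw [h4] at h2
    by_contra hs0
    apply hx₀
    have h6 : ∑ x : P, (Nat.card G : ℂ) * (θ : G → ℂ) x₀ * (θ : G → ℂ) (x : G) /
        (θ : G → ℂ) 1 = (Nat.card G : ℂ) * ((θ : G → ℂ) x₀ *
          ∑ x : P, (θ : G → ℂ) (x : G)) / (θ : G → ℂ) 1 := by
      rw [Finset.mul_sum, Finset.mul_sum, Finset.sum_div]
      apply Finset.sum_congr rfl
      intro x _
      ring
    rw [h6] at h2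
    field_simp at h2
    exact h2
  have hsum : ∑ x : P, Cfsg.blockCoeff B (x : G) = 0 := by
    have h1 : ∀ x : P, Cfsg.blockCoeff B (x : G) = (Nat.card G : ℂ)⁻¹ *
        ∑ φ : Cfsg.IrrCharacter G,
        if φ ∈ B then (φ : G → ℂ) 1 * conj ((φ : G → ℂ) (x : G)) else 0 :=
      fun x => blockCoeff_eq_sum_lead B (x : G)
    rw [Finset.sum_congr rfl (fun x _ => h1 x), ← Finset.mul_sum, Finset.sum_comm]
    have h2 : ∀ φ : Cfsg.IrrCharacter G, ∑ x : P,
        (if φ ∈ B then (φ : G → ℂ) 1 * conj ((φ : G → ℂ) (x : G)) else 0) = 0 := by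
      intro φ
      by_cases h : φ ∈ B
      · simp only [if_pos h]
        rw [← Finset.mul_sum, ← map_sum, hs φ h, map_zero, mul_zero]
      · simp only [if_neg h]
        exact Finset.sum_const_zero
    rw [Finset.sum_congr rfl (fun φ _ => h2 φ), Finset.sum_const_zero, mul_zero]
  have hsum2 : ∑ x : P, Cfsg.blockCoeff B (x : G) = Cfsg.blockCoeff B 1 := by
    rw [Finset.sum_eq_single (1 : P)]
    · rfl
    · intro x _ hx1
      apply blockCoeff_singular_h7 p M hM B hB
      obtain ⟨j, hj⟩ := hP x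
      have hxj : (x : G) ^ p ^ j = 1 := by
        have := congrArg Subtype.val hj
        simpa using this
      obtain ⟨i, hi, hi2⟩ := (Nat.dvd_prime_pow hp).1 (orderOf_dvd_of_pow_eq_one hxj)
      rcases Nat.eq_zero_or_pos i with h0 | h0
      · exfalso
        apply hx1
        rw [h0, pow_zero, orderOf_eq_one_iff] at hi2
        exact Subtype.ext hi2
      · rw [hi2]
        exact dvd_pow_self p h0.ne'
    · intro h
      exact absurd (Finset.mem_univ _) h
  have hne : Cfsg.blockCoeff B 1 ≠ 0 := by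
    rw [blockCoeff_eq_sum_lead B 1]
    have e : ∑ φ : Cfsg.IrrCharacter G,
        (if φ ∈ B then (φ : G → ℂ) 1 * conj ((φ : G → ℂ) 1) else 0) =
        ((∑ φ : Cfsg.IrrCharacter G,
          if φ ∈ B then (Cfsg.charDegree (φ : G → ℂ)) ^ 2 else 0 : ℕ) : ℂ) := by
      rw [Nat.cast_sum]
      apply Finset.sum_congr rfl
      intro φ _
      by_cases h : φ ∈ B
      · rw [if_pos h, if_pos h, (charDegree_irr φ.2).1, Complex.conj_natCast]
        push_cast
        ring
      · rw [if_neg h, if_neg h, Nat.cast_zero]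
    obtain ⟨χ₀, hχ₀B, -, -⟩ := exists_min_h7 p M hMprime B hB
    have hpos : 0 < ∑ φ : Cfsg.IrrCharacter G,
        if φ ∈ B then (Cfsg.charDegree (φ : G → ℂ)) ^ 2 else 0 := by
      apply Finset.sum_pos' (fun _ _ => Nat.zero_le _)
      refine ⟨χ₀, Finset.mem_univ _, ?_⟩
      rw [if_pos hχ₀B]
      exact pow_pos (Nat.pos_of_ne_zero (charDegree_irr χ₀.2).2) 2
    apply mul_ne_zero (inv_ne_zero hG0)
    rw [e]
    exact_mod_cast hpos.ne'
  exact hne (hsum2 ▸ hsum)

/-- Let P be a normal p-subgroup of the finite group G such that the index of C_G(P) is a power of p, and fix a maximal ideal M of the algebraic integers containing p. Then (i) two irreducible characters of G ⧸ P lie in the same block if and only if their inflations to G do, and (ii) every block of G contains the inflation of some irreducible character of G ⧸ P; so inflation induces a bijection between the blocks of G ⧸ P and the blocks of G. -/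
theorem result {G : Type*} [Group G] [Finite G] (p : ℕ) [Fact p.Prime] (M : Ideal Cfsg.AlgInt) (hM : Cfsg.IsPModular p M) (P : Subgroup G) [P.Normal] (hP : IsPGroup p P) (hC : ∃ k : ℕ, (Subgroup.centralizer (P : Set G)).index = p ^ k) : (∀ χ ψ : Cfsg.IrrCharacter (G ⧸ P), Cfsg.SameBlock M (χ : G ⧸ P → ℂ) (ψ : G ⧸ P → ℂ) ↔ Cfsg.SameBlock M ((χ : G ⧸ P → ℂ) ∘ QuotientGroup.mk) ((ψ : G ⧸ P → ℂ) ∘ QuotientGroup.mk)) ∧ ∀ B : Set (Cfsg.IrrCharacter G), Cfsg.IsPBlock M B → ∃ χ : Cfsg.IrrCharacter (G ⧸ P), ∃ θ ∈ B, (θ : G → ℂ) = (χ : G ⧸ P → ℂ) ∘ QuotientGroup.mk := by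
  classical
  haveI : Fintype G := Fintype.ofFinite _
  haveI : Fintype (G ⧸ P) := Fintype.ofFinite _
  haveI : Fintype (Cfsg.IrrCharacter (G ⧸ P)) := Fintype.ofFinite _
  haveI : Fintype (ConjClasses (G ⧸ P)) := Fintype.ofFinite _
  have hp : p.Prime := Fact.out
  have hMprime : M.IsPrime := hM.2.1.isPrime
  have hMtop : M ≠ ⊤ := hMprime.ne_top
  have hpM : (p : Cfsg.AlgInt) ∈ M := hM.2.2
  have hPpow : ∀ u ∈ P, ∃ j : ℕ, u ^ p ^ j = 1 := by
    intro u hu
    obtain ⟨j, hj⟩ := hP ⟨u, hu⟩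
    refine ⟨j, ?_⟩
    have := congrArg Subtype.val hj
    simpa using this
  -- p-regular elements centralize P
  have hcent : ∀ g : G, ¬ p ∣ orderOf g → g ∈ Subgroup.centralizer (P : Set G) := by
    intro g hg
    obtain ⟨k, hk⟩ := hC
    have h1 : (QuotientGroup.mk g : G ⧸ Subgroup.centralizer (P : Set G)) ^ (p ^ k) = 1 := by
      rw [← hk]
      exact pow_card_eq_one'
    have h2 : (QuotientGroup.mk g : G ⧸ Subgroup.centralizer (P : Set G)) ^ orderOf g = 1 := by
      rw [← QuotientGroup.mk_pow, pow_orderOf_eq_one, QuotientGroup.mk_one]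
    have hcop : Nat.Coprime (p ^ k) (orderOf g) :=
      Nat.Coprime.pow_left _ ((hp.coprime_iff_not_dvd).2 hg)
    have h3 : orderOf (QuotientGroup.mk g : G ⧸ Subgroup.centralizer (P : Set G)) = 1 :=
      Nat.Coprime.eq_one_of_dvd (Nat.Coprime.coprime_dvd_left (orderOf_dvd_of_pow_eq_one h1) hcop)
        (orderOf_dvd_of_pow_eq_one h2)
    exact (QuotientGroup.eq_one_iff g).1 (orderOf_eq_one_iff.1 h3)
  -- centralizer of g maps into the centralizer of its image
  have hle : ∀ g : G, Subgroup.centralizer ({g} : Set G) ≤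
      (Subgroup.centralizer ({(QuotientGroup.mk g : G ⧸ P)} : Set (G ⧸ P))).comap
        (QuotientGroup.mk' P) := by
    intro g h hh
    rw [Subgroup.mem_comap, Subgroup.mem_centralizer_iff]
    intro q hq
    rw [Set.mem_singleton_iff] at hq
    rw [hq]
    have h1 := Subgroup.mem_centralizer_iff.1 hh g (Set.mem_singleton g)
    show (QuotientGroup.mk g : G ⧸ P) * QuotientGroup.mk h =
      QuotientGroup.mk h * QuotientGroup.mk g
    rw [← QuotientGroup.mk_mul, ← QuotientGroup.mk_mul, h1]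
  have hidxc : ∀ g : G, ((Subgroup.centralizer ({(QuotientGroup.mk g : G ⧸ P)} :
      Set (G ⧸ P))).comap (QuotientGroup.mk' P)).index =
      (Subgroup.centralizer ({(QuotientGroup.mk g : G ⧸ P)} : Set (G ⧸ P))).index :=
    fun g => Subgroup.index_comap_of_surjective _ (QuotientGroup.mk'_surjective P)
  have hidxeq : ∀ g : G, ¬ p ∣ orderOf g → (Subgroup.centralizer ({g} : Set G)).index =
      (Subgroup.centralizer ({(QuotientGroup.mk g : G ⧸ P)} : Set (G ⧸ P))).index := by
    intro g hg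
    have hK : (Subgroup.centralizer ({(QuotientGroup.mk g : G ⧸ P)} : Set (G ⧸ P))).comap
        (QuotientGroup.mk' P) = Subgroup.centralizer ({g} : Set G) := by
      apply le_antisymm
      · intro h hh
        rw [Subgroup.mem_comap, Subgroup.mem_centralizer_iff] at hh
        have h1 : (QuotientGroup.mk g : G ⧸ P) * QuotientGroup.mk h =
            QuotientGroup.mk h * QuotientGroup.mk g := hh _ (Set.mem_singleton _)
        have hu : g⁻¹ * (h * g * h⁻¹) ∈ P := by
          rw [← QuotientGroup.eq_one_iff]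
          simp only [QuotientGroup.mk_mul, QuotientGroup.mk_inv]
          rw [← h1, mul_inv_cancel_right, inv_mul_cancel]
        have hgu : Commute g (g⁻¹ * (h * g * h⁻¹)) :=
          (Subgroup.mem_centralizer_iff.1 (hcent g hg) _ hu).symm
        have ho : orderOf (h * g * h⁻¹) = orderOf g := MulEquiv.orderOf_eq (MulAut.conj h) g
        have heq : g * (g⁻¹ * (h * g * h⁻¹)) = h * g * h⁻¹ := mul_inv_cancel_left _ _
        obtain ⟨j, hj⟩ := hPpow _ hu
        have hcop : Nat.Coprime (orderOf g) (orderOf (g⁻¹ * (h * g * h⁻¹))) := by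
          apply Nat.Coprime.coprime_dvd_right (orderOf_dvd_of_pow_eq_one hj)
          exact (Nat.Coprime.pow_left _ ((hp.coprime_iff_not_dvd).2 hg)).symm
        have hmul := hgu.orderOf_mul_eq_mul_orderOf_of_coprime hcop
        rw [heq, ho] at hmul
        have hou : orderOf (g⁻¹ * (h * g * h⁻¹)) = 1 := by
          have hpos := orderOf_pos g
          have h9 : orderOf g * orderOf (g⁻¹ * (h * g * h⁻¹)) = orderOf g * 1 := by
            rw [mul_one]; exact hmul.symm
          exact Nat.eq_of_mul_eq_mul_left hpos h9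
        have hu1 : g⁻¹ * (h * g * h⁻¹) = 1 := orderOf_eq_one_iff.1 hou
        rw [Subgroup.mem_centralizer_iff]
        intro x hx
        rw [Set.mem_singleton_iff] at hx
        rw [hx]
        have h8 : h * g * h⁻¹ = g := by rw [← heq, hu1, mul_one]
        calc g * h = (h * g * h⁻¹) * h := by rw [h8]
          _ = h * g := by group
      · exact hle g
    rw [← hK, hidxc g]
  -- p-regular lifts
  have hlift : ∀ q : G ⧸ P, ¬ p ∣ orderOf q →
      ∃ g : G, (QuotientGroup.mk g : G ⧸ P) = q ∧ ¬ p ∣ orderOf g := by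
    intro q hq
    obtain ⟨g', rfl⟩ := QuotientGroup.mk_surjective q
    have hn0 : 0 < orderOf (QuotientGroup.mk g' : G ⧸ P) := orderOf_pos _
    have hcop : Nat.Coprime (p ^ (Nat.card G).factorization p)
        (orderOf (QuotientGroup.mk g' : G ⧸ P)) :=
      Nat.Coprime.pow_left _ ((hp.coprime_iff_not_dvd).2 hq)
    obtain ⟨k, hk⟩ : ∃ k, k = (p ^ (Nat.card G).factorization p) ^
        (Nat.totient (orderOf (QuotientGroup.mk g' : G ⧸ P))) := ⟨_, rfl⟩
    have hk1 : k ≡ 1 [MOD orderOf (QuotientGroup.mk g' : G ⧸ P)] := by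
      rw [hk]; exact Nat.ModEq.pow_totient hcop
    refine ⟨g' ^ k, ?_, ?_⟩
    · rw [QuotientGroup.mk_pow]
      have h1 : (QuotientGroup.mk g' : G ⧸ P) ^ k = (QuotientGroup.mk g' : G ⧸ P) ^ 1 :=
        (pow_eq_pow_iff_modEq).2 hk1
      rw [h1, pow_one]
    · have hdvd : Nat.card G ∣ k * (Nat.card G / p ^ (Nat.card G).factorization p) := by
        have hφ : 0 < Nat.totient (orderOf (QuotientGroup.mk g' : G ⧸ P)) :=
          Nat.totient_pos.2 hn0
        obtain ⟨j, hj⟩ : ∃ j, Nat.totient (orderOf (QuotientGroup.mk g' : G ⧸ P)) = j + 1 :=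
          ⟨Nat.totient (orderOf (QuotientGroup.mk g' : G ⧸ P)) - 1, by omega⟩
        rw [hk, hj, pow_succ, mul_assoc, Nat.mul_div_cancel' (Nat.ordProj_dvd _ _)]
        exact Dvd.intro_left _ rfl
      have hpow : (g' ^ k) ^ (Nat.card G / p ^ (Nat.card G).factorization p) = 1 := by
        rw [← pow_mul]
        obtain ⟨c, hc⟩ := hdvd
        rw [hc, pow_mul, pow_card_eq_one', one_pow]
      intro hdiv
      have h1 : p ∣ Nat.card G / p ^ (Nat.card G).factorization p :=
        dvd_trans hdiv (orderOf_dvd_of_pow_eq_one hpow)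
      exact Nat.not_dvd_ordCompl hp Nat.card_pos.ne' h1
  have hone : ¬ Cfsg.MemLocalIdeal M (1 : ℂ) := by
    intro h
    have h3 := int_mem_dvd_h7 p M hM 1 (by rw [Int.cast_one]; exact h)
    have h4 : p ∣ 1 := by exact_mod_cast h3
    exact hp.one_lt.ne' (Nat.dvd_one.1 h4)
  refine ⟨?_, ?_⟩
  · intro χ ψ
    constructor
    · intro h g
      obtain ⟨m, hm⟩ := Subgroup.index_dvd_of_le (hle g)
      rw [hidxc g] at hm
      have e : ∀ φ : G ⧸ P → ℂ, Cfsg.centralChar (φ ∘ QuotientGroup.mk) g =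
          (m : ℂ) * Cfsg.centralChar φ (QuotientGroup.mk g : G ⧸ P) := by
        intro φ
        unfold Cfsg.centralChar
        rw [hm]
        simp only [Function.comp]
        rw [QuotientGroup.mk_one]
        push_cast
        ring
      rw [e χ, e ψ, ← mul_sub]
      have hmR : Cfsg.MemLocalRing M (m : ℂ) := by
        have h1 := memLocalRing_int_h7 M hMtop (m : ℤ)
        rw [Int.cast_natCast] at h1
        exact h1
      exact memLocalIdeal_mul_ring_lead hMprime hmR (h (QuotientGroup.mk g))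
    · intro h
      have hreg : ∀ q : G ⧸ P, ¬ p ∣ orderOf q → Cfsg.MemLocalIdeal M
          (Cfsg.centralChar (χ : G ⧸ P → ℂ) q - Cfsg.centralChar (ψ : G ⧸ P → ℂ) q) := by
        intro q hq
        obtain ⟨g, hgq, hgreg⟩ := hlift q hq
        have hidx := hidxeq g hgreg
        have e : ∀ φ : G ⧸ P → ℂ, Cfsg.centralChar (φ ∘ QuotientGroup.mk) g =
            Cfsg.centralChar φ q := by
          intro φ
          unfold Cfsg.centralChar
          rw [hidx]
          simp only [Function.comp]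
          rw [hgq, QuotientGroup.mk_one]
        rw [← e (χ : G ⧸ P → ℂ), ← e (ψ : G ⧸ P → ℂ)]
        exact h g
      have hBb : Cfsg.IsPBlock M (Cfsg.blockOf M (χ : G ⧸ P → ℂ)) := ⟨χ, rfl⟩
      have h1 := blockCoeff_class_sum_h7 (Cfsg.blockOf M (χ : G ⧸ P → ℂ)) χ
      have h2 := blockCoeff_class_sum_h7 (Cfsg.blockOf M (χ : G ⧸ P → ℂ)) ψ
      rw [if_pos (show χ ∈ Cfsg.blockOf M (χ : G ⧸ P → ℂ) from sameBlock_refl_lead hMtop _)] at h1
      by_contra hnot
      rw [if_neg (show ψ ∉ Cfsg.blockOf M (χ : G ⧸ P → ℂ) from hnot)] at h2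
      apply hone
      have h3 : ∑ c : ConjClasses (G ⧸ P),
          Cfsg.blockCoeff (Cfsg.blockOf M (χ : G ⧸ P → ℂ)) (Quotient.out c) *
          (Cfsg.centralChar (χ : G ⧸ P → ℂ) (Quotient.out c) -
            Cfsg.centralChar (ψ : G ⧸ P → ℂ) (Quotient.out c)) = 1 := by
        calc ∑ c : ConjClasses (G ⧸ P),
            Cfsg.blockCoeff (Cfsg.blockOf M (χ : G ⧸ P → ℂ)) (Quotient.out c) *
            (Cfsg.centralChar (χ : G ⧸ P → ℂ) (Quotient.out c) -
              Cfsg.centralChar (ψ : G ⧸ P → ℂ) (Quotient.out c))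
            = ∑ c : ConjClasses (G ⧸ P),
                Cfsg.blockCoeff (Cfsg.blockOf M (χ : G ⧸ P → ℂ)) (Quotient.out c) *
                Cfsg.centralChar (χ : G ⧸ P → ℂ) (Quotient.out c) -
              ∑ c : ConjClasses (G ⧸ P),
                Cfsg.blockCoeff (Cfsg.blockOf M (χ : G ⧸ P → ℂ)) (Quotient.out c) *
                Cfsg.centralChar (ψ : G ⧸ P → ℂ) (Quotient.out c) := by
              rw [← Finset.sum_sub_distrib]
              apply Finset.sum_congr rfl
              intro c _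
              ring
          _ = 1 := by rw [h1, h2, sub_zero]
      rw [← h3]
      apply memLocalIdeal_sum_lead hMprime
      intro c _
      by_cases hc : p ∣ orderOf (Quotient.out c : G ⧸ P)
      · rw [blockCoeff_singular_h7 p M hM _ hBb _ hc, zero_mul]
        exact memLocalIdeal_zero_lead hMtop
      · exact memLocalIdeal_mul_ring_lead hMprime (osima_lead p hp M hMprime hpM χ _)
          (hreg _ hc)
  · intro B hB
    obtain ⟨θ, hθB, hθker⟩ := exists_ker_aux p M hM P hP B hB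
    obtain ⟨χ, hχ⟩ := descend_aux P θ hθker
    exact ⟨χ, θ, hθB, hχ⟩


end Cfsg.Agent.S0941
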