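import Cfsg.Statements.S0919
import Mathlib
import Cfsg.Agent.Lib.Helper7.BlockQuot
import Cfsg.Agent.Lib.Lead.BlockMinMax
import Cfsg.Agent.Lib.Lead.BlockCover2
import Cfsg.Agent.Lib.Lead.BlockOsima2
-- import your own Cfsg.Agent.* helpers here

set_option autoImplicit false
open Cfsg
open Cfsg.Agent.Lib.Helper7 Cfsg.Agent.Lib.Lead
open scoped ComplexConjugate

namespace Cfsg.Agent.S0919

universe u

theorem om_regroup_aux {H : Type u} [Group H] [Fintype H] [Fintype (ConjClasses H)] (ξ : H → ℂ)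
    (hξ : ∀ a b : H, ξ (b * a * b⁻¹) = ξ a) (f : H → ℂ)
    (hf : ∀ a b : H, f (b * a * b⁻¹) = f a) :
    ∑ m : H, f m * (ξ m / ξ 1) =
      ∑ c : ConjClasses H, f (Quotient.out c) * Cfsg.centralChar ξ (Quotient.out c) := by
  rw [sum_classFun_regroup_lead (fun m => f m * (ξ m / ξ 1)) (fun a b => by
    show f (b * a * b⁻¹) * (ξ (b * a * b⁻¹) / ξ 1) = f a * (ξ a / ξ 1)
    rw [hf, hξ])]
  apply Finset.sum_congr rfl
  intro c _
  unfold Cfsg.centralChar
  ring

theorem om_J_aux {H : Type u} [Group H] [Fintype H] {M : Ideal Cfsg.AlgInt} (hM : M.IsPrime)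
    (ξ : Cfsg.IrrCharacter H) (f : H → ℂ) (hf : ∀ a b : H, f (b * a * b⁻¹) = f a)
    (h : ∀ m : H, Cfsg.MemLocalIdeal M (f m * Cfsg.centralChar (ξ : H → ℂ) m)) :
    Cfsg.MemLocalIdeal M (∑ m : H, f m * ((ξ : H → ℂ) m / (ξ : H → ℂ) 1)) := by
  classical
  haveI : Fintype (ConjClasses H) := Fintype.ofFinite _
  rw [om_regroup_aux (ξ : H → ℂ) (isClassFunction_of_irr ξ.2) f hf]
  exact memLocalIdeal_sum_lead hM _ _ (fun c _ => h _)

theorem om_R_aux {H : Type u} [Group H] [Fintype H] {M : Ideal Cfsg.AlgInt} (hM : M.IsPrime)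
    (ξ : Cfsg.IrrCharacter H) (f : H → ℂ) (hf : ∀ a b : H, f (b * a * b⁻¹) = f a)
    (h : ∀ m : H, Cfsg.MemLocalRing M (f m)) :
    Cfsg.MemLocalRing M (∑ m : H, f m * ((ξ : H → ℂ) m / (ξ : H → ℂ) 1)) := by
  classical
  haveI : Fintype (ConjClasses H) := Fintype.ofFinite _
  rw [om_regroup_aux (ξ : H → ℂ) (isClassFunction_of_irr ξ.2) f hf]
  apply memLocalRing_sum_lead hM
  intro c _
  exact memLocalRing_mul_lead hM (h _)
    (memLocalRing_isIntegral_lead hM.ne_top (isIntegral_centralChar_lead ξ _))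

theorem cent_conj_aux {G : Type u} [Group G] (P : Subgroup G) (t x : G)
    (ht : t ∈ Subgroup.normalizer (P : Set G)) (hx : x ∈ Subgroup.centralizer (P : Set G)) :
    t * x * t⁻¹ ∈ Subgroup.centralizer (P : Set G) := by
  rw [Subgroup.mem_centralizer_iff] at hx ⊢
  intro u hu
  have hu' : t⁻¹ * u * t ∈ (P : Set G) := by
    apply (Subgroup.mem_normalizer_iff.1 ht (t⁻¹ * u * t)).2
    have e : t * (t⁻¹ * u * t) * t⁻¹ = u := by group
    rw [e]
    exact hu
  have h1 := hx _ hu'
  calc u * (t * x * t⁻¹) = t * ((t⁻¹ * u * t) * x) * t⁻¹ := by group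
    _ = t * (x * (t⁻¹ * u * t)) * t⁻¹ := by rw [h1]
    _ = t * x * t⁻¹ * u := by group

theorem cent_conj_iff_aux {G : Type u} [Group G] (P : Subgroup G) (t x : G)
    (ht : t ∈ Subgroup.normalizer (P : Set G)) :
    t * x * t⁻¹ ∈ Subgroup.centralizer (P : Set G) ↔ x ∈ Subgroup.centralizer (P : Set G) := by
  constructor
  · intro h
    have h2 := cent_conj_aux P t⁻¹ (t * x * t⁻¹) (inv_mem ht) h
    have e : t⁻¹ * (t * x * t⁻¹) * t⁻¹⁻¹ = x := by group
    rw [e] at h2
    exact h2
  · exact cent_conj_aux P t x ht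

theorem mult_aux {G : Type u} [Group G] [Fintype G] (p : ℕ) [Fact p.Prime]
    (M : Ideal Cfsg.AlgInt) (hM : Cfsg.IsPModular p M) (P H : Subgroup G) [Fintype H]
    (hP : IsPGroup p P) (hPH : P ≤ H) (hCH : Subgroup.centralizer (P : Set G) ≤ H)
    (hHN : H ≤ Subgroup.normalizer (P : Set G)) (ξ : Cfsg.IrrCharacter H)
    (z z' : G → ℂ) (hz : Cfsg.IsClassFunction G z) (hz' : Cfsg.IsClassFunction G z')
    (hzR : ∀ g, Cfsg.MemLocalRing M (z g)) (hzR' : ∀ g, Cfsg.MemLocalRing M (z' g)) :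
    Cfsg.MemLocalIdeal M
      ((∑ m : H, (∑ x : G, z x * z' (x⁻¹ * (m : G))) * ((ξ : H → ℂ) m / (ξ : H → ℂ) 1)) -
        (∑ m : H, z (m : G) * ((ξ : H → ℂ) m / (ξ : H → ℂ) 1)) *
          (∑ m : H, z' (m : G) * ((ξ : H → ℂ) m / (ξ : H → ℂ) 1))) := by
  classical
  have hMprime : M.IsPrime := hM.2.1.isPrime
  have hMtop : M ≠ ⊤ := hMprime.ne_top
  have hp : p.Prime := hM.1
  have hpM : (p : Cfsg.AlgInt) ∈ M := hM.2.2
  haveI hQn : (P.subgroupOf H).Normal :=
    (Subgroup.normal_subgroupOf_iff_le_normalizer hPH).2 hHN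
  have hQ : IsPGroup p (P.subgroupOf H) := hP.comap_subtype
  have hout : ∀ m : H, (m : G) ∉ Subgroup.centralizer (P : Set G) →
      Cfsg.MemLocalIdeal M (Cfsg.centralChar (ξ : H → ℂ) m) := by
    intro m hm
    have hx : m ∉ Subgroup.centralizer ((P.subgroupOf H : Subgroup H) : Set H) := by
      intro hcen
      apply hm
      rw [Subgroup.mem_centralizer_iff] at hcen ⊢
      intro u hu
      have h1 := hcen ⟨u, hPH hu⟩ (by
        show (⟨u, hPH hu⟩ : H) ∈ P.subgroupOf H
        rw [Subgroup.mem_subgroupOf]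
        exact hu)
      exact congrArg Subtype.val h1
    exact central_mem_h7 p M hM (P.subgroupOf H) hQ m hx ξ
  have hωR : ∀ m : H, Cfsg.MemLocalRing M (Cfsg.centralChar (ξ : H → ℂ) m) := fun m =>
    memLocalRing_isIntegral_lead hMtop (isIntegral_centralChar_lead ξ m)
  have hmemC : ∀ a b : H, ((b * a * b⁻¹ : H) : G) ∈ Subgroup.centralizer (P : Set G) ↔
      (a : G) ∈ Subgroup.centralizer (P : Set G) := fun a b =>
    cent_conj_iff_aux P (b : G) (a : G) (hHN b.2)
  have hcoe : ∀ w : G → ℂ, Cfsg.IsClassFunction G w → ∀ a b : H,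
      w ((b * a * b⁻¹ : H) : G) = w (a : G) := fun w hw a b => hw (a : G) (b : G)
  have hN : ∀ w : G → ℂ, Cfsg.IsClassFunction G w → (∀ g, Cfsg.MemLocalRing M (w g)) →
      Cfsg.MemLocalIdeal M ((∑ m : H, w (m : G) * ((ξ : H → ℂ) m / (ξ : H → ℂ) 1)) -
        ∑ m : H, (if (m : G) ∈ Subgroup.centralizer (P : Set G) then w (m : G) else 0) *
          ((ξ : H → ℂ) m / (ξ : H → ℂ) 1)) := by
    intro w hw hwR
    rw [← Finset.sum_sub_distrib]
    have e : ∀ m : H, w (m : G) * ((ξ : H → ℂ) m / (ξ : H → ℂ) 1) -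
        (if (m : G) ∈ Subgroup.centralizer (P : Set G) then w (m : G) else 0) *
          ((ξ : H → ℂ) m / (ξ : H → ℂ) 1) =
        (if (m : G) ∈ Subgroup.centralizer (P : Set G) then 0 else w (m : G)) *
          ((ξ : H → ℂ) m / (ξ : H → ℂ) 1) := by
      intro m
      by_cases h : (m : G) ∈ Subgroup.centralizer (P : Set G)
      · rw [if_pos h, if_pos h, sub_self, zero_mul]
      · rw [if_neg h, if_neg h, zero_mul, sub_zero]
    rw [Finset.sum_congr rfl (fun m _ => e m)]
    apply om_J_aux hMprime ξ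
      (fun m : H => if (m : G) ∈ Subgroup.centralizer (P : Set G) then 0 else w (m : G))
    · intro a b
      show (if ((b * a * b⁻¹ : H) : G) ∈ Subgroup.centralizer (P : Set G) then (0 : ℂ)
        else w ((b * a * b⁻¹ : H) : G)) =
        if (a : G) ∈ Subgroup.centralizer (P : Set G) then 0 else w (a : G)
      exact if_congr (hmemC a b) rfl (hcoe w hw a b)
    · intro m
      show Cfsg.MemLocalIdeal M
        ((if (m : G) ∈ Subgroup.centralizer (P : Set G) then 0 else w (m : G)) *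
          Cfsg.centralChar (ξ : H → ℂ) m)
      by_cases h : (m : G) ∈ Subgroup.centralizer (P : Set G)
      · rw [if_pos h, zero_mul]
        exact memLocalIdeal_zero_lead hMtop
      · rw [if_neg h]
        exact memLocalIdeal_mul_ring_lead hMprime (hwR _) (hout m h)
  obtain ⟨cv, hcv⟩ : ∃ cv : G → ℂ, ∀ g : G, cv g = ∑ x : G, z x * z' (x⁻¹ * g) :=
    ⟨_, fun _ => rfl⟩
  have hcvcl : Cfsg.IsClassFunction G cv := by
    intro g h
    rw [hcv, hcv]
    exact conv_classFun_lead z z' hz hz' g h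
  have hcvR : ∀ g, Cfsg.MemLocalRing M (cv g) := by
    intro g
    rw [hcv]
    exact memLocalRing_sum_lead hMprime _ _
      (fun x _ => memLocalRing_mul_lead hMprime (hzR _) (hzR' _))
  obtain ⟨zC, hzC⟩ : ∃ zC : H → ℂ, ∀ m : H, zC m =
      if (m : G) ∈ Subgroup.centralizer (P : Set G) then z (m : G) else 0 := ⟨_, fun _ => rfl⟩
  obtain ⟨zC', hzC'⟩ : ∃ zC' : H → ℂ, ∀ m : H, zC' m =
      if (m : G) ∈ Subgroup.centralizer (P : Set G) then z' (m : G) else 0 := ⟨_, fun _ => rfl⟩
  have hzCcl : Cfsg.IsClassFunction H zC := by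
    intro a b
    rw [hzC, hzC]
    exact if_congr (hmemC a b) (hcoe z hz a b) rfl
  have hzCcl' : Cfsg.IsClassFunction H zC' := by
    intro a b
    rw [hzC', hzC']
    exact if_congr (hmemC a b) (hcoe z' hz' a b) rfl
  have hzCR : ∀ m, Cfsg.MemLocalRing M (zC m) := by
    intro m
    rw [hzC]
    split_ifs
    · exact hzR _
    · exact memLocalRing_zero_lead hMtop
  obtain ⟨cH, hcH⟩ : ∃ cH : H → ℂ, ∀ n : H, cH n = ∑ x : H, zC x * zC' (x⁻¹ * n) :=
    ⟨_, fun _ => rfl⟩
  have hcHcl : Cfsg.IsClassFunction H cH := by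
    intro a b
    rw [hcH, hcH]
    exact conv_classFun_lead zC zC' hzCcl hzCcl' a b
  have hdiv : ∀ f : H → ℂ, ∑ m : H, f m * ((ξ : H → ℂ) m / (ξ : H → ℂ) 1) =
      (∑ m : H, f m * (ξ : H → ℂ) m) / (ξ : H → ℂ) 1 := by
    intro f
    rw [Finset.sum_div]
    apply Finset.sum_congr rfl
    intro m _
    ring
  have hmulH : ∑ m : H, cH m * ((ξ : H → ℂ) m / (ξ : H → ℂ) 1) =
      (∑ m : H, zC m * ((ξ : H → ℂ) m / (ξ : H → ℂ) 1)) *
        (∑ m : H, zC' m * ((ξ : H → ℂ) m / (ξ : H → ℂ) 1)) := by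
    rw [hdiv cH, hdiv zC, hdiv zC']
    have h1 := conv_transform_lead zC zC' hzCcl (ξ : H → ℂ) ξ.2
    have h2 : ∑ m : H, cH m * (ξ : H → ℂ) m =
        ∑ g : H, (∑ x : H, zC x * zC' (x⁻¹ * g)) * (ξ : H → ℂ) g :=
      Finset.sum_congr rfl (fun m _ => by rw [hcH])
    rw [h2, h1]
    ring
  have hD : ∀ n : H, Cfsg.MemLocalIdeal M
      ((if (n : G) ∈ Subgroup.centralizer (P : Set G) then cv (n : G) else 0) - cH n) := by
    intro n
    by_cases hn : (n : G) ∈ Subgroup.centralizer (P : Set G)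
    · rw [if_pos hn]
      obtain ⟨Fn, hFn⟩ : ∃ Fn : G → ℂ, ∀ y : G, Fn y =
          if y ∈ Subgroup.centralizer (P : Set G) then z y * z' (y⁻¹ * (n : G)) else 0 :=
        ⟨_, fun _ => rfl⟩
      have h2 : ∀ x : H, zC x * zC' (x⁻¹ * n) = Fn (x : G) := by
        intro x
        rw [hzC, hzC', hFn]
        by_cases hx : (x : G) ∈ Subgroup.centralizer (P : Set G)
        · have hxn : ((x⁻¹ * n : H) : G) ∈ Subgroup.centralizer (P : Set G) :=
            mul_mem (inv_mem hx) hn
          rw [if_pos hx, if_pos hx, if_pos hxn]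
          rfl
        · rw [if_neg hx, if_neg hx, zero_mul]
      have h3 : ∑ x : H, Fn (x : G) = ∑ y ∈ Finset.univ.filter (fun y : G => y ∈ H), Fn y :=
        (Finset.sum_subtype (Finset.univ.filter (fun y : G => y ∈ H)) (fun y => by simp) Fn).symm
      have h1 : cH n = ∑ y : G, Fn y := by
        rw [hcH, Finset.sum_congr rfl (fun x _ => h2 x), h3, Finset.sum_filter]
        apply Finset.sum_congr rfl
        intro y _
        by_cases hy : y ∈ H
        · rw [if_pos hy]
        · rw [if_neg hy, hFn, if_neg (fun h => hy (hCH h))]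
      have h4 : cv (n : G) - cH n = ∑ x : G,
          (if x ∈ Subgroup.centralizer (P : Set G) then 0 else z x * z' (x⁻¹ * (n : G))) := by
        rw [h1, hcv, ← Finset.sum_sub_distrib]
        apply Finset.sum_congr rfl
        intro x _
        rw [hFn]
        by_cases hx : x ∈ Subgroup.centralizer (P : Set G)
        · rw [if_pos hx, if_pos hx, sub_self]
        · rw [if_neg hx, if_neg hx, sub_zero]
      rw [h4]
      apply pgroup_sum_lead p hp M hMprime hpM P hP
        (fun x : G => if x ∈ Subgroup.centralizer (P : Set G) then 0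
          else z x * z' (x⁻¹ * (n : G)))
      · intro d hd x
        have hdN : d ∈ Subgroup.normalizer (P : Set G) := hHN (hPH hd)
        have hc : Commute d (n : G) := Subgroup.mem_centralizer_iff.1 hn d hd
        have hc' : d⁻¹ * (n : G) = (n : G) * d⁻¹ := hc.inv_left.eq
        have e : (d * x * d⁻¹)⁻¹ * (n : G) = d * (x⁻¹ * (n : G)) * d⁻¹ := by
          calc (d * x * d⁻¹)⁻¹ * (n : G) = d * x⁻¹ * (d⁻¹ * (n : G)) := by group
            _ = d * x⁻¹ * ((n : G) * d⁻¹) := by rw [hc']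
            _ = d * (x⁻¹ * (n : G)) * d⁻¹ := by group
        show (if d * x * d⁻¹ ∈ Subgroup.centralizer (P : Set G) then (0 : ℂ)
          else z (d * x * d⁻¹) * z' ((d * x * d⁻¹)⁻¹ * (n : G))) =
          if x ∈ Subgroup.centralizer (P : Set G) then 0 else z x * z' (x⁻¹ * (n : G))
        rw [e, hz x d, hz' (x⁻¹ * (n : G)) d]
        exact if_congr (cent_conj_iff_aux P d x hdN) rfl rfl
      · intro x
        show Cfsg.MemLocalRing M (if x ∈ Subgroup.centralizer (P : Set G) then (0 : ℂ)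
          else z x * z' (x⁻¹ * (n : G)))
        split_ifs
        · exact memLocalRing_zero_lead hMtop
        · exact memLocalRing_mul_lead hMprime (hzR _) (hzR' _)
      · intro x hx
        have hxC : x ∉ Subgroup.centralizer (P : Set G) := by
          intro h
          apply hx
          show (if x ∈ Subgroup.centralizer (P : Set G) then (0 : ℂ)
            else z x * z' (x⁻¹ * (n : G))) = 0
          rw [if_pos h]
        rw [Subgroup.mem_centralizer_iff] at hxC
        push_neg at hxC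
        obtain ⟨d, hd, hne⟩ := hxC
        exact ⟨d, hd, fun h => hne (mul_inv_eq_iff_eq_mul.1 h)⟩
    · rw [if_neg hn]
      have h1 : cH n = 0 := by
        rw [hcH]
        apply Finset.sum_eq_zero
        intro x _
        rw [hzC, hzC']
        by_cases hx : (x : G) ∈ Subgroup.centralizer (P : Set G)
        · have hxn : ((x⁻¹ * n : H) : G) ∉ Subgroup.centralizer (P : Set G) := by
            intro h
            apply hn
            have h5 := mul_mem hx h
            have e : (x : G) * ((x⁻¹ * n : H) : G) = (n : G) := by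
              show (x : G) * ((x : G)⁻¹ * (n : G)) = (n : G)
              group
            rw [e] at h5
            exact h5
          rw [if_neg hxn, mul_zero]
        · rw [if_neg hx, zero_mul]
      rw [h1, sub_self]
      exact memLocalIdeal_zero_lead hMtop
  have hT1 := hN cv hcvcl hcvR
  have hT3 := hN z hz hzR
  have hT4 := hN z' hz' hzR'
  have hT2 : Cfsg.MemLocalIdeal M
      ((∑ m : H, (if (m : G) ∈ Subgroup.centralizer (P : Set G) then cv (m : G) else 0) *
          ((ξ : H → ℂ) m / (ξ : H → ℂ) 1)) -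
        ∑ m : H, cH m * ((ξ : H → ℂ) m / (ξ : H → ℂ) 1)) := by
    rw [← Finset.sum_sub_distrib]
    have e : ∀ m : H,
        (if (m : G) ∈ Subgroup.centralizer (P : Set G) then cv (m : G) else 0) *
          ((ξ : H → ℂ) m / (ξ : H → ℂ) 1) - cH m * ((ξ : H → ℂ) m / (ξ : H → ℂ) 1) =
        ((if (m : G) ∈ Subgroup.centralizer (P : Set G) then cv (m : G) else 0) - cH m) *
          ((ξ : H → ℂ) m / (ξ : H → ℂ) 1) := fun m => (sub_mul _ _ _).symm
    rw [Finset.sum_congr rfl (fun m _ => e m)]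
    apply om_J_aux hMprime ξ
      (fun m : H => (if (m : G) ∈ Subgroup.centralizer (P : Set G) then cv (m : G) else 0) -
        cH m)
    · intro a b
      show (if ((b * a * b⁻¹ : H) : G) ∈ Subgroup.centralizer (P : Set G) then
          cv ((b * a * b⁻¹ : H) : G) else 0) - cH (b * a * b⁻¹) =
        (if (a : G) ∈ Subgroup.centralizer (P : Set G) then cv (a : G) else 0) - cH a
      rw [hcHcl a b, if_congr (hmemC a b) (hcoe cv hcvcl a b) rfl]
    · intro m
      have h := memLocalIdeal_mul_ring_lead hMprime (hωR m) (hD m)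
      rw [mul_comm] at h
      exact h
  have hRz' : Cfsg.MemLocalRing M (∑ m : H, z' (m : G) * ((ξ : H → ℂ) m / (ξ : H → ℂ) 1)) :=
    om_R_aux hMprime ξ (fun m : H => z' (m : G)) (fun a b => hcoe z' hz' a b) (fun m => hzR' _)
  have hRzC : Cfsg.MemLocalRing M (∑ m : H, zC m * ((ξ : H → ℂ) m / (ξ : H → ℂ) 1)) :=
    om_R_aux hMprime ξ zC hzCcl hzCR
  have hzCeq : ∑ m : H, (if (m : G) ∈ Subgroup.centralizer (P : Set G) then z (m : G) else 0) *
      ((ξ : H → ℂ) m / (ξ : H → ℂ) 1) = ∑ m : H, zC m * ((ξ : H → ℂ) m / (ξ : H → ℂ) 1) :=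
    Finset.sum_congr rfl (fun m _ => by rw [hzC])
  have hzCeq' : ∑ m : H,
      (if (m : G) ∈ Subgroup.centralizer (P : Set G) then z' (m : G) else 0) *
      ((ξ : H → ℂ) m / (ξ : H → ℂ) 1) = ∑ m : H, zC' m * ((ξ : H → ℂ) m / (ξ : H → ℂ) 1) :=
    Finset.sum_congr rfl (fun m _ => by rw [hzC'])
  rw [hzCeq] at hT3
  rw [hzCeq'] at hT4
  have hcveq : ∑ m : H, (∑ x : G, z x * z' (x⁻¹ * (m : G))) *
      ((ξ : H → ℂ) m / (ξ : H → ℂ) 1) =
      ∑ m : H, cv (m : G) * ((ξ : H → ℂ) m / (ξ : H → ℂ) 1) :=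
    Finset.sum_congr rfl (fun m _ => by rw [hcv])
  rw [hcveq]
  have h5 := memLocalIdeal_add_lead hMprime hT1 hT2
  rw [hmulH] at h5
  have h6 := memLocalIdeal_mul_ring_lead hMprime hRz' hT3
  have h7 := memLocalIdeal_mul_ring_lead hMprime hRzC hT4
  have h8 := memLocalIdeal_sub_lead hMprime h5 (memLocalIdeal_add_lead hMprime h6 h7)
  convert h8 using 1
  ring

theorem gen_aux {G : Type u} [Group G] [Fintype G] (p : ℕ) [Fact p.Prime]
    (M : Ideal Cfsg.AlgInt) (hM : Cfsg.IsPModular p M) (P H : Subgroup G) [Fintype H]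
    (hP : IsPGroup p P) (hPH : P ≤ H) (hCH : Subgroup.centralizer (P : Set G) ≤ H)
    (hHN : H ≤ Subgroup.normalizer (P : Set G)) (ξ : Cfsg.IrrCharacter H)
    {ι : Type*} (y : ι → G → ℂ) (a : ι → Cfsg.IrrCharacter G → ℂ)
    (hy : ∀ i, Cfsg.IsClassFunction G (y i)) (hyR : ∀ i g, Cfsg.MemLocalRing M (y i g))
    (hya : ∀ i (η : Cfsg.IrrCharacter G),
      ∑ g : G, y i g * (η : G → ℂ) g = a i η * (η : G → ℂ) 1)
    (s : Finset ι) :
    ∃ c : G → ℂ, Cfsg.IsClassFunction G c ∧ (∀ g, Cfsg.MemLocalRing M (c g)) ∧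
      (∀ η : Cfsg.IrrCharacter G,
        ∑ g : G, c g * (η : G → ℂ) g = (∏ i ∈ s, a i η) * (η : G → ℂ) 1) ∧
      Cfsg.MemLocalIdeal M ((∑ m : H, c (m : G) * ((ξ : H → ℂ) m / (ξ : H → ℂ) 1)) -
        ∏ i ∈ s, ∑ m : H, y i (m : G) * ((ξ : H → ℂ) m / (ξ : H → ℂ) 1)) := by
  classical
  have hMprime : M.IsPrime := hM.2.1.isPrime
  have hMtop : M ≠ ⊤ := hMprime.ne_top
  have hξ1 : (ξ : H → ℂ) 1 ≠ 0 := by
    obtain ⟨d, hd0, hd⟩ := irr_one ξ.2
    rw [hd]
    exact_mod_cast hd0
  induction s using Finset.induction_on with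
  | empty =>
    refine ⟨fun g => if g = 1 then 1 else 0, ?_, ?_, ?_, ?_⟩
    · intro g h
      show (if h * g * h⁻¹ = 1 then (1 : ℂ) else 0) = if g = 1 then 1 else 0
      exact if_congr conj_eq_one_iff rfl rfl
    · intro g
      show Cfsg.MemLocalRing M (if g = 1 then (1 : ℂ) else 0)
      split_ifs
      · exact memLocalRing_one_lead hMtop
      · exact memLocalRing_zero_lead hMtop
    · intro η
      rw [Finset.prod_empty, one_mul]
      have e : ∀ g : G, (if g = 1 then (1 : ℂ) else 0) * (η : G → ℂ) g =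
          if g = 1 then (η : G → ℂ) g else 0 := by
        intro g
        rw [ite_mul, one_mul, zero_mul]
      show ∑ g : G, (if g = 1 then (1 : ℂ) else 0) * (η : G → ℂ) g = (η : G → ℂ) 1
      rw [Finset.sum_congr rfl (fun g _ => e g), Finset.sum_ite_eq',
        if_pos (Finset.mem_univ _)]
    · rw [Finset.prod_empty]
      have e : ∀ m : H, (if (m : G) = 1 then (1 : ℂ) else 0) *
          ((ξ : H → ℂ) m / (ξ : H → ℂ) 1) = if m = 1 then (1 : ℂ) else 0 := by
        intro m
        by_cases h : m = 1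
        · have h' : (m : G) = 1 := by rw [h]; rfl
          rw [if_pos h, if_pos h', one_mul, h, div_self hξ1]
        · have h' : ¬ (m : G) = 1 := fun h'' => h (Subtype.ext h'')
          rw [if_neg h, if_neg h', zero_mul]
      have e2 : ∑ m : H, (if (m : G) = 1 then (1 : ℂ) else 0) *
          ((ξ : H → ℂ) m / (ξ : H → ℂ) 1) = 1 := by
        rw [Finset.sum_congr rfl (fun m _ => e m), Finset.sum_ite_eq',
          if_pos (Finset.mem_univ _)]
      show Cfsg.MemLocalIdeal M ((∑ m : H, (if (m : G) = 1 then (1 : ℂ) else 0) *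
          ((ξ : H → ℂ) m / (ξ : H → ℂ) 1)) - 1)
      rw [e2, sub_self]
      exact memLocalIdeal_zero_lead hMtop
  | insert i s his ih =>
    obtain ⟨c, hc, hcR, hcT, hcL⟩ := ih
    refine ⟨fun g => ∑ x : G, y i x * c (x⁻¹ * g), conv_classFun_lead (y i) c (hy i) hc,
      ?_, ?_, ?_⟩
    · intro g
      exact memLocalRing_sum_lead hMprime _ _
        (fun x _ => memLocalRing_mul_lead hMprime (hyR i x) (hcR _))
    · intro η
      have hη1 : (η : G → ℂ) 1 ≠ 0 := by
        obtain ⟨d, hd0, hd⟩ := irr_one η.2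
        rw [hd]
        exact_mod_cast hd0
      have h1 := conv_transform_lead (y i) c (hy i) (η : G → ℂ) η.2
      have harith : ∀ A B X : ℂ, X ≠ 0 → A * X * (B * X) / X = A * B * X := by
        intro A B X hX
        rw [div_eq_iff hX]
        ring
      show ∑ g : G, (∑ x : G, y i x * c (x⁻¹ * g)) * (η : G → ℂ) g = _
      rw [Finset.prod_insert his, h1, hya i η, hcT η]
      exact harith _ _ _ hη1
    · rw [Finset.prod_insert his]
      have h1 := mult_aux p M hM P H hP hPH hCH hHN ξ (y i) c (hy i) hc (hyR i) hcR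
      have hR : Cfsg.MemLocalRing M
          (∑ m : H, y i (m : G) * ((ξ : H → ℂ) m / (ξ : H → ℂ) 1)) :=
        om_R_aux hMprime ξ (fun m : H => y i (m : G)) (fun a b => hy i (a : G) (b : G))
          (fun m => hyR i _)
      have h2 := memLocalIdeal_mul_ring_lead hMprime hR hcL
      have h3 := memLocalIdeal_add_lead hMprime h1 h2
      convert h3 using 1
      ring

theorem prime_aux {M : Ideal Cfsg.AlgInt} (hM : M.IsPrime) {ι : Type*} (s : Finset ι)
    (t : ι → ℂ) (ht : ∀ i ∈ s, Cfsg.MemLocalRing M (t i))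
    (h : Cfsg.MemLocalIdeal M (∏ i ∈ s, t i)) :
    ∃ i ∈ s, Cfsg.MemLocalIdeal M (t i) := by
  classical
  induction s using Finset.induction_on with
  | empty =>
    exfalso
    rw [Finset.prod_empty] at h
    have h1 : ((1 : Cfsg.AlgInt) : ℂ) = 1 := rfl
    rw [← h1] at h
    have h2 := mem_of_memLocalIdeal_lead hM 1 h
    exact hM.ne_top ((Ideal.eq_top_iff_one M).mpr h2)
  | insert i s his ih =>
    rw [Finset.prod_insert his] at h
    by_cases hi : Cfsg.MemLocalIdeal M (t i)
    · exact ⟨i, Finset.mem_insert_self i s, hi⟩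
    · have hR := ht i (Finset.mem_insert_self i s)
      have hinv : Cfsg.MemLocalRing M (t i)⁻¹ := by
        obtain ⟨x, y, hy, hxy⟩ := hR
        have hx : x ∉ M := fun hx => hi ⟨x, y, hx, hy, hxy⟩
        exact ⟨y, x, hx, by rw [← hxy, inv_div]⟩
      have h0 : t i ≠ 0 := by
        intro h0
        apply hi
        rw [h0]
        exact memLocalIdeal_zero_lead hM.ne_top
      have h3 := memLocalIdeal_mul_ring_lead hM hinv h
      rw [← mul_assoc, inv_mul_cancel₀ h0, one_mul] at h3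
      obtain ⟨j, hj, hjJ⟩ := ih (fun j hj => ht j (Finset.mem_insert_of_mem hj)) h3
      exact ⟨j, Finset.mem_insert_of_mem hj, hjJ⟩

/-- Let P be a p-subgroup of the finite group G and H a subgroup with P·C_G(P) ≤ H ≤ N_G(P). Then for every block b of H relative to a maximal ideal M of the algebraic integers containing p, the induced block of b in G is defined: some block B of G has its central character congruent modulo M, at every element, to the central character of b induced to G. -/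
theorem result {G : Type*} [Group G] [Finite G] (p : ℕ) [Fact p.Prime] (M : Ideal Cfsg.AlgInt) (hM : Cfsg.IsPModular p M) (P H : Subgroup G) (hP : IsPGroup p P) (hPH : P ≤ H) (hCH : Subgroup.centralizer (P : Set G) ≤ H) (hHN : H ≤ Subgroup.normalizer (P : Set G)) (b : Set (Cfsg.IrrCharacter H)) (hb : Cfsg.IsPBlock M b) : Cfsg.InducedBlockDefined M H b := by
  classical
  haveI : Fintype G := Fintype.ofFinite G
  haveI : Fintype H := Fintype.ofFinite H
  haveI : Fintype (Cfsg.IrrCharacter G) := Fintype.ofFinite _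
  have hMprime : M.IsPrime := hM.2.1.isPrime
  have hMtop : M ≠ ⊤ := hMprime.ne_top
  obtain ⟨ξ, rfl⟩ := hb
  have hξ1 : (ξ : H → ℂ) 1 ≠ 0 := by
    obtain ⟨d, hd0, hd⟩ := irr_one ξ.2
    rw [hd]
    exact_mod_cast hd0
  have key : ∃ χ : Cfsg.IrrCharacter G, ∀ g : G, Cfsg.MemLocalIdeal M
      (Cfsg.inducedCentralChar H (ξ : H → ℂ) g - Cfsg.centralChar (χ : G → ℂ) g) := by
    by_contra hcon
    push_neg at hcon
    choose gx hgx using hcon
    obtain ⟨y, hy⟩ : ∃ y : Cfsg.IrrCharacter G → G → ℂ, ∀ χ g, y χ g =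
        (if IsConj (gx χ) g then 1 else 0) -
          Cfsg.centralChar (χ : G → ℂ) (gx χ) * (if g = 1 then 1 else 0) :=
      ⟨_, fun _ _ => rfl⟩
    have hycl : ∀ χ, Cfsg.IsClassFunction G (y χ) := by
      intro χ g h
      rw [hy, hy]
      have hc : IsConj g (h * g * h⁻¹) := isConj_iff.2 ⟨h, rfl⟩
      have e1 : IsConj (gx χ) (h * g * h⁻¹) ↔ IsConj (gx χ) g :=
        ⟨fun k => k.trans hc.symm, fun k => k.trans hc⟩
      rw [if_congr e1 rfl rfl, if_congr (conj_eq_one_iff (a := h) (b := g)) rfl rfl]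
    have h01 : ∀ (q : Prop) [Decidable q], Cfsg.MemLocalRing M (if q then (1 : ℂ) else 0) := by
      intro q _
      split_ifs
      · exact memLocalRing_one_lead hMtop
      · exact memLocalRing_zero_lead hMtop
    have hyR : ∀ χ g, Cfsg.MemLocalRing M (y χ g) := by
      intro χ g
      rw [hy]
      exact memLocalRing_sub_lead hMprime (h01 _)
        (memLocalRing_mul_lead hMprime
          (memLocalRing_isIntegral_lead hMtop (isIntegral_centralChar_lead χ _)) (h01 _))
    have hya : ∀ (χ η : Cfsg.IrrCharacter G), ∑ g : G, y χ g * (η : G → ℂ) g =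
        (Cfsg.centralChar (η : G → ℂ) (gx χ) - Cfsg.centralChar (χ : G → ℂ) (gx χ)) *
          (η : G → ℂ) 1 := by
      intro χ η
      have e : ∀ g : G, y χ g * (η : G → ℂ) g =
          (if IsConj (gx χ) g then (1 : ℂ) else 0) * (η : G → ℂ) g -
            Cfsg.centralChar (χ : G → ℂ) (gx χ) * (if g = 1 then (η : G → ℂ) g else 0) := by
        intro g
        rw [hy]
        by_cases h : g = 1
        · rw [if_pos h, if_pos h]
          ring
        · rw [if_neg h, if_neg h]
          ring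
      have hct : ∑ g : G, (if IsConj (gx χ) g then (1 : ℂ) else 0) * (η : G → ℂ) g =
          Cfsg.centralChar (η : G → ℂ) (gx χ) * (η : G → ℂ) 1 :=
        class_transform_lead (gx χ) (fun g => if IsConj (gx χ) g then (1 : ℂ) else 0)
          (fun g hg => if_pos hg.symm) (fun g hg => if_neg (fun h => hg h.symm)) η
      rw [Finset.sum_congr rfl (fun g _ => e g), Finset.sum_sub_distrib, ← Finset.mul_sum,
        Finset.sum_ite_eq', if_pos (Finset.mem_univ _), hct]
      ring
    have hLam : ∀ χ : Cfsg.IrrCharacter G,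
        ∑ m : H, y χ (m : G) * ((ξ : H → ℂ) m / (ξ : H → ℂ) 1) =
        Cfsg.inducedCentralChar H (ξ : H → ℂ) (gx χ) -
          Cfsg.centralChar (χ : G → ℂ) (gx χ) := by
      intro χ
      rw [inducedCentralChar_sum_lead]
      have e : ∀ m : H, y χ (m : G) * ((ξ : H → ℂ) m / (ξ : H → ℂ) 1) =
          Set.indicator {h : H | IsConj (gx χ) (h : G)}
            (fun h => (ξ : H → ℂ) h / (ξ : H → ℂ) 1) m -
            Cfsg.centralChar (χ : G → ℂ) (gx χ) * (if m = 1 then (1 : ℂ) else 0) := by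
        intro m
        rw [hy]
        have e1 : (if (m : G) = 1 then (1 : ℂ) else 0) * ((ξ : H → ℂ) m / (ξ : H → ℂ) 1) =
            if m = 1 then (1 : ℂ) else 0 := by
          by_cases h : m = 1
          · have h' : (m : G) = 1 := by rw [h]; rfl
            rw [if_pos h, if_pos h', one_mul, h, div_self hξ1]
          · have h' : ¬ (m : G) = 1 := fun h'' => h (Subtype.ext h'')
            rw [if_neg h, if_neg h', zero_mul]
        have e2 : (if IsConj (gx χ) (m : G) then (1 : ℂ) else 0) *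
            ((ξ : H → ℂ) m / (ξ : H → ℂ) 1) =
            Set.indicator {h : H | IsConj (gx χ) (h : G)}
              (fun h => (ξ : H → ℂ) h / (ξ : H → ℂ) 1) m := by
          by_cases h : IsConj (gx χ) (m : G)
          · rw [if_pos h, one_mul]
            exact (Set.indicator_of_mem (show m ∈ {h : H | IsConj (gx χ) (h : G)} from h)
              (fun h => (ξ : H → ℂ) h / (ξ : H → ℂ) 1)).symm
          · rw [if_neg h, zero_mul]
            exact (Set.indicator_of_notMem
              (show m ∉ {h : H | IsConj (gx χ) (h : G)} from h)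
              (fun h => (ξ : H → ℂ) h / (ξ : H → ℂ) 1)).symm
        rw [← e1, ← e2]
        ring
      rw [Finset.sum_congr rfl (fun m _ => e m), Finset.sum_sub_distrib, ← Finset.mul_sum,
        Finset.sum_ite_eq', if_pos (Finset.mem_univ _), mul_one]
    obtain ⟨c, hc, hcR, hcT, hcL⟩ := gen_aux p M hM P H hP hPH hCH hHN ξ y
      (fun χ η => Cfsg.centralChar (η : G → ℂ) (gx χ) - Cfsg.centralChar (χ : G → ℂ) (gx χ))
      hycl hyR hya Finset.univ
    have hz : ∀ φ : Cfsg.IrrCharacter G, (∏ χ : Cfsg.IrrCharacter G,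
        (Cfsg.centralChar (φ : G → ℂ) (gx χ) - Cfsg.centralChar (χ : G → ℂ) (gx χ))) = 0 := by
      intro φ
      rw [Finset.prod_eq_zero_iff]
      exact ⟨φ, Finset.mem_univ φ, sub_self _⟩
    have hc0 : ∀ g, c g = 0 := by
      intro g
      have h := specT_unique_lead c hc (fun η => ∏ χ : Cfsg.IrrCharacter G,
        (Cfsg.centralChar (η : G → ℂ) (gx χ) - Cfsg.centralChar (χ : G → ℂ) (gx χ))) hcT g
      rw [h]
      simp only [hz, zero_mul, Finset.sum_const_zero, mul_zero]
    have hL0 : ∑ m : H, c (m : G) * ((ξ : H → ℂ) m / (ξ : H → ℂ) 1) = 0 :=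
      Finset.sum_eq_zero (fun m _ => by rw [hc0, zero_mul])
    rw [hL0, zero_sub] at hcL
    have h1 := memLocalIdeal_neg_lead hcL
    rw [neg_neg] at h1
    obtain ⟨χ, -, hχ⟩ := prime_aux hMprime Finset.univ
      (fun χ : Cfsg.IrrCharacter G => ∑ m : H, y χ (m : G) * ((ξ : H → ℂ) m / (ξ : H → ℂ) 1))
      (fun χ _ => om_R_aux hMprime ξ (fun m : H => y χ (m : G))
        (fun a b => hycl χ (a : G) (b : G)) (fun m => hyR χ _)) h1
    have hχ' : Cfsg.MemLocalIdeal M
        (∑ m : H, y χ (m : G) * ((ξ : H → ℂ) m / (ξ : H → ℂ) 1)) := hχ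
    rw [hLam χ] at hχ'
    exact hgx χ hχ'
  obtain ⟨χ, hχ⟩ := key
  refine ⟨Cfsg.blockOf M (χ : G → ℂ), ⟨ξ, rfl⟩, ⟨χ, rfl⟩, ?_⟩
  intro ξ' hξ' χ' hχ' g
  have h1 := induced_sameBlock_lead H hMprime ξ' ξ (sameBlock_symm_lead hξ') g
  have h2 := hχ g
  have h3 : Cfsg.MemLocalIdeal M
      (Cfsg.centralChar (χ : G → ℂ) g - Cfsg.centralChar (χ' : G → ℂ) g) := hχ' g
  have h4 := memLocalIdeal_add_lead hMprime (memLocalIdeal_add_lead hMprime h1 h2) h3
  convert h4 using 1
  ring


end Cfsg.Agent.S0919
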