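import Cfsg.Statements.S0958
import Mathlib
import Cfsg.Agent.Lib.Lead.SylowAux2
import Cfsg.Agent.Lib.Lead.BrauerP
import Cfsg.Agent.Lib.Lead.BlockAux
import Cfsg.Agent.Lib.Lead.BlockDefCount
import Cfsg.Agent.Lib.Lead.BlockOsima
import Cfsg.Agent.Lib.Helper4.PCore
import Cfsg.Agent.S0919
import Cfsg.Agent.S0906
import Cfsg.Agent.S0912
import Cfsg.Agent.S0917

set_option autoImplicit false
open Cfsg Cfsg.Agent.Lib.Lead

namespace Cfsg.Agent.S0958

open scoped Pointwise commutatorElement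

/-- Let P be a p-subgroup of the finite group G and H a subgroup with P ⊔ C_G(P) ≤ H ≤ N_G(P); fix a maximal ideal M of the algebraic integers containing p. Then a block B of G is induced by some block of H if and only if some conjugate of P is contained in a defect group of B. -/
theorem result {G : Type*} [Group G] [Finite G] (p : ℕ) [Fact p.Prime] (M : Ideal Cfsg.AlgInt) (hM : Cfsg.IsPModular p M) (P H : Subgroup G) (hP : IsPGroup p P) (hPH : P ⊔ Subgroup.centralizer (P : Set G) ≤ H) (hHN : H ≤ Subgroup.normalizer (P : Set G)) (B : Set (Cfsg.IrrCharacter G)) (hB : Cfsg.IsPBlock M B) : (∃ b : Set (Cfsg.IrrCharacter H), Cfsg.IsInducedBlock M H b B) ↔ ∃ D : Subgroup G, Cfsg.IsDefectGroup p M B D ∧ ∃ x : G, P.map (MulAut.conj x).toMonoidHom ≤ D := by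
  classical
  haveI : Fintype G := Fintype.ofFinite G
  haveI : Fintype H := Fintype.ofFinite H
  haveI : Fintype (ConjClasses G) := Fintype.ofFinite _
  have hM' := hM
  obtain ⟨hp, hMmax, hpM⟩ := hM'
  have hMprime : M.IsPrime := hMmax.isPrime
  have hMtop : M ≠ ⊤ := hMprime.ne_top
  have hPleH : P ≤ H := le_trans le_sup_left hPH
  have hCleH : Subgroup.centralizer (P : Set G) ≤ H := le_trans le_sup_right hPH
  constructor
  · rintro ⟨b, hind⟩
    have hb : Cfsg.IsPBlock M b := hind.1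
    obtain ⟨gb, hgb⟩ := Cfsg.Agent.S0906.result p M hM b hb
    obtain ⟨Q⟩ : Nonempty (Sylow p (Subgroup.centralizer ({gb} : Set H))) := inferInstance
    have hDb : Cfsg.IsDefectGroup p M b
        ((Q : Subgroup (Subgroup.centralizer ({gb} : Set H))).map
          (Subgroup.centralizer ({gb} : Set H)).subtype) := ⟨gb, hgb, Q, rfl⟩
    have hcore := Cfsg.Agent.S0912.result p M hM b hb _ hDb
    obtain ⟨E, hE, hDE⟩ := Cfsg.Agent.S0917.result p M hM H b hb B hB hind _ hDb
    refine ⟨E, hE, 1, ?_⟩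
    have hPn : (P.subgroupOf H).Normal := by
      constructor
      intro n hn g
      rw [Subgroup.mem_subgroupOf] at hn ⊢
      have hg : (g : G) ∈ Subgroup.normalizer (P : Set G) := hHN g.2
      exact (Subgroup.mem_set_normalizer_iff.mp hg (n : G)).mp hn
    have hPp : IsPGroup p (P.subgroupOf H) := hP.comap_subtype
    have hle : P.subgroupOf H ≤ Cfsg.pCore p H := Cfsg.Agent.Lib.Helper4.le_pCore hPn hPp
    intro w hw
    obtain ⟨w', hw', rfl⟩ := Subgroup.mem_map.mp hw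
    have e1 : (MulAut.conj (1 : G)).toMonoidHom w' = w' := by
      show (1 : G) * w' * (1 : G)⁻¹ = w'
      rw [one_mul, inv_one, mul_one]
    rw [e1]
    apply hDE
    have hw'H : w' ∈ H := hPleH hw'
    have h1 : (⟨w', hw'H⟩ : H) ∈ P.subgroupOf H := by
      rw [Subgroup.mem_subgroupOf]
      exact hw'
    exact Subgroup.mem_map.mpr ⟨⟨w', hw'H⟩, hcore (hle h1), rfl⟩
  · rintro ⟨D, hD, x, hx⟩
    obtain ⟨χ₁, hB1⟩ := hB
    obtain ⟨g, hg, Q, hDQ⟩ := hD
    have hy₀ : ∀ w ∈ P, w * (x⁻¹ * g * x⁻¹⁻¹) = x⁻¹ * g * x⁻¹⁻¹ * w := by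
      intro w hw
      have h1 : x * w * x⁻¹ ∈ D := hx (Subgroup.mem_map.mpr ⟨w, hw, rfl⟩)
      rw [hDQ] at h1
      obtain ⟨q, hq, hqe⟩ := Subgroup.mem_map.mp h1
      have h2 : g * (q : G) = (q : G) * g :=
        (Subgroup.mem_centralizer_iff.mp q.2) g (Set.mem_singleton g)
      have h3 : (q : G) = x * w * x⁻¹ := hqe
      rw [h3] at h2
      have h4 : Commute (x * w * x⁻¹) g := h2.symm
      have h5 : Commute (x⁻¹ * (x * w * x⁻¹) * x⁻¹⁻¹) (x⁻¹ * g * x⁻¹⁻¹) :=
        (Commute.conj_iff x⁻¹).mpr h4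
      have e : x⁻¹ * (x * w * x⁻¹) * x⁻¹⁻¹ = w := by group
      rw [e] at h5
      exact h5.eq
    rw [hB1] at hg
    have hy₀e : ¬ Cfsg.MemLocalIdeal M
        (Cfsg.blockCoeff (Cfsg.blockOf M (χ₁ : G → ℂ)) (x⁻¹ * g * x⁻¹⁻¹)) := by
      rw [blockCoeff_classFun_lead]
      exact hg.2.1
    obtain ⟨ξ, hξ⟩ := exists_irr_lam_lead p hp M hMprime hpM P H hP hPleH hCleH χ₁ _ hy₀ hy₀e
    have hbξ : Cfsg.IsPBlock M (Cfsg.blockOf M (ξ : H → ℂ)) := ⟨ξ, rfl⟩
    obtain ⟨B'', hB''⟩ := Cfsg.Agent.S0919.result p M hM P H hP hPleH hCleH hHN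
      (Cfsg.blockOf M (ξ : H → ℂ)) hbξ
    refine ⟨Cfsg.blockOf M (ξ : H → ℂ), ?_⟩
    obtain ⟨χ₂, hB2⟩ := hB''.2.1
    have hξb : ξ ∈ Cfsg.blockOf M (ξ : H → ℂ) := sameBlock_refl_lead hMtop (ξ : H → ℂ)
    have hχ₂ : χ₂ ∈ B'' := by
      rw [hB2]
      exact sameBlock_refl_lead hMtop (χ₂ : G → ℂ)
    have hcong := hB''.2.2 ξ hξb χ₂ hχ₂
    have hχ₂B : χ₂ ∈ Cfsg.blockOf M (χ₁ : G → ℂ) := by
      by_contra hnot
      apply hξ
      rw [lam_regroup_lead H (Cfsg.blockCoeff (Cfsg.blockOf M (χ₁ : G → ℂ)))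
        (fun g t => blockCoeff_classFun_lead _ g t) (ξ : H → ℂ)]
      have h0 := blockCoeff_class_sum_lead (Cfsg.blockOf M (χ₁ : G → ℂ)) χ₂
      rw [if_neg hnot] at h0
      have h2 : ∑ C : ConjClasses G,
          Cfsg.blockCoeff (Cfsg.blockOf M (χ₁ : G → ℂ)) (Quotient.out C) *
            (Cfsg.inducedCentralChar H (ξ : H → ℂ) (Quotient.out C) -
              Cfsg.centralChar (χ₂ : G → ℂ) (Quotient.out C)) =
          ∑ C : ConjClasses G,
            Cfsg.blockCoeff (Cfsg.blockOf M (χ₁ : G → ℂ)) (Quotient.out C) *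
              Cfsg.inducedCentralChar H (ξ : H → ℂ) (Quotient.out C) -
          ∑ C : ConjClasses G,
            Cfsg.blockCoeff (Cfsg.blockOf M (χ₁ : G → ℂ)) (Quotient.out C) *
              Cfsg.centralChar (χ₂ : G → ℂ) (Quotient.out C) := by
        rw [← Finset.sum_sub_distrib]
        refine Finset.sum_congr rfl (fun C _ => ?_)
        ring
      have h1 : ∑ C : ConjClasses G,
          Cfsg.blockCoeff (Cfsg.blockOf M (χ₁ : G → ℂ)) (Quotient.out C) *
            Cfsg.inducedCentralChar H (ξ : H → ℂ) (Quotient.out C) =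
          ∑ C : ConjClasses G,
            Cfsg.blockCoeff (Cfsg.blockOf M (χ₁ : G → ℂ)) (Quotient.out C) *
              (Cfsg.inducedCentralChar H (ξ : H → ℂ) (Quotient.out C) -
                Cfsg.centralChar (χ₂ : G → ℂ) (Quotient.out C)) := by
        rw [h2, h0, sub_zero]
      rw [h1]
      refine memLocalIdeal_sum_lead hMprime _ _ (fun C _ => ?_)
      exact memLocalIdeal_mul_ring_lead hMprime (osima_lead p hp M hMprime hpM χ₁ _) (hcong _)
    have e1 : B'' = B := by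
      rw [hB1, hB2]
      ext ψ
      constructor
      · intro h
        exact sameBlock_trans_lead hMprime hχ₂B h
      · intro h
        exact sameBlock_trans_lead hMprime (sameBlock_symm_lead hχ₂B) h
    rw [← e1]
    exact hB''

end Cfsg.Agent.S0958
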