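import Cfsg.Statements.S4431
import Mathlib
import Cfsg.Agent.Lib.Helper7.DefectOrd
-- import your own Cfsg.Agent.* helpers here

set_option autoImplicit false
open Cfsg
open Cfsg.Agent.Lib.Helper7 Cfsg.Agent.Lib.Lead
open scoped ComplexConjugate

namespace Cfsg.Agent.S4431

theorem induced_sum_aux {G : Type*} [Group G] (H : Subgroup G) [Fintype H]
    [Fintype (ConjClasses G)] (ξ : H → ℂ) (f : G → ℂ)
    (hf : ∀ g h : G, f (h * g * h⁻¹) = f g) :
    ∑ c : ConjClasses G, f (Quotient.out c) * Cfsg.inducedCentralChar H ξ (Quotient.out c) =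
      ∑ m : H, f (m : G) * (ξ m / ξ 1) := by
  classical
  have h1 : ∀ c : ConjClasses G, f (Quotient.out c) *
      Cfsg.inducedCentralChar H ξ (Quotient.out c) =
      ∑ m : H, if ConjClasses.mk (m : G) = c then f (m : G) * (ξ m / ξ 1) else 0 := by
    intro c
    rw [inducedCentralChar_sum_lead, Finset.mul_sum]
    apply Finset.sum_congr rfl
    intro m _
    by_cases h : ConjClasses.mk (m : G) = c
    · rw [if_pos h]
      have hconj : IsConj (Quotient.out c) (m : G) :=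
        ConjClasses.mk_eq_mk_iff_isConj.mp
          (show ConjClasses.mk (Quotient.out c) = ConjClasses.mk (m : G) from
            (Quotient.out_eq c).trans h.symm)
      rw [Set.indicator_of_mem (show m ∈ {h : H | IsConj (Quotient.out c) (h : G)} from hconj)]
      obtain ⟨u, hu⟩ := isConj_iff.1 hconj
      rw [← hu, hf]
    · rw [if_neg h]
      have hconj : ¬ IsConj (Quotient.out c) (m : G) := by
        intro hc
        exact h ((ConjClasses.mk_eq_mk_iff_isConj.mpr hc).symm.trans (Quotient.out_eq c))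
      rw [Set.indicator_of_notMem
        (show m ∉ {h : H | IsConj (Quotient.out c) (h : G)} from hconj), mul_zero]
  rw [Finset.sum_congr rfl (fun c _ => h1 c), Finset.sum_comm]
  apply Finset.sum_congr rfl
  intro m _
  rw [Finset.sum_ite_eq, if_pos (Finset.mem_univ _)]

theorem inner_zero_aux {G : Type*} [Group G] [Fintype G] [DecidableEq G]
    [Fintype (Cfsg.IrrCharacter G)] (p : ℕ) [Fact p.Prime]
    (M : Ideal Cfsg.AlgInt) (hM : Cfsg.IsPModular p M) (χ χ' : Cfsg.IrrCharacter G)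
    (hne : ¬ Cfsg.SameBlock M (χ : G → ℂ) (χ' : G → ℂ)) :
    Cfsg.classInner (tw7 p (χ : G → ℂ)) (χ' : G → ℂ) = 0 := by
  classical
  have hMprime : M.IsPrime := hM.2.1.isPrime
  have hMtop : M ≠ ⊤ := hMprime.ne_top
  have hexp := fun y => preg_expand_h7 p M hM (Cfsg.blockOf M (χ : G → ℂ)) ⟨χ, rfl⟩ χ
    (sameBlock_refl_lead hMtop _) y
  rw [tw7_pre]
  show (Nat.card G : ℂ)⁻¹ * ∑ g : G, Cfsg.pRegularPart p (χ : G → ℂ) g *
    conj ((χ' : G → ℂ) g) = 0
  have e1 : ∀ g : G, Cfsg.pRegularPart p (χ : G → ℂ) g * conj ((χ' : G → ℂ) g) =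
      ∑ φ : Cfsg.IrrCharacter G, (if φ ∈ Cfsg.blockOf M (χ : G → ℂ) then
        Cfsg.classInner (Cfsg.pRegularPart p (χ : G → ℂ)) (φ : G → ℂ) *
          ((φ : G → ℂ) g * conj ((χ' : G → ℂ) g)) else 0) := by
    intro g
    conv_lhs => rw [← hexp g]
    rw [Finset.sum_mul]
    apply Finset.sum_congr rfl
    intro φ _
    by_cases hφ : φ ∈ Cfsg.blockOf M (χ : G → ℂ)
    · rw [if_pos hφ, if_pos hφ, mul_assoc]
    · rw [if_neg hφ, if_neg hφ, zero_mul]
  rw [Finset.sum_congr rfl (fun g _ => e1 g), Finset.sum_comm, Finset.mul_sum]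
  apply Finset.sum_eq_zero
  intro φ _
  by_cases hφ : φ ∈ Cfsg.blockOf M (χ : G → ℂ)
  · simp only [if_pos hφ]
    rw [← Finset.mul_sum, mul_left_comm]
    have h2 := classInner_irr' φ χ'
    unfold Cfsg.classInner at h2
    rw [h2, if_neg (by rintro rfl; exact hne hφ), mul_zero]
  · simp only [if_neg hφ]
    rw [Finset.sum_const_zero, mul_zero]

/-- Let H be a subgroup of the finite group G and b a block of H whose induced block B₀ in G is defined (relative to a maximal ideal M of the algebraic integers containing p). Let χ be an irreducible character of G, ψ ∈ b, and let η be the class function on H equal to p^a · χ on the p-regular elements of H and zero elsewhere, p^a being the p-part of the order of H. Then (a) if χ ∉ B₀, the number [η, ψ]/ψ(1) lies in the local ideal at M; (b) if χ ∈ B₀ has height zero, it does not. -/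
theorem result {G : Type*} [Group G] [Fintype G] (p : ℕ) [Fact p.Prime] (M : Ideal Cfsg.AlgInt) (hM : Cfsg.IsPModular p M) (H : Subgroup G) [Fintype H] (b : Set (Cfsg.IrrCharacter H)) (B₀ : Set (Cfsg.IrrCharacter G)) (hind : Cfsg.IsInducedBlock M H b B₀) (χ : Cfsg.IrrCharacter G) (ψ : Cfsg.IrrCharacter H) (hψ : ψ ∈ b) : (χ ∉ B₀ → Cfsg.MemLocalIdeal M (Cfsg.classInner (fun h : H => if p ∣ orderOf h then (0 : ℂ) else ((p ^ (Nat.card H).factorization p : ℕ) : ℂ) * (χ : G → ℂ) h) (ψ : H → ℂ) / (ψ : H → ℂ) 1)) ∧ (χ ∈ B₀ → Cfsg.blockHeight p B₀ (χ : G → ℂ) = 0 → ¬ Cfsg.MemLocalIdeal M (Cfsg.classInner (fun h : H => if p ∣ orderOf h then (0 : ℂ) else ((p ^ (Nat.card H).factorization p : ℕ) : ℂ) * (χ : G → ℂ) h) (ψ : H → ℂ) / (ψ : H → ℂ) 1)) := by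
  classical
  haveI : Fintype (Cfsg.IrrCharacter G) := Fintype.ofFinite _
  haveI : Fintype (ConjClasses G) := Fintype.ofFinite _
  have hp : p.Prime := Fact.out
  have hMprime : M.IsPrime := hM.2.1.isPrime
  have hMtop : M ≠ ⊤ := hMprime.ne_top
  have hpM : (p : Cfsg.AlgInt) ∈ M := hM.2.2
  obtain ⟨hb, hB₀, hcong⟩ := hind
  obtain ⟨aH, haH⟩ : ∃ aH : ℕ, aH = (Nat.card H).factorization p := ⟨_, rfl⟩
  rw [← haH]
  obtain ⟨X, hXdef⟩ : ∃ X : ℂ, X = Cfsg.classInner (fun h : H => if p ∣ orderOf h then (0 : ℂ)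
      else ((p ^ aH : ℕ) : ℂ) * (χ : G → ℂ) h) (ψ : H → ℂ) / (ψ : H → ℂ) 1 := ⟨_, rfl⟩
  rw [← hXdef]
  obtain ⟨hψ1, hψ0⟩ := charDegree_irr ψ.2
  have hψ0' : (ψ : H → ℂ) 1 ≠ 0 := by rw [hψ1]; exact_mod_cast hψ0
  have hinvψ : ∀ h : H, conj ((ψ : H → ℂ) h) = (ψ : H → ℂ) h⁻¹ := by
    intro h
    obtain ⟨n, ρ, hρ, hρψ⟩ := ψ.2
    rw [← hρψ, char_inv ρ h]
  -- the order of H
  have hdvdH : p ^ aH ∣ Nat.card H := by rw [haH]; exact Nat.ordProj_dvd _ _
  obtain ⟨tH, htH⟩ := hdvdH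
  have hpa0 : p ^ aH ≠ 0 := (pow_pos hp.pos _).ne'
  have htH' : tH = Nat.card H / p ^ aH :=
    (Nat.div_eq_of_eq_mul_right (Nat.pos_of_ne_zero hpa0) htH).symm
  have htHcop : Nat.Coprime tH p := by
    rw [htH', haH]
    exact (Nat.coprime_ordCompl hp Nat.card_pos.ne').symm
  have htHM : (tH : Cfsg.AlgInt) ∉ M := natCast_not_mem_lead hMtop p tH htHcop hpM
  have hHc : (Nat.card H : ℂ) = ((p ^ aH : ℕ) : ℂ) * (tH : ℂ) := by
    rw [htH, Nat.cast_mul]
  have hP0 : ((p ^ aH : ℕ) : ℂ) ≠ 0 := by exact_mod_cast hpa0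
  have htH0 : (tH : ℂ) ≠ 0 := by
    intro h0
    have : tH = 0 := by exact_mod_cast h0
    rw [this, mul_zero] at htH
    exact Nat.card_pos.ne' htH
  -- the class function
  have hfcl : ∀ g h : G, (fun g : G => tw7 p (χ : G → ℂ) g⁻¹) (h * g * h⁻¹) =
      (fun g : G => tw7 p (χ : G → ℂ) g⁻¹) g := by
    intro g h
    show tw7 p (χ : G → ℂ) (h * g * h⁻¹)⁻¹ = tw7 p (χ : G → ℂ) g⁻¹
    have e2 : (h * g * h⁻¹)⁻¹ = h * g⁻¹ * h⁻¹ := by group
    rw [e2, tw7_conj]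
  have hYdef := induced_sum_aux H (ψ : H → ℂ) (fun g : G => tw7 p (χ : G → ℂ) g⁻¹) hfcl
  have e3 : ∑ h : H, (if p ∣ orderOf h then (0 : ℂ) else ((p ^ aH : ℕ) : ℂ) *
      (χ : G → ℂ) h) * conj ((ψ : H → ℂ) h) =
      ((p ^ aH : ℕ) : ℂ) * ∑ m : H, tw7 p (χ : G → ℂ) (m : G)⁻¹ * (ψ : H → ℂ) m := by
    rw [Finset.mul_sum, ← Equiv.sum_comp (Equiv.inv H)
      (fun m : H => ((p ^ aH : ℕ) : ℂ) * (tw7 p (χ : G → ℂ) (m : G)⁻¹ * (ψ : H → ℂ) m))]
    apply Finset.sum_congr rfl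
    intro h _
    show (if p ∣ orderOf h then (0 : ℂ) else ((p ^ aH : ℕ) : ℂ) * (χ : G → ℂ) h) *
      conj ((ψ : H → ℂ) h) = ((p ^ aH : ℕ) : ℂ) *
      (tw7 p (χ : G → ℂ) ((h⁻¹ : H) : G)⁻¹ * (ψ : H → ℂ) h⁻¹)
    rw [hinvψ, Subgroup.coe_inv, inv_inv, tw7_apply, Subgroup.orderOf_coe]
    by_cases hh : p ∣ orderOf h
    · rw [if_pos hh, if_pos hh]; ring
    · rw [if_neg hh, if_neg hh]; ring
  have hX : (tH : ℂ) * X = ∑ c : ConjClasses G, tw7 p (χ : G → ℂ) (Quotient.out c)⁻¹ *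
      Cfsg.inducedCentralChar H (ψ : H → ℂ) (Quotient.out c) := by
    refine Eq.trans ?_ hYdef.symm
    have e4 : ∑ m : H, (fun g : G => tw7 p (χ : G → ℂ) g⁻¹) (m : G) *
        ((ψ : H → ℂ) m / (ψ : H → ℂ) 1) =
        (∑ m : H, tw7 p (χ : G → ℂ) (m : G)⁻¹ * (ψ : H → ℂ) m) / (ψ : H → ℂ) 1 := by
      rw [Finset.sum_div]
      apply Finset.sum_congr rfl
      intro m _
      show tw7 p (χ : G → ℂ) (m : G)⁻¹ * ((ψ : H → ℂ) m / (ψ : H → ℂ) 1) = _
      rw [mul_div_assoc]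
    rw [e4, hXdef]
    show (tH : ℂ) * ((Nat.card H : ℂ)⁻¹ * (∑ h : H, (if p ∣ orderOf h then (0 : ℂ) else
      ((p ^ aH : ℕ) : ℂ) * (χ : G → ℂ) h) * conj ((ψ : H → ℂ) h)) / (ψ : H → ℂ) 1) = _
    rw [e3, hHc]
    field_simp
  have hYS : ∀ χ' ∈ B₀, Cfsg.MemLocalIdeal M ((tH : ℂ) * X -
      ss7 p (χ : G → ℂ) (χ' : G → ℂ)) := by
    intro χ' hχ'
    rw [hX]
    unfold ss7
    rw [← Finset.sum_sub_distrib]
    apply memLocalIdeal_sum_lead hMprime
    intro c _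
    rw [← mul_sub]
    exact memLocalIdeal_mul_ring_lead hMprime (tw7_ring p M hMtop χ _)
      (hcong ψ hψ χ' hχ' (Quotient.out c))
  have htHR : Cfsg.MemLocalRing M (tH : ℂ) := by
    have h1 := memLocalRing_int_h7 M hMtop (tH : ℤ)
    rw [Int.cast_natCast] at h1
    exact h1
  obtain ⟨χ₀, hχ₀B, hχ₀inf, hmin⟩ := exists_min_h7 p M hMprime B₀ hB₀
  constructor
  · intro hχ
    -- ss7 p χ χ₀ = 0
    have hne : ¬ Cfsg.SameBlock M (χ : G → ℂ) (χ₀ : G → ℂ) := by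
      intro hs
      apply hχ
      rw [blockOf_eq_h7 M hMprime B₀ hB₀ χ₀ hχ₀B]
      exact sameBlock_symm_lead hs
    have hz := inner_zero_aux p M hM χ χ₀ hne
    have h1 := ss7_eq p χ χ₀
    rw [hz, mul_zero] at h1
    obtain ⟨hχ₀1, hχ₀0⟩ := charDegree_irr χ₀.2
    have hχ₀0' : (Cfsg.charDegree (χ₀ : G → ℂ) : ℂ) ≠ 0 := by exact_mod_cast hχ₀0
    have hS0 : ss7 p (χ : G → ℂ) (χ₀ : G → ℂ) = 0 :=
      (mul_eq_zero.1 h1.symm).resolve_left hχ₀0'
    have h2 := hYS χ₀ hχ₀B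
    rw [hS0, sub_zero] at h2
    have h3 := memLocalIdeal_mul_ring_lead hMprime (memLocalRing_inv_lead htHM) h2
    have e6 : (((tH : Cfsg.AlgInt) : ℂ))⁻¹ * ((tH : ℂ) * X) = X := by
      rw [algInt_natCast_h7]; field_simp
    rw [e6] at h3
    exact h3
  · intro hχ hh0 hXI
    have hmin' : ∀ φ ∈ B₀, (Cfsg.charDegree (χ : G → ℂ)).factorization p ≤
        (Cfsg.charDegree (φ : G → ℂ)).factorization p := by
      intro φ hφ
      unfold Cfsg.blockHeight at hh0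
      rw [← hχ₀inf] at hh0
      have := hmin φ hφ
      omega
    apply ss7_unit_of_min p M hM B₀ hB₀ χ hχ hmin'
    have h2 := hYS χ hχ
    have h3 := memLocalIdeal_mul_ring_lead hMprime htHR hXI
    have h4 := memLocalIdeal_sub_lead hMprime h3 h2
    rw [sub_sub_cancel] at h4
    exact h4


end Cfsg.Agent.S4431
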