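import Cfsg.Statements.S0936
import Mathlib
import Cfsg.Agent.S4431
-- import your own Cfsg.Agent.* helpers here

set_option autoImplicit false
open Cfsg
open Cfsg.Agent.Lib.Helper7 Cfsg.Agent.Lib.Lead
open scoped ComplexConjugate

namespace Cfsg.Agent.S0936

theorem inner_smul_aux {K : Type*} [Group K] [Fintype K] (c : ℂ) (f ψ : K → ℂ) :
    Cfsg.classInner (fun h => c * f h) ψ = c * Cfsg.classInner f ψ := by
  unfold Cfsg.classInner
  rw [Finset.mul_sum, Finset.mul_sum, Finset.mul_sum]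
  apply Finset.sum_congr rfl
  intro x _
  ring

theorem charDegree_one_aux (K : Type*) [Group K] :
    Cfsg.charDegree (fun _ : K => (1 : ℂ)) = 1 := by
  unfold Cfsg.charDegree
  simp

/-- Brauer's Third Main Theorem. Let H be a subgroup of the finite group G and b a block of H (relative to a maximal ideal M of the algebraic integers containing the prime p) whose induced block in G is defined. Then b induces the principal block of G if and only if b is the principal block of H. -/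
theorem result {G : Type*} [Group G] [Finite G] (p : ℕ) [Fact p.Prime] (M : Ideal Cfsg.AlgInt) (hM : Cfsg.IsPModular p M) (H : Subgroup G) (b : Set (Cfsg.IrrCharacter H)) (hdef : Cfsg.InducedBlockDefined M H b) : Cfsg.IsInducedBlock M H b (Cfsg.principalBlock M G) ↔ b = Cfsg.principalBlock M H := by
  classical
  haveI : Fintype G := Fintype.ofFinite _
  haveI : Fintype H := Fintype.ofFinite _
  haveI : Fintype (Cfsg.IrrCharacter H) := Fintype.ofFinite _
  haveI : Fintype (Cfsg.IrrCharacter G) := Fintype.ofFinite _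
  haveI : Fintype (ConjClasses H) := Fintype.ofFinite _
  have hp : p.Prime := Fact.out
  have hMprime : M.IsPrime := hM.2.1.isPrime
  have hMtop : M ≠ ⊤ := hMprime.ne_top
  obtain ⟨χ₁, hχ₁⟩ : ∃ χ₁ : Cfsg.IrrCharacter G, (χ₁ : G → ℂ) = fun _ => 1 :=
    ⟨⟨fun _ => 1, isIrrCharacter_one G⟩, rfl⟩
  obtain ⟨ψ₁, hψ₁⟩ : ∃ ψ₁ : Cfsg.IrrCharacter H, (ψ₁ : H → ℂ) = fun _ => 1 :=
    ⟨⟨fun _ => 1, isIrrCharacter_one H⟩, rfl⟩
  have hPG : Cfsg.principalBlock M G = Cfsg.blockOf M (χ₁ : G → ℂ) := by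
    rw [hχ₁]; rfl
  have hPH : Cfsg.principalBlock M H = Cfsg.blockOf M (ψ₁ : H → ℂ) := by
    rw [hψ₁]; rfl
  have hPGb : Cfsg.IsPBlock M (Cfsg.principalBlock M G) := ⟨χ₁, hPG⟩
  have hPHb : Cfsg.IsPBlock M (Cfsg.principalBlock M H) := ⟨ψ₁, hPH⟩
  have hχ₁P : χ₁ ∈ Cfsg.principalBlock M G := by
    rw [hPG]; exact sameBlock_refl_lead hMtop _
  have hψ₁P : ψ₁ ∈ Cfsg.principalBlock M H := by
    rw [hPH]; exact sameBlock_refl_lead hMtop _
  have hdψ : Cfsg.charDegree (ψ₁ : H → ℂ) = 1 := by rw [hψ₁]; exact charDegree_one_aux H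
  have hdχ : Cfsg.charDegree (χ₁ : G → ℂ) = 1 := by rw [hχ₁]; exact charDegree_one_aux G
  -- the function appearing in S4431
  have hfun : ∀ ψ : Cfsg.IrrCharacter H,
      Cfsg.classInner (fun h : H => if p ∣ orderOf h then (0 : ℂ)
        else ((p ^ (Nat.card H).factorization p : ℕ) : ℂ) * (χ₁ : G → ℂ) h) (ψ : H → ℂ) =
      ((p ^ (Nat.card H).factorization p : ℕ) : ℂ) *
        Cfsg.classInner (tw7 p (ψ₁ : H → ℂ)) (ψ : H → ℂ) := by
    intro ψ
    rw [← inner_smul_aux]
    congr 1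
    funext h
    rw [tw7_apply, hχ₁, hψ₁]
    by_cases hh : p ∣ orderOf h
    · rw [if_pos hh, if_pos hh, mul_zero]
    · rw [if_neg hh, if_neg hh]
  constructor
  · intro hind
    have hb : Cfsg.IsPBlock M b := hind.1
    obtain ⟨ψ, hψb, -, -⟩ := exists_min_h7 p M hMprime b hb
    have h0 : Cfsg.blockHeight p (Cfsg.principalBlock M G) (χ₁ : G → ℂ) = 0 := by
      unfold Cfsg.blockHeight
      rw [hdχ]
      simp
    have hX := (Cfsg.Agent.S4431.result p M hM H b (Cfsg.principalBlock M G) hind χ₁ ψ hψb).2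
      hχ₁P h0
    rw [hfun ψ] at hX
    have hsame : Cfsg.SameBlock M (ψ₁ : H → ℂ) (ψ : H → ℂ) := by
      by_contra hne
      apply hX
      rw [Cfsg.Agent.S4431.inner_zero_aux p M hM ψ₁ ψ hne, mul_zero, zero_div]
      exact memLocalIdeal_zero_lead hMtop
    have hψP : ψ ∈ Cfsg.principalBlock M H := by
      rw [hPH]; exact hsame
    rw [blockOf_eq_h7 M hMprime b hb ψ hψb]
    exact (blockOf_eq_h7 M hMprime _ hPHb ψ hψP).symm
  · intro hbP
    obtain ⟨B, hind⟩ := hdef
    have hB : Cfsg.IsPBlock M B := hind.2.1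
    have hψ₁b : ψ₁ ∈ b := by rw [hbP]; exact hψ₁P
    have hχ₁B : χ₁ ∈ B := by
      by_contra hnot
      have hX := (Cfsg.Agent.S4431.result p M hM H b B hind χ₁ ψ₁ hψ₁b).1 hnot
      rw [hfun ψ₁, ← nn7_spec] at hX
      have h1 : (ψ₁ : H → ℂ) 1 = 1 := by rw [hψ₁]
      rw [h1, div_one] at hX
      have hdvd := int_mem_dvd_h7 p M hM _ hX
      have hmin : ∀ φ ∈ Cfsg.principalBlock M H,
          (Cfsg.charDegree (ψ₁ : H → ℂ)).factorization p ≤
          (Cfsg.charDegree (φ : H → ℂ)).factorization p := by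
        intro φ _
        rw [hdψ]
        simp
      obtain ⟨hne0, hval⟩ := nn7_of_min p M hM (Cfsg.principalBlock M H) hPHb ψ₁ hψ₁P hmin
        ψ₁ hψ₁P
      rw [hdψ] at hval
      simp only [Nat.factorization_one, Finsupp.coe_zero, Pi.zero_apply] at hval
      rcases (padicValInt_dvd_iff (p := p) 1 (nn7 p ψ₁ ψ₁)).1 (by rw [pow_one]; exact hdvd)
        with h5 | h5
      · exact hne0 h5
      · omega
    have hBeq : B = Cfsg.principalBlock M G := by
      rw [hPG]
      exact blockOf_eq_h7 M hMprime B hB χ₁ hχ₁B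
    rw [← hBeq]
    exact hind


end Cfsg.Agent.S0936
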