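import Cfsg.Statements.S4663
import Mathlib
import Cfsg.Agent.S0919
import Cfsg.Agent.S0936
import Cfsg.Agent.Lib.Lead.BlockMinMax
import Cfsg.Agent.Lib.Lead.BlockCover2
import Cfsg.Agent.Lib.Lead.BlockOsima2
import Cfsg.Agent.Lib.Lead.BlockAux2
-- import your own Cfsg.Agent.* helpers here

set_option autoImplicit false
open Cfsg
open Cfsg.Agent.Lib.Helper7 Cfsg.Agent.Lib.Lead
open scoped ComplexConjugate

namespace Cfsg.Agent.S4663

universe u

theorem qnorm_aux {G : Type u} [Group G] (Q : Subgroup G) :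
    ∀ d ∈ Q, d ∈ Subgroup.normalizer (Q : Set G) := by
  intro d hd
  rw [Subgroup.mem_normalizer_iff]
  intro h
  constructor
  · intro hh
    exact Q.mul_mem (Q.mul_mem hd hh) (Q.inv_mem hd)
  · intro hh
    have e : h = d⁻¹ * (d * h * d⁻¹) * d := by group
    rw [e]
    exact Q.mul_mem (Q.mul_mem (Q.inv_mem hd) hh) hd

theorem multC_aux {G : Type u} [Group G] [Fintype G] (p : ℕ) [Fact p.Prime]
    (M : Ideal Cfsg.AlgInt) (hM : Cfsg.IsPModular p M) (Q : Subgroup G)
    [Fintype (Subgroup.centralizer (Q : Set G))] (hQ : IsPGroup p Q)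
    (ξ : Cfsg.IrrCharacter (Subgroup.centralizer (Q : Set G)))
    (z z' : G → ℂ) (hz : Cfsg.IsClassFunction G z) (hz' : Cfsg.IsClassFunction G z')
    (hzR : ∀ g, Cfsg.MemLocalRing M (z g)) (hzR' : ∀ g, Cfsg.MemLocalRing M (z' g)) :
    Cfsg.MemLocalIdeal M
      ((∑ m : (Subgroup.centralizer (Q : Set G)), (∑ x : G, z x * z' (x⁻¹ * (m : G))) * ((ξ : (Subgroup.centralizer (Q : Set G)) → ℂ) m / (ξ : (Subgroup.centralizer (Q : Set G)) → ℂ) 1)) -
        (∑ m : (Subgroup.centralizer (Q : Set G)), z (m : G) * ((ξ : (Subgroup.centralizer (Q : Set G)) → ℂ) m / (ξ : (Subgroup.centralizer (Q : Set G)) → ℂ) 1)) *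
          (∑ m : (Subgroup.centralizer (Q : Set G)), z' (m : G) * ((ξ : (Subgroup.centralizer (Q : Set G)) → ℂ) m / (ξ : (Subgroup.centralizer (Q : Set G)) → ℂ) 1))) := by
  classical
  have hMprime : M.IsPrime := hM.2.1.isPrime
  have hMtop : M ≠ ⊤ := hMprime.ne_top
  have hp : p.Prime := hM.1
  have hpM : (p : Cfsg.AlgInt) ∈ M := hM.2.2
  have hQN := qnorm_aux Q
  have hωR : ∀ m : (Subgroup.centralizer (Q : Set G)), Cfsg.MemLocalRing M (Cfsg.centralChar (ξ : (Subgroup.centralizer (Q : Set G)) → ℂ) m) := fun m =>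
    memLocalRing_isIntegral_lead hMtop (isIntegral_centralChar_lead ξ m)
  have hcoe : ∀ w : G → ℂ, Cfsg.IsClassFunction G w → ∀ a b : (Subgroup.centralizer (Q : Set G)),
      w ((b * a * b⁻¹ : (Subgroup.centralizer (Q : Set G))) : G) = w (a : G) := fun w hw a b => hw (a : G) (b : G)
  obtain ⟨cv, hcv⟩ : ∃ cv : G → ℂ, ∀ g : G, cv g = ∑ x : G, z x * z' (x⁻¹ * g) :=
    ⟨_, fun _ => rfl⟩
  have hcvcl : Cfsg.IsClassFunction G cv := by
    intro g h
    rw [hcv, hcv]
    exact conv_classFun_lead z z' hz hz' g h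
  obtain ⟨zC, hzC⟩ : ∃ zC : (Subgroup.centralizer (Q : Set G)) → ℂ, ∀ m : (Subgroup.centralizer (Q : Set G)), zC m = z (m : G) := ⟨_, fun _ => rfl⟩
  obtain ⟨zC', hzC'⟩ : ∃ zC' : (Subgroup.centralizer (Q : Set G)) → ℂ, ∀ m : (Subgroup.centralizer (Q : Set G)), zC' m = z' (m : G) := ⟨_, fun _ => rfl⟩
  have hzCcl : Cfsg.IsClassFunction (Subgroup.centralizer (Q : Set G)) zC := by
    intro a b
    rw [hzC, hzC]
    exact hcoe z hz a b
  have hzCcl' : Cfsg.IsClassFunction (Subgroup.centralizer (Q : Set G)) zC' := by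
    intro a b
    rw [hzC', hzC']
    exact hcoe z' hz' a b
  obtain ⟨cH, hcH⟩ : ∃ cH : (Subgroup.centralizer (Q : Set G)) → ℂ, ∀ n : (Subgroup.centralizer (Q : Set G)), cH n = ∑ x : (Subgroup.centralizer (Q : Set G)), zC x * zC' (x⁻¹ * n) :=
    ⟨_, fun _ => rfl⟩
  have hcHcl : Cfsg.IsClassFunction (Subgroup.centralizer (Q : Set G)) cH := by
    intro a b
    rw [hcH, hcH]
    exact conv_classFun_lead zC zC' hzCcl hzCcl' a b
  have hdiv : ∀ f : (Subgroup.centralizer (Q : Set G)) → ℂ, ∑ m : (Subgroup.centralizer (Q : Set G)), f m * ((ξ : (Subgroup.centralizer (Q : Set G)) → ℂ) m / (ξ : (Subgroup.centralizer (Q : Set G)) → ℂ) 1) =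
      (∑ m : (Subgroup.centralizer (Q : Set G)), f m * (ξ : (Subgroup.centralizer (Q : Set G)) → ℂ) m) / (ξ : (Subgroup.centralizer (Q : Set G)) → ℂ) 1 := by
    intro f
    rw [Finset.sum_div]
    apply Finset.sum_congr rfl
    intro m _
    ring
  have hmulH : ∑ m : (Subgroup.centralizer (Q : Set G)), cH m * ((ξ : (Subgroup.centralizer (Q : Set G)) → ℂ) m / (ξ : (Subgroup.centralizer (Q : Set G)) → ℂ) 1) =
      (∑ m : (Subgroup.centralizer (Q : Set G)), zC m * ((ξ : (Subgroup.centralizer (Q : Set G)) → ℂ) m / (ξ : (Subgroup.centralizer (Q : Set G)) → ℂ) 1)) * (∑ m : (Subgroup.centralizer (Q : Set G)), zC' m * ((ξ : (Subgroup.centralizer (Q : Set G)) → ℂ) m / (ξ : (Subgroup.centralizer (Q : Set G)) → ℂ) 1)) := by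
    rw [hdiv cH, hdiv zC, hdiv zC']
    have h1 := conv_transform_lead zC zC' hzCcl (ξ : (Subgroup.centralizer (Q : Set G)) → ℂ) ξ.2
    have h2 : ∑ m : (Subgroup.centralizer (Q : Set G)), cH m * (ξ : (Subgroup.centralizer (Q : Set G)) → ℂ) m =
        ∑ g : (Subgroup.centralizer (Q : Set G)), (∑ x : (Subgroup.centralizer (Q : Set G)), zC x * zC' (x⁻¹ * g)) * (ξ : (Subgroup.centralizer (Q : Set G)) → ℂ) g :=
      Finset.sum_congr rfl (fun m _ => by rw [hcH])
    rw [h2, h1]
    ring
  have hD : ∀ n : (Subgroup.centralizer (Q : Set G)), Cfsg.MemLocalIdeal M (cv (n : G) - cH n) := by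
    intro n
    have hn : (n : G) ∈ Subgroup.centralizer (Q : Set G) := n.2
    obtain ⟨Fn, hFn⟩ : ∃ Fn : G → ℂ, ∀ y : G, Fn y = z y * z' (y⁻¹ * (n : G)) :=
      ⟨_, fun _ => rfl⟩
    have h2 : ∀ x : (Subgroup.centralizer (Q : Set G)), zC x * zC' (x⁻¹ * n) = Fn (x : G) := by
      intro x
      rw [hzC, hzC', hFn]
      rfl
    have h3 : ∑ x : (Subgroup.centralizer (Q : Set G)), Fn (x : G) =
        ∑ y ∈ Finset.univ.filter (fun y : G => y ∈ Subgroup.centralizer (Q : Set G)), Fn y :=
      (Finset.sum_subtype (Finset.univ.filter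
        (fun y : G => y ∈ Subgroup.centralizer (Q : Set G))) (fun y => by simp) Fn).symm
    have h4 : cv (n : G) - cH n = ∑ x : G,
        (if x ∈ Subgroup.centralizer (Q : Set G) then 0 else z x * z' (x⁻¹ * (n : G))) := by
      rw [hcH, Finset.sum_congr rfl (fun x _ => h2 x), h3, Finset.sum_filter, hcv,
        ← Finset.sum_sub_distrib]
      apply Finset.sum_congr rfl
      intro x _
      rw [hFn]
      by_cases hx : x ∈ Subgroup.centralizer (Q : Set G)
      · rw [if_pos hx, if_pos hx, sub_self]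
      · rw [if_neg hx, if_neg hx, sub_zero]
    rw [h4]
    apply pgroup_sum_lead p hp M hMprime hpM Q hQ
      (fun x : G => if x ∈ Subgroup.centralizer (Q : Set G) then 0
        else z x * z' (x⁻¹ * (n : G)))
    · intro d hd x
      have hdN : d ∈ Subgroup.normalizer (Q : Set G) := hQN d hd
      have hc : Commute d (n : G) := Subgroup.mem_centralizer_iff.1 hn d hd
      have hc' : d⁻¹ * (n : G) = (n : G) * d⁻¹ := hc.inv_left.eq
      have e : (d * x * d⁻¹)⁻¹ * (n : G) = d * (x⁻¹ * (n : G)) * d⁻¹ := by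
        calc (d * x * d⁻¹)⁻¹ * (n : G) = d * x⁻¹ * (d⁻¹ * (n : G)) := by group
          _ = d * x⁻¹ * ((n : G) * d⁻¹) := by rw [hc']
          _ = d * (x⁻¹ * (n : G)) * d⁻¹ := by group
      show (if d * x * d⁻¹ ∈ Subgroup.centralizer (Q : Set G) then (0 : ℂ)
        else z (d * x * d⁻¹) * z' ((d * x * d⁻¹)⁻¹ * (n : G))) =
        if x ∈ Subgroup.centralizer (Q : Set G) then 0 else z x * z' (x⁻¹ * (n : G))
      rw [e, hz x d, hz' (x⁻¹ * (n : G)) d]
      exact if_congr (S0919.cent_conj_iff_aux Q d x hdN) rfl rfl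
    · intro x
      show Cfsg.MemLocalRing M (if x ∈ Subgroup.centralizer (Q : Set G) then (0 : ℂ)
        else z x * z' (x⁻¹ * (n : G)))
      split_ifs
      · exact memLocalRing_zero_lead hMtop
      · exact memLocalRing_mul_lead hMprime (hzR _) (hzR' _)
    · intro x hx
      have hxC : x ∉ Subgroup.centralizer (Q : Set G) := by
        intro h
        apply hx
        show (if x ∈ Subgroup.centralizer (Q : Set G) then (0 : ℂ)
          else z x * z' (x⁻¹ * (n : G))) = 0
        rw [if_pos h]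
      rw [Subgroup.mem_centralizer_iff] at hxC
      push_neg at hxC
      obtain ⟨d, hd, hne⟩ := hxC
      exact ⟨d, hd, fun h => hne (mul_inv_eq_iff_eq_mul.1 h)⟩
  have hcveq : ∑ m : (Subgroup.centralizer (Q : Set G)), (∑ x : G, z x * z' (x⁻¹ * (m : G))) * ((ξ : (Subgroup.centralizer (Q : Set G)) → ℂ) m / (ξ : (Subgroup.centralizer (Q : Set G)) → ℂ) 1) =
      ∑ m : (Subgroup.centralizer (Q : Set G)), cv (m : G) * ((ξ : (Subgroup.centralizer (Q : Set G)) → ℂ) m / (ξ : (Subgroup.centralizer (Q : Set G)) → ℂ) 1) :=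
    Finset.sum_congr rfl (fun m _ => by rw [hcv])
  have hzeq : ∑ m : (Subgroup.centralizer (Q : Set G)), z (m : G) * ((ξ : (Subgroup.centralizer (Q : Set G)) → ℂ) m / (ξ : (Subgroup.centralizer (Q : Set G)) → ℂ) 1) = ∑ m : (Subgroup.centralizer (Q : Set G)), zC m * ((ξ : (Subgroup.centralizer (Q : Set G)) → ℂ) m / (ξ : (Subgroup.centralizer (Q : Set G)) → ℂ) 1) :=
    Finset.sum_congr rfl (fun m _ => by rw [hzC])
  have hzeq' : ∑ m : (Subgroup.centralizer (Q : Set G)), z' (m : G) * ((ξ : (Subgroup.centralizer (Q : Set G)) → ℂ) m / (ξ : (Subgroup.centralizer (Q : Set G)) → ℂ) 1) =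
      ∑ m : (Subgroup.centralizer (Q : Set G)), zC' m * ((ξ : (Subgroup.centralizer (Q : Set G)) → ℂ) m / (ξ : (Subgroup.centralizer (Q : Set G)) → ℂ) 1) :=
    Finset.sum_congr rfl (fun m _ => by rw [hzC'])
  rw [hcveq, hzeq, hzeq', ← hmulH, ← Finset.sum_sub_distrib]
  have e : ∀ m : (Subgroup.centralizer (Q : Set G)), cv (m : G) * ((ξ : (Subgroup.centralizer (Q : Set G)) → ℂ) m / (ξ : (Subgroup.centralizer (Q : Set G)) → ℂ) 1) - cH m * ((ξ : (Subgroup.centralizer (Q : Set G)) → ℂ) m / (ξ : (Subgroup.centralizer (Q : Set G)) → ℂ) 1) =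
      (cv (m : G) - cH m) * ((ξ : (Subgroup.centralizer (Q : Set G)) → ℂ) m / (ξ : (Subgroup.centralizer (Q : Set G)) → ℂ) 1) := fun m => (sub_mul _ _ _).symm
  rw [Finset.sum_congr rfl (fun m _ => e m)]
  apply S0919.om_J_aux hMprime ξ (fun m : (Subgroup.centralizer (Q : Set G)) => cv (m : G) - cH m)
  · intro a b
    show cv ((b * a * b⁻¹ : (Subgroup.centralizer (Q : Set G))) : G) - cH (b * a * b⁻¹) = cv (a : G) - cH a
    rw [hcHcl a b, hcoe cv hcvcl a b]
  · intro m
    have h := memLocalIdeal_mul_ring_lead hMprime (hωR m) (hD m)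
    rw [mul_comm] at h
    exact h

theorem genC_aux {G : Type u} [Group G] [Fintype G] (p : ℕ) [Fact p.Prime]
    (M : Ideal Cfsg.AlgInt) (hM : Cfsg.IsPModular p M) (Q : Subgroup G) [Fintype (Subgroup.centralizer (Q : Set G))]
    (hQ : IsPGroup p Q) (ξ : Cfsg.IrrCharacter (Subgroup.centralizer (Q : Set G)))
    {ι : Type*} (y : ι → G → ℂ) (a : ι → Cfsg.IrrCharacter G → ℂ)
    (hy : ∀ i, Cfsg.IsClassFunction G (y i)) (hyR : ∀ i g, Cfsg.MemLocalRing M (y i g))
    (hya : ∀ i (η : Cfsg.IrrCharacter G),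
      ∑ g : G, y i g * (η : G → ℂ) g = a i η * (η : G → ℂ) 1)
    (s : Finset ι) :
    ∃ c : G → ℂ, Cfsg.IsClassFunction G c ∧ (∀ g, Cfsg.MemLocalRing M (c g)) ∧
      (∀ η : Cfsg.IrrCharacter G,
        ∑ g : G, c g * (η : G → ℂ) g = (∏ i ∈ s, a i η) * (η : G → ℂ) 1) ∧
      Cfsg.MemLocalIdeal M ((∑ m : (Subgroup.centralizer (Q : Set G)), c (m : G) * ((ξ : (Subgroup.centralizer (Q : Set G)) → ℂ) m / (ξ : (Subgroup.centralizer (Q : Set G)) → ℂ) 1)) -
        ∏ i ∈ s, ∑ m : (Subgroup.centralizer (Q : Set G)), y i (m : G) * ((ξ : (Subgroup.centralizer (Q : Set G)) → ℂ) m / (ξ : (Subgroup.centralizer (Q : Set G)) → ℂ) 1)) := by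
  classical
  have hMprime : M.IsPrime := hM.2.1.isPrime
  have hMtop : M ≠ ⊤ := hMprime.ne_top
  have hξ1 : (ξ : (Subgroup.centralizer (Q : Set G)) → ℂ) 1 ≠ 0 := by
    obtain ⟨d, hd0, hd⟩ := irr_one ξ.2
    rw [hd]
    exact_mod_cast hd0
  induction s using Finset.induction_on with
  | empty =>
    refine ⟨fun g => if g = 1 then 1 else 0, ?_, ?_, ?_, ?_⟩
    · intro g h
      show (if h * g * h⁻¹ = 1 then (1 : ℂ) else 0) = if g = 1 then 1 else 0
      exact if_congr conj_eq_one_iff rfl rfl
    · intro g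
      show Cfsg.MemLocalRing M (if g = 1 then (1 : ℂ) else 0)
      split_ifs
      · exact memLocalRing_one_lead hMtop
      · exact memLocalRing_zero_lead hMtop
    · intro η
      rw [Finset.prod_empty, one_mul]
      have e : ∀ g : G, (if g = 1 then (1 : ℂ) else 0) * (η : G → ℂ) g =
          if g = 1 then (η : G → ℂ) g else 0 := by
        intro g
        rw [ite_mul, one_mul, zero_mul]
      show ∑ g : G, (if g = 1 then (1 : ℂ) else 0) * (η : G → ℂ) g = (η : G → ℂ) 1
      rw [Finset.sum_congr rfl (fun g _ => e g), Finset.sum_ite_eq',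
        if_pos (Finset.mem_univ _)]
    · rw [Finset.prod_empty]
      have e : ∀ m : (Subgroup.centralizer (Q : Set G)), (if (m : G) = 1 then (1 : ℂ) else 0) *
          ((ξ : (Subgroup.centralizer (Q : Set G)) → ℂ) m / (ξ : (Subgroup.centralizer (Q : Set G)) → ℂ) 1) = if m = 1 then (1 : ℂ) else 0 := by
        intro m
        by_cases h : m = 1
        · have h' : (m : G) = 1 := by rw [h]; rfl
          rw [if_pos h, if_pos h', one_mul, h, div_self hξ1]
        · have h' : ¬ (m : G) = 1 := fun h'' => h (Subtype.ext h'')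
          rw [if_neg h, if_neg h', zero_mul]
      have e2 : ∑ m : (Subgroup.centralizer (Q : Set G)), (if (m : G) = 1 then (1 : ℂ) else 0) *
          ((ξ : (Subgroup.centralizer (Q : Set G)) → ℂ) m / (ξ : (Subgroup.centralizer (Q : Set G)) → ℂ) 1) = 1 := by
        rw [Finset.sum_congr rfl (fun m _ => e m), Finset.sum_ite_eq',
          if_pos (Finset.mem_univ _)]
      show Cfsg.MemLocalIdeal M ((∑ m : (Subgroup.centralizer (Q : Set G)), (if (m : G) = 1 then (1 : ℂ) else 0) *
          ((ξ : (Subgroup.centralizer (Q : Set G)) → ℂ) m / (ξ : (Subgroup.centralizer (Q : Set G)) → ℂ) 1)) - 1)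
      rw [e2, sub_self]
      exact memLocalIdeal_zero_lead hMtop
  | insert i s his ih =>
    obtain ⟨c, hc, hcR, hcT, hcL⟩ := ih
    refine ⟨fun g => ∑ x : G, y i x * c (x⁻¹ * g), conv_classFun_lead (y i) c (hy i) hc,
      ?_, ?_, ?_⟩
    · intro g
      exact memLocalRing_sum_lead hMprime _ _
        (fun x _ => memLocalRing_mul_lead hMprime (hyR i x) (hcR _))
    · intro η
      have hη1 : (η : G → ℂ) 1 ≠ 0 := by
        obtain ⟨d, hd0, hd⟩ := irr_one η.2
        rw [hd]
        exact_mod_cast hd0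
      have h1 := conv_transform_lead (y i) c (hy i) (η : G → ℂ) η.2
      have harith : ∀ A B X : ℂ, X ≠ 0 → A * X * (B * X) / X = A * B * X := by
        intro A B X hX
        rw [div_eq_iff hX]
        ring
      show ∑ g : G, (∑ x : G, y i x * c (x⁻¹ * g)) * (η : G → ℂ) g = _
      rw [Finset.prod_insert his, h1, hya i η, hcT η]
      exact harith _ _ _ hη1
    · rw [Finset.prod_insert his]
      have h1 := multC_aux p M hM Q hQ ξ (y i) c (hy i) hc (hyR i) hcR
      have hR : Cfsg.MemLocalRing M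
          (∑ m : (Subgroup.centralizer (Q : Set G)), y i (m : G) * ((ξ : (Subgroup.centralizer (Q : Set G)) → ℂ) m / (ξ : (Subgroup.centralizer (Q : Set G)) → ℂ) 1)) :=
        S0919.om_R_aux hMprime ξ (fun m : (Subgroup.centralizer (Q : Set G)) => y i (m : G)) (fun a b => hy i (a : G) (b : G))
          (fun m => hyR i _)
      have h2 := memLocalIdeal_mul_ring_lead hMprime hR hcL
      have h3 := memLocalIdeal_add_lead hMprime h1 h2
      convert h3 using 1
      ring

/-- Fix a prime p and a maximal ideal M of the algebraic integers containing p. Brauer's Third Main Theorem in the language of Brauer pairs: for the principal p-block B₀ of the finite group G and any p-subgroup Q, a p-block e of C_G(Q) makes (Q, e) a Brauer pair of B₀ if and only if e is the principal p-block of C_G(Q). Equivalently, modulo M the truncation to C_G(Q) of the idempotent of B₀ is the idempotent of the principal block of C_G(Q). -/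
theorem result {G : Type*} [Group G] [Fintype G] (p : ℕ) [Fact p.Prime] (M : Ideal Cfsg.AlgInt) (hM : Cfsg.IsPModular p M) (Q : Subgroup G) (hQ : IsPGroup p Q) (e : Set (Cfsg.IrrCharacter (Subgroup.centralizer (Q : Set G)))) (he : Cfsg.IsPBlock M e) : Cfsg.IsBrauerPairOf p M (Cfsg.principalBlock M G) Q e ↔ e = Cfsg.principalBlock M (Subgroup.centralizer (Q : Set G)) := by
  classical
  have hp : p.Prime := hM.1
  have hMprime : M.IsPrime := hM.2.1.isPrime
  have hMtop : M ≠ ⊤ := hMprime.ne_top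
  have hpM : (p : Cfsg.AlgInt) ∈ M := hM.2.2
  have hQN := qnorm_aux Q
  haveI : Fintype (Subgroup.centralizer (Q : Set G)) := Fintype.ofFinite _
  haveI : Fintype (Cfsg.IrrCharacter G) := Fintype.ofFinite _
  obtain ⟨χ₁, hχ₁⟩ : ∃ χ₁ : Cfsg.IrrCharacter G, (χ₁ : G → ℂ) = fun _ => (1 : ℂ) :=
    ⟨⟨fun _ => 1, isIrrCharacter_one _⟩, rfl⟩
  have hPB : Cfsg.principalBlock M G = Cfsg.blockOf M (χ₁ : G → ℂ) := by
    rw [hχ₁]
    rfl
  have hPBlock : Cfsg.IsPBlock M (Cfsg.principalBlock M G) := ⟨χ₁, hPB⟩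
  obtain ⟨a, ha⟩ : ∃ a : G → ℂ, a = Cfsg.blockCoeff (Cfsg.principalBlock M G) := ⟨_, rfl⟩
  have hacl : Cfsg.IsClassFunction G a := by
    intro g h
    rw [ha]
    exact blockCoeff_classFun_lead _ g h
  have haR : ∀ g, Cfsg.MemLocalRing M (a g) := by
    intro g
    rw [ha, hPB]
    exact osima_lead p hp M hMprime hpM χ₁ g
  have haT : ∀ η : Cfsg.IrrCharacter G, ∑ g : G, a g * (η : G → ℂ) g =
      if η ∈ Cfsg.principalBlock M G then (η : G → ℂ) 1 else 0 := by
    intro η
    rw [ha]
    exact blockCoeff_sum_lead _ η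
  have hbo : ∀ ξ' : Cfsg.IrrCharacter (Subgroup.centralizer (Q : Set G)),
      Cfsg.brauerOmega Q (Cfsg.blockCoeff (Cfsg.principalBlock M G)) (ξ' : (Subgroup.centralizer (Q : Set G)) → ℂ) =
      ∑ m : (Subgroup.centralizer (Q : Set G)), a (m : G) * ((ξ' : (Subgroup.centralizer (Q : Set G)) → ℂ) m / (ξ' : (Subgroup.centralizer (Q : Set G)) → ℂ) 1) := by
    intro ξ'
    unfold Cfsg.brauerOmega
    rw [finsum_eq_sum_of_fintype, ha]
    apply Finset.sum_congr rfl
    intro x _
    rw [mul_div_assoc]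
  have hsumG : ∑ g : G, a g = 1 := by
    have h := haT χ₁
    rw [if_pos (show χ₁ ∈ Cfsg.principalBlock M G by
      rw [hPB]
      exact sameBlock_refl_lead hMtop _), hχ₁] at h
    simpa using h
  have hsumC : Cfsg.MemLocalIdeal M ((∑ m : (Subgroup.centralizer (Q : Set G)), a (m : G)) - 1) := by
    have h3 : ∑ x : (Subgroup.centralizer (Q : Set G)), a (x : G) =
        ∑ y ∈ Finset.univ.filter (fun y : G => y ∈ Subgroup.centralizer (Q : Set G)), a y :=
      (Finset.sum_subtype (Finset.univ.filter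
        (fun y : G => y ∈ Subgroup.centralizer (Q : Set G))) (fun y => by simp) a).symm
    have h4 : (∑ m : (Subgroup.centralizer (Q : Set G)), a (m : G)) - 1 =
        - ∑ x : G, (if x ∈ Subgroup.centralizer (Q : Set G) then 0 else a x) := by
      rw [h3, Finset.sum_filter, ← hsumG, ← Finset.sum_sub_distrib, ← Finset.sum_neg_distrib]
      apply Finset.sum_congr rfl
      intro x _
      by_cases hx : x ∈ Subgroup.centralizer (Q : Set G)
      · rw [if_pos hx, if_pos hx, sub_self, neg_zero]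
      · rw [if_neg hx, if_neg hx, zero_sub]
    rw [h4]
    apply memLocalIdeal_neg_lead
    apply pgroup_sum_lead p hp M hMprime hpM Q hQ
      (fun x : G => if x ∈ Subgroup.centralizer (Q : Set G) then 0 else a x)
    · intro d hd x
      show (if d * x * d⁻¹ ∈ Subgroup.centralizer (Q : Set G) then (0 : ℂ)
        else a (d * x * d⁻¹)) = if x ∈ Subgroup.centralizer (Q : Set G) then 0 else a x
      rw [hacl x d]
      exact if_congr (S0919.cent_conj_iff_aux Q d x (hQN d hd)) rfl rfl
    · intro x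
      show Cfsg.MemLocalRing M (if x ∈ Subgroup.centralizer (Q : Set G) then (0 : ℂ) else a x)
      split_ifs
      · exact memLocalRing_zero_lead hMtop
      · exact haR x
    · intro x hx
      have hxC : x ∉ Subgroup.centralizer (Q : Set G) := by
        intro h
        apply hx
        show (if x ∈ Subgroup.centralizer (Q : Set G) then (0 : ℂ) else a x) = 0
        rw [if_pos h]
      rw [Subgroup.mem_centralizer_iff] at hxC
      push_neg at hxC
      obtain ⟨d, hd, hne⟩ := hxC
      exact ⟨d, hd, fun h => hne (mul_inv_eq_iff_eq_mul.1 h)⟩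
  have hB : ∀ ξ' : Cfsg.IrrCharacter (Subgroup.centralizer (Q : Set G)), ξ' ∈ Cfsg.principalBlock M (Subgroup.centralizer (Q : Set G)) →
      Cfsg.MemLocalIdeal M ((∑ m : (Subgroup.centralizer (Q : Set G)), a (m : G) * ((ξ' : (Subgroup.centralizer (Q : Set G)) → ℂ) m / (ξ' : (Subgroup.centralizer (Q : Set G)) → ℂ) 1)) -
        ∑ m : (Subgroup.centralizer (Q : Set G)), a (m : G)) := by
    intro ξ' hξ'
    haveI : Fintype (ConjClasses (Subgroup.centralizer (Q : Set G))) := Fintype.ofFinite _
    have hξ'' : Cfsg.SameBlock M (fun _ : (Subgroup.centralizer (Q : Set G)) => (1 : ℂ)) (ξ' : (Subgroup.centralizer (Q : Set G)) → ℂ) := hξ'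
    have hfcl : ∀ x y : (Subgroup.centralizer (Q : Set G)), (fun m : (Subgroup.centralizer (Q : Set G)) => a (m : G)) (y * x * y⁻¹) =
        (fun m : (Subgroup.centralizer (Q : Set G)) => a (m : G)) x := fun x y => hacl (x : G) (y : G)
    have h1 : ∑ m : (Subgroup.centralizer (Q : Set G)), a (m : G) * ((ξ' : (Subgroup.centralizer (Q : Set G)) → ℂ) m / (ξ' : (Subgroup.centralizer (Q : Set G)) → ℂ) 1) =
        ∑ c : ConjClasses (Subgroup.centralizer (Q : Set G)), a ((Quotient.out c : (Subgroup.centralizer (Q : Set G))) : G) *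
          Cfsg.centralChar (ξ' : (Subgroup.centralizer (Q : Set G)) → ℂ) (Quotient.out c) :=
      S0919.om_regroup_aux (ξ' : (Subgroup.centralizer (Q : Set G)) → ℂ) (isClassFunction_of_irr ξ'.2)
        (fun m : (Subgroup.centralizer (Q : Set G)) => a (m : G)) hfcl
    have h2 : ∑ m : (Subgroup.centralizer (Q : Set G)), a (m : G) * ((1 : ℂ) / 1) =
        ∑ c : ConjClasses (Subgroup.centralizer (Q : Set G)), a ((Quotient.out c : (Subgroup.centralizer (Q : Set G))) : G) *
          Cfsg.centralChar (fun _ : (Subgroup.centralizer (Q : Set G)) => (1 : ℂ)) (Quotient.out c) :=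
      S0919.om_regroup_aux (fun _ : (Subgroup.centralizer (Q : Set G)) => (1 : ℂ)) (fun _ _ => rfl)
        (fun m : (Subgroup.centralizer (Q : Set G)) => a (m : G)) hfcl
    have h2' : ∑ m : (Subgroup.centralizer (Q : Set G)), a (m : G) =
        ∑ c : ConjClasses (Subgroup.centralizer (Q : Set G)), a ((Quotient.out c : (Subgroup.centralizer (Q : Set G))) : G) *
          Cfsg.centralChar (fun _ : (Subgroup.centralizer (Q : Set G)) => (1 : ℂ)) (Quotient.out c) := by
      rw [← h2]
      apply Finset.sum_congr rfl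
      intro m _
      rw [div_one, mul_one]
    rw [h1, h2', ← Finset.sum_sub_distrib]
    apply memLocalIdeal_sum_lead hMprime
    intro c _
    have h3 : Cfsg.MemLocalIdeal M (Cfsg.centralChar (ξ' : (Subgroup.centralizer (Q : Set G)) → ℂ) (Quotient.out c) -
        Cfsg.centralChar (fun _ : (Subgroup.centralizer (Q : Set G)) => (1 : ℂ)) (Quotient.out c)) :=
      sameBlock_symm_lead hξ'' (Quotient.out c)
    have h4 := memLocalIdeal_mul_ring_lead hMprime (haR ((Quotient.out c : (Subgroup.centralizer (Q : Set G))) : G)) h3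
    rw [mul_sub] at h4
    exact h4
  constructor
  swap
  · intro he'
    refine ⟨⟨hQ, he⟩, hPBlock, ?_⟩
    intro ξ' hξ'
    rw [he'] at hξ'
    rw [hbo]
    have h1 := memLocalIdeal_add_lead hMprime (hB ξ' hξ') hsumC
    convert h1 using 1
    ring
  · intro hbp
    obtain ⟨-, -, hcond⟩ := hbp
    obtain ⟨ξ, rfl⟩ := he
    have hξmem : ξ ∈ Cfsg.blockOf M (ξ : (Subgroup.centralizer (Q : Set G)) → ℂ) := sameBlock_refl_lead hMtop _
    have hLa := hcond ξ hξmem
    rw [hbo] at hLa
    have hξ1 : (ξ : (Subgroup.centralizer (Q : Set G)) → ℂ) 1 ≠ 0 := by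
      obtain ⟨d, hd0, hd⟩ := irr_one ξ.2
      rw [hd]
      exact_mod_cast hd0
    have key : ∃ χ : Cfsg.IrrCharacter G, χ ∈ Cfsg.principalBlock M G ∧ ∀ g : G,
        Cfsg.MemLocalIdeal M (Cfsg.inducedCentralChar (Subgroup.centralizer (Q : Set G)) (ξ : (Subgroup.centralizer (Q : Set G)) → ℂ) g -
          Cfsg.centralChar (χ : G → ℂ) g) := by
      by_contra hcon
      have hcon' : ∀ χ : Cfsg.IrrCharacter G, ∃ g : G,
          (χ ∈ Cfsg.principalBlock M G → ¬ Cfsg.MemLocalIdeal M
            (Cfsg.inducedCentralChar (Subgroup.centralizer (Q : Set G)) (ξ : (Subgroup.centralizer (Q : Set G)) → ℂ) g - Cfsg.centralChar (χ : G → ℂ) g)) ∧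
          (χ ∉ Cfsg.principalBlock M G → g = 1) := by
        intro χ
        by_cases hχ : χ ∈ Cfsg.principalBlock M G
        · by_contra h
          apply hcon
          refine ⟨χ, hχ, fun g => ?_⟩
          by_contra hg
          exact h ⟨g, fun _ => hg, fun h' => absurd hχ h'⟩
        · exact ⟨1, fun h => absurd h hχ, fun _ => rfl⟩
      choose gx hgx using hcon'
      obtain ⟨w, hw⟩ : ∃ w : Cfsg.IrrCharacter G → ℂ, ∀ χ, w χ =
          if χ ∈ Cfsg.principalBlock M G then Cfsg.centralChar (χ : G → ℂ) (gx χ) else 0 :=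
        ⟨_, fun _ => rfl⟩
      have hwR : ∀ χ, Cfsg.MemLocalRing M (w χ) := by
        intro χ
        rw [hw]
        split_ifs
        · exact memLocalRing_isIntegral_lead hMtop (isIntegral_centralChar_lead χ _)
        · exact memLocalRing_zero_lead hMtop
      obtain ⟨y, hy⟩ : ∃ y : Cfsg.IrrCharacter G → G → ℂ, ∀ χ g, y χ g =
          (if IsConj (gx χ) g then 1 else 0) - w χ * (if g = 1 then 1 else 0) :=
        ⟨_, fun _ _ => rfl⟩
      have hycl : ∀ χ, Cfsg.IsClassFunction G (y χ) := by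
        intro χ g h
        rw [hy, hy]
        have hc : IsConj g (h * g * h⁻¹) := isConj_iff.2 ⟨h, rfl⟩
        have e1 : IsConj (gx χ) (h * g * h⁻¹) ↔ IsConj (gx χ) g :=
          ⟨fun k => k.trans hc.symm, fun k => k.trans hc⟩
        rw [if_congr e1 rfl rfl, if_congr (conj_eq_one_iff (a := h) (b := g)) rfl rfl]
      have h01 : ∀ (q : Prop) [Decidable q], Cfsg.MemLocalRing M (if q then (1 : ℂ) else 0) := by
        intro q _
        split_ifs
        · exact memLocalRing_one_lead hMtop
        · exact memLocalRing_zero_lead hMtop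
      have hyR : ∀ χ g, Cfsg.MemLocalRing M (y χ g) := by
        intro χ g
        rw [hy]
        exact memLocalRing_sub_lead hMprime (h01 _)
          (memLocalRing_mul_lead hMprime
            (hwR χ) (h01 _))
      have hya : ∀ (χ η : Cfsg.IrrCharacter G), ∑ g : G, y χ g * (η : G → ℂ) g =
          (Cfsg.centralChar (η : G → ℂ) (gx χ) - w χ) *
            (η : G → ℂ) 1 := by
        intro χ η
        have e : ∀ g : G, y χ g * (η : G → ℂ) g =
            (if IsConj (gx χ) g then (1 : ℂ) else 0) * (η : G → ℂ) g -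
              w χ * (if g = 1 then (η : G → ℂ) g else 0) := by
          intro g
          rw [hy]
          by_cases h : g = 1
          · rw [if_pos h, if_pos h]
            ring
          · rw [if_neg h, if_neg h]
            ring
        have hct : ∑ g : G, (if IsConj (gx χ) g then (1 : ℂ) else 0) * (η : G → ℂ) g =
            Cfsg.centralChar (η : G → ℂ) (gx χ) * (η : G → ℂ) 1 :=
          class_transform_lead (gx χ) (fun g => if IsConj (gx χ) g then (1 : ℂ) else 0)
            (fun g hg => if_pos hg.symm) (fun g hg => if_neg (fun h => hg h.symm)) η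
        rw [Finset.sum_congr rfl (fun g _ => e g), Finset.sum_sub_distrib, ← Finset.mul_sum,
          Finset.sum_ite_eq', if_pos (Finset.mem_univ _), hct]
        ring
      have hLam : ∀ χ : Cfsg.IrrCharacter G,
          ∑ m : (Subgroup.centralizer (Q : Set G)), y χ (m : G) * ((ξ : (Subgroup.centralizer (Q : Set G)) → ℂ) m / (ξ : (Subgroup.centralizer (Q : Set G)) → ℂ) 1) =
          Cfsg.inducedCentralChar (Subgroup.centralizer (Q : Set G)) (ξ : (Subgroup.centralizer (Q : Set G)) → ℂ) (gx χ) -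
            w χ := by
        intro χ
        rw [inducedCentralChar_sum_lead]
        have e : ∀ m : (Subgroup.centralizer (Q : Set G)), y χ (m : G) * ((ξ : (Subgroup.centralizer (Q : Set G)) → ℂ) m / (ξ : (Subgroup.centralizer (Q : Set G)) → ℂ) 1) =
            Set.indicator {h : (Subgroup.centralizer (Q : Set G)) | IsConj (gx χ) (h : G)}
              (fun h => (ξ : (Subgroup.centralizer (Q : Set G)) → ℂ) h / (ξ : (Subgroup.centralizer (Q : Set G)) → ℂ) 1) m -
              w χ * (if m = 1 then (1 : ℂ) else 0) := by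
          intro m
          rw [hy]
          have e1 : (if (m : G) = 1 then (1 : ℂ) else 0) * ((ξ : (Subgroup.centralizer (Q : Set G)) → ℂ) m / (ξ : (Subgroup.centralizer (Q : Set G)) → ℂ) 1) =
              if m = 1 then (1 : ℂ) else 0 := by
            by_cases h : m = 1
            · have h' : (m : G) = 1 := by rw [h]; rfl
              rw [if_pos h, if_pos h', one_mul, h, div_self hξ1]
            · have h' : ¬ (m : G) = 1 := fun h'' => h (Subtype.ext h'')
              rw [if_neg h, if_neg h', zero_mul]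
          have e2 : (if IsConj (gx χ) (m : G) then (1 : ℂ) else 0) *
              ((ξ : (Subgroup.centralizer (Q : Set G)) → ℂ) m / (ξ : (Subgroup.centralizer (Q : Set G)) → ℂ) 1) =
              Set.indicator {h : (Subgroup.centralizer (Q : Set G)) | IsConj (gx χ) (h : G)}
                (fun h => (ξ : (Subgroup.centralizer (Q : Set G)) → ℂ) h / (ξ : (Subgroup.centralizer (Q : Set G)) → ℂ) 1) m := by
            by_cases h : IsConj (gx χ) (m : G)
            · rw [if_pos h, one_mul]
              exact (Set.indicator_of_mem (show m ∈ {h : (Subgroup.centralizer (Q : Set G)) | IsConj (gx χ) (h : G)} from h)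
                (fun h => (ξ : (Subgroup.centralizer (Q : Set G)) → ℂ) h / (ξ : (Subgroup.centralizer (Q : Set G)) → ℂ) 1)).symm
            · rw [if_neg h, zero_mul]
              exact (Set.indicator_of_notMem
                (show m ∉ {h : (Subgroup.centralizer (Q : Set G)) | IsConj (gx χ) (h : G)} from h)
                (fun h => (ξ : (Subgroup.centralizer (Q : Set G)) → ℂ) h / (ξ : (Subgroup.centralizer (Q : Set G)) → ℂ) 1)).symm
          rw [← e1, ← e2]
          ring
        rw [Finset.sum_congr rfl (fun m _ => e m), Finset.sum_sub_distrib, ← Finset.mul_sum,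
          Finset.sum_ite_eq', if_pos (Finset.mem_univ _), mul_one]
      obtain ⟨c, hc, hcR, hcT, hcL⟩ := genC_aux p M hM Q hQ ξ y
        (fun χ η => Cfsg.centralChar (η : G → ℂ) (gx χ) - w χ) hycl hyR hya Finset.univ
      have hc'0 : ∀ g : G, ∑ x : G, a x * c (x⁻¹ * g) = 0 := by
        intro g
        have hT : ∀ η : Cfsg.IrrCharacter G,
            ∑ g : G, (∑ x : G, a x * c (x⁻¹ * g)) * (η : G → ℂ) g =
            (fun _ : Cfsg.IrrCharacter G => (0 : ℂ)) η * (η : G → ℂ) 1 := by
          intro η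
          have hcT' : ∑ g : G, c g * (η : G → ℂ) g =
              (∏ χ : Cfsg.IrrCharacter G, (Cfsg.centralChar (η : G → ℂ) (gx χ) - w χ)) *
                (η : G → ℂ) 1 := hcT η
          rw [conv_transform_lead a c hacl (η : G → ℂ) η.2, haT η, hcT']
          by_cases hη : η ∈ Cfsg.principalBlock M G
          · have hz0 : (∏ χ : Cfsg.IrrCharacter G,
                (Cfsg.centralChar (η : G → ℂ) (gx χ) - w χ)) = 0 := by
              rw [Finset.prod_eq_zero_iff]
              refine ⟨η, Finset.mem_univ η, ?_⟩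
              rw [hw, if_pos hη, sub_self]
            rw [hz0]
            simp
          · rw [if_neg hη]
            simp
        have h : ∑ x : G, a x * c (x⁻¹ * g) = (Nat.card G : ℂ)⁻¹ *
            ∑ φ : Cfsg.IrrCharacter G, (fun _ : Cfsg.IrrCharacter G => (0 : ℂ)) φ *
              ((φ : G → ℂ) 1 * conj ((φ : G → ℂ) g)) :=
          specT_unique_lead (fun g => ∑ x : G, a x * c (x⁻¹ * g))
            (conv_classFun_lead a c hacl hc) (fun _ => 0) hT g
        rw [h]
        simp
      have hLc' : ∑ m : (Subgroup.centralizer (Q : Set G)), (∑ x : G, a x * c (x⁻¹ * (m : G))) *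
          ((ξ : (Subgroup.centralizer (Q : Set G)) → ℂ) m / (ξ : (Subgroup.centralizer (Q : Set G)) → ℂ) 1) = 0 :=
        Finset.sum_eq_zero (fun m _ => by rw [hc'0, zero_mul])
      have hm := multC_aux p M hM Q hQ ξ a c hacl hc haR hcR
      rw [hLc', zero_sub] at hm
      have hΛcR : Cfsg.MemLocalRing M
          (∑ m : (Subgroup.centralizer (Q : Set G)), c (m : G) * ((ξ : (Subgroup.centralizer (Q : Set G)) → ℂ) m / (ξ : (Subgroup.centralizer (Q : Set G)) → ℂ) 1)) :=
        S0919.om_R_aux hMprime ξ (fun m : (Subgroup.centralizer (Q : Set G)) => c (m : G)) (fun x y => hc (x : G) (y : G))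
          (fun m => hcR _)
      have h5 := memLocalIdeal_mul_ring_lead hMprime hΛcR hLa
      have h6 := memLocalIdeal_add_lead hMprime hm h5
      have h7 : Cfsg.MemLocalIdeal M
          (∑ m : (Subgroup.centralizer (Q : Set G)), c (m : G) * ((ξ : (Subgroup.centralizer (Q : Set G)) → ℂ) m / (ξ : (Subgroup.centralizer (Q : Set G)) → ℂ) 1)) := by
        have h8 := memLocalIdeal_neg_lead h6
        convert h8 using 1
        ring
      have h9 := memLocalIdeal_sub_lead hMprime h7 hcL
      rw [sub_sub_cancel] at h9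
      obtain ⟨χ, -, hχ⟩ := S0919.prime_aux hMprime Finset.univ
        (fun χ : Cfsg.IrrCharacter G =>
          ∑ m : (Subgroup.centralizer (Q : Set G)), y χ (m : G) * ((ξ : (Subgroup.centralizer (Q : Set G)) → ℂ) m / (ξ : (Subgroup.centralizer (Q : Set G)) → ℂ) 1))
        (fun χ _ => S0919.om_R_aux hMprime ξ (fun m : (Subgroup.centralizer (Q : Set G)) => y χ (m : G))
          (fun x z => hycl χ (x : G) (z : G)) (fun m => hyR χ _)) h9
      have hχ' : Cfsg.MemLocalIdeal M
          (∑ m : (Subgroup.centralizer (Q : Set G)), y χ (m : G) * ((ξ : (Subgroup.centralizer (Q : Set G)) → ℂ) m / (ξ : (Subgroup.centralizer (Q : Set G)) → ℂ) 1)) := hχ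
      rw [hLam χ] at hχ'
      by_cases hχB : χ ∈ Cfsg.principalBlock M G
      · rw [hw, if_pos hχB] at hχ'
        exact (hgx χ).1 hχB hχ'
      · rw [hw, if_neg hχB, sub_zero, (hgx χ).2 hχB] at hχ'
        have hone : Cfsg.inducedCentralChar (Subgroup.centralizer (Q : Set G)) (ξ : (Subgroup.centralizer (Q : Set G)) → ℂ) 1 = 1 := by
          rw [inducedCentralChar_sum_lead]
          have e : ∀ m : (Subgroup.centralizer (Q : Set G)), Set.indicator {h : (Subgroup.centralizer (Q : Set G)) | IsConj (1 : G) (h : G)}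
              (fun h => (ξ : (Subgroup.centralizer (Q : Set G)) → ℂ) h / (ξ : (Subgroup.centralizer (Q : Set G)) → ℂ) 1) m = if m = 1 then (1 : ℂ) else 0 := by
            intro m
            by_cases h : m = 1
            · rw [if_pos h, h, Set.indicator_of_mem
                (show (1 : (Subgroup.centralizer (Q : Set G))) ∈ {h : (Subgroup.centralizer (Q : Set G)) | IsConj (1 : G) (h : G)} from IsConj.refl _),
                div_self hξ1]
            · rw [if_neg h, Set.indicator_of_notMem]
              intro hmem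
              apply h
              have h' : (m : G) = 1 := isConj_one_right.1 hmem
              exact Subtype.ext h'
          rw [Finset.sum_congr rfl (fun m _ => e m), Finset.sum_ite_eq',
            if_pos (Finset.mem_univ _)]
        rw [hone] at hχ'
        have h1 : ((1 : Cfsg.AlgInt) : ℂ) = 1 := rfl
        rw [← h1] at hχ'
        exact hMtop ((Ideal.eq_top_iff_one M).mpr (mem_of_memLocalIdeal_lead hMprime 1 hχ'))
    obtain ⟨χ, hχB, hχ⟩ := key
    have hχB' : Cfsg.SameBlock M (fun _ : G => (1 : ℂ)) (χ : G → ℂ) := hχB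
    have hind : Cfsg.IsInducedBlock M (Subgroup.centralizer (Q : Set G)) (Cfsg.blockOf M (ξ : (Subgroup.centralizer (Q : Set G)) → ℂ))
        (Cfsg.principalBlock M G) := by
      refine ⟨⟨ξ, rfl⟩, hPBlock, ?_⟩
      intro ξ' hξ' χ' hχ' g
      have h1 := induced_sameBlock_lead (Subgroup.centralizer (Q : Set G)) hMprime ξ' ξ (sameBlock_symm_lead hξ') g
      have h2 := hχ g
      have hχ'' : Cfsg.SameBlock M (fun _ : G => (1 : ℂ)) (χ' : G → ℂ) := hχ'
      have h3 : Cfsg.MemLocalIdeal M
          (Cfsg.centralChar (χ : G → ℂ) g - Cfsg.centralChar (χ' : G → ℂ) g) :=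
        sameBlock_trans_lead hMprime (sameBlock_symm_lead hχB') hχ'' g
      have h4 := memLocalIdeal_add_lead hMprime (memLocalIdeal_add_lead hMprime h1 h2) h3
      convert h4 using 1
      ring
    exact (Cfsg.Agent.S0936.result p M hM (Subgroup.centralizer (Q : Set G)) (Cfsg.blockOf M (ξ : (Subgroup.centralizer (Q : Set G)) → ℂ)) ⟨_, hind⟩).1 hind


end Cfsg.Agent.S4663
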