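import Cfsg.Statements.S0963
import Mathlib
import Cfsg.Agent.Lib.Lead.SylowAux2
import Cfsg.Agent.Lib.Lead.CharCliffordCorr
import Cfsg.Agent.Lib.Lead.CharPerm
import Cfsg.Agent.Lib.Lead.CharCount
import Cfsg.Agent.Lib.Lead.CharNormal
import Cfsg.Agent.Lib.Lead.CharOrbit

set_option autoImplicit false
open Cfsg Cfsg.Agent.Lib.Lead

namespace Cfsg.Agent.S0963

open scoped Pointwise commutatorElement

/-- the induced central character from a normal subgroup in terms of the induced function -/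
theorem inducedCentralChar_normal_lead {G : Type*} [Group G] [Fintype G] (N : Subgroup G)
    [hN : N.Normal] (θ : N → ℂ) (hθ1 : θ 1 ≠ 0) (n : N) :
    Cfsg.inducedCentralChar N θ (n : G) =
      ((Subgroup.centralizer ({(n : G)} : Set G)).index : ℂ) * (Nat.card N : ℂ) *
        Cfsg.indFun N θ (n : G) / ((Nat.card G : ℂ) * θ 1) := by
  classical
  have hind : Cfsg.inducedCentralChar N θ (n : G) =
      ∑ m : N, if IsConj (n : G) (m : G) then θ m / θ 1 else 0 := by
    unfold Cfsg.inducedCentralChar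
    rw [finsum_mem_def, finsum_eq_sum_of_fintype]
    apply Finset.sum_congr rfl
    intro m _
    by_cases h : IsConj (n : G) (m : G)
    · rw [if_pos h]
      exact Set.indicator_of_mem (show m ∈ {h : N | IsConj (n : G) (h : G)} from h) _
    · rw [if_neg h]
      exact Set.indicator_of_notMem (show m ∉ {h : N | IsConj (n : G) (h : G)} from h) _
  have hsum : ∑ g : G, θ (conjHom N g n) = ∑ m : N, conjCount (n : G) (m : G) * θ m := by
    have h1 : ∀ g : G, θ (conjHom N g n) =
        ∑ m : N, if g * (n : G) * g⁻¹ = (m : G) then θ m else 0 := by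
      intro g
      rw [Finset.sum_eq_single (conjHom N g n)]
      · rw [if_pos (show g * (n : G) * g⁻¹ = ((conjHom N g n : N) : G) from rfl)]
      · intro m _ hm
        rw [if_neg (fun h => hm (Subtype.ext h.symm))]
      · intro h
        exact absurd (Finset.mem_univ _) h
    rw [Finset.sum_congr rfl (fun g _ => h1 g), Finset.sum_comm]
    apply Finset.sum_congr rfl
    intro m _
    show _ = (Nat.card {y : G // y * (n : G) * y⁻¹ = (m : G)} : ℂ) * θ m
    rw [Nat.card_eq_fintype_card, Fintype.card_subtype, Finset.card_filter, Nat.cast_sum,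
      Finset.sum_mul]
    apply Finset.sum_congr rfl
    intro y _
    split_ifs <;> simp
  have hcard : (Nat.card (Subgroup.centralizer ({(n : G)} : Set G)) : ℂ) *
      ((Subgroup.centralizer ({(n : G)} : Set G)).index : ℂ) = (Nat.card G : ℂ) := by
    exact_mod_cast Subgroup.card_mul_index (Subgroup.centralizer ({(n : G)} : Set G))
  have hN0 : (Nat.card N : ℂ) ≠ 0 := by exact_mod_cast Nat.card_pos.ne'
  have hG0 : (Nat.card G : ℂ) ≠ 0 := by exact_mod_cast Nat.card_pos.ne'
  have hC0 : (Nat.card (Subgroup.centralizer ({(n : G)} : Set G)) : ℂ) ≠ 0 := by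
    exact_mod_cast Nat.card_pos.ne'
  have hidx0 : ((Subgroup.centralizer ({(n : G)} : Set G)).index : ℂ) ≠ 0 := by
    exact_mod_cast Subgroup.index_ne_zero_of_finite
  rw [hind, indFun_normal_apply, hsum]
  have h2 : ((Subgroup.centralizer ({(n : G)} : Set G)).index : ℂ) * (Nat.card N : ℂ) *
      ((Nat.card N : ℂ)⁻¹ * ∑ m : N, conjCount (n : G) (m : G) * θ m) /
        ((Nat.card G : ℂ) * θ 1) =
      ∑ m : N, ((Subgroup.centralizer ({(n : G)} : Set G)).index : ℂ) *
        (conjCount (n : G) (m : G) * θ m) / ((Nat.card G : ℂ) * θ 1) := by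
    rw [mul_assoc, mul_inv_cancel_left₀ hN0, Finset.mul_sum, Finset.sum_div]
  rw [h2]
  apply Finset.sum_congr rfl
  intro m _
  by_cases h : IsConj (n : G) (m : G)
  · rw [if_pos h, conjCount_apply_of_isConj' h.symm, ← hcard,
      div_eq_div_iff hθ1 (mul_ne_zero (mul_ne_zero hC0 hidx0) hθ1)]
    ring
  · rw [if_neg h, conjCount_apply_of_not_isConj (fun h' => h h'.symm)]
    simp

/-- Let N be a normal subgroup of the finite group G, χ an irreducible character of G and θ an irreducible character of N. Then θ occurs in the restriction of χ to N if and only if, for every n ∈ N, the central character of χ at n (class size in G times χ n over χ 1) equals the sum of θ m / θ 1 over the elements m of N conjugate in G to n. -/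
theorem result {G : Type*} [Group G] [Fintype G] (N : Subgroup G) [N.Normal] [Fintype N] (χ : Cfsg.IrrCharacter G) (θ : Cfsg.IrrCharacter N) : Cfsg.classInner (fun n : N => (χ : G → ℂ) n) (θ : N → ℂ) ≠ 0 ↔ ∀ n : N, Cfsg.centralChar (χ : G → ℂ) (n : G) = Cfsg.inducedCentralChar N (θ : N → ℂ) (n : G) := by
  classical
  haveI : Fintype (Cfsg.IrrCharacter N) := Fintype.ofFinite _
  have hNn : N.Normal := inferInstance
  obtain ⟨d, hd0, hd⟩ := irr_one χ.2
  have hχ1 : (χ : G → ℂ) 1 ≠ 0 := by
    rw [hd]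
    exact_mod_cast hd0
  have hθ1 : ∀ θ' : Cfsg.IrrCharacter N, (θ' : N → ℂ) 1 ≠ 0 := by
    intro θ'
    obtain ⟨k, hk0, hk⟩ := irr_one θ'.2
    rw [hk]
    exact_mod_cast hk0
  have hN0 : (Nat.card N : ℂ) ≠ 0 := by exact_mod_cast Nat.card_pos.ne'
  have hG0 : (Nat.card G : ℂ) ≠ 0 := by exact_mod_cast Nat.card_pos.ne'
  have hχcl := isClassFunction_of_irr χ.2
  -- the forward direction, for any constituent
  have hfwd : ∀ θ' : Cfsg.IrrCharacter N,
      Cfsg.classInner (fun n : N => (χ : G → ℂ) n) (θ' : N → ℂ) ≠ 0 →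
      ∀ n : N, (χ : G → ℂ) (n : G) * ((Nat.card G : ℂ) * (θ' : N → ℂ) 1) =
        (Nat.card N : ℂ) * Cfsg.indFun N (θ' : N → ℂ) (n : G) * (χ : G → ℂ) 1 := by
    intro θ' hcon n
    have key : ∃ (c s : ℂ) (F : N → ℂ), (fun n : N => (χ : G → ℂ) n) = c • F ∧
        ∑ g : G, (θ' : N → ℂ) ∘ conjHom N g = s • F :=
      ⟨_, _, _, clifford_char N hNn (χ : G → ℂ) χ.2 (θ' : N → ℂ) θ'.2 hcon,
        sum_conj_eq_stab_smul' N (θ' : N → ℂ)⟩
    obtain ⟨c, s, F, h1, h2⟩ := key
    have h1n : (χ : G → ℂ) (n : G) = c * F n := congrFun h1 n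
    have h1o : (χ : G → ℂ) 1 = c * F 1 := congrFun h1 1
    have h2n : ∑ g : G, (θ' : N → ℂ) (conjHom N g n) = s * F n := by
      have h := congrFun h2 n
      rw [Finset.sum_apply] at h
      exact h
    have h2o : ∑ g : G, (θ' : N → ℂ) (conjHom N g 1) = s * F 1 := by
      have h := congrFun h2 1
      rw [Finset.sum_apply] at h
      exact h
    have hS1 : ∑ g : G, (θ' : N → ℂ) (conjHom N g 1) = (Nat.card G : ℂ) * (θ' : N → ℂ) 1 := by
      rw [Finset.sum_congr rfl (fun g _ => by rw [map_one]), Finset.sum_const,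
        Finset.card_univ, nsmul_eq_mul, Nat.card_eq_fintype_card]
    have hIn : (Nat.card N : ℂ) * Cfsg.indFun N (θ' : N → ℂ) (n : G) =
        ∑ g : G, (θ' : N → ℂ) (conjHom N g n) := by
      rw [indFun_normal_apply, ← mul_assoc, mul_inv_cancel₀ hN0, one_mul]
    rw [hIn, ← hS1, h2n, h2o, h1n, h1o]
    ring
  constructor
  · intro hcon n
    have h := hfwd θ hcon n
    rw [inducedCentralChar_normal_lead N (θ : N → ℂ) (hθ1 θ) n]
    unfold Cfsg.centralChar
    rw [div_eq_div_iff hχ1 (mul_ne_zero hG0 (hθ1 θ))]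
    linear_combination ((Subgroup.centralizer ({(n : G)} : Set G)).index : ℂ) * h
  · intro hall
    by_contra h0
    have h0' : Cfsg.classInner (fun n : N => (χ : G → ℂ) n) (θ : N → ℂ) = 0 := h0
    have hχNch : Cfsg.IsCharacter N (fun n : N => (χ : G → ℂ) n) :=
      isCharacter_restrict N (isCharacter_of_isIrrCharacter χ.2)
    obtain ⟨mm, hmm, hmm'⟩ := isCharacter_expansion hχNch
    have hex : ∃ θ₁ : Cfsg.IrrCharacter N, mm θ₁ ≠ 0 := by
      by_contra hcon
      push_neg at hcon
      have h1 : (fun n : N => (χ : G → ℂ) n) = 0 := by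
        rw [hmm]
        apply Finset.sum_eq_zero
        intro ψ _
        rw [hcon ψ, Nat.cast_zero, zero_smul]
      have h2 := congrFun h1 1
      exact hχ1 h2
    obtain ⟨θ₁, hθ₁⟩ := hex
    have hcon1 : Cfsg.classInner (fun n : N => (χ : G → ℂ) n) (θ₁ : N → ℂ) ≠ 0 := by
      rw [hmm' θ₁]
      exact_mod_cast hθ₁
    have hprop : ∀ x : G, Cfsg.indFun N (θ : N → ℂ) x * (θ₁ : N → ℂ) 1 =
        Cfsg.indFun N (θ₁ : N → ℂ) x * (θ : N → ℂ) 1 := by
      intro x
      by_cases hx : x ∈ N
      · have hidx0 : ((Subgroup.centralizer ({x} : Set G)).index : ℂ) ≠ 0 := by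
          exact_mod_cast Subgroup.index_ne_zero_of_finite
        have hA : (χ : G → ℂ) x * ((Nat.card G : ℂ) * (θ : N → ℂ) 1) =
            (Nat.card N : ℂ) * Cfsg.indFun N (θ : N → ℂ) x * (χ : G → ℂ) 1 := by
          have h := hall ⟨x, hx⟩
          rw [inducedCentralChar_normal_lead N (θ : N → ℂ) (hθ1 θ) ⟨x, hx⟩] at h
          unfold Cfsg.centralChar at h
          rw [div_eq_div_iff hχ1 (mul_ne_zero hG0 (hθ1 θ))] at h
          apply mul_left_cancel₀ hidx0
          linear_combination h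
        have hB := hfwd θ₁ hcon1 ⟨x, hx⟩
        apply mul_left_cancel₀ (mul_ne_zero hN0 hχ1)
        linear_combination (-((θ₁ : N → ℂ) 1)) * hA + ((θ : N → ℂ) 1) * hB
      · rw [indFun_normal_not_mem N _ x hx, indFun_normal_not_mem N _ x hx, zero_mul, zero_mul]
    have heq : Cfsg.indFun N (θ : N → ℂ) =
        ((θ : N → ℂ) 1 / (θ₁ : N → ℂ) 1) • Cfsg.indFun N (θ₁ : N → ℂ) := by
      funext x
      rw [Pi.smul_apply, smul_eq_mul, div_mul_eq_mul_div, eq_div_iff (hθ1 θ₁)]
      linear_combination hprop x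
    have hF1 := frobenius_reciprocity N (θ : N → ℂ) (χ : G → ℂ) hχcl
    have hF2 := frobenius_reciprocity N (θ₁ : N → ℂ) (χ : G → ℂ) hχcl
    rw [heq, classInner_smul_left, hF2] at hF1
    have h3 : Cfsg.classInner (θ : N → ℂ) (fun n : N => (χ : G → ℂ) n) = 0 := by
      rw [← classInner_conj_symm, h0', map_zero]
    have h4 : Cfsg.classInner (θ₁ : N → ℂ) (fun n : N => (χ : G → ℂ) n) ≠ 0 := by
      intro h
      apply hcon1
      rw [← classInner_conj_symm, h, map_zero]
    rw [h3] at hF1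
    rcases mul_eq_zero.mp hF1 with h5 | h5
    · exact (div_ne_zero (hθ1 θ) (hθ1 θ₁)) h5
    · exact h4 h5

end Cfsg.Agent.S0963
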