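import Cfsg.Statements.S0965
import Mathlib
import Cfsg.Agent.Lib.Lead.SylowAux2
import Cfsg.Agent.Lib.Lead.BlockCover2
import Cfsg.Agent.S0963
import Cfsg.Agent.Lib.Lead.CharCenter
import Cfsg.Agent.Lib.Lead.CharClifford
import Cfsg.Agent.Lib.Lead.CharInd3

set_option autoImplicit false
open Cfsg Cfsg.Agent.Lib.Lead

namespace Cfsg.Agent.S0965

open scoped Pointwise commutatorElement

/-- Let N be a normal subgroup of the finite group G and let B, b be blocks of G and of N relative to a maximal ideal M of the algebraic integers containing the prime p. Then some χ ∈ B has a constituent in b on restriction to N if and only if, for all χ ∈ B, θ ∈ b and n ∈ N, the central character of χ at n is congruent modulo the local ideal at M to the sum of θ m / θ 1 over the elements m ∈ N conjugate in G to n. -/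
theorem result {G : Type*} [Group G] [Fintype G] (p : ℕ) [Fact p.Prime] (M : Ideal Cfsg.AlgInt) (hM : Cfsg.IsPModular p M) (N : Subgroup G) [N.Normal] [Fintype N] (B : Set (Cfsg.IrrCharacter G)) (hB : Cfsg.IsPBlock M B) (b : Set (Cfsg.IrrCharacter N)) (hb : Cfsg.IsPBlock M b) : (∃ χ ∈ B, ∃ θ ∈ b, Cfsg.classInner (fun n : N => (χ : G → ℂ) n) (θ : N → ℂ) ≠ 0) ↔ ∀ χ ∈ B, ∀ θ ∈ b, ∀ n : N, Cfsg.MemLocalIdeal M (Cfsg.centralChar (χ : G → ℂ) (n : G) - Cfsg.inducedCentralChar N (θ : N → ℂ) (n : G)) := by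
  classical
  haveI : Fintype (Cfsg.IrrCharacter N) := Fintype.ofFinite _
  haveI : Fintype (ConjClasses G) := Fintype.ofFinite _
  obtain ⟨hp, hMmax, hpM⟩ := hM
  have hMprime : M.IsPrime := hMmax.isPrime
  have hMtop : M ≠ ⊤ := hMprime.ne_top
  obtain ⟨χ₀, rfl⟩ := hB
  obtain ⟨θ₀, rfl⟩ := hb
  constructor
  · rintro ⟨χ₁, hχ₁, θ₁, hθ₁, hcon⟩ χ hχ θ hθ n
    have h963 := (Cfsg.Agent.S0963.result N χ₁ θ₁).mp hcon n
    have hχ' : Cfsg.SameBlock M (χ₀ : G → ℂ) (χ : G → ℂ) := hχ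
    have hχ₁' : Cfsg.SameBlock M (χ₀ : G → ℂ) (χ₁ : G → ℂ) := hχ₁
    have hθ' : Cfsg.SameBlock M (θ₀ : N → ℂ) (θ : N → ℂ) := hθ
    have hθ₁' : Cfsg.SameBlock M (θ₀ : N → ℂ) (θ₁ : N → ℂ) := hθ₁
    have hSB1 : Cfsg.SameBlock M (χ : G → ℂ) (χ₁ : G → ℂ) :=
      sameBlock_trans_lead hMprime (sameBlock_symm_lead hχ') hχ₁'
    have hSB2 : Cfsg.SameBlock M (θ₁ : N → ℂ) (θ : N → ℂ) :=
      sameBlock_trans_lead hMprime (sameBlock_symm_lead hθ₁') hθ'
    have h1 := hSB1 (n : G)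
    have h2 := induced_sameBlock_lead N hMprime θ₁ θ hSB2 (n : G)
    have h3 := memLocalIdeal_add_lead hMprime h1 h2
    have e : Cfsg.centralChar (χ : G → ℂ) (n : G) -
        Cfsg.inducedCentralChar N (θ : N → ℂ) (n : G) =
        (Cfsg.centralChar (χ : G → ℂ) (n : G) - Cfsg.centralChar (χ₁ : G → ℂ) (n : G)) +
        (Cfsg.inducedCentralChar N (θ₁ : N → ℂ) (n : G) -
          Cfsg.inducedCentralChar N (θ : N → ℂ) (n : G)) := by
      rw [h963]
      ring
    rw [e]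
    exact h3
  · intro hall
    have hχ₀B : χ₀ ∈ Cfsg.blockOf M (χ₀ : G → ℂ) := sameBlock_refl_lead hMtop (χ₀ : G → ℂ)
    have hθ₀b : θ₀ ∈ Cfsg.blockOf M (θ₀ : N → ℂ) := sameBlock_refl_lead hMtop (θ₀ : N → ℂ)
    obtain ⟨d, hd0, hd⟩ := irr_one χ₀.2
    have hχ1 : (χ₀ : G → ℂ) 1 ≠ 0 := by
      rw [hd]
      exact_mod_cast hd0
    have hres1 : (fun n : N => (χ₀ : G → ℂ) n) 1 ≠ 0 := hχ1
    obtain ⟨ψf, hψf, hψcon⟩ := exists_constituent
      (isCharacter_restrict N (isCharacter_of_isIrrCharacter χ₀.2)) hres1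
    obtain ⟨S, hSmem, hSconj, hfR, hfinv⟩ := coverSet_lead p hp M hMprime hpM N θ₀
    have hθ₀S : θ₀ ∈ S := (hSmem θ₀).mpr ⟨1, θ₀, hθ₀b, (conjIrr_one_lead N θ₀).symm⟩
    have hEcl := extendByZero_classFun_lead N (Cfsg.blockCoeff S) hfinv
    have hER := extendByZero_memLocalRing_lead N hMtop (Cfsg.blockCoeff S) hfR
    have hψ963 : ∀ n : N, Cfsg.centralChar (χ₀ : G → ℂ) (n : G) =
        Cfsg.inducedCentralChar N ψf (n : G) :=
      (Cfsg.Agent.S0963.result N χ₀ ⟨ψf, hψf⟩).mp hψcon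
    have hsumψ := sum_class_induced_lead N (Cfsg.extendByZero N (Cfsg.blockCoeff S)) hEcl ψf
    have hsumθ := sum_class_induced_lead N (Cfsg.extendByZero N (Cfsg.blockCoeff S)) hEcl
      (θ₀ : N → ℂ)
    have hval : ∀ φ : Cfsg.IrrCharacter N,
        ∑ m : N, Cfsg.extendByZero N (Cfsg.blockCoeff S) (m : G) *
          ((φ : N → ℂ) m / (φ : N → ℂ) 1) = if φ ∈ S then 1 else 0 := by
      intro φ
      obtain ⟨dφ, hdφ0, hdφ⟩ := irr_one φ.2
      have hφ1 : (φ : N → ℂ) 1 ≠ 0 := by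
        rw [hdφ]
        exact_mod_cast hdφ0
      have e : ∀ m : N, Cfsg.extendByZero N (Cfsg.blockCoeff S) (m : G) *
          ((φ : N → ℂ) m / (φ : N → ℂ) 1) =
          Cfsg.blockCoeff S m * (φ : N → ℂ) m / (φ : N → ℂ) 1 := by
        intro m
        have h0 : Cfsg.extendByZero N (Cfsg.blockCoeff S) (m : G) = Cfsg.blockCoeff S m :=
          extendByZero_mem N _ m.2
        rw [h0, mul_div_assoc]
      rw [Finset.sum_congr rfl (fun m _ => e m), ← Finset.sum_div, blockCoeff_sum_lead S φ]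
      by_cases hφ : φ ∈ S
      · rw [if_pos hφ, if_pos hφ, div_self hφ1]
      · rw [if_neg hφ, if_neg hφ, zero_div]
    have hdiff : Cfsg.MemLocalIdeal M
        (∑ c : ConjClasses G, Cfsg.extendByZero N (Cfsg.blockCoeff S) (Quotient.out c) *
            Cfsg.inducedCentralChar N ψf (Quotient.out c) -
          ∑ c : ConjClasses G, Cfsg.extendByZero N (Cfsg.blockCoeff S) (Quotient.out c) *
            Cfsg.inducedCentralChar N (θ₀ : N → ℂ) (Quotient.out c)) := by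
      rw [← Finset.sum_sub_distrib]
      apply memLocalIdeal_sum_lead hMprime
      intro c _
      beta_reduce
      by_cases hc : Quotient.out c ∈ N
      · have h1 := hall χ₀ hχ₀B θ₀ hθ₀b ⟨Quotient.out c, hc⟩
        rw [hψ963 ⟨Quotient.out c, hc⟩] at h1
        have h2 := memLocalIdeal_mul_ring_lead hMprime (hER (Quotient.out c)) h1
        rw [mul_sub] at h2
        exact h2
      · rw [extendByZero_not_mem N _ hc, zero_mul, zero_mul, sub_zero]
        exact memLocalIdeal_zero_lead hMtop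
    rw [hsumψ, hsumθ, hval ⟨ψf, hψf⟩, hval θ₀, if_pos hθ₀S] at hdiff
    have hψS : (⟨ψf, hψf⟩ : Cfsg.IrrCharacter N) ∈ S := by
      by_contra hψS
      rw [if_neg hψS, zero_sub] at hdiff
      have h1 := memLocalIdeal_neg_lead hdiff
      rw [neg_neg] at h1
      exact hMtop ((Ideal.eq_top_iff_one M).mpr (mem_of_memLocalIdeal_lead hMprime 1 h1))
    obtain ⟨g, θ', hθ', e⟩ := (hSmem _).mp hψS
    refine ⟨χ₀, hχ₀B, θ', hθ', ?_⟩
    have e1 : ψf = (θ' : N → ℂ) ∘ conjHom N g := congrArg Subtype.val e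
    rw [← classInner_restrict_conjHom N (χ₀ : G → ℂ) (isClassFunction_of_irr χ₀.2)
      (θ' : N → ℂ) g, ← e1]
    exact hψcon

end Cfsg.Agent.S0965
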