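import Cfsg.Statements.S3979
import Mathlib

set_option autoImplicit false
open Cfsg

namespace Cfsg.Agent.S3979

/-- A finite cyclic group has trivial Schur multiplier: every finite stem extension of it is an isomorphism, said through `HasCyclicSchurMultiplier G 1`. -/
theorem result {G : Type*} [Group G] [Finite G] [IsCyclic G] : Cfsg.HasCyclicSchurMultiplier G 1 := by
  constructor
  · refine ⟨G, inferInstance, inferInstance, MonoidHom.id G, ⟨Function.surjective_id, ?_, ?_⟩, ?_⟩
    · rw [MonoidHom.ker_id]; exact bot_le
    · rw [MonoidHom.ker_id]; exact bot_le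
    · have h1 : Subsingleton ↥(MonoidHom.id G).ker := by
        rw [MonoidHom.ker_id]; infer_instance
      have h2 : Subsingleton (Multiplicative (ZMod 1)) := by
        change Subsingleton (Fin 1); infer_instance
      exact ⟨{ toFun := fun _ => 1
               invFun := fun _ => 1
               left_inv := fun x => Subsingleton.elim _ _
               right_inv := fun x => Subsingleton.elim _ _
               map_mul' := fun x y => Subsingleton.elim _ _ }⟩
  · intro Γ _ _ σ hσ
    obtain ⟨hsurj, hcen, hcomm⟩ := hσ
    have hab : IsMulCommutative Γ := σ.isMulCommutative_of_isCyclic_of_ker_le_center hcen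
    have hc : commutator Γ = ⊥ := (commutator_eq_bot_iff Γ).mpr hab
    have hker : σ.ker = ⊥ := by
      rw [eq_bot_iff, ← hc]; exact hcomm
    refine ⟨1, ?_⟩
    intro x
    refine ⟨1, ?_⟩
    have hx : (x : Γ) ∈ (⊥ : Subgroup Γ) := hker ▸ x.2
    rw [Subgroup.mem_bot] at hx
    apply Subtype.ext
    simp [hx]

end Cfsg.Agent.S3979
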