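import Cfsg.Statements.S3772
import Mathlib
import Cfsg.Agent.Lib.Lead.Class2
import Cfsg.Agent.Lib.Helper4.Frattini
import Cfsg.Agent.Lib.Helper7.ElemAbCount
-- import your own Cfsg.Agent.* helpers here

set_option autoImplicit false
open Cfsg

namespace Cfsg.Agent.S3772

open scoped BigOperators

noncomputable def sg {G : Type*} [Group G] (w : G) : ℤ := by
  classical exact if w = 1 then 1 else -1

theorem sg_one {G : Type*} [Group G] : sg (1 : G) = 1 := by simp [sg]

theorem sg_ne {G : Type*} [Group G] {w : G} (h : w ≠ 1) : sg w = -1 := by simp [sg, h]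

theorem sg_sq {G : Type*} [Group G] (w : G) : sg w * sg w = 1 := by
  classical
  by_cases h : w = 1 <;> simp [sg, h]

theorem sg_mul {G : Type*} [Group G] {z : G} (hz1 : z ≠ 1) (hzz : z * z = 1) {w w' : G}
    (hw : w = 1 ∨ w = z) (hw' : w' = 1 ∨ w' = z) : sg (w * w') = sg w * sg w' := by
  classical
  rcases hw with rfl | rfl <;> rcases hw' with rfl | rfl <;> simp [sg, hz1, hzz]

theorem comm_hom {G : Type*} [Group G] {g x u : G}
    (hcen : ∀ a : G, a * ((g * u)⁻¹ * (u * g)) = ((g * u)⁻¹ * (u * g)) * a) :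
    ((g * x) * u)⁻¹ * (u * (g * x)) = ((g * u)⁻¹ * (u * g)) * ((x * u)⁻¹ * (u * x)) := by
  calc ((g * x) * u)⁻¹ * (u * (g * x))
      = (u⁻¹ * x⁻¹ * u) * (((g * u)⁻¹ * (u * g)) * x) := by group
    _ = (u⁻¹ * x⁻¹ * u) * (x * ((g * u)⁻¹ * (u * g))) := by rw [hcen x]
    _ = ((x * u)⁻¹ * (u * x)) * ((g * u)⁻¹ * (u * g)) := by group
    _ = ((g * u)⁻¹ * (u * g)) * ((x * u)⁻¹ * (u * x)) := hcen _

theorem setup {G : Type*} [Group G] [Finite G] (hΦ : Nat.card (frattini G) = 2) :
    ∃ z : G, z ≠ 1 ∧ z * z = 1 ∧ (∀ g : G, g * z = z * g) ∧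
      (∀ w ∈ frattini G, w = 1 ∨ w = z) ∧ z ∈ frattini G := by
  obtain ⟨⟨z, hzm⟩, hz1, hzu⟩ := (Nat.card_eq_two_iff' (1 : frattini G)).mp hΦ
  have hz1' : z ≠ 1 := fun h => hz1 (Subtype.ext h)
  have hall : ∀ w ∈ frattini G, w = 1 ∨ w = z := by
    intro w hw
    by_cases h : w = 1
    · exact Or.inl h
    · right
      have := hzu ⟨w, hw⟩ (fun h' => h (congrArg Subtype.val h'))
      exact congrArg Subtype.val this
  refine ⟨z, hz1', ?_, ?_, hall, hzm⟩
  · rcases hall (z * z) (mul_mem hzm hzm) with h | h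
    · exact h
    · exfalso
      apply hz1'
      have : z * z = z * 1 := by rw [h, mul_one]
      exact mul_left_cancel this
  · intro g
    have hn : (frattini G).Normal := inferInstance
    rcases hall (g * z * g⁻¹) (hn.conj_mem z hzm g) with h | h
    · exfalso
      apply hz1'
      have : z = g⁻¹ * (g * z * g⁻¹) * g := by group
      rw [this, h]; group
    · calc g * z = g * z * g⁻¹ * g := by group
        _ = z * g := by rw [h]

theorem main_count {G : Type*} [Group G] [Finite G] (hG : IsPGroup 2 G)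
    (hΦ : Nat.card (frattini G) = 2) :
    ∃ T : ℤ, (T = 0 ∨ (T = Nat.card (Subgroup.center G) ∧ ∀ u ∈ Subgroup.center G, u ^ 2 = 1)) ∧
      (2 * (Nat.card {x : G // x ^ 2 = 1} : ℤ) - Nat.card G) ^ 2 = Nat.card G * T := by
  classical
  haveI : Fact (Nat.Prime 2) := ⟨Nat.prime_two⟩
  haveI := Fintype.ofFinite G
  obtain ⟨z, hz1, hzz, hzc, hall, hzm⟩ := setup hΦ
  have hcenall : ∀ w ∈ frattini G, ∀ a : G, a * w = w * a := by
    intro w hw a
    rcases hall w hw with rfl | rfl
    · simp
    · exact hzc a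
  have hsq : ∀ x : G, x ^ 2 ∈ frattini G :=
    fun x => Cfsg.Agent.Lib.Helper7.pow_mem_frattini hG x
  have hcm : ∀ x u : G, (x * u)⁻¹ * (u * x) ∈ frattini G :=
    fun x u => Cfsg.Agent.Lib.Helper7.comm_mem_frattini hG x u
  have hsgm : ∀ w w' : G, w ∈ frattini G → w' ∈ frattini G → sg (w * w') = sg w * sg w' :=
    fun w w' hw hw' => sg_mul hz1 hzz (hall w hw) (hall w' hw')
  have I1 : ∀ x u : G, sg ((x * u) ^ 2) =
      sg (x ^ 2) * sg (u ^ 2) * sg ((x * u)⁻¹ * (u * x)) := by
    intro x u
    have hcc := hcenall _ (hcm x u)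
    have e : (x * u) ^ 2 = x ^ 2 * u ^ 2 * ((x * u)⁻¹ * (u * x)) := by
      calc (x * u) ^ 2 = (x * u) * (x * u) := pow_two _
        _ = x * x * u * (((x * u)⁻¹ * (u * x)) * u) := by group
        _ = x * x * u * (u * ((x * u)⁻¹ * (u * x))) := by rw [← hcc u]
        _ = (x * x) * (u * u) * ((x * u)⁻¹ * (u * x)) := by simp only [mul_assoc]
        _ = x ^ 2 * u ^ 2 * ((x * u)⁻¹ * (u * x)) := by rw [pow_two, pow_two]
    rw [e, hsgm _ _ (mul_mem (hsq x) (hsq u)) (hcm x u), hsgm _ _ (hsq x) (hsq u)]
  have I2 : ∀ g x u : G, sg ((g * x * u)⁻¹ * (u * (g * x))) =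
      sg ((g * u)⁻¹ * (u * g)) * sg ((x * u)⁻¹ * (u * x)) := by
    intro g x u
    rw [comm_hom (hcenall _ (hcm g u)), hsgm _ _ (hcm g u) (hcm x u)]
  have I3 : ∀ u : G, ∑ x : G, sg ((x * u)⁻¹ * (u * x)) =
      if u ∈ Subgroup.center G then (Fintype.card G : ℤ) else 0 := by
    intro u
    split_ifs with hu
    · rw [Subgroup.mem_center_iff] at hu
      have h1 : ∀ x : G, sg ((x * u)⁻¹ * (u * x)) = 1 := by
        intro x
        rw [← hu x, inv_mul_cancel, sg_one]
      rw [Finset.sum_congr rfl (fun x _ => h1 x)]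
      simp
    · rw [Subgroup.mem_center_iff] at hu
      push_neg at hu
      obtain ⟨g, hg⟩ := hu
      have hgm : sg ((g * u)⁻¹ * (u * g)) = -1 := by
        apply sg_ne
        intro h
        apply hg
        have h2 := congrArg (fun t => (g * u) * t) h
        simp only [mul_inv_cancel_left, mul_one] at h2
        exact h2.symm
      have hre : ∑ x : G, sg ((x * u)⁻¹ * (u * x)) =
          ∑ x : G, sg ((g * x * u)⁻¹ * (u * (g * x))) :=
        (Equiv.sum_comp (Equiv.mulLeft g) (fun x => sg ((x * u)⁻¹ * (u * x)))).symm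
      have h3 : ∑ x : G, sg ((g * x * u)⁻¹ * (u * (g * x))) =
          - ∑ x : G, sg ((x * u)⁻¹ * (u * x)) := by
        simp_rw [I2, hgm]
        simp
      linarith
  set χ : G → ℤ := fun x => sg (x ^ 2) with hχ
  have hχsq : ∀ x, χ x * χ x = 1 := fun x => sg_sq _
  have hχmul : ∀ x u : G, χ (x * u) = χ x * χ u * sg ((x * u)⁻¹ * (u * x)) := fun x u => I1 x u
  have I4 : (∑ x : G, χ x) ^ 2 =
      (Fintype.card G : ℤ) * ∑ u : G, (if u ∈ Subgroup.center G then χ u else 0) := by
    rw [sq, Finset.sum_mul_sum]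
    have h1 : ∀ x : G, ∑ y : G, χ x * χ y = ∑ u : G, χ u * sg ((x * u)⁻¹ * (u * x)) := by
      intro x
      rw [← Equiv.sum_comp (Equiv.mulLeft x) (fun y => χ x * χ y)]
      apply Finset.sum_congr rfl
      intro u _
      simp only [Equiv.coe_mulLeft]
      rw [hχmul x u]
      calc χ x * (χ x * χ u * sg ((x * u)⁻¹ * (u * x)))
          = (χ x * χ x) * χ u * sg ((x * u)⁻¹ * (u * x)) := by ring
        _ = χ u * sg ((x * u)⁻¹ * (u * x)) := by rw [hχsq x, one_mul]
    rw [Finset.sum_congr rfl (fun x _ => h1 x), Finset.sum_comm]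
    simp_rw [← Finset.mul_sum, I3]
    rw [Finset.mul_sum]
    apply Finset.sum_congr rfl
    intro u _
    split_ifs <;> ring
  set T : ℤ := ∑ u : G, (if u ∈ Subgroup.center G then χ u else 0) with hT
  refine ⟨T, ?_, ?_⟩
  · by_cases hall1 : ∀ u ∈ Subgroup.center G, u ^ 2 = 1
    · right
      refine ⟨?_, hall1⟩
      have h1 : ∀ u : G, (if u ∈ Subgroup.center G then χ u else 0) =
          if u ∈ Subgroup.center G then (1 : ℤ) else 0 := by
        intro u
        split_ifs with hu
        · show sg (u ^ 2) = 1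
          rw [hall1 u hu, sg_one]
        · rfl
      rw [hT, Finset.sum_congr rfl (fun u _ => h1 u), Finset.sum_boole, Nat.card_eq_fintype_card,
        Fintype.card_subtype]
    · left
      push_neg at hall1
      obtain ⟨g, hgc, hg1⟩ := hall1
      have hgχ : χ g = -1 := sg_ne hg1
      have hgc' := Subgroup.mem_center_iff.mp hgc
      have hre : T = ∑ u : G, (if g * u ∈ Subgroup.center G then χ (g * u) else 0) :=
        (Equiv.sum_comp (Equiv.mulLeft g) (fun u => if u ∈ Subgroup.center G then χ u else 0)).symm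
      have h2 : ∀ u : G, (if g * u ∈ Subgroup.center G then χ (g * u) else 0) =
          - (if u ∈ Subgroup.center G then χ u else 0) := by
        intro u
        have hiff : g * u ∈ Subgroup.center G ↔ u ∈ Subgroup.center G := by
          constructor
          · intro h
            have := mul_mem (inv_mem hgc) h
            simpa using this
          · intro h
            exact mul_mem hgc h
        have hχg : χ (g * u) = - χ u := by
          rw [hχmul g u]
          have h3 : (g * u)⁻¹ * (u * g) = 1 := by rw [hgc' u, inv_mul_cancel]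
          rw [h3, sg_one, hgχ]; ring
        by_cases hu : u ∈ Subgroup.center G
        · rw [if_pos (hiff.mpr hu), if_pos hu, hχg]
        · rw [if_neg (fun h => hu (hiff.mp h)), if_neg hu, neg_zero]
      rw [Finset.sum_congr rfl (fun u _ => h2 u), Finset.sum_neg_distrib] at hre
      linarith
  · have hS : ∑ x : G, χ x = 2 * (Nat.card {x : G // x ^ 2 = 1} : ℤ) - Nat.card G := by
      have h1 : ∀ x : G, χ x = 2 * (if x ^ 2 = 1 then (1 : ℤ) else 0) - 1 := by
        intro x
        show sg (x ^ 2) = _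
        by_cases h : x ^ 2 = 1
        · rw [if_pos h, h, sg_one]; norm_num
        · rw [sg_ne h, if_neg h]; norm_num
      rw [Finset.sum_congr rfl (fun x _ => h1 x), Finset.sum_sub_distrib, ← Finset.mul_sum,
        Finset.sum_boole]
      simp only [Finset.sum_const, Finset.card_univ, nsmul_eq_mul, mul_one]
      rw [Nat.card_eq_fintype_card, Nat.card_eq_fintype_card, Fintype.card_subtype]
    rw [← hS, I4, Nat.card_eq_fintype_card]

/-- Let G be a finite 2-group whose Frattini subgroup Φ(G) has order 2, with |G : Φ(G)| = 2^d, and let j be the number of elements x of G with x² = 1. Then j = 2^d, or j = 2^d + 2^(d−r) or j = 2^d − 2^(d−r) for some positive integer r with 2r ≤ d. Moreover if d = 2r and j is 2^d + 2^r or 2^d − 2^r, then G is extraspecial. -/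
theorem result {G : Type*} [Group G] [Finite G] (hG : IsPGroup 2 G) (hΦ : Nat.card (frattini G) = 2) (d : ℕ) (hd : (frattini G).index = 2 ^ d) : (Nat.card {x : G // x ^ 2 = 1} = 2 ^ d ∨ ∃ r : ℕ, 1 ≤ r ∧ 2 * r ≤ d ∧ (Nat.card {x : G // x ^ 2 = 1} = 2 ^ d + 2 ^ (d - r) ∨ Nat.card {x : G // x ^ 2 = 1} + 2 ^ (d - r) = 2 ^ d)) ∧ (∀ r : ℕ, d = 2 * r → (Nat.card {x : G // x ^ 2 = 1} = 2 ^ d + 2 ^ r ∨ Nat.card {x : G // x ^ 2 = 1} + 2 ^ r = 2 ^ d) → Cfsg.IsExtraspecial 2 G) := by
  classical
  haveI : Fact (Nat.Prime 2) := ⟨Nat.prime_two⟩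
  obtain ⟨T, hT, hEq⟩ := main_count hG hΦ
  obtain ⟨z, hz1, hzz, hzc, hall, hzm⟩ := setup hΦ
  have hN : Nat.card G = 2 ^ (d + 1) := by
    rw [← Subgroup.card_mul_index (frattini G), hΦ, hd, pow_succ]; ring
  set J := Nat.card {x : G // x ^ 2 = 1} with hJ
  rw [hN] at hEq
  push_cast at hEq
  have hΦZ : frattini G ≤ Subgroup.center G := by
    intro w hw
    rw [Subgroup.mem_center_iff]
    intro a
    rcases hall w hw with rfl | rfl
    · simp
    · exact hzc a
  have hnotelem : ¬ ((∀ a b : G, a * b = b * a) ∧ ∀ a : G, a ^ 2 = 1) := by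
    rintro ⟨hab, hsq⟩
    have := Cfsg.Agent.Lib.Helper4.frattini_eq_bot_of_elementary Nat.prime_two hab hsq
    rw [this, Subgroup.card_bot] at hΦ
    omega
  constructor
  · rcases hT with hT0 | ⟨hTZ, hall1⟩
    · left
      rw [hT0, mul_zero] at hEq
      have h1 : 2 * (J : ℤ) - 2 ^ (d + 1) = 0 := by simpa using hEq
      have h2 : (2 * J : ℤ) = 2 * 2 ^ d := by rw [pow_succ] at h1; linarith
      have h3 : (J : ℤ) = 2 ^ d := by linarith
      exact_mod_cast h3
    · right
      have hnonab : ¬ ∀ a b : G, a * b = b * a := by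
        intro hab
        apply hnotelem
        refine ⟨hab, fun a => hall1 a ?_⟩
        rw [Subgroup.mem_center_iff]; intro g; exact hab g a
      obtain ⟨m, hm⟩ := IsPGroup.iff_card.mp (hG.to_subgroup (Subgroup.center G))
      have hm1 : 1 ≤ m := by
        have h1 := Subgroup.card_dvd_of_le hΦZ
        rw [hΦ, hm] at h1
        by_contra h0
        have h2 : m = 0 := by omega
        subst h2
        simp at h1
      have hidx := Subgroup.card_mul_index (Subgroup.center G)
      rw [hm, hN] at hidx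
      obtain ⟨i, hi_le, hi⟩ := (Nat.dvd_prime_pow Nat.prime_two).mp (Dvd.intro_left _ hidx)
      have hi2 : 2 ≤ i := by
        by_contra hlt
        have h01 : i = 0 ∨ i = 1 := by omega
        rcases h01 with rfl | rfl
        · apply hnonab
          have htop : Subgroup.center G = ⊤ := Subgroup.index_eq_one.mp (by simpa using hi)
          intro a b
          have hb : b ∈ Subgroup.center G := by rw [htop]; exact Subgroup.mem_top b
          exact (Subgroup.mem_center_iff.mp hb a)
        · apply hnonab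
          have hc2 : Nat.card (G ⧸ Subgroup.center G) = 2 := by
            rw [← Subgroup.index_eq_card]; simpa using hi
          haveI : IsCyclic (G ⧸ Subgroup.center G) := isCyclic_of_prime_card hc2
          exact ((QuotientGroup.mk' (Subgroup.center G)).isMulCommutative_of_isCyclic_of_ker_le_center
            (le_of_eq (QuotientGroup.ker_mk' _))).is_comm.comm
      rw [hi, ← pow_add] at hidx
      have hmi : m + i = d + 1 := Nat.pow_right_injective (le_refl 2) hidx
      rw [hTZ, hm] at hEq
      push_cast at hEq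
      set e := ((J : ℤ) - 2 ^ d).natAbs with he
      have he2 : e ^ 2 = 2 ^ (d + m - 1) := by
        have h1 : ((e : ℤ)) ^ 2 = ((J : ℤ) - 2 ^ d) ^ 2 := by rw [he, Int.natAbs_sq]
        have h2 : (4 : ℤ) * ((J : ℤ) - 2 ^ d) ^ 2 = 4 * 2 ^ (d + m - 1) := by
          have h3 : (2 * (J : ℤ) - 2 ^ (d + 1)) = 2 * ((J : ℤ) - 2 ^ d) := by rw [pow_succ]; ring
          rw [h3] at hEq
          have hpow : (2 : ℤ) ^ (d + 1) * 2 ^ m = 4 * 2 ^ (d + m - 1) := by
            have h4 : d + 1 + m = 2 + (d + m - 1) := by omega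
            rw [← pow_add, h4, pow_add]; norm_num
          rw [← hpow, ← hEq]; ring
        have h3 : ((e : ℤ)) ^ 2 = 2 ^ (d + m - 1) := by rw [h1]; linarith
        exact_mod_cast h3
      obtain ⟨t, ht_le, ht⟩ := (Nat.dvd_prime_pow Nat.prime_two).mp
        (Dvd.intro_left e (by rw [← he2, sq]))
      rw [ht, ← pow_mul] at he2
      have h2t : t * 2 = d + m - 1 := Nat.pow_right_injective (le_refl 2) he2
      refine ⟨d - t, by omega, by omega, ?_⟩
      have hdt : d - (d - t) = t := by omega
      rw [hdt]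
      rcases Int.natAbs_eq ((J : ℤ) - 2 ^ d) with h | h
      · left
        rw [← he, ht] at h
        have h5 : (J : ℤ) = 2 ^ d + 2 ^ t := by push_cast at h; linarith
        exact_mod_cast h5
      · right
        rw [← he, ht] at h
        have h5 : (J : ℤ) + 2 ^ t = 2 ^ d := by push_cast at h; linarith
        exact_mod_cast h5
  · intro r hdr hJr
    have hsq : (2 * (J : ℤ) - 2 ^ (d + 1)) ^ 2 = 2 ^ (d + 2) := by
      rcases hJr with h | h
      · have h' : (J : ℤ) = 2 ^ d + 2 ^ r := by exact_mod_cast h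
        rw [h', hdr]; ring
      · have h' : (J : ℤ) + 2 ^ r = 2 ^ d := by exact_mod_cast h
        have h'' : (J : ℤ) = 2 ^ d - 2 ^ r := by linarith
        rw [h'', hdr]; ring
    rw [hsq] at hEq
    rcases hT with hT0 | ⟨hTZ, hall1⟩
    · exfalso
      rw [hT0, mul_zero] at hEq
      exact absurd hEq (by positivity)
    · have hZ2 : Nat.card (Subgroup.center G) = 2 := by
        rw [hTZ] at hEq
        have h1 : (2 : ℤ) ^ (d + 1) * 2 = 2 ^ (d + 1) * (Nat.card (Subgroup.center G) : ℤ) := by
          rw [← hEq]; ring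
        have h2 : (2 : ℤ) = Nat.card (Subgroup.center G) := mul_left_cancel₀ (by positivity) h1
        exact_mod_cast h2.symm
      have hFZ : frattini G = Subgroup.center G :=
        Subgroup.eq_of_le_of_card_ge hΦZ (by rw [hZ2, hΦ])
      have hcomle : commutator G ≤ frattini G :=
        Cfsg.Agent.Lib.Lead.commutator_le_frattini_of_pGroup hG
      have hcomne : commutator G ≠ ⊥ := by
        intro hbot
        have hab : ∀ a b : G, a * b = b * a := by
          intro a b
          have hmem := Subgroup.commutator_mem_commutator (Subgroup.mem_top a) (Subgroup.mem_top b)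
          rw [← commutator_def, hbot, Subgroup.mem_bot] at hmem
          exact (commutatorElement_eq_one_iff_commute.mp hmem).eq
        have htop : Subgroup.center G = ⊤ := by
          ext g
          simp only [Subgroup.mem_top, iff_true]
          rw [Subgroup.mem_center_iff]
          intro a
          exact hab a g
        rw [htop, Subgroup.card_top, hN] at hZ2
        have hd0 : d = 0 := by
          have h1 : 2 ^ (d + 1) = 2 ^ 1 := by rw [hZ2, pow_one]
          have h2 := Nat.pow_right_injective (le_refl 2) h1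
          omega
        apply hnotelem
        refine ⟨hab, fun a => ?_⟩
        have hcard2 : Nat.card G = 2 := by rw [hN, hd0]; norm_num
        rw [← hcard2]
        exact pow_card_eq_one'
      have hcomcard : Nat.card (commutator G) = 2 := by
        have h1 := Subgroup.card_dvd_of_le hcomle
        rw [hΦ] at h1
        rcases (Nat.dvd_prime Nat.prime_two).mp h1 with h | h
        · exact absurd (Subgroup.card_eq_one.mp h) hcomne
        · exact h
      have hcomF : commutator G = frattini G :=
        Subgroup.eq_of_le_of_card_ge hcomle (by rw [hcomcard, hΦ])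
      exact ⟨⟨hG, hFZ, by rw [hcomF, hFZ]⟩, hZ2⟩

end Cfsg.Agent.S3772
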