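import Cfsg.Statements.S4416
import Mathlib
import Cfsg.Agent.Lib.Helper6.Extra2
-- import your own Cfsg.Agent.* helpers here

set_option autoImplicit false
open Cfsg

namespace Cfsg.Agent.S4416

open Cfsg.Agent.S3799 Cfsg.Agent.Lib.Helper6.Extra2

theorem types {E : Type*} [Group E] [Finite E] (hE : Cfsg.IsExtraspecial 2 E) :
    ∃ n, (Nonempty (Heis n 2 ≃* E) ∧ 1 ≤ n ∧ Nat.card E = 2 ^ (2 * n + 1) ∧
        Nat.card {x : E // x ^ 2 = 1} = 2 ^ (2 * n) + 2 ^ n) ∨
      (Nonempty (HQ n ≃* E) ∧ Nat.card E = 2 ^ (2 * (n + 1) + 1) ∧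
        Nat.card {x : E // x ^ 2 = 1} + 2 ^ (n + 1) = 2 ^ (2 * (n + 1))) := by
  obtain ⟨n, c⟩ := classify2 hE
  refine ⟨n, ?_⟩
  rcases c with ⟨⟨e⟩⟩ | ⟨⟨e⟩⟩
  · left
    have hcard : Nat.card E = 2 ^ (2 * n + 1) := by
      rw [← Nat.card_congr e.toEquiv, Heis.card_heis]; congr 1; omega
    refine ⟨⟨e⟩, ?_, hcard, ?_⟩
    · by_contra h0
      have hn0 : n = 0 := by omega
      subst hn0
      obtain ⟨⟨hP, hFr, hComm⟩, hZ⟩ := hE
      have hcE : Nat.card E = 2 := by rw [hcard]; norm_num
      have htop : Subgroup.center E = ⊤ := Subgroup.eq_top_of_card_eq _ (by rw [hZ, hcE])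
      have hbot : commutator E = ⊥ := (commutator_eq_bot_iff_center_eq_top (G := E)).mpr htop
      rw [hComm, htop] at hbot
      have h1 : Nat.card (⊤ : Subgroup E) = 1 := by rw [hbot]; exact Subgroup.card_bot
      rw [Subgroup.card_top, hcE] at h1
      omega
    · rw [← card_sq_congr e, j_heis]
  · right
    refine ⟨⟨e⟩, ?_, ?_⟩
    · rw [← Nat.card_congr e.toEquiv, HQ.card_hq]; congr 1; omega
    · rw [← card_sq_congr e]
      have h1 := j_hq n
      have e1 : 2 * (n + 1) = 2 * n + 2 := by ring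
      rw [e1]; exact h1

/-- Classification of extraspecial 2-groups in intrinsic form. An extraspecial 2-group has order 2^(2m+1) for some m ≥ 1, and the number of its elements squaring to the identity is either 2^(2m) + 2^m or 2^(2m) − 2^m; two extraspecial 2-groups of the same order with the same number of such elements are isomorphic. (The two cases are the central products of m dihedral groups of order 8, and of m − 1 dihedral groups with one quaternion group.) -/
theorem result (E : Type*) [Group E] [Finite E] (hE : Cfsg.IsExtraspecial 2 E) :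
    (∃ m : ℕ, 1 ≤ m ∧ Nat.card E = 2 ^ (2 * m + 1) ∧
      (Nat.card {x : E // x ^ 2 = 1} = 2 ^ (2 * m) + 2 ^ m ∨ Nat.card {x : E // x ^ 2 = 1} = 2 ^ (2 * m) - 2 ^ m)) ∧
    ∀ (E' : Type*) [Group E'] [Finite E'], Cfsg.IsExtraspecial 2 E' → Nat.card E' = Nat.card E →
      Nat.card {x : E' // x ^ 2 = 1} = Nat.card {x : E // x ^ 2 = 1} → Nonempty (E ≃* E') := by
  classical
  obtain ⟨n, hn⟩ := types hE
  constructor
  · rcases hn with ⟨_, hn1, hcard, hj⟩ | ⟨_, hcard, hj⟩
    · exact ⟨n, hn1, hcard, Or.inl hj⟩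
    · refine ⟨n + 1, by omega, hcard, Or.inr ?_⟩
      omega
  · intro E' _ _ hE' hcc hjj
    obtain ⟨n', hn'⟩ := types hE'
    rcases hn with ⟨⟨e⟩, hn1, hcard, hj⟩ | ⟨⟨e⟩, hcard, hj⟩ <;>
      rcases hn' with ⟨⟨e'⟩, hn1', hcard', hj'⟩ | ⟨⟨e'⟩, hcard', hj'⟩
    · have h1 : 2 ^ (2 * n' + 1) = 2 ^ (2 * n + 1) := by rw [← hcard', ← hcard, hcc]
      have h2 : n' = n := by
        have := Nat.pow_right_injective (le_refl 2) h1
        omega
      subst h2
      exact ⟨e.symm.trans e'⟩
    · exfalso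
      have h1 : 2 ^ (2 * (n' + 1) + 1) = 2 ^ (2 * n + 1) := by rw [← hcard', ← hcard, hcc]
      have h2 : n = n' + 1 := by
        have := Nat.pow_right_injective (le_refl 2) h1
        omega
      subst h2
      rw [hjj, hj] at hj'
      have h3 : 0 < 2 ^ (n' + 1) := by positivity
      omega
    · exfalso
      have h1 : 2 ^ (2 * n' + 1) = 2 ^ (2 * (n + 1) + 1) := by rw [← hcard', ← hcard, hcc]
      have h2 : n' = n + 1 := by
        have := Nat.pow_right_injective (le_refl 2) h1
        omega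
      subst h2
      rw [← hjj, hj'] at hj
      have h3 : 0 < 2 ^ (n + 1) := by positivity
      omega
    · have h1 : 2 ^ (2 * (n' + 1) + 1) = 2 ^ (2 * (n + 1) + 1) := by rw [← hcard', ← hcard, hcc]
      have h2 : n' = n := by
        have := Nat.pow_right_injective (le_refl 2) h1
        omega
      subst h2
      exact ⟨e.symm.trans e'⟩

end Cfsg.Agent.S4416
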