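import Cfsg.Statements.S5631
import Mathlib
import Mathlib
import Cfsg.Agent.Lib.Helper9.Transvection
import Cfsg.Agent.Lib.Helper9.Family

set_option autoImplicit false
open Cfsg

namespace Cfsg.Agent.S5631

open Cfsg.Agent.S5635 (tvG tvG_mulVec tvG_det mem_sl_iff mkGL mkGL_mulVec mkGL_det)
open Cfsg.Agent.Lib.Helper9.Family (stab_of_maps)
open scoped Matrix

section
variable {F : Type*} [Field F] [Fintype F] {κ : Type} [Fintype κ] [DecidableEq κ]

theorem gl_ext (a b : Matrix.GeneralLinearGroup κ F)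
    (h : ∀ x, (a : Matrix κ κ F) *ᵥ x = (b : Matrix κ κ F) *ᵥ x) : a = b := by
  apply Units.ext
  apply Matrix.toLin'.injective
  apply LinearMap.ext
  intro x
  rw [Matrix.toLin'_apply, Matrix.toLin'_apply]
  exact h x

theorem mul_inv_mulVec (p : Matrix.GeneralLinearGroup κ F) (y : κ → F) :
    (p : Matrix κ κ F) *ᵥ (((p⁻¹ : Matrix.GeneralLinearGroup κ F) : Matrix κ κ F) *ᵥ y) = y := by
  rw [Matrix.mulVec_mulVec, ← Units.val_mul, mul_inv_cancel, Units.val_one, Matrix.one_mulVec]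

/-- transvections with direction in `W` lie in the stabiliser -/
theorem tv_mem_P (W : Submodule F (κ → F)) (φ : Module.Dual F (κ → F)) (w : κ → F)
    (hw : w ∈ W) (h0 : φ w = 0) (hu : 1 + φ w ≠ 0) :
    tvG φ w hu ∈ Cfsg.Geo.subspaceStabilizer W ⊓ Cfsg.Geo.specialLinear κ F := by
  refine ⟨stab_of_maps W _ ?_, ?_⟩
  · intro v hv
    rw [tvG_mulVec]
    exact W.add_mem hv (W.smul_mem _ hw)
  · exact (mem_sl_iff _).mpr (by rw [tvG_det, h0, add_zero])

theorem tv_conj (g : Matrix.GeneralLinearGroup κ F) (χ φ : Module.Dual F (κ → F)) (w v : κ → F)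
    (c : F) (hgw : (g : Matrix κ κ F) *ᵥ w = c • v)
    (hχ : ∀ y, c * χ y = φ ((g : Matrix κ κ F) *ᵥ y))
    (hu : 1 + φ v ≠ 0) (hu' : 1 + χ w ≠ 0) :
    tvG φ v hu = g * tvG χ w hu' * g⁻¹ := by
  apply gl_ext
  intro x
  rw [Units.val_mul, Units.val_mul, ← Matrix.mulVec_mulVec, ← Matrix.mulVec_mulVec, tvG_mulVec,
    tvG_mulVec, Matrix.mulVec_add, Matrix.mulVec_smul, mul_inv_mulVec, hgw, smul_smul,
    mul_comm, hχ, mul_inv_mulVec]

theorem all_tv (W : Submodule F (κ → F)) (K : Subgroup (Matrix.GeneralLinearGroup κ F))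
    (hPK : Cfsg.Geo.subspaceStabilizer W ⊓ Cfsg.Geo.specialLinear κ F ≤ K)
    (g : Matrix.GeneralLinearGroup κ F) (hgK : g ∈ K)
    (hg : g ∉ Cfsg.Geo.subspaceStabilizer W)
    (φ : Module.Dual F (κ → F)) (v : κ → F) (h0 : φ v = 0) (hu : 1 + φ v ≠ 0) :
    tvG φ v hu ∈ K := by
  obtain ⟨w, hwW, huW⟩ : ∃ w ∈ W, (g : Matrix κ κ F) *ᵥ w ∉ W := by
    by_contra hcon
    push Not at hcon
    exact hg (stab_of_maps W g hcon)
  have hA : ∀ (φ : Module.Dual F (κ → F)) (hu : 1 + φ ((g : Matrix κ κ F) *ᵥ w) ≠ 0),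
      φ ((g : Matrix κ κ F) *ᵥ w) = 0 → tvG φ ((g : Matrix κ κ F) *ᵥ w) hu ∈ K := by
    intro φ hu h0
    have h0' : (φ ∘ₗ Matrix.toLin' (g : Matrix κ κ F)) w = 0 := by
      rw [LinearMap.comp_apply, Matrix.toLin'_apply]
      exact h0
    have hu' : 1 + (φ ∘ₗ Matrix.toLin' (g : Matrix κ κ F)) w ≠ 0 := by
      rw [h0', add_zero]
      exact one_ne_zero
    rw [tv_conj g (φ ∘ₗ Matrix.toLin' (g : Matrix κ κ F)) φ w _ 1 (by rw [one_smul])
      (fun y => by rw [one_mul, LinearMap.comp_apply, Matrix.toLin'_apply]) hu hu']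
    exact K.mul_mem (K.mul_mem hgK (hPK (tv_mem_P W _ w hwW h0' hu'))) (K.inv_mem hgK)
  by_cases hvW : v ∈ W
  · exact hPK (tv_mem_P W φ v hvW h0 hu)
  obtain ⟨u, hu_def⟩ : ∃ u, u = (g : Matrix κ κ F) *ᵥ w := ⟨_, rfl⟩
  rw [← hu_def] at huW hA
  obtain ⟨ψ, hψW, hψu, hψv⟩ : ∃ ψ : Module.Dual F (κ → F),
      (∀ x ∈ W, ψ x = 0) ∧ ψ u = 1 ∧ ψ v ≠ 0 := by
    obtain ⟨ψ₁, h1u, h1W⟩ := Submodule.exists_le_ker_of_notMem huW
    obtain ⟨ψ₂, h2v, h2W⟩ := Submodule.exists_le_ker_of_notMem hvW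
    have key : ∃ ψ' : Module.Dual F (κ → F), (∀ x ∈ W, ψ' x = 0) ∧ ψ' u ≠ 0 ∧ ψ' v ≠ 0 := by
      by_cases c1 : ψ₁ v = 0
      · by_cases c2 : ψ₂ u = 0
        · refine ⟨ψ₁ + ψ₂, fun x hx => ?_, ?_, ?_⟩
          · rw [LinearMap.add_apply, LinearMap.mem_ker.mp (h1W hx),
              LinearMap.mem_ker.mp (h2W hx), add_zero]
          · rw [LinearMap.add_apply, c2, add_zero]
            exact h1u
          · rw [LinearMap.add_apply, c1, zero_add]
            exact h2v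
        · exact ⟨ψ₂, fun x hx => LinearMap.mem_ker.mp (h2W hx), c2, h2v⟩
      · exact ⟨ψ₁, fun x hx => LinearMap.mem_ker.mp (h1W hx), h1u, c1⟩
    obtain ⟨ψ', hW', hu', hv'⟩ := key
    refine ⟨(ψ' u)⁻¹ • ψ', fun x hx => ?_, ?_, ?_⟩
    · rw [LinearMap.smul_apply, hW' x hx, smul_zero]
    · rw [LinearMap.smul_apply, smul_eq_mul, inv_mul_cancel₀ hu']
    · rw [LinearMap.smul_apply, smul_eq_mul]
      exact mul_ne_zero (inv_ne_zero hu') hv'
  have hp0 : ψ ((ψ v)⁻¹ • v - u) = 0 := by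
    rw [map_sub, map_smul, smul_eq_mul, inv_mul_cancel₀ hψv, hψu, sub_self]
  have hpu : 1 + ψ ((ψ v)⁻¹ • v - u) ≠ 0 := by
    rw [hp0, add_zero]
    exact one_ne_zero
  obtain ⟨p, hp_def⟩ : ∃ p, p = tvG ψ ((ψ v)⁻¹ • v - u) hpu := ⟨_, rfl⟩
  have hpP : p ∈ Cfsg.Geo.subspaceStabilizer W ⊓ Cfsg.Geo.specialLinear κ F := by
    refine ⟨Cfsg.Agent.Lib.Helper9.mem_subspaceStabilizer_of_fix W p ?_, ?_⟩
    · intro x hx
      rw [hp_def, tvG_mulVec, hψW x hx, zero_smul, add_zero]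
    · exact (mem_sl_iff _).mpr (by rw [hp_def, tvG_det, hp0, add_zero])
  have hpK : p ∈ K := hPK hpP
  have hpu' : (p : Matrix κ κ F) *ᵥ u = (ψ v)⁻¹ • v := by
    rw [hp_def, tvG_mulVec, hψu, one_smul]
    abel
  obtain ⟨χ, hχ⟩ : ∃ χ : Module.Dual F (κ → F),
      χ = (ψ v) • (φ ∘ₗ Matrix.toLin' (p : Matrix κ κ F)) := ⟨_, rfl⟩
  have hχy : ∀ y, (ψ v)⁻¹ * χ y = φ ((p : Matrix κ κ F) *ᵥ y) := by
    intro y
    rw [hχ, LinearMap.smul_apply, LinearMap.comp_apply, Matrix.toLin'_apply, smul_eq_mul,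
      ← mul_assoc, inv_mul_cancel₀ hψv, one_mul]
  have hχu : χ u = 0 := by
    rw [hχ, LinearMap.smul_apply, LinearMap.comp_apply, Matrix.toLin'_apply, hpu', map_smul, h0,
      smul_zero, smul_zero]
  have hχ1 : 1 + χ u ≠ 0 := by
    rw [hχu, add_zero]
    exact one_ne_zero
  have hmem : tvG χ u hχ1 ∈ K := hA χ hχ1 hχu
  rw [tv_conj p χ φ u v (ψ v)⁻¹ hpu' hχy hu hχ1]
  exact K.mul_mem (K.mul_mem hpK hmem) (K.inv_mem hpK)

theorem toLin_transvection {ι : Type*} [Fintype ι] [DecidableEq ι] {V : Type*} [AddCommGroup V]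
    [Module F V] (b : Module.Basis ι F V) (i j : ι) (c : F) (x : V) :
    Matrix.toLin b b (Matrix.transvection i j c) x = x + (c • b.coord j) x • b i := by
  rw [Matrix.transvection, map_add, Matrix.toLin_one, LinearMap.add_apply, LinearMap.id_apply,
    Matrix.toLin_apply, Matrix.single_mulVec]
  congr 1
  rw [Finset.sum_eq_single i]
  · rw [Function.update_self, LinearMap.smul_apply, Module.Basis.coord_apply, smul_eq_mul]
  · intro k _ hk
    rw [Function.update_of_ne hk, Pi.zero_apply, zero_smul]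
  · intro h
    exact absurd (Finset.mem_univ _) h

theorem gen (W : Submodule F (κ → F)) (K : Subgroup (Matrix.GeneralLinearGroup κ F))
    (hPK : Cfsg.Geo.subspaceStabilizer W ⊓ Cfsg.Geo.specialLinear κ F ≤ K)
    (htv : ∀ (φ : Module.Dual F (κ → F)) (v : κ → F) (hu : 1 + φ v ≠ 0), φ v = 0 →
      tvG φ v hu ∈ K)
    (g : Matrix.GeneralLinearGroup κ F) (hg : g ∈ Cfsg.Geo.specialLinear κ F) : g ∈ K := by
  classical
  obtain ⟨W', hc⟩ := Submodule.exists_isCompl W
  obtain ⟨bW, hbW_def⟩ : ∃ bW, bW = Module.finBasis F W := ⟨_, rfl⟩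
  obtain ⟨bW', hbW'_def⟩ : ∃ bW', bW' = Module.finBasis F W' := ⟨_, rfl⟩
  obtain ⟨b, hb_def⟩ : ∃ b : Module.Basis (Fin (Module.finrank F W) ⊕ Fin (Module.finrank F W'))
      F (κ → F), b = (bW.prod bW').map (Submodule.prodEquivOfIsCompl W W' hc) := ⟨_, rfl⟩
  have hb : ∀ i, b (Sum.inl i) = (bW i : κ → F) := by
    intro i
    rw [hb_def, Module.Basis.map_apply, Module.Basis.prod_apply, Sum.elim_inl,
      Function.comp_apply, LinearMap.inl_apply, Submodule.coe_prodEquivOfIsCompl']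
    simp
  have hbW : ∀ i, b (Sum.inl i) ∈ W := fun i => by
    rw [hb]
    exact (bW i).2
  have hWb : ∀ w ∈ W, ∃ c : Fin (Module.finrank F W) → F, w = ∑ i, c i • b (Sum.inl i) := by
    intro w hw
    refine ⟨fun i => bW.repr ⟨w, hw⟩ i, ?_⟩
    have h1 := congrArg Subtype.val (bW.sum_repr ⟨w, hw⟩)
    rw [Submodule.coe_sum] at h1
    exact h1.symm.trans (Finset.sum_congr rfl fun i _ => by rw [Submodule.coe_smul, hb])
  obtain ⟨M, hM⟩ : ∃ M, M = LinearMap.toMatrix b b (Matrix.toLin' (g : Matrix κ κ F)) := ⟨_, rfl⟩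
  have hdetM : M.det = 1 := by
    rw [hM, LinearMap.det_toMatrix, LinearMap.det_toLin', ← Matrix.GeneralLinearGroup.val_det_apply]
    exact (mem_sl_iff g).mp hg
  have hP : ∃ a ∈ K, ∀ x, (a : Matrix κ κ F) *ᵥ x = Matrix.toLin b b M x := by
    refine Matrix.diagonal_transvection_induction
      (fun N => ∃ a ∈ K, ∀ x, (a : Matrix κ κ F) *ᵥ x = Matrix.toLin b b N x) M ?_ ?_ ?_
    · intro D hD
      rw [hdetM, Matrix.det_diagonal] at hD
      have hD0 : ∀ i, D i ≠ 0 := by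
        intro i hi
        rw [Finset.prod_eq_zero (Finset.mem_univ i) hi] at hD
        exact zero_ne_one hD
      have h1 : Matrix.toLin b b (Matrix.diagonal D) ∘ₗ
          Matrix.toLin b b (Matrix.diagonal fun i => (D i)⁻¹) = LinearMap.id := by
        rw [← Matrix.toLin_mul b b b, Matrix.diagonal_mul_diagonal]
        have : (fun i => D i * (D i)⁻¹) = fun _ => (1 : F) :=
          funext fun i => mul_inv_cancel₀ (hD0 i)
        rw [this, Matrix.diagonal_one, Matrix.toLin_one]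
      have h2 : Matrix.toLin b b (Matrix.diagonal fun i => (D i)⁻¹) ∘ₗ
          Matrix.toLin b b (Matrix.diagonal D) = LinearMap.id := by
        rw [← Matrix.toLin_mul b b b, Matrix.diagonal_mul_diagonal]
        have : (fun i => (D i)⁻¹ * D i) = fun _ => (1 : F) :=
          funext fun i => inv_mul_cancel₀ (hD0 i)
        rw [this, Matrix.diagonal_one, Matrix.toLin_one]
      refine ⟨mkGL _ _ h1 h2, hPK ⟨stab_of_maps W _ ?_, ?_⟩, fun x => mkGL_mulVec _ _ h1 h2 x⟩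
      · intro w hw
        rw [mkGL_mulVec]
        obtain ⟨c, rfl⟩ := hWb w hw
        rw [map_sum]
        refine W.sum_mem fun i _ => ?_
        rw [map_smul, Matrix.toLin_self]
        refine W.smul_mem _ ?_
        rw [Finset.sum_eq_single (Sum.inl i)]
        · exact W.smul_mem _ (hbW i)
        · intro j _ hj
          rw [Matrix.diagonal_apply_ne _ hj, zero_smul]
        · intro h
          exact absurd (Finset.mem_univ _) h
      · exact (mem_sl_iff _).mpr (by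
          rw [mkGL_det, LinearMap.det_toLin, Matrix.det_diagonal]
          exact hD)
    · intro t
      have h0 : (t.c • b.coord t.j) (b t.i) = 0 := by
        rw [LinearMap.smul_apply, Module.Basis.coord_apply, Module.Basis.repr_self,
          Finsupp.single_eq_of_ne t.hij.symm, smul_zero]
      have hu : 1 + (t.c • b.coord t.j) (b t.i) ≠ 0 := by
        rw [h0, add_zero]
        exact one_ne_zero
      refine ⟨tvG (t.c • b.coord t.j) (b t.i) hu, htv _ _ hu h0, fun x => ?_⟩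
      rw [tvG_mulVec, Matrix.TransvectionStruct.toMatrix, toLin_transvection]
    · rintro A B ⟨a, ha, hA⟩ ⟨c, hc, hC⟩
      refine ⟨a * c, K.mul_mem ha hc, fun x => ?_⟩
      rw [Units.val_mul, ← Matrix.mulVec_mulVec, hC, hA, Matrix.toLin_mul_apply b b b]
  obtain ⟨a, haK, ha⟩ := hP
  have hag : a = g := by
    apply gl_ext
    intro x
    rw [ha, hM, Matrix.toLin_toMatrix, Matrix.toLin'_apply]
  rw [← hag]
  exact haK

end

/-- For a finite field F and n ≥ 13, the stabiliser in SL_n(F) of any proper non-zero subspace W of F^n is a maximal subgroup of SL_n(F). Here SL_n(F) is the kernel of the determinant inside GL_n(F) and the stabiliser is the set of elements of determinant one mapping W onto itself. -/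
theorem result {F : Type*} [Field F] [Fintype F] (n : ℕ) (hn : 13 ≤ n) (W : Submodule F (Fin n → F)) (hW0 : W ≠ ⊥) (hW1 : W ≠ ⊤) : Cfsg.Geo.IsMaximalIn (Cfsg.Geo.specialLinear (Fin n) F) (Cfsg.Geo.subspaceStabilizer W ⊓ Cfsg.Geo.specialLinear (Fin n) F) := by
  classical
  refine ⟨Cfsg.Agent.Lib.Helper9.subspaceStabilizer_inf_specialLinear_lt W hW0 hW1, ?_⟩
  intro K hPK hKS
  by_cases hK : K ≤ Cfsg.Geo.subspaceStabilizer W ⊓ Cfsg.Geo.specialLinear (Fin n) F
  · exact Or.inl (le_antisymm hK hPK)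
  · right
    obtain ⟨g, hgK, hgP⟩ := SetLike.not_le_iff_exists.mp hK
    have hgS : g ∉ Cfsg.Geo.subspaceStabilizer W := fun h => hgP ⟨h, hKS hgK⟩
    refine le_antisymm hKS fun x hx => ?_
    exact gen W K hPK (fun φ v hu h0 => all_tv W K hPK g hgK hgS φ v h0 hu) x hx

end Cfsg.Agent.S5631
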