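import Cfsg.Statements.S5642
import Mathlib
import Cfsg.Agent.Lib.Helper9.SLGen

set_option autoImplicit false
open Cfsg

namespace Cfsg.Agent.S5642

open Cfsg.Agent.S5635 (tvG tvG_mulVec tvG_det mem_sl_iff)
open Cfsg.Agent.S5631 (gl_ext mul_inv_mulVec tv_conj)
open Cfsg.Agent.Lib.Helper9.SLGen (sl_le_of_tv g_inj)
open scoped Matrix

section
variable {F : Type*} [Field F] [Fintype F] {n : ℕ} {f : (Fin n → F) → (Fin n → F) → F}

/-- the functional `x ↦ f x y`, linear in `y` -/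
noncomputable def fl (hf : Cfsg.Geo.IsSymplecticForm f) :
    (Fin n → F) →ₗ[F] Module.Dual F (Fin n → F) :=
  (LinearMap.mk₂ F f hf.bilinear.add_left hf.bilinear.smul_left hf.bilinear.add_right
    hf.bilinear.smul_right).flip

theorem fl_apply (hf : Cfsg.Geo.IsSymplecticForm f) (y x : Fin n → F) : fl hf y x = f x y := rfl

theorem fl_inj (hf : Cfsg.Geo.IsSymplecticForm f) : Function.Injective (fl hf) := by
  rw [injective_iff_map_eq_zero]
  intro y hy
  by_contra hne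
  obtain ⟨x, hx⟩ := (hf.nondegenerate y hne).1
  apply hx
  rw [← fl_apply hf, hy, LinearMap.zero_apply]

theorem fl_surj (hf : Cfsg.Geo.IsSymplecticForm f) : Function.Surjective (fl hf) :=
  (LinearMap.injective_iff_surjective_of_finrank_eq_finrank
    (Subspace.dual_finrank_eq).symm).mp (fl_inj hf)

theorem st_aux (hf : Cfsg.Geo.IsSymplecticForm f) (y : Fin n → F) (c : F) :
    1 + (c • fl hf y) y ≠ 0 := by
  rw [LinearMap.smul_apply, fl_apply, hf.alternating, smul_zero, add_zero]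
  exact one_ne_zero

/-- symplectic transvection `x ↦ x + c f(x,y) y` -/
noncomputable def st (hf : Cfsg.Geo.IsSymplecticForm f) (y : Fin n → F) (c : F) :
    Matrix.GeneralLinearGroup (Fin n) F :=
  tvG (c • fl hf y) y (st_aux hf y c)

theorem st_mulVec (hf : Cfsg.Geo.IsSymplecticForm f) (y : Fin n → F) (c : F) (x : Fin n → F) :
    ((st hf y c : Matrix.GeneralLinearGroup (Fin n) F) : Matrix (Fin n) (Fin n) F) *ᵥ x =
      x + (c * f x y) • y := by
  rw [st, tvG_mulVec, LinearMap.smul_apply, fl_apply, smul_eq_mul]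

theorem st_mem (hf : Cfsg.Geo.IsSymplecticForm f) (y : Fin n → F) (c : F) :
    st hf y c ∈ Cfsg.Geo.similarityGroup f ⊓ Cfsg.Geo.specialLinear (Fin n) F := by
  refine ⟨⟨1, fun u v => ?_⟩, ?_⟩
  · rw [st_mulVec, st_mulVec, Units.val_one, one_mul]
    simp only [hf.bilinear.add_left, hf.bilinear.add_right, hf.bilinear.smul_left,
      hf.bilinear.smul_right, hf.alternating]
    have h1 := hf.skew y v
    linear_combination (c * f u y) * h1
  · exact (mem_sl_iff _).mpr (by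
      rw [st, tvG_det, LinearMap.smul_apply, fl_apply, hf.alternating, smul_zero, add_zero])

/-- the transvection with functional `φ` and direction `v` lies in `K` -/
def TK (K : Subgroup (Matrix.GeneralLinearGroup (Fin n) F)) (φ : Module.Dual F (Fin n → F))
    (v : Fin n → F) : Prop :=
  φ v = 0 ∧ ∀ hu : 1 + φ v ≠ 0, tvG φ v hu ∈ K

theorem TK_sub (K : Subgroup (Matrix.GeneralLinearGroup (Fin n) F))
    {φ φ' : Module.Dual F (Fin n → F)} {v : Fin n → F} (h : TK K φ v) (h' : TK K φ' v) :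
    TK K (φ - φ') v := by
  have h0 : (φ - φ') v = 0 := by rw [LinearMap.sub_apply, h.1, h'.1, sub_zero]
  refine ⟨h0, fun hu => ?_⟩
  have hu1 : 1 + φ v ≠ 0 := by
    rw [h.1, add_zero]
    exact one_ne_zero
  have hu2 : 1 + φ' v ≠ 0 := by
    rw [h'.1, add_zero]
    exact one_ne_zero
  have e : tvG (φ - φ') v hu = tvG φ v hu1 * (tvG φ' v hu2)⁻¹ := by
    rw [eq_mul_inv_iff_mul_eq]
    apply gl_ext
    intro x
    rw [Units.val_mul, ← Matrix.mulVec_mulVec, tvG_mulVec, tvG_mulVec, tvG_mulVec, map_add,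
      map_smul, h0, LinearMap.sub_apply, smul_zero, add_zero, sub_smul]
    abel
  rw [e]
  exact K.mul_mem (h.2 hu1) (K.inv_mem (h'.2 hu2))

theorem TK_conj (K : Subgroup (Matrix.GeneralLinearGroup (Fin n) F))
    (k : Matrix.GeneralLinearGroup (Fin n) F) (hk : k ∈ K)
    {χ φ : Module.Dual F (Fin n → F)} {w v : Fin n → F} (h : TK K χ w)
    (hkw : (k : Matrix (Fin n) (Fin n) F) *ᵥ w = v)
    (hχ : ∀ y, χ y = φ ((k : Matrix (Fin n) (Fin n) F) *ᵥ y)) : TK K φ v := by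
  have h0 : φ v = 0 := by
    rw [← hkw, ← hχ]
    exact h.1
  refine ⟨h0, fun hu => ?_⟩
  have hu' : 1 + χ w ≠ 0 := by
    rw [h.1, add_zero]
    exact one_ne_zero
  rw [tv_conj k χ φ w v 1 (by rw [one_smul]; exact hkw) (fun y => by rw [one_mul]; exact hχ y)
    hu hu']
  exact K.mul_mem (K.mul_mem hk (h.2 hu')) (K.inv_mem hk)

theorem TK_zero (K : Subgroup (Matrix.GeneralLinearGroup (Fin n) F))
    (φ : Module.Dual F (Fin n → F)) : TK K φ 0 := by
  refine ⟨map_zero φ, fun hu => ?_⟩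
  have e : tvG φ 0 hu = 1 := gl_ext _ _ (fun x => by
    rw [tvG_mulVec, smul_zero, add_zero, Units.val_one, Matrix.one_mulVec])
  rw [e]
  exact K.one_mem

theorem TK_st (hf : Cfsg.Geo.IsSymplecticForm f)
    (K : Subgroup (Matrix.GeneralLinearGroup (Fin n) F))
    (hHK : Cfsg.Geo.similarityGroup f ⊓ Cfsg.Geo.specialLinear (Fin n) F ≤ K)
    (y : Fin n → F) (c : F) : TK K (c • fl hf y) y := by
  refine ⟨by rw [LinearMap.smul_apply, fl_apply, hf.alternating, smul_zero], fun hu => ?_⟩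
  exact hHK (st_mem hf y c)

theorem TK_star (hf : Cfsg.Geo.IsSymplecticForm f)
    (K : Subgroup (Matrix.GeneralLinearGroup (Fin n) F))
    (hHK : Cfsg.Geo.similarityGroup f ⊓ Cfsg.Geo.specialLinear (Fin n) F ≤ K)
    {φ : Module.Dual F (Fin n → F)} {v : Fin n → F} (h : TK K φ v) (y : Fin n → F)
    (hy : f y v = 0) (c : F) : TK K (φ - (c * φ y) • fl hf y) v := by
  apply TK_conj K (st hf y c) (hHK (st_mem hf y c)) h
  · rw [st_mulVec, hf.skew v y, hy, neg_zero, mul_zero, zero_smul, add_zero]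
  · intro x
    rw [st_mulVec, LinearMap.sub_apply, LinearMap.smul_apply, fl_apply, map_add, map_smul,
      hf.bilinear.add_left, hf.bilinear.smul_left, hf.alternating, smul_eq_mul, smul_eq_mul]
    ring

/-- the vectors `y ⊥ v` all of whose functionals give transvections in `K` with direction `v` -/
def Yset (hf : Cfsg.Geo.IsSymplecticForm f) (K : Subgroup (Matrix.GeneralLinearGroup (Fin n) F))
    (v : Fin n → F) : Set (Fin n → F) :=
  {y | f y v = 0 ∧ ∀ c : F, TK K (c • fl hf y) v}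

theorem Y_of_ne (hf : Cfsg.Geo.IsSymplecticForm f)
    (K : Subgroup (Matrix.GeneralLinearGroup (Fin n) F))
    (hHK : Cfsg.Geo.similarityGroup f ⊓ Cfsg.Geo.specialLinear (Fin n) F ≤ K)
    {φ : Module.Dual F (Fin n → F)} {v : Fin n → F} (h : TK K φ v) (y : Fin n → F)
    (hy : f y v = 0) (hφy : φ y ≠ 0) : y ∈ Yset hf K v := by
  refine ⟨hy, fun c => ?_⟩
  have h1 := TK_sub K h (TK_star hf K hHK h y hy (c / φ y))
  rw [sub_sub_cancel, div_mul_cancel₀ c hφy] at h1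
  exact h1

theorem Y_sub (hf : Cfsg.Geo.IsSymplecticForm f)
    (K : Subgroup (Matrix.GeneralLinearGroup (Fin n) F)) {v y y' : Fin n → F}
    (h : y ∈ Yset hf K v) (h' : y' ∈ Yset hf K v) : y - y' ∈ Yset hf K v := by
  refine ⟨?_, fun c => ?_⟩
  · show fl hf v (y - y') = 0
    rw [map_sub, fl_apply, fl_apply, h.1, h'.1, sub_zero]
  · rw [map_sub, smul_sub]
    exact TK_sub K (h.2 c) (h'.2 c)

theorem full_at (hf : Cfsg.Geo.IsSymplecticForm f)
    (K : Subgroup (Matrix.GeneralLinearGroup (Fin n) F))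
    (hHK : Cfsg.Geo.similarityGroup f ⊓ Cfsg.Geo.specialLinear (Fin n) F ≤ K)
    {φ : Module.Dual F (Fin n → F)} {v : Fin n → F} (h : TK K φ v)
    (hφ : ∀ c : F, φ ≠ c • fl hf v) (hv : v ≠ 0) :
    ∀ χ : Module.Dual F (Fin n → F), χ v = 0 → TK K χ v := by
  obtain ⟨a, ha⟩ : ∃ a, f a v = 1 := by
    obtain ⟨x, hx⟩ := (hf.nondegenerate v hv).1
    exact ⟨(f x v)⁻¹ • x, by rw [hf.bilinear.smul_left, inv_mul_cancel₀ hx]⟩
  have hker : ∀ x, f (x - f x v • a) v = 0 := by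
    intro x
    show fl hf v (x - f x v • a) = 0
    rw [map_sub, map_smul, fl_apply, fl_apply, ha, smul_eq_mul, mul_one, sub_self]
  obtain ⟨y₁, hy₁v, hy₁φ⟩ : ∃ y₁, f y₁ v = 0 ∧ φ y₁ ≠ 0 := by
    by_contra hcon
    push Not at hcon
    apply hφ (φ a)
    refine LinearMap.ext fun x => ?_
    have h1 := hcon (x - f x v • a) (hker x)
    rw [map_sub, map_smul, sub_eq_zero] at h1
    rw [h1, LinearMap.smul_apply, fl_apply, smul_eq_mul, smul_eq_mul, mul_comm]
  have hy₁Y : y₁ ∈ Yset hf K v := Y_of_ne hf K hHK h y₁ hy₁v hy₁φ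
  have h1 : TK K (fl hf y₁) v := by
    have h2 := hy₁Y.2 1
    rwa [one_smul] at h2
  obtain ⟨y₂, hy₂v, hy₂⟩ : ∃ y₂, f y₂ v = 0 ∧ f y₂ y₁ ≠ 0 := by
    by_contra hcon
    push Not at hcon
    have hz : y₁ - f a y₁ • v = 0 := by
      by_contra hne
      obtain ⟨x, hx⟩ := (hf.nondegenerate _ hne).1
      apply hx
      have h3 := hcon (x - f x v • a) (hker x)
      have e : f (x - f x v • a) y₁ = f x y₁ - f x v * f a y₁ := by
        show fl hf y₁ (x - f x v • a) = _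
        rw [map_sub, map_smul, fl_apply, fl_apply, smul_eq_mul]
      rw [e] at h3
      show fl hf (y₁ - f a y₁ • v) x = 0
      rw [map_sub, map_smul, LinearMap.sub_apply, LinearMap.smul_apply, fl_apply, fl_apply,
        smul_eq_mul]
      linear_combination h3
    apply hy₁φ
    rw [sub_eq_zero.mp hz, map_smul, h.1, smul_zero]
  have hy₂Y : y₂ ∈ Yset hf K v :=
    Y_of_ne hf K hHK h1 y₂ hy₂v (by rw [fl_apply]; exact hy₂)
  have hall : ∀ y, f y v = 0 → y ∈ Yset hf K v := by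
    intro y hy
    by_cases hc : f y y₁ = 0
    · have h3 : y + y₂ ∈ Yset hf K v :=
        Y_of_ne hf K hHK h1 (y + y₂) (by rw [hf.bilinear.add_left, hy, hy₂v, add_zero])
          (by rw [fl_apply, hf.bilinear.add_left, hc, zero_add]; exact hy₂)
      have h4 := Y_sub hf K h3 hy₂Y
      rwa [add_sub_cancel_right] at h4
    · exact Y_of_ne hf K hHK h1 y hy (by rw [fl_apply]; exact hc)
  intro χ hχ
  obtain ⟨y, rfl⟩ := fl_surj hf χ
  have hy : f y v = 0 := by
    rw [fl_apply] at hχ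
    rw [hf.skew, hχ, neg_zero]
  have h5 := (hall y hy).2 1
  rwa [one_smul] at h5

/-- `y` is scaled by `c` under `g` against every vector -/
def Sim (f : (Fin n → F) → (Fin n → F) → F) (g : Matrix.GeneralLinearGroup (Fin n) F) (c : F)
    (y : Fin n → F) : Prop :=
  ∀ x, f ((g : Matrix (Fin n) (Fin n) F) *ᵥ x) ((g : Matrix (Fin n) (Fin n) F) *ᵥ y) = c * f x y

theorem Sim_smul (hf : Cfsg.Geo.IsSymplecticForm f) (g : Matrix.GeneralLinearGroup (Fin n) F)
    {c : F} {y : Fin n → F} (h : Sim f g c y) (a : F) : Sim f g c (a • y) := by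
  intro x
  rw [Matrix.mulVec_smul, hf.bilinear.smul_right, hf.bilinear.smul_right, h x]
  ring

theorem g_inj0 (g : Matrix.GeneralLinearGroup (Fin n) F) (y : Fin n → F)
    (h : (g : Matrix (Fin n) (Fin n) F) *ᵥ y = 0) : y = 0 :=
  g_inj g y 0 (by rw [h, Matrix.mulVec_zero])

theorem Sim_ne (hf : Cfsg.Geo.IsSymplecticForm f) (g : Matrix.GeneralLinearGroup (Fin n) F)
    {c : F} {y : Fin n → F} (h : Sim f g c y) (hy : y ≠ 0) : c ≠ 0 := by
  rintro rfl
  have hgy : (g : Matrix (Fin n) (Fin n) F) *ᵥ y ≠ 0 := fun h0 => hy (g_inj0 g y h0)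
  obtain ⟨z, hz⟩ := (hf.nondegenerate _ hgy).1
  apply hz
  have h1 := h (((g⁻¹ : Matrix.GeneralLinearGroup (Fin n) F) : Matrix (Fin n) (Fin n) F) *ᵥ z)
  rw [mul_inv_mulVec, zero_mul] at h1
  exact h1

theorem exists_bad (hf : Cfsg.Geo.IsSymplecticForm f) (hn : 0 < n)
    (g : Matrix.GeneralLinearGroup (Fin n) F) (hg : g ∉ Cfsg.Geo.similarityGroup f) :
    ∃ y : Fin n → F, y ≠ 0 ∧ ∀ c : F, ¬ Sim f g c y := by
  by_contra hcon
  push Not at hcon
  obtain ⟨y₀, hy₀⟩ : ∃ y₀ : Fin n → F, y₀ ≠ 0 := by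
    refine ⟨Pi.single ⟨0, hn⟩ 1, fun h => ?_⟩
    have h1 := congrFun h ⟨0, hn⟩
    rw [Pi.single_eq_same, Pi.zero_apply] at h1
    exact one_ne_zero h1
  obtain ⟨c₀, h₀⟩ := hcon y₀ hy₀
  have hc₀ := Sim_ne hf g h₀ hy₀
  have hnot : ¬ ∀ u v, f ((g : Matrix (Fin n) (Fin n) F) *ᵥ u)
      ((g : Matrix (Fin n) (Fin n) F) *ᵥ v) = c₀ * f u v :=
    fun hall => hg ⟨Units.mk0 c₀ hc₀, hall⟩
  push Not at hnot
  obtain ⟨u, v, huv⟩ := hnot
  have hv : ¬ Sim f g c₀ v := fun h => huv (h u)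
  have hdep : ∀ a : F, v ≠ a • y₀ := fun a h => hv (h ▸ Sim_smul hf g h₀ a)
  have hv0 : v ≠ 0 := fun h => hdep 0 (by rw [h, zero_smul])
  obtain ⟨c₁, h₁⟩ := hcon v hv0
  have hc01 : c₁ ≠ c₀ := fun h => hv (h ▸ h₁)
  have hsum : y₀ + v ≠ 0 := fun h => hdep (-1) (by
    rw [neg_one_smul]
    exact eq_neg_of_add_eq_zero_right h)
  obtain ⟨c₂, h₂⟩ := hcon (y₀ + v) hsum
  have hz : (c₂ - c₀) • y₀ + (c₂ - c₁) • v = 0 := by
    by_contra hne
    obtain ⟨x, hx⟩ := (hf.nondegenerate _ hne).1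
    apply hx
    have e2 := h₂ x
    rw [Matrix.mulVec_add, hf.bilinear.add_right, h₀ x, h₁ x, hf.bilinear.add_right] at e2
    rw [hf.bilinear.add_right, hf.bilinear.smul_right, hf.bilinear.smul_right]
    linear_combination -e2
  by_cases hc : c₂ = c₁
  · rw [hc, sub_self, zero_smul, add_zero] at hz
    exact hy₀ ((smul_eq_zero.mp hz).resolve_left (sub_ne_zero.mpr hc01))
  · have hne : c₂ - c₁ ≠ 0 := sub_ne_zero.mpr hc
    have h3 : (c₂ - c₁) • v = -((c₂ - c₀) • y₀) := eq_neg_of_add_eq_zero_right hz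
    apply hdep ((c₂ - c₁)⁻¹ * -(c₂ - c₀))
    rw [← smul_smul, neg_smul, ← h3, smul_smul, inv_mul_cancel₀ hne, one_smul]

theorem move (hf : Cfsg.Geo.IsSymplecticForm f) (a b : Fin n → F) (hab : f a b ≠ 0) :
    ((st hf (a - b) (f a b)⁻¹ : Matrix.GeneralLinearGroup (Fin n) F) :
      Matrix (Fin n) (Fin n) F) *ᵥ a = b := by
  rw [st_mulVec]
  have e : f a (a - b) = - f a b := by
    rw [hf.skew a (a - b)]
    show -(fl hf a (a - b)) = _
    rw [map_sub, fl_apply, fl_apply, hf.alternating, zero_sub, neg_neg, hf.skew b a]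
  rw [e, mul_neg, inv_mul_cancel₀ hab, neg_one_smul]
  abel

theorem full_move (hf : Cfsg.Geo.IsSymplecticForm f)
    (K : Subgroup (Matrix.GeneralLinearGroup (Fin n) F))
    (hHK : Cfsg.Geo.similarityGroup f ⊓ Cfsg.Geo.specialLinear (Fin n) F ≤ K)
    {a b : Fin n → F} (hab : f a b ≠ 0)
    (hfull : ∀ χ : Module.Dual F (Fin n → F), χ a = 0 → TK K χ a) :
    ∀ χ : Module.Dual F (Fin n → F), χ b = 0 → TK K χ b := by
  intro χ hχ
  obtain ⟨t, ht⟩ : ∃ t, t = st hf (a - b) (f a b)⁻¹ := ⟨_, rfl⟩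
  have hta : (t : Matrix (Fin n) (Fin n) F) *ᵥ a = b := by
    rw [ht]
    exact move hf a b hab
  have htK : t ∈ K := by
    rw [ht]
    exact hHK (st_mem hf _ _)
  refine TK_conj K t htK (hfull (χ ∘ₗ Matrix.toLin' (t : Matrix (Fin n) (Fin n) F)) ?_) hta ?_
  · rw [LinearMap.comp_apply, Matrix.toLin'_apply, hta]
    exact hχ
  · intro y
    rw [LinearMap.comp_apply, Matrix.toLin'_apply]

theorem exists_mid (hf : Cfsg.Geo.IsSymplecticForm f) {a b : Fin n → F} (ha : a ≠ 0)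
    (hb : b ≠ 0) : ∃ z, f a z ≠ 0 ∧ f z b ≠ 0 := by
  obtain ⟨z₁, h1⟩ := (hf.nondegenerate a ha).2
  obtain ⟨z₂, h2⟩ := (hf.nondegenerate b hb).1
  by_cases c1 : f z₁ b = 0
  · by_cases c2 : f a z₂ = 0
    · refine ⟨z₁ + z₂, ?_, ?_⟩
      · rw [hf.bilinear.add_right, c2, add_zero]
        exact h1
      · rw [hf.bilinear.add_left, c1, zero_add]
        exact h2
    · exact ⟨z₂, c2, h2⟩
  · exact ⟨z₁, h1, c1⟩

theorem all_TK (hf : Cfsg.Geo.IsSymplecticForm f)
    (K : Subgroup (Matrix.GeneralLinearGroup (Fin n) F))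
    (hHK : Cfsg.Geo.similarityGroup f ⊓ Cfsg.Geo.specialLinear (Fin n) F ≤ K)
    (g : Matrix.GeneralLinearGroup (Fin n) F) (hgK : g ∈ K)
    (hg : g ∉ Cfsg.Geo.similarityGroup f) (hn : 0 < n)
    (χ : Module.Dual F (Fin n → F)) (b : Fin n → F) (hχ : χ b = 0) : TK K χ b := by
  obtain ⟨y, hy0, hbad⟩ := exists_bad hf hn g hg
  obtain ⟨v₀, hv₀⟩ : ∃ v₀, v₀ = (g : Matrix (Fin n) (Fin n) F) *ᵥ y := ⟨_, rfl⟩
  have hv₀0 : v₀ ≠ 0 := fun h => hy0 (g_inj0 g y (hv₀ ▸ h))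
  obtain ⟨φ₀, hφ₀⟩ : ∃ φ₀ : Module.Dual F (Fin n → F), φ₀ = fl hf y ∘ₗ
      Matrix.toLin' ((g⁻¹ : Matrix.GeneralLinearGroup (Fin n) F) : Matrix (Fin n) (Fin n) F) :=
    ⟨_, rfl⟩
  have hφ₀g : ∀ x, φ₀ ((g : Matrix (Fin n) (Fin n) F) *ᵥ x) = f x y := by
    intro x
    have h1 := mul_inv_mulVec g⁻¹ x
    rw [inv_inv] at h1
    rw [hφ₀, LinearMap.comp_apply, Matrix.toLin'_apply, h1, fl_apply]
  have hyy : TK K (fl hf y) y := by
    have h1 := TK_st hf K hHK y 1
    rwa [one_smul] at h1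
  have h0 : TK K φ₀ v₀ := TK_conj K g hgK hyy hv₀.symm (fun x => by rw [hφ₀g, fl_apply])
  have hprop : ∀ c : F, φ₀ ≠ c • fl hf v₀ := by
    intro c hc
    have h1 : ∀ x, f x y = c * f ((g : Matrix (Fin n) (Fin n) F) *ᵥ x)
        ((g : Matrix (Fin n) (Fin n) F) *ᵥ y) := by
      intro x
      rw [← hφ₀g x, hc, LinearMap.smul_apply, fl_apply, smul_eq_mul, hv₀]
    have hc0 : c ≠ 0 := by
      rintro rfl
      obtain ⟨x, hx⟩ := (hf.nondegenerate y hy0).1
      apply hx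
      rw [h1 x, zero_mul]
    apply hbad c⁻¹
    intro x
    rw [h1 x, ← mul_assoc, inv_mul_cancel₀ hc0, one_mul]
  have hfull := full_at hf K hHK h0 hprop hv₀0
  by_cases hb : b = 0
  · rw [hb]
    exact TK_zero K χ
  · obtain ⟨z, hz1, hz2⟩ := exists_mid hf hv₀0 hb
    exact full_move hf K hHK hz2 (full_move hf K hHK hz1 hfull) χ hχ

theorem tv_not_sim (hf : Cfsg.Geo.IsSymplecticForm f) (φ : Module.Dual F (Fin n → F))
    (v : Fin n → F) (hv : v ≠ 0) (h0 : φ v = 0) (hφ : ∀ c : F, φ ≠ c • fl hf v)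
    (hu : 1 + φ v ≠ 0) : tvG φ v hu ∉ Cfsg.Geo.similarityGroup f := by
  rintro ⟨c, hc⟩
  obtain ⟨a, ha⟩ : ∃ a, f a v = 1 := by
    obtain ⟨x, hx⟩ := (hf.nondegenerate v hv).1
    exact ⟨(f x v)⁻¹ • x, by rw [hf.bilinear.smul_left, inv_mul_cancel₀ hx]⟩
  have hc' : ∀ u w, f u w + φ w * f u v + φ u * f v w = c * f u w := by
    intro u w
    have h1 := hc u w
    rw [tvG_mulVec, tvG_mulVec] at h1
    simp only [hf.bilinear.add_left, hf.bilinear.add_right, hf.bilinear.smul_left,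
      hf.bilinear.smul_right, hf.alternating] at h1
    linear_combination h1
  have hc1 : (c : F) = 1 := by
    have h1 := hc' a v
    rw [h0, ha, hf.alternating] at h1
    linear_combination -h1
  apply hφ (φ a)
  refine LinearMap.ext fun x => ?_
  have h2 := hc' a x
  rw [hc1, ha, hf.skew v x] at h2
  rw [LinearMap.smul_apply, fl_apply, smul_eq_mul]
  linear_combination h2

theorem exists_nonsim (hf : Cfsg.Geo.IsSymplecticForm f) (hn : 3 ≤ n) :
    ∃ g ∈ Cfsg.Geo.specialLinear (Fin n) F, g ∉ Cfsg.Geo.similarityGroup f := by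
  obtain ⟨i0, hi0⟩ : ∃ i0 : Fin n, i0 = ⟨0, by omega⟩ := ⟨_, rfl⟩
  obtain ⟨i1, hi1⟩ : ∃ i1 : Fin n, i1 = ⟨1, by omega⟩ := ⟨_, rfl⟩
  obtain ⟨i2, hi2⟩ : ∃ i2 : Fin n, i2 = ⟨2, by omega⟩ := ⟨_, rfl⟩
  have h01 : i1 ≠ i0 := by
    rw [hi0, hi1]
    intro h
    simp [Fin.ext_iff] at h
  have h02 : i2 ≠ i0 := by
    rw [hi0, hi2]
    intro h
    simp [Fin.ext_iff] at h
  have h12 : i1 ≠ i2 := by
    rw [hi1, hi2]
    intro h
    simp [Fin.ext_iff] at h
  obtain ⟨v, hv⟩ : ∃ v : Fin n → F, v = Pi.single i0 1 := ⟨_, rfl⟩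
  have hv0 : v ≠ 0 := by
    intro h
    have h1 := congrFun h i0
    rw [hv, Pi.single_eq_same, Pi.zero_apply] at h1
    exact one_ne_zero h1
  have key : ∃ φ : Module.Dual F (Fin n → F), φ v = 0 ∧ ∀ c : F, φ ≠ c • fl hf v := by
    by_contra hcon
    push Not at hcon
    obtain ⟨c₁, h1⟩ := hcon (LinearMap.proj i1) (by
      rw [hv, LinearMap.proj_apply, Pi.single_eq_of_ne h01])
    obtain ⟨c₂, h2⟩ := hcon (LinearMap.proj i2) (by
      rw [hv, LinearMap.proj_apply, Pi.single_eq_of_ne h02])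
    have a1 := LinearMap.congr_fun h1 (Pi.single i1 1)
    have a2 := LinearMap.congr_fun h1 (Pi.single i2 1)
    have a3 := LinearMap.congr_fun h2 (Pi.single i2 1)
    rw [LinearMap.proj_apply, Pi.single_eq_same, LinearMap.smul_apply, fl_apply,
      smul_eq_mul] at a1 a3
    rw [LinearMap.proj_apply, Pi.single_eq_of_ne h12, LinearMap.smul_apply, fl_apply,
      smul_eq_mul] at a2
    have hc1 : c₁ ≠ 0 := by
      rintro rfl
      rw [zero_mul] at a1
      exact one_ne_zero a1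
    have hf2 : f (Pi.single i2 1) v = 0 := by
      rcases mul_eq_zero.mp a2.symm with h | h
      · exact absurd h hc1
      · exact h
    rw [hf2, mul_zero] at a3
    exact one_ne_zero a3
  obtain ⟨φ, h0, hφ⟩ := key
  have hu : 1 + φ v ≠ 0 := by
    rw [h0, add_zero]
    exact one_ne_zero
  exact ⟨tvG φ v hu, (mem_sl_iff _).mpr (by rw [tvG_det, h0, add_zero]),
    tv_not_sim hf φ v hv0 h0 hφ hu⟩

end

/-- For a finite field F and n ≥ 13, let f be a non-degenerate symplectic form on F^n (so n is even). Then the elements of SL_n(F) that are similarities of f (f(gu, gv) = c f(u, v) for a non-zero scalar c depending on g) form a maximal subgroup of SL_n(F). -/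
theorem result {F : Type*} [Field F] [Fintype F] (n : ℕ) (hn : 13 ≤ n) (f : (Fin n → F) → (Fin n → F) → F) (hf : Cfsg.Geo.IsSymplecticForm f) : Cfsg.Geo.IsMaximalIn (Cfsg.Geo.specialLinear (Fin n) F) (Cfsg.Geo.similarityGroup f ⊓ Cfsg.Geo.specialLinear (Fin n) F) := by
  have hn3 : 3 ≤ n := by omega
  have hn0 : 0 < n := by omega
  refine ⟨lt_of_le_of_ne inf_le_right ?_, ?_⟩
  · intro heq
    obtain ⟨g, hg, hg'⟩ := exists_nonsim hf hn3
    rw [← heq] at hg
    exact hg' hg.1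
  · intro K hHK hKle
    by_cases hKH : K = Cfsg.Geo.similarityGroup f ⊓ Cfsg.Geo.specialLinear (Fin n) F
    · exact Or.inl hKH
    · right
      apply le_antisymm hKle
      obtain ⟨g, hgK, hgH⟩ : ∃ g ∈ K,
          g ∉ Cfsg.Geo.similarityGroup f ⊓ Cfsg.Geo.specialLinear (Fin n) F := by
        by_contra hcon
        push Not at hcon
        exact hKH (le_antisymm (fun x hx => hcon x hx) hHK)
      have hgS : g ∉ Cfsg.Geo.similarityGroup f := fun h => hgH ⟨h, hKle hgK⟩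
      exact sl_le_of_tv K (fun φ v hu h0 => (all_TK hf K hHK g hgK hgS hn0 φ v h0).2 hu)

end Cfsg.Agent.S5642
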