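import Cfsg.Statements.S5643
import Mathlib
import Cfsg.Agent.S5642

set_option autoImplicit false
open Cfsg

namespace Cfsg.Agent.S5643

open Cfsg.Agent.S5635 (tvG tvG_mulVec tvG_det mem_sl_iff)
open Cfsg.Agent.S5631 (gl_ext mul_inv_mulVec)
open Cfsg.Agent.S5642 (TK TK_sub TK_conj TK_zero g_inj0)
open Cfsg.Agent.Lib.Helper9.SLGen (sl_le_of_tv)
open scoped Matrix

section
variable {F : Type*} [Field F] [Fintype F] {n : ℕ} {σ : F ≃+* F}
  {f : (Fin n → F) → (Fin n → F) → F}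

theorem f_add_right (hf : Cfsg.Geo.IsUnitaryForm σ f) (v x y : Fin n → F) :
    f v (x + y) = f v x + f v y := by
  rw [hf.herm v (x + y), hf.add_left, map_add, ← hf.herm, ← hf.herm]

theorem f_smul_right (hf : Cfsg.Geo.IsUnitaryForm σ f) (c : F) (v x : Fin n → F) :
    f v (c • x) = σ c * f v x := by
  rw [hf.herm v (c • x), hf.smul_left, map_mul, ← hf.herm]

theorem herm' (hf : Cfsg.Geo.IsUnitaryForm σ f) (v w : Fin n → F) : σ (f v w) = f w v :=
  (hf.herm w v).symm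

theorem herm_self (hf : Cfsg.Geo.IsUnitaryForm σ f) (x : Fin n → F) : σ (f x x) = f x x :=
  (hf.herm x x).symm

theorem herm_ne (hf : Cfsg.Geo.IsUnitaryForm σ f) {x y : Fin n → F} (h : f y x ≠ 0) :
    f x y ≠ 0 :=
  fun h0 => h (by rw [hf.herm y x, h0, map_zero])

theorem herm_zero (hf : Cfsg.Geo.IsUnitaryForm σ f) {x y : Fin n → F} (h : f y x = 0) :
    f x y = 0 := by
  rw [hf.herm x y, h, map_zero]

theorem f_zero_left (hf : Cfsg.Geo.IsUnitaryForm σ f) (v : Fin n → F) : f 0 v = 0 := by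
  have h := hf.smul_left 0 0 v
  rw [zero_smul, zero_mul] at h
  exact h

theorem f_zero_right (hf : Cfsg.Geo.IsUnitaryForm σ f) (v : Fin n → F) : f v 0 = 0 :=
  herm_zero hf (f_zero_left hf v)

theorem f_neg_right (hf : Cfsg.Geo.IsUnitaryForm σ f) (v x : Fin n → F) :
    f v (-x) = -f v x := by
  have h := f_smul_right hf (-1) v x
  rw [neg_one_smul, map_neg, map_one, neg_one_mul] at h
  exact h

theorem f_sub_right (hf : Cfsg.Geo.IsUnitaryForm σ f) (v x y : Fin n → F) :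
    f v (x - y) = f v x - f v y := by
  rw [sub_eq_add_neg, f_add_right hf, f_neg_right hf, ← sub_eq_add_neg]

/-- the functional `x ↦ f x y` -/
noncomputable def fl (hf : Cfsg.Geo.IsUnitaryForm σ f) (y : Fin n → F) :
    (Fin n → F) →ₗ[F] F where
  toFun x := f x y
  map_add' a b := hf.add_left a b y
  map_smul' c a := hf.smul_left c a y

theorem fl_apply (hf : Cfsg.Geo.IsUnitaryForm σ f) (y x : Fin n → F) : fl hf y x = f x y := rfl

theorem f_sub_left (hf : Cfsg.Geo.IsUnitaryForm σ f) (x y v : Fin n → F) :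
    f (x - y) v = f x v - f y v :=
  map_sub (fl hf v) x y

theorem fl_add (hf : Cfsg.Geo.IsUnitaryForm σ f) (y y' : Fin n → F) :
    fl hf (y + y') = fl hf y + fl hf y' :=
  LinearMap.ext fun x => show f x (y + y') = f x y + f x y' from f_add_right hf x y y'

theorem fl_sub (hf : Cfsg.Geo.IsUnitaryForm σ f) (y y' : Fin n → F) :
    fl hf (y - y') = fl hf y - fl hf y' :=
  LinearMap.ext fun x => show f x (y - y') = f x y - f x y' from f_sub_right hf x y y'

theorem fl_smul (hf : Cfsg.Geo.IsUnitaryForm σ f) (c : F) (y : Fin n → F) :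
    fl hf (c • y) = σ c • fl hf y :=
  LinearMap.ext fun x => show f x (c • y) = σ c * f x y from f_smul_right hf c x y

theorem fl_inj_u (hf : Cfsg.Geo.IsUnitaryForm σ f) : Function.Injective (fl hf) := by
  intro y y' h
  by_contra hne
  obtain ⟨x, hx⟩ := (hf.nondegenerate (y - y') (sub_ne_zero.mpr hne)).1
  apply hx
  rw [← fl_apply hf, fl_sub hf, h, sub_self, LinearMap.zero_apply]

theorem fl_surj_u (hf : Cfsg.Geo.IsUnitaryForm σ f) : Function.Surjective (fl hf) :=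
  (Finite.injective_iff_surjective_of_equiv
    (Pi.basisFun F (Fin n)).toDualEquiv.toEquiv).mp (fl_inj_u hf)

theorem exists_moved (hf : Cfsg.Geo.IsUnitaryForm σ f) : ∃ θ : F, σ θ ≠ θ := by
  by_contra hcon
  push Not at hcon
  exact hf.ne_refl (RingEquiv.ext (fun a => hcon a))

theorem exists_eps (hf : Cfsg.Geo.IsUnitaryForm σ f) : ∃ e : F, e ≠ 0 ∧ e + σ e = 0 := by
  obtain ⟨θ, hθ⟩ := exists_moved hf
  refine ⟨θ - σ θ, sub_ne_zero.mpr (Ne.symm hθ), ?_⟩
  rw [map_sub, hf.involutive]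
  ring

theorem exists_tr_ne (hf : Cfsg.Geo.IsUnitaryForm σ f) : ∃ θ : F, θ + σ θ ≠ 0 := by
  by_cases h2 : (1 : F) + 1 = 0
  · obtain ⟨θ, hθ⟩ := exists_moved hf
    refine ⟨θ, fun h => hθ ?_⟩
    linear_combination h - θ * h2
  · exact ⟨1, by rw [map_one]; exact h2⟩

theorem tr_surj (hf : Cfsg.Geo.IsUnitaryForm σ f) (s : F) (hs : σ s = s) :
    ∃ t : F, t + σ t = s := by
  obtain ⟨θ, hθ⟩ := exists_tr_ne hf
  refine ⟨s * θ / (θ + σ θ), ?_⟩
  rw [map_div₀, map_mul, map_add, hf.involutive, hs, add_comm (σ θ) θ, ← add_div, ← mul_add,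
    mul_div_assoc, div_self hθ, mul_one]

theorem iso_adjust (hf : Cfsg.Geo.IsUnitaryForm σ f) {x y : Fin n → F} (hy : f y y = 0)
    (hyx : f y x ≠ 0) : ∃ t : F, f (x + t • y) (x + t • y) = 0 := by
  obtain ⟨s, hs⟩ := tr_surj hf (-(f x x)) (by rw [map_neg, herm_self hf])
  refine ⟨s / f y x, ?_⟩
  have e1 : σ (s / f y x) * f x y = σ s := by
    rw [map_div₀, herm' hf y x]
    exact div_mul_cancel₀ _ (herm_ne hf hyx)
  have e2 : s / f y x * f y x = s := div_mul_cancel₀ _ hyx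
  simp only [hf.add_left, hf.smul_left, f_add_right hf, f_smul_right hf, hy, mul_zero, add_zero]
  linear_combination hs + e1 + e2

/-- the fixed field of `σ` -/
def fixF (σ : F ≃+* F) : Subfield F where
  carrier := {x | σ x = x}
  mul_mem' {a b} ha hb := by
    have ha' : σ a = a := ha
    have hb' : σ b = b := hb
    show σ (a * b) = a * b
    rw [map_mul, ha', hb']
  one_mem' := map_one σ
  add_mem' {a b} ha hb := by
    have ha' : σ a = a := ha
    have hb' : σ b = b := hb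
    show σ (a + b) = a + b
    rw [map_add, ha', hb']
  zero_mem' := map_zero σ
  neg_mem' {a} ha := by
    have ha' : σ a = a := ha
    show σ (-a) = -a
    rw [map_neg, ha']
  inv_mem' a ha := by
    have ha' : σ a = a := ha
    show σ a⁻¹ = a⁻¹
    rw [map_inv₀, ha']

theorem norm_surj (hf : Cfsg.Geo.IsUnitaryForm σ f) (c : F) (hc : σ c = c) :
    ∃ b : F, b * σ b = c := by
  by_cases h2 : (2 : F) = 0
  · have hch : ringChar F = 2 :=
      CharP.ringChar_of_prime_eq_zero Nat.prime_two (by exact_mod_cast h2)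
    obtain ⟨d, hd⟩ := FiniteField.isSquare_of_char_two hch c
    have h4 : σ d * σ d = d * d := by rw [← map_mul, ← hd, hc]
    have h3 : (σ d - d) * (σ d - d) = 0 := by
      linear_combination h4 + (d * (d - σ d)) * h2
    have h5 : σ d = d := sub_eq_zero.mp (mul_self_eq_zero.mp h3)
    exact ⟨d, by rw [h5, ← hd]⟩
  · obtain ⟨ε, hε0, hε⟩ := exists_eps hf
    have hσε : σ ε = -ε := by linear_combination hε
    have hεε : σ (ε * ε) = ε * ε := by
      rw [map_mul, hσε]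
      ring
    haveI : Fintype (fixF σ) := Fintype.ofFinite _
    have hch : ringChar (fixF σ) ≠ 2 := by
      intro h
      have h3 : ((2 : ℕ) : fixF σ) = 0 := (ringChar.spec (fixF σ) 2).mpr (by rw [h])
      have h4 : (((2 : ℕ) : fixF σ) : F) = ((0 : fixF σ) : F) := congrArg Subtype.val h3
      apply h2
      rw [Subfield.coe_zero, SubringClass.coe_natCast] at h4
      exact_mod_cast h4
    have hodd : Fintype.card (fixF σ) % 2 = 1 := FiniteField.odd_card_of_char_ne_two hch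
    obtain ⟨c₀, hc₀⟩ : ∃ c₀ : fixF σ, (c₀ : F) = c := ⟨⟨c, hc⟩, rfl⟩
    obtain ⟨e₀, he₀⟩ : ∃ e₀ : fixF σ, (e₀ : F) = ε * ε := ⟨⟨ε * ε, hεε⟩, rfl⟩
    have he₀0 : -e₀ ≠ 0 := by
      intro h
      have h6 : ((-e₀ : fixF σ) : F) = ((0 : fixF σ) : F) := congrArg Subtype.val h
      rw [Subfield.coe_neg, he₀, Subfield.coe_zero] at h6
      exact hε0 (mul_self_eq_zero.mp (neg_eq_zero.mp h6))
    have hd1 : (Polynomial.X ^ 2 - Polynomial.C c₀ : Polynomial (fixF σ)).degree = 2 := by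
      have h7 := Polynomial.degree_X_pow_sub_C (n := 2) (by norm_num) c₀
      exact_mod_cast h7
    have hd2 : (Polynomial.C (-e₀) * Polynomial.X ^ 2 : Polynomial (fixF σ)).degree = 2 := by
      have h7 := Polynomial.degree_C_mul_X_pow 2 he₀0
      exact_mod_cast h7
    obtain ⟨a, b, hab⟩ := FiniteField.exists_root_sum_quadratic hd1 hd2 hodd
    simp only [Polynomial.eval_sub, Polynomial.eval_pow, Polynomial.eval_X, Polynomial.eval_C,
      Polynomial.eval_mul] at hab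
    have hab' : ((a ^ 2 - c₀ + -e₀ * b ^ 2 : fixF σ) : F) = ((0 : fixF σ) : F) :=
      congrArg Subtype.val hab
    push_cast at hab'
    rw [hc₀, he₀] at hab'
    have ha : σ (a : F) = a := a.2
    have hb : σ (b : F) = b := b.2
    refine ⟨(a : F) + (b : F) * ε, ?_⟩
    rw [map_add, map_mul, ha, hb, hσε]
    linear_combination hab'

theorem ker_ne (L : List (Module.Dual F (Fin n → F))) (hk : L.length < n) :
    ∃ y : Fin n → F, y ≠ 0 ∧ ∀ ψ ∈ L, ψ y = 0 := by
  have h1 : LinearMap.ker (LinearMap.pi (fun i : Fin L.length => L.get i)) ≠ ⊥ := by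
    apply LinearMap.ker_ne_bot_of_finrank_lt
    simp only [Module.finrank_fintype_fun_eq_card, Fintype.card_fin]
    exact hk
  obtain ⟨y, hy, hy0⟩ := (Submodule.ne_bot_iff _).mp h1
  refine ⟨y, hy0, fun ψ hψ => ?_⟩
  obtain ⟨i, rfl⟩ := List.mem_iff_get.mp hψ
  exact congrFun (LinearMap.mem_ker.mp hy) i

theorem iso_ker (hf : Cfsg.Geo.IsUnitaryForm σ f) (L : List (Module.Dual F (Fin n → F)))
    (hk : L.length + 1 < n) :
    ∃ y : Fin n → F, y ≠ 0 ∧ f y y = 0 ∧ ∀ ψ ∈ L, ψ y = 0 := by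
  obtain ⟨x, hx0, hx⟩ := ker_ne L (by omega)
  by_cases hxx : f x x = 0
  · exact ⟨x, hx0, hxx, hx⟩
  obtain ⟨y, hy0, hy⟩ := ker_ne (fl hf x :: L) (by rw [List.length_cons]; exact hk)
  have hyx : f y x = 0 := hy (fl hf x) (by simp)
  have hyL : ∀ ψ ∈ L, ψ y = 0 := fun ψ hψ => hy ψ (List.mem_cons_of_mem _ hψ)
  by_cases hyy : f y y = 0
  · exact ⟨y, hy0, hyy, hyL⟩
  obtain ⟨b, hb⟩ := norm_surj hf (-(f x x) / f y y) (by
    rw [map_div₀, map_neg, herm_self hf, herm_self hf])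
  have hxy : f x y = 0 := herm_zero hf hyx
  have hiso : f (x + b • y) (x + b • y) = 0 := by
    simp only [hf.add_left, hf.smul_left, f_add_right hf, f_smul_right hf, hxy, hyx, mul_zero,
      add_zero, zero_add]
    have h3 : b * σ b * f y y = -(f x x) := by rw [hb, div_mul_cancel₀ _ hyy]
    linear_combination h3
  refine ⟨x + b • y, ?_, hiso, fun ψ hψ => ?_⟩
  · intro h0
    apply hxx
    have h4 : f (x + b • y) x = 0 := by rw [h0, f_zero_left hf]
    rw [hf.add_left, hf.smul_left, hyx, mul_zero, add_zero] at h4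
    exact h4
  · rw [map_add, map_smul, hx ψ hψ, hyL ψ hψ, smul_zero, add_zero]

theorem iso_kn (hf : Cfsg.Geo.IsUnitaryForm σ f) (hn : 5 ≤ n)
    (κ ν : Module.Dual F (Fin n → F)) {x₀ : Fin n → F} (hκ : κ x₀ = 0) (hν : ν x₀ ≠ 0) :
    ∃ z : Fin n → F, f z z = 0 ∧ κ z = 0 ∧ ν z ≠ 0 := by
  obtain ⟨q, hq⟩ : ∃ q : Fin n → F, ∀ x, κ (x - κ x • q) = 0 := by
    by_cases h0 : κ = 0
    · exact ⟨0, fun x => by rw [h0, LinearMap.zero_apply]⟩
    · obtain ⟨q₀, hq₀⟩ : ∃ q₀, κ q₀ ≠ 0 := by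
        by_contra hcon
        push Not at hcon
        exact h0 (LinearMap.ext hcon)
      refine ⟨(κ q₀)⁻¹ • q₀, fun x => ?_⟩
      rw [map_sub, map_smul, map_smul, smul_eq_mul, smul_eq_mul, inv_mul_cancel₀ hq₀, mul_one,
        sub_self]
  obtain ⟨y, hy0, hyy, hyL⟩ := iso_ker hf [κ, ν, fl hf q] (by
    simp only [List.length_cons, List.length_nil]
    omega)
  have hyκ : κ y = 0 := hyL κ (by simp)
  have hyν : ν y = 0 := hyL ν (by simp)
  have hyq : f y q = 0 := hyL (fl hf q) (by simp)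
  obtain ⟨x, hx⟩ := (hf.nondegenerate y hy0).1
  have hx' : f y (x - κ x • q) ≠ 0 := by
    rw [f_sub_right hf, f_smul_right hf, hyq, mul_zero, sub_zero]
    exact herm_ne hf hx
  have hκ' := hq x
  obtain ⟨x₁, h1κ, h1ν, h1y⟩ : ∃ x₁, κ x₁ = 0 ∧ ν x₁ ≠ 0 ∧ f y x₁ ≠ 0 := by
    by_cases c1 : f y x₀ = 0
    · by_cases c2 : ν (x - κ x • q) = 0
      · refine ⟨x₀ + (x - κ x • q), ?_, ?_, ?_⟩
        · rw [map_add, hκ, hκ', add_zero]
        · rw [map_add, c2, add_zero]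
          exact hν
        · rw [f_add_right hf, c1, zero_add]
          exact hx'
      · exact ⟨x - κ x • q, hκ', c2, hx'⟩
    · exact ⟨x₀, hκ, hν, c1⟩
  obtain ⟨t, ht⟩ := iso_adjust hf hyy h1y
  refine ⟨x₁ + t • y, ht, ?_, ?_⟩
  · rw [map_add, map_smul, h1κ, hyκ, smul_zero, add_zero]
  · rw [map_add, map_smul, hyν, smul_zero, add_zero]
    exact h1ν

theorem ut_mem (hf : Cfsg.Geo.IsUnitaryForm σ f) {y : Fin n → F} (hy : f y y = 0) {c : F}
    (hc : c + σ c = 0) (hu : 1 + (c • fl hf y) y ≠ 0) :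
    tvG (c • fl hf y) y hu ∈
      Cfsg.Geo.similarityGroup f ⊓ Cfsg.Geo.specialLinear (Fin n) F := by
  refine ⟨⟨1, fun u v => ?_⟩, ?_⟩
  · rw [tvG_mulVec, tvG_mulVec, Units.val_one, one_mul]
    simp only [LinearMap.smul_apply, fl_apply, smul_eq_mul, hf.add_left, hf.smul_left,
      f_add_right hf, f_smul_right hf, hy, mul_zero, add_zero, map_mul, herm' hf]
    linear_combination (f u y * f y v) * hc
  · exact (mem_sl_iff _).mpr (by
      rw [tvG_det, LinearMap.smul_apply, fl_apply, hy, smul_zero, add_zero])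

theorem TK_ut (hf : Cfsg.Geo.IsUnitaryForm σ f)
    (K : Subgroup (Matrix.GeneralLinearGroup (Fin n) F))
    (hHK : Cfsg.Geo.similarityGroup f ⊓ Cfsg.Geo.specialLinear (Fin n) F ≤ K)
    {y : Fin n → F} (hy : f y y = 0) {c : F} (hc : c + σ c = 0) : TK K (c • fl hf y) y :=
  ⟨by rw [LinearMap.smul_apply, fl_apply, hy, smul_zero], fun hu => hHK (ut_mem hf hy hc hu)⟩

theorem TK_ustar (hf : Cfsg.Geo.IsUnitaryForm σ f)
    (K : Subgroup (Matrix.GeneralLinearGroup (Fin n) F))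
    (hHK : Cfsg.Geo.similarityGroup f ⊓ Cfsg.Geo.specialLinear (Fin n) F ≤ K)
    {φ : Module.Dual F (Fin n → F)} {v : Fin n → F} (h : TK K φ v) {y : Fin n → F}
    (hy : f y y = 0) (hvy : f v y = 0) {c : F} (hc : c + σ c = 0) :
    TK K (φ - (c * φ y) • fl hf y) v := by
  have hu : 1 + (c • fl hf y) y ≠ 0 := by
    rw [LinearMap.smul_apply, fl_apply, hy, smul_zero, add_zero]
    exact one_ne_zero
  apply TK_conj K (tvG (c • fl hf y) y hu) (hHK (ut_mem hf hy hc hu)) h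
  · rw [tvG_mulVec, LinearMap.smul_apply, fl_apply, hvy, smul_zero, zero_smul, add_zero]
  · intro x
    simp only [tvG_mulVec, LinearMap.sub_apply, LinearMap.smul_apply, fl_apply, map_add,
      map_smul, hf.add_left, hf.smul_left, hy, smul_eq_mul, mul_zero, add_zero]
    ring

theorem sieg_mem (hf : Cfsg.Geo.IsUnitaryForm σ f) {y₁ y₂ : Fin n → F} (h1 : f y₁ y₁ = 0)
    (h2 : f y₂ y₂ = 0) (h12 : f y₁ y₂ = 0) (a : F)
    (hu1 : 1 + (a • fl hf y₂) y₁ ≠ 0) (hu2 : 1 + ((-σ a) • fl hf y₁) y₂ ≠ 0) :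
    tvG (a • fl hf y₂) y₁ hu1 * tvG ((-σ a) • fl hf y₁) y₂ hu2 ∈
      Cfsg.Geo.similarityGroup f ⊓ Cfsg.Geo.specialLinear (Fin n) F := by
  have h21 : f y₂ y₁ = 0 := herm_zero hf h12
  refine ⟨⟨1, fun u v => ?_⟩, ?_⟩
  · rw [Units.val_mul, ← Matrix.mulVec_mulVec, ← Matrix.mulVec_mulVec, Units.val_one, one_mul]
    simp only [tvG_mulVec, LinearMap.smul_apply, fl_apply, smul_eq_mul, hf.add_left,
      hf.smul_left, f_add_right hf, f_smul_right hf, h1, h2, h12, h21, mul_zero, add_zero,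
      zero_add, zero_mul, map_mul, map_neg, map_add, map_zero, neg_zero, herm' hf,
      hf.involutive]
    ring
  · refine (mem_sl_iff _).mpr ?_
    simp only [map_mul, Units.val_mul, tvG_det, LinearMap.smul_apply, fl_apply, h12, h21,
      smul_zero, add_zero, mul_one]

theorem TK_siegel (hf : Cfsg.Geo.IsUnitaryForm σ f)
    (K : Subgroup (Matrix.GeneralLinearGroup (Fin n) F))
    (hHK : Cfsg.Geo.similarityGroup f ⊓ Cfsg.Geo.specialLinear (Fin n) F ≤ K)
    {φ : Module.Dual F (Fin n → F)} {v : Fin n → F} (h : TK K φ v) {y₁ y₂ : Fin n → F}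
    (h1 : f y₁ y₁ = 0) (h2 : f y₂ y₂ = 0) (h12 : f y₁ y₂ = 0) (hv1 : f v y₁ = 0)
    (hv2 : f v y₂ = 0) (hφ2 : φ y₂ = 0) (a : F) : TK K (φ - (a * φ y₁) • fl hf y₂) v := by
  have h21 : f y₂ y₁ = 0 := herm_zero hf h12
  have hu1 : 1 + (a • fl hf y₂) y₁ ≠ 0 := by
    rw [LinearMap.smul_apply, fl_apply, h12, smul_zero, add_zero]
    exact one_ne_zero
  have hu2 : 1 + ((-σ a) • fl hf y₁) y₂ ≠ 0 := by
    rw [LinearMap.smul_apply, fl_apply, h21, smul_zero, add_zero]
    exact one_ne_zero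
  apply TK_conj K _ (hHK (sieg_mem hf h1 h2 h12 a hu1 hu2)) h
  · rw [Units.val_mul, ← Matrix.mulVec_mulVec]
    simp only [tvG_mulVec, LinearMap.smul_apply, fl_apply, hv1, hv2, smul_zero, zero_smul,
      add_zero]
  · intro x
    rw [Units.val_mul, ← Matrix.mulVec_mulVec]
    simp only [tvG_mulVec, LinearMap.sub_apply, LinearMap.smul_apply, fl_apply, map_add,
      map_smul, hf.add_left, hf.smul_left, h2, h12, hφ2, smul_eq_mul, mul_zero, add_zero]
    ring

/-- the vectors `y ⊥ v` all of whose functionals give transvections in `K` with direction `v` -/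
def Yu (hf : Cfsg.Geo.IsUnitaryForm σ f) (K : Subgroup (Matrix.GeneralLinearGroup (Fin n) F))
    (v : Fin n → F) : Set (Fin n → F) :=
  {y | f y v = 0 ∧ ∀ a : F, TK K (a • fl hf y) v}

theorem Yu_sub (hf : Cfsg.Geo.IsUnitaryForm σ f)
    (K : Subgroup (Matrix.GeneralLinearGroup (Fin n) F)) {v y y' : Fin n → F}
    (h : y ∈ Yu hf K v) (h' : y' ∈ Yu hf K v) : y - y' ∈ Yu hf K v := by
  refine ⟨?_, fun a => ?_⟩
  · rw [f_sub_left hf, h.1, h'.1, sub_zero]
  · rw [fl_sub hf, smul_sub]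
    exact TK_sub K (h.2 a) (h'.2 a)

theorem Yu_smul (hf : Cfsg.Geo.IsUnitaryForm σ f)
    (K : Subgroup (Matrix.GeneralLinearGroup (Fin n) F)) {v y : Fin n → F}
    (h : y ∈ Yu hf K v) (b : F) : b • y ∈ Yu hf K v := by
  refine ⟨?_, fun a => ?_⟩
  · rw [hf.smul_left, h.1, mul_zero]
  · rw [fl_smul hf, smul_smul]
    exact h.2 (a * σ b)

theorem Yu_step (hf : Cfsg.Geo.IsUnitaryForm σ f)
    (K : Subgroup (Matrix.GeneralLinearGroup (Fin n) F))
    (hHK : Cfsg.Geo.similarityGroup f ⊓ Cfsg.Geo.specialLinear (Fin n) F ≤ K)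
    {v y y'' : Fin n → F} (h : y ∈ Yu hf K v) (hy'' : f y'' y'' = 0) (hv : f y'' v = 0)
    (hne : f y'' y ≠ 0) : y'' ∈ Yu hf K v := by
  obtain ⟨e, he0, he⟩ := exists_eps hf
  refine ⟨hv, fun b => ?_⟩
  have h1 := h.2 (b / e / f y'' y)
  have h2 := TK_sub K h1 (TK_ustar hf K hHK h1 hy'' (herm_zero hf hv) he)
  rw [sub_sub_cancel, LinearMap.smul_apply, fl_apply, smul_eq_mul] at h2
  have e3 : e * (b / e / f y'' y * f y'' y) = b := by
    rw [div_mul_cancel₀ _ hne, mul_comm, div_mul_cancel₀ _ he0]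
  rw [e3] at h2
  exact h2

theorem full_at_iso (hf : Cfsg.Geo.IsUnitaryForm σ f) (hn : 13 ≤ n)
    (K : Subgroup (Matrix.GeneralLinearGroup (Fin n) F))
    (hHK : Cfsg.Geo.similarityGroup f ⊓ Cfsg.Geo.specialLinear (Fin n) F ≤ K)
    {φ₀ : Module.Dual F (Fin n → F)} {v : Fin n → F} (h : TK K φ₀ v)
    (hφ : ∀ c : F, φ₀ ≠ c • fl hf v) (hv : v ≠ 0) (hvv : f v v = 0) :
    ∀ χ : Module.Dual F (Fin n → F), χ v = 0 → TK K χ v := by
  obtain ⟨a, ha⟩ : ∃ a, f a v = 1 := by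
    obtain ⟨x, hx⟩ := (hf.nondegenerate v hv).1
    exact ⟨(f x v)⁻¹ • x, by rw [hf.smul_left, inv_mul_cancel₀ hx]⟩
  have hker : ∀ x, f (x - f x v • a) v = 0 := by
    intro x
    rw [f_sub_left hf, hf.smul_left, ha, mul_one, sub_self]
  obtain ⟨x₀, hx₀v, hx₀φ⟩ : ∃ x₀, f x₀ v = 0 ∧ φ₀ x₀ ≠ 0 := by
    by_contra hcon
    push Not at hcon
    apply hφ (φ₀ a)
    refine LinearMap.ext fun x => ?_
    have h1 := hcon (x - f x v • a) (hker x)
    rw [map_sub, map_smul, sub_eq_zero] at h1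
    rw [h1, LinearMap.smul_apply, fl_apply, smul_eq_mul, smul_eq_mul, mul_comm]
  have hx₀v' : fl hf v x₀ = 0 := hx₀v
  obtain ⟨y₁, h11, h1v, h1φ⟩ := iso_kn hf (by omega) (fl hf v) φ₀ hx₀v' hx₀φ
  have h1v' : f y₁ v = 0 := h1v
  obtain ⟨y₂, hy₂0, h22, hL⟩ := iso_ker hf [fl hf v, fl hf a, fl hf y₁, φ₀] (by
    simp only [List.length_cons, List.length_nil]
    omega)
  have h2v : f y₂ v = 0 := hL (fl hf v) (by simp)
  have h2a : f y₂ a = 0 := hL (fl hf a) (by simp)
  have h21 : f y₂ y₁ = 0 := hL (fl hf y₁) (by simp)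
  have h2φ : φ₀ y₂ = 0 := hL φ₀ (by simp)
  have hy₂Y : y₂ ∈ Yu hf K v := by
    refine ⟨h2v, fun b => ?_⟩
    have h3 := TK_sub K h (TK_siegel hf K hHK h h11 h22 (herm_zero hf h21)
      (herm_zero hf h1v') (herm_zero hf h2v) h2φ (b / φ₀ y₁))
    rw [sub_sub_cancel, div_mul_cancel₀ _ h1φ] at h3
    exact h3
  have claimA : ∀ x, f x v = 0 → f y₂ x ≠ 0 → x ∈ Yu hf K v := by
    intro x hxv hx2
    obtain ⟨t, ht⟩ := iso_adjust hf h22 hx2
    have h4 : x + t • y₂ ∈ Yu hf K v := by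
      apply Yu_step hf K hHK hy₂Y ht
      · rw [hf.add_left, hf.smul_left, hxv, h2v, mul_zero, add_zero]
      · rw [hf.add_left, hf.smul_left, h22, mul_zero, add_zero]
        exact herm_ne hf hx2
    have h5 := Yu_sub hf K h4 (Yu_smul hf K hy₂Y t)
    rwa [add_sub_cancel_right] at h5
  obtain ⟨x', hx'v, hx'2⟩ : ∃ x', f x' v = 0 ∧ f y₂ x' ≠ 0 := by
    obtain ⟨x, hx⟩ := (hf.nondegenerate y₂ hy₂0).2
    refine ⟨x - f x v • a, hker x, ?_⟩
    rw [f_sub_right hf, f_smul_right hf, h2a, mul_zero, sub_zero]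
    exact hx
  have hall : ∀ x, f x v = 0 → x ∈ Yu hf K v := by
    intro x hxv
    by_cases hc : f y₂ x = 0
    · have h6 : x + x' ∈ Yu hf K v := claimA (x + x')
        (by rw [hf.add_left, hxv, hx'v, add_zero])
        (by rw [f_add_right hf, hc, zero_add]; exact hx'2)
      have h7 := Yu_sub hf K h6 (claimA x' hx'v hx'2)
      rwa [add_sub_cancel_right] at h7
    · exact claimA x hxv hc
  intro χ hχ
  obtain ⟨w, rfl⟩ := fl_surj_u hf χ
  have hχ' : f v w = 0 := hχ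
  have hw : f w v = 0 := herm_zero hf hχ'
  have h8 := (hall w hw).2 1
  rwa [one_smul] at h8

/-- `y` is scaled by `d` under `g` against every vector -/
def USim (f : (Fin n → F) → (Fin n → F) → F) (g : Matrix.GeneralLinearGroup (Fin n) F) (d : F)
    (y : Fin n → F) : Prop :=
  ∀ x, f ((g : Matrix (Fin n) (Fin n) F) *ᵥ x) ((g : Matrix (Fin n) (Fin n) F) *ᵥ y) = d * f x y

theorem USim_add (hf : Cfsg.Geo.IsUnitaryForm σ f) (g : Matrix.GeneralLinearGroup (Fin n) F)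
    {d : F} {y y' : Fin n → F} (h : USim f g d y) (h' : USim f g d y') :
    USim f g d (y + y') := by
  intro x
  rw [Matrix.mulVec_add, f_add_right hf, f_add_right hf, h x, h' x, mul_add]

theorem USim_smul (hf : Cfsg.Geo.IsUnitaryForm σ f) (g : Matrix.GeneralLinearGroup (Fin n) F)
    {d : F} {y : Fin n → F} (h : USim f g d y) (b : F) : USim f g d (b • y) := by
  intro x
  rw [Matrix.mulVec_smul, f_smul_right hf, f_smul_right hf, h x]
  ring

theorem USim_ne (hf : Cfsg.Geo.IsUnitaryForm σ f) (g : Matrix.GeneralLinearGroup (Fin n) F)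
    {d : F} {y : Fin n → F} (h : USim f g d y) (hy : y ≠ 0) : d ≠ 0 := by
  rintro rfl
  have hgy : (g : Matrix (Fin n) (Fin n) F) *ᵥ y ≠ 0 := fun h0 => hy (g_inj0 g y h0)
  obtain ⟨z, hz⟩ := (hf.nondegenerate _ hgy).1
  apply hz
  have h1 := h (((g⁻¹ : Matrix.GeneralLinearGroup (Fin n) F) : Matrix (Fin n) (Fin n) F) *ᵥ z)
  rw [mul_inv_mulVec, zero_mul] at h1
  exact h1

theorem USim_adj (hf : Cfsg.Geo.IsUnitaryForm σ f) (g : Matrix.GeneralLinearGroup (Fin n) F)
    (hall : ∀ z : Fin n → F, z ≠ 0 → f z z = 0 → ∃ d, USim f g d z)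
    {y y' : Fin n → F} (hy : f y y = 0) (hy' : f y' y' = 0) (hne : f y' y ≠ 0) {d d' : F}
    (h : USim f g d y) (h' : USim f g d' y') : d = d' := by
  obtain ⟨e, he0, he⟩ := exists_eps hf
  obtain ⟨b, hb⟩ : ∃ b : F, b = e / f y' y := ⟨_, rfl⟩
  have hb0 : b ≠ 0 := by
    rw [hb]
    exact div_ne_zero he0 hne
  have hbf : b * f y' y = e := by rw [hb, div_mul_cancel₀ _ hne]
  have hne' : f y y' ≠ 0 := herm_ne hf hne
  have hbf' : σ b * f y y' = σ e := by rw [← hbf, map_mul, herm' hf]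
  have hiso : f (y + b • y') (y + b • y') = 0 := by
    simp only [hf.add_left, hf.smul_left, f_add_right hf, f_smul_right hf, hy, hy', mul_zero,
      add_zero, zero_add]
    linear_combination hbf + hbf' + he
  have hnz : y + b • y' ≠ 0 := by
    intro h0
    have h1 : f (y + b • y') y = 0 := by rw [h0, f_zero_left hf]
    rw [hf.add_left, hf.smul_left, hy, zero_add] at h1
    exact hb0 ((mul_eq_zero.mp h1).resolve_right hne)
  obtain ⟨d'', h''⟩ := hall _ hnz hiso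
  have k1 := h'' y
  have k2 := h'' y'
  rw [Matrix.mulVec_add, Matrix.mulVec_smul, f_add_right hf, f_smul_right hf, h y, h' y,
    f_add_right hf, f_smul_right hf, hy] at k1
  rw [Matrix.mulVec_add, Matrix.mulVec_smul, f_add_right hf, f_smul_right hf, h y', h' y',
    f_add_right hf, f_smul_right hf, hy'] at k2
  have hσb : σ b ≠ 0 := fun h0 => hb0 (by rw [← hf.involutive b, h0, map_zero])
  have e1 : d'' = d' := by
    have h3 : (d' - d'') * (σ b * f y y') = 0 := by linear_combination k1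
    rcases mul_eq_zero.mp h3 with h4 | h4
    · exact (sub_eq_zero.mp h4).symm
    · exact absurd h4 (mul_ne_zero hσb hne')
  have e2 : d'' = d := by
    have h3 : (d - d'') * f y' y = 0 := by linear_combination k2
    rcases mul_eq_zero.mp h3 with h4 | h4
    · exact (sub_eq_zero.mp h4).symm
    · exact absurd h4 hne
  rw [← e2, e1]

theorem iso_mid (hf : Cfsg.Geo.IsUnitaryForm σ f) {y y' : Fin n → F} (hy0 : y ≠ 0)
    (hy'0 : y' ≠ 0) (hy : f y y = 0) (hyy' : f y y' = 0) :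
    ∃ m : Fin n → F, f m m = 0 ∧ f m y ≠ 0 ∧ f m y' ≠ 0 := by
  obtain ⟨z₁, h1⟩ := (hf.nondegenerate y hy0).1
  obtain ⟨z₂, h2⟩ := (hf.nondegenerate y' hy'0).1
  obtain ⟨x, hx1, hx2⟩ : ∃ x, f x y ≠ 0 ∧ f x y' ≠ 0 := by
    by_cases c1 : f z₁ y' = 0
    · by_cases c2 : f z₂ y = 0
      · refine ⟨z₁ + z₂, ?_, ?_⟩
        · rw [hf.add_left, c2, add_zero]
          exact h1
        · rw [hf.add_left, c1, zero_add]
          exact h2
      · exact ⟨z₂, c2, h2⟩
    · exact ⟨z₁, h1, c1⟩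
  obtain ⟨t, ht⟩ := iso_adjust hf hy (herm_ne hf hx1)
  refine ⟨x + t • y, ht, ?_, ?_⟩
  · rw [hf.add_left, hf.smul_left, hy, mul_zero, add_zero]
    exact hx1
  · rw [hf.add_left, hf.smul_left, hyy', mul_zero, add_zero]
    exact hx2

theorem sim_of_all (hf : Cfsg.Geo.IsUnitaryForm σ f) (hn : 5 ≤ n)
    (g : Matrix.GeneralLinearGroup (Fin n) F)
    (hall : ∀ z : Fin n → F, z ≠ 0 → f z z = 0 → ∃ d, USim f g d z) :
    g ∈ Cfsg.Geo.similarityGroup f := by
  obtain ⟨y₀, hy₀0, hy₀, -⟩ := iso_ker hf [] (by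
    simp only [List.length_nil]
    omega)
  obtain ⟨d₀, h₀⟩ := hall y₀ hy₀0 hy₀
  have hd₀ : d₀ ≠ 0 := USim_ne hf g h₀ hy₀0
  have hiso : ∀ z : Fin n → F, f z z = 0 → USim f g d₀ z := by
    intro z hz
    by_cases hz0 : z = 0
    · intro x
      rw [hz0, Matrix.mulVec_zero, f_zero_right hf, f_zero_right hf, mul_zero]
    obtain ⟨d, hd⟩ := hall z hz0 hz
    by_cases c : f z y₀ = 0
    · obtain ⟨m, hm, hm1, hm2⟩ := iso_mid hf hz0 hy₀0 hz c
      have hm0 : m ≠ 0 := by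
        rintro rfl
        exact hm1 (f_zero_left hf z)
      obtain ⟨dm, hdm⟩ := hall m hm0 hm
      have e1 : d = dm := USim_adj hf g hall hz hm hm1 hd hdm
      have e2 : d₀ = dm := USim_adj hf g hall hy₀ hm hm2 h₀ hdm
      rw [e2, ← e1]
      exact hd
    · have e1 : d₀ = d := USim_adj hf g hall hy₀ hz c h₀ hd
      rw [e1]
      exact hd
  have hallv : ∀ x : Fin n → F, USim f g d₀ x := by
    intro x
    by_cases hx : f x x = 0
    · exact hiso x hx
    · have hx' : fl hf x x ≠ 0 := hx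
      obtain ⟨w, hw, -, hwx⟩ := iso_kn hf hn (0 : Module.Dual F (Fin n → F)) (fl hf x)
        (LinearMap.zero_apply x) hx'
      have hwx' : f w x ≠ 0 := hwx
      obtain ⟨t, ht⟩ := iso_adjust hf hw hwx'
      have h3 := USim_add hf g (hiso _ ht) (USim_smul hf g (hiso w hw) (-t))
      have e : x + t • w + -t • w = x := by
        rw [neg_smul, add_neg_cancel_right]
      rw [e] at h3
      exact h3
  exact ⟨Units.mk0 d₀ hd₀, fun u v => hallv v u⟩

theorem crux (hf : Cfsg.Geo.IsUnitaryForm σ f) (hn : 13 ≤ n)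
    (K : Subgroup (Matrix.GeneralLinearGroup (Fin n) F))
    (hHK : Cfsg.Geo.similarityGroup f ⊓ Cfsg.Geo.specialLinear (Fin n) F ≤ K)
    (g : Matrix.GeneralLinearGroup (Fin n) F) (hgK : g ∈ K)
    (hg : g ∉ Cfsg.Geo.similarityGroup f) :
    ∃ (v : Fin n → F) (φ₀ : Module.Dual F (Fin n → F)), v ≠ 0 ∧ f v v = 0 ∧ TK K φ₀ v ∧
      ∀ c : F, φ₀ ≠ c • fl hf v := by
  obtain ⟨e, he0, he⟩ := exists_eps hf
  obtain ⟨y, hy0, hyy, hbad⟩ : ∃ y : Fin n → F, y ≠ 0 ∧ f y y = 0 ∧ ∀ d, ¬ USim f g d y := by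
    by_contra hcon
    push Not at hcon
    exact hg (sim_of_all hf (by omega) g hcon)
  obtain ⟨u, hu⟩ : ∃ u, u = (g : Matrix (Fin n) (Fin n) F) *ᵥ y := ⟨_, rfl⟩
  have hu0 : u ≠ 0 := fun h => hy0 (g_inj0 g y (hu ▸ h))
  obtain ⟨ψ, hψ⟩ : ∃ ψ : Module.Dual F (Fin n → F), ψ = (e • fl hf y) ∘ₗ
      Matrix.toLin' ((g⁻¹ : Matrix.GeneralLinearGroup (Fin n) F) : Matrix (Fin n) (Fin n) F) :=
    ⟨_, rfl⟩
  have hψg : ∀ x, ψ ((g : Matrix (Fin n) (Fin n) F) *ᵥ x) = e * f x y := by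
    intro x
    have h1 := mul_inv_mulVec g⁻¹ x
    rw [inv_inv] at h1
    rw [hψ, LinearMap.comp_apply, Matrix.toLin'_apply, h1, LinearMap.smul_apply, fl_apply,
      smul_eq_mul]
  have hTψ : TK K ψ u := TK_conj K g hgK (TK_ut hf K hHK hyy he) hu.symm (fun x => by
    rw [hψg, LinearMap.smul_apply, fl_apply, smul_eq_mul])
  have hprop : ∀ c : F, ψ ≠ c • fl hf u := by
    intro c hc
    have h1 : ∀ x, e * f x y = c * f ((g : Matrix (Fin n) (Fin n) F) *ᵥ x)
        ((g : Matrix (Fin n) (Fin n) F) *ᵥ y) := by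
      intro x
      rw [← hψg x, hc, LinearMap.smul_apply, fl_apply, smul_eq_mul, hu]
    have hc0 : c ≠ 0 := by
      rintro rfl
      obtain ⟨x, hx⟩ := (hf.nondegenerate y hy0).1
      have h2 := h1 x
      rw [zero_mul] at h2
      exact hx ((mul_eq_zero.mp h2).resolve_left he0)
    apply hbad (e / c)
    intro x
    rw [div_mul_eq_mul_div, h1 x, mul_comm c, mul_div_assoc, div_self hc0, mul_one]
  by_cases huu : f u u = 0
  · exact ⟨u, ψ, hu0, huu, hTψ, hprop⟩
  · have hψu : ψ u = 0 := hTψ.1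
    have huu' : fl hf u u ≠ 0 := huu
    obtain ⟨z, hzz, hψz, hzu⟩ := iso_kn hf (by omega) ψ (fl hf u) hψu huu'
    have hzu' : f z u ≠ 0 := hzu
    have hz0 : z ≠ 0 := by
      rintro rfl
      exact hzu' (f_zero_left hf u)
    have hu1 : 1 + ψ u ≠ 0 := by
      rw [hψu, add_zero]
      exact one_ne_zero
    have hT1 : TK K (e • fl hf z) z := TK_ut hf K hHK hzz he
    have hT2 : TK K (e • fl hf z - (e * f u z) • ψ) z := by
      apply TK_conj K (tvG ψ u hu1) (hTψ.2 hu1) hT1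
      · rw [tvG_mulVec, hψz, zero_smul, add_zero]
      · intro x
        simp only [tvG_mulVec, LinearMap.sub_apply, LinearMap.smul_apply, fl_apply, map_add,
          map_smul, hf.add_left, hf.smul_left, hψu, smul_eq_mul, mul_zero, add_zero]
        ring
    have hT3 := TK_sub K hT1 hT2
    rw [sub_sub_cancel] at hT3
    refine ⟨z, (e * f u z) • ψ, hz0, hzz, hT3, ?_⟩
    intro c hc
    have h3 := LinearMap.congr_fun hc u
    simp only [LinearMap.smul_apply, hψu, smul_zero, fl_apply, smul_eq_mul, mul_zero] at h3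
    have huz : f u z ≠ 0 := herm_ne hf hzu'
    have hc0 : c = 0 := (mul_eq_zero.mp h3.symm).resolve_right huz
    rw [hc0, zero_smul] at hc
    have h4 : ψ = 0 := (smul_eq_zero.mp hc).resolve_left (mul_ne_zero he0 huz)
    exact hprop 0 (by rw [h4, zero_smul])

theorem full_conj (K : Subgroup (Matrix.GeneralLinearGroup (Fin n) F))
    (k : Matrix.GeneralLinearGroup (Fin n) F) (hk : k ∈ K) {a b : Fin n → F}
    (hkab : (k : Matrix (Fin n) (Fin n) F) *ᵥ a = b)
    (hfull : ∀ χ : Module.Dual F (Fin n → F), χ a = 0 → TK K χ a) :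
    ∀ χ : Module.Dual F (Fin n → F), χ b = 0 → TK K χ b := by
  intro χ hχ
  refine TK_conj K k hk (hfull (χ ∘ₗ Matrix.toLin' (k : Matrix (Fin n) (Fin n) F)) ?_) hkab ?_
  · rw [LinearMap.comp_apply, Matrix.toLin'_apply, hkab]
    exact hχ
  · intro y
    rw [LinearMap.comp_apply, Matrix.toLin'_apply]

theorem full_scale (K : Subgroup (Matrix.GeneralLinearGroup (Fin n) F)) {b : Fin n → F} {l : F}
    (hl : l ≠ 0)
    (hfull : ∀ χ : Module.Dual F (Fin n → F), χ (l • b) = 0 → TK K χ (l • b)) :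
    ∀ χ : Module.Dual F (Fin n → F), χ b = 0 → TK K χ b := by
  intro χ hχ
  have h1 := hfull (l⁻¹ • χ) (by
    rw [LinearMap.smul_apply, map_smul, hχ, smul_zero, smul_zero])
  refine ⟨hχ, fun hu => ?_⟩
  have hu' : 1 + (l⁻¹ • χ) (l • b) ≠ 0 := by
    rw [h1.1, add_zero]
    exact one_ne_zero
  have e : tvG χ b hu = tvG (l⁻¹ • χ) (l • b) hu' := gl_ext _ _ (fun x => by
    rw [tvG_mulVec, tvG_mulVec, LinearMap.smul_apply, smul_smul, smul_eq_mul, mul_right_comm,
      inv_mul_cancel₀ hl, one_mul])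
  rw [e]
  exact h1.2 hu'

theorem full_move_iso (hf : Cfsg.Geo.IsUnitaryForm σ f)
    (K : Subgroup (Matrix.GeneralLinearGroup (Fin n) F))
    (hHK : Cfsg.Geo.similarityGroup f ⊓ Cfsg.Geo.specialLinear (Fin n) F ≤ K)
    {a b : Fin n → F} (ha : f a a = 0) (hb : f b b = 0) (hab : f b a ≠ 0)
    (hfull : ∀ χ : Module.Dual F (Fin n → F), χ a = 0 → TK K χ a) :
    ∀ χ : Module.Dual F (Fin n → F), χ b = 0 → TK K χ b := by
  obtain ⟨e, he0, he⟩ := exists_eps hf
  have hσe : σ e = -e := by linear_combination he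
  obtain ⟨l, hl⟩ : ∃ l : F, l = e / f b a := ⟨_, rfl⟩
  have hl0 : l ≠ 0 := by
    rw [hl]
    exact div_ne_zero he0 hab
  have hlf : l * f b a = e := by rw [hl, div_mul_cancel₀ _ hab]
  have hlf' : σ l * f a b = -e := by rw [← hσe, ← hlf, map_mul, herm' hf]
  obtain ⟨y, hy⟩ : ∃ y : Fin n → F, y = l • b - a := ⟨_, rfl⟩
  have hyy : f y y = 0 := by
    rw [hy]
    simp only [f_sub_left hf, f_sub_right hf, hf.smul_left, f_smul_right hf, ha, hb, mul_zero,
      sub_zero, zero_sub]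
    linear_combination -hlf - hlf'
  have hay : f a y = -e := by
    rw [hy, f_sub_right hf, f_smul_right hf, ha, sub_zero, hlf']
  have hc : (-e⁻¹) + σ (-e⁻¹) = 0 := by
    rw [map_neg, map_inv₀, hσe, inv_neg, neg_neg, neg_add_cancel]
  have hu : 1 + ((-e⁻¹) • fl hf y) y ≠ 0 := by
    rw [LinearMap.smul_apply, fl_apply, hyy, smul_zero, add_zero]
    exact one_ne_zero
  have hk : tvG ((-e⁻¹) • fl hf y) y hu ∈ K := hHK (ut_mem hf hyy hc hu)
  have hka : ((tvG ((-e⁻¹) • fl hf y) y hu : Matrix.GeneralLinearGroup (Fin n) F) :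
      Matrix (Fin n) (Fin n) F) *ᵥ a = l • b := by
    rw [tvG_mulVec, LinearMap.smul_apply, fl_apply, hay, smul_eq_mul, neg_mul_neg,
      inv_mul_cancel₀ he0, one_smul, hy]
    abel
  exact full_scale K hl0 (full_conj K _ hk hka hfull)

theorem full_all_iso (hf : Cfsg.Geo.IsUnitaryForm σ f)
    (K : Subgroup (Matrix.GeneralLinearGroup (Fin n) F))
    (hHK : Cfsg.Geo.similarityGroup f ⊓ Cfsg.Geo.specialLinear (Fin n) F ≤ K)
    {v : Fin n → F} (hv : v ≠ 0) (hvv : f v v = 0)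
    (hfull : ∀ χ : Module.Dual F (Fin n → F), χ v = 0 → TK K χ v) (b : Fin n → F)
    (hb : f b b = 0) : ∀ χ : Module.Dual F (Fin n → F), χ b = 0 → TK K χ b := by
  by_cases hb0 : b = 0
  · intro χ _
    rw [hb0]
    exact TK_zero K χ
  by_cases c : f v b = 0
  · obtain ⟨m, hm, hm1, hm2⟩ := iso_mid hf hv hb0 hvv c
    exact full_move_iso hf K hHK hm hb (herm_ne hf hm2)
      (full_move_iso hf K hHK hvv hm hm1 hfull)
  · exact full_move_iso hf K hHK hvv hb (herm_ne hf c) hfull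

theorem full_all (hf : Cfsg.Geo.IsUnitaryForm σ f) (hn : 5 ≤ n)
    (K : Subgroup (Matrix.GeneralLinearGroup (Fin n) F))
    (hiso : ∀ b : Fin n → F, f b b = 0 →
      ∀ χ : Module.Dual F (Fin n → F), χ b = 0 → TK K χ b)
    (u : Fin n → F) : ∀ χ : Module.Dual F (Fin n → F), χ u = 0 → TK K χ u := by
  by_cases huu : f u u = 0
  · exact hiso u huu
  have huu' : fl hf u u ≠ 0 := huu
  obtain ⟨w, hw, -, hwu⟩ := iso_kn hf hn (0 : Module.Dual F (Fin n → F)) (fl hf u)
    (LinearMap.zero_apply u) huu'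
  have hwu' : f w u ≠ 0 := hwu
  obtain ⟨t, ht⟩ := iso_adjust hf hw hwu'
  have huw : f u w ≠ 0 := herm_ne hf hwu'
  have h0 : ((-t / f u w) • fl hf w) w = 0 := by
    rw [LinearMap.smul_apply, fl_apply, hw, smul_zero]
  have hu1 : 1 + ((-t / f u w) • fl hf w) w ≠ 0 := by
    rw [h0, add_zero]
    exact one_ne_zero
  have hk : tvG ((-t / f u w) • fl hf w) w hu1 ∈ K := (hiso w hw _ h0).2 hu1
  refine full_conj K _ hk ?_ (hiso (u + t • w) ht)
  rw [tvG_mulVec, LinearMap.smul_apply, fl_apply, hf.add_left, hf.smul_left, hw, mul_zero,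
    add_zero, smul_eq_mul, div_mul_cancel₀ _ huw, neg_smul]
  abel

theorem tv_not_sim_u (hf : Cfsg.Geo.IsUnitaryForm σ f) (φ : Module.Dual F (Fin n → F))
    (v : Fin n → F) (hv : v ≠ 0) (hvv : f v v = 0) (h0 : φ v = 0)
    (hφ : ∀ c : F, φ ≠ c • fl hf v) (hu : 1 + φ v ≠ 0) :
    tvG φ v hu ∉ Cfsg.Geo.similarityGroup f := by
  rintro ⟨c, hc⟩
  obtain ⟨a, ha⟩ : ∃ a, f a v = 1 := by
    obtain ⟨x, hx⟩ := (hf.nondegenerate v hv).1
    exact ⟨(f x v)⁻¹ • x, by rw [hf.smul_left, inv_mul_cancel₀ hx]⟩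
  have hva : f v a = 1 := by rw [hf.herm v a, ha, map_one]
  have hc' : ∀ u w, f u w + σ (φ w) * f u v + φ u * f v w = c * f u w := by
    intro u w
    have h1 := hc u w
    rw [tvG_mulVec, tvG_mulVec] at h1
    simp only [hf.add_left, hf.smul_left, f_add_right hf, f_smul_right hf, hvv, mul_zero,
      add_zero] at h1
    linear_combination h1
  have hc1 : (c : F) = 1 := by
    have h1 := hc' v a
    rw [h0, hvv, hva] at h1
    linear_combination -h1
  apply hφ (-σ (φ a))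
  refine LinearMap.ext fun x => ?_
  have h2 := hc' x a
  rw [hc1, hva] at h2
  rw [LinearMap.smul_apply, fl_apply, smul_eq_mul]
  linear_combination h2

theorem exists_nonsim_u (hf : Cfsg.Geo.IsUnitaryForm σ f) (hn : 5 ≤ n) :
    ∃ g ∈ Cfsg.Geo.specialLinear (Fin n) F, g ∉ Cfsg.Geo.similarityGroup f := by
  obtain ⟨v, hv0, hvv, -⟩ := iso_ker hf [] (by
    simp only [List.length_nil]
    omega)
  obtain ⟨a, ha⟩ : ∃ a, f a v = 1 := by
    obtain ⟨x, hx⟩ := (hf.nondegenerate v hv0).1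
    exact ⟨(f x v)⁻¹ • x, by rw [hf.smul_left, inv_mul_cancel₀ hx]⟩
  obtain ⟨w, hw0, -, hwL⟩ := iso_ker hf [fl hf v, fl hf a] (by
    simp only [List.length_cons, List.length_nil]
    omega)
  have hwv : f w v = 0 := hwL (fl hf v) (by simp)
  have hwa : f w a = 0 := hwL (fl hf a) (by simp)
  have h0 : fl hf w v = 0 := by
    rw [fl_apply]
    exact herm_zero hf hwv
  have hφ : ∀ c : F, fl hf w ≠ c • fl hf v := by
    intro c hc
    obtain ⟨x, hx⟩ := (hf.nondegenerate w hw0).1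
    have h1 := LinearMap.congr_fun hc (x - f x v • a)
    simp only [LinearMap.smul_apply, fl_apply, f_sub_left hf, hf.smul_left, ha, mul_one,
      sub_self, smul_zero, herm_zero hf hwa, mul_zero, sub_zero] at h1
    exact hx h1
  have hu : 1 + fl hf w v ≠ 0 := by
    rw [h0, add_zero]
    exact one_ne_zero
  exact ⟨tvG (fl hf w) v hu, (mem_sl_iff _).mpr (by rw [tvG_det, h0, add_zero]),
    tv_not_sim_u hf (fl hf w) v hv0 hvv h0 hφ hu⟩

end

/-- For a finite field F and n ≥ 13, let σ be a field automorphism of F of order two and f a non-degenerate unitary form on F^n with respect to σ. Then the elements of SL_n(F) that are similarities of f form a maximal subgroup of SL_n(F). -/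
theorem result {F : Type*} [Field F] [Fintype F] (n : ℕ) (hn : 13 ≤ n) (σ : F ≃+* F) (f : (Fin n → F) → (Fin n → F) → F) (hf : Cfsg.Geo.IsUnitaryForm σ f) : Cfsg.Geo.IsMaximalIn (Cfsg.Geo.specialLinear (Fin n) F) (Cfsg.Geo.similarityGroup f ⊓ Cfsg.Geo.specialLinear (Fin n) F) := by
  have hn5 : 5 ≤ n := by omega
  refine ⟨lt_of_le_of_ne inf_le_right ?_, ?_⟩
  · intro heq
    obtain ⟨g, hg, hg'⟩ := exists_nonsim_u hf hn5
    rw [← heq] at hg
    exact hg' hg.1
  · intro K hHK hKle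
    by_cases hKH : K = Cfsg.Geo.similarityGroup f ⊓ Cfsg.Geo.specialLinear (Fin n) F
    · exact Or.inl hKH
    · right
      apply le_antisymm hKle
      obtain ⟨g, hgK, hgH⟩ : ∃ g ∈ K,
          g ∉ Cfsg.Geo.similarityGroup f ⊓ Cfsg.Geo.specialLinear (Fin n) F := by
        by_contra hcon
        push Not at hcon
        exact hKH (le_antisymm (fun x hx => hcon x hx) hHK)
      have hgS : g ∉ Cfsg.Geo.similarityGroup f := fun h => hgH ⟨h, hKle hgK⟩
      obtain ⟨v, φ₀, hv0, hvv, hT, hprop⟩ := crux hf hn K hHK g hgK hgS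
      have hfull := full_at_iso hf hn K hHK hT hprop hv0 hvv
      have hiso := full_all_iso hf K hHK hv0 hvv hfull
      exact sl_le_of_tv K (fun φ v' hu h0 => (full_all hf hn5 K hiso v' φ h0).2 hu)

end Cfsg.Agent.S5643
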