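import Cfsg.Statements.S5648
import Mathlib
import Cfsg.Agent.Lib.Helper9.Decomp

set_option autoImplicit false
open Cfsg

namespace Cfsg.Agent.S5648

open Cfsg.Agent.Lib.Helper9.Decomp
open scoped Matrix

theorem f2_cases {F : Type*} [Field F] [Fintype F] (hq : Fintype.card F = 2) (x : F) :
    x = 0 ∨ x = 1 := by
  classical
  have h : ({0, 1} : Finset F) = Finset.univ :=
    Finset.eq_univ_of_card _ (by rw [Finset.card_pair zero_ne_one, hq])
  have hx : x ∈ ({0, 1} : Finset F) := by rw [h]; exact Finset.mem_univ x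
  simpa using hx

theorem f2_two {F : Type*} [Field F] [Fintype F] (hq : Fintype.card F = 2) : (1 : F) + 1 = 0 := by
  rcases f2_cases hq ((1 : F) + 1) with h | h
  · exact h
  · exfalso
    have h3 : (1 : F) + 1 = 1 + 0 := by rw [h, add_zero]
    exact one_ne_zero (add_left_cancel h3)

theorem f2_add_self {F : Type*} [Field F] [Fintype F] (hq : Fintype.card F = 2) (a : F) :
    a + a = 0 := by
  have h : a + a = a * (1 + 1) := by ring
  rw [h, f2_two hq, mul_zero]

theorem vec_add_self {F : Type*} [Field F] [Fintype F] (hq : Fintype.card F = 2)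
    {V : Type*} [AddCommGroup V] [Module F V] (x : V) : x + x = 0 := by
  have h : x + x = ((1 : F) + 1) • x := by rw [add_smul, one_smul]
  rw [h, f2_two hq, zero_smul]

/-- the symplectic form as a bilinear map -/
noncomputable def Bl (m : ℕ) (F : Type*) [Field F] :
    (Fin m ⊕ Fin m → F) →ₗ[F] (Fin m ⊕ Fin m → F) →ₗ[F] F :=
  Matrix.toLinearMap₂' F (Matrix.J (Fin m) F)

theorem Bl_apply {F : Type*} [Field F] {m : ℕ} (u v : Fin m ⊕ Fin m → F) :
    Bl m F u v = Cfsg.sympForm m F u v := by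
  rw [Bl, Matrix.toLinearMap₂'_apply']
  rfl

theorem symp_formula {F : Type*} [Field F] {m : ℕ} (u v : Fin m ⊕ Fin m → F) :
    Cfsg.sympForm m F u v
      = ∑ i, (u (Sum.inr i) * v (Sum.inl i) - u (Sum.inl i) * v (Sum.inr i)) := by
  have h1 : Matrix.J (Fin m) F *ᵥ v = Sum.elim (fun i => - v (Sum.inr i)) (fun i => v (Sum.inl i)) := by
    funext k
    rcases k with i | i
    · simp [Matrix.J, Matrix.mulVec, dotProduct, Fintype.sum_sum_type, Matrix.one_apply]
    · simp [Matrix.J, Matrix.mulVec, dotProduct, Fintype.sum_sum_type, Matrix.one_apply]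
  rw [Cfsg.sympForm, h1]
  simp only [dotProduct, Fintype.sum_sum_type, Sum.elim_inl, Sum.elim_inr]
  rw [Finset.sum_sub_distrib]
  simp only [mul_neg, Finset.sum_neg_distrib]
  ring

theorem Bl_self {F : Type*} [Field F] {m : ℕ} (v : Fin m ⊕ Fin m → F) : Bl m F v v = 0 := by
  rw [Bl_apply, symp_formula]
  apply Finset.sum_eq_zero
  intro i _
  ring

theorem Bl_skew {F : Type*} [Field F] {m : ℕ} (u v : Fin m ⊕ Fin m → F) :
    Bl m F u v = - Bl m F v u := by
  rw [Bl_apply, Bl_apply, symp_formula, symp_formula, ← Finset.sum_neg_distrib]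
  apply Finset.sum_congr rfl
  intro i _
  ring

/-- the symplectic transvection as a linear map -/
noncomputable def Tw {F : Type*} [Field F] {m : ℕ} (w : Fin m ⊕ Fin m → F) :
    (Fin m ⊕ Fin m → F) →ₗ[F] (Fin m ⊕ Fin m → F) :=
  LinearMap.id + ((Bl m F).flip w).smulRight w

theorem Tw_apply {F : Type*} [Field F] {m : ℕ} (w x : Fin m ⊕ Fin m → F) :
    Tw w x = x + Bl m F x w • w := by
  simp [Tw]

theorem Tw_comp {F : Type*} [Field F] [Fintype F] (hq : Fintype.card F = 2) {m : ℕ}
    (w : Fin m ⊕ Fin m → F) : Tw w ∘ₗ Tw w = LinearMap.id := by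
  refine LinearMap.ext fun x => ?_
  rw [LinearMap.comp_apply, Tw_apply, Tw_apply, LinearMap.id_apply, map_add, map_smul,
    LinearMap.add_apply, LinearMap.smul_apply, Bl_self, smul_zero, add_zero, add_assoc,
    ← add_smul, f2_add_self hq, zero_smul, add_zero]

noncomputable def TwG {F : Type*} [Field F] [Fintype F] (hq : Fintype.card F = 2) {m : ℕ}
    (w : Fin m ⊕ Fin m → F) : Matrix.GeneralLinearGroup (Fin m ⊕ Fin m) F :=
  ⟨LinearMap.toMatrix' (Tw w), LinearMap.toMatrix' (Tw w),
    by rw [← LinearMap.toMatrix'_comp, Tw_comp hq, LinearMap.toMatrix'_id],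
    by rw [← LinearMap.toMatrix'_comp, Tw_comp hq, LinearMap.toMatrix'_id]⟩

theorem TwG_mulVec {F : Type*} [Field F] [Fintype F] (hq : Fintype.card F = 2) {m : ℕ}
    (w x : Fin m ⊕ Fin m → F) :
    ((TwG hq w : Matrix.GeneralLinearGroup (Fin m ⊕ Fin m) F) :
      Matrix (Fin m ⊕ Fin m) (Fin m ⊕ Fin m) F) *ᵥ x = x + Bl m F x w • w := by
  show LinearMap.toMatrix' (Tw w) *ᵥ x = _
  rw [← Matrix.toLin'_apply, Matrix.toLin'_toMatrix', Tw_apply]

theorem TwG_symp {F : Type*} [Field F] [Fintype F] (hq : Fintype.card F = 2) {m : ℕ}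
    (w : Fin m ⊕ Fin m → F) : TwG hq w ∈ Cfsg.spGL m F := by
  intro u v
  show Cfsg.sympForm m F
      (((TwG hq w : Matrix.GeneralLinearGroup (Fin m ⊕ Fin m) F) :
        Matrix (Fin m ⊕ Fin m) (Fin m ⊕ Fin m) F) *ᵥ u)
      (((TwG hq w : Matrix.GeneralLinearGroup (Fin m ⊕ Fin m) F) :
        Matrix (Fin m ⊕ Fin m) (Fin m ⊕ Fin m) F) *ᵥ v) = Cfsg.sympForm m F u v
  rw [TwG_mulVec, TwG_mulVec, ← Bl_apply, ← Bl_apply]
  simp only [map_add, map_smul, LinearMap.add_apply, LinearMap.smul_apply, smul_eq_mul]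
  rw [Bl_self, Bl_skew w v]
  ring

theorem pair_id {F : Type*} [Field F] [Fintype F] (hq : Fintype.card F = 2) {m : ℕ}
    (W : Submodule F (Fin m ⊕ Fin m → F)) (hdim : Module.finrank F W = 2)
    (hnd : Cfsg.Geo.IsNondegenerateOn (Cfsg.sympForm m F) W)
    (x y : Fin m ⊕ Fin m → F) (hx : x ∈ W) (hy : y ∈ W)
    [Decidable (x + y = 0)] [Decidable (x = 0)] [Decidable (y = 0)] :
    (if x + y = 0 then (0 : F) else 1)
      = (if x = 0 then 0 else 1) + (if y = 0 then 0 else 1) + Bl m F x y := by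
  by_cases hx0 : x = 0
  · subst hx0
    simp
  by_cases hy0 : y = 0
  · subst hy0
    simp
  by_cases hxy : x = y
  · subst hxy
    rw [if_pos (vec_add_self hq x), if_neg hx0, if_neg hx0, Bl_self, f2_two hq, add_zero]
  · have hne : x + y ≠ 0 := by
      intro h0
      apply hxy
      have h1 : x + y = y + y := by rw [h0, vec_add_self hq y]
      exact add_right_cancel h1
    rw [if_neg hne, if_neg hx0, if_neg hy0, f2_two hq, zero_add]
    rcases f2_cases hq (Bl m F x y) with h0 | h1
    · exfalso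
      obtain ⟨⟨z, hz, hzy⟩, _⟩ := hnd y hy hy0
      have hli : LinearIndependent F ![x, y] := by
        rw [LinearIndependent.pair_iff]
        intro s t hst
        rcases f2_cases hq s with hs | hs <;> rcases f2_cases hq t with ht | ht
        · exact ⟨hs, ht⟩
        · exfalso
          rw [hs, ht, zero_smul, one_smul, zero_add] at hst
          exact hy0 hst
        · exfalso
          rw [hs, ht, zero_smul, one_smul, add_zero] at hst
          exact hx0 hst
        · exfalso
          rw [hs, ht, one_smul, one_smul] at hst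
          exact hne hst
      have hspan : Submodule.span F {x, y} = W := by
        apply Submodule.eq_of_le_of_finrank_eq
        · rw [Submodule.span_le]
          intro a ha
          rcases ha with rfl | rfl
          · exact hx
          · exact hy
        · have h2 := finrank_span_eq_card hli
          have h3 : Set.range ![x, y] = {x, y} := by
            rw [Matrix.range_cons, Matrix.range_cons, Matrix.range_empty, Set.union_empty,
              Set.singleton_union]
          rw [h3] at h2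
          rw [h2, hdim]
          simp
      rw [← hspan] at hz
      obtain ⟨a, b, rfl⟩ := Submodule.mem_span_pair.mp hz
      apply hzy
      rw [← Bl_apply, map_add, map_smul, map_smul, LinearMap.add_apply, LinearMap.smul_apply,
        LinearMap.smul_apply, h0, Bl_self, smul_zero, smul_zero, add_zero]
    · exact h1.symm

theorem B_sum {F : Type*} [Field F] {m t : ℕ} (D : Fin t → Submodule F (Fin m ⊕ Fin m → F))
    (h : DirectSum.IsInternal D)
    (horth : ∀ i j, i ≠ j → Cfsg.Geo.AreOrthogonalFor (Cfsg.sympForm m F) (D i) (D j))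
    (v w : Fin m ⊕ Fin m → F) :
    Bl m F v w = ∑ i, Bl m F (comp D h i v) (comp D h i w) := by
  calc Bl m F v w = Bl m F (∑ i, comp D h i v) w := by rw [sum_comp]
    _ = ∑ i, Bl m F (comp D h i v) w := by rw [map_sum, LinearMap.sum_apply]
    _ = ∑ i, Bl m F (comp D h i v) (comp D h i w) := by
        apply Finset.sum_congr rfl
        intro i _
        conv_lhs => rw [← sum_comp D h w]
        rw [map_sum, Finset.sum_eq_single i]
        · intro j _ hji
          rw [Bl_apply]
          exact horth i j (Ne.symm hji) _ (comp_mem D h i v) _ (comp_mem D h j w)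
        · intro hi
          exact absurd (Finset.mem_univ i) hi

theorem wt_add {F : Type*} [Field F] [Fintype F] (hq : Fintype.card F = 2) {m t : ℕ}
    (D : Fin t → Submodule F (Fin m ⊕ Fin m → F))
    (hD : Cfsg.Geo.IsNondegenerateMDecomposition (Cfsg.sympForm m F) 2 D)
    (h : DirectSum.IsInternal D) (v w : Fin m ⊕ Fin m → F) :
    wt D h (v + w) = wt D h v + wt D h w + Bl m F v w := by
  classical
  rw [B_sum D h hD.orthogonal v w]
  unfold wt
  rw [← Finset.sum_add_distrib, ← Finset.sum_add_distrib]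
  apply Finset.sum_congr rfl
  intro i _
  rw [map_add]
  exact @pair_id F _ _ hq m (D i) (hD.decomp.finrank_eq i) (hD.nondegenerate i) _ _
    (comp_mem D h i v) (comp_mem D h i w) (Classical.propDecidable _)
    (Classical.propDecidable _) (Classical.propDecidable _)

theorem wt_Tw {F : Type*} [Field F] [Fintype F] (hq : Fintype.card F = 2) {m t : ℕ}
    (D : Fin t → Submodule F (Fin m ⊕ Fin m → F))
    (hD : Cfsg.Geo.IsNondegenerateMDecomposition (Cfsg.sympForm m F) 2 D)
    (h : DirectSum.IsInternal D) (w : Fin m ⊕ Fin m → F) (hw : wt D h w = 1)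
    (x : Fin m ⊕ Fin m → F) : wt D h (x + Bl m F x w • w) = wt D h x := by
  rcases f2_cases hq (Bl m F x w) with h0 | h1
  · rw [h0, zero_smul, add_zero]
  · rw [h1, one_smul, wt_add hq D hD h, hw, h1, add_assoc, f2_two hq, add_zero]

/-- the overgroup: symplectic maps preserving the weight -/
noncomputable def Kgrp {F : Type*} [Field F] {m t : ℕ}
    (D : Fin t → Submodule F (Fin m ⊕ Fin m → F)) (h : DirectSum.IsInternal D) :
    Subgroup (Matrix.GeneralLinearGroup (Fin m ⊕ Fin m) F) where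
  carrier := {g | g ∈ Cfsg.spGL m F ∧ ∀ v, wt D h
    ((g : Matrix (Fin m ⊕ Fin m) (Fin m ⊕ Fin m) F) *ᵥ v) = wt D h v}
  one_mem' := ⟨Subgroup.one_mem _, fun v => by simp⟩
  mul_mem' := by
    rintro a b ⟨ha, ha'⟩ ⟨hb, hb'⟩
    refine ⟨Subgroup.mul_mem _ ha hb, fun v => ?_⟩
    rw [Units.val_mul, ← Matrix.mulVec_mulVec, ha', hb']
  inv_mem' := by
    rintro a ⟨ha, ha'⟩
    refine ⟨Subgroup.inv_mem _ ha, fun v => ?_⟩
    have h1 := ha' (((a⁻¹ : Matrix.GeneralLinearGroup (Fin m ⊕ Fin m) F) :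
      Matrix (Fin m ⊕ Fin m) (Fin m ⊕ Fin m) F) *ᵥ v)
    rw [Matrix.mulVec_mulVec, ← Units.val_mul, mul_inv_cancel, Units.val_one,
      Matrix.one_mulVec] at h1
    exact h1.symm

theorem main {F : Type*} [Field F] [Fintype F] (m : ℕ) (hm : 7 ≤ m) (hq : Fintype.card F = 2)
    {t : ℕ} (D : Fin t → Submodule F (Fin m ⊕ Fin m → F))
    (hD : Cfsg.Geo.IsNondegenerateMDecomposition (Cfsg.sympForm m F) 2 D) :
    ∃ K : Subgroup (Matrix.GeneralLinearGroup (Fin m ⊕ Fin m) F),
      Cfsg.Geo.decompositionStabilizer D ⊓ Cfsg.spGL m F < K ∧ K < Cfsg.spGL m F := by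
  classical
  have hint : DirectSum.IsInternal D :=
    DirectSum.isInternal_submodule_of_iSupIndep_of_iSup_eq_top hD.decomp.indep
      hD.decomp.iSup_eq_top
  -- t ≥ 3
  have ht : 3 ≤ t := by
    let b := hint.collectedBasis
      (fun i => Module.finBasisOfFinrankEq F (D i) (hD.decomp.finrank_eq i))
    have h1 := Module.finrank_eq_card_basis b
    have h2 : Module.finrank F (Fin m ⊕ Fin m → F) = m + m := by
      rw [Module.finrank_fintype_fun_eq_card]
      simp
    rw [h2] at h1
    simp at h1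
    omega
  let i₀ : Fin t := ⟨0, by omega⟩
  let i₁ : Fin t := ⟨1, by omega⟩
  let i₂ : Fin t := ⟨2, by omega⟩
  have h01 : i₀ ≠ i₁ := by
    intro h; have h' := congrArg Fin.val h; simp [i₀, i₁] at h'
  have h02 : i₀ ≠ i₂ := by
    intro h; have h' := congrArg Fin.val h; simp [i₀, i₂] at h'
  have h12 : i₁ ≠ i₂ := by
    intro h; have h' := congrArg Fin.val h; simp [i₁, i₂] at h'
  have hex : ∀ i, ∃ u ∈ D i, u ≠ 0 := by
    intro i
    have hpos : 0 < Module.finrank F (D i) := by rw [hD.decomp.finrank_eq i]; norm_num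
    obtain ⟨u, hu⟩ := Module.finrank_pos_iff_exists_ne_zero.mp hpos
    exact ⟨u, u.2, fun h0 => hu (Subtype.ext h0)⟩
  obtain ⟨u₀, hu₀, hu₀n⟩ := hex i₀
  obtain ⟨u₁, hu₁, hu₁n⟩ := hex i₁
  obtain ⟨u₂, hu₂, hu₂n⟩ := hex i₂
  obtain ⟨x₀, hx₀, hx₀u⟩ := (hD.nondegenerate i₀ u₀ hu₀ hu₀n).1
  have hB0 : Bl m F x₀ u₀ = 1 := by
    rcases f2_cases hq (Bl m F x₀ u₀) with h | h
    · exact absurd (by rw [← Bl_apply]; exact h) hx₀u
    · exact h
  have hB1 : Bl m F x₀ u₁ = 0 := by
    rw [Bl_apply]; exact hD.orthogonal i₀ i₁ h01 _ hx₀ _ hu₁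
  have hB2 : Bl m F x₀ u₂ = 0 := by
    rw [Bl_apply]; exact hD.orthogonal i₀ i₂ h02 _ hx₀ _ hu₂
  have hw2 : wt D hint (u₀ + u₁) = 0 := by
    rw [wt_add hq D hD hint, wt_of_mem D hint hu₀ hu₀n, wt_of_mem D hint hu₁ hu₁n, Bl_apply,
      hD.orthogonal i₀ i₁ h01 _ hu₀ _ hu₁, add_zero, f2_two hq]
  have hw3 : wt D hint (u₀ + u₁ + u₂) = 1 := by
    rw [wt_add hq D hD hint, hw2, wt_of_mem D hint hu₂ hu₂n, map_add, LinearMap.add_apply,
      Bl_apply, Bl_apply, hD.orthogonal i₀ i₂ h02 _ hu₀ _ hu₂,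
      hD.orthogonal i₁ i₂ h12 _ hu₁ _ hu₂, add_zero, add_zero, zero_add]
  refine ⟨Kgrp D hint, ?_, ?_⟩
  · refine lt_of_le_of_ne ?_ ?_
    · rintro g ⟨hgD, hgS⟩
      refine ⟨hgS, fun v => ?_⟩
      obtain ⟨σ, hσ⟩ := hgD
      have h1 := wt_perm D hint (Matrix.toLin' (g : Matrix (Fin m ⊕ Fin m) (Fin m ⊕ Fin m) F)) σ
        (fun i x hx => by
          rw [← hσ i]
          exact Submodule.mem_map_of_mem hx)
        (fun x hx0 => by
          rw [Matrix.toLin'_apply] at hx0
          have h2 : x = (((g⁻¹ : Matrix.GeneralLinearGroup (Fin m ⊕ Fin m) F) :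
              Matrix (Fin m ⊕ Fin m) (Fin m ⊕ Fin m) F)
              * (g : Matrix (Fin m ⊕ Fin m) (Fin m ⊕ Fin m) F)) *ᵥ x := by
            rw [← Units.val_mul, inv_mul_cancel, Units.val_one, Matrix.one_mulVec]
          rw [h2, ← Matrix.mulVec_mulVec, hx0, Matrix.mulVec_zero]) v
      rw [Matrix.toLin'_apply] at h1
      exact h1
    · intro hEq
      have hmem : TwG hq (u₀ + u₁ + u₂) ∈ Kgrp D hint := by
        refine ⟨TwG_symp hq _, fun v => ?_⟩
        rw [TwG_mulVec]
        exact wt_Tw hq D hD hint _ hw3 v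
      rw [← hEq] at hmem
      obtain ⟨σ, hσ⟩ := hmem.1
      have hy : ((TwG hq (u₀ + u₁ + u₂) : Matrix.GeneralLinearGroup (Fin m ⊕ Fin m) F) :
          Matrix (Fin m ⊕ Fin m) (Fin m ⊕ Fin m) F) *ᵥ x₀ ∈ D (σ i₀) := by
        rw [← hσ i₀, ← Matrix.toLin'_apply]
        exact Submodule.mem_map_of_mem hx₀
      rw [TwG_mulVec, map_add, map_add, hB0, hB1, hB2, add_zero, add_zero, one_smul] at hy
      have hc1 : comp D hint i₁ (x₀ + (u₀ + u₁ + u₂)) = u₁ := by
        rw [map_add, map_add, map_add, comp_of_mem D hint hx₀, comp_of_mem D hint hu₀,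
          comp_of_mem D hint hu₁, comp_of_mem D hint hu₂]
        simp [h01.symm, h12]
      have hc2 : comp D hint i₂ (x₀ + (u₀ + u₁ + u₂)) = u₂ := by
        rw [map_add, map_add, map_add, comp_of_mem D hint hx₀, comp_of_mem D hint hu₀,
          comp_of_mem D hint hu₁, comp_of_mem D hint hu₂]
        simp [h02.symm, h12.symm]
      have e1 : i₁ = σ i₀ := by
        by_contra hne
        rw [comp_of_mem D hint hy, if_neg hne] at hc1
        exact hu₁n hc1.symm
      have e2 : i₂ = σ i₀ := by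
        by_contra hne
        rw [comp_of_mem D hint hy, if_neg hne] at hc2
        exact hu₂n hc2.symm
      exact h12 (e1.trans e2.symm)
  · refine lt_of_le_of_ne (fun g hg => hg.1) ?_
    intro hEq
    have hmem : TwG hq (u₀ + u₁) ∈ Kgrp D hint := by
      rw [hEq]; exact TwG_symp hq _
    have h1 := hmem.2 x₀
    rw [TwG_mulVec, map_add, hB0, hB1, add_zero, one_smul, wt_add hq D hD hint, hw2, add_zero,
      map_add, hB0, hB1, add_zero] at h1
    have h2 : (1 : F) = 0 := by
      have h3 : wt D hint x₀ + 1 = wt D hint x₀ + 0 := by rw [h1, add_zero]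
      exact add_left_cancel h3
    exact one_ne_zero h2

/-- Over the field with 2 elements and for m ≥ 7, let D be a decomposition of F^(2m) into t pairwise orthogonal non-degenerate 2-dimensional subspaces for the standard alternating form (t = m ≥ 2). Then the elements of Sp_2m(2) permuting the members of D form a subgroup that is not maximal: some subgroup lies strictly between it and Sp_2m(2). -/
theorem result {F : Type*} [Field F] [Fintype F] (m : ℕ) (hm : 7 ≤ m) (hq : Fintype.card F = 2) {t : ℕ} (D : Fin t → Submodule F (Fin m ⊕ Fin m → F)) (hD : Cfsg.Geo.IsNondegenerateMDecomposition (Cfsg.sympForm m F) 2 D) : ∃ K : Subgroup (Matrix.GeneralLinearGroup (Fin m ⊕ Fin m) F), Cfsg.Geo.decompositionStabilizer D ⊓ Cfsg.spGL m F < K ∧ K < Cfsg.spGL m F := by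
  exact main m hm hq D hD

end Cfsg.Agent.S5648
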