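import Cfsg.Statements.S0263
import Mathlib
import Cfsg.Agent.Lib.Lead.SylowAux2

set_option autoImplicit false
open Cfsg Cfsg.Agent.Lib.Lead

namespace Cfsg.Agent.S0263

open scoped Pointwise commutatorElement

/-- A Sylow p-subgroup of GL_n(q), p the characteristic, has order q^(n(n-1)/2). -/
theorem result {F : Type*} [Field F] [Fintype F] {q : ℕ} (hF : Fintype.card F = q) (p : ℕ) [Fact p.Prime] [CharP F p] (n : ℕ) (P : Sylow p (Matrix.GeneralLinearGroup (Fin n) F)) : Nat.card P = q ^ (n * (n - 1) / 2) := by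
  classical
  obtain ⟨f, hp, hf⟩ := FiniteField.card F p
  have hq : q = p ^ (f : ℕ) := by rw [← hF, hf]
  have hcard := Matrix.card_GL_field (𝔽 := F) (n := n)
  rw [hF] at hcard
  have hprod : ∏ i : Fin n, (q ^ n - q ^ (i : ℕ)) =
      q ^ (n * (n - 1) / 2) * ∏ i : Fin n, (q ^ (n - (i : ℕ)) - 1) := by
    have h1 : ∀ i : Fin n, q ^ n - q ^ (i : ℕ) = q ^ (i : ℕ) * (q ^ (n - (i : ℕ)) - 1) := by
      intro i
      have hi : (i : ℕ) ≤ n := i.2.le
      rw [Nat.mul_sub, mul_one, ← pow_add, Nat.add_sub_cancel' hi]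
    rw [Finset.prod_congr rfl (fun i _ => h1 i), Finset.prod_mul_distrib,
      Finset.prod_pow_eq_pow_sum]
    congr 2
    rw [Fin.sum_univ_eq_sum_range (fun i => i) n, Finset.sum_range_id]
  have hcop : Nat.Coprime p (∏ i : Fin n, (q ^ (n - (i : ℕ)) - 1)) := by
    apply Nat.Coprime.prod_right
    intro i _
    rw [Nat.Prime.coprime_iff_not_dvd hp]
    intro hdvd
    have hk : 0 < n - (i : ℕ) := Nat.sub_pos_of_lt i.2
    have h2 : p ∣ q ^ (n - (i : ℕ)) := by
      rw [hq]; exact dvd_pow (dvd_pow_self p f.pos.ne') hk.ne'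
    have h3 : 1 ≤ q ^ (n - (i : ℕ)) := Nat.one_le_pow _ _ (by rw [hq]; exact pow_pos hp.pos _)
    have h4 : p ∣ 1 := by
      have h5 := Nat.dvd_sub h2 hdvd
      rwa [Nat.sub_sub_self h3] at h5
    exact hp.one_lt.ne' (Nat.dvd_one.mp h4)
  have hm0 : (∏ i : Fin n, (q ^ (n - (i : ℕ)) - 1)) ≠ 0 := by
    intro h0
    rw [h0, Nat.coprime_zero_right] at hcop
    exact hp.one_lt.ne' hcop
  have hfac : (q ^ (n * (n - 1) / 2) * ∏ i : Fin n, (q ^ (n - (i : ℕ)) - 1)).factorization p =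
      f * (n * (n - 1) / 2) := by
    rw [Nat.factorization_mul (pow_ne_zero _ (by rw [hq]; exact pow_ne_zero _ hp.ne_zero)) hm0,
      Finsupp.add_apply,
      Nat.factorization_eq_zero_of_not_dvd ((Nat.Prime.coprime_iff_not_dvd hp).mp hcop),
      add_zero, hq, ← pow_mul, Nat.factorization_pow, Finsupp.smul_apply,
      hp.factorization_self, smul_eq_mul, mul_one]
  rw [Sylow.card_eq_multiplicity, hcard, hprod, hfac, hq, ← pow_mul]

end Cfsg.Agent.S0263
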