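import Cfsg.Statements.S0001
import Mathlib
import Cfsg.Agent.Lib.Lead.SylowAux2
import Cfsg.Agent.Lib.Lead.SZ2

set_option autoImplicit false
open Pointwise
open Cfsg Cfsg.Agent.Lib.Lead

namespace Cfsg.Agent.S0001

open scoped Pointwise commutatorElement

/-- Conjugacy half of the Schur–Zassenhaus Theorem, under a solvability assumption on the normal Hall subgroup or on its quotient. -/
theorem result {G : Type*} [Group G] [Finite G] (N : Subgroup G) [N.Normal]
    (hN : (Nat.card N).Coprime N.index) (hsolv : Group.IsSolvable N ∨ Group.IsSolvable (G ⧸ N))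
    (H K : Subgroup G) (hH : Subgroup.IsComplement' N H) (hK : Subgroup.IsComplement' N K) :
    ∃ g : G, MulAut.conj g • H = K := by
  have h1 : N.index = Nat.card H := hH.symm.index_eq_card
  have h2 : N.index = Nat.card K := hK.symm.index_eq_card
  have h3 : H ⊔ N = ⊤ := by rw [sup_comm]; exact hH.sup_eq_top
  have hsolv' : Group.IsSolvable N ∨ Group.IsSolvable H := by
    rcases hsolv with hs | hs
    · exact Or.inl hs
    · right
      have hinj : Function.Injective ((QuotientGroup.mk' N).comp H.subtype) := by
        rw [injective_iff_map_eq_one]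
        intro x hx
        have h4 : QuotientGroup.mk' N (x : G) = 1 := hx
        rw [QuotientGroup.mk'_apply, QuotientGroup.eq_one_iff] at h4
        have h5 : (x : G) ∈ N ⊓ H := ⟨h4, x.2⟩
        rw [hH.disjoint.eq_bot, Subgroup.mem_bot] at h5
        exact Subtype.ext h5
      exact Group.isSolvable_of_isSolvable_injective hinj
  obtain ⟨n, _, hn⟩ := szc N H K (by rw [Subgroup.normalizer_eq_top]; exact le_top)
    (by rw [h3]; exact le_top) (by rw [← h1, ← h2]) (by rw [← h1]; exact hN) hsolv'
  exact ⟨n, hn⟩

end Cfsg.Agent.S0001
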