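import Cfsg.Statements.S0002
import Mathlib
import Cfsg.Agent.Lib.Lead.SylowAux

set_option autoImplicit false
open Pointwise
open Cfsg Cfsg.Agent.Lib.Lead

namespace Cfsg.Agent.S0002

open scoped Pointwise

/-- Schur's Theorem, conjugacy part, for an abelian normal subgroup of coprime order and index: any two complements are conjugate by an element of the normal subgroup. -/
theorem result {G : Type*} [Group G] [Finite G] (A : Subgroup G) [A.Normal] [IsMulCommutative A]
    (hA : (Nat.card A).Coprime A.index)
    (H K : Subgroup G) (hH : Subgroup.IsComplement' A H) (hK : Subgroup.IsComplement' A K) :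
    ∃ a ∈ A, MulAut.conj a • H = K := by
  classical
  have key : ∀ L : Subgroup G, Subgroup.IsComplement' A L →
      ∃ α : A.QuotientDiff, MulAction.stabilizer G α = L := by
    intro L hL
    let T : A.LeftTransversal := ⟨(L : Set G), hL.symm⟩
    let q : A.QuotientDiff := Quotient.mk'' T
    refine ⟨q, ?_⟩
    have hle : L ≤ MulAction.stabilizer G q := by
      intro l hl
      refine MulAction.mem_stabilizer_iff.mpr ?_
      have hT : MulOpposite.op l⁻¹ • T = T := by
        apply Subtype.ext
        show MulOpposite.op l⁻¹ • (L : Set G) = (L : Set G)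
        ext x
        rw [Set.mem_smul_set_iff_inv_smul_mem]
        simp only [← MulOpposite.op_inv, inv_inv, MulOpposite.smul_eq_mul_unop,
          MulOpposite.unop_op]
        exact ⟨fun h => by simpa using L.mul_mem h (L.inv_mem hl), fun h => L.mul_mem h hl⟩
      have h0 : l • q = (Quotient.mk'' (MulOpposite.op l⁻¹ • T) : A.QuotientDiff) := rfl
      rw [h0, hT]
    have hc := Subgroup.isComplement'_stabilizer_of_coprime (α := q) hA
    symm
    apply Subgroup.eq_of_le_of_card_ge hle
    have h1 := hc.card_mul_card
    have h2 := hL.card_mul_card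
    have hpos : 0 < Nat.card A := Nat.card_pos
    exact le_of_eq (Nat.eq_of_mul_eq_mul_left hpos (h1.trans h2.symm))
  obtain ⟨α, hα⟩ := key H hH
  obtain ⟨β, hβ⟩ := key K hK
  obtain ⟨a, ha⟩ := Subgroup.exists_smul_eq hA α β
  refine ⟨a, a.2, ?_⟩
  rw [← hα, ← hβ, ← ha]
  have h3 : (a • α : A.QuotientDiff) = (a : G) • α := rfl
  rw [h3, MulAction.stabilizer_smul_eq_stabilizer_map_conj]
  ext x
  rw [mem_conj_smul, Subgroup.mem_map]
  constructor
  · intro hx
    exact ⟨_, hx, by simp [mul_assoc]⟩
  · rintro ⟨y, hy, rfl⟩
    simpa [mul_assoc] using hy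

end Cfsg.Agent.S0002
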