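import Cfsg.Statements.S0006
import Mathlib
import Cfsg.Agent.Lib.Lead.SylowAux2
import Cfsg.Agent.Lib.Lead.HallConverse

set_option autoImplicit false
open Cfsg Cfsg.Agent.Lib.Lead

namespace Cfsg.Agent.S0006

open scoped Pointwise commutatorElement

/-- Converse of Hall's Theorem: if for every prime p a finite group has a subgroup of index equal to the p-part of the group order (a Hall p-complement), then the group is solvable. -/
theorem result {G : Type*} [Group G] [Finite G]
    (h : ∀ p : ℕ, p.Prime → ∃ H : Subgroup G, H.index = p ^ (Nat.card G).factorization p) :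
    Group.IsSolvable G := by
  apply hall_converse _ G rfl
  intro p hp
  obtain ⟨H, hH⟩ := h p hp
  refine ⟨H, ⟨_, hH⟩, ?_⟩
  intro hd
  have hcard := H.card_mul_index
  have h1 : p ^ ((Nat.card G).factorization p + 1) ∣ Nat.card H * H.index := by
    rw [hH, pow_succ, mul_comm (Nat.card H)]
    exact Nat.mul_dvd_mul_left _ hd
  rw [hcard] at h1
  exact Nat.pow_succ_factorization_not_dvd Nat.card_pos.ne' hp h1

end Cfsg.Agent.S0006
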