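import Cfsg.Statements.S0007
import Mathlib

set_option autoImplicit false
open Cfsg

namespace Cfsg.Agent.S0007

/-- Subgroups of coprime index: the intersection has index equal to the product of the indices, and every element is a product of an element of the first subgroup and an element of the second. -/
theorem result {G : Type*} [Group G] [Finite G] (H K : Subgroup G)
    (h : H.index.Coprime K.index) :
    (H ⊓ K).index = H.index * K.index ∧ ∀ g : G, ∃ x ∈ H, ∃ y ∈ K, g = x * y := by
  have h1 : (H ⊓ K).index = H.index * K.index := by
    apply le_antisymm Subgroup.index_inf_le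
    apply Nat.le_of_dvd (Nat.pos_of_ne_zero Subgroup.FiniteIndex.index_ne_zero)
    exact Nat.Coprime.mul_dvd_of_dvd_of_dvd h (Subgroup.index_dvd_of_le inf_le_left)
      (Subgroup.index_dvd_of_le inf_le_right)
  refine ⟨h1, ?_⟩
  intro g
  let φ : G ⧸ (H ⊓ K) → (G ⧸ H) × (G ⧸ K) := fun q =>
    (Subgroup.quotientMapOfLE inf_le_left q, Subgroup.quotientMapOfLE inf_le_right q)
  have hinj : Function.Injective φ := by
    intro a b hab
    induction a using QuotientGroup.induction_on with
    | H a =>
      induction b using QuotientGroup.induction_on with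
      | H b =>
        simp only [φ, Prod.mk.injEq, Subgroup.quotientMapOfLE_apply_mk, QuotientGroup.eq] at hab
        rw [QuotientGroup.eq]
        exact ⟨hab.1, hab.2⟩
  have hbij : Function.Bijective φ := by
    rw [Nat.bijective_iff_injective_and_card]
    refine ⟨hinj, ?_⟩
    rw [Nat.card_prod]
    exact h1
  obtain ⟨q, hq⟩ := hbij.2 ((1 : G), (g : G))
  induction q using QuotientGroup.induction_on with
  | H x =>
    simp only [φ, Prod.mk.injEq, Subgroup.quotientMapOfLE_apply_mk, QuotientGroup.eq] at hq
    refine ⟨x, ?_, x⁻¹ * g, hq.2, by group⟩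
    have := H.inv_mem hq.1
    simpa using this

end Cfsg.Agent.S0007
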