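import Cfsg.Statements.S0009
import Mathlib
import Cfsg.Agent.Lib.Lead.SylowAux2
import Cfsg.Agent.Lib.Helper2.Nilp

set_option autoImplicit false
open Cfsg Cfsg.Agent.Lib.Lead

namespace Cfsg.Agent.S0009

open scoped Pointwise commutatorElement

/-- The Fitting subgroup of a finite group is generated by the p-cores, p ranging over the primes. -/
theorem result {G : Type*} [Group G] [Finite G] :
    Cfsg.fittingSubgroup G = ⨆ p : Nat.Primes, Cfsg.pCore (p : ℕ) G := by
  apply le_antisymm
  · apply Cfsg.Agent.Lib.Helper2.subnormal_nilpotent_le _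
      (Subgroup.Normal.isSubnormal (Cfsg.Agent.Lib.Helper2.fitting_normal G))
      (Cfsg.Agent.Lib.Helper2.fitting_isNilpotent G)
    intro p hp
    exact le_iSup (fun p : Nat.Primes => Cfsg.pCore (p : ℕ) G) ⟨p, hp.out⟩
  · apply iSup_le
    intro p
    haveI : Fact (p : ℕ).Prime := ⟨p.2⟩
    exact Cfsg.Agent.Lib.Helper2.pCore_le_fitting (p : ℕ) G

end Cfsg.Agent.S0009
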