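import Cfsg.Statements.S0011
import Mathlib
import Cfsg.Agent.Lib.Lead.SylowAux

set_option autoImplicit false
open Cfsg Cfsg.Agent.Lib.Lead

namespace Cfsg.Agent.S0011

/-- If the Frattini quotient of a finite group is nilpotent then the group is nilpotent. -/
theorem result {G : Type*} [Group G] [Finite G]
    (h : Group.IsNilpotent (G ⧸ frattini G)) : Group.IsNilpotent G := by
  have q := (Group.isNilpotent_of_finite_tfae (G := G)).out 0 2
  rw [q]
  intro M hM
  have hΦ : frattini G ≤ M := frattini_le_coatom hM
  have hker : (QuotientGroup.mk' (frattini G)).ker ≤ M := by simpa using hΦ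
  have hsur : Function.Surjective (QuotientGroup.mk' (frattini G)) :=
    QuotientGroup.mk'_surjective _
  have hNC : NormalizerCondition (G ⧸ frattini G) := Group.normalizerCondition_of_isNilpotent
  rw [normalizerCondition_iff_only_full_group_self_normalizing] at hNC
  by_contra hnorm
  have hself : Subgroup.normalizer (M : Set G) = M := by
    by_contra hne
    have hlt : M < Subgroup.normalizer (M : Set G) :=
      lt_of_le_of_ne Subgroup.le_normalizer (Ne.symm hne)
    exact hnorm (Subgroup.normalizer_eq_top_iff.mp (hM.2 _ hlt))
  have hself' : Subgroup.normalizer ((M.map (QuotientGroup.mk' (frattini G)) : Subgroup _) : Set _)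
      = M.map (QuotientGroup.mk' (frattini G)) := by
    apply Subgroup.comap_injective hsur
    rw [Subgroup.comap_normalizer_eq_of_surjective _ hsur, Subgroup.comap_map_eq_self hker]
    exact hself
  have htop := hNC _ hself'
  apply hM.1
  have h1 := Subgroup.comap_map_eq_self hker
  rw [htop, Subgroup.comap_top] at h1
  exact h1.symm

end Cfsg.Agent.S0011
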