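import Cfsg.Statements.S0013
import Mathlib
import Cfsg.Agent.Lib.Lead.SylowAux2
import Cfsg.Agent.Lib.Helper4.Frattini

set_option autoImplicit false
open Cfsg Cfsg.Agent.Lib.Lead

namespace Cfsg.Agent.S0013

open scoped Pointwise commutatorElement

/-- In a finite p-group the Frattini subgroup is the smallest normal subgroup with elementary abelian quotient: it lies below any normal subgroup containing all commutators and all p-th powers. -/
theorem result {G : Type*} [Group G] [Finite G] (p : ℕ) [Fact p.Prime]
    (hG : IsPGroup p G) (N : Subgroup G) [N.Normal] (hcomm : commutator G ≤ N) (hpow : ∀ x : G, x ^ p ∈ N) :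
    frattini G ≤ N := by
  have hc : ∀ x y : G, (QuotientGroup.mk' N) x * (QuotientGroup.mk' N) y =
      (QuotientGroup.mk' N) y * (QuotientGroup.mk' N) x := by
    intro x y
    rw [← map_mul, ← map_mul]
    apply QuotientGroup.eq.mpr
    have e : (x * y)⁻¹ * (y * x) = ⁅y⁻¹, x⁻¹⁆ := by rw [commutatorElement_def]; group
    rw [e]
    exact hcomm (Subgroup.commutator_mem_commutator (Subgroup.mem_top _) (Subgroup.mem_top _))
  have hpw : ∀ x : G, (QuotientGroup.mk' N) x ^ p = 1 := by
    intro x
    rw [← map_pow]
    exact (QuotientGroup.eq_one_iff _).mpr (hpow x)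
  have h := Cfsg.Agent.Lib.Helper4.frattini_le_ker_of_elementary (Fact.out : p.Prime)
    (QuotientGroup.mk' N) hc hpw
  rwa [QuotientGroup.ker_mk'] at h

end Cfsg.Agent.S0013
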