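import Cfsg.Statements.S0014
import Mathlib
import Cfsg.Agent.Lib.Helper7.ElemAbCount
import Cfsg.Agent.Lib.Helper1.ThompsonJ
-- import your own Cfsg.Agent.* helpers here

set_option autoImplicit false
open Cfsg

namespace Cfsg.Agent.S0014


theorem card_sup_zpowers {V : Type*} [Group V] [Finite V] (p : ℕ) [Fact p.Prime]
    (hcomm : ∀ a b : V, a * b = b * a) (hpow : ∀ v : V, v ^ p = 1) (H : Subgroup V) (v : V) :
    Nat.card ↥(Subgroup.zpowers v ⊔ H) ≤ p * Nat.card H ∧
      (v ∉ H → Nat.card ↥(Subgroup.zpowers v ⊔ H) = p * Nat.card H) := by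
  have hnorm : Subgroup.zpowers v ≤ Subgroup.normalizer (H : Set V) := by
    intro z _
    rw [Subgroup.mem_normalizer_iff]
    intro h
    have : z * h * z⁻¹ = h := by rw [hcomm z h, mul_inv_cancel_right]
    rw [this]
  have key := Cfsg.Agent.Lib.Helper1.card_sup_mul_card_inf (Subgroup.zpowers v) H hnorm
  rw [Nat.card_zpowers] at key
  have hdvd : orderOf v ∣ p := orderOf_dvd_of_pow_eq_one (hpow v)
  have hle : orderOf v ≤ p := Nat.le_of_dvd (Fact.out : p.Prime).pos hdvd
  have hpos : 0 < Nat.card ↥(Subgroup.zpowers v ⊓ H) := Nat.card_pos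
  constructor
  · calc Nat.card ↥(Subgroup.zpowers v ⊔ H)
        ≤ Nat.card ↥(Subgroup.zpowers v ⊔ H) * Nat.card ↥(Subgroup.zpowers v ⊓ H) :=
          Nat.le_mul_of_pos_right _ hpos
      _ = orderOf v * Nat.card H := key
      _ ≤ p * Nat.card H := Nat.mul_le_mul_right _ hle
  · intro hv
    have hv1 : v ≠ 1 := fun h => hv (h ▸ one_mem H)
    have hord : orderOf v = p := orderOf_eq_prime (hpow v) hv1
    have hinf : Nat.card ↥(Subgroup.zpowers v ⊓ H) = 1 := by
      have hd : Nat.card ↥(Subgroup.zpowers v ⊓ H) ∣ p := by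
        have := Subgroup.card_dvd_of_le (inf_le_left : Subgroup.zpowers v ⊓ H ≤ Subgroup.zpowers v)
        rwa [Nat.card_zpowers, hord] at this
      rcases (Nat.dvd_prime (Fact.out : p.Prime)).mp hd with h | h
      · exact h
      · exfalso
        have heq : Subgroup.zpowers v ⊓ H = Subgroup.zpowers v :=
          Subgroup.eq_of_le_of_card_ge inf_le_left (by rw [h, Nat.card_zpowers, hord])
        apply hv
        have : v ∈ Subgroup.zpowers v ⊓ H := by rw [heq]; exact Subgroup.mem_zpowers v
        exact this.2
    rw [hinf, mul_one, hord] at key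
    exact key

/-- Burnside's basis Theorem: in a finite p-group whose Frattini quotient has order p ^ n, every generating set contains n elements that already generate, and no set with fewer than n elements generates. -/
theorem result {G : Type*} [Group G] [Finite G] (p n : ℕ) [Fact p.Prime]
    (hG : IsPGroup p G) (hn : (frattini G).index = p ^ n) :
    (∀ S : Finset G, Subgroup.closure (S : Set G) = ⊤ → ∃ T : Finset G, T ⊆ S ∧ T.card = n ∧ Subgroup.closure (T : Set G) = ⊤) ∧
    (∀ T : Finset G, Subgroup.closure (T : Set G) = ⊤ → n ≤ T.card) := by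
  classical
  obtain ⟨π, hπ⟩ : ∃ π : G →* G ⧸ frattini G, π = QuotientGroup.mk' (frattini G) := ⟨_, rfl⟩
  have hsurj : Function.Surjective π := by rw [hπ]; exact QuotientGroup.mk'_surjective _
  have hcardV : Nat.card (G ⧸ frattini G) = p ^ n := by rw [← Subgroup.index_eq_card]; exact hn
  have hcomm : ∀ a b : G ⧸ frattini G, a * b = b * a := by
    intro a b
    obtain ⟨x, rfl⟩ := hsurj a
    obtain ⟨y, rfl⟩ := hsurj b
    rw [← map_mul, ← map_mul, hπ, QuotientGroup.mk'_apply, QuotientGroup.mk'_apply,
      QuotientGroup.eq]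
    exact Cfsg.Agent.Lib.Helper7.comm_mem_frattini hG x y
  have hpow : ∀ v : G ⧸ frattini G, v ^ p = 1 := by
    intro v
    obtain ⟨x, rfl⟩ := hsurj v
    rw [← map_pow, hπ, QuotientGroup.mk'_apply, QuotientGroup.eq_one_iff]
    exact Cfsg.Agent.Lib.Helper7.pow_mem_frattini hG x
  have hgen : ∀ T : Finset G, Subgroup.closure (T : Set G) = ⊤ →
      Subgroup.closure (π '' (T : Set G)) = ⊤ := by
    intro T hT
    rw [← MonoidHom.map_closure, hT, ← MonoidHom.range_eq_map]
    exact MonoidHom.range_eq_top.mpr hsurj
  have hgen' : ∀ T : Finset G, Subgroup.closure (π '' (T : Set G)) = ⊤ →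
      Subgroup.closure (T : Set G) = ⊤ := by
    intro T hT
    apply frattini_nongenerating
    rw [eq_top_iff]
    intro g _
    have hg : π g ∈ Subgroup.closure (π '' (T : Set G)) := by rw [hT]; trivial
    rw [← MonoidHom.map_closure] at hg
    obtain ⟨t, ht, hte⟩ := Subgroup.mem_map.mp hg
    have h5 : t⁻¹ * g ∈ frattini G := by
      rw [hπ, QuotientGroup.mk'_apply, QuotientGroup.mk'_apply, QuotientGroup.eq] at hte
      exact hte
    have e : g = t * (t⁻¹ * g) := by group
    rw [e]
    exact mul_mem (Subgroup.mem_sup_left ht) (Subgroup.mem_sup_right h5)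
  have hinsert : ∀ (T : Finset G) (s : G),
      Subgroup.closure (π '' ((insert s T : Finset G) : Set G)) =
        Subgroup.zpowers (π s) ⊔ Subgroup.closure (π '' (T : Set G)) := by
    intro T s
    rw [Finset.coe_insert, Set.image_insert_eq, Set.insert_eq, Subgroup.closure_union,
      Subgroup.zpowers_eq_closure]
  constructor
  · intro S hS
    have hSgen := hgen S hS
    have hstep : ∀ k : ℕ, k ≤ n → ∃ T : Finset G, T ⊆ S ∧ T.card = k ∧
        Nat.card (Subgroup.closure (π '' (T : Set G))) = p ^ k := by
      intro k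
      induction k with
      | zero =>
        intro _
        refine ⟨∅, Finset.empty_subset _, rfl, ?_⟩
        rw [Finset.coe_empty, Set.image_empty, Subgroup.closure_empty, pow_zero]
        exact Subgroup.card_bot
      | succ k ih =>
        intro hk
        obtain ⟨T, hTS, hTc, hTcard⟩ := ih (by omega)
        have hne : Subgroup.closure (π '' (T : Set G)) ≠ ⊤ := by
          intro h
          rw [h, Subgroup.card_top, hcardV] at hTcard
          have := Nat.pow_right_injective (Fact.out : p.Prime).two_le hTcard
          omega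
        obtain ⟨s, hsS, hs⟩ : ∃ s ∈ S, π s ∉ Subgroup.closure (π '' (T : Set G)) := by
          by_contra hcon
          push_neg at hcon
          apply hne
          rw [eq_top_iff, ← hSgen, Subgroup.closure_le]
          rintro _ ⟨s, hs, rfl⟩
          exact hcon s hs
        have hsT : s ∉ T := by
          intro h
          exact hs (Subgroup.subset_closure ⟨s, h, rfl⟩)
        refine ⟨insert s T, Finset.insert_subset hsS hTS,
          by rw [Finset.card_insert_of_notMem hsT, hTc], ?_⟩
        rw [hinsert, (card_sup_zpowers p hcomm hpow _ _).2 hs, hTcard, pow_succ, mul_comm]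
    obtain ⟨T, hTS, hTc, hTcard⟩ := hstep n le_rfl
    refine ⟨T, hTS, hTc, hgen' T ?_⟩
    apply (Subgroup.card_eq_iff_eq_top _).mp
    rw [hTcard, hcardV]
  · intro T hT
    have hle : ∀ T : Finset G, Nat.card (Subgroup.closure (π '' (T : Set G))) ≤ p ^ T.card := by
      intro T
      induction T using Finset.induction_on with
      | empty =>
        rw [Finset.coe_empty, Set.image_empty, Subgroup.closure_empty, Finset.card_empty,
          pow_zero, Subgroup.card_bot]
      | insert s T hsT ih =>
        rw [hinsert, Finset.card_insert_of_notMem hsT, pow_succ, mul_comm]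
        exact ((card_sup_zpowers p hcomm hpow _ _).1).trans (Nat.mul_le_mul_left p ih)
    have h1 := hle T
    rw [hgen T hT, Subgroup.card_top, hcardV] at h1
    exact (Nat.pow_le_pow_iff_right (Fact.out : p.Prime).one_lt).mp h1

end Cfsg.Agent.S0014
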