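import Cfsg.Statements.S0065
import Mathlib
import Cfsg.Agent.Lib.Lead.SylowAux

set_option autoImplicit false
open Cfsg Cfsg.Agent.Lib.Lead

namespace Cfsg.Agent.S0065

open scoped commutatorElement

/-- A nontrivial normal subgroup of a nilpotent group intersects the centre nontrivially. -/
theorem result {G : Type*} [Group G] [Finite G] [Group.IsNilpotent G]
    (N : Subgroup G) [N.Normal] (hN : N ≠ ⊥) : N ⊓ Subgroup.center G ≠ ⊥ := by
  classical
  obtain ⟨n, hn⟩ := (Group.IsNilpotent.nilpotent' : ∃ n : ℕ, Subgroup.upperCentralSeries G n = ⊤)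
  have hex : ∃ k : ℕ, N ⊓ Subgroup.upperCentralSeries G k ≠ ⊥ := ⟨n, by rw [hn, inf_top_eq]; exact hN⟩
  have hk := Nat.find_spec hex
  have hkmin := fun m => Nat.find_min hex (m := m)
  generalize Nat.find hex = k at hk hkmin
  obtain _ | k := k
  · exfalso
    apply hk
    rw [Subgroup.upperCentralSeries_zero, inf_bot_eq]
  · have hprev : N ⊓ Subgroup.upperCentralSeries G k = ⊥ := by
      by_contra h
      exact hkmin k (Nat.lt_succ_self k) h
    intro hbot
    apply hk
    rw [eq_bot_iff]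
    intro x hx
    rw [← hbot]
    refine Subgroup.mem_inf.mpr ⟨hx.1, ?_⟩
    rw [Subgroup.mem_center_iff]
    intro y
    have h1 : ⁅x, y⁆ ∈ Subgroup.upperCentralSeries G k :=
      Subgroup.mem_upperCentralSeries_succ_iff.mp hx.2 y
    have h2 : ⁅x, y⁆ ∈ N := by
      rw [commutatorElement_def]
      have h3 : x * y * x⁻¹ * y⁻¹ = x * (y * x⁻¹ * y⁻¹) := by group
      rw [h3]
      exact N.mul_mem hx.1 (Subgroup.Normal.conj_mem inferInstance _ (N.inv_mem hx.1) y)
    have h4 : ⁅x, y⁆ ∈ N ⊓ Subgroup.upperCentralSeries G k := Subgroup.mem_inf.mpr ⟨h2, h1⟩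
    rw [hprev, Subgroup.mem_bot, commutatorElement_eq_one_iff_mul_comm] at h4
    exact h4.symm

end Cfsg.Agent.S0065
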