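import Cfsg.Statements.S0015
import Mathlib
import Cfsg.Agent.Lib.Lead.SylowAux
import Cfsg.Agent.S0065

set_option autoImplicit false
open Cfsg Cfsg.Agent.Lib.Lead

namespace Cfsg.Agent.S0015

/-- In a finite nilpotent group, an abelian normal subgroup that is maximal among abelian normal subgroups equals its own centralizer. -/
theorem result {G : Type*} [Group G] [Finite G] [Group.IsNilpotent G]
    (N : Subgroup G) [N.Normal] [IsMulCommutative N]
    (hmax : ∀ M : Subgroup G, M.Normal → IsMulCommutative M → N ≤ M → M = N) :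
    Subgroup.centralizer (N : Set G) = N := by
  classical
  have hNC : N ≤ Subgroup.centralizer (N : Set G) :=
    Subgroup.le_centralizer_iff_isMulCommutative.mpr inferInstance
  by_contra hne
  have hCn : (Subgroup.centralizer (N : Set G)).Normal := inferInstance
  have hsur : Function.Surjective (QuotientGroup.mk' N) := QuotientGroup.mk'_surjective N
  have hC' : (Subgroup.centralizer (N : Set G)).map (QuotientGroup.mk' N) ≠ ⊥ := by
    intro h
    apply hne
    apply le_antisymm _ hNC
    intro c hc
    have h1 : (QuotientGroup.mk' N) c ∈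
        (Subgroup.centralizer (N : Set G)).map (QuotientGroup.mk' N) :=
      Subgroup.mem_map_of_mem _ hc
    rw [h, Subgroup.mem_bot] at h1
    exact (QuotientGroup.eq_one_iff c).mp h1
  haveI : ((Subgroup.centralizer (N : Set G)).map (QuotientGroup.mk' N)).Normal :=
    Subgroup.Normal.map hCn _ hsur
  have h65 := Cfsg.Agent.S0065.result _ hC'
  rw [Ne, Subgroup.eq_bot_iff_forall] at h65
  push Not at h65
  obtain ⟨z, hz, hz1⟩ := h65
  obtain ⟨hzC, hzZ⟩ := Subgroup.mem_inf.mp hz
  obtain ⟨x, hxC, hxz⟩ := Subgroup.mem_map.mp hzC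
  have hxN : x ∉ N := by
    intro h
    apply hz1
    rw [← hxz]
    exact (QuotientGroup.eq_one_iff x).mpr h
  have hzn : (Subgroup.zpowers z).Normal := by
    constructor
    intro n hn g
    obtain ⟨i, rfl⟩ := Subgroup.mem_zpowers_iff.mp hn
    have hc : z ^ i ∈ Subgroup.center (G ⧸ N) := Subgroup.zpow_mem _ hzZ i
    rw [Subgroup.mem_center_iff] at hc
    rw [hc g, mul_inv_cancel_right]
    exact Subgroup.zpow_mem_zpowers z i
  have hMn : ((Subgroup.zpowers z).comap (QuotientGroup.mk' N)).Normal := hzn.comap _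
  have hNM : N ≤ (Subgroup.zpowers z).comap (QuotientGroup.mk' N) := by
    intro g hg
    rw [Subgroup.mem_comap]
    have h1 : (QuotientGroup.mk' N) g = 1 := (QuotientGroup.eq_one_iff g).mpr hg
    rw [h1]; exact Subgroup.one_mem _
  have hxM : x ∈ (Subgroup.zpowers z).comap (QuotientGroup.mk' N) := by
    rw [Subgroup.mem_comap, hxz]; exact Subgroup.mem_zpowers z
  have hMle : (Subgroup.zpowers z).comap (QuotientGroup.mk' N) ≤ N ⊔ Subgroup.zpowers x := by
    intro a ha
    rw [Subgroup.mem_comap] at ha
    obtain ⟨i, hi⟩ := Subgroup.mem_zpowers_iff.mp ha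
    have h1 : a * (x ^ i)⁻¹ ∈ N := by
      rw [← QuotientGroup.eq_one_iff]
      show (QuotientGroup.mk' N) (a * (x ^ i)⁻¹) = 1
      rw [map_mul, map_inv, map_zpow, hxz, hi, mul_inv_cancel]
    have h2 : a = (a * (x ^ i)⁻¹) * x ^ i := by group
    rw [h2]
    exact Subgroup.mul_mem _ (Subgroup.mem_sup_left h1)
      (Subgroup.mem_sup_right (Subgroup.zpow_mem_zpowers x i))
  have hS : N ⊔ Subgroup.zpowers x ≤ Subgroup.centralizer ((N : Set G) ∪ {x}) := by
    apply sup_le
    · intro n hn
      rw [Subgroup.mem_centralizer_iff]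
      rintro s (hs | hs)
      · exact Subgroup.mem_centralizer_iff.mp (hNC hn) s hs
      · rw [Set.mem_singleton_iff] at hs
        rw [hs]
        exact (Subgroup.mem_centralizer_iff.mp hxC n hn).symm
    · rw [Subgroup.zpowers_le, Subgroup.mem_centralizer_iff]
      rintro s (hs | hs)
      · exact Subgroup.mem_centralizer_iff.mp hxC s hs
      · rw [Set.mem_singleton_iff] at hs
        rw [hs]
  have hcomm : N ⊔ Subgroup.zpowers x ≤
      Subgroup.centralizer ((N ⊔ Subgroup.zpowers x : Subgroup G) : Set G) := by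
    apply sup_le
    · intro n hn
      rw [Subgroup.mem_centralizer_iff]
      intro m hm
      exact (Subgroup.mem_centralizer_iff.mp (hS hm) n (Or.inl hn)).symm
    · rw [Subgroup.zpowers_le, Subgroup.mem_centralizer_iff]
      intro m hm
      exact (Subgroup.mem_centralizer_iff.mp (hS hm) x (Or.inr rfl)).symm
  have hMc : IsMulCommutative ((Subgroup.zpowers z).comap (QuotientGroup.mk' N)) := by
    rw [← Subgroup.le_centralizer_iff_isMulCommutative]
    exact hMle.trans (hcomm.trans (Subgroup.centralizer_le (SetLike.coe_subset_coe.mpr hMle)))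
  have hfin := hmax _ hMn hMc hNM
  rw [hfin] at hxM
  exact hxN hxM

end Cfsg.Agent.S0015
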