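import Cfsg.Statements.S0018
import Mathlib
import Cfsg.Agent.Lib.Lead.SylowAux2
import Cfsg.Agent.Lib.Helper3.PPrimeCore
import Cfsg.Agent.Lib.Helper4.PCore
import Cfsg.Agent.S0017
import Cfsg.Agent.Lib.Lead.Hall

set_option autoImplicit false
open Cfsg Cfsg.Agent.Lib.Lead

namespace Cfsg.Agent.S0018

open scoped Pointwise commutatorElement

/-- A finite solvable group whose Sylow p-subgroups are abelian has p-length one: a Sylow p-subgroup together with the largest normal subgroup of order prime to p generates a normal subgroup. -/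
theorem result {G : Type*} [Group G] [Finite G] [Group.IsSolvable G]
    (p : ℕ) [Fact p.Prime] (P : Sylow p G) (hP : IsMulCommutative P) :
    ((P : Subgroup G) ⊔ Cfsg.pPrimeCore p G).Normal := by
  have hNn : (Cfsg.pPrimeCore p G).Normal := Cfsg.Agent.Lib.Helper3.pPrimeCore_normal p G
  have hNc : (Nat.card (Cfsg.pPrimeCore p G)).Coprime p :=
    Cfsg.Agent.Lib.Helper3.pPrimeCore_coprime Fact.out G
  have hNle : ∀ M : Subgroup G, M.Normal → (Nat.card M).Coprime p → M ≤ Cfsg.pPrimeCore p G :=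
    fun M hM1 hM2 => Cfsg.Agent.Lib.Helper3.le_pPrimeCore hM1 hM2
  generalize Cfsg.pPrimeCore p G = N at hNn hNc hNle ⊢
  have hsurj := QuotientGroup.mk'_surjective N
  have h1 : Cfsg.pPrimeCore p (G ⧸ N) = ⊥ := by
    unfold Cfsg.pPrimeCore
    rw [sSup_eq_bot]
    rintro M ⟨hMn, hMc⟩
    have hcn : (M.comap (QuotientGroup.mk' N)).Normal := hMn.comap _
    have hcc : (Nat.card (M.comap (QuotientGroup.mk' N))).Coprime p := by
      rw [card_comap_mk']
      exact Nat.Coprime.mul_left hMc hNc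
    have hle : M.comap (QuotientGroup.mk' N) ≤ N := hNle _ hcn hcc
    rw [eq_bot_iff]
    intro x hx
    obtain ⟨g, rfl⟩ := hsurj x
    have hg : g ∈ N := hle hx
    rw [Subgroup.mem_bot]; exact (QuotientGroup.eq_one_iff g).mpr hg
  have h2 := Cfsg.Agent.S0017.result (G := G ⧸ N) p h1
  have h3 : Cfsg.pCore p (G ⧸ N) ≤ (P : Subgroup G).map (QuotientGroup.mk' N) :=
    Cfsg.Agent.Lib.Helper4.pCore_le_sylow (P.mapSurjective hsurj)
  have h4 : (P : Subgroup G).map (QuotientGroup.mk' N) ≤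
      Subgroup.centralizer (Cfsg.pCore p (G ⧸ N) : Set (G ⧸ N)) := by
    intro x hx
    rw [Subgroup.mem_centralizer_iff]
    intro y hy
    have hy' := h3 hy
    obtain ⟨a, ha, rfl⟩ := hx
    obtain ⟨b, hb, rfl⟩ := hy'
    rw [← map_mul, ← map_mul]
    congr 1
    exact congrArg Subtype.val (mul_comm' (⟨b, hb⟩ : P) ⟨a, ha⟩)
  have h5 : (P : Subgroup G).map (QuotientGroup.mk' N) = Cfsg.pCore p (G ⧸ N) :=
    le_antisymm (h4.trans h2) h3
  have h6 : ((P : Subgroup G).map (QuotientGroup.mk' N)).Normal := by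
    rw [h5]; exact Cfsg.Agent.Lib.Helper4.pCore_normal p _
  have h7 : (P : Subgroup G) ⊔ N =
      ((P : Subgroup G).map (QuotientGroup.mk' N)).comap (QuotientGroup.mk' N) := by
    rw [Subgroup.comap_map_eq, QuotientGroup.ker_mk']
  rw [h7]
  exact h6.comap _

end Cfsg.Agent.S0018
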