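import Cfsg.Statements.S0021
import Mathlib
import Cfsg.Agent.Lib.Lead.SylowAux2
import Cfsg.Agent.Lib.Lead.PermSylow

set_option autoImplicit false
open Pointwise
open Cfsg Cfsg.Agent.Lib.Lead

namespace Cfsg.Agent.S0021

open scoped Pointwise commutatorElement

/-- A finite group with a family of pairwise permuting Sylow subgroups, one for each prime, is solvable (this direction rests on Burnside's two-prime Theorem). -/
theorem result {G : Type*} [Group G] [Finite G]
    (S : (p : Nat.Primes) → Sylow (p : ℕ) G)
    (hS : ∀ p q : Nat.Primes, (S p : Set G) * (S q : Set G) = (S q : Set G) * (S p : Set G)) :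
    Group.IsSolvable G := by
  exact solvable_of_sylow_system S hS

end Cfsg.Agent.S0021
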