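import Cfsg.Statements.S0030
import Mathlib
import Cfsg.Agent.Lib.Lead.SylowAux2
import Cfsg.Agent.Lib.Lead.CoprimeAction2

set_option autoImplicit false
open Cfsg Cfsg.Agent.Lib.Lead

namespace Cfsg.Agent.S0030

open scoped Pointwise commutatorElement

/-- Under coprime action fixed points of a product of two invariant subgroups factor: if K = X Y with X and Y normalised by A then every A-fixed element of K is a product of an A-fixed element of X and an A-fixed element of Y. -/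
theorem result {G : Type*} [Group G] [Finite G] (A K : Subgroup G) (hAK : A ≤ Subgroup.normalizer (K : Set G))
    (hcop : (Nat.card A).Coprime (Nat.card K)) (hsolv : Group.IsSolvable A ∨ Group.IsSolvable K)
    (X Y : Subgroup G) (hX : X ≤ K) (hY : Y ≤ K) (hXA : A ≤ Subgroup.normalizer (X : Set G)) (hYA : A ≤ Subgroup.normalizer (Y : Set G))
    (hXY : ∀ k ∈ K, ∃ x ∈ X, ∃ y ∈ Y, k = x * y) (k : G) (hk : k ∈ K ⊓ Subgroup.centralizer (A : Set G)) :
    ∃ x ∈ X ⊓ Subgroup.centralizer (A : Set G), ∃ y ∈ Y ⊓ Subgroup.centralizer (A : Set G), k = x * y := by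
  obtain ⟨x, hx, y, hy, rfl⟩ := hXY k hk.1
  have hcen : ∀ a ∈ A, a * (x * y) = (x * y) * a := Subgroup.mem_centralizer_iff.mp hk.2
  have hDA : A ≤ Subgroup.normalizer ((X ⊓ Y : Subgroup G) : Set G) := by
    apply le_normalizer_of_conj_mem
    intro a ha z hz
    exact ⟨conj_mem_of_mem_normalizer (hXA ha) hz.1, conj_mem_of_mem_normalizer (hYA ha) hz.2⟩
  have hDK : X ⊓ Y ≤ K := inf_le_left.trans hX
  have hDs : Group.IsSolvable A ∨ Group.IsSolvable (X ⊓ Y : Subgroup G) := by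
    rcases hsolv with hs | hs
    · exact Or.inl hs
    · exact Or.inr (Group.isSolvable_of_isSolvable_injective (Subgroup.inclusion_injective hDK))
  have hcopD : (Nat.card A).Coprime (Nat.card (X ⊓ Y : Subgroup G)) :=
    Nat.Coprime.coprime_dvd_right (Subgroup.card_dvd_of_le hDK) hcop
  have hk' : ∀ a ∈ A, a⁻¹ * (x⁻¹ * a * x) ∈ X ⊓ Y := by
    intro a ha
    constructor
    · have h1 : a⁻¹ * (x⁻¹ * a * x) = (a⁻¹ * x⁻¹ * a⁻¹⁻¹) * x := by group
      rw [h1]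
      exact X.mul_mem (conj_mem_of_mem_normalizer (hXA (A.inv_mem ha)) (X.inv_mem hx)) hx
    · -- a⁻¹ x⁻¹ a x = a⁻¹ y a y⁻¹ since a (x y) = (x y) a
      have h2 : a⁻¹ * (x⁻¹ * a * x) = (a⁻¹ * y * a⁻¹⁻¹) * y⁻¹ := by
        have h3 := hcen a ha
        calc a⁻¹ * (x⁻¹ * a * x) = a⁻¹ * x⁻¹ * (a * (x * y)) * y⁻¹ := by group
          _ = a⁻¹ * x⁻¹ * (x * y * a) * y⁻¹ := by rw [h3]
          _ = (a⁻¹ * y * a⁻¹⁻¹) * y⁻¹ := by group
      rw [h2]
      exact Y.mul_mem (conj_mem_of_mem_normalizer (hYA (A.inv_mem ha)) hy) (Y.inv_mem hy)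
  obtain ⟨d, hd, hd2⟩ := coprime_fix A (X ⊓ Y) hDA hcopD hDs x hk'
  have hcX : x * d ∈ X := X.mul_mem hx hd.1
  have hcC : x * d ∈ Subgroup.centralizer (A : Set G) :=
    mem_centralizer_of_normalizes A K hAK hcop (x * d) (hX hcX) hd2
  refine ⟨x * d, ⟨hcX, hcC⟩, d⁻¹ * y, ⟨Y.mul_mem (Y.inv_mem hd.2) hy, ?_⟩, by group⟩
  have h5 : d⁻¹ * y = (x * d)⁻¹ * (x * y) := by group
  rw [h5]
  exact Subgroup.mul_mem _ (Subgroup.inv_mem _ hcC) hk.2

end Cfsg.Agent.S0030
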