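import Cfsg.Statements.S0031
import Mathlib
import Cfsg.Agent.Lib.Lead.SylowAux

set_option autoImplicit false
open Cfsg Cfsg.Agent.Lib.Lead

namespace Cfsg.Agent.S0031

open scoped Pointwise

/-- A fixed-point-free automorphism of a finite group maps some Sylow p-subgroup to itself. -/
theorem result {G : Type*} [Group G] [Finite G] (φ : G ≃* G)
    (hφ : MonoidHom.FixedPointFree (φ : G →* G)) (p : ℕ) [Fact p.Prime] :
    ∃ P : Sylow p G, (P : Subgroup G).map (φ : G →* G) = P := by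
  classical
  obtain ⟨P₀⟩ : Nonempty (Sylow p G) := inferInstance
  obtain ⟨g, hg⟩ := MulAction.exists_smul_eq G P₀ ((φ : MulAut G) • P₀)
  obtain ⟨y, hy⟩ := hφ.commutatorMap_surjective g⁻¹
  have hg2 : g⁻¹ = y * (φ y)⁻¹ := by
    rw [← hy]; simp [MonoidHom.commutatorMap, div_eq_mul_inv]
  refine ⟨y⁻¹ • P₀, ?_⟩
  have hle : ((y⁻¹ • P₀ : Sylow p G) : Subgroup G).map (φ : G →* G) ≤ (y⁻¹ • P₀ : Sylow p G) := by
    rintro z ⟨w, hw, rfl⟩
    have hw' : w ∈ MulAut.conj y⁻¹ • (P₀ : Subgroup G) := hw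
    rw [mem_conj_smul, inv_inv] at hw'
    show (φ : G →* G) w ∈ MulAut.conj y⁻¹ • (P₀ : Subgroup G)
    rw [mem_conj_smul, inv_inv]
    have h1 : (φ : MulAut G) • (y * w * y⁻¹) ∈ (φ : MulAut G) • (P₀ : Subgroup G) :=
      Subgroup.smul_mem_pointwise_smul _ _ _ hw'
    have h2 : (φ : MulAut G) • (y * w * y⁻¹) ∈ (((φ : MulAut G) • P₀ : Sylow p G) : Subgroup G) := h1
    rw [← hg] at h2
    have h3 : (φ : MulAut G) • (y * w * y⁻¹) ∈ MulAut.conj g • (P₀ : Subgroup G) := h2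
    rw [mem_conj_smul, hg2] at h3
    have h4 : y * (φ y)⁻¹ * (φ : MulAut G) • (y * w * y⁻¹) * (y * (φ y)⁻¹)⁻¹ = y * φ w * y⁻¹ := by
      rw [MulAut.smul_def, map_mul, map_mul, map_inv]
      group
    have h5 : g = (y * (φ y)⁻¹)⁻¹ := by rw [← hg2, inv_inv]
    rw [h5, h4] at h3
    exact h3
  apply Subgroup.eq_of_le_of_card_ge hle
  rw [Subgroup.card_map_of_injective φ.injective]

end Cfsg.Agent.S0031
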