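import Cfsg.Statements.S0032
import Mathlib

set_option autoImplicit false
open Cfsg

namespace Cfsg.Agent.S0032

/-- If an automorphism of a finite group fixes only the identity and maps a normal subgroup N into itself, then the only cosets of N it fixes are those in N: a fixed coset xN forces x ∈ N. -/
theorem result {G : Type*} [Group G] [Finite G] (φ : G ≃* G)
    (hφ : MonoidHom.FixedPointFree (φ : G →* G)) (N : Subgroup G) [N.Normal] (hN : ∀ n ∈ N, φ n ∈ N)
    (x : G) (hx : (φ x)⁻¹ * x ∈ N) : x ∈ N := by
  classical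
  let ψ : N →* N :=
    { toFun := fun n => ⟨φ n, hN n n.2⟩
      map_one' := Subtype.ext (by simp)
      map_mul' := fun a b => Subtype.ext (by simp) }
  have hψ : MonoidHom.FixedPointFree ψ := by
    intro n hn
    have : (φ : G →* G) (n : G) = n := congrArg Subtype.val hn
    exact Subtype.ext (hφ _ this)
  have hmem : x⁻¹ * φ x ∈ N := by
    have := N.inv_mem hx
    simpa [mul_inv_rev] using this
  obtain ⟨n, hn⟩ := hψ.commutatorMap_surjective ⟨x⁻¹ * φ x, hmem⟩
  have h2 : MonoidHom.commutatorMap (φ : G →* G) (n : G)
      = MonoidHom.commutatorMap (φ : G →* G) x⁻¹ := by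
    have := congrArg Subtype.val hn
    simp only [MonoidHom.commutatorMap_apply, map_inv] at this ⊢
    rw [div_inv_eq_mul]
    refine Eq.trans ?_ this
    simp [ψ, div_eq_mul_inv]
  have h3 := hφ.commutatorMap_injective h2
  have : x⁻¹ ∈ N := h3 ▸ n.2
  simpa using N.inv_mem this

end Cfsg.Agent.S0032
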