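import Cfsg.Statements.S0049
import Mathlib
import Cfsg.Agent.Lib.Lead.SylowAux2

set_option autoImplicit false
open Cfsg Cfsg.Agent.Lib.Lead

namespace Cfsg.Agent.S0049

open scoped Pointwise commutatorElement

/-- A prime divisor of the order of a finite group also divides the index of the Frattini subgroup. -/
theorem result {G : Type*} [Group G] [Finite G] (p : ℕ) (hp : p.Prime) (hdvd : p ∣ Nat.card G) :
    p ∣ (frattini G).index := by
  haveI : Fact p.Prime := ⟨hp⟩
  by_contra hnd
  obtain S : Sylow p (frattini G) := default
  have hPp : IsPGroup p ((S : Subgroup (frattini G)).map (frattini G).subtype) := S.2.map _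
  have hPidx : ¬ p ∣ ((S : Subgroup (frattini G)).map (frattini G).subtype).index := by
    rw [Subgroup.index_map_subtype]
    intro hd
    rcases (Nat.Prime.dvd_mul hp).mp hd with h1 | h1
    · exact S.not_dvd_index h1
    · exact hnd h1
  have hnil : Group.IsNilpotent (frattini G) := frattini_nilpotent
  have hSn : (S : Subgroup (frattini G)).Normal :=
    Sylow.normal_of_normalizerCondition Group.normalizerCondition_of_isNilpotent S
  have hSc : (S : Subgroup (frattini G)).Characteristic := S.characteristic_of_normal hSn
  have hPn : ((S : Subgroup (frattini G)).map (frattini G).subtype).Normal :=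
    ConjAct.normal_of_characteristic_of_normal
  have hcop : Nat.Coprime (Nat.card ((S : Subgroup (frattini G)).map (frattini G).subtype))
      ((S : Subgroup (frattini G)).map (frattini G).subtype).index := by
    obtain ⟨k, hk⟩ := IsPGroup.iff_card.mp hPp
    rw [hk]
    exact Nat.Coprime.pow_left k ((Nat.Prime.coprime_iff_not_dvd hp).mpr hPidx)
  obtain ⟨H, hH⟩ := Subgroup.exists_right_complement'_of_coprime hcop
  have h1 : H ⊔ frattini G = ⊤ := by
    rw [eq_top_iff, ← hH.sup_eq_top]
    exact sup_le (le_sup_of_le_right (Subgroup.map_subtype_le _)) le_sup_left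
  have h2 : H = ⊤ := frattini_nongenerating h1
  have h3 := hH.disjoint.eq_bot
  rw [h2, inf_top_eq] at h3
  exact (hPp.toSylow hPidx).ne_bot_of_dvd_card hdvd h3

end Cfsg.Agent.S0049
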