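import Cfsg.Statements.S0050
import Mathlib
import Cfsg.Agent.Lib.Lead.SylowAux2
import Cfsg.Agent.Lib.Lead.Hall2
import Cfsg.Agent.Lib.Lead.Glauberman2

set_option autoImplicit false
open Cfsg Cfsg.Agent.Lib.Lead

namespace Cfsg.Agent.S0050

open scoped Pointwise commutatorElement

/-- Frattini argument for Hall subgroups: if L is a solvable normal subgroup and H a subgroup of L of order coprime to its index in L, then L together with the normaliser of H generates the whole group. -/
theorem result {G : Type*} [Group G] [Finite G] (L : Subgroup G) [L.Normal] (hL : Group.IsSolvable L)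
    (H : Subgroup G) (hHL : H ≤ L) (hHall : (Nat.card H).Coprime (H.relIndex L)) :
    L ⊔ Subgroup.normalizer (H : Set G) = ⊤ := by
  have hLn : L.Normal := inferInstance
  rw [eq_top_iff]
  intro g _
  have hKL : MulAut.conj g • H ≤ L := by
    intro x hx
    rw [mem_conj_smul] at hx
    have h1 := hLn.conj_mem _ (hHL hx) g
    have h2 : g * (g⁻¹ * x * g) * g⁻¹ = x := by group
    rw [h2] at h1; exact h1
  have e1 : Nat.card (H.subgroupOf L) = Nat.card H :=
    Nat.card_congr (Subgroup.subgroupOfEquivOfLe hHL).toEquiv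
  have e2 : Nat.card ((MulAut.conj g • H).subgroupOf L) = Nat.card H := by
    rw [Nat.card_congr (Subgroup.subgroupOfEquivOfLe hKL).toEquiv, card_conj_smul]
  have hcardL : Nat.card L = Nat.card H * H.relIndex L := by
    have h1 := Subgroup.card_mul_index (H.subgroupOf L)
    rw [e1] at h1; exact h1.symm
  obtain ⟨l, hl⟩ := hall_conj _ L (Nat.card H) (H.relIndex L) rfl hcardL hHall
    (H.subgroupOf L) ((MulAut.conj g • H).subgroupOf L) e1 e2
  have h3 : MulAut.conj (l : G) • H = MulAut.conj g • H := by
    ext x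
    rw [mem_conj_smul]
    constructor
    · intro hx
      have hxL : x ∈ L := by
        have h5 : x = (l : G) * ((l : G)⁻¹ * x * (l : G)) * (l : G)⁻¹ := by group
        rw [h5]
        exact L.mul_mem (L.mul_mem l.2 (hHL hx)) (L.inv_mem l.2)
      have h4 : (⟨x, hxL⟩ : L) ∈ MulAut.conj l • H.subgroupOf L := by
        rw [mem_conj_smul, Subgroup.mem_subgroupOf]; exact hx
      rw [hl, Subgroup.mem_subgroupOf] at h4
      exact h4
    · intro hx
      have hxL : x ∈ L := hKL hx
      have h4 : (⟨x, hxL⟩ : L) ∈ (MulAut.conj g • H).subgroupOf L := by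
        rw [Subgroup.mem_subgroupOf]; exact hx
      rw [← hl, mem_conj_smul, Subgroup.mem_subgroupOf] at h4
      exact h4
  have h5 : (l : G)⁻¹ * g ∈ Subgroup.normalizer (H : Set G) := by
    apply mem_normalizer_of_conj_mem
    intro x hx
    have h6 : g * x * g⁻¹ ∈ MulAut.conj g • H := by
      rw [mem_conj_smul]
      have h9 : g⁻¹ * (g * x * g⁻¹) * g = x := by group
      rw [h9]; exact hx
    rw [← h3, mem_conj_smul] at h6
    have h7 : (l : G)⁻¹ * g * x * ((l : G)⁻¹ * g)⁻¹ = (l : G)⁻¹ * (g * x * g⁻¹) * (l : G) := by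
      group
    rw [h7]; exact h6
  have h8 : g = (l : G) * ((l : G)⁻¹ * g) := by group
  rw [h8]
  exact Subgroup.mul_mem _ (Subgroup.mem_sup_left l.2) (Subgroup.mem_sup_right h5)

end Cfsg.Agent.S0050
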