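import Cfsg.Statements.S0053
import Mathlib
import Cfsg.Agent.Lib.Lead.SylowAux2

set_option autoImplicit false
open Cfsg Cfsg.Agent.Lib.Lead

namespace Cfsg.Agent.S0053

open scoped Pointwise commutatorElement

/-- An abelian minimal normal subgroup N of a finite group is complemented exactly when N is not inside the Frattini subgroup. -/
theorem result {G : Type*} [Group G] [Finite G]
    (N : Subgroup G) [N.Normal] [IsMulCommutative N] (hN : N ≠ ⊥)
    (hmin : ∀ M : Subgroup G, M.Normal → M ≤ N → M = ⊥ ∨ M = N) :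
    (∃ H : Subgroup G, Subgroup.IsComplement' N H) ↔ ¬ N ≤ frattini G := by
  have hNn : N.Normal := inferInstance
  constructor
  · rintro ⟨H, hH⟩ hle
    have h1 : H ⊔ frattini G = ⊤ := by
      rw [eq_top_iff, ← hH.sup_eq_top]
      exact sup_le (le_sup_of_le_right hle) le_sup_left
    have h2 : H = ⊤ := frattini_nongenerating h1
    have h3 := hH.disjoint.eq_bot
    rw [h2, inf_top_eq] at h3
    exact hN h3
  · intro hnle
    have hex : ∃ M : Subgroup G, IsCoatom M ∧ ¬ N ≤ M := by
      by_contra hcon
      push Not at hcon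
      apply hnle
      unfold frattini Order.radical
      exact le_iInf₂ (fun M hM => hcon M hM)
    obtain ⟨M, hM, hNM⟩ := hex
    refine ⟨M, ?_⟩
    have hsup : N ⊔ M = ⊤ := by
      by_contra h
      have hlt : M < N ⊔ M := by
        apply lt_of_le_of_ne le_sup_right
        intro h'
        apply hNM
        rw [h']; exact le_sup_left
      exact h (hM.2 _ hlt)
    have hinfn : (N ⊓ M).Normal := by
      constructor
      intro x hx g
      have hg : g ∈ N ⊔ M := by rw [hsup]; trivial
      rw [← SetLike.mem_coe, Subgroup.normal_mul] at hg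
      obtain ⟨n, hn, m, hm, rfl⟩ := hg
      have h1 : m * x * m⁻¹ ∈ N ⊓ M :=
        ⟨hNn.conj_mem x hx.1 m, M.mul_mem (M.mul_mem hm hx.2) (M.inv_mem hm)⟩
      have h2 : n * (m * x * m⁻¹) = (m * x * m⁻¹) * n :=
        congrArg Subtype.val (mul_comm' (⟨n, hn⟩ : N) ⟨m * x * m⁻¹, h1.1⟩)
      have e : n * m * x * (n * m)⁻¹ = n * (m * x * m⁻¹) * n⁻¹ := by group
      rw [e, h2, mul_inv_cancel_right]
      exact h1
    rcases hmin _ hinfn inf_le_left with h | h
    · apply Subgroup.isComplement'_of_disjoint_and_mul_eq_univ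
      · rw [disjoint_iff]; exact h
      · rw [← Subgroup.normal_mul, hsup, Subgroup.coe_top]
    · exfalso
      apply hNM
      rw [← h]; exact inf_le_right

end Cfsg.Agent.S0053
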