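import Cfsg.Statements.S0054
import Mathlib
import Cfsg.Agent.Lib.Lead.SylowAux2

set_option autoImplicit false
open Cfsg Cfsg.Agent.Lib.Lead

namespace Cfsg.Agent.S0054

open scoped Pointwise commutatorElement

/-- A regular normal subgroup of a finite 2-transitive group is elementary abelian: it is commutative and all its elements have order dividing one prime. -/
theorem result {G : Type*} [Group G] [Finite G]
    {X : Type*} [Nonempty X] [MulAction G X] (h2 : MulAction.IsMultiplyPretransitive G X 2)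
    (N : Subgroup G) [N.Normal] (htrans : MulAction.IsPretransitive N X) (hreg : ∀ x : X, MulAction.stabilizer N x = ⊥) :
    IsMulCommutative N ∧ ∃ p : ℕ, p.Prime ∧ ∀ n ∈ N, n ^ p = 1 := by
  classical
  obtain ⟨x₀⟩ := ‹Nonempty X›
  have h2' : ∀ {a b c d : X}, a ≠ b → c ≠ d → ∃ g : G, g • a = c ∧ g • b = d :=
    MulAction.is_two_pretransitive_iff.mp h2
  have hNn : N.Normal := inferInstance
  have hfree : ∀ n ∈ N, n • x₀ = x₀ → n = 1 := by
    intro n hn h
    have : (⟨n, hn⟩ : N) ∈ MulAction.stabilizer N x₀ := h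
    rw [hreg x₀] at this
    exact congrArg Subtype.val (Subgroup.mem_bot.mp this)
  have hconj : ∀ n ∈ N, n ≠ 1 → ∀ m ∈ N, m ≠ 1 → ∃ g : G, g * n * g⁻¹ = m := by
    intro n hn hn1 m hm hm1
    have h1 : x₀ ≠ n • x₀ := fun h => hn1 (hfree n hn h.symm)
    have h3 : x₀ ≠ m • x₀ := fun h => hm1 (hfree m hm h.symm)
    obtain ⟨g, hg1, hg2⟩ := h2' h1 h3
    refine ⟨g, ?_⟩
    have h4 : (m⁻¹ * (g * n * g⁻¹)) • x₀ = x₀ := by
      rw [mul_smul, mul_smul, mul_smul]
      have : g⁻¹ • x₀ = x₀ := by rw [inv_smul_eq_iff, hg1]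
      rw [this, hg2, inv_smul_smul]
    have h5 := hfree _ (N.mul_mem (N.inv_mem hm) (hNn.conj_mem n hn g)) h4
    exact (inv_mul_eq_one.mp h5).symm
  by_cases hN : N = ⊥
  · refine ⟨⟨⟨fun a b => ?_⟩⟩, 2, Nat.prime_two, ?_⟩
    · have ha : a = 1 := Subtype.ext (Subgroup.mem_bot.mp (hN ▸ a.2))
      rw [ha, one_mul, mul_one]
    · intro n hn
      rw [hN] at hn
      rw [Subgroup.mem_bot.mp hn, one_pow]
  · have hcard : Nat.card N ≠ 1 := fun h => hN (Subgroup.eq_bot_of_card_eq N h)
    obtain ⟨p, hp, hpd⟩ := Nat.exists_prime_and_dvd hcard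
    haveI : Fact p.Prime := ⟨hp⟩
    obtain ⟨a, ha⟩ := exists_prime_orderOf_dvd_card' p hpd
    have ha1 : (a : G) ≠ 1 := by
      intro h
      have : a = 1 := Subtype.ext h
      rw [this, orderOf_one] at ha
      exact hp.one_lt.ne ha
    have hap : (a : G) ^ p = 1 := by
      have := pow_orderOf_eq_one a
      rw [ha] at this
      exact_mod_cast congrArg Subtype.val this
    have hpow : ∀ n ∈ N, n ^ p = 1 := by
      intro n hn
      by_cases hn1 : n = 1
      · rw [hn1, one_pow]
      · obtain ⟨g, hg⟩ := hconj a a.2 ha1 n hn hn1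
        rw [← hg, conj_pow, hap, mul_one, mul_inv_cancel]
    refine ⟨?_, p, hp, hpow⟩
    have hpg : IsPGroup p N := by
      intro n
      exact ⟨1, by rw [pow_one]; exact Subtype.ext (by simpa using hpow n n.2)⟩
    haveI : Nontrivial N := (Subgroup.nontrivial_iff_ne_bot N).mpr hN
    haveI := hpg.center_nontrivial
    obtain ⟨z, hz⟩ := exists_ne (1 : Subgroup.center N)
    have hz1 : ((z : N) : G) ≠ 1 := by
      intro h
      apply hz
      apply Subtype.ext; apply Subtype.ext
      exact h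
    refine ⟨⟨fun a b => ?_⟩⟩
    by_cases ha1 : (a : G) = 1
    · have : a = 1 := Subtype.ext ha1
      rw [this, one_mul, mul_one]
    · obtain ⟨g, hg⟩ := hconj _ (z : N).2 hz1 a a.2 ha1
      apply Subtype.ext
      show (a : G) * b = b * a
      have hb' : g⁻¹ * (b : G) * g ∈ N := by
        have := hNn.conj_mem b b.2 g⁻¹
        rwa [inv_inv] at this
      have hc := Subgroup.mem_center_iff.mp z.2 ⟨_, hb'⟩
      have hc' : g⁻¹ * (b : G) * g * (z : N) = (z : N) * (g⁻¹ * (b : G) * g) :=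
        congrArg Subtype.val hc
      rw [← hg]
      calc g * ((z : N) : G) * g⁻¹ * b = g * (((z : N) : G) * (g⁻¹ * b * g)) * g⁻¹ := by group
        _ = g * ((g⁻¹ * b * g) * ((z : N) : G)) * g⁻¹ := by rw [hc']
        _ = b * (g * ((z : N) : G) * g⁻¹) := by group

end Cfsg.Agent.S0054
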