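import Cfsg.Statements.S0057
import Mathlib
import Cfsg.Agent.Lib.Lead.SylowAux2
import Cfsg.Agent.S0023
import Cfsg.Agent.S0027
import Cfsg.Agent.S0055
import Cfsg.Agent.Lib.Lead.CoprimeAction2
import Cfsg.Agent.Lib.Lead.SZ

set_option autoImplicit false
open Cfsg Cfsg.Agent.Lib.Lead

namespace Cfsg.Agent.S0057

open scoped Pointwise commutatorElement

/-- Under coprime action, if the centraliser of A in K has prime index p in K then the commutator subgroup [K, A] has order exactly p. -/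
theorem result {G : Type*} [Group G] [Finite G] (A K : Subgroup G) (hAK : A ≤ Subgroup.normalizer (K : Set G))
    (hcop : (Nat.card A).Coprime (Nat.card K)) (hsolv : Group.IsSolvable A ∨ Group.IsSolvable K)
    (p : ℕ) (hp : p.Prime) (hidx : (K ⊓ Subgroup.centralizer (A : Set G)).relIndex K = p) :
    Nat.card (⁅K, A⁆ : Subgroup G) = p := by
  classical
  haveI : Fact p.Prime := ⟨hp⟩
  obtain ⟨P, hP⟩ := Cfsg.Agent.S0023.result A K hAK hcop hsolv p
  obtain ⟨P', hP'def⟩ : ∃ P' : Subgroup G, P' = (P : Subgroup K).map K.subtype := ⟨_, rfl⟩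
  rw [← hP'def] at hP
  have hP'K : P' ≤ K := by
    rw [hP'def]; intro x hx
    obtain ⟨y, _, rfl⟩ := Subgroup.mem_map.1 hx
    exact y.2
  have hP'p : IsPGroup p P' := by
    rw [hP'def]; exact P.isPGroup'.map K.subtype
  have hP'C : ¬ P' ≤ Subgroup.centralizer (A : Set G) := by
    intro hle
    have hPC : (P : Subgroup K) ≤ (K ⊓ Subgroup.centralizer (A : Set G)).subgroupOf K := by
      intro x hx
      rw [Subgroup.mem_subgroupOf]
      refine Subgroup.mem_inf.2 ⟨x.2, hle ?_⟩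
      rw [hP'def]; exact Subgroup.mem_map_of_mem K.subtype hx
    have hdvd := Subgroup.index_dvd_of_le hPC
    have hidx' : ((K ⊓ Subgroup.centralizer (A : Set G)).subgroupOf K).index = p := hidx
    rw [hidx'] at hdvd
    exact P.not_dvd_index hdvd
  obtain ⟨E, hEdef⟩ : ∃ E : Subgroup G, E = P' ⊓ Subgroup.centralizer (A : Set G) := ⟨_, rfl⟩
  have hEP' : E ≤ P' := by rw [hEdef]; exact inf_le_left
  have hEcent : E ≤ Subgroup.centralizer (A : Set G) := by rw [hEdef]; exact inf_le_right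
  have hEne : ¬ P' ≤ E := fun h => hP'C (h.trans hEcent)
  have hCE : (K ⊓ Subgroup.centralizer (A : Set G)) ⊓ P' = E := by
    rw [hEdef]
    apply le_antisymm
    · exact le_inf inf_le_right (inf_le_left.trans inf_le_right)
    · exact le_inf (le_inf (inf_le_left.trans hP'K) inf_le_right) inf_le_left
  have hle : E.relIndex P' ≤ p := by
    calc E.relIndex P' = (K ⊓ Subgroup.centralizer (A : Set G)).relIndex P' := by
          rw [← hCE, Subgroup.inf_relIndex_right]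
      _ ≤ (K ⊓ Subgroup.centralizer (A : Set G)).relIndex K :=
          Subgroup.relIndex_le_of_le_right hP'K (by rw [hidx]; exact hp.ne_zero)
      _ = p := hidx
  have hErel : E.relIndex P' = p := by
    obtain ⟨k, hk⟩ := IsPGroup.iff_card.1 hP'p
    have hd : E.relIndex P' ∣ p ^ k := by rw [← hk]; exact Subgroup.relIndex_dvd_card E P'
    obtain ⟨j, -, hj⟩ := (Nat.dvd_prime_pow hp).1 hd
    have hne1 : E.relIndex P' ≠ 1 := fun h => hEne (Subgroup.relIndex_eq_one.1 h)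
    rw [hj] at hle hne1 ⊢
    rcases Nat.lt_or_ge j 1 with h0 | h1
    · exfalso; apply hne1
      have hj0 : j = 0 := by omega
      rw [hj0, pow_zero]
    · have h2 : p ^ 1 ≤ p ^ j := Nat.pow_le_pow_right hp.pos h1
      rw [pow_one] at h2
      exact le_antisymm hle h2
  haveI hEn' : (E.subgroupOf P').Normal := by
    apply Subgroup.normal_of_index_eq_minFac_card
    obtain ⟨k, hk⟩ := IsPGroup.iff_card.1 hP'p
    have hk0 : k ≠ 0 := by
      rintro rfl
      rw [pow_zero] at hk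
      exact hEne (by rw [Subgroup.eq_bot_of_card_eq P' hk]; exact bot_le)
    rw [hk, hp.pow_minFac hk0]
    exact hErel
  have hEnorm : P' ≤ Subgroup.normalizer (E : Set G) :=
    Subgroup.le_normalizer_of_normal_subgroupOf hEP'
  have hEA : ⁅E, A⁆ = ⊥ := Subgroup.commutator_eq_bot_iff_le_centralizer.2 hEcent
  have hAE : ⁅A, E⁆ = ⊥ := by rw [Subgroup.commutator_comm]; exact hEA
  have hEP'comm : ⁅E, P'⁆ ≤ E := Subgroup.le_normalizer_iff_commutator_le_left.1 hEnorm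
  have h1 : ⁅⁅A, E⁆, P'⁆ = ⊥ := by rw [hAE, Subgroup.commutator_bot_left]
  have h2 : ⁅⁅E, P'⁆, A⁆ = ⊥ := by
    rw [eq_bot_iff, ← hEA]
    exact Subgroup.commutator_mono hEP'comm le_rfl
  have h3 : ⁅⁅P', A⁆, E⁆ = ⊥ := Subgroup.commutator_commutator_eq_bot_of_rotate h1 h2
  obtain ⟨Q, hQdef⟩ : ∃ Q : Subgroup G, Q = ⁅P', A⁆ := ⟨_, rfl⟩
  rw [← hQdef] at h3
  have hQP' : Q ≤ P' := by rw [hQdef]; exact commutator_le_of_le_normalizer P' A hP
  have hQK : Q ≤ K := hQP'.trans hP'K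
  have hcopP' : (Nat.card A).Coprime (Nat.card P') :=
    Nat.Coprime.coprime_dvd_right (Subgroup.card_dvd_of_le hP'K) hcop
  have hsolvP' : Group.IsSolvable P' := by
    haveI : Group.IsNilpotent P' := hP'p.isNilpotent
    infer_instance
  have hQQ : ⁅Q, A⁆ = Q := by
    rw [hQdef]; exact Cfsg.Agent.S0027.result A P' hP hcopP' (Or.inr hsolvP')
  have hQE : ∀ e ∈ E, ∀ q ∈ Q, e * q = q * e := by
    intro e he q hq
    have hle' : Q ≤ Subgroup.centralizer (E : Set G) :=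
      Subgroup.commutator_eq_bot_iff_le_centralizer.1 h3
    exact Subgroup.mem_centralizer_iff.1 (hle' hq) e he
  obtain ⟨x₀, hx₀Q, hx₀E⟩ : ∃ x₀ ∈ Q, x₀ ∉ E := by
    by_contra hcon
    push Not at hcon
    have hQbot : Q = ⊥ := by
      rw [← hQQ, Subgroup.commutator_eq_bot_iff_le_centralizer]
      exact fun x hx => hEcent (hcon x hx)
    apply hP'C
    rw [← Subgroup.commutator_eq_bot_iff_le_centralizer, ← hQdef]; exact hQbot
  have hcardQuot : Nat.card (P' ⧸ E.subgroupOf P') = p := by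
    rw [← Subgroup.index_eq_card]; exact hErel
  have hx₀P' : x₀ ∈ P' := hQP' hx₀Q
  have hb1 : (QuotientGroup.mk (⟨x₀, hx₀P'⟩ : P') : P' ⧸ E.subgroupOf P') ≠ 1 := by
    rw [Ne, QuotientGroup.eq_one_iff, Subgroup.mem_subgroupOf]; exact hx₀E
  have htop := zpowers_eq_top_of_prime_card hcardQuot hb1
  have hdec : ∀ y ∈ P', ∃ j : ℤ, (x₀ ^ j)⁻¹ * y ∈ E := by
    intro y hy
    have hvm : (QuotientGroup.mk (⟨y, hy⟩ : P') : P' ⧸ E.subgroupOf P')
        ∈ Subgroup.zpowers (QuotientGroup.mk (⟨x₀, hx₀P'⟩ : P') : P' ⧸ E.subgroupOf P') := by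
      rw [htop]; exact Subgroup.mem_top _
    obtain ⟨j, hj⟩ := Subgroup.mem_zpowers_iff.1 hvm
    have hjC : ((⟨x₀, hx₀P'⟩ : P') ^ j)⁻¹ * ⟨y, hy⟩ ∈ E.subgroupOf P' := by
      rw [← QuotientGroup.eq, QuotientGroup.mk_zpow]; exact hj
    rw [Subgroup.mem_subgroupOf] at hjC
    exact ⟨j, hjC⟩
  have hcommQ : ∀ x ∈ Q, ∀ y ∈ Q, x * y = y * x := by
    intro x hx y hy
    obtain ⟨i, hi⟩ := hdec x (hQP' hx)
    obtain ⟨j, hj⟩ := hdec y (hQP' hy)
    have hxi : Commute (x₀ ^ i) y := by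
      have e : y = x₀ ^ j * ((x₀ ^ j)⁻¹ * y) := by group
      rw [e]
      apply Commute.mul_right
      · exact (Commute.refl x₀).zpow_zpow i j
      · exact (hQE _ hj _ (Q.zpow_mem hx₀Q i)).symm
    have hxe : Commute ((x₀ ^ i)⁻¹ * x) y := hQE _ hi y hy
    have e : x = x₀ ^ i * ((x₀ ^ i)⁻¹ * x) := by group
    rw [e]
    exact (hxi.mul_left hxe).eq
  haveI : IsMulCommutative Q := ⟨⟨fun a b => Subtype.ext (hcommQ a.1 a.2 b.1 b.2)⟩⟩
  have hAQ : A ≤ Subgroup.normalizer (Q : Set G) := by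
    apply le_normalizer_of_conj_mem
    intro a ha x hx
    rw [hQdef] at hx ⊢
    exact commutator_conj_mem_right P' A a ha x hx
  have hcopQ : (Nat.card A).Coprime (Nat.card Q) :=
    Nat.Coprime.coprime_dvd_right (Subgroup.card_dvd_of_le hQK) hcop
  obtain ⟨h55, -⟩ := Cfsg.Agent.S0055.result A Q hAQ hcopQ
  rw [hQQ] at h55
  have hQcent : Q ⊓ Subgroup.centralizer (A : Set G) = ⊥ := by
    rw [eq_bot_iff, ← h55]
    exact le_inf le_rfl inf_le_left
  have hQp : IsPGroup p Q := hP'p.to_le hQP'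
  have hx₀1 : x₀ ≠ 1 := fun h => hx₀E (by rw [h]; exact E.one_mem)
  have hQcard : p ≤ Nat.card Q := by
    obtain ⟨k, hk⟩ := IsPGroup.iff_card.1 hQp
    have hk0 : k ≠ 0 := by
      rintro rfl
      rw [pow_zero] at hk
      have hb : Q = ⊥ := Subgroup.eq_bot_of_card_eq Q hk
      rw [hb, Subgroup.mem_bot] at hx₀Q
      exact hx₀1 hx₀Q
    rw [hk]; exact Nat.le_self_pow hk0 p
  have hcardKC : Nat.card (K ⧸ (K ⊓ Subgroup.centralizer (A : Set G)).subgroupOf K) = p := by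
    rw [← Subgroup.index_eq_card]; exact hidx
  obtain ⟨f, hf_def⟩ : ∃ f : Q → K ⧸ (K ⊓ Subgroup.centralizer (A : Set G)).subgroupOf K,
      ∀ q : Q, f q = QuotientGroup.mk (⟨q.1, hQK q.2⟩ : K) :=
    ⟨fun q => QuotientGroup.mk ⟨q.1, hQK q.2⟩, fun q => rfl⟩
  have hf : Function.Injective f := by
    intro q₁ q₂ h
    rw [hf_def, hf_def, QuotientGroup.eq, Subgroup.mem_subgroupOf] at h
    have h' : (q₁.1)⁻¹ * q₂.1 ∈ K ⊓ Subgroup.centralizer (A : Set G) := h
    have h3' : (q₁.1)⁻¹ * q₂.1 ∈ Q ⊓ Subgroup.centralizer (A : Set G) :=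
      Subgroup.mem_inf.2 ⟨Q.mul_mem (Q.inv_mem q₁.2) q₂.2, (Subgroup.mem_inf.1 h').2⟩
    rw [hQcent, Subgroup.mem_bot] at h3'
    exact Subtype.ext (inv_mul_eq_one.1 h3')
  have hbij := hf.bijective_of_nat_card_le (by rw [hcardKC]; exact hQcard)
  have hQcard' : Nat.card Q = p := by rw [Nat.card_eq_of_bijective f hbij, hcardKC]
  have hKdec : ∀ k ∈ K, ∃ q ∈ Q, q⁻¹ * k ∈ Subgroup.centralizer (A : Set G) := by
    intro k hk
    obtain ⟨q, hq⟩ := hbij.2 (QuotientGroup.mk (⟨k, hk⟩ : K))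
    rw [hf_def, QuotientGroup.eq, Subgroup.mem_subgroupOf] at hq
    have hq' : (q.1)⁻¹ * k ∈ K ⊓ Subgroup.centralizer (A : Set G) := hq
    exact ⟨q.1, q.2, (Subgroup.mem_inf.1 hq').2⟩
  have hKA : ⁅K, A⁆ = Q := by
    apply le_antisymm
    · rw [Subgroup.commutator_le]
      intro k hk a ha
      obtain ⟨q, hq, hc⟩ := hKdec k hk
      have hca : a * (q⁻¹ * k) = (q⁻¹ * k) * a := Subgroup.mem_centralizer_iff.1 hc a ha
      have h1' : ⁅k, a⁆ = ⁅q, a⁆ := by
        simp only [commutatorElement_def]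
        calc k * a * k⁻¹ * a⁻¹ = q * ((q⁻¹ * k) * a) * (q⁻¹ * k)⁻¹ * q⁻¹ * a⁻¹ := by group
          _ = q * (a * (q⁻¹ * k)) * (q⁻¹ * k)⁻¹ * q⁻¹ * a⁻¹ := by rw [hca]
          _ = q * a * q⁻¹ * a⁻¹ := by group
      rw [h1', ← hQQ]
      exact Subgroup.commutator_mem_commutator hq ha
    · rw [hQdef]; exact Subgroup.commutator_mono hP'K le_rfl
  rw [hKA]; exact hQcard'

end Cfsg.Agent.S0057
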