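import Cfsg.Statements.S0058
import Mathlib
import Cfsg.Agent.Lib.Lead.SylowAux2
import Cfsg.Agent.Lib.Lead.NonCyclicAb
import Cfsg.Agent.Lib.Helper2.GenCoprime3

set_option autoImplicit false
open Cfsg Cfsg.Agent.Lib.Lead

namespace Cfsg.Agent.S0058

open scoped Pointwise commutatorElement

/-- Generation by centralisers: when a noncyclic abelian group A normalises K with coprime orders, K is generated by the fixed-point subgroups of the nonidentity elements of A. -/
theorem result {G : Type*} [Group G] [Finite G] (A K : Subgroup G)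
    [IsMulCommutative A] (hA : ¬ IsCyclic A) (hAK : A ≤ Subgroup.normalizer (K : Set G)) (hcop : (Nat.card A).Coprime (Nat.card K)) :
    (⨆ a ∈ {a : G | a ∈ A ∧ a ≠ 1}, K ⊓ Subgroup.centralizer {a}) = K := by
  classical
  have hc : ∀ x ∈ A, ∀ y ∈ A, x * y = y * x := by
    intro x hx y hy
    exact congrArg Subtype.val (mul_comm' (⟨x, hx⟩ : A) ⟨y, hy⟩)
  obtain ⟨p, hp, a, haA, b, hbA, ha1, hap, hbp, hbz⟩ := exists_elem_ab_of_not_cyclic A hA
  haveI : Fact p.Prime := ⟨hp⟩
  have hao : orderOf a = p := orderOf_eq_prime hap ha1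
  apply le_antisymm
  · exact iSup₂_le (fun a _ => inf_le_left)
  · have hEA : omegaSub A hc p ≤ A := fun x hx => hx.1
    have haE : a ∈ omegaSub A hc p := ⟨haA, hap⟩
    have hbE : b ∈ omegaSub A hc p := ⟨hbA, hbp⟩
    have hpK : ¬ p ∣ Nat.card K := by
      intro hd
      have h1 : p ∣ Nat.card A := by
        have h2 := orderOf_dvd_natCard (⟨a, haA⟩ : A)
        rw [Subgroup.orderOf_mk, hao] at h2
        exact h2
      have h3 := Nat.eq_one_of_dvd_coprimes hcop h1 hd
      exact hp.one_lt.ne' h3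
    apply Cfsg.Agent.Lib.Helper2.gen_coprime_relIndex p (omegaSub A hc p) K _
      (fun x hx y hy => hc x hx.1 y hy.1) (fun x hx => hx.2) hpK (le_trans hEA hAK)
    intro B hBE hidx
    have hB : B ≠ ⊥ := by
      rintro rfl
      rw [Subgroup.relIndex_bot_left] at hidx
      have hz : Subgroup.zpowers a ≤ omegaSub A hc p := Subgroup.zpowers_le.mpr haE
      have h1 : Nat.card (omegaSub A hc p) ≤ Nat.card (Subgroup.zpowers a) := by
        rw [Nat.card_zpowers, hao]
        exact Nat.le_of_dvd hp.pos hidx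
      have h2 := Subgroup.eq_of_le_of_card_ge hz h1
      exact hbz (h2 ▸ hbE)
    obtain ⟨⟨c, hcB⟩, hc1⟩ := Subgroup.ne_bot_iff_exists_ne_one.mp hB
    have hc1' : c ≠ 1 := fun h => hc1 (Subtype.ext h)
    refine le_trans ?_ (le_iSup₂_of_le c ⟨hEA (hBE hcB), hc1'⟩ le_rfl)
    exact inf_le_inf_left _ (Subgroup.centralizer_le (Set.singleton_subset_iff.mpr hcB))

end Cfsg.Agent.S0058
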