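import Cfsg.Statements.S0059
import Mathlib
import Cfsg.Agent.Lib.Lead.SylowAux2
import Cfsg.Agent.Lib.Lead.Glauberman

set_option autoImplicit false
open Cfsg Cfsg.Agent.Lib.Lead

namespace Cfsg.Agent.S0059

open scoped Pointwise commutatorElement

/-- Let a finite group act on a set on which a normal subgroup K of coprime order and index is transitive, with K or the quotient solvable. Then any complement H of K has a fixed point, and any two H-fixed points are interchanged by an element of K centralising H. -/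
theorem result {G : Type*} [Group G] [Finite G] {X : Type*} [Nonempty X] [MulAction G X]
    (K H : Subgroup G) [K.Normal] (hc : Subgroup.IsComplement' K H) (hcop : (Nat.card K).Coprime K.index)
    (hsolv : Group.IsSolvable K ∨ Group.IsSolvable (G ⧸ K)) (htrans : MulAction.IsPretransitive K X) :
    (∃ x : X, ∀ h ∈ H, h • x = x) ∧
    ∀ x y : X, (∀ h ∈ H, h • x = x) → (∀ h ∈ H, h • y = y) → ∃ k ∈ K ⊓ Subgroup.centralizer (H : Set G), k • x = y := by
  have hH_idx : K.index = Nat.card H := hc.symm.index_eq_card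
  have hcop' : (Nat.card H).Coprime (Nat.card K) := by rw [← hH_idx]; exact hcop.symm
  have hsup : H ⊔ K = ⊤ := by rw [sup_comm]; exact hc.sup_eq_top
  have hKn : K.Normal := inferInstance
  have hsolv' : Group.IsSolvable H ∨ Group.IsSolvable K := by
    rcases hsolv with hs | hs
    · exact Or.inr hs
    · left
      have hinj : Function.Injective ((QuotientGroup.mk' K).comp H.subtype) := by
        rw [injective_iff_map_eq_one]
        intro x hx
        have h4 : QuotientGroup.mk' K (x : G) = 1 := hx
        rw [QuotientGroup.mk'_apply, QuotientGroup.eq_one_iff] at h4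
        have h5 : (x : G) ∈ K ⊓ H := ⟨h4, x.2⟩
        rw [hc.disjoint.eq_bot, Subgroup.mem_bot] at h5
        exact Subtype.ext h5
      exact Group.isSolvable_of_isSolvable_injective hinj
  have hHK : H ≤ Subgroup.normalizer (K : Set G) := by
    rw [Subgroup.normalizer_eq_top]; exact le_top
  constructor
  · obtain ⟨x0⟩ := ‹Nonempty X›
    have hM : MulAction.stabilizer G x0 ≤ H ⊔ K := by rw [hsup]; exact le_top
    have hA : H ≤ MulAction.stabilizer G x0 ⊔ K := by
      have h0 : MulAction.stabilizer G x0 ⊔ K = ⊤ := by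
        rw [eq_top_iff]
        intro g _
        obtain ⟨k, hk⟩ := htrans.exists_smul_eq x0 (g • x0)
        have h1 : g = (k : G) * ((k : G)⁻¹ * g) := by group
        rw [h1]
        refine Subgroup.mul_mem _ (Subgroup.mem_sup_right k.2) (Subgroup.mem_sup_left ?_)
        rw [MulAction.mem_stabilizer_iff, mul_smul, ← hk, Subgroup.smul_def, inv_smul_smul]
      rw [h0]; exact le_top
    obtain ⟨k, hk, hk2⟩ := exists_conj_le_of_sup_normal H K (MulAction.stabilizer G x0) hcop'
      hsolv' hM hA
    refine ⟨k⁻¹ • x0, ?_⟩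
    intro h hh
    have h1 : k * h * k⁻¹ ∈ MulAut.conj k • H := by
      rw [mem_conj_smul]
      have h3 : k⁻¹ * (k * h * k⁻¹) * k = h := by group
      rw [h3]; exact hh
    have h2 := hk2 h1
    rw [MulAction.mem_stabilizer_iff] at h2
    calc h • k⁻¹ • x0 = k⁻¹ • ((k * h * k⁻¹) • x0) := by
          simp only [← mul_smul]; congr 1; group
      _ = k⁻¹ • x0 := by rw [h2]
  · intro x y hx hy
    obtain ⟨k, hk⟩ := htrans.exists_smul_eq x y
    have hk' : (k : G) • x = y := hk
    have hkinv : (k : G)⁻¹ • y = x := by rw [← hk', inv_smul_smul]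
    have hHN : H ≤ Subgroup.normalizer ((K ⊓ MulAction.stabilizer G x : Subgroup G) : Set G) := by
      apply le_normalizer_of_conj_mem
      intro h hh n hn
      refine ⟨hKn.conj_mem n hn.1 h, ?_⟩
      have hs : h ∈ MulAction.stabilizer G x := hx h hh
      exact Subgroup.mul_mem _ (Subgroup.mul_mem _ hs hn.2) (Subgroup.inv_mem _ hs)
    have hcopN : (Nat.card H).Coprime (Nat.card (K ⊓ MulAction.stabilizer G x : Subgroup G)) :=
      Nat.Coprime.coprime_dvd_right (Subgroup.card_dvd_of_le inf_le_left) hcop'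
    have hNs : Group.IsSolvable H ∨
        Group.IsSolvable (K ⊓ MulAction.stabilizer G x : Subgroup G) := by
      rcases hsolv' with hs | hs
      · exact Or.inl hs
      · exact Or.inr (Group.isSolvable_of_isSolvable_injective
          (Subgroup.inclusion_injective (inf_le_left : K ⊓ MulAction.stabilizer G x ≤ K)))
    have hkk : ∀ h ∈ H, h⁻¹ * ((k : G)⁻¹ * h * k) ∈ K ⊓ MulAction.stabilizer G x := by
      intro h hh
      constructor
      · have h1 : h⁻¹ * ((k : G)⁻¹ * h * k) = (h⁻¹ * (k : G)⁻¹ * h⁻¹⁻¹) * k := by group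
        rw [h1]
        exact K.mul_mem (hKn.conj_mem _ (K.inv_mem k.2) h⁻¹) k.2
      · have h2 : h⁻¹ • x = x := inv_smul_eq_iff.mpr (hx h hh).symm
        show h⁻¹ * ((k : G)⁻¹ * h * k) ∈ MulAction.stabilizer G x
        rw [MulAction.mem_stabilizer_iff, mul_smul, mul_smul, mul_smul, hk', hy h hh, hkinv, h2]
    obtain ⟨n, hn, hn2⟩ := coprime_fix H _ hHN hcopN hNs (k : G) hkk
    have hcK : (k : G) * n ∈ K := K.mul_mem k.2 hn.1
    refine ⟨(k : G) * n, ⟨hcK, mem_centralizer_of_normalizes H K hHK hcop' _ hcK hn2⟩, ?_⟩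
    rw [mul_smul, MulAction.mem_stabilizer_iff.mp hn.2, hk']

end Cfsg.Agent.S0059
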