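import Cfsg.Statements.S0060
import Mathlib
import Cfsg.Agent.Lib.Lead.SylowAux2
import Cfsg.Agent.Lib.Lead.SZ

set_option autoImplicit false
open Pointwise
open Cfsg Cfsg.Agent.Lib.Lead

namespace Cfsg.Agent.S0060

open scoped Pointwise commutatorElement

/-- Brodkey's Theorem: in a finite group with abelian Sylow p-subgroups and no nontrivial normal p-subgroup, some conjugate of a Sylow p-subgroup meets it trivially. -/
theorem result {G : Type*} [Group G] [Finite G] (p : ℕ) [Fact p.Prime]
    (S : Sylow p G) (hS : IsMulCommutative S) (hOp : Cfsg.pCore p G = ⊥) :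
    ∃ g : G, (S : Subgroup G) ⊓ MulAut.conj g • (S : Subgroup G) = ⊥ := by
  obtain ⟨g, hg⟩ := Finite.exists_min
    (fun g : G => Nat.card ((S : Subgroup G) ⊓ MulAut.conj g • (S : Subgroup G) : Subgroup G))
  refine ⟨g, ?_⟩
  have hScomm : ∀ a ∈ (S : Subgroup G), ∀ b ∈ (S : Subgroup G), a * b = b * a := by
    intro a ha b hb
    have h0 := mul_comm' (⟨a, ha⟩ : (S : Subgroup G)) ⟨b, hb⟩
    exact congrArg Subtype.val h0
  have hTcomm : ∀ a ∈ MulAut.conj g • (S : Subgroup G), ∀ b ∈ MulAut.conj g • (S : Subgroup G),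
      a * b = b * a := by
    intro a ha b hb
    rw [mem_conj_smul] at ha hb
    have h1 := hScomm _ ha _ hb
    have h2 : a * b = g * ((g⁻¹ * a * g) * (g⁻¹ * b * g)) * g⁻¹ := by group
    rw [h2, h1]; group
  obtain ⟨D, hD⟩ : ∃ D : Subgroup G, D = (S : Subgroup G) ⊓ MulAut.conj g • (S : Subgroup G) :=
    ⟨_, rfl⟩
  have hDS : D ≤ (S : Subgroup G) := by rw [hD]; exact inf_le_left
  have hDT : D ≤ MulAut.conj g • (S : Subgroup G) := by rw [hD]; exact inf_le_right
  have hSN : (S : Subgroup G) ≤ Subgroup.normalizer (D : Set G) := by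
    apply le_normalizer_of_conj_mem
    intro s hs d hd
    have h0 : s * d * s⁻¹ = d := by rw [hScomm s hs d (hDS hd), mul_inv_cancel_right]
    rw [h0]; exact hd
  have hTN : MulAut.conj g • (S : Subgroup G) ≤ Subgroup.normalizer (D : Set G) := by
    apply le_normalizer_of_conj_mem
    intro s hs d hd
    have h0 : s * d * s⁻¹ = d := by rw [hTcomm s hs d (hDT hd), mul_inv_cancel_right]
    rw [h0]; exact hd
  have hDcard : Nat.card D =
      Nat.card ((S : Subgroup G) ⊓ MulAut.conj g • (S : Subgroup G) : Subgroup G) := by rw [hD]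
  have key : ∀ x : G, D ≤ MulAut.conj x • (S : Subgroup G) := by
    intro x
    have hRp : IsPGroup p (MulAut.conj x • (S : Subgroup G) : Subgroup G) :=
      S.2.map (MulAut.conj x).toMonoidHom
    have hQ : IsPGroup p (((MulAut.conj x • (S : Subgroup G)) ⊓
        Subgroup.normalizer (D : Set G)).subgroupOf (Subgroup.normalizer (D : Set G))) := by
      apply IsPGroup.comap_subtype
      exact IsPGroup.to_le hRp inf_le_left
    have hK : ¬ p ∣ ((S : Subgroup G).subgroupOf (Subgroup.normalizer (D : Set G))).index := by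
      have h1 : (S : Subgroup G).relIndex (Subgroup.normalizer (D : Set G)) *
          (Subgroup.normalizer (D : Set G)).index = (S : Subgroup G).index :=
        Subgroup.relIndex_mul_index hSN
      intro hdvd
      apply S.not_dvd_index
      rw [← h1]
      exact Dvd.dvd.mul_right hdvd _
    obtain ⟨n', hn'⟩ := exists_conj_le_of_not_dvd_index _ _ hQ hK
    have h1 : MulAut.conj ((n' : G) * x) • (S : Subgroup G) ⊓ MulAut.conj g • (S : Subgroup G) ≤ D := by
      rintro y ⟨hy1, hy2⟩
      rw [hD]
      refine ⟨?_, hy2⟩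
      have hyN : y ∈ Subgroup.normalizer (D : Set G) := hTN hy2
      have hz : (n' : G)⁻¹ * y * (n' : G) ∈ (MulAut.conj x • (S : Subgroup G)) ⊓
          Subgroup.normalizer (D : Set G) := by
        refine ⟨?_, Subgroup.mul_mem _ (Subgroup.mul_mem _ (Subgroup.inv_mem _ n'.2) hyN) n'.2⟩
        have hy1' : y ∈ MulAut.conj ((n' : G) * x) • (S : Subgroup G) := hy1
        rw [conj_mul_smul, mem_conj_smul] at hy1'
        show (n' : G)⁻¹ * y * (n' : G) ∈ MulAut.conj x • (S : Subgroup G)
        exact hy1'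
      have h3 : (⟨y, hyN⟩ : Subgroup.normalizer (D : Set G)) ∈ MulAut.conj n' •
          (((MulAut.conj x • (S : Subgroup G)) ⊓
            Subgroup.normalizer (D : Set G)).subgroupOf (Subgroup.normalizer (D : Set G))) := by
        rw [mem_conj_smul, Subgroup.mem_subgroupOf]
        exact hz
      have h4 := hn' h3
      rw [Subgroup.mem_subgroupOf] at h4
      exact h4
    have h2 : Nat.card D ≤ Nat.card (MulAut.conj ((n' : G) * x) • (S : Subgroup G) ⊓
        MulAut.conj g • (S : Subgroup G) : Subgroup G) := by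
      have h5 := hg (g⁻¹ * ((n' : G) * x))
      have h6 : MulAut.conj g • ((S : Subgroup G) ⊓
          MulAut.conj (g⁻¹ * ((n' : G) * x)) • (S : Subgroup G)) =
          MulAut.conj ((n' : G) * x) • (S : Subgroup G) ⊓ MulAut.conj g • (S : Subgroup G) := by
        ext y
        simp only [Subgroup.mem_inf, mem_conj_smul]
        constructor
        · rintro ⟨ha, hb⟩
          refine ⟨?_, ha⟩
          have e : ((n' : G) * x)⁻¹ * y * ((n' : G) * x) =
              (g⁻¹ * ((n' : G) * x))⁻¹ * (g⁻¹ * y * g) * (g⁻¹ * ((n' : G) * x)) := by group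
          rw [e]; exact hb
        · rintro ⟨ha, hb⟩
          refine ⟨hb, ?_⟩
          have e : ((n' : G) * x)⁻¹ * y * ((n' : G) * x) =
              (g⁻¹ * ((n' : G) * x))⁻¹ * (g⁻¹ * y * g) * (g⁻¹ * ((n' : G) * x)) := by group
          rw [← e]; exact ha
      rw [← h6, card_conj_smul, hDcard]
      exact h5
    have h7 := Subgroup.eq_of_le_of_card_ge h1 h2
    intro d hd
    have hd' : (n' : G) * d * (n' : G)⁻¹ ∈ D := conj_mem_of_mem_normalizer n'.2 hd
    have hd'' : (n' : G) * d * (n' : G)⁻¹ ∈ MulAut.conj ((n' : G) * x) • (S : Subgroup G) :=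
      (h7.ge hd').1
    rw [conj_mul_smul, mem_conj_smul] at hd''
    have e : (n' : G)⁻¹ * ((n' : G) * d * (n' : G)⁻¹) * (n' : G) = d := by group
    rw [e] at hd''
    exact hd''
  have hDcore : D ≤ (S : Subgroup G).normalCore := by
    intro d hd b
    have h0 := key b⁻¹ hd
    rw [mem_conj_smul, inv_inv] at h0
    exact h0
  have hcore : (S : Subgroup G).normalCore ≤ Cfsg.pCore p G := by
    apply le_sSup
    exact ⟨Subgroup.normalCore_normal _, S.2.to_le (Subgroup.normalCore_le _)⟩
  rw [hOp] at hcore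
  rw [← hD]
  exact le_bot_iff.mp (hDcore.trans hcore)

end Cfsg.Agent.S0060
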