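import Cfsg.Statements.S0063
import Mathlib
import Cfsg.Agent.Lib.Lead.SylowAux2
import Cfsg.Agent.Lib.Lead.NilpClass

set_option autoImplicit false
open Cfsg Cfsg.Agent.Lib.Lead

namespace Cfsg.Agent.S0063

open scoped Pointwise commutatorElement

/-- A finite group of prime-power order p ^ m with m > 1 is nilpotent of class at most m - 1. -/
theorem result {G : Type*} [Group G] [Finite G] (p m : ℕ) [Fact p.Prime]
    (hG : Nat.card G = p ^ m) (hm : 1 < m) : Group.nilpotencyClass G ≤ m - 1 := by
  have h := nilpotencyClass_le_of_card p m G hG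
  have e : max 1 (m - 1) = m - 1 := by omega
  rw [e] at h
  exact h

end Cfsg.Agent.S0063
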