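import Cfsg.Statements.S0064
import Mathlib
import Cfsg.Agent.Lib.Lead.SylowAux2
import Cfsg.Agent.Lib.Helper4.Subnormal

set_option autoImplicit false
open Cfsg Cfsg.Agent.Lib.Lead

namespace Cfsg.Agent.S0064

open scoped Pointwise commutatorElement

/-- A finite group is nilpotent exactly when each of its subgroups is subnormal. -/
theorem result {G : Type*} [Group G] [Finite G] :
    Group.IsNilpotent G ↔ ∀ H : Subgroup G, H.IsSubnormal := by
  constructor
  · intro h H
    exact Cfsg.Agent.Lib.Helper4.isSubnormal_of_isNilpotent H
  · intro h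
    apply ((Group.isNilpotent_of_finite_tfae (G := G)).out 0 2).mpr
    intro M hM
    rcases (h M).lt_normal with h1 | ⟨K, hKn, hMK, hKtop⟩
    · exact absurd h1 hM.1
    · have hMK' : M = K := by
        by_contra hne
        exact hKtop.ne (hM.2 K (lt_of_le_of_ne hMK hne))
      rw [hMK']; exact hKn

end Cfsg.Agent.S0064
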