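import Cfsg.Statements.S0067
import Mathlib
import Cfsg.Agent.Lib.Lead.SylowAux2
import Cfsg.Agent.Lib.Lead.Wielandt
import Cfsg.Agent.Lib.Helper2.Nilp
import Cfsg.Agent.Lib.Helper4.Subnormal

set_option autoImplicit false
open Pointwise
open Cfsg Cfsg.Agent.Lib.Lead

namespace Cfsg.Agent.S0067

open scoped Pointwise commutatorElement

/-- If the join of a subgroup A with each of its conjugates is nilpotent, then A is subnormal in the finite group and contained in the Fitting subgroup. -/
theorem result {G : Type*} [Group G] [Finite G] (A : Subgroup G)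
    (h : ∀ g : G, Group.IsNilpotent (A ⊔ MulAut.conj g • A : Subgroup G)) : A.IsSubnormal ∧ A ≤ Cfsg.fittingSubgroup G := by
  have hsub : A.IsSubnormal := by
    apply wielandt
    intro g
    haveI := h g
    exact Cfsg.Agent.Lib.Helper4.isSubnormal_of_isNilpotent _
  refine ⟨hsub, ?_⟩
  apply Cfsg.Agent.Lib.Helper2.subnormal_nilpotent_le_fitting A hsub
  haveI := h 1
  have hle : A ≤ A ⊔ MulAut.conj (1 : G) • A := le_sup_left
  exact Group.nilpotent_of_mulEquiv (Subgroup.subgroupOfEquivOfLe hle)

end Cfsg.Agent.S0067
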