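import Cfsg.Statements.S0068
import Mathlib
import Cfsg.Agent.Lib.Lead.SylowAux2

set_option autoImplicit false
open Cfsg Cfsg.Agent.Lib.Lead

namespace Cfsg.Agent.S0068

open scoped Pointwise commutatorElement

/-- Frobenius complements of even order: if H complements a nontrivial normal subgroup K, each nonidentity element of H has trivial centraliser in K, and H has even order, then H contains a unique involution s, K is abelian, and s inverts every element of K. -/
theorem result {G : Type*} [Group G] [Finite G] (K H : Subgroup G) [K.Normal]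
    (hc : Subgroup.IsComplement' K H) (hK : K ≠ ⊥) (hfpf : ∀ h ∈ H, h ≠ 1 → K ⊓ Subgroup.centralizer {h} = ⊥)
    (heven : 2 ∣ Nat.card H) :
    (∃ s ∈ H, orderOf s = 2 ∧ (∀ t ∈ H, orderOf t = 2 → t = s) ∧ ∀ k ∈ K, s * k * s⁻¹ = k⁻¹) ∧ IsMulCommutative K := by
  have hdisj : K ⊓ H = ⊥ := hc.disjoint.eq_bot
  have hKn : K.Normal := inferInstance
  have key : ∀ t ∈ H, orderOf t = 2 → ∀ k ∈ K, t * k * t⁻¹ = k⁻¹ := by
    intro t htH ht2 k hk
    have ht1 : t ≠ 1 := by
      intro h
      rw [h, orderOf_one] at ht2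
      norm_num at ht2
    have htt : t * t = 1 := by rw [← pow_two, ← ht2, pow_orderOf_eq_one]
    have htinv : t⁻¹ = t := inv_eq_of_mul_eq_one_left htt
    let f : K → K := fun m =>
      ⟨(m : G)⁻¹ * (t * m * t⁻¹), K.mul_mem (K.inv_mem m.2) (hKn.conj_mem _ m.2 t)⟩
    have hinj : Function.Injective f := by
      intro a b hab
      have h1 : (a : G)⁻¹ * (t * a * t⁻¹) = (b : G)⁻¹ * (t * b * t⁻¹) := congrArg Subtype.val hab
      have h2c : (b : G) * (a : G)⁻¹ ∈ Subgroup.centralizer {t} := by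
        rw [Subgroup.mem_centralizer_iff]
        intro z hz
        rw [Set.mem_singleton_iff] at hz
        rw [hz]
        calc t * ((b : G) * (a : G)⁻¹) = b * ((b : G)⁻¹ * (t * b * t⁻¹)) * t * (a : G)⁻¹ := by
              group
          _ = b * ((a : G)⁻¹ * (t * a * t⁻¹)) * t * (a : G)⁻¹ := by rw [h1]
          _ = (b : G) * (a : G)⁻¹ * t := by group
      have h2 : (b : G) * (a : G)⁻¹ ∈ K ⊓ Subgroup.centralizer {t} :=
        ⟨K.mul_mem b.2 (K.inv_mem a.2), h2c⟩
      rw [hfpf t htH ht1, Subgroup.mem_bot] at h2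
      apply Subtype.ext
      exact (mul_inv_eq_one.mp h2).symm
    have hsurj : Function.Surjective f := Finite.injective_iff_surjective.mp hinj
    obtain ⟨m, hm⟩ := hsurj ⟨k, hk⟩
    have hm' : (m : G)⁻¹ * (t * m * t⁻¹) = k := congrArg Subtype.val hm
    rw [← hm']
    have e1 : ((m : G)⁻¹ * (t * m * t⁻¹))⁻¹ = t * (m : G)⁻¹ * t⁻¹ * m := by group
    rw [e1, htinv]
    calc t * ((m : G)⁻¹ * (t * m * t)) * t = t * (m : G)⁻¹ * t * m * (t * t) := by group
      _ = t * (m : G)⁻¹ * t * m := by rw [htt, mul_one]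
  haveI : Fact (Nat.Prime 2) := ⟨Nat.prime_two⟩
  obtain ⟨s, hs⟩ := exists_prime_orderOf_dvd_card' 2 heven
  have hs2 : orderOf (s : G) = 2 := by rw [Subgroup.orderOf_coe]; exact hs
  have hss : (s : G) * s = 1 := by rw [← pow_two, ← hs2, pow_orderOf_eq_one]
  refine ⟨⟨s, s.2, hs2, ?_, key s s.2 hs2⟩, ?_⟩
  · intro t htH ht2
    by_contra hne
    have hts : t * (s : G) ≠ 1 := by
      intro h
      apply hne
      have h1 : t = (s : G)⁻¹ := eq_inv_of_mul_eq_one_left h
      rw [h1]; exact inv_eq_of_mul_eq_one_left hss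
    have hcent : K ≤ K ⊓ Subgroup.centralizer {t * (s : G)} := by
      intro k hk
      have hkc : k ∈ Subgroup.centralizer {t * (s : G)} := by
        rw [Subgroup.mem_centralizer_iff]
        intro z hz
        rw [Set.mem_singleton_iff] at hz
        rw [hz]
        have h1 := key s s.2 hs2 k hk
        have h2 := key t htH ht2 k⁻¹ (K.inv_mem hk)
        rw [inv_inv] at h2
        calc t * (s : G) * k = t * (s * k * (s : G)⁻¹) * t⁻¹ * (t * s) := by group
          _ = t * k⁻¹ * t⁻¹ * (t * s) := by rw [h1]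
          _ = k * (t * s) := by rw [h2]
      exact ⟨hk, hkc⟩
    rw [hfpf _ (H.mul_mem htH s.2) hts, le_bot_iff] at hcent
    exact hK hcent
  · refine ⟨⟨fun a b => ?_⟩⟩
    apply Subtype.ext
    show (a : G) * b = b * a
    have h1 := key s s.2 hs2 (a * b) (K.mul_mem a.2 b.2)
    have h2 := key s s.2 hs2 a a.2
    have h3 := key s s.2 hs2 b b.2
    have h4 : ((a : G) * b)⁻¹ = (a : G)⁻¹ * (b : G)⁻¹ := by
      rw [← h1, ← h2, ← h3]; group
    have h5 : (a : G) * b = ((a : G)⁻¹ * (b : G)⁻¹)⁻¹ := by rw [← h4, inv_inv]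
    rw [h5]; group

end Cfsg.Agent.S0068
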