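import Cfsg.Statements.S0073
import Mathlib
import Cfsg.Agent.Lib.Lead.SylowAux2
import Cfsg.Agent.Lib.Lead.NormCent
import Cfsg.Agent.S0087

set_option autoImplicit false
open Cfsg Cfsg.Agent.Lib.Lead

namespace Cfsg.Agent.S0073

open scoped Pointwise commutatorElement

/-- For a finite non-abelian simple group, either the cube of the least prime divisor of the order divides the order, or 12 does. -/
theorem result {G : Type*} [Group G] [Finite G] [IsSimpleGroup G] (hG : ∃ x y : G, x * y ≠ y * x) : (Nat.card G).minFac ^ 3 ∣ Nat.card G ∨ 12 ∣ Nat.card G := by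
  classical
  obtain ⟨x₀, y₀, hxy⟩ := hG
  have hG1 : Nat.card G ≠ 1 := by
    intro h
    haveI : Subsingleton G := (Nat.card_eq_one_iff_unique.mp h).1
    exact hxy (Subsingleton.elim _ _)
  obtain ⟨p, hpdef⟩ : ∃ p, p = (Nat.card G).minFac := ⟨_, rfl⟩
  rw [← hpdef]
  have hp : p.Prime := hpdef ▸ Nat.minFac_prime hG1
  haveI : Fact p.Prime := ⟨hp⟩
  have hpG : p ∣ Nat.card G := hpdef ▸ Nat.minFac_dvd _
  have hmin : ∀ r : ℕ, r.Prime → r ∣ Nat.card G → p ≤ r := by
    intro r hr hrG
    rw [hpdef]; exact Nat.minFac_le_of_dvd hr.two_le hrG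
  by_cases h3 : p ^ 3 ∣ Nat.card G
  · left; exact h3
  right
  by_contra h12
  have P : Sylow p G := default
  obtain ⟨k, hkdef⟩ : ∃ k, k = (Nat.card G).factorization p := ⟨_, rfl⟩
  have hPcard : Nat.card (P : Subgroup G) = p ^ k := by rw [hkdef]; exact P.card_eq_multiplicity
  have hk1 : 1 ≤ k := by
    rw [hkdef]
    exact hp.factorization_pos_of_dvd Nat.card_pos.ne' hpG
  have hk2 : k ≤ 2 := by
    by_contra hk
    apply h3
    have h1 : p ^ k ∣ Nat.card G := hPcard ▸ Subgroup.card_subgroup_dvd_card _
    exact (pow_dvd_pow p (by omega)).trans h1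
  have hcomm : IsMulCommutative (P : Subgroup G) := by
    rcases (show k = 1 ∨ k = 2 by omega) with h | h
    · rw [h, pow_one] at hPcard
      haveI : IsCyclic (P : Subgroup G) := isCyclic_of_prime_card hPcard
      exact IsCyclic.isMulCommutative
    · rw [h] at hPcard
      exact IsPGroup.isMulCommutative_of_card_eq_prime_sq hPcard
  have hNC := normalizer_le_centralizer_of_sylow P hcomm (by
    intro r hr hrp hrG F hFP hmod
    apply Subgroup.eq_of_le_of_card_ge hFP
    have hdvd : Nat.card F ∣ p ^ k := hPcard ▸ Subgroup.card_dvd_of_le hFP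
    obtain ⟨j, hjk, hj⟩ := (Nat.dvd_prime_pow hp).mp hdvd
    rw [hPcard] at hmod ⊢
    rw [hj] at hmod ⊢
    have hpr : p < r := lt_of_le_of_ne (hmin r hr hrG) (Ne.symm hrp)
    have hp2 := hp.two_le
    by_contra hlt
    rw [not_le] at hlt
    have hjk' : j < k := by
      by_contra h
      have : j = k := by omega
      rw [this] at hlt
      exact lt_irrefl _ hlt
    have h1 : r ∣ p ^ k - p ^ j := (Nat.modEq_iff_dvd' hlt.le).mp hmod.symm
    have hnot1 : ¬ r ∣ p - 1 := by
      intro h
      have := Nat.le_of_dvd (by omega) h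
      omega
    have hnotp : ¬ r ∣ p := by
      intro h
      exact hrp ((Nat.prime_dvd_prime_iff_eq hr hp).mp h)
    rcases (show (k = 1 ∧ j = 0) ∨ (k = 2 ∧ j = 0) ∨ (k = 2 ∧ j = 1) by omega) with h | h | h
    · rw [h.1, h.2, pow_one, pow_zero] at h1
      exact hnot1 h1
    · rw [h.1, h.2, pow_zero] at h1
      have e : p ^ 2 - 1 = (p - 1) * (p + 1) := by
        obtain ⟨q, rfl⟩ : ∃ q, p = q + 1 := ⟨p - 1, by omega⟩
        simp only [Nat.add_sub_cancel]
        ring_nf
        omega
      rw [e] at h1
      rcases (Nat.Prime.dvd_mul hr).mp h1 with h2 | h2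
      · exact hnot1 h2
      · have h4 : r ≤ p + 1 := Nat.le_of_dvd (by omega) h2
        have h5 : r = p + 1 := by omega
        have hp2' : p = 2 := by
          by_contra hne
          have hodd : Odd p := hp.odd_of_ne_two hne
          have heven : Even r := by rw [h5]; exact hodd.add_one
          have : r = 2 := (Nat.Prime.even_iff hr).mp heven
          omega
        have hr3 : r = 3 := by omega
        apply h12
        have h4' : 4 ∣ Nat.card G := by
          have h6 : p ^ k ∣ Nat.card G := hPcard ▸ Subgroup.card_subgroup_dvd_card _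
          rw [hp2', h.1] at h6
          exact h6
        have h3' : 3 ∣ Nat.card G := hr3 ▸ hrG
        exact Nat.Coprime.mul_dvd_of_dvd_of_dvd (by norm_num) h4' h3'
    · rw [h.1, h.2, pow_one] at h1
      have e : p ^ 2 - p = p * (p - 1) := by
        obtain ⟨q, rfl⟩ : ∃ q, p = q + 1 := ⟨p - 1, by omega⟩
        simp only [Nat.add_sub_cancel]
        have : (q + 1) ^ 2 = (q + 1) * q + (q + 1) := by ring
        omega
      rw [e] at h1
      rcases (Nat.Prime.dvd_mul hr).mp h1 with h2 | h2
      · exact hnotp h2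
      · exact hnot1 h2)
  obtain ⟨N, hN, hc⟩ := Cfsg.Agent.S0087.result (P : Subgroup G) P.card_coprime_index hNC
  have hcm := hc.card_mul_card
  rcases hN.eq_bot_or_eq_top with h | h
  · rw [h, Subgroup.card_bot, one_mul] at hcm
    have hPtop : (P : Subgroup G) = ⊤ := Subgroup.eq_top_of_card_eq _ hcm
    have hpg : IsPGroup p G := by
      have := P.isPGroup'
      rw [hPtop] at this
      exact (IsPGroup.of_equiv this Subgroup.topEquiv)
    haveI : Nontrivial G := (Finite.one_lt_card_iff_nontrivial).mp (by
      have := Nat.card_pos (α := G); omega)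
    have hcen := hpg.center_nontrivial
    have hcn : (Subgroup.center G).Normal := inferInstance
    rcases hcn.eq_bot_or_eq_top with h0 | h0
    · have : Nat.card (Subgroup.center G) = 1 := by rw [h0, Subgroup.card_bot]
      have h2 := Finite.one_lt_card (α := Subgroup.center G)
      omega
    · have hx : x₀ ∈ Subgroup.center G := h0 ▸ Subgroup.mem_top _
      exact hxy ((Subgroup.mem_center_iff.mp hx y₀).symm)
  · rw [h, Subgroup.card_top] at hcm
    have hP1 : Nat.card (P : Subgroup G) = 1 := by
      have hpos : 0 < Nat.card G := Nat.card_pos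
      have : Nat.card G * Nat.card (P : Subgroup G) = Nat.card G * 1 := by rw [hcm, mul_one]
      exact Nat.eq_of_mul_eq_mul_left hpos this
    rw [hPcard] at hP1
    have : 1 < p ^ k := Nat.one_lt_pow (by omega) hp.one_lt
    omega

end Cfsg.Agent.S0073
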