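import Cfsg.Statements.S0076
import Mathlib
import Cfsg.Agent.Lib.Lead.SylowAux2

set_option autoImplicit false
open Cfsg Cfsg.Agent.Lib.Lead

namespace Cfsg.Agent.S0076

open scoped Pointwise commutatorElement

/-- Two P-invariant subsets of a Sylow p-subgroup P that are conjugate in G are conjugate under the normalizer of P. -/
theorem result {G : Type*} [Group G] [Finite G] {p : ℕ} [Fact p.Prime] (P : Sylow p G) (X Y : Set G) (hXP : X ⊆ P) (hYP : Y ⊆ P) (hX : ∀ x ∈ P, (fun y => x * y * x⁻¹) '' X = X) (hY : ∀ x ∈ P, (fun y => x * y * x⁻¹) '' Y = Y) (g : G) (hg : (fun y => g * y * g⁻¹) '' X = Y) : ∃ n ∈ Subgroup.normalizer (P : Set G), (fun y => n * y * n⁻¹) '' X = Y := by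
  have hmem : ∀ m : G, m ∈ Subgroup.normalizer Y ↔ (fun y => m * y * m⁻¹) '' Y = Y := by
    intro m
    rw [Subgroup.mem_normalizer_iff_conj_image_eq]
    rfl
  have hP : (P : Subgroup G) ≤ Subgroup.normalizer Y := fun x hx => (hmem x).mpr (hY x hx)
  have hR : ((g • P : Sylow p G) : Subgroup G) ≤ Subgroup.normalizer Y := by
    intro r hr
    have hr' : r ∈ MulAut.conj g • (P : Subgroup G) := hr
    rw [mem_conj_smul] at hr'
    rw [hmem]
    have h1 := hX _ hr'
    calc (fun y => r * y * r⁻¹) '' Y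
        = (fun y => r * y * r⁻¹) '' ((fun y => g * y * g⁻¹) '' X) := by rw [hg]
      _ = (fun y => g * y * g⁻¹) '' ((fun y => (g⁻¹ * r * g) * y * (g⁻¹ * r * g)⁻¹) '' X) := by
          rw [Set.image_image, Set.image_image]
          congr 1
          funext y
          group
      _ = (fun y => g * y * g⁻¹) '' X := by rw [h1]
      _ = Y := hg
  obtain ⟨m, hm, hmR⟩ := sylow_conj_in_subgroup P (g • P) _ hP hR
  rw [← mul_smul] at hmR
  refine ⟨m * g, Sylow.smul_eq_iff_mem_normalizer.mp hmR, ?_⟩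
  have h2 := (hmem m).mp hm
  calc (fun y => m * g * y * (m * g)⁻¹) '' X
      = (fun y => m * y * m⁻¹) '' ((fun y => g * y * g⁻¹) '' X) := by
        rw [Set.image_image]
        congr 1
        funext y
        group
    _ = (fun y => m * y * m⁻¹) '' Y := by rw [hg]
    _ = Y := h2

end Cfsg.Agent.S0076
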