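import Cfsg.Statements.S0077
import Mathlib
import Cfsg.Agent.Lib.Helper3.PRes
import Cfsg.Agent.Lib.Helper3.CtrlTransfer

set_option autoImplicit false
open Cfsg

namespace Cfsg.Agent.S0077

open Cfsg.Agent.Lib.Helper3
open scoped commutatorElement

/-- If a subgroup Z of the centre of a Sylow p-subgroup P is weakly closed in P, then P meets the derived subgroup of G exactly where it meets the derived subgroup of the normalizer of Z. -/
theorem result {G : Type*} [Group G] [Finite G] {p : ℕ} [Fact p.Prime] (P : Sylow p G) (Z : Subgroup G) (hZ : Z ≤ Subgroup.centralizer (P : Set G)) (hW : Cfsg.IsWeaklyClosed Z P) : commutator G ⊓ (P : Subgroup G) = ⁅Subgroup.normalizer (Z : Set G), Subgroup.normalizer (Z : Set G)⁆ ⊓ (P : Subgroup G) := by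
  classical
  obtain ⟨hZP, hWc⟩ := hW
  have hPZ : (P : Subgroup G) ≤ Subgroup.centralizer (Z : Set G) := by
    intro a ha
    rw [Subgroup.mem_centralizer_iff]
    intro z hz
    exact ((Subgroup.mem_centralizer_iff.mp (hZ hz)) a ha).symm
  have hPN : (P : Subgroup G) ≤ Subgroup.normalizer (Z : Set G) :=
    hPZ.trans (Subgroup.centralizer_le_normalizer _)
  apply le_antisymm
  · refine le_inf ?_ inf_le_right
    rw [inf_comm, commutator_def]
    apply sylow_inf_commutator_le_of_focal P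
    intro a ha g hg
    set b := g⁻¹ * a * g with hb
    let C : Subgroup G := Subgroup.centralizer ({b} : Set G)
    have hZC : Z ≤ C := by
      intro z hz
      rw [Subgroup.mem_centralizer_iff]
      intro h hh
      rw [Set.mem_singleton_iff] at hh
      rw [hh]
      exact (Subgroup.mem_centralizer_iff.mp (hZ hz)) b hg
    have hZgC : Z.map (MulAut.conj g⁻¹).toMonoidHom ≤ C := by
      rintro _ ⟨z, hz, rfl⟩
      rw [Subgroup.mem_centralizer_iff]
      intro h hh
      rw [Set.mem_singleton_iff] at hh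
      rw [hh]
      show b * (g⁻¹ * z * g⁻¹⁻¹) = (g⁻¹ * z * g⁻¹⁻¹) * b
      have hza : a * z = z * a := (Subgroup.mem_centralizer_iff.mp (hZ hz)) a ha
      rw [hb, inv_inv]
      calc g⁻¹ * a * g * (g⁻¹ * z * g) = g⁻¹ * (a * z) * g := by group
        _ = g⁻¹ * (z * a) * g := by rw [hza]
        _ = g⁻¹ * z * g * (g⁻¹ * a * g) := by group
    have hZp : IsPGroup p Z := P.isPGroup'.to_le hZP
    have hZgp : IsPGroup p (Z.map (MulAut.conj g⁻¹).toMonoidHom) := hZp.map _
    obtain ⟨R, hR⟩ := (IsPGroup.comap_subtype hZp : IsPGroup p (Z.subgroupOf C)).exists_le_sylow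
    obtain ⟨c, hc⟩ := exists_conj_mem_sylow
      ((Z.map (MulAut.conj g⁻¹).toMonoidHom).subgroupOf C) (IsPGroup.comap_subtype hZgp) R
    obtain ⟨u, hu⟩ := exists_conj_mem_sylow ((R : Subgroup C).map C.subtype) (R.isPGroup'.map _) P
    have h1 : Z.map (MulAut.conj u).toMonoidHom ≤ P := by
      rintro _ ⟨z, hz, rfl⟩
      have hzR : (⟨z, hZC hz⟩ : C) ∈ (R : Subgroup C) := hR (Subgroup.mem_subgroupOf.mpr hz)
      exact hu z ⟨⟨z, hZC hz⟩, hzR, rfl⟩
    have h2 : Z.map (MulAut.conj (u * c * g⁻¹)).toMonoidHom ≤ P := by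
      rintro _ ⟨z, hz, rfl⟩
      have hm : g⁻¹ * z * g ∈ Z.map (MulAut.conj g⁻¹).toMonoidHom :=
        ⟨z, hz, by show g⁻¹ * z * g⁻¹⁻¹ = _; rw [inv_inv]⟩
      have h3 := hc ⟨g⁻¹ * z * g, hZgC hm⟩ (Subgroup.mem_subgroupOf.mpr hm)
      have h4 := hu _ ⟨_, h3, rfl⟩
      have h5 : (MulAut.conj (u * c * g⁻¹)).toMonoidHom z
          = u * (C.subtype (c * ⟨g⁻¹ * z * g, hZgC hm⟩ * c⁻¹)) * u⁻¹ := by
        show (u * c * g⁻¹) * z * (u * c * g⁻¹)⁻¹ = u * ((c : G) * (g⁻¹ * z * g) * (c : G)⁻¹) * u⁻¹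
        group
      rw [h5]; exact h4
    have hu' := mem_normalizer_of_map_conj_eq' Z u (hWc u h1)
    have hn' := mem_normalizer_of_map_conj_eq' Z _ (hWc _ h2)
    have hn : g * (c : G)⁻¹ ∈ Subgroup.normalizer (Z : Set G) := by
      have : g * (c : G)⁻¹ = (u⁻¹ * (u * c * g⁻¹))⁻¹ := by group
      rw [this]
      exact inv_mem (mul_mem (inv_mem hu') hn')
    have hcb : b * (c : G) = (c : G) * b :=
      (Subgroup.mem_centralizer_iff.mp c.2) b (Set.mem_singleton b)
    have hbn : b = (g * (c : G)⁻¹)⁻¹ * a * (g * (c : G)⁻¹) := by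
      calc b = b * (c : G) * (c : G)⁻¹ := by group
        _ = (c : G) * b * (c : G)⁻¹ := by rw [hcb]
        _ = (g * (c : G)⁻¹)⁻¹ * a * (g * (c : G)⁻¹) := by rw [hb]; group
    have hcomm : a⁻¹ * b = ⁅a⁻¹, (g * (c : G)⁻¹)⁻¹⁆ := by
      rw [commutatorElement_def, inv_inv, inv_inv]
      calc a⁻¹ * b = a⁻¹ * ((g * (c : G)⁻¹)⁻¹ * a * (g * (c : G)⁻¹)) := by rw [← hbn]
        _ = a⁻¹ * (g * (c : G)⁻¹)⁻¹ * a * (g * (c : G)⁻¹) := by group
    rw [hcomm]
    exact Subgroup.commutator_mem_commutator (inv_mem (hPN ha)) (inv_mem hn)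
  · refine inf_le_inf_right _ ?_
    rw [commutator_def]
    exact Subgroup.commutator_mono le_top le_top

end Cfsg.Agent.S0077
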