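import Cfsg.Statements.S0079
import Mathlib
import Cfsg.Agent.Lib.Lead.SylowAux2
import Cfsg.Agent.Lib.Lead.NilpHall

set_option autoImplicit false
open Cfsg Cfsg.Agent.Lib.Lead

namespace Cfsg.Agent.S0079

open scoped Pointwise commutatorElement

/-- A nilpotent Hall subgroup has a normal complement exactly when elements of it that are conjugate in the whole group are already conjugate inside it. -/
theorem result {G : Type*} [Group G] [Finite G] (H : Subgroup G) (hH : Group.IsNilpotent H) (hHall : Nat.Coprime (Nat.card H) H.index) : (∃ N : Subgroup G, N.Normal ∧ N.IsComplement' H) ↔ ∀ x ∈ H, ∀ y ∈ H, (∃ g : G, g * x * g⁻¹ = y) → ∃ h ∈ H, h * x * h⁻¹ = y := by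
  constructor
  · rintro ⟨N, hNn, hNc⟩ x hx y hy ⟨g, rfl⟩
    have hg : g ∈ (Set.univ : Set G) := trivial
    rw [← (Subgroup.isComplement'_def.mp hNc).mul_eq] at hg
    obtain ⟨n, hn, h, hh, rfl⟩ := hg
    refine ⟨h, hh, ?_⟩
    have hz : h * x * h⁻¹ ∈ H := H.mul_mem (H.mul_mem hh hx) (H.inv_mem hh)
    have h1 : (n * h) * x * (n * h)⁻¹ * (h * x * h⁻¹)⁻¹ ∈ N := by
      have e : (n * h) * x * (n * h)⁻¹ * (h * x * h⁻¹)⁻¹ =
          n * ((h * x * h⁻¹) * n⁻¹ * (h * x * h⁻¹)⁻¹) := by group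
      rw [e]; exact N.mul_mem hn (hNn.conj_mem _ (N.inv_mem hn) _)
    have h2 : (n * h) * x * (n * h)⁻¹ * (h * x * h⁻¹)⁻¹ ∈ N ⊓ H :=
      ⟨h1, H.mul_mem hy (H.inv_mem hz)⟩
    rw [hNc.disjoint.eq_bot, Subgroup.mem_bot] at h2
    exact (mul_inv_eq_one.mp h2).symm
  · intro hfus
    exact nilpotent_hall_complement H hH hHall hfus

end Cfsg.Agent.S0079
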