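import Cfsg.Statements.S0080
import Mathlib
import Cfsg.Agent.Lib.Lead.SylowAux2
import Cfsg.Agent.Lib.Lead.Transfer

set_option autoImplicit false
open Cfsg Cfsg.Agent.Lib.Lead

namespace Cfsg.Agent.S0080

open scoped Pointwise commutatorElement

/-- When the index of H is prime to the order of H/H', the focal subgroup of H is G' ∩ H, and H/(G' ∩ H) has a normal complement. -/
theorem result {G : Type*} [Group G] [Finite G] (H : Subgroup G) (h : Nat.Coprime H.index (⁅H, H⁆.relIndex H)) : Subgroup.focalSubgroup H = commutator G ⊓ H ∧ ∃ N : Subgroup G, N.Normal ∧ N ⊓ H = commutator G ⊓ H ∧ N ⊔ H = ⊤ := by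
  have h' : Nat.Coprime H.index (H.focalSubgroup.relIndex H) :=
    Nat.Coprime.coprime_dvd_right (Subgroup.relIndex_dvd_of_le_left H H.commutator_le_focalSubgroup) h
  obtain ⟨h1, h2, h3⟩ := focal_coprime H h'
  refine ⟨h1, H.transferFocal.ker, inferInstance, ?_, h3⟩
  rw [h2, h1]

end Cfsg.Agent.S0080
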