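import Cfsg.Statements.S0082
import Mathlib
import Cfsg.Agent.Lib.Helper3.PiCore
import Cfsg.Agent.Lib.Helper5.CyclicSylow
import Cfsg.Agent.Lib.Helper4.PClosed

set_option autoImplicit false
open Cfsg

namespace Cfsg.Agent.S0082

open Cfsg.Agent.Lib.Helper3

/-- With a cyclic Sylow p-subgroup, either there is a normal p-complement or the elements of order prime to p generate the whole group. -/
theorem result {G : Type*} [Group G] [Finite G] {p : ℕ} [Fact p.Prime] (P : Sylow p G) (hP : IsCyclic P) : Cfsg.HasNormalPComplement p G ∨ Cfsg.pResidual p G = ⊤ := by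
  classical
  have hcyc : IsCyclic (P : Subgroup G) := hP
  have hcommP : IsMulCommutative (P : Subgroup G) := IsCyclic.isMulCommutative
  have hcomm : ∀ a ∈ (P : Subgroup G), ∀ b ∈ (P : Subgroup G), a * b = b * a := by
    intro a ha b hb
    have := hcommP.is_comm.comm ⟨a, ha⟩ ⟨b, hb⟩
    exact congrArg Subtype.val this
  by_cases hNC : Subgroup.normalizer ((P : Subgroup G) : Set G) ≤ Subgroup.centralizer ((P : Subgroup G) : Set G)
  · left
    exact ⟨P, (MonoidHom.transferSylow P hNC).ker, inferInstance,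
      MonoidHom.ker_transferSylow_isComplement' P hNC⟩
  · right
    obtain ⟨n, hn, hnC⟩ := SetLike.not_le_iff_exists.mp hNC
    have hRn : (Cfsg.pResidual p G).Normal := Cfsg.Agent.Lib.Helper4.pResidual_normal p G
    have hsup := Cfsg.Agent.Lib.Helper4.pResidual_sup_sylow (p := p) P
    have hPR : (P : Subgroup G) ≤ Cfsg.pResidual p G := by
      have hnmem : n ∈ (P : Subgroup G) ⊔ Cfsg.pResidual p G := by
        rw [sup_comm, hsup]; exact Subgroup.mem_top n
      obtain ⟨a, ha, r, hr, hnar⟩ := exists_mul_of_mem_sup_of_le_normalizer _ _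
        (by rw [Subgroup.normalizer_eq_top]; exact le_top) hnmem
      -- the map w ↦ w * (n * w⁻¹ * n⁻¹) is injective on P
      have hconj : ∀ w ∈ (P : Subgroup G), n * w * n⁻¹ ∈ (P : Subgroup G) := fun w hw =>
        (Subgroup.mem_normalizer_iff.mp hn w).mp hw
      let f : ↥(P : Subgroup G) → ↥(P : Subgroup G) := fun w =>
        ⟨(w : G) * (n * (w : G)⁻¹ * n⁻¹), mul_mem w.2 (hconj _ (inv_mem w.2))⟩
      have hinj : Function.Injective f := by
        intro w w' hww
        have h1 : (w : G) * (n * (w : G)⁻¹ * n⁻¹) = (w' : G) * (n * (w' : G)⁻¹ * n⁻¹) :=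
          congrArg Subtype.val hww
        by_contra hne
        have hd : (w' : G)⁻¹ * (w : G) ≠ 1 := by
          intro h
          apply hne
          apply Subtype.ext
          have : (w : G) = (w' : G) * ((w' : G)⁻¹ * (w : G)) := by group
          rw [this, h, mul_one]
        have hdP : (w' : G)⁻¹ * (w : G) ∈ (P : Subgroup G) := mul_mem (inv_mem w'.2) w.2
        have h2 : n * ((w' : G)⁻¹ * (w : G)) * n⁻¹ = (w' : G)⁻¹ * (w : G) := by
          have e1 : n * ((w' : G)⁻¹ * (w : G)) * n⁻¹ = (n * (w' : G)⁻¹ * n⁻¹) * (n * (w : G)⁻¹ * n⁻¹)⁻¹ := by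
            group
          have e2 : (w' : G)⁻¹ * (w : G) = (n * (w' : G)⁻¹ * n⁻¹) * (n * (w : G)⁻¹ * n⁻¹)⁻¹ := by
            have e3 : (n * (w' : G)⁻¹ * n⁻¹) = (w' : G)⁻¹ * ((w : G) * (n * (w : G)⁻¹ * n⁻¹)) := by
              rw [h1]; group
            rw [e3]; group
          rw [e1, ← e2]
        have h3 : n * ((w' : G)⁻¹ * (w : G)) = ((w' : G)⁻¹ * (w : G)) * n := by
          calc n * ((w' : G)⁻¹ * (w : G)) = (n * ((w' : G)⁻¹ * (w : G)) * n⁻¹) * n := by group
            _ = ((w' : G)⁻¹ * (w : G)) * n := by rw [h2]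
        have h4 := Cfsg.Agent.Lib.Helper5.commute_of_normalizer_cyclic_sylow P hcyc _ hdP hd n hn h3
        apply hnC
        rw [Subgroup.mem_centralizer_iff]
        intro g hg
        exact (h4 g hg).eq.symm
      have hsurj : Function.Surjective f := Finite.surjective_of_injective hinj
      intro u hu
      obtain ⟨w, hw⟩ := hsurj ⟨u, hu⟩
      have h1 : (w : G) * (n * (w : G)⁻¹ * n⁻¹) = u := congrArg Subtype.val hw
      have h2 : a⁻¹ * (w : G)⁻¹ * a = (w : G)⁻¹ := by
        have := hcomm a ha (w : G)⁻¹ (inv_mem w.2)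
        rw [mul_assoc, ← this]; group
      have h3 : u = ((w : G) * (a * r * a⁻¹) * (w : G)⁻¹) * (a * r * a⁻¹)⁻¹ := by
        rw [← h1, hnar]
        calc (w : G) * (a * r * (w : G)⁻¹ * (a * r)⁻¹)
            = (w : G) * a * r * (a⁻¹ * (w : G)⁻¹ * a) * r⁻¹ * a⁻¹ := by rw [h2]; group
          _ = ((w : G) * (a * r * a⁻¹) * (w : G)⁻¹) * (a * r * a⁻¹)⁻¹ := by group
      rw [h3]
      have hr' : a * r * a⁻¹ ∈ Cfsg.pResidual p G := hRn.conj_mem r hr a
      exact mul_mem (hRn.conj_mem _ hr' _) (inv_mem hr')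
    rw [← hsup]
    exact (sup_eq_left.mpr hPR).symm

end Cfsg.Agent.S0082
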