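import Cfsg.Statements.S0083
import Mathlib
import Cfsg.Agent.Lib.Helper3.PiCore
import Cfsg.Agent.Lib.Helper3.AlperinP

set_option autoImplicit false
open Cfsg

namespace Cfsg.Agent.S0083

open Cfsg.Agent.Lib.Helper3

/-- For an abelian Sylow p-subgroup P, a normal p-complement exists exactly when the normalizer of P is an internal direct product of P with some subgroup. -/
theorem result {G : Type*} [Group G] [Finite G] {p : ℕ} [Fact p.Prime] (P : Sylow p G) (hP : IsMulCommutative P) : Cfsg.HasNormalPComplement p G ↔ ∃ Q : Subgroup G, Q ≤ Subgroup.centralizer (P : Set G) ∧ Q ⊓ (P : Subgroup G) = ⊥ ∧ Q ⊔ (P : Subgroup G) = Subgroup.normalizer (P : Set G) := by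
  classical
  have hp : p.Prime := Fact.out
  have hcommP : IsMulCommutative (P : Subgroup G) := hP
  have hcomm : ∀ a ∈ (P : Subgroup G), ∀ b ∈ (P : Subgroup G), a * b = b * a := by
    intro a ha b hb
    have := hcommP.is_comm.comm ⟨a, ha⟩ ⟨b, hb⟩
    exact congrArg Subtype.val this
  have hPC : (P : Subgroup G) ≤ Subgroup.centralizer ((P : Subgroup G) : Set G) := by
    intro a ha
    rw [Subgroup.mem_centralizer_iff]
    intro b hb
    exact hcomm b hb a ha
  constructor
  · rintro ⟨P', K, hK, hcompl⟩
    -- K is a normal p'-subgroup with K ⊔ P = ⊤ and K ⊓ P = ⊥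
    have hcard : Nat.card K * Nat.card (P' : Subgroup G) = Nat.card G := hcompl.card_mul_card
    have hPP' : Nat.card (P : Subgroup G) = Nat.card (P' : Subgroup G) := sylow_card_eq P' P
    have hKP : Nat.card K * Nat.card (P : Subgroup G) = Nat.card G := by rw [hPP']; exact hcard
    have hKidx : Nat.card K = (P : Subgroup G).index := by
      have h1 := (P : Subgroup G).card_mul_index
      have hpos : 0 < Nat.card (P : Subgroup G) := Nat.card_pos
      have : Nat.card K * Nat.card (P : Subgroup G) = (P : Subgroup G).index * Nat.card (P : Subgroup G) := by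
        rw [hKP, ← h1, mul_comm]
      exact Nat.eq_of_mul_eq_mul_right hpos this
    have hKp : ¬ p ∣ Nat.card K := by rw [hKidx]; exact P.not_dvd_index
    have hcop : (Nat.card K).Coprime (Nat.card (P : Subgroup G)) := by
      obtain ⟨k, hk⟩ := IsPGroup.iff_card.mp P.isPGroup'
      rw [hk]
      exact Nat.Coprime.pow_right k ((Nat.Prime.coprime_iff_not_dvd hp).mpr hKp).symm
    have hcompl' : K.IsComplement' (P : Subgroup G) := Subgroup.isComplement'_of_coprime hKP hcop
    have hdisj : K ⊓ (P : Subgroup G) = ⊥ := hcompl'.disjoint.eq_bot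
    have hsup : (P : Subgroup G) ⊔ K = ⊤ := by rw [sup_comm]; exact hcompl'.sup_eq_top
    refine ⟨K ⊓ Subgroup.normalizer ((P : Subgroup G) : Set G), ?_, ?_, ?_⟩
    · intro q hq
      obtain ⟨hqK, hqN⟩ := Subgroup.mem_inf.mp hq
      rw [Subgroup.mem_centralizer_iff]
      intro a ha
      have h1 : q * a * q⁻¹ * a⁻¹ ∈ K ⊓ (P : Subgroup G) := by
        refine Subgroup.mem_inf.mpr ⟨?_, ?_⟩
        · have : q * a * q⁻¹ * a⁻¹ = q * (a * q⁻¹ * a⁻¹) := by group
          rw [this]
          exact mul_mem hqK (hK.conj_mem _ (inv_mem hqK) a)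
        · exact mul_mem ((Subgroup.mem_normalizer_iff.mp hqN a).mp ha) (inv_mem ha)
      rw [hdisj, Subgroup.mem_bot] at h1
      calc a * q = (q * a * q⁻¹ * a⁻¹)⁻¹ * (q * a) := by group
        _ = q * a := by rw [h1]; group
    · apply le_antisymm _ bot_le
      rw [← hdisj]
      exact inf_le_inf_right _ inf_le_left
    · apply le_antisymm
      · exact sup_le inf_le_right Subgroup.le_normalizer
      · intro n hn
        have hnmem : n ∈ (P : Subgroup G) ⊔ K := by rw [hsup]; exact Subgroup.mem_top n
        obtain ⟨a, ha, k, hk, hnak⟩ := exists_mul_of_mem_sup_of_le_normalizer _ _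
          (by rw [Subgroup.normalizer_eq_top]; exact le_top) hnmem
        have hkN : k ∈ Subgroup.normalizer ((P : Subgroup G) : Set G) := by
          have : k = a⁻¹ * n := by rw [hnak]; group
          rw [this]
          exact mul_mem (inv_mem (Subgroup.le_normalizer ha)) hn
        rw [hnak]
        exact mul_mem (Subgroup.mem_sup_right ha) (Subgroup.mem_sup_left (Subgroup.mem_inf.mpr ⟨hk, hkN⟩))
  · rintro ⟨Q, hQC, -, hQP⟩
    have hNC : Subgroup.normalizer ((P : Subgroup G) : Set G) ≤ Subgroup.centralizer ((P : Subgroup G) : Set G) := by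
      have hQP' : Q ⊔ (P : Subgroup G) = Subgroup.normalizer ((P : Subgroup G) : Set G) := hQP
      rw [← hQP']
      exact sup_le hQC hPC
    exact ⟨P, (MonoidHom.transferSylow P hNC).ker, inferInstance,
      MonoidHom.ker_transferSylow_isComplement' P hNC⟩

end Cfsg.Agent.S0083
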