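import Cfsg.Statements.S0085
import Mathlib
import Cfsg.Agent.Lib.Lead.SylowAux2
import Cfsg.Agent.Lib.Lead.NormCent
import Cfsg.Agent.S0087

set_option autoImplicit false
open Cfsg Cfsg.Agent.Lib.Lead

namespace Cfsg.Agent.S0085

open scoped Pointwise commutatorElement

/-- A group whose Sylow 2-subgroups are elementary abelian of order 8 and whose order is prime to 3 and to 7 has a normal 2-complement. -/
theorem result {G : Type*} [Group G] [Finite G] (T : Sylow 2 G) (h8 : Nat.card T = 8) (he : ∀ x : T, x * x = 1) (h3 : ¬ 3 ∣ Nat.card G) (h7 : ¬ 7 ∣ Nat.card G) : Cfsg.HasNormalPComplement 2 G := by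
  classical
  have hcomm : IsMulCommutative T := isMulCommutative_of_sq_eq_one he
  have hNC := normalizer_le_centralizer_of_sylow T hcomm (by
    intro r hr hr2 hrG F hFT hmod
    apply Subgroup.eq_of_le_of_card_ge hFT
    have hdvd : Nat.card F ∣ 8 := h8 ▸ Subgroup.card_dvd_of_le hFT
    rw [h8] at hmod ⊢
    have hle : Nat.card F ≤ 8 := Nat.le_of_dvd (by norm_num) hdvd
    have hpos : 0 < Nat.card F := Nat.card_pos
    have hr3 : r ≠ 3 := fun h => h3 (h ▸ hrG)
    have hr7 : r ≠ 7 := fun h => h7 (h ▸ hrG)
    have hrt := hr.two_le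
    generalize Nat.card F = c at hmod hdvd hle hpos ⊢
    interval_cases c
    · exfalso
      have h1 : r ∣ 8 - 1 := (Nat.modEq_iff_dvd' (by norm_num)).mp hmod.symm
      have h2 : r ≤ 7 := Nat.le_of_dvd (by norm_num) h1
      interval_cases r
      · exact hr2 rfl
      · exact hr3 rfl
      · revert h1; norm_num
      · revert h1; norm_num
      · revert h1; norm_num
      · exact hr7 rfl
    · exfalso
      have h1 : r ∣ 8 - 2 := (Nat.modEq_iff_dvd' (by norm_num)).mp hmod.symm
      have h2 : r ≤ 6 := Nat.le_of_dvd (by norm_num) h1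
      interval_cases r
      · exact hr2 rfl
      · exact hr3 rfl
      · revert h1; norm_num
      · revert h1; norm_num
      · revert hr; norm_num
    · exfalso; revert hdvd; norm_num
    · exfalso
      have h1 : r ∣ 8 - 4 := (Nat.modEq_iff_dvd' (by norm_num)).mp hmod.symm
      have h2 : r ≤ 4 := Nat.le_of_dvd (by norm_num) h1
      interval_cases r
      · exact hr2 rfl
      · exact hr3 rfl
      · revert hr; norm_num
    · exfalso; revert hdvd; norm_num
    · exfalso; revert hdvd; norm_num
    · exfalso; revert hdvd; norm_num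
    · exact le_refl _)
  obtain ⟨N, hN, hc⟩ := Cfsg.Agent.S0087.result (T : Subgroup G) T.card_coprime_index hNC
  exact ⟨T, N, hN, hc⟩

end Cfsg.Agent.S0085
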