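import Cfsg.Statements.S0086
import Mathlib
import Cfsg.Agent.Lib.Lead.SylowAux

set_option autoImplicit false
open Cfsg Cfsg.Agent.Lib.Lead

namespace Cfsg.Agent.S0086

/-- A normal complement to a Sylow p-subgroup is exactly the set of elements of order prime to p. -/
theorem result {G : Type*} [Group G] [Finite G] {p : ℕ} [Fact p.Prime] (P : Sylow p G) (N : Subgroup G) [N.Normal] (hN : N.IsComplement' (P : Subgroup G)) (x : G) : x ∈ N ↔ Nat.Coprime (orderOf x) p := by
  have hidx : (P : Subgroup G).index = Nat.card N := hN.index_eq_card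
  have hNp : Nat.Coprime (Nat.card N) p := by
    rw [← hidx, Nat.coprime_comm, Nat.Prime.coprime_iff_not_dvd Fact.out]
    exact P.not_dvd_index
  constructor
  · intro hx
    have h1 : orderOf x ∣ Nat.card N := by
      have h0 := orderOf_dvd_natCard (⟨x, hx⟩ : N)
      rwa [Subgroup.orderOf_mk] at h0
    exact Nat.Coprime.coprime_dvd_left h1 hNp
  · intro hx
    obtain ⟨k, hk⟩ := P.2.exists_card_eq
    have hq : Nat.card (G ⧸ N) = p ^ k := by rw [← hk]; exact hN.symm.index_eq_card
    rw [← QuotientGroup.eq_one_iff, ← orderOf_eq_one_iff]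
    have h1 : orderOf (x : G ⧸ N) ∣ orderOf x := orderOf_map_dvd (QuotientGroup.mk' N) x
    have h2 : orderOf (x : G ⧸ N) ∣ p ^ k := by rw [← hq]; exact orderOf_dvd_natCard _
    exact Nat.eq_one_of_dvd_coprimes (Nat.Coprime.pow_right k hx) h1 h2

end Cfsg.Agent.S0086
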