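import Cfsg.Statements.S0088
import Mathlib
import Cfsg.Agent.Lib.Lead.SylowAux2
import Cfsg.Agent.Lib.Lead.Transfer

set_option autoImplicit false
open Cfsg Cfsg.Agent.Lib.Lead

namespace Cfsg.Agent.S0088

open scoped Pointwise commutatorElement

/-- An abelian Hall subgroup meets G' ∩ Z(G) trivially. -/
theorem result {G : Type*} [Group G] [Finite G] (H : Subgroup G) (hc : IsMulCommutative H) (hHall : Nat.Coprime (Nat.card H) H.index) : H ⊓ commutator G ⊓ Subgroup.center G = ⊥ := by
  haveI : IsMulCommutative H := hc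
  rw [eq_bot_iff]
  rintro z ⟨⟨hzH, hzc⟩, hzZ⟩
  rw [Subgroup.mem_bot]
  have h1 := central_pow_index_eq_one H z hzZ hzc
  have h3 : orderOf z ∣ H.index := orderOf_dvd_of_pow_eq_one h1
  have h4 : orderOf z ∣ Nat.card H := Subgroup.orderOf_dvd_natCard H hzH
  have h5 : orderOf z = 1 := Nat.eq_one_of_dvd_coprimes hHall h4 h3
  exact orderOf_eq_one_iff.mp h5

end Cfsg.Agent.S0088
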