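import Cfsg.Statements.S0089
import Mathlib
import Cfsg.Agent.Lib.Lead.SylowAux2
import Cfsg.Agent.Lib.Lead.Transfer

set_option autoImplicit false
open Cfsg Cfsg.Agent.Lib.Lead

namespace Cfsg.Agent.S0089

open scoped Pointwise commutatorElement

/-- When all Sylow subgroups are abelian, the derived subgroup meets the centre trivially. -/
theorem result {G : Type*} [Group G] [Finite G] (h : ∀ p : ℕ, p.Prime → ∀ P : Sylow p G, IsMulCommutative P) : commutator G ⊓ Subgroup.center G = ⊥ := by
  rw [eq_bot_iff]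
  rintro z ⟨hzc, hzZ⟩
  rw [Subgroup.mem_bot]
  by_contra hz
  have hne : orderOf z ≠ 1 := fun h1 => hz (orderOf_eq_one_iff.mp h1)
  obtain ⟨p, hp, hpd⟩ := Nat.exists_prime_and_dvd hne
  haveI : Fact p.Prime := ⟨hp⟩
  obtain P : Sylow p G := default
  haveI : IsMulCommutative (P : Subgroup G) := h p hp P
  have h1 := central_pow_index_eq_one (P : Subgroup G) z hzZ hzc
  have h3 : orderOf z ∣ (P : Subgroup G).index := orderOf_dvd_of_pow_eq_one h1
  exact P.not_dvd_index (hpd.trans h3)

end Cfsg.Agent.S0089
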