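import Cfsg.Statements.S0090
import Mathlib
import Cfsg.Agent.Lib.Lead.SylowAux2
import Cfsg.Agent.Lib.Lead.CoprimeAbelian
import Cfsg.Agent.S0088

set_option autoImplicit false
open Cfsg Cfsg.Agent.Lib.Lead

namespace Cfsg.Agent.S0090

open scoped Pointwise commutatorElement

/-- An abelian normal Hall subgroup A splits as the internal direct product of G' ∩ A and Z(G) ∩ A, and [A, G] = G' ∩ A. -/
theorem result {G : Type*} [Group G] [Finite G] (A : Subgroup G) [A.Normal] (hc : IsMulCommutative A) (hHall : Nat.Coprime (Nat.card A) A.index) : ⁅A, (⊤ : Subgroup G)⁆ = commutator G ⊓ A ∧ (commutator G ⊓ A) ⊓ (Subgroup.center G ⊓ A) = ⊥ ∧ (commutator G ⊓ A) ⊔ (Subgroup.center G ⊓ A) = A := by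
  classical
  haveI := hc
  obtain ⟨H, hH⟩ := Subgroup.exists_right_complement'_of_coprime hHall
  have hcardH : Nat.card H = A.index := by
    have h1 := hH.card_mul_card
    have h2 := A.card_mul_index
    exact Nat.eq_of_mul_eq_mul_left Nat.card_pos (h1.trans h2.symm)
  have hcop : (Nat.card H).Coprime (Nat.card A) := by rw [hcardH]; exact hHall.symm
  have hHA : H ≤ Subgroup.normalizer (A : Set G) := by
    rw [Subgroup.normalizer_eq_top]; exact le_top
  have hsup := coprime_abelian_sup H A hHA hcop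
  have hprod : ∀ g : G, ∃ a ∈ A, ∃ h ∈ H, g = a * h := by
    intro g
    have hg : g ∈ A ⊔ H := by rw [hH.sup_eq_top]; trivial
    rw [← SetLike.mem_coe, Subgroup.normal_mul] at hg
    obtain ⟨u, hu, h, hh, rfl⟩ := Set.mem_mul.mp hg
    exact ⟨u, hu, h, hh, rfl⟩
  have hCZ : A ⊓ Subgroup.centralizer (H : Set G) ≤ Subgroup.center G ⊓ A := by
    intro x hx
    rw [Subgroup.mem_inf] at hx
    refine Subgroup.mem_inf.mpr ⟨?_, hx.1⟩
    rw [Subgroup.mem_center_iff]
    intro g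
    obtain ⟨a, ha, h, hh, rfl⟩ := hprod g
    have h1 : a * x = x * a := congrArg Subtype.val (hc.is_comm.comm ⟨a, ha⟩ ⟨x, hx.1⟩)
    have h2 : h * x = x * h := (Subgroup.mem_centralizer_iff.mp hx.2) h hh
    rw [mul_assoc, h2, ← mul_assoc, h1, mul_assoc]
  have hAH : ⁅A, H⁆ ≤ ⁅A, (⊤ : Subgroup G)⁆ := Subgroup.commutator_mono le_rfl le_top
  have hAtop : ⁅A, (⊤ : Subgroup G)⁆ ≤ commutator G ⊓ A := by
    apply le_inf
    · rw [commutator_def]; exact Subgroup.commutator_mono le_top le_rfl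
    · exact Subgroup.commutator_le_left A ⊤
  have h2 : (commutator G ⊓ A) ⊓ (Subgroup.center G ⊓ A) = ⊥ := by
    have h88 := Cfsg.Agent.S0088.result A hc hHall
    rw [eq_bot_iff, ← h88]
    intro x hx
    rw [Subgroup.mem_inf, Subgroup.mem_inf, Subgroup.mem_inf] at hx
    exact Subgroup.mem_inf.mpr ⟨Subgroup.mem_inf.mpr ⟨hx.1.2, hx.1.1⟩, hx.2.1⟩
  have h3 : (commutator G ⊓ A) ⊔ (Subgroup.center G ⊓ A) = A := by
    apply le_antisymm (sup_le inf_le_right inf_le_right)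
    calc A = (A ⊓ Subgroup.centralizer (H : Set G)) ⊔ ⁅A, H⁆ := hsup.symm
      _ ≤ (Subgroup.center G ⊓ A) ⊔ (commutator G ⊓ A) := sup_le_sup hCZ (hAH.trans hAtop)
      _ = _ := sup_comm _ _
  refine ⟨le_antisymm hAtop ?_, h2, h3⟩
  intro x hx
  rw [Subgroup.mem_inf] at hx
  have hxA : x ∈ (Subgroup.center G ⊓ A) ⊔ ⁅A, H⁆ := by
    have : A ≤ (Subgroup.center G ⊓ A) ⊔ ⁅A, H⁆ := by
      calc A = (A ⊓ Subgroup.centralizer (H : Set G)) ⊔ ⁅A, H⁆ := hsup.symm
        _ ≤ _ := sup_le_sup_right hCZ _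
    exact this hx.2
  rw [← SetLike.mem_coe, Subgroup.normal_mul] at hxA
  obtain ⟨c, hc', u, hu, rfl⟩ := Set.mem_mul.mp hxA
  have hc'' : c ∈ Subgroup.center G ⊓ A := hc'
  rw [Subgroup.mem_inf] at hc''
  have hcG : c ∈ commutator G := by
    have hu' : u ∈ commutator G := (Subgroup.mem_inf.mp (hAH.trans hAtop hu)).1
    have : c = (c * u) * u⁻¹ := by group
    rw [this]; exact Subgroup.mul_mem _ hx.1 (Subgroup.inv_mem _ hu')
  have hc1 : c = 1 := by
    have : c ∈ (commutator G ⊓ A) ⊓ (Subgroup.center G ⊓ A) :=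
      Subgroup.mem_inf.mpr ⟨Subgroup.mem_inf.mpr ⟨hcG, hc''.2⟩, hc'⟩
    rw [h2] at this
    exact Subgroup.mem_bot.mp this
  rw [hc1, one_mul]
  exact hAH hu

end Cfsg.Agent.S0090
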