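import Cfsg.Statements.S0091
import Mathlib
import Cfsg.Agent.Lib.Lead.SylowAux2
import Cfsg.Agent.Lib.Lead.Transfer

set_option autoImplicit false
open Cfsg Cfsg.Agent.Lib.Lead

namespace Cfsg.Agent.S0091

open scoped Pointwise commutatorElement

/-- If a nontrivial Sylow p-subgroup controls its own fusion then it is not contained in the derived subgroup. -/
theorem result {G : Type*} [Group G] [Finite G] {p : ℕ} [Fact p.Prime] (P : Sylow p G) (hp : p ∣ Nat.card G) (h : ∀ x ∈ P, ∀ y ∈ P, (∃ g : G, g * x * g⁻¹ = y) → ∃ z ∈ P, z * x * z⁻¹ = y) : ¬ (P : Subgroup G) ≤ commutator G := by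
  intro hle
  have h1 : commutator G ⊓ (P : Subgroup G) = (P : Subgroup G) := inf_eq_right.mpr hle
  rw [Subgroup.commutator_inf_eq_focalSubgroup] at h1
  have h2 : (P : Subgroup G).focalSubgroup ≤ ⁅(P : Subgroup G), (P : Subgroup G)⁆ := by
    rw [Subgroup.focalSubgroup_def, Subgroup.closure_le]
    rintro g ⟨hg, x, hx, u, rfl⟩
    have h3 : u * x⁻¹ * u⁻¹ ∈ (P : Subgroup G) := by
      have h4 : u * x⁻¹ * u⁻¹ = x⁻¹ * ⁅x, u⁆ := by
        rw [commutatorElement_def]; group
      rw [h4]
      exact Subgroup.mul_mem _ (Subgroup.inv_mem _ hx) hg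
    obtain ⟨z, hz, hz2⟩ := h x⁻¹ (Subgroup.inv_mem _ hx) _ h3 ⟨u, rfl⟩
    have h5 : ⁅x, u⁆ = ⁅x, z⁆ := by
      rw [commutatorElement_def, commutatorElement_def]
      have h6 : x * u * x⁻¹ * u⁻¹ = x * (u * x⁻¹ * u⁻¹) := by group
      rw [h6, ← hz2]; group
    rw [h5]
    exact Subgroup.commutator_mem_commutator hx hz
  rw [h1] at h2
  -- P = P' for a nontrivial p-group: contradiction
  have h7 : Nontrivial (P : Subgroup G) := by
    rw [← Finite.one_lt_card_iff_nontrivial]
    have h8 : p ∣ Nat.card (P : Subgroup G) := P.dvd_card_of_dvd_card hp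
    have h9 : Nat.card (P : Subgroup G) ≠ 1 := by
      intro h10; rw [h10] at h8
      exact (Fact.out : p.Prime).one_lt.ne' (Nat.dvd_one.mp h8)
    have h11 : 0 < Nat.card (P : Subgroup G) := Nat.card_pos
    omega
  have hnil : Group.IsNilpotent (P : Subgroup G) := P.2.isNilpotent
  have hsolv : Group.IsSolvable (P : Subgroup G) := inferInstance
  have h12 := Group.IsSolvable.commutator_lt_top_of_nontrivial (P : Subgroup G)
  have h13 : (commutator (P : Subgroup G)).map (P : Subgroup G).subtype = ⁅(P : Subgroup G), (P : Subgroup G)⁆ :=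
    Subgroup.map_subtype_commutator _
  have h14 : ⁅(P : Subgroup G), (P : Subgroup G)⁆ = (P : Subgroup G) :=
    le_antisymm (Subgroup.commutator_le_self _) h2
  rw [h14] at h13
  have h15 : commutator (P : Subgroup G) = ⊤ := by
    rw [eq_top_iff]
    intro y _
    have hy : (y : G) ∈ (commutator (P : Subgroup G)).map (P : Subgroup G).subtype := by
      rw [h13]; exact y.2
    obtain ⟨y', hy', hyy⟩ := hy
    have : y' = y := Subtype.ext hyy
    rw [← this]; exact hy'
  exact h12.ne h15

end Cfsg.Agent.S0091
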