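import Cfsg.Statements.S0092
import Mathlib
import Cfsg.Agent.Lib.Lead.SylowAux2
import Cfsg.Agent.S0075
import Cfsg.Agent.Lib.Lead.PResidual
import Cfsg.Agent.Lib.Lead.SZ2
import Cfsg.Agent.Lib.Lead.CoprimeAbelian
import Cfsg.Agent.Lib.Lead.Glauberman2

set_option autoImplicit false
open Cfsg Cfsg.Agent.Lib.Lead

namespace Cfsg.Agent.S0092

open scoped Pointwise commutatorElement

/-- If the Sylow p-subgroups of O^p(G) are abelian then G splits over O^p(G). -/
theorem result {G : Type*} [Group G] [Finite G] {p : ℕ} [Fact p.Prime] (h : ∀ Q : Sylow p (Cfsg.pResidual p G), IsMulCommutative Q) : ∃ K : Subgroup G, K.IsComplement' (Cfsg.pResidual p G) := by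
  classical
  have hp : p.Prime := Fact.out
  have hres : Cfsg.pResidual p ↥(Cfsg.pResidual p G) = ⊤ := by
    apply Subgroup.map_injective (Cfsg.pResidual p G).subtype_injective
    rw [← MonoidHom.range_eq_map, Subgroup.range_subtype]
    apply le_antisymm (Subgroup.map_subtype_le _)
    show Subgroup.closure {g : G | Nat.Coprime (orderOf g) p} ≤ _
    rw [Subgroup.closure_le]
    intro g hg
    have hgK : g ∈ Cfsg.pResidual p G := Subgroup.subset_closure hg
    refine Subgroup.mem_map.2 ⟨⟨g, hgK⟩, ?_, rfl⟩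
    apply Subgroup.subset_closure
    show Nat.Coprime (orderOf (⟨g, hgK⟩ : ↥(Cfsg.pResidual p G))) p
    rw [← Subgroup.orderOf_coe]
    exact hg
  have hidx : ∃ n, (Cfsg.pResidual p G).index = p ^ n := by
    haveI := pResidual_normal (G := G) p
    exact (IsPGroup.iff_card (p := p)).mp (isPGroup_quotient_pResidual (G := G) p)
  have hnorm : (Cfsg.pResidual p G).Normal := pResidual_normal p
  generalize hK₀def : Cfsg.pResidual p G = K₀ at h hres hidx hnorm ⊢
  haveI hK₀n : K₀.Normal := hnorm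
  obtain ⟨Q₀⟩ : Nonempty (Sylow p ↥K₀) := inferInstance
  haveI hQ₀c : IsMulCommutative ↥(Q₀ : Subgroup ↥K₀) := h Q₀
  have hQ₀eq := Cfsg.Agent.S0075.result Q₀ (h Q₀)
  rw [hres, inf_top_eq] at hQ₀eq
  obtain ⟨Q, hQdef⟩ : ∃ Q : Subgroup G, Q = (Q₀ : Subgroup ↥K₀).map K₀.subtype := ⟨_, rfl⟩
  haveI hQc : IsMulCommutative ↥Q := by rw [hQdef]; infer_instance
  have hQK : Q ≤ K₀ := by rw [hQdef]; exact Subgroup.map_subtype_le _
  have hQp : IsPGroup p ↥Q := by rw [hQdef]; exact Q₀.isPGroup'.map K₀.subtype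
  obtain ⟨N, hNdef⟩ : ∃ N : Subgroup G, N = Subgroup.normalizer (Q : Set G) := ⟨_, rfl⟩
  have hNK₀ : N ⊔ K₀ = ⊤ := by
    rw [hNdef, hQdef]; exact Sylow.normalizer_sup_eq_top Q₀
  have hQN : Q ≤ N := by rw [hNdef]; exact Subgroup.le_normalizer
  obtain ⟨NK, hNKdef⟩ : ∃ NK : Subgroup G, NK = N ⊓ K₀ := ⟨_, rfl⟩
  have hNKN : NK ≤ N := by rw [hNKdef]; exact inf_le_left
  have hNKK : NK ≤ K₀ := by rw [hNKdef]; exact inf_le_right
  have hQNK : Q ≤ NK := by rw [hNKdef]; exact le_inf hQN hQK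
  have hQcomm : Q ≤ ⁅Q, NK⁆ := by
    have h1 := congrArg (Subgroup.map K₀.subtype) hQ₀eq
    rw [← hQdef, Subgroup.map_commutator, ← hQdef] at h1
    have h2 : (Subgroup.normalizer (Q₀ : Set ↥K₀)).map K₀.subtype ≤ NK := by
      rintro _ ⟨x, hx, rfl⟩
      rw [hNKdef]
      refine Subgroup.mem_inf.2 ⟨?_, x.2⟩
      rw [hNdef]
      apply mem_normalizer_of_conj_mem
      intro y hy
      rw [hQdef] at hy ⊢
      obtain ⟨y₀, hy₀, rfl⟩ := hy
      exact ⟨x * y₀ * x⁻¹, conj_mem_of_mem_normalizer (P := (Q₀ : Subgroup ↥K₀)) hx hy₀, rfl⟩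
    exact h1.le.trans (Subgroup.commutator_mono le_rfl h2)
  -- Schur–Zassenhaus inside `NK`
  haveI hQnNK : (Q.subgroupOf NK).Normal :=
    (Subgroup.normal_subgroupOf_iff_le_normalizer hQNK).2 (by rw [← hNdef]; exact hNKN)
  have hQsub : Q.subgroupOf K₀ = (Q₀ : Subgroup ↥K₀) := by
    rw [hQdef]
    exact Subgroup.comap_map_eq_self_of_injective K₀.subtype_injective _
  have hrelK : ¬ p ∣ Q.relIndex K₀ := by
    have h1 : Q.relIndex K₀ = (Q₀ : Subgroup ↥K₀).index := by
      unfold Subgroup.relIndex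
      rw [hQsub]
    rw [h1]
    exact Q₀.not_dvd_index
  have hrel : ¬ p ∣ Q.relIndex NK := by
    intro hd
    apply hrelK
    rw [← Subgroup.relIndex_mul_relIndex (H := Q) (K := NK) (L := K₀) hQNK hNKK]
    exact dvd_mul_of_dvd_left hd _
  obtain ⟨k, hk⟩ := (IsPGroup.iff_card (p := p)).mp hQp
  have hcardsub : Nat.card (Q.subgroupOf NK) = Nat.card Q :=
    Nat.card_congr (Subgroup.subgroupOfEquivOfLe hQNK).toEquiv
  have hcopQ : (Nat.card (Q.subgroupOf NK)).Coprime (Q.subgroupOf NK).index := by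
    rw [hcardsub, hk]
    apply Nat.Coprime.pow_left
    exact (Nat.Prime.coprime_iff_not_dvd hp).2 hrel
  obtain ⟨L', hL'⟩ := Subgroup.exists_right_complement'_of_coprime hcopQ
  obtain ⟨L, hLdef⟩ : ∃ L : Subgroup G, L = L'.map NK.subtype := ⟨_, rfl⟩
  have hLNK : L ≤ NK := by rw [hLdef]; exact Subgroup.map_subtype_le _
  have hcardL : Nat.card L = Nat.card L' := by
    rw [hLdef]; exact Subgroup.card_map_of_injective NK.subtype_injective
  have hcardL' : Nat.card L' = (Q.subgroupOf NK).index := by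
    have h1 := hL'.card_mul_card
    have h2 := Subgroup.card_mul_index (Q.subgroupOf NK)
    have h3 : 0 < Nat.card (Q.subgroupOf NK) := Nat.card_pos
    exact Nat.eq_of_mul_eq_mul_left h3 (h1.trans h2.symm)
  have hcopL : (Nat.card Q).Coprime (Nat.card L) := by
    rw [hcardL, hcardL', ← hcardsub]; exact hcopQ
  have hdecomp : ∀ x ∈ NK, ∃ q ∈ Q, ∃ l ∈ L, x = q * l := by
    intro x hx
    obtain ⟨⟨⟨a, ha⟩, ⟨b, hb⟩⟩, hab, -⟩ := hL'.existsUnique ⟨x, hx⟩
    refine ⟨(a : G), Subgroup.mem_subgroupOf (H := Q) (K := NK).1 ha, (b : G), ?_, ?_⟩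
    · rw [hLdef]; exact Subgroup.mem_map.2 ⟨b, hb, rfl⟩
    · have := congrArg Subtype.val hab
      exact this.symm
  have hLnQ : L ≤ Subgroup.normalizer (Q : Set G) := by rw [← hNdef]; exact hLNK.trans hNKN
  have hQL : Q ≤ ⁅Q, L⁆ := by
    refine hQcomm.trans ?_
    rw [Subgroup.commutator_le]
    intro q hq x hx
    obtain ⟨q', hq', l, hl, rfl⟩ := hdecomp x hx
    have hqq : q * q' = q' * q := setLike_mul_comm (s := Q) hq hq'
    have hcQ : ⁅q, l⁆ ∈ Q := by
      have h2 : ⁅q, l⁆ = q * (l * q⁻¹ * l⁻¹) := by rw [commutatorElement_def]; group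
      rw [h2]
      exact Q.mul_mem hq (conj_mem_of_mem_normalizer (hLnQ hl) (Q.inv_mem hq))
    have h3 : ⁅q, q' * l⁆ = q' * ⁅q, l⁆ * q'⁻¹ := by
      rw [commutatorElement_def, commutatorElement_def]
      have h5 : q * (q' * l) = q' * (q * l) := by rw [← mul_assoc, hqq, mul_assoc]
      rw [h5]; group
    have h4 : q' * ⁅q, l⁆ * q'⁻¹ = ⁅q, l⁆ := by
      rw [setLike_mul_comm (s := Q) hq' hcQ]
      group
    rw [h3, h4]
    exact Subgroup.commutator_mem_commutator hq hl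
  have hQLbot : Q ⊓ L = ⊥ := Subgroup.inf_eq_bot_of_coprime hcopL
  have hcai := coprime_abelian_inf L Q hLnQ hcopL.symm
  have hMQ : ∀ x ∈ Q, x ∈ Subgroup.normalizer (L : Set G) → x = 1 := by
    intro x hxQ hxL
    have hxc : x ∈ Subgroup.centralizer (L : Set G) := by
      rw [Subgroup.mem_centralizer_iff]
      intro l hl
      have h1 : ⁅x, l⁆ ∈ Q := by
        have h2 : ⁅x, l⁆ = x * (l * x⁻¹ * l⁻¹) := by rw [commutatorElement_def]; group
        rw [h2]
        exact Q.mul_mem hxQ (conj_mem_of_mem_normalizer (hLnQ hl) (Q.inv_mem hxQ))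
      have h3 : ⁅x, l⁆ ∈ L := by
        rw [commutatorElement_def]
        exact L.mul_mem (conj_mem_of_mem_normalizer hxL hl) (L.inv_mem hl)
      have h4 : ⁅x, l⁆ ∈ Q ⊓ L := Subgroup.mem_inf.2 ⟨h1, h3⟩
      rw [hQLbot, Subgroup.mem_bot] at h4
      exact (commutatorElement_eq_one_iff_mul_comm.1 h4).symm
    have h5 : x ∈ (Q ⊓ Subgroup.centralizer (L : Set G)) ⊓ ⁅Q, L⁆ :=
      Subgroup.mem_inf.2 ⟨Subgroup.mem_inf.2 ⟨hxQ, hxc⟩, hQL hxQ⟩
    rw [hcai, Subgroup.mem_bot] at h5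
    exact h5
  have hNQM : ∀ n ∈ N, ∃ q ∈ Q, q⁻¹ * n ∈ Subgroup.normalizer (L : Set G) := by
    intro n hn
    have hKle : MulAut.conj n • L ≤ L ⊔ Q := by
      intro x hx
      rw [mem_conj_smul] at hx
      have hxNK : x ∈ NK := by
        have h1 : x = n * (n⁻¹ * x * n) * n⁻¹ := by group
        have h2 := hLNK hx
        rw [hNKdef] at h2
        rw [h1, hNKdef]
        exact Subgroup.mem_inf.2 ⟨N.mul_mem (N.mul_mem hn (Subgroup.mem_inf.1 h2).1) (N.inv_mem hn),
          hK₀n.conj_mem _ (Subgroup.mem_inf.1 h2).2 n⟩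
      obtain ⟨q, hq, l, hl, rfl⟩ := hdecomp x hxNK
      exact Subgroup.mul_mem _ (Subgroup.mem_sup_right hq) (Subgroup.mem_sup_left hl)
    obtain ⟨q, hq, hqe⟩ := szc Q L (MulAut.conj n • L) hLnQ hKle (card_conj_smul n L) hcopL
      (Or.inl (Group.isSolvable_of_comm (fun a b => mul_comm' a b)))
    refine ⟨q, hq, ?_⟩
    apply mem_normalizer_of_conj_mem
    intro l hl
    have h1 : n * l * n⁻¹ ∈ MulAut.conj q • L := by
      rw [hqe]; exact conj_mem_conj_smul hl
    rw [mem_conj_smul] at h1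
    have h2 : q⁻¹ * n * l * (q⁻¹ * n)⁻¹ = q⁻¹ * (n * l * n⁻¹) * q := by group
    rw [h2]; exact h1
  obtain ⟨M, hMdef⟩ : ∃ M : Subgroup G, M = N ⊓ Subgroup.normalizer (L : Set G) := ⟨_, rfl⟩
  have hMN : M ≤ N := by rw [hMdef]; exact inf_le_left
  have hML : M ≤ Subgroup.normalizer (L : Set G) := by rw [hMdef]; exact inf_le_right
  have hMK₀ : M ⊔ K₀ = ⊤ := by
    rw [eq_top_iff, ← hNK₀]
    refine sup_le ?_ le_sup_right
    intro n hn
    obtain ⟨q, hq, hqn⟩ := hNQM n hn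
    have h1 : n = q * (q⁻¹ * n) := by group
    rw [h1]
    apply Subgroup.mul_mem
    · exact Subgroup.mem_sup_right (hQK hq)
    · apply Subgroup.mem_sup_left
      rw [hMdef]
      exact Subgroup.mem_inf.2 ⟨N.mul_mem (N.inv_mem (hQN hq)) hn, hqn⟩
  obtain ⟨PM⟩ : Nonempty (Sylow p ↥M) := inferInstance
  refine ⟨(PM : Subgroup ↥M).map M.subtype, ?_⟩
  apply Subgroup.isComplement'_of_disjoint_and_mul_eq_univ
  · rw [Subgroup.disjoint_def]
    intro x hxH hxK
    obtain ⟨y, hy, rfl⟩ := Subgroup.mem_map.1 hxH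
    have hyM : (y : G) ∈ M := y.2
    have hyNK : (y : G) ∈ NK := by rw [hNKdef]; exact Subgroup.mem_inf.2 ⟨hMN hyM, hxK⟩
    obtain ⟨j, hj⟩ := PM.isPGroup' ⟨y, hy⟩
    have hj' : (y : G) ^ p ^ j = 1 := by
      have := congrArg (fun z : ↥(PM : Subgroup ↥M) => ((z : ↥M) : G)) hj
      simpa using this
    have hyQ : (y : G) ∈ Q := by
      have h1 : (⟨(y : G), hyNK⟩ : ↥NK) ^ (Q.subgroupOf NK).index ∈ Q.subgroupOf NK :=
        Subgroup.pow_index_mem _ _
      have h2 : (y : G) ^ (Q.relIndex NK) ∈ Q := by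
        have h := Subgroup.mem_subgroupOf.1 h1
        first | exact h | (rw [Subgroup.coe_pow] at h; exact h) | simpa using h
      have hcop : Nat.Coprime (Q.relIndex NK) (orderOf (y : G)) :=
        Nat.Coprime.coprime_dvd_right (orderOf_dvd_of_pow_eq_one hj')
          (Nat.Coprime.pow_right j ((Nat.Prime.coprime_iff_not_dvd hp).2 hrel).symm)
      obtain ⟨m, hm⟩ := exists_pow_eq_self_of_coprime hcop
      rw [← hm]
      exact Q.pow_mem h2 m
    exact hMQ _ hyQ (hML hyM)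
  · have hsup : (PM : Subgroup ↥M).map M.subtype ⊔ K₀ = ⊤ := by
      have h1 : (PM : Subgroup ↥M) ⊔ K₀.subgroupOf M = ⊤ := by
        rw [← Subgroup.index_eq_one]
        have ha : ((PM : Subgroup ↥M) ⊔ K₀.subgroupOf M).index ∣ (PM : Subgroup ↥M).index :=
          Subgroup.index_dvd_of_le le_sup_left
        have hb : ((PM : Subgroup ↥M) ⊔ K₀.subgroupOf M).index ∣ (K₀.subgroupOf M).index :=
          Subgroup.index_dvd_of_le le_sup_right
        have hc : (K₀.subgroupOf M).index = K₀.index := by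
          have h := Subgroup.relIndex_sup_right (H := M) (K := K₀)
          rw [hMK₀, Subgroup.relIndex_top_right] at h
          exact h.symm
        obtain ⟨n, hn⟩ := hidx
        rw [hc, hn] at hb
        obtain ⟨i, -, hi⟩ := (Nat.dvd_prime_pow hp).mp hb
        rcases Nat.eq_zero_or_pos i with h0 | h0
        · rw [hi, h0, pow_zero]
        · exfalso
          apply PM.not_dvd_index
          refine dvd_trans ?_ ha
          rw [hi]
          exact dvd_pow_self p h0.ne'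
      have h2 := congrArg (Subgroup.map M.subtype) h1
      rw [Subgroup.map_sup, Subgroup.subgroupOf_map_subtype, ← MonoidHom.range_eq_map,
        Subgroup.range_subtype] at h2
      rw [eq_top_iff, ← hMK₀]
      exact sup_le (h2.ge.trans (sup_le le_sup_left (inf_le_left.trans le_sup_right))) le_sup_right
    rw [← Subgroup.mul_normal, hsup, Subgroup.coe_top]

end Cfsg.Agent.S0092
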