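import Cfsg.Statements.S0093
import Mathlib
import Cfsg.Agent.Lib.Lead.SylowAux2
import Cfsg.Agent.Lib.Helper4.Frattini
import Cfsg.Agent.Lib.Helper3.PGroup

set_option autoImplicit false
open Cfsg Cfsg.Agent.Lib.Lead

namespace Cfsg.Agent.S0093

open scoped Pointwise commutatorElement

/-- Every finite p-group has a critical subgroup: a characteristic subgroup H whose Frattini subgroup and whose commutator with the whole group lie in the centre of H, and whose centralizer is contained in H. -/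
theorem result {P : Type*} [Group P] [Finite P] {p : ℕ} [Fact p.Prime] (hP : IsPGroup p P) : ∃ H : Subgroup P, H.Characteristic ∧ (frattini H).map H.subtype ≤ Subgroup.centralizer (H : Set P) ∧ ⁅H, (⊤ : Subgroup P)⁆ ≤ H ⊓ Subgroup.centralizer (H : Set P) ∧ Subgroup.centralizer (H : Set P) ≤ H := by
  classical
  have hp : p.Prime := Fact.out
  obtain ⟨M, -, hMmax⟩ := (Set.toFinite
    {M : Subgroup P | M.Characteristic ∧ IsMulCommutative M}).exists_le_maximal
    (a := ⊥) ⟨Subgroup.botCharacteristic, Subgroup.le_centralizer_iff_isMulCommutative.1 bot_le⟩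
  obtain ⟨⟨hMchar, hMcomm⟩, hMmax'⟩ := hMmax
  haveI := hMchar
  haveI hMn : M.Normal := inferInstance
  obtain ⟨C, hCdef⟩ : ∃ C : Subgroup P, C = Subgroup.centralizer (M : Set P) := ⟨_, rfl⟩
  have hCchar : C.Characteristic := by rw [hCdef]; infer_instance
  have hMC : M ≤ C := by
    rw [hCdef]; exact Subgroup.le_centralizer_iff_isMulCommutative.2 hMcomm
  obtain ⟨π, hπ⟩ : ∃ π : P →* P ⧸ M, π = QuotientGroup.mk' M := ⟨_, rfl⟩
  have hker : ∀ g : P, π g = 1 ↔ g ∈ M := by
    intro g; rw [hπ]; exact QuotientGroup.eq_one_iff g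
  have hsurj : Function.Surjective π := by rw [hπ]; exact QuotientGroup.mk'_surjective M
  obtain ⟨K, hK⟩ : ∃ K : Subgroup (P ⧸ M),
      ∀ q, q ∈ K ↔ q ^ p = 1 ∧ q ∈ Subgroup.center (P ⧸ M) :=
    ⟨{ carrier := {q | q ^ p = 1 ∧ q ∈ Subgroup.center (P ⧸ M)}
       one_mem' := ⟨one_pow p, Subgroup.one_mem _⟩
       mul_mem' := fun {a b} ha hb => ⟨by
         have hc : Commute a b := Subgroup.mem_center_iff.1 hb.2 a
         rw [hc.mul_pow, ha.1, hb.1, one_mul], Subgroup.mul_mem _ ha.2 hb.2⟩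
       inv_mem' := fun {a} ha => ⟨by rw [inv_pow, ha.1, inv_one], Subgroup.inv_mem _ ha.2⟩ },
     fun q => Iff.rfl⟩
  obtain ⟨T, hTdef⟩ : ∃ T : Subgroup P, T = K.comap π := ⟨_, rfl⟩
  have hT : ∀ x, x ∈ T ↔ x ^ p ∈ M ∧ ∀ g : P, g * x * g⁻¹ * x⁻¹ ∈ M := by
    intro x
    rw [hTdef, Subgroup.mem_comap, hK, ← map_pow, hker, Subgroup.mem_center_iff]
    constructor
    · rintro ⟨h1, h2⟩
      refine ⟨h1, fun g => ?_⟩
      rw [← hker, map_mul, map_mul, map_mul, map_inv, map_inv, h2 (π g)]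
      group
    · rintro ⟨h1, h2⟩
      refine ⟨h1, fun q => ?_⟩
      obtain ⟨g, rfl⟩ := hsurj q
      have h3 := (hker _).2 (h2 g)
      rw [map_mul, map_mul, map_mul, map_inv, map_inv, mul_inv_eq_one,
        mul_inv_eq_iff_eq_mul] at h3
      exact h3
  have hMφ : ∀ φ : P ≃* P, ∀ m ∈ M, φ m ∈ M := by
    intro φ m hm
    exact (Subgroup.characteristic_iff_map_le.1 hMchar φ)
      (Subgroup.mem_map_of_mem φ.toMonoidHom hm)
  have hTchar : T.Characteristic := by
    rw [Subgroup.characteristic_iff_map_le]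
    intro φ y hy
    obtain ⟨x, hx, rfl⟩ := Subgroup.mem_map.1 hy
    show φ x ∈ T
    rw [hT] at hx ⊢
    refine ⟨?_, fun g => ?_⟩
    · have h1 := hMφ φ _ hx.1
      rw [map_pow] at h1
      exact h1
    · have h1 := hMφ φ _ (hx.2 (φ.symm g))
      rw [map_mul, map_mul, map_mul, map_inv, map_inv, MulEquiv.apply_symm_apply] at h1
      exact h1
  haveI := hCchar
  haveI := hTchar
  obtain ⟨H, hHdef⟩ : ∃ H : Subgroup P, H = C ⊓ T := ⟨_, rfl⟩
  have hHchar : H.Characteristic := by rw [hHdef]; infer_instance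
  haveI := hHchar
  have hHT : H ≤ T := by rw [hHdef]; exact inf_le_right
  have hHC : H ≤ C := by rw [hHdef]; exact inf_le_left
  have hMT : M ≤ T := by
    intro m hm
    rw [hT]
    refine ⟨M.pow_mem hm p, fun g => ?_⟩
    exact M.mul_mem (hMn.conj_mem m hm g) (M.inv_mem hm)
  have hMH : M ≤ H := by rw [hHdef]; exact le_inf hMC hMT
  have hMcentH : M ≤ Subgroup.centralizer (H : Set P) := by
    intro m hm
    rw [Subgroup.mem_centralizer_iff]
    intro h hh
    have h1 := hHC hh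
    rw [hCdef, Subgroup.mem_centralizer_iff] at h1
    exact (h1 m hm).symm
  have hZcomm : IsMulCommutative ↥(H ⊓ Subgroup.centralizer (H : Set P)) := by
    apply Subgroup.le_centralizer_iff_isMulCommutative.1
    intro x hx
    rw [Subgroup.mem_centralizer_iff]
    intro y hy
    exact (Subgroup.mem_centralizer_iff.1 hx.2) y (Subgroup.mem_inf.1 hy).1
  have hZchar : (H ⊓ Subgroup.centralizer (H : Set P)).Characteristic := inferInstance
  have hZ : H ⊓ Subgroup.centralizer (H : Set P) = M :=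
    le_antisymm (hMmax' ⟨hZchar, hZcomm⟩ (le_inf hMH hMcentH)) (le_inf hMH hMcentH)
  have hfr : (frattini H).map H.subtype ≤ M := by
    have h1 := Cfsg.Agent.Lib.Helper4.frattini_le_ker_of_elementary hp (π.comp H.subtype) (by
      intro x y
      have hy : (y : P) ∈ T := hHT y.2
      rw [hTdef, Subgroup.mem_comap, hK] at hy
      exact Subgroup.mem_center_iff.1 hy.2 (π x)) (by
      intro x
      have hx : (x : P) ∈ T := hHT x.2
      rw [hTdef, Subgroup.mem_comap, hK] at hx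
      exact hx.1)
    rintro _ ⟨x, hx, rfl⟩
    have h2 := h1 hx
    rw [MonoidHom.mem_ker, MonoidHom.comp_apply] at h2
    exact (hker _).1 h2
  have hcomm : ⁅H, (⊤ : Subgroup P)⁆ ≤ M := by
    rw [Subgroup.commutator_le]
    intro h hh g _
    have h1 := ((hT h).1 (hHT hh)).2 g
    have h2 : ⁅h, g⁆ = (g * h * g⁻¹ * h⁻¹)⁻¹ := by rw [commutatorElement_def]; group
    rw [h2]; exact M.inv_mem h1
  have hcent : Subgroup.centralizer (H : Set P) ≤ H := by
    obtain ⟨Q, hQdef⟩ : ∃ Q : Subgroup P, Q = Subgroup.centralizer (H : Set P) := ⟨_, rfl⟩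
    rw [← hQdef]
    have hQchar : Q.Characteristic := by rw [hQdef]; infer_instance
    haveI := hQchar
    haveI hQn : Q.Normal := inferInstance
    have hQC : Q ≤ C := by
      rw [hQdef, hCdef]
      exact Subgroup.centralizer_le (SetLike.coe_subset_coe.2 hMH)
    suffices hQM : Q ≤ M from hQM.trans hMH
    by_contra hnot
    have hQbar_ne : Q.map π ≠ ⊥ := by
      intro h
      apply hnot
      rw [Subgroup.map_eq_bot_iff] at h
      intro x hx
      exact (hker x).1 (MonoidHom.mem_ker.1 (h hx))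
    haveI : (Q.map π).Normal := Subgroup.Normal.map hQn π hsurj
    have hPq : IsPGroup p (P ⧸ M) := hP.to_quotient M
    obtain ⟨z, hzQ, hz1, hzZ⟩ :=
      Cfsg.Agent.Lib.Helper3.exists_ne_one_mem_center_of_normal hPq (Q.map π) hQbar_ne
    obtain ⟨N, hNdef⟩ : ∃ N : Subgroup (P ⧸ M), N = Q.map π ⊓ Subgroup.center (P ⧸ M) :=
      ⟨_, rfl⟩
    have hzN : z ∈ N := by rw [hNdef]; exact ⟨hzQ, hzZ⟩
    have hNp : IsPGroup p N := hPq.to_subgroup N
    have hdvd : p ∣ Nat.card N := by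
      obtain ⟨k, hk⟩ := IsPGroup.iff_card.1 hNp
      rw [hk]
      apply dvd_pow_self
      rintro rfl
      rw [pow_zero] at hk
      have h0 := Subgroup.eq_bot_of_card_eq N hk
      rw [h0] at hzN
      exact hz1 (Subgroup.mem_bot.1 hzN)
    obtain ⟨y, hy⟩ := exists_prime_orderOf_dvd_card' (G := N) p hdvd
    have hyN : (y : P ⧸ M) ∈ Q.map π ⊓ Subgroup.center (P ⧸ M) := hNdef.le y.2
    obtain ⟨x, hxQ, hxy⟩ := Subgroup.mem_map.1 hyN.1
    rw [← Subgroup.orderOf_coe] at hy
    have hyp : (y : P ⧸ M) ^ p = 1 := by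
      rw [← hy]; exact pow_orderOf_eq_one _
    have hy1 : (y : P ⧸ M) ≠ 1 := by
      intro h
      rw [h, orderOf_one] at hy
      exact hp.one_lt.ne hy
    have hxT : x ∈ T := by
      rw [hTdef, Subgroup.mem_comap, hK, hxy]
      exact ⟨hyp, hyN.2⟩
    have hxH : x ∈ H := by rw [hHdef]; exact ⟨hQC hxQ, hxT⟩
    have hxM : x ∈ M := by
      rw [← hZ]
      refine ⟨hxH, ?_⟩
      rw [← hQdef]; exact hxQ
    apply hy1
    rw [← hxy]; exact (hker x).2 hxM
  exact ⟨H, hHchar, hfr.trans hMcentH, hcomm.trans (le_inf hMH hMcentH), hcent⟩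

end Cfsg.Agent.S0093
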