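import Cfsg.Statements.S0094
import Mathlib
import Cfsg.Agent.Lib.Lead.SylowAux2
import Cfsg.Agent.Lib.Lead.Class2

set_option autoImplicit false
open Cfsg Cfsg.Agent.Lib.Lead

namespace Cfsg.Agent.S0094

open scoped Pointwise commutatorElement

/-- In a special p-group every central element has order dividing p. -/
theorem result {P : Type*} [Group P] [Finite P] {p : ℕ} [Fact p.Prime] (h : Cfsg.IsSpecial p P) (z : P) (hz : z ∈ Subgroup.center P) : z ^ p = 1 := by
  obtain ⟨hP, hfr, hcm⟩ := h
  have hpp : p.Prime := Fact.out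
  have h2 : ⁅commutator P, (⊤ : Subgroup P)⁆ = ⊥ := by
    rw [hcm, eq_bot_iff, Subgroup.commutator_le]
    intro a ha b _
    rw [Subgroup.mem_bot, commutatorElement_def]
    have := Subgroup.mem_center_iff.mp ha b
    rw [← this]; group
  have hcomm : ∀ x y : P, (y * x * y⁻¹ * x⁻¹) ^ p = 1 := by
    intro x y
    obtain ⟨c, hcdef⟩ : ∃ c, c = y * x * y⁻¹ * x⁻¹ := ⟨_, rfl⟩
    rw [← hcdef]
    have hc : y * x = c * x * y := by rw [hcdef]; group
    have hcy : Commute c y := hcdef ▸ comm_central_of_class2 h2 x y y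
    have h1 := class2_pow_left hc hcy p
    have hyp : y ^ p ∈ Subgroup.center P := by
      rw [← hfr]; exact Cfsg.Agent.Lib.Helper7.pow_mem_frattini hP y
    have h3 : x * y ^ p = y ^ p * x := Subgroup.mem_center_iff.mp hyp x
    rw [← h3] at h1
    have h4 : c ^ p * (x * y ^ p) = x * y ^ p := by rw [← mul_assoc]; exact h1.symm
    exact mul_eq_right.mp h4
  have hz' : z ∈ commutator P := by rw [hcm]; exact hz
  rw [commutator_eq_closure] at hz'
  have key : z ∈ Subgroup.center P ∧ z ^ p = 1 := by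
    refine Subgroup.closure_induction (p := fun g _ => g ∈ Subgroup.center P ∧ g ^ p = 1)
      ?_ ?_ ?_ ?_ hz'
    · rintro g ⟨g₁, g₂, rfl⟩
      refine ⟨?_, ?_⟩
      · rw [← hcm, commutator_def]
        exact Subgroup.commutator_mem_commutator (Subgroup.mem_top _) (Subgroup.mem_top _)
      · have := hcomm g₂ g₁
        rw [commutatorElement_def]; exact this
    · exact ⟨Subgroup.one_mem _, one_pow p⟩
    · rintro a b _ _ ⟨ha, hap⟩ ⟨hb, hbp⟩
      refine ⟨Subgroup.mul_mem _ ha hb, ?_⟩
      have hab : Commute a b := (Subgroup.mem_center_iff.mp hb a)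
      rw [hab.mul_pow, hap, hbp, one_mul]
    · rintro a _ ⟨ha, hap⟩
      exact ⟨Subgroup.inv_mem _ ha, by rw [inv_pow, hap, inv_one]⟩
  exact key.2

end Cfsg.Agent.S0094
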