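import Cfsg.Statements.S0097
import Mathlib
import Cfsg.Agent.Lib.Lead.SylowAux2
import Cfsg.Agent.Lib.Lead.Class2

set_option autoImplicit false
open Cfsg Cfsg.Agent.Lib.Lead

namespace Cfsg.Agent.S0097

open scoped Pointwise commutatorElement

/-- For odd p and E extraspecial, the subgroup generated by the elements of order dividing p has exponent dividing p and index at most p. -/
theorem result {E : Type*} [Group E] [Finite E] {p : ℕ} [Fact p.Prime] (hp : p ≠ 2) (h : Cfsg.IsExtraspecial p E) : (Subgroup.closure {x : E | x ^ p = 1}).index ≤ p ∧ ∀ g ∈ Subgroup.closure {x : E | x ^ p = 1}, g ^ p = 1 := by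
  classical
  obtain ⟨⟨hP, hfr, hcm⟩, hZ⟩ := h
  have hpp : p.Prime := Fact.out
  have h2 : ⁅commutator E, (⊤ : Subgroup E)⁆ = ⊥ := by
    rw [hcm, eq_bot_iff, Subgroup.commutator_le]
    intro a ha b _
    rw [Subgroup.mem_bot, commutatorElement_def]
    have := Subgroup.mem_center_iff.mp ha b
    rw [← this]; group
  refine ⟨?_, fun g hg => pow_p_eq_one_of_class2 hpp hp h2 g hg⟩
  have hcenp : ∀ c ∈ Subgroup.center E, c ^ p = 1 := by
    intro c hc
    have h1 : (⟨c, hc⟩ : Subgroup.center E) ^ Nat.card (Subgroup.center E) = 1 := pow_card_eq_one'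
    rw [hZ] at h1
    exact congrArg Subtype.val h1
  have hmul : ∀ x y : E, (x * y) ^ p = x ^ p * y ^ p := by
    intro x y
    obtain ⟨c, hcdef⟩ : ∃ c, c = y * x * y⁻¹ * x⁻¹ := ⟨_, rfl⟩
    have hc : y * x = c * x * y := by rw [hcdef]; group
    have hcx : Commute c x := hcdef ▸ comm_central_of_class2 h2 x y x
    have hcy : Commute c y := hcdef ▸ comm_central_of_class2 h2 x y y
    have hcZ : c ∈ Subgroup.center E := by
      rw [← hcm, commutator_def, hcdef, ← commutatorElement_def]
      exact Subgroup.commutator_mem_commutator (Subgroup.mem_top _) (Subgroup.mem_top _)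
    have hcp : c ^ p = 1 := hcenp c hcZ
    rw [class2_mul_pow hc hcx hcy p]
    obtain ⟨m, hm⟩ := hpp.dvd_choose_self (by norm_num : 2 ≠ 0)
      (lt_of_le_of_ne hpp.two_le (Ne.symm hp))
    rw [hm, pow_mul, hcp, one_pow, mul_one]
  let φ : E →* E := { toFun := fun x => x ^ p, map_one' := one_pow p, map_mul' := hmul }
  have hker : φ.ker ≤ Subgroup.closure {x : E | x ^ p = 1} := by
    intro x hx
    exact Subgroup.subset_closure (MonoidHom.mem_ker.mp hx)
  have hrange : φ.range ≤ Subgroup.center E := by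
    rintro y ⟨x, rfl⟩
    rw [← hfr]
    exact Cfsg.Agent.Lib.Helper7.pow_mem_frattini hP x
  have h1 : (Subgroup.closure {x : E | x ^ p = 1}).index ≤ φ.ker.index :=
    Nat.le_of_dvd (Nat.pos_of_ne_zero Subgroup.index_ne_zero_of_finite) (Subgroup.index_dvd_of_le hker)
  have h3 : φ.ker.index = Nat.card φ.range := Subgroup.index_ker φ
  have h4 : Nat.card φ.range ≤ Nat.card (Subgroup.center E) := Subgroup.card_le_of_le hrange
  omega

end Cfsg.Agent.S0097
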