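import Cfsg.Statements.S0099
import Mathlib
import Cfsg.Agent.Lib.Helper6.Extra2
-- import your own Cfsg.Agent.* helpers here

set_option autoImplicit false
open Cfsg

namespace Cfsg.Agent.S0099

open Cfsg.Agent.S3799 Cfsg.Agent.Lib.Helper6.Extra2

theorem plus_plus {E₁ : Type*} {E₂ : Type*} [Group E₁] [Group E₂] [Finite E₁] [Finite E₂]
    {n₁ n₂ : ℕ} (e₁ : Heis n₁ 2 ≃* E₁) (e₂ : Heis n₂ 2 ≃* E₂) (hc : Nat.card E₁ = Nat.card E₂) :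
    Nonempty (E₁ ≃* E₂) := by
  have h1 : 2 ^ (1 + 2 * n₁) = 2 ^ (1 + 2 * n₂) := by
    rw [← Heis.card_heis (n := n₁) (p := 2), ← Heis.card_heis (n := n₂) (p := 2),
      Nat.card_congr e₁.toEquiv, Nat.card_congr e₂.toEquiv, hc]
  have h2 : n₁ = n₂ := by
    have := Nat.pow_right_injective (le_refl 2) h1
    omega
  subst h2
  exact ⟨e₁.symm.trans e₂⟩

theorem minus_minus {E₁ : Type*} {E₂ : Type*} [Group E₁] [Group E₂] [Finite E₁] [Finite E₂]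
    {n₁ n₂ : ℕ} (e₁ : HQ n₁ ≃* E₁) (e₂ : HQ n₂ ≃* E₂) (hc : Nat.card E₁ = Nat.card E₂) :
    Nonempty (E₁ ≃* E₂) := by
  have h1 : 2 ^ (3 + 2 * n₁) = 2 ^ (3 + 2 * n₂) := by
    rw [← HQ.card_hq (n := n₁), ← HQ.card_hq (n := n₂),
      Nat.card_congr e₁.toEquiv, Nat.card_congr e₂.toEquiv, hc]
  have h2 : n₁ = n₂ := by
    have := Nat.pow_right_injective (le_refl 2) h1
    omega
  subst h2
  exact ⟨e₁.symm.trans e₂⟩

/-- Among three extraspecial 2-groups of equal order, some two are isomorphic. -/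
theorem result {E₁ : Type*} {E₂ : Type*} {E₃ : Type*} [Group E₁] [Group E₂] [Group E₃] [Finite E₁] [Finite E₂] [Finite E₃] (h₁ : Cfsg.IsExtraspecial 2 E₁) (h₂ : Cfsg.IsExtraspecial 2 E₂) (h₃ : Cfsg.IsExtraspecial 2 E₃) (h12 : Nat.card E₁ = Nat.card E₂) (h23 : Nat.card E₂ = Nat.card E₃) : Nonempty (E₁ ≃* E₂) ∨ Nonempty (E₂ ≃* E₃) ∨ Nonempty (E₁ ≃* E₃) := by
  classical
  obtain ⟨n₁, c1⟩ := classify2 h₁
  obtain ⟨n₂, c2⟩ := classify2 h₂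
  obtain ⟨n₃, c3⟩ := classify2 h₃
  have h13 : Nat.card E₁ = Nat.card E₃ := h12.trans h23
  rcases c1 with ⟨⟨e1⟩⟩ | ⟨⟨e1⟩⟩ <;> rcases c2 with ⟨⟨e2⟩⟩ | ⟨⟨e2⟩⟩ <;>
    rcases c3 with ⟨⟨e3⟩⟩ | ⟨⟨e3⟩⟩
  · exact Or.inl (plus_plus e1 e2 h12)
  · exact Or.inl (plus_plus e1 e2 h12)
  · exact Or.inr (Or.inr (plus_plus e1 e3 h13))
  · exact Or.inr (Or.inl (minus_minus e2 e3 h23))
  · exact Or.inr (Or.inl (plus_plus e2 e3 h23))
  · exact Or.inr (Or.inr (minus_minus e1 e3 h13))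
  · exact Or.inl (minus_minus e1 e2 h12)
  · exact Or.inl (minus_minus e1 e2 h12)

end Cfsg.Agent.S0099
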