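import Cfsg.Statements.S0104
import Mathlib
import Cfsg.Agent.Lib.Lead.SylowAux2

set_option autoImplicit false
open Cfsg Cfsg.Agent.Lib.Lead

namespace Cfsg.Agent.S0104

open scoped Pointwise commutatorElement

/-- A subgroup Z of a Sylow p-subgroup P that is normalized by N_G(P) is weakly closed in P exactly when it is normal in every Sylow p-subgroup containing it. -/
theorem result {G : Type*} [Group G] [Finite G] {p : ℕ} [Fact p.Prime] (P : Sylow p G) (Z : Subgroup G) (hZP : Z ≤ (P : Subgroup G)) (hZN : Subgroup.normalizer (P : Set G) ≤ Subgroup.normalizer (Z : Set G)) : Cfsg.IsWeaklyClosed Z P ↔ ∀ R : Sylow p G, Z ≤ (R : Subgroup G) → (R : Subgroup G) ≤ Subgroup.normalizer (Z : Set G) := by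
  constructor
  · rintro ⟨-, hW⟩ R hZR
    obtain ⟨g, hg⟩ := MulAction.exists_smul_eq G R P
    have h1 : Z.map (MulAut.conj g).toMonoidHom ≤ (P : Subgroup G) := by
      rintro _ ⟨z, hz, rfl⟩
      have h0 : g * z * g⁻¹ ∈ MulAut.conj g • (R : Subgroup G) := conj_mem_conj_smul (hZR hz)
      rw [← Sylow.coe_subgroup_smul, hg] at h0
      simpa using h0
    have h2 := hW g h1
    intro r hr
    have h3 : g * r * g⁻¹ ∈ (P : Subgroup G) := by
      have h0 : g * r * g⁻¹ ∈ MulAut.conj g • (R : Subgroup G) := conj_mem_conj_smul hr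
      rw [← Sylow.coe_subgroup_smul, hg] at h0
      exact h0
    have h4 : g * r * g⁻¹ ∈ Subgroup.normalizer (Z : Set G) := hZN (Subgroup.le_normalizer h3)
    have h5 : g ∈ Subgroup.normalizer (Z : Set G) :=
      Subgroup.mem_normalizer_iff_map_conj_eq.mpr h2
    have h6 : r = g⁻¹ * (g * r * g⁻¹) * g := by group
    rw [h6]
    exact Subgroup.mul_mem _ (Subgroup.mul_mem _ (Subgroup.inv_mem _ h5) h4) h5
  · intro h
    refine ⟨hZP, fun g hg => ?_⟩
    have hZR : Z ≤ ((g⁻¹ • P : Sylow p G) : Subgroup G) := by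
      intro z hz
      show z ∈ MulAut.conj g⁻¹ • (P : Subgroup G)
      rw [mem_conj_smul, inv_inv]
      exact hg (Subgroup.mem_map.mpr ⟨z, hz, by simp⟩)
    have hR := h _ hZR
    have hP := h P hZP
    obtain ⟨m, hm, hmR⟩ := sylow_conj_in_subgroup P (g⁻¹ • P) _ hP hR
    rw [← mul_smul] at hmR
    have h1 : m * g⁻¹ ∈ Subgroup.normalizer (P : Set G) :=
      Sylow.smul_eq_iff_mem_normalizer.mp hmR
    have h2 := hZN h1
    have h3 : g ∈ Subgroup.normalizer (Z : Set G) := by
      have h0 : g = (m * g⁻¹)⁻¹ * m := by group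
      rw [h0]
      exact Subgroup.mul_mem _ (Subgroup.inv_mem _ h2) hm
    exact Subgroup.mem_normalizer_iff_map_conj_eq.mp h3

end Cfsg.Agent.S0104
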