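import Cfsg.Statements.S0105
import Mathlib
import Cfsg.Agent.Lib.Lead.SylowAux2
import Cfsg.Agent.Lib.Lead.CoprimeAbelian
import Cfsg.Agent.Lib.Lead.Transfer
import Cfsg.Agent.S0080

set_option autoImplicit false
open Cfsg Cfsg.Agent.Lib.Lead

namespace Cfsg.Agent.S0105

open scoped Pointwise commutatorElement

/-- With an abelian Sylow p-subgroup P, some quotient of G is isomorphic to the part of P central in N_G(P). -/
theorem result {G : Type*} [Group G] [Finite G] {p : ℕ} [Fact p.Prime] (P : Sylow p G) (hP : IsMulCommutative P) : ∃ (N : Subgroup G) (hN : N.Normal), Nonempty (G ⧸ N ≃* ((P : Subgroup G) ⊓ Subgroup.centralizer (Subgroup.normalizer (P : Set G) : Set G) : Subgroup G)) := by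
  classical
  haveI hPc : IsMulCommutative (P : Subgroup G) := hP
  have hcomm : ∀ a ∈ (P : Subgroup G), ∀ b ∈ (P : Subgroup G), a * b = b * a := by
    intro a ha b hb
    exact congrArg Subtype.val (hPc.is_comm.comm ⟨a, ha⟩ ⟨b, hb⟩)
  have hPN : (P : Subgroup G) ≤ Subgroup.normalizer ((P : Subgroup G) : Set G) :=
    Subgroup.le_normalizer
  haveI hnorm : ((P : Subgroup G).subgroupOf
      (Subgroup.normalizer ((P : Subgroup G) : Set G))).Normal := Subgroup.normal_in_normalizer
  have hcardP' : Nat.card ((P : Subgroup G).subgroupOf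
      (Subgroup.normalizer ((P : Subgroup G) : Set G))) = Nat.card (P : Subgroup G) :=
    Nat.card_congr (Subgroup.subgroupOfEquivOfLe hPN).toEquiv
  have hcopidx : Nat.Coprime (Nat.card (P : Subgroup G)) (P : Subgroup G).index :=
    P.card_coprime_index
  have hcop1 : Nat.Coprime (Nat.card ((P : Subgroup G).subgroupOf
      (Subgroup.normalizer ((P : Subgroup G) : Set G))))
      ((P : Subgroup G).subgroupOf (Subgroup.normalizer ((P : Subgroup G) : Set G))).index := by
    rw [hcardP']
    exact Nat.Coprime.coprime_dvd_right (Subgroup.relIndex_dvd_index_of_le hPN) hcopidx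
  obtain ⟨K', hK'⟩ := Subgroup.exists_right_complement'_of_coprime hcop1
  have hKle : K'.map (Subgroup.normalizer ((P : Subgroup G) : Set G)).subtype ≤
      Subgroup.normalizer ((P : Subgroup G) : Set G) := Subgroup.map_subtype_le K'
  have hcardK : Nat.card (K'.map (Subgroup.normalizer ((P : Subgroup G) : Set G)).subtype) =
      ((P : Subgroup G).subgroupOf (Subgroup.normalizer ((P : Subgroup G) : Set G))).index := by
    rw [Subgroup.card_map_of_injective (Subgroup.subtype_injective _)]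
    exact (hK'.symm.index_eq_card).symm
  have hcopK : (Nat.card (K'.map (Subgroup.normalizer ((P : Subgroup G) : Set G)).subtype)).Coprime
      (Nat.card (P : Subgroup G)) := by
    rw [hcardK, ← hcardP']
    exact hcop1.symm
  have hdecomp : ∀ n ∈ Subgroup.normalizer ((P : Subgroup G) : Set G), ∃ x ∈ (P : Subgroup G),
      ∃ k ∈ K'.map (Subgroup.normalizer ((P : Subgroup G) : Set G)).subtype, n = x * k := by
    intro n hn
    obtain ⟨⟨x, k⟩, hxk⟩ := hK'.2 ⟨n, hn⟩
    refine ⟨x.1.1, x.2, k.1.1, ⟨k.1, k.2, rfl⟩, ?_⟩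
    have := congrArg Subtype.val hxk
    simpa using this.symm
  have hinf := coprime_abelian_inf (K'.map (Subgroup.normalizer ((P : Subgroup G) : Set G)).subtype)
    (P : Subgroup G) hKle hcopK
  have hsup := coprime_abelian_sup (K'.map (Subgroup.normalizer ((P : Subgroup G) : Set G)).subtype)
    (P : Subgroup G) hKle hcopK
  generalize K'.map (Subgroup.normalizer ((P : Subgroup G) : Set G)).subtype = K at *
  -- P ⊓ C(K) ≤ C(N)
  have hb : (P : Subgroup G) ⊓ Subgroup.centralizer (K : Set G) ≤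
      (P : Subgroup G) ⊓ Subgroup.centralizer (Subgroup.normalizer ((P : Subgroup G) : Set G) : Set G) := by
    intro z hz
    rw [Subgroup.mem_inf] at hz
    refine Subgroup.mem_inf.mpr ⟨hz.1, ?_⟩
    rw [Subgroup.mem_centralizer_iff]
    intro n hn
    obtain ⟨x, hx, k, hk, rfl⟩ := hdecomp n hn
    have h1 := hcomm x hx z hz.1
    have h2 := (Subgroup.mem_centralizer_iff.mp hz.2) k hk
    rw [mul_assoc, h2, ← mul_assoc, h1, mul_assoc]
  have hb' : (P : Subgroup G) ⊓ Subgroup.centralizer (Subgroup.normalizer ((P : Subgroup G) : Set G) : Set G)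
      ≤ (P : Subgroup G) ⊓ Subgroup.centralizer (K : Set G) :=
    inf_le_inf_left _ (Subgroup.centralizer_le hKle)
  have hKP : ⁅(P : Subgroup G), K⁆ ≤ (P : Subgroup G) :=
    commutator_le_of_le_normalizer (P : Subgroup G) K hKle
  have hc : ⁅(P : Subgroup G), Subgroup.normalizer ((P : Subgroup G) : Set G)⁆ ≤ ⁅(P : Subgroup G), K⁆ := by
    rw [Subgroup.commutator_le]
    intro y hy n hn
    obtain ⟨x, hx, k, hk, rfl⟩ := hdecomp n hn
    have h1 : ⁅y, k⁆ ∈ ⁅(P : Subgroup G), K⁆ := Subgroup.commutator_mem_commutator hy hk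
    have h2 : ⁅y, x * k⁆ = x * ⁅y, k⁆ * x⁻¹ := by
      rw [commutatorElement_def, commutatorElement_def]
      have := hcomm y hy x hx
      calc y * (x * k) * y⁻¹ * (x * k)⁻¹ = (y * x) * k * y⁻¹ * k⁻¹ * x⁻¹ := by group
        _ = (x * y) * k * y⁻¹ * k⁻¹ * x⁻¹ := by rw [this]
        _ = x * (y * k * y⁻¹ * k⁻¹) * x⁻¹ := by group
    have h3 := hcomm x hx _ (hKP h1)
    rw [h2, h3, mul_assoc, mul_inv_cancel, mul_one]
    exact h1
  have hcop80 : Nat.Coprime (P : Subgroup G).index (⁅(P : Subgroup G), (P : Subgroup G)⁆.relIndex (P : Subgroup G)) := by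
    have : ⁅(P : Subgroup G), (P : Subgroup G)⁆ = ⊥ := by
      rw [Subgroup.commutator_eq_bot_iff_le_centralizer]
      intro a ha
      rw [Subgroup.mem_centralizer_iff]
      intro b hb
      exact hcomm b hb a ha
    rw [this, Subgroup.relIndex_bot_left]
    exact hcopidx.symm
  obtain ⟨N₁, hN₁, hN₁P, hN₁top⟩ := (Cfsg.Agent.S0080.result (P : Subgroup G) hcop80).2
  have hfoc := focal_abelian_sylow P hP
  have hPle : (P : Subgroup G) ≤ N₁ ⊔
      ((P : Subgroup G) ⊓ Subgroup.centralizer (Subgroup.normalizer ((P : Subgroup G) : Set G) : Set G)) := by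
    refine le_trans hsup.ge ?_
    apply sup_le
    · exact le_trans hb le_sup_right
    · refine le_trans ?_ le_sup_left
      have : ⁅(P : Subgroup G), K⁆ ≤ commutator G ⊓ (P : Subgroup G) := by
        rw [hfoc]
        exact Subgroup.commutator_mono le_rfl hKle
      rw [← hN₁P] at this
      exact le_trans this inf_le_left
  have htop : N₁ ⊔
      ((P : Subgroup G) ⊓ Subgroup.centralizer (Subgroup.normalizer ((P : Subgroup G) : Set G) : Set G)) = ⊤ := by
    rw [eq_top_iff, ← hN₁top]
    exact sup_le le_sup_left hPle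
  refine ⟨N₁, hN₁, ⟨(MulEquiv.ofBijective ((QuotientGroup.mk' N₁).comp
    ((P : Subgroup G) ⊓ Subgroup.centralizer (Subgroup.normalizer ((P : Subgroup G) : Set G) : Set G)).subtype)
    ⟨?_, ?_⟩).symm⟩⟩
  · rw [injective_iff_map_eq_one]
    intro z hz
    have h1 : (z : G) ∈ N₁ := by
      have : ((z : G) : G ⧸ N₁) = 1 := hz
      exact (QuotientGroup.eq_one_iff _).mp this
    have hzP : (z : G) ∈ (P : Subgroup G) := (Subgroup.mem_inf.mp z.2).1
    have h2 : (z : G) ∈ N₁ ⊓ (P : Subgroup G) := Subgroup.mem_inf.mpr ⟨h1, hzP⟩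
    rw [hN₁P, hfoc] at h2
    have h3 : (z : G) ∈ ((P : Subgroup G) ⊓ Subgroup.centralizer (K : Set G)) ⊓ ⁅(P : Subgroup G), K⁆ :=
      Subgroup.mem_inf.mpr ⟨hb' z.2, hc h2⟩
    rw [hinf, Subgroup.mem_bot] at h3
    exact Subtype.ext h3
  · intro q
    obtain ⟨g, rfl⟩ := QuotientGroup.mk_surjective q
    have hg : g ∈ N₁ ⊔
      ((P : Subgroup G) ⊓ Subgroup.centralizer (Subgroup.normalizer ((P : Subgroup G) : Set G) : Set G)) := by
      rw [htop]; exact Subgroup.mem_top g
    rw [← SetLike.mem_coe, Subgroup.normal_mul] at hg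
    obtain ⟨n, hn, z, hz, rfl⟩ := Set.mem_mul.mp hg
    refine ⟨⟨z, hz⟩, ?_⟩
    show ((z : G) : G ⧸ N₁) = ((n * z : G) : G ⧸ N₁)
    rw [QuotientGroup.eq]
    have := hN₁.conj_mem n hn z⁻¹
    simpa [mul_assoc] using this

end Cfsg.Agent.S0105
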