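import Cfsg.Statements.S0110
import Mathlib
import Cfsg.Agent.Lib.Lead.SylowAux2
import Cfsg.Agent.Lib.Lead.ExtraCentral

set_option autoImplicit false
open Cfsg Cfsg.Agent.Lib.Lead

namespace Cfsg.Agent.S0110

open scoped Pointwise commutatorElement

/-- In a p-group G, an extraspecial subgroup E with [G, E] ≤ Z(E) satisfies G = E C_G(E). -/
theorem result {G : Type*} [Group G] [Finite G] {p : ℕ} [Fact p.Prime] (hG : IsPGroup p G) (E : Subgroup G) (hE : Cfsg.IsExtraspecial p E) (h : ⁅(⊤ : Subgroup G), E⁆ ≤ E ⊓ Subgroup.centralizer (E : Set G)) : E ⊔ Subgroup.centralizer (E : Set G) = ⊤ := by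
  classical
  rw [eq_top_iff]
  intro g _
  have hge : ∀ e ∈ E, g * e * g⁻¹ * e⁻¹ ∈ E ⊓ Subgroup.centralizer (E : Set G) := by
    intro e he
    exact h (Subgroup.commutator_mem_commutator (Subgroup.mem_top g) he)
  have hgE : ∀ e ∈ E, g * e * g⁻¹ ∈ E := by
    intro e he
    have h1 := (hge e he).1
    have h2 : g * e * g⁻¹ = (g * e * g⁻¹ * e⁻¹) * e := by group
    rw [h2]; exact E.mul_mem h1 he
  let φ : ↥E →* ↥E := MonoidHom.mk' (fun e => ⟨g * e * g⁻¹, hgE e e.2⟩) (by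
    intro e e'
    apply Subtype.ext
    show g * ((e : G) * (e' : G)) * g⁻¹ = (g * e * g⁻¹) * (g * e' * g⁻¹)
    group)
  have hφval : ∀ e : ↥E, ((φ e : ↥E) : G) = g * e * g⁻¹ := fun e => rfl
  have hφ : ∀ e : ↥E, φ e * e⁻¹ ∈ Subgroup.center ↥E := by
    intro e
    rw [Subgroup.mem_center_iff]
    intro x
    apply Subtype.ext
    show (x : G) * (g * e * g⁻¹ * (e : G)⁻¹) = (g * e * g⁻¹ * (e : G)⁻¹) * x
    have h1 := (hge e e.2).2
    exact (Subgroup.mem_centralizer_iff.mp h1 x x.2)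
  obtain ⟨u, hu⟩ := extraspecial_central_aut hE φ hφ
  have hc : (u : G)⁻¹ * g ∈ Subgroup.centralizer (E : Set G) := by
    rw [Subgroup.mem_centralizer_iff]
    intro e he
    have h1 : g * e * g⁻¹ = (u : G) * e * (u : G)⁻¹ := congrArg Subtype.val (hu ⟨e, he⟩)
    calc e * ((u : G)⁻¹ * g) = (u : G)⁻¹ * ((u : G) * e * (u : G)⁻¹) * g := by group
      _ = (u : G)⁻¹ * (g * e * g⁻¹) * g := by rw [h1]
      _ = (u : G)⁻¹ * g * e := by group
  have hg : g = (u : G) * ((u : G)⁻¹ * g) := by group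
  rw [hg]
  exact Subgroup.mul_mem_sup u.2 hc

end Cfsg.Agent.S0110
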