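import Cfsg.Statements.S0111
import Mathlib
import Cfsg.Agent.Lib.Lead.SylowAux2
import Cfsg.Agent.Lib.Lead.ThompsonTr

set_option autoImplicit false
open Cfsg Cfsg.Agent.Lib.Lead

namespace Cfsg.Agent.S0111

open scoped Pointwise commutatorElement

/-- The Thompson transfer lemma states that an involution of a Sylow 2-subgroup P lying outside a subgroup Q of index 2 in P either lies outside some normal subgroup of index 2 in G or is conjugate to an element of Q. -/
theorem result {G : Type*} [Group G] [Finite G] (P : Sylow 2 G) (Q : Subgroup G) (hQP : Q ≤ (P : Subgroup G)) (hQi : Q.relIndex (P : Subgroup G) = 2) (u : G) (hu : orderOf u = 2) (huP : u ∈ (P : Subgroup G)) (huQ : u ∉ Q) : (∃ M : Subgroup G, M.Normal ∧ M.index = 2 ∧ u ∉ M) ∨ ∃ g : G, g * u * g⁻¹ ∈ Q := by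
  refine thompson_transfer_normal P Q hQi 1 le_rfl ?_ u (by rw [hu, pow_one])
  intro y _ hyQ
  have hy1 : y ≠ 1 := fun h => hyQ (h ▸ Q.one_mem)
  have h1 : orderOf y ≠ 1 := fun h => hy1 (orderOf_eq_one_iff.mp h)
  have h2 : 0 < orderOf y := orderOf_pos y
  simp only [Nat.sub_self, pow_zero]
  omega

end Cfsg.Agent.S0111
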