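import Cfsg.Statements.S0119
import Mathlib
import Cfsg.Agent.Lib.Lead.SylowAux2
import Cfsg.Agent.S0093
import Cfsg.Agent.Lib.Helper4.Frattini
import Cfsg.Agent.Lib.Helper7.ElemAbCount
import Cfsg.Agent.Lib.Lead.Class2

set_option autoImplicit false
open Cfsg Cfsg.Agent.Lib.Lead

namespace Cfsg.Agent.S0119

open scoped Pointwise commutatorElement

/-- If a p'-group A of automorphisms of a p-group G satisfies G = [G, A] and acts trivially on every characteristic abelian subgroup, then G is special with centre equal to the fixed points of A. -/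
theorem result {G : Type*} [Group G] [Finite G] {p : ℕ} [Fact p.Prime] (hG : IsPGroup p G) (A : Subgroup (MulAut G)) (hA : Nat.Coprime (Nat.card A) p) (hGA : Subgroup.closure {x : G | ∃ g : G, ∃ a ∈ A, x = g⁻¹ * a g} = ⊤) (hchar : ∀ H : Subgroup G, H.Characteristic → IsMulCommutative H → ∀ a ∈ A, ∀ h ∈ H, a h = h) : Cfsg.IsSpecial p G ∧ (∀ g : G, (g ∈ Subgroup.center G ↔ ∀ a ∈ A, a g = g)) := by
  classical
  have hp : p.Prime := Fact.out
  -- Step 1: characteristic abelian subgroups are central
  have step1 : ∀ N : Subgroup G, N.Characteristic → IsMulCommutative N →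
      N ≤ Subgroup.center G := by
    intro N hNc hNa n hn
    haveI := hNc
    have hNn : N.Normal := inferInstance
    have hle : Subgroup.closure {x : G | ∃ g : G, ∃ a ∈ A, x = g⁻¹ * a g} ≤
        Subgroup.centralizer {n} := by
      rw [Subgroup.closure_le]
      rintro _ ⟨g, a, ha, rfl⟩
      show g⁻¹ * a g ∈ Subgroup.centralizer {n}
      rw [Subgroup.mem_centralizer_iff]
      intro m hm
      rw [Set.mem_singleton_iff.1 hm]
      have h1 : a (g * n * g⁻¹) = g * n * g⁻¹ :=
        hchar N hNc hNa a ha _ (hNn.conj_mem n hn g)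
      have h2 : a n = n := hchar N hNc hNa a ha n hn
      rw [map_mul, map_mul, map_inv, h2] at h1
      calc n * (g⁻¹ * a g) = g⁻¹ * (g * n * g⁻¹) * a g := by group
        _ = g⁻¹ * (a g * n * (a g)⁻¹) * a g := by rw [h1]
        _ = g⁻¹ * a g * n := by group
    rw [hGA] at hle
    rw [Subgroup.mem_center_iff]
    intro g
    have h3 := hle (Subgroup.mem_top g)
    rw [Subgroup.mem_centralizer_iff] at h3
    exact (h3 n rfl).symm
  -- Step 2: critical subgroup
  obtain ⟨H, hHchar, hfr, hcomm, hcent⟩ := Cfsg.Agent.S0093.result hG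
  haveI := hHchar
  have hZcomm : IsMulCommutative ↥(H ⊓ Subgroup.centralizer (H : Set G)) := by
    apply Subgroup.le_centralizer_iff_isMulCommutative.1
    intro x hx
    rw [Subgroup.mem_centralizer_iff]
    intro y hy
    exact (Subgroup.mem_centralizer_iff.1 hx.2) y (Subgroup.mem_inf.1 hy).1
  have hZchar : (H ⊓ Subgroup.centralizer (H : Set G)).Characteristic := inferInstance
  have hZle : H ⊓ Subgroup.centralizer (H : Set G) ≤ Subgroup.center G :=
    step1 _ hZchar hZcomm
  have hcentZ : Subgroup.centralizer (H : Set G) ≤ Subgroup.center G :=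
    (le_inf hcent le_rfl).trans hZle
  have hHG : ⁅H, (⊤ : Subgroup G)⁆ ≤ Subgroup.center G := hcomm.trans hZle
  -- Step 3: G' ≤ Z(G)
  have h3 : commutator G ≤ Subgroup.center G := by
    have hb1 : ⁅⁅(⊤ : Subgroup G), H⁆, (⊤ : Subgroup G)⁆ = ⊥ := by
      rw [Subgroup.commutator_comm ⊤ H, Subgroup.commutator_eq_bot_iff_le_centralizer,
        Subgroup.coe_top, Subgroup.centralizer_univ]
      exact hHG
    have hb2 : ⁅⁅H, (⊤ : Subgroup G)⁆, (⊤ : Subgroup G)⁆ = ⊥ := by
      rw [Subgroup.commutator_eq_bot_iff_le_centralizer, Subgroup.coe_top,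
        Subgroup.centralizer_univ]
      exact hHG
    have hb3 := Subgroup.commutator_commutator_eq_bot_of_rotate hb1 hb2
    rw [Subgroup.commutator_eq_bot_iff_le_centralizer] at hb3
    rw [commutator_def]
    exact hb3.trans hcentZ
  -- Step 4: p-th powers are central
  have h4 : ∀ g : G, g ^ p ∈ Subgroup.center G := by
    intro g
    apply hcentZ
    rw [Subgroup.mem_centralizer_iff]
    intro h hh
    obtain ⟨c, hcdef⟩ : ∃ c : G, c = g * h * g⁻¹ * h⁻¹ := ⟨_, rfl⟩
    have hcZ : c ∈ Subgroup.center G := by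
      apply hHG
      have e : c = ⁅h, g⁆⁻¹ := by rw [hcdef, commutatorElement_def]; group
      rw [e]
      exact Subgroup.inv_mem _ (Subgroup.commutator_mem_commutator hh (Subgroup.mem_top g))
    have hcc : ∀ x : G, x * c = c * x := Subgroup.mem_center_iff.1 hcZ
    have e1 : g * h * g⁻¹ = c * h := by rw [hcdef]; group
    have hhp : h ^ p ∈ Subgroup.center G := by
      apply hcentZ
      apply hfr
      exact ⟨⟨h, hh⟩ ^ p, Cfsg.Agent.Lib.Helper7.pow_mem_frattini (hG.to_subgroup H) ⟨h, hh⟩, rfl⟩
    have e2 : c ^ p = 1 := by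
      have h1 : (g * h * g⁻¹) ^ p = g * h ^ p * g⁻¹ := conj_pow
      rw [e1, (show Commute c h from (hcc h).symm).mul_pow] at h1
      have h2 : g * h ^ p * g⁻¹ = h ^ p := by
        rw [Subgroup.mem_center_iff.1 hhp g]; group
      rw [h2] at h1
      exact mul_right_cancel (h1.trans (one_mul _).symm)
    have e3 : h⁻¹ * g * h = c * g := by
      calc h⁻¹ * g * h = h⁻¹ * (g * h * g⁻¹) * g := by group
        _ = h⁻¹ * (c * h) * g := by rw [e1]
        _ = (h⁻¹ * c) * h * g := by group
        _ = (c * h⁻¹) * h * g := by rw [hcc h⁻¹]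
        _ = c * g := by group
    have e4 : h⁻¹ * g ^ p * h = g ^ p := by
      have h1 : (h⁻¹ * g * h⁻¹⁻¹) ^ p = h⁻¹ * g ^ p * h⁻¹⁻¹ := conj_pow
      rw [inv_inv] at h1
      rw [← h1, e3, (show Commute c g from (hcc g).symm).mul_pow, e2, one_mul]
    calc h * g ^ p = h * (h⁻¹ * g ^ p * h) := by rw [e4]
      _ = g ^ p * h := by group
  -- Step 5: fixed points lie in the commutator subgroup
  have hL : ∀ g : G, (∀ a ∈ A, a g = g) → g ∈ commutator G := by
    intro g hg
    haveI : Fintype A := Fintype.ofFinite A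
    obtain ⟨N, hN⟩ : ∃ N : Abelianization G →* Abelianization G,
        ∀ v, N v = ∏ a : A, Abelianization.map ((a : MulAut G).toMonoidHom) v :=
      ⟨∏ a : A, Abelianization.map ((a : MulAut G).toMonoidHom),
        fun v => MonoidHom.finsetProd_apply _ _ _⟩
    have hNof : ∀ x : G, N (Abelianization.of x) =
        ∏ a : A, Abelianization.of ((a : MulAut G) x) := by
      intro x
      rw [hN]
      apply Finset.prod_congr rfl
      intro a _
      rfl
    have hgen : ∀ x : G, N (Abelianization.of x) = 1 := by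
      have hle : Subgroup.closure {x : G | ∃ g : G, ∃ a ∈ A, x = g⁻¹ * a g} ≤
          (N.comp Abelianization.of).ker := by
        rw [Subgroup.closure_le]
        rintro _ ⟨y, b, hb, rfl⟩
        show y⁻¹ * b y ∈ (N.comp Abelianization.of).ker
        rw [MonoidHom.mem_ker, MonoidHom.comp_apply, map_mul, map_mul, map_inv, map_inv,
          inv_mul_eq_one, hNof, hNof]
        symm
        exact Fintype.prod_equiv (Equiv.mulRight (⟨b, hb⟩ : A)) _ _ (fun a => rfl)
      rw [hGA] at hle
      intro x
      have h1 := hle (Subgroup.mem_top x)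
      rw [MonoidHom.mem_ker, MonoidHom.comp_apply] at h1
      exact h1
    have h0 : ∀ a : A, Abelianization.of ((a : MulAut G) g) = Abelianization.of g :=
      fun a => by rw [hg a a.2]
    have h1 : N (Abelianization.of g) = (Abelianization.of g) ^ Nat.card A := by
      rw [hNof, Finset.prod_congr rfl (fun a _ => h0 a), Finset.prod_const, Finset.card_univ,
        Nat.card_eq_fintype_card]
    rw [hgen g] at h1
    have h2 : g ^ Nat.card A ∈ commutator G := by
      rw [← Abelianization.ker_of, MonoidHom.mem_ker, map_pow]; exact h1.symm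
    have hcop : (Nat.card A).Coprime (orderOf g) := by
      obtain ⟨k, hk⟩ := IsPGroup.iff_card.1 hG
      have hd : orderOf g ∣ p ^ k := by rw [← hk]; exact orderOf_dvd_natCard g
      exact Nat.Coprime.coprime_dvd_right hd (Nat.Coprime.pow_right k hA)
    obtain ⟨m, hm⟩ := exists_pow_eq_self_of_coprime hcop
    rw [← hm]
    exact Subgroup.pow_mem _ h2 m
  have hfix : ∀ g ∈ Subgroup.center G, ∀ a ∈ A, a g = g := by
    intro g hg a ha
    exact hchar (Subgroup.center G) inferInstance inferInstance a ha g hg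
  have hcomm_eq : commutator G = Subgroup.center G :=
    le_antisymm h3 (fun g hg => hL g (hfix g hg))
  obtain ⟨π, hπ⟩ : ∃ π : G →* G ⧸ Subgroup.center G,
      π = QuotientGroup.mk' (Subgroup.center G) := ⟨_, rfl⟩
  have hker : ∀ g : G, π g = 1 ↔ g ∈ Subgroup.center G := by
    intro g; rw [hπ]; exact QuotientGroup.eq_one_iff g
  have hπker : π.ker = Subgroup.center G := by rw [hπ]; exact QuotientGroup.ker_mk' _
  refine ⟨⟨hG, ?_, hcomm_eq⟩, ?_⟩
  · apply le_antisymm
    · have h5 := Cfsg.Agent.Lib.Helper4.frattini_le_ker_of_elementary hp π (by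
        intro x y
        have e : x * y = ⁅x, y⁆ * (y * x) := by rw [commutatorElement_def]; group
        have hxy : ⁅x, y⁆ ∈ commutator G := by
          rw [commutator_def]
          exact Subgroup.commutator_mem_commutator (Subgroup.mem_top _) (Subgroup.mem_top _)
        rw [← map_mul, ← map_mul, e, map_mul π ⁅x, y⁆ (y * x), (hker _).2 (h3 hxy), one_mul]) (by
        intro x
        rw [← map_pow]; exact (hker _).2 (h4 x))
      rw [hπker] at h5
      exact h5
    · rw [← hcomm_eq]; exact commutator_le_frattini_of_pGroup hG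
  · intro g
    exact ⟨fun hg => hfix g hg, fun hg => h3 (hL g hg)⟩

end Cfsg.Agent.S0119
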