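import Mathlib
import Cfsg.Statements.S0120
import Cfsg.Agent.Lib.Helper3.HallHigman

set_option autoImplicit false
open Cfsg

namespace Cfsg.Agent.S0120

/-- For odd p, a p'-automorphism of a p-group acting trivially on the elements of order dividing p is trivial. -/
theorem result {G : Type*} [Group G] [Finite G] {p : ℕ} [Fact p.Prime] (hp : p ≠ 2) (hG : IsPGroup p G) (a : MulAut G) (ha : Nat.Coprime (orderOf a) p) (h : ∀ x : G, x ^ p = 1 → a x = x) : a = 1 := by
  classical
  by_contra hne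
  haveI : Finite (MulAut G) :=
    Finite.of_injective (fun e : MulAut G => (e : G → G)) DFunLike.coe_injective
  haveI : Finite (G ⋊[(Subgroup.zpowers a).subtype] ↥(Subgroup.zpowers a)) :=
    Finite.of_equiv _ SemidirectProduct.equivProd.symm
  obtain ⟨y, hy⟩ : ∃ y : G ⋊[(Subgroup.zpowers a).subtype] ↥(Subgroup.zpowers a),
      y = SemidirectProduct.inr (⟨a, Subgroup.mem_zpowers a⟩ : ↥(Subgroup.zpowers a)) :=
    ⟨_, rfl⟩
  have hconj : ∀ n : G, y * SemidirectProduct.inl n * y⁻¹
      = (SemidirectProduct.inl (a n) : G ⋊[(Subgroup.zpowers a).subtype] ↥(Subgroup.zpowers a)) := by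
    intro n
    have h1 := SemidirectProduct.inl_aut (φ := (Subgroup.zpowers a).subtype)
      (⟨a, Subgroup.mem_zpowers a⟩ : ↥(Subgroup.zpowers a)) n
    rw [map_inv] at h1
    rw [hy]
    exact h1.symm
  have hQ : IsPGroup p ↥((SemidirectProduct.inl :
      G →* G ⋊[(Subgroup.zpowers a).subtype] ↥(Subgroup.zpowers a)).range) := by
    rintro ⟨q, n, rfl⟩
    obtain ⟨k, hk⟩ := hG n
    refine ⟨k, Subtype.ext ?_⟩
    show (SemidirectProduct.inl n :
      G ⋊[(Subgroup.zpowers a).subtype] ↥(Subgroup.zpowers a)) ^ p ^ k = 1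
    rw [← map_pow, hk, map_one]
  have hyQ : ∀ q ∈ (SemidirectProduct.inl :
      G →* G ⋊[(Subgroup.zpowers a).subtype] ↥(Subgroup.zpowers a)).range,
      y * q * y⁻¹ ∈ (SemidirectProduct.inl :
        G →* G ⋊[(Subgroup.zpowers a).subtype] ↥(Subgroup.zpowers a)).range := by
    rintro _ ⟨n, rfl⟩
    exact ⟨a n, (hconj n).symm⟩
  have hycop : (orderOf y).Coprime p := by
    rw [hy, orderOf_injective _ SemidirectProduct.inr_injective, Subgroup.orderOf_mk]
    exact ha
  have hnc : ¬ ∀ q ∈ (SemidirectProduct.inl :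
      G →* G ⋊[(Subgroup.zpowers a).subtype] ↥(Subgroup.zpowers a)).range,
      y * q * y⁻¹ = q := by
    intro hall
    apply hne
    apply MulEquiv.ext
    intro n
    have h1 := hall (SemidirectProduct.inl n) ⟨n, rfl⟩
    rw [hconj] at h1
    exact SemidirectProduct.inl_injective h1
  obtain ⟨R, hRQ, hyR, hncR, hexp⟩ :=
    Cfsg.Agent.Lib.Helper3.exists_small_exponent_not_centralized _ hQ y hyQ hycop hnc
  apply hncR
  intro r hr
  obtain ⟨n, rfl⟩ := hRQ hr
  rcases hexp _ hr with h1 | ⟨h2, -⟩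
  · have h3 : n ^ p = 1 := SemidirectProduct.inl_injective (by rw [map_pow, h1, map_one])
    rw [hconj, h n h3]
  · exact absurd h2 hp

end Cfsg.Agent.S0120
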