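import Cfsg.Statements.S0121
import Mathlib

set_option autoImplicit false
open Cfsg

namespace Cfsg.Agent.S0121

/-- A p'-automorphism of a p-group acting trivially on a critical subgroup is trivial. -/
theorem result {G : Type*} [Group G] [Finite G] {p : ℕ} [Fact p.Prime] (hG : IsPGroup p G) (H : Subgroup G) (hH : H.Characteristic) (h1 : (frattini H).map H.subtype ≤ Subgroup.centralizer (H : Set G)) (h2 : ⁅H, (⊤ : Subgroup G)⁆ ≤ H ⊓ Subgroup.centralizer (H : Set G)) (h3 : Subgroup.centralizer (H : Set G) ≤ H) (a : MulAut G) (ha : Nat.Coprime (orderOf a) p) (h : ∀ x ∈ H, a x = x) : a = 1 := by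
  have hHn : H.Normal := Subgroup.normal_of_characteristic H
  ext g
  rw [MulAut.one_apply]
  obtain ⟨c, hc⟩ : ∃ c : G, c = g⁻¹ * a g := ⟨_, rfl⟩
  have hag : a g = g * c := by rw [hc]; group
  have hcC : c ∈ Subgroup.centralizer (H : Set G) := by
    rw [Subgroup.mem_centralizer_iff]
    intro x hx
    have h4 : g * x * g⁻¹ ∈ H := hHn.conj_mem x hx g
    have h5 := h _ h4
    rw [map_mul, map_mul, map_inv, h x hx, hag] at h5
    -- g * c * x * (g * c)⁻¹ = g * x * g⁻¹
    have h6 : c * x * c⁻¹ = x := by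
      have h7 : c * x * c⁻¹ = g⁻¹ * (g * c * x * (g * c)⁻¹) * g := by group
      rw [h7, h5]; group
    calc x * c = (c * x * c⁻¹) * c := by rw [h6]
      _ = c * x := by group
  have hac : a c = c := h c (h3 hcC)
  have hk : ∀ k : ℕ, (a ^ k) g = g * c ^ k := by
    intro k
    induction k with
    | zero => simp
    | succ k ih =>
      rw [pow_succ', MulAut.mul_apply, ih, map_mul, map_pow, hac, hag, pow_succ']
      group
  have h8 := hk (orderOf a)
  rw [pow_orderOf_eq_one, MulAut.one_apply] at h8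
  have h9 : c ^ orderOf a = 1 := by
    have : g * c ^ orderOf a = g * 1 := by rw [mul_one]; exact h8.symm
    exact mul_left_cancel this
  obtain ⟨j, hj⟩ := hG c
  have h10 : orderOf c ∣ orderOf a := orderOf_dvd_of_pow_eq_one h9
  have h11 : orderOf c ∣ p ^ j := orderOf_dvd_of_pow_eq_one hj
  have h12 : orderOf c ∣ 1 := by
    have := Nat.dvd_gcd h10 h11
    rwa [Nat.Coprime.pow_right j ha] at this
  have h13 : c = 1 := orderOf_eq_one_iff.mp (Nat.dvd_one.mp h12)
  rw [hag, h13, mul_one]

end Cfsg.Agent.S0121
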