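import Cfsg.Statements.S0123
import Mathlib
import Cfsg.Agent.Lib.Helper6.Collect3
-- import your own Cfsg.Agent.* helpers here

set_option autoImplicit false
open Cfsg

namespace Cfsg.Agent.S0123



/-- For a p-group of small class relative to p (class ≤ 2 with p odd, or class ≤ 3 with p > 3) whose derived subgroup is generated by elements of order dividing p, the p-th power map is multiplicative. -/
theorem result {R : Type*} [Group R] [Finite R] {p : ℕ} [Fact p.Prime] (hR : IsPGroup p R) (hcl : (p ≠ 2 ∧ ⁅commutator R, (⊤ : Subgroup R)⁆ = ⊥) ∨ (3 < p ∧ ⁅⁅commutator R, (⊤ : Subgroup R)⁆, (⊤ : Subgroup R)⁆ = ⊥)) (hder : commutator R ≤ Subgroup.closure {x : R | x ^ p = 1}) (x y : R) : (x * y) ^ p = x ^ p * y ^ p := by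
  have hp' : p.Prime := Fact.out
  rcases hcl with ⟨hp2, hc2⟩ | ⟨hp3, hc3⟩
  · have h2 : 2 < p := lt_of_le_of_ne hp'.two_le (Ne.symm hp2)
    have hcl3 : ⁅⁅commutator R, (⊤ : Subgroup R)⁆, (⊤ : Subgroup R)⁆ = ⊥ := by
      rw [hc2, Subgroup.commutator_bot_left]
    have hK := Cfsg.Agent.Lib.Helper6.k3p_of_bot (p := p) hc2
    exact Cfsg.Agent.Lib.Helper6.mul_pow_class3 hp' h2 hcl3 hK
      (fun u hu => Cfsg.Agent.Lib.Helper6.closure_pow_eq_one_class3 hp' h2 hcl3 hK u (hder hu)) x y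
  · have h2 : 2 < p := by omega
    have hK := Cfsg.Agent.Lib.Helper6.k3p_of_lt (R := R) hp' hp3
    exact Cfsg.Agent.Lib.Helper6.mul_pow_class3 hp' h2 hc3 hK
      (fun u hu => Cfsg.Agent.Lib.Helper6.closure_pow_eq_one_class3 hp' h2 hc3 hK u (hder hu)) x y

end Cfsg.Agent.S0123
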