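import Cfsg.Statements.S0125
import Mathlib
import Cfsg.Agent.Lib.Lead.SylowAux2
import Cfsg.Agent.Lib.Lead.FusionCtrl
import Cfsg.Agent.Lib.Lead.SZ

set_option autoImplicit false
open Cfsg Cfsg.Agent.Lib.Lead

namespace Cfsg.Agent.S0125

open scoped Pointwise commutatorElement

/-- The centralizer of a self-centralizing normal subgroup A of a Sylow p-subgroup is the direct product of A with a normal p'-subgroup. -/
theorem result {G : Type*} [Group G] [Finite G] {p : ℕ} [Fact p.Prime] (R : Sylow p G) (A : Subgroup G) (hAR : A ≤ (R : Subgroup G)) (hAn : (R : Subgroup G) ≤ Subgroup.normalizer (A : Set G)) (hC : (R : Subgroup G) ⊓ Subgroup.centralizer (A : Set G) = A) : ∃ H : Subgroup G, H ≤ Subgroup.centralizer (A : Set G) ∧ Nat.Coprime (Nat.card H) p ∧ Subgroup.centralizer (A : Set G) ≤ Subgroup.normalizer (H : Set G) ∧ H ⊓ A = ⊥ ∧ H ⊔ A = Subgroup.centralizer (A : Set G) := by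
  classical
  have hp : p.Prime := Fact.out
  have hAC : A ≤ Subgroup.centralizer (A : Set G) := fun a ha =>
    (Subgroup.mem_inf.mp (hC.ge ha)).2
  have hcommA : ∀ a ∈ A, ∀ c ∈ Subgroup.centralizer (A : Set G), a * c = c * a := by
    intro a ha c hc
    exact (Subgroup.mem_centralizer_iff.mp hc) a ha
  have hCNm : Subgroup.centralizer (A : Set G) ≤ Subgroup.normalizer (A : Set G) := by
    apply le_normalizer_of_conj_mem
    intro c hc a ha
    rw [← hcommA a ha c hc, mul_assoc, mul_inv_cancel, mul_one]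
    exact ha
  haveI hCnorm : ((Subgroup.centralizer (A : Set G)).subgroupOf (Subgroup.normalizer (A : Set G))).Normal := by
    constructor
    intro c hc n
    rw [Subgroup.mem_subgroupOf] at hc ⊢
    rw [Subgroup.mem_centralizer_iff]
    intro a ha
    have hn : ((n : G))⁻¹ * a * ((n : G))⁻¹⁻¹ ∈ A :=
      conj_mem_of_mem_normalizer (Subgroup.inv_mem _ n.2) ha
    have h1 := hcommA _ hn _ hc
    show a * ((n : G) * (c : G) * (n : G)⁻¹) = (n : G) * (c : G) * (n : G)⁻¹ * a
    calc a * ((n : G) * (c : G) * (n : G)⁻¹)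
        = (n : G) * (((n : G))⁻¹ * a * ((n : G))⁻¹⁻¹ * (c : G)) * (n : G)⁻¹ := by group
      _ = (n : G) * ((c : G) * (((n : G))⁻¹ * a * ((n : G))⁻¹⁻¹)) * (n : G)⁻¹ := by rw [h1]
      _ = (n : G) * (c : G) * (n : G)⁻¹ * a := by group
  have h1 := sylow_inf_normal (R.subtype hAn)
    ((Subgroup.centralizer (A : Set G)).subgroupOf (Subgroup.normalizer (A : Set G)))
  rw [Sylow.coe_subtype] at h1
  have h2 : (R : Subgroup G).subgroupOf (Subgroup.normalizer (A : Set G)) ⊓
      (Subgroup.centralizer (A : Set G)).subgroupOf (Subgroup.normalizer (A : Set G)) =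
      A.subgroupOf (Subgroup.normalizer (A : Set G)) := by
    ext x
    rw [Subgroup.mem_inf, Subgroup.mem_subgroupOf, Subgroup.mem_subgroupOf, Subgroup.mem_subgroupOf,
      ← Subgroup.mem_inf, hC]
  rw [h2, Subgroup.relIndex_subgroupOf hCNm] at h1
  -- A central in C
  haveI hAnorm : (A.subgroupOf (Subgroup.centralizer (A : Set G))).Normal := by
    constructor
    intro a ha c
    rw [Subgroup.mem_subgroupOf] at ha ⊢
    have := hcommA _ ha _ c.2
    show (c : G) * (a : G) * (c : G)⁻¹ ∈ A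
    rw [← this, mul_assoc, mul_inv_cancel, mul_one]
    exact ha
  have hcardA' : Nat.card (A.subgroupOf (Subgroup.centralizer (A : Set G))) = Nat.card A :=
    Nat.card_congr (Subgroup.subgroupOfEquivOfLe hAC).toEquiv
  have hApg : IsPGroup p A := R.2.to_le hAR
  obtain ⟨n, hn⟩ := IsPGroup.iff_card.mp hApg
  have hcop1 : Nat.Coprime (Nat.card (A.subgroupOf (Subgroup.centralizer (A : Set G))))
      (A.subgroupOf (Subgroup.centralizer (A : Set G))).index := by
    rw [hcardA', hn]
    exact Nat.Coprime.pow_left n ((Nat.Prime.coprime_iff_not_dvd hp).mpr h1)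
  obtain ⟨H', hH'⟩ := Subgroup.exists_right_complement'_of_coprime hcop1
  have hHle : H'.map (Subgroup.centralizer (A : Set G)).subtype ≤ Subgroup.centralizer (A : Set G) :=
    Subgroup.map_subtype_le H'
  have hcardH : Nat.card (H'.map (Subgroup.centralizer (A : Set G)).subtype) =
      (A.subgroupOf (Subgroup.centralizer (A : Set G))).index := by
    rw [Subgroup.card_map_of_injective (Subgroup.subtype_injective _)]
    exact (hH'.symm.index_eq_card).symm
  have hdecomp : ∀ c ∈ Subgroup.centralizer (A : Set G), ∃ a ∈ A,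
      ∃ h ∈ H'.map (Subgroup.centralizer (A : Set G)).subtype, c = a * h := by
    intro c hc
    obtain ⟨⟨x, k⟩, hxk⟩ := hH'.2 ⟨c, hc⟩
    refine ⟨x.1.1, x.2, k.1.1, ⟨k.1, k.2, rfl⟩, ?_⟩
    have := congrArg Subtype.val hxk
    simpa using this.symm
  have hdisj : H'.map (Subgroup.centralizer (A : Set G)).subtype ⊓ A = ⊥ := by
    rw [eq_bot_iff]
    intro x hx
    rw [Subgroup.mem_inf] at hx
    obtain ⟨⟨h, hh, rfl⟩, hxA⟩ := hx
    have h3 : h ∈ A.subgroupOf (Subgroup.centralizer (A : Set G)) ⊓ H' :=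
      Subgroup.mem_inf.mpr ⟨Subgroup.mem_subgroupOf.mpr hxA, hh⟩
    rw [hH'.disjoint.eq_bot, Subgroup.mem_bot] at h3
    rw [h3]; simp
  refine ⟨H'.map (Subgroup.centralizer (A : Set G)).subtype, hHle, ?_, ?_, hdisj, ?_⟩
  · rw [hcardH]
    exact (Nat.Prime.coprime_iff_not_dvd hp).mpr h1 |>.symm
  · generalize H'.map (Subgroup.centralizer (A : Set G)).subtype = H at *
    apply le_normalizer_of_conj_mem
    intro c hc x hx
    obtain ⟨a, ha, h, hh, rfl⟩ := hdecomp c hc
    have h4 : h * x * h⁻¹ ∈ H := Subgroup.mul_mem _ (Subgroup.mul_mem _ hh hx) (Subgroup.inv_mem _ hh)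
    have h5 := hcommA a ha _ (hHle h4)
    have h6 : a * h * x * (a * h)⁻¹ = a * (h * x * h⁻¹) * a⁻¹ := by group
    rw [h6, h5, mul_assoc, mul_inv_cancel, mul_one]
    exact h4
  · apply le_antisymm
    · exact sup_le hHle hAC
    · intro c hc
      obtain ⟨a, ha, h, hh, rfl⟩ := hdecomp c hc
      exact Subgroup.mul_mem _ (Subgroup.mem_sup_right ha) (Subgroup.mem_sup_left hh)

end Cfsg.Agent.S0125
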