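import Cfsg.Statements.S0129
import Mathlib
import Cfsg.Agent.Lib.Lead.NormalChain
import Cfsg.Agent.Lib.Helper5.DStar
-- import your own Cfsg.Agent.* helpers here

set_option autoImplicit false
open Cfsg

namespace Cfsg.Agent.S0129


open Cfsg.Agent.Lib in
theorem relIndex_le_aux {G : Type*} [Group G] [Finite G] (B₁ B : Subgroup G) (x₀ : G)
    (hgen : B ≤ Subgroup.zpowers x₀ ⊔ B₁) (hB₁B : B₁ ≤ B) (hx₀ : x₀ ∈ B)
    (hcomm : ∀ g : G, g * x₀ * g⁻¹ * x₀⁻¹ ∈ B₁) :
    (Subgroup.centralizer (B : Set G)).relIndex (Subgroup.centralizer (B₁ : Set G)) ≤ Nat.card B₁ := by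
  classical
  set C₁ := Subgroup.centralizer (B₁ : Set G) with hC₁
  set C := Subgroup.centralizer (B : Set G) with hC
  have hkey : ∀ g h : C₁, ((g : G) * x₀ * (g : G)⁻¹ * x₀⁻¹ = (h : G) * x₀ * (h : G)⁻¹ * x₀⁻¹) ↔
      g⁻¹ * h ∈ C.subgroupOf C₁ := by
    intro g h
    rw [Subgroup.mem_subgroupOf]
    constructor
    · intro e
      have e1 : (g : G) * x₀ * (g : G)⁻¹ = (h : G) * x₀ * (h : G)⁻¹ := mul_right_cancel e
      have e2 : x₀ * ((g : G)⁻¹ * (h : G)) = ((g : G)⁻¹ * (h : G)) * x₀ := by
        have h0 : x₀ = (g : G)⁻¹ * ((h : G) * x₀ * (h : G)⁻¹) * (g : G) := by rw [← e1]; group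
        calc x₀ * ((g : G)⁻¹ * (h : G))
            = (g : G)⁻¹ * ((h : G) * x₀ * (h : G)⁻¹) * (g : G) * ((g : G)⁻¹ * (h : G)) := by rw [← h0]
          _ = ((g : G)⁻¹ * (h : G)) * x₀ := by group
      have hc₁ : ((g⁻¹ * h : C₁) : G) ∈ C₁ := (g⁻¹ * h).2
      have hcc : ((g⁻¹ * h : C₁) : G) = (g : G)⁻¹ * (h : G) := by simp
      rw [hcc] at hc₁ ⊢
      have hle : B ≤ Subgroup.centralizer ({(g : G)⁻¹ * (h : G)} : Set G) := by
        refine hgen.trans (sup_le ?_ ?_)
        · rw [Subgroup.zpowers_le, Subgroup.mem_centralizer_iff]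
          intro y hy
          rw [Set.mem_singleton_iff] at hy
          rw [hy]; exact e2.symm
        · intro z hz
          rw [Subgroup.mem_centralizer_iff]
          intro y hy
          rw [Set.mem_singleton_iff] at hy
          rw [hy]
          exact ((Subgroup.mem_centralizer_iff.mp hc₁) z hz).symm
      rw [hC, Subgroup.mem_centralizer_iff]
      intro y hy
      have h5 := Subgroup.mem_centralizer_iff.mp (hle hy) _ rfl
      exact h5.symm
    · intro hmem
      have hcc : ((g⁻¹ * h : C₁) : G) = (g : G)⁻¹ * (h : G) := by simp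
      rw [hcc, hC, Subgroup.mem_centralizer_iff] at hmem
      have e2 := hmem x₀ hx₀
      have h6 : (h : G) * x₀ * (h : G)⁻¹ = (g : G) * x₀ * (g : G)⁻¹ := by
        calc (h : G) * x₀ * (h : G)⁻¹ = (g : G) * ((g : G)⁻¹ * (h : G) * x₀) * (h : G)⁻¹ := by group
          _ = (g : G) * (x₀ * ((g : G)⁻¹ * (h : G))) * (h : G)⁻¹ := by rw [e2]
          _ = (g : G) * x₀ * (g : G)⁻¹ := by group
      rw [h6]
  let f : C₁ ⧸ (C.subgroupOf C₁) → B₁ :=
    Quotient.lift (fun g : C₁ => (⟨(g : G) * x₀ * (g : G)⁻¹ * x₀⁻¹, hcomm g⟩ : B₁)) (by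
      intro g h hgh
      have hgh' : g⁻¹ * h ∈ C.subgroupOf C₁ := QuotientGroup.leftRel_apply.mp hgh
      exact Subtype.ext ((hkey g h).mpr hgh'))
  have hf : Function.Injective f := by
    intro q₁ q₂
    refine QuotientGroup.induction_on q₁ ?_
    intro g
    refine QuotientGroup.induction_on q₂ ?_
    intro h e
    have e' : (g : G) * x₀ * (g : G)⁻¹ * x₀⁻¹ = (h : G) * x₀ * (h : G)⁻¹ * x₀⁻¹ :=
      congrArg Subtype.val e
    exact QuotientGroup.eq.mpr ((hkey g h).mp e')
  have h7 := Nat.card_le_card_of_injective f hf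
  exact h7

open Cfsg.Agent.Lib in
theorem index_centralizer_le_aux {G : Type*} [Group G] [Finite G] {p : ℕ} [Fact p.Prime]
    (hG : IsPGroup p G) :
    ∀ b : ℕ, ∀ B : Subgroup G, B.Normal → (∀ x ∈ B, ∀ y ∈ B, x * y = y * x) → Nat.card B = p ^ b →
      (Subgroup.centralizer (B : Set G)).index ≤ p ^ (b * (b - 1) / 2) := by
  classical
  have hp : p.Prime := Fact.out
  intro b
  induction b with
  | zero =>
    intro B hBn hBc hcard
    have hB : B = ⊥ := by
      rw [pow_zero] at hcard
      exact Subgroup.card_eq_one.mp hcard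
    subst hB
    have h1 : Subgroup.centralizer ((⊥ : Subgroup G) : Set G) = ⊤ := by
      rw [Subgroup.coe_bot]
      exact Subgroup.centralizer_eq_top_iff_subset.mpr (by
        intro x hx; rw [Set.mem_singleton_iff] at hx; rw [hx]; exact Subgroup.one_mem _)
    rw [h1, Subgroup.index_top]
    simp
  | succ b ih =>
    intro B hBn hBc hcard
    haveI := hBn
    obtain ⟨B₁, hB₁n, hB₁B, hB₁card⟩ := Lead.exists_normal_le_card_pow hG B b
      (by rw [hcard]; exact Nat.pow_le_pow_right hp.pos (Nat.le_succ b))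
    haveI := hB₁n
    have ih' := ih B₁ hB₁n (fun x hx y hy => hBc x (hB₁B hx) y (hB₁B hy)) hB₁card
    have hne : ¬ (B ≤ B₁) := by
      intro hle
      have h1 : B = B₁ := le_antisymm hle hB₁B
      rw [h1, hB₁card] at hcard
      have h2 := Nat.pow_right_injective hp.two_le hcard
      omega
    obtain ⟨x₀, hx₀B, hx₀⟩ := SetLike.not_le_iff_exists.mp hne
    have hgen : B ≤ Subgroup.zpowers x₀ ⊔ B₁ := by
      set H := Subgroup.zpowers x₀ ⊔ B₁ with hH
      have hHB : H ≤ B := sup_le (by rw [Subgroup.zpowers_le]; exact hx₀B) hB₁B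
      have hB₁H : B₁ ≤ H := le_sup_right
      obtain ⟨k, hk⟩ := IsPGroup.iff_card.mp (hG.to_subgroup H)
      have h1 : p ^ b ∣ p ^ k := by rw [← hB₁card, ← hk]; exact Subgroup.card_dvd_of_le hB₁H
      have h2 : p ^ k ∣ p ^ (b+1) := by rw [← hcard, ← hk]; exact Subgroup.card_dvd_of_le hHB
      have h1' : b ≤ k := (Nat.pow_dvd_pow_iff_le_right hp.one_lt).mp h1
      have h2' : k ≤ b + 1 := (Nat.pow_dvd_pow_iff_le_right hp.one_lt).mp h2
      have h3 : k ≠ b := by
        intro hkb
        have h4 : B₁ = H := Subgroup.eq_of_le_of_card_ge hB₁H (by rw [hk, hB₁card, hkb])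
        apply hx₀
        rw [h4]
        exact Subgroup.mem_sup_left (Subgroup.mem_zpowers x₀)
      have h4 : k = b + 1 := by omega
      have h5 : H = B := Subgroup.eq_of_le_of_card_ge hHB (by rw [hk, hcard, h4])
      rw [h5]
    have hcomm : ∀ g : G, g * x₀ * g⁻¹ * x₀⁻¹ ∈ B₁ := by
      intro g
      set q := QuotientGroup.mk' B₁ with hq
      have hQ : IsPGroup p (G ⧸ B₁) := hG.to_quotient B₁
      haveI : (B.map q).Normal := Subgroup.Normal.map hBn q (QuotientGroup.mk'_surjective B₁)
      have hNcard : Nat.card (B.map q) = p := by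
        have hidx : (B.map q).index = B.index := by
          rw [Subgroup.index_map, QuotientGroup.ker_mk', QuotientGroup.range_mk', Subgroup.index_top,
            mul_one, sup_eq_left.mpr hB₁B]
        have e1 := Subgroup.card_mul_index (B.map q)
        have e2 := Subgroup.card_mul_index B
        have e3 := Subgroup.card_eq_card_quotient_mul_card_subgroup B₁
        rw [hidx] at e1
        rw [hcard] at e2
        rw [hB₁card, ← e1, ← e2] at e3
        have hpos : 0 < B.index := Nat.pos_of_ne_zero Subgroup.index_ne_zero_of_finite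
        have hpb : 0 < p ^ b := pow_pos hp.pos b
        have h8 : p ^ b * B.index * p = p ^ b * B.index * Nat.card (B.map q) := by
          rw [pow_succ] at e3; linarith
        exact (Nat.eq_of_mul_eq_mul_left (Nat.mul_pos hpb hpos) h8).symm
      have hcen := Lead.normal_card_prime_le_center hQ (B.map q) hNcard
      have hx : q x₀ ∈ Subgroup.center (G ⧸ B₁) := hcen (Subgroup.mem_map_of_mem q hx₀B)
      have hc := Subgroup.mem_center_iff.mp hx (q g)
      have h9 : q (g * x₀ * g⁻¹ * x₀⁻¹) = 1 := by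
        rw [map_mul, map_mul, map_mul, hc, map_inv, map_inv]; group
      rw [hq, QuotientGroup.mk'_apply, QuotientGroup.eq_one_iff] at h9
      exact h9
    have hrel := relIndex_le_aux B₁ B x₀ hgen hB₁B hx₀B hcomm
    have hCle : Subgroup.centralizer (B : Set G) ≤ Subgroup.centralizer (B₁ : Set G) :=
      Subgroup.centralizer_le (by exact_mod_cast hB₁B)
    have hmul := Subgroup.relIndex_mul_index hCle
    rw [← hmul]
    have harith : (b + 1) * (b + 1 - 1) / 2 = b + b * (b - 1) / 2 := by
      have h10 : (b + 1) * (b + 1 - 1) = b * (b - 1) + 2 * b := by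
        cases b with
        | zero => simp
        | succ c => simp only [Nat.add_sub_cancel]; ring
      rw [h10, Nat.add_mul_div_left _ _ (by norm_num : 0 < 2)]; ring
    rw [harith, pow_add]
    rw [hB₁card] at hrel
    exact Nat.mul_le_mul hrel ih'

/-- The order of a p-group is bounded by p^(a(a+1)/2) when it has a maximal normal abelian subgroup of order p^a. -/
theorem result {G : Type*} [Group G] [Finite G] {p : ℕ} [Fact p.Prime] (hG : IsPGroup p G) (A : Subgroup G) [A.Normal] (hA : IsMulCommutative A) (hmax : ∀ B : Subgroup G, B.Normal → IsMulCommutative B → A ≤ B → B = A) (a : ℕ) (ha : Nat.card A = p ^ a) : Nat.card G ≤ p ^ (a * (a + 1) / 2) := by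
  classical
  have hp : p.Prime := Fact.out
  have hAc : ∀ x ∈ A, ∀ y ∈ A, x * y = y * x := fun x hx y hy =>
    congrArg Subtype.val (mul_comm' (⟨x, hx⟩ : A) ⟨y, hy⟩)
  have hmax' : ∀ B : Subgroup G, B.Normal → (∀ x ∈ B, ∀ y ∈ B, x * y = y * x) → A ≤ B → B = A := by
    intro B hBn hBc hAB
    exact hmax B hBn ⟨⟨fun a b => Subtype.ext (hBc a a.2 b b.2)⟩⟩ hAB
  have hCA := Cfsg.Agent.Lib.Helper5.centralizer_le_of_max_normal_abelian hG A inferInstance hAc hmax'
  have hidx := index_centralizer_le_aux hG a A inferInstance hAc ha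
  have hdvd : A.index ∣ (Subgroup.centralizer (A : Set G)).index := Subgroup.index_dvd_of_le hCA
  have hle : A.index ≤ (Subgroup.centralizer (A : Set G)).index :=
    Nat.le_of_dvd (Nat.pos_of_ne_zero Subgroup.index_ne_zero_of_finite) hdvd
  have hcard := Subgroup.card_mul_index A
  have harith : a * (a + 1) / 2 = a + a * (a - 1) / 2 := by
    have h10 : a * (a + 1) = a * (a - 1) + 2 * a := by
      cases a with
      | zero => simp
      | succ c => simp only [Nat.add_sub_cancel]; ring
    rw [h10, Nat.add_mul_div_left _ _ (by norm_num : 0 < 2)]; ring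
  rw [← hcard, ha, harith, pow_add]
  exact Nat.mul_le_mul_left _ (hle.trans hidx)

end Cfsg.Agent.S0129
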