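import Cfsg.Statements.S0131
import Mathlib
import Cfsg.Agent.Lib.Lead.SylowAux2
import Cfsg.Agent.Lib.Lead.Transfer

set_option autoImplicit false
open Cfsg Cfsg.Agent.Lib.Lead

namespace Cfsg.Agent.S0131

open scoped Pointwise commutatorElement

/-- P/P' has a normal complement in G exactly when the focal subgroup G' ∩ P is as small as possible, namely P'. -/
theorem result {G : Type*} [Group G] [Finite G] {p : ℕ} [Fact p.Prime] (P : Sylow p G) : (∃ N : Subgroup G, N.Normal ∧ N ⊓ (P : Subgroup G) = ⁅(P : Subgroup G), (P : Subgroup G)⁆ ∧ N ⊔ (P : Subgroup G) = ⊤) ↔ commutator G ⊓ (P : Subgroup G) = ⁅(P : Subgroup G), (P : Subgroup G)⁆ := by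
  constructor
  · rintro ⟨N, hN, h1, h2⟩
    apply le_antisymm
    · rw [← h1]
      apply inf_le_inf_right
      rw [← Subgroup.Normal.quotient_commutative_iff_commutator_le]
      rw [isMulCommutative_iff]
      intro a b
      obtain ⟨g, rfl⟩ := QuotientGroup.mk_surjective a
      obtain ⟨k, rfl⟩ := QuotientGroup.mk_surjective b
      have hg : g ∈ (N ⊔ (P : Subgroup G)) := by rw [h2]; trivial
      have hk : k ∈ (N ⊔ (P : Subgroup G)) := by rw [h2]; trivial
      rw [← SetLike.mem_coe, Subgroup.normal_mul, Set.mem_mul] at hg hk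
      obtain ⟨n1, hn1, t1, ht1, rfl⟩ := hg
      obtain ⟨n2, hn2, t2, ht2, rfl⟩ := hk
      have e1 : ((n1 * t1 : G) : G ⧸ N) = (t1 : G ⧸ N) := by
        rw [QuotientGroup.mk_mul, (QuotientGroup.eq_one_iff n1).mpr hn1, one_mul]
      have e2 : ((n2 * t2 : G) : G ⧸ N) = (t2 : G ⧸ N) := by
        rw [QuotientGroup.mk_mul, (QuotientGroup.eq_one_iff n2).mpr hn2, one_mul]
      rw [e1, e2, ← QuotientGroup.mk_mul, ← QuotientGroup.mk_mul, QuotientGroup.eq]
      have h3 : (t1 * t2)⁻¹ * (t2 * t1) = ⁅t2⁻¹, t1⁻¹⁆ := by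
        rw [commutatorElement_def]; group
      rw [h3]
      have h4 : ⁅t2⁻¹, t1⁻¹⁆ ∈ ⁅(P : Subgroup G), (P : Subgroup G)⁆ :=
        Subgroup.commutator_mem_commutator (Subgroup.inv_mem _ ht2) (Subgroup.inv_mem _ ht1)
      rw [← h1] at h4
      exact h4.1
    · exact le_inf (Subgroup.commutator_mono le_top le_top) (Subgroup.commutator_le_self _)
  · intro hfoc
    have h' : Nat.Coprime (P : Subgroup G).index ((P : Subgroup G).focalSubgroup.relIndex P) := by
      have hd : (P : Subgroup G).focalSubgroup.relIndex P ∣ Nat.card (P : Subgroup G) :=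
        Subgroup.relIndex_dvd_card _ _
      obtain ⟨n, hn⟩ := (IsPGroup.iff_card (p := p)).mp P.2
      rw [hn] at hd
      obtain ⟨j, _, hj⟩ := (Nat.dvd_prime_pow Fact.out).mp hd
      rw [hj]
      apply Nat.Coprime.pow_right
      exact ((Nat.Prime.coprime_iff_not_dvd Fact.out).mpr P.not_dvd_index).symm
    obtain ⟨h1, h2, h3⟩ := focal_coprime (P : Subgroup G) h'
    refine ⟨(P : Subgroup G).transferFocal.ker, inferInstance, ?_, h3⟩
    rw [h2, h1, hfoc]

end Cfsg.Agent.S0131
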