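import Cfsg.Statements.S0156
import Mathlib
import Cfsg.Agent.Lib.Lead.SylowAux2
import Cfsg.Agent.Lib.Lead.CharInd3

set_option autoImplicit false
open Cfsg Cfsg.Agent.Lib.Lead

namespace Cfsg.Agent.S0156

open scoped Pointwise commutatorElement

/-- The character of the left regular representation is the sum over the irreducible characters χ of χ 1 • χ. -/
theorem result {G : Type*} [Group G] [Fintype G] : (Representation.leftRegular ℂ G).character = ∑ᶠ χ : Cfsg.IrrCharacter G, (χ : G → ℂ) 1 • (χ : G → ℂ) := by
  classical
  haveI : Fintype (Cfsg.IrrCharacter G) := Fintype.ofFinite _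
  rw [finsum_eq_sum_of_fintype]
  exact char_leftRegular_eq_sum

end Cfsg.Agent.S0156
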