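import Cfsg.Statements.S0158
import Mathlib
import Cfsg.Agent.Lib.Lead.SylowAux2
import Cfsg.Agent.Lib.Lead.CharFS

set_option autoImplicit false
open Cfsg Cfsg.Agent.Lib.Lead

namespace Cfsg.Agent.S0158

open scoped Pointwise commutatorElement

/-- The Frobenius–Schur indicator of an irreducible complex representation of a finite group — the average over s of the character at s * s — is 0, 1 or −1, and it vanishes exactly when some character value is not real. -/
theorem result {G : Type*} [Group G] [Fintype G] {V : Type*} [AddCommGroup V] [Module ℂ V] [FiniteDimensional ℂ V] (ρ : Representation ℂ G V) [ρ.IsIrreducible] : ((Nat.card G : ℂ)⁻¹ * ∑ s : G, ρ.character (s * s) = 0 ∨ (Nat.card G : ℂ)⁻¹ * ∑ s : G, ρ.character (s * s) = 1 ∨ (Nat.card G : ℂ)⁻¹ * ∑ s : G, ρ.character (s * s) = -1) ∧ ((Nat.card G : ℂ)⁻¹ * ∑ s : G, ρ.character (s * s) = 0 ↔ ∃ s : G, (ρ.character s).im ≠ 0) := by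
  obtain ⟨a, b, h1, h2⟩ := frobenius_schur_aux ρ
  rw [h1]
  by_cases hc : ∀ g, (starRingEnd ℂ) (ρ.character g) = ρ.character g
  · rw [if_pos hc] at h2
    have h3 : a + b = 1 := by exact_mod_cast h2
    have hno : ¬ ∃ s : G, (ρ.character s).im ≠ 0 := by
      rintro ⟨s, hs⟩
      apply hs
      exact Complex.conj_eq_iff_im.mp (hc s)
    rcases Nat.eq_zero_or_pos a with ha | ha
    · have hb : b = 1 := by omega
      subst ha; subst hb
      refine ⟨Or.inr (Or.inr (by norm_num)), ?_⟩
      constructor
      · intro h; norm_num at h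
      · intro h; exact absurd h hno
    · have ha1 : a = 1 := by omega
      have hb : b = 0 := by omega
      subst ha1; subst hb
      refine ⟨Or.inr (Or.inl (by norm_num)), ?_⟩
      constructor
      · intro h; norm_num at h
      · intro h; exact absurd h hno
  · rw [if_neg hc] at h2
    have h3 : a + b = 0 := by exact_mod_cast h2
    have ha : a = 0 := by omega
    have hb : b = 0 := by omega
    subst ha; subst hb
    refine ⟨Or.inl (by norm_num), ?_⟩
    constructor
    · intro _
      by_contra hno
      apply hc
      intro g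
      apply Complex.conj_eq_iff_im.mpr
      by_contra h
      exact hno ⟨g, h⟩
    · intro _; norm_num

end Cfsg.Agent.S0158
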