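import Cfsg.Statements.S0165
import Mathlib
import Cfsg.Agent.Lib.Lead.SylowAux2
import Cfsg.Agent.Lib.Lead.PRegular
import Cfsg.Agent.Lib.Lead.CharFrob
import Cfsg.Agent.Lib.Lead.CharFullyRam

set_option autoImplicit false
open Cfsg Cfsg.Agent.Lib.Lead

namespace Cfsg.Agent.S0165

open scoped Pointwise commutatorElement

/-- If p ^ n is the exact power of the prime p dividing the order of a finite group and p ^ n divides the degree of an irreducible complex representation, then its character vanishes at every element of order divisible by p. -/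
theorem result {G : Type*} [Group G] [Finite G] {V : Type*} [AddCommGroup V] [Module ℂ V] [FiniteDimensional ℂ V] (ρ : Representation ℂ G V) [ρ.IsIrreducible] (p n : ℕ) (hp : p.Prime) (hn : p ^ n ∣ Nat.card G) (hn' : ¬ p ^ (n + 1) ∣ Nat.card G) (hdeg : p ^ n ∣ Module.finrank ℂ V) (x : G) (hx : p ∣ orderOf x) : ρ.character x = 0 := by
  classical
  haveI : Fintype G := Fintype.ofFinite _
  haveI : Fact p.Prime := ⟨hp⟩
  have hirr : Cfsg.IsIrrCharacter G ρ.character := isIrrCharacter_of_rep ρ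
  have hχ := isCharacter_of_isIrrCharacter hirr
  obtain ⟨t, ht⟩ := hn
  have hpt : ¬ p ∣ t := by
    intro h
    apply hn'
    obtain ⟨m', hm'⟩ := h
    rw [ht, hm', pow_succ]
    exact ⟨m', by ring⟩
  obtain ⟨f, hf⟩ := hdeg
  have hd0 : Module.finrank ℂ V ≠ 0 := (finrank_pos_of_irr ρ).ne'
  have hgen : Cfsg.IsGeneralizedCharacter G
      (fun y : G => if p ∣ orderOf y then 0 else ((1 : ℕ) : ℂ) * ρ.character y) := by
    apply preg_genChar p ρ.character hχ 1 t hpt
    intro y k hk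
    obtain ⟨cy, hcy⟩ := hk
    have hidx := Subgroup.card_mul_index (Subgroup.centralizer ({y} : Set G))
    have hω := isIntegral_class_char ρ y
    have hkey : (t : ℂ) * ((1 : ℕ) : ℂ) * ρ.character y / ((p ^ k : ℕ) : ℂ) =
        (((Subgroup.centralizer ({y} : Set G)).index : ℂ) * ρ.character y /
          (Module.finrank ℂ V : ℂ)) * ((cy * f : ℕ) : ℂ) := by
      have h0 : ((p ^ k : ℕ) : ℂ) ≠ 0 := by exact_mod_cast (pow_pos hp.pos k).ne'
      have hr0 : (Module.finrank ℂ V : ℂ) ≠ 0 := Nat.cast_ne_zero.mpr hd0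
      have hnat : (Subgroup.centralizer ({y} : Set G)).index * (p ^ k * cy) * f =
          t * Module.finrank ℂ V := by
        rw [← hcy, mul_comm (Subgroup.centralizer ({y} : Set G)).index, hidx, ht, hf]
        ring
      have hc : (((Subgroup.centralizer ({y} : Set G)).index : ℂ)) *
          (((p ^ k : ℕ) : ℂ) * (cy : ℂ)) * (f : ℂ) = (t : ℂ) * (Module.finrank ℂ V : ℂ) := by
        exact_mod_cast hnat
      rw [div_mul_eq_mul_div, div_eq_div_iff h0 hr0]
      push_cast
      push_cast at hc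
      linear_combination (-ρ.character y) * hc
    rw [hkey]
    exact IsIntegral.mul hω (isIntegral_natCast _)
  haveI : Fintype (Cfsg.IrrCharacter G) := Fintype.ofFinite _
  obtain ⟨ϑ, hϑdef⟩ : ∃ ϑ : G → ℂ, ϑ =
      fun y : G => if p ∣ orderOf y then 0 else ((1 : ℕ) : ℂ) * ρ.character y := ⟨_, rfl⟩
  rw [← hϑdef] at hgen
  obtain ⟨z, hz⟩ := genChar_expansion hgen
  obtain ⟨z₀, hz₀⟩ : ∃ z₀ : ℤ, z₀ = z ⟨ρ.character, hirr⟩ := ⟨_, rfl⟩
  have hinner : Cfsg.classInner ϑ ρ.character = (z₀ : ℂ) := by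
    rw [hz, hz₀]
    exact classInner_comb_irr (fun χ => (z χ : ℂ)) ⟨ρ.character, hirr⟩
  obtain ⟨S, hSdef⟩ : ∃ S : ℝ, S =
      ∑ g : G, (if p ∣ orderOf g then (0 : ℝ) else ‖ρ.character g‖ ^ 2) := ⟨_, rfl⟩
  have hA : ∑ g : G, ϑ g * (starRingEnd ℂ) (ρ.character g) = ((S : ℝ) : ℂ) := by
    rw [hSdef, Complex.ofReal_sum]
    apply Finset.sum_congr rfl
    intro g _
    rw [hϑdef]
    show (if p ∣ orderOf g then 0 else ((1 : ℕ) : ℂ) * ρ.character g) *
      (starRingEnd ℂ) (ρ.character g) =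
        (((if p ∣ orderOf g then (0 : ℝ) else ‖ρ.character g‖ ^ 2) : ℝ) : ℂ)
    by_cases hg : p ∣ orderOf g
    · rw [if_pos hg, if_pos hg, zero_mul, Complex.ofReal_zero]
    · rw [if_neg hg, if_neg hg, Nat.cast_one, one_mul, Complex.mul_conj,
        Complex.normSq_eq_norm_sq]
  have hG0 : (Nat.card G : ℂ) ≠ 0 := Nat.cast_ne_zero.mpr Nat.card_pos.ne'
  have hinner' : (Nat.card G : ℂ)⁻¹ * ((S : ℝ) : ℂ) = (z₀ : ℂ) := by
    rw [← hA]; exact hinner
  have hzS : (z₀ : ℝ) * (Nat.card G : ℝ) = S := by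
    have h1 : ((z₀ : ℝ) : ℂ) * ((Nat.card G : ℝ) : ℂ) = ((S : ℝ) : ℂ) := by
      push_cast
      rw [← hinner']
      field_simp
    exact_mod_cast h1
  have hSle : S ≤ (Nat.card G : ℝ) := by
    rw [hSdef, ← sum_normSq_irr' hirr]
    apply Finset.sum_le_sum
    intro g _
    split_ifs
    · positivity
    · exact le_rfl
  have hSpos : 0 < S := by
    have h1 : (if p ∣ orderOf (1 : G) then (0 : ℝ) else ‖ρ.character 1‖ ^ 2) ≤ S := by
      rw [hSdef]
      exact Finset.single_le_sum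
        (f := fun g : G => if p ∣ orderOf g then (0 : ℝ) else ‖ρ.character g‖ ^ 2)
        (fun g _ => by split_ifs <;> positivity) (Finset.mem_univ (1 : G))
    have hnd : ¬ p ∣ orderOf (1 : G) := by
      rw [orderOf_one]; exact fun h => hp.one_lt.ne' (Nat.dvd_one.mp h)
    rw [if_neg hnd, Representation.char_one] at h1
    have h2 : (0 : ℝ) < ‖((Module.finrank ℂ V : ℕ) : ℂ)‖ ^ 2 := by
      rw [Complex.norm_natCast]
      have h3 : (0 : ℝ) < (Module.finrank ℂ V : ℝ) := by
        exact_mod_cast Nat.pos_of_ne_zero hd0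
      positivity
    linarith
  have hGpos : (0 : ℝ) < (Nat.card G : ℝ) := by exact_mod_cast Nat.card_pos
  have hz1 : z₀ = 1 := by
    have h1 : (0 : ℝ) < (z₀ : ℝ) := by
      by_contra hcon
      push Not at hcon
      have h2 : (z₀ : ℝ) * (Nat.card G : ℝ) ≤ 0 :=
        mul_nonpos_of_nonpos_of_nonneg hcon hGpos.le
      linarith
    have h2 : (z₀ : ℝ) ≤ 1 := by
      by_contra hcon
      push Not at hcon
      have h3 : (Nat.card G : ℝ) < (z₀ : ℝ) * (Nat.card G : ℝ) := by nlinarith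
      linarith
    have h3 : 0 < z₀ := by exact_mod_cast h1
    have h4 : z₀ ≤ 1 := by exact_mod_cast h2
    omega
  have hSeq : S = (Nat.card G : ℝ) := by rw [← hzS, hz1]; simp
  have hdiff : ∑ g : G, (‖ρ.character g‖ ^ 2 -
      (if p ∣ orderOf g then (0 : ℝ) else ‖ρ.character g‖ ^ 2)) = 0 := by
    rw [Finset.sum_sub_distrib, sum_normSq_irr' hirr, ← hSdef, hSeq, sub_self]
  have hterm := (Finset.sum_eq_zero_iff_of_nonneg (fun g _ => by
    by_cases hg : p ∣ orderOf g
    · rw [if_pos hg, sub_zero]; positivity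
    · rw [if_neg hg, sub_self])).mp hdiff x (Finset.mem_univ x)
  rw [if_pos hx, sub_zero] at hterm
  have hnorm : ‖ρ.character x‖ = 0 := by
    rcases pow_eq_zero_iff (two_ne_zero) |>.mp hterm with h
    exact h
  exact norm_eq_zero.mp hnorm

end Cfsg.Agent.S0165
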