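import Cfsg.Statements.S0196
import Mathlib
import Cfsg.Agent.Lib.Lead.SylowAux2
import Cfsg.Agent.Lib.Lead.OrbitCount
import Cfsg.Agent.Lib.Lead.Frobenius

set_option autoImplicit false
open Cfsg Cfsg.Agent.Lib.Lead

namespace Cfsg.Agent.S0196

open scoped Pointwise commutatorElement

/-- Let A be a subgroup of a finite group G that equals the centralizer of each of its non-identity elements, and let N be its normalizer. Then the index of A in N divides |A| − 1 (N/A permutes the non-identity elements of A in orbits of full length). -/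
theorem result {G : Type*} [Group G] [Finite G] (A : Subgroup G) (hA : ∀ x ∈ A, x ≠ 1 → Subgroup.centralizer ({x} : Set G) = A) : (A.subgroupOf (Subgroup.normalizer (A : Set G))).index ∣ Nat.card A - 1 := by
  classical
  by_cases hA1 : A = ⊥
  · subst hA1
    rw [Subgroup.card_bot]
    exact dvd_zero _
  let N := Subgroup.normalizer (A : Set G)
  let X := {x : G // x ∈ A ∧ x ≠ 1}
  letI : MulAction N X := {
    smul := fun n x => ⟨(n:G) * x.1 * (n:G)⁻¹, by
      constructor
      · exact (Subgroup.mem_normalizer_iff.mp n.2 x.1).mp x.2.1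
      · intro h
        apply x.2.2
        have := congrArg (fun y => (n:G)⁻¹ * y * (n:G)) h
        simpa [mul_assoc] using this⟩
    one_smul := fun x => Subtype.ext (by
      show ((1 : N) : G) * x.1 * ((1 : N) : G)⁻¹ = x.1
      simp)
    mul_smul := fun a b x => Subtype.ext (by
      show ((a * b : N) : G) * x.1 * ((a * b : N) : G)⁻¹ = (a : G) * ((b : G) * x.1 * (b : G)⁻¹) * (a : G)⁻¹
      simp [mul_assoc]) }
  have hstab : ∀ x : X, MulAction.stabilizer N x = A.subgroupOf N := by
    intro x
    ext n
    rw [MulAction.mem_stabilizer_iff, Subgroup.mem_subgroupOf]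
    have hc := hA x.1 x.2.1 x.2.2
    constructor
    · intro h
      have h1 : (n:G) * x.1 * (n:G)⁻¹ = x.1 := congrArg Subtype.val h
      rw [← hc, Subgroup.mem_centralizer_singleton_iff]
      calc (n:G) * x.1 = (n:G) * x.1 * (n:G)⁻¹ * n := by group
        _ = x.1 * n := by rw [h1]
    · intro h
      rw [← hc, Subgroup.mem_centralizer_singleton_iff] at h
      apply Subtype.ext
      show (n:G) * x.1 * (n:G)⁻¹ = x.1
      rw [h, mul_inv_cancel_right]
  have hdvd := dvd_card_of_stabilizer_index (N := N) (X := X) (A.subgroupOf N).index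
    (fun x => by rw [hstab x])
  have hcard : Nat.card X = Nat.card A - 1 := by
    have e : X ≃ {a : A // a ≠ 1} :=
      ⟨fun x => ⟨⟨x.1, x.2.1⟩, fun h => x.2.2 (congrArg Subtype.val h)⟩,
       fun a => ⟨a.1.1, a.1.2, fun h => a.2 (Subtype.ext h)⟩, fun x => rfl, fun a => rfl⟩
    rw [Nat.card_congr e]
    have := card_ne_one_subtype A
    omega
  rw [← hcard]; exact hdvd

end Cfsg.Agent.S0196
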