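import Cfsg.Statements.S0203
import Mathlib
import Cfsg.Agent.Lib.Lead.SylowAux2
import Cfsg.Agent.Lib.Lead.KleinSylow

set_option autoImplicit false
open Cfsg Cfsg.Agent.Lib.Lead

namespace Cfsg.Agent.S0203

open scoped Pointwise commutatorElement

/-- If a Sylow 2-subgroup P of a finite group G is a Klein four-group, then G has three classes of involutions if and only if P has a normal complement in G. -/
theorem result {G : Type*} [Group G] [Finite G] (P : Sylow 2 G) (hP : IsKleinFour (P : Subgroup G)) : Nat.card {C : ConjClasses G // ∃ t : G, orderOf t = 2 ∧ ConjClasses.mk t = C} = 3 ↔ ∃ N : Subgroup G, N.Normal ∧ Subgroup.IsComplement' N (P : Subgroup G) := by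
  rw [card_involClasses]
  obtain ⟨a, b, haP, hbP, hao, hbo, hab, hall, hsq, hcomm⟩ := klein_setup (P : Subgroup G) hP
  constructor
  · intro h3
    rcases klein_classes_dichotomy P hP with h | h
    · rw [h.1] at h3
      omega
    · have hno := h.2
      have hNC : Subgroup.normalizer ((P : Subgroup G) : Set G) ≤
          Subgroup.centralizer ((P : Subgroup G) : Set G) := by
        intro n hn
        rw [Subgroup.mem_centralizer_iff]
        intro x hx
        by_cases hx1 : x = 1
        · rw [hx1, one_mul, mul_one]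
        · have hxo : orderOf x = 2 := invol_iff.mpr ⟨hx1, hsq x hx⟩
          have hnx : n * x * n⁻¹ ∈ (P : Subgroup G) :=
            (Subgroup.mem_normalizer_iff.mp hn x).mp hx
          have h4 := hno x hx _ hnx hxo (invol_conj hxo n) (isConj_iff.mpr ⟨n, rfl⟩)
          calc x * n = n * x * n⁻¹ * n := by rw [← h4]
            _ = n * x := by group
      exact ⟨(MonoidHom.transferSylow P hNC).ker, inferInstance,
        MonoidHom.ker_transferSylow_isComplement' P hNC⟩
  · rintro ⟨N, hN, hNP⟩
    rcases klein_classes_dichotomy P hP with h | h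
    · exfalso
      obtain ⟨u, hu, v, hv, huo, hvo, huv, hc⟩ := h.2
      obtain ⟨g, hg⟩ := isConj_iff.mp hc
      obtain ⟨⟨n, p⟩, hnp⟩ := hNP.2 g
      have hg' : (n : G) * (p : G) = g := hnp
      have hv' : v = (n : G) * u * (n : G)⁻¹ := by
        rw [← hg, ← hg']
        have h5 := hcomm p p.2 u hu
        calc (n : G) * p * u * ((n : G) * p)⁻¹ = n * ((p : G) * u) * (p : G)⁻¹ * (n : G)⁻¹ := by group
          _ = n * (u * p) * (p : G)⁻¹ * (n : G)⁻¹ := by rw [h5]
          _ = n * u * (n : G)⁻¹ := by group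
      have h1 : u⁻¹ * v ∈ N := by
        rw [hv']
        have h6 : u⁻¹ * ((n : G) * u * (n : G)⁻¹) = (u⁻¹ * n * u⁻¹⁻¹) * (n : G)⁻¹ := by group
        rw [h6]
        exact N.mul_mem (hN.conj_mem n n.2 u⁻¹) (N.inv_mem n.2)
      have h2 : u⁻¹ * v ∈ (P : Subgroup G) := Subgroup.mul_mem _ (Subgroup.inv_mem _ hu) hv
      have h3 : u⁻¹ * v ∈ N ⊓ (P : Subgroup G) := Subgroup.mem_inf.mpr ⟨h1, h2⟩
      rw [hNP.disjoint.eq_bot, Subgroup.mem_bot] at h3
      exact huv (inv_mul_eq_one.mp h3)
    · exact h.1

end Cfsg.Agent.S0203
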