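import Cfsg.Statements.S0206
import Mathlib
import Cfsg.Agent.Lib.Lead.SylowAux2
import Cfsg.Agent.Lib.Lead.Invol

set_option autoImplicit false
open Cfsg Cfsg.Agent.Lib.Lead

namespace Cfsg.Agent.S0206

open scoped Pointwise commutatorElement

/-- Two distinct involutions x, y of a finite group generate a subgroup isomorphic to the dihedral group of order 2·|xy|. -/
theorem result {G : Type*} [Group G] [Finite G] (x y : G) (hx : orderOf x = 2) (hy : orderOf y = 2) (hxy : x ≠ y) : Nonempty (↥(Subgroup.closure ({x, y} : Set G)) ≃* DihedralGroup (orderOf (x * y))) := by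
  classical
  haveI : NeZero (orderOf (x * y)) := ⟨(orderOf_pos _).ne'⟩
  have hd1 : x * y ≠ 1 := by
    intro h
    apply hxy
    have h1 : y = x⁻¹ := eq_inv_of_mul_eq_one_right h
    rw [h1, invol_inv hx]
  have he_add : ∀ i j : ZMod (orderOf (x * y)),
      (x * y) ^ (i + j).val = (x * y) ^ i.val * (x * y) ^ j.val := by
    intro i j
    rw [ZMod.val_add, pow_mod_orderOf, pow_add]
  have he_sub : ∀ i j : ZMod (orderOf (x * y)),
      (x * y) ^ (j - i).val = ((x * y) ^ i.val)⁻¹ * (x * y) ^ j.val := by
    intro i j
    have h1 := he_add i (j - i)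
    rw [add_sub_cancel] at h1
    rw [h1, inv_mul_cancel_left]
  have hconj : ∀ k : ℕ, x * (x * y) ^ k = ((x * y) ^ k)⁻¹ * x := by
    intro k
    have h1 := pair_conj_zpow hx hy (k : ℤ)
    rw [zpow_neg, zpow_natCast] at h1
    exact h1
  have hconj' : ∀ k : ℕ, (x * y) ^ k * x = x * ((x * y) ^ k)⁻¹ := by
    intro k
    have h1 := hconj k
    calc (x * y) ^ k * x = (x * y) ^ k * (x * (x * y) ^ k) * ((x * y) ^ k)⁻¹ := by group
      _ = (x * y) ^ k * (((x * y) ^ k)⁻¹ * x) * ((x * y) ^ k)⁻¹ := by rw [h1]
      _ = x * ((x * y) ^ k)⁻¹ := by group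
  let f : DihedralGroup (orderOf (x * y)) → G := fun a => match a with
    | DihedralGroup.r i => (x * y) ^ i.val
    | DihedralGroup.sr i => x * (x * y) ^ i.val
  have hf_mul : ∀ a b, f (a * b) = f a * f b := by
    intro a b
    cases a with
    | r i =>
      cases b with
      | r j =>
        rw [DihedralGroup.r_mul_r]
        exact he_add i j
      | sr j =>
        rw [DihedralGroup.r_mul_sr]
        show x * (x * y) ^ (j - i).val = (x * y) ^ i.val * (x * (x * y) ^ j.val)
        rw [he_sub, ← mul_assoc ((x * y) ^ i.val), hconj', mul_assoc]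
    | sr i =>
      cases b with
      | r j =>
        rw [DihedralGroup.sr_mul_r]
        show x * (x * y) ^ (i + j).val = x * (x * y) ^ i.val * (x * y) ^ j.val
        rw [he_add, mul_assoc]
      | sr j =>
        rw [DihedralGroup.sr_mul_sr]
        show (x * y) ^ (j - i).val = x * (x * y) ^ i.val * (x * (x * y) ^ j.val)
        rw [he_sub]
        calc ((x * y) ^ i.val)⁻¹ * (x * y) ^ j.val
            = (x * x) * ((x * y) ^ i.val)⁻¹ * (x * y) ^ j.val := by
              rw [invol_mul_self hx, one_mul]
          _ = x * (x * ((x * y) ^ i.val)⁻¹) * (x * y) ^ j.val := by group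
          _ = x * ((x * y) ^ i.val * x) * (x * y) ^ j.val := by rw [hconj']
          _ = x * (x * y) ^ i.val * (x * (x * y) ^ j.val) := by group
  have hinj : Function.Injective (MonoidHom.mk' f hf_mul) := by
    rw [injective_iff_map_eq_one]
    intro a ha
    cases a with
    | r i =>
      have h : (x * y) ^ i.val = 1 := ha
      have hdvd := orderOf_dvd_of_pow_eq_one h
      have hlt : i.val < orderOf (x * y) := ZMod.val_lt i
      have h0 : i.val = 0 := Nat.eq_zero_of_dvd_of_lt hdvd hlt
      have h1 : i = 0 := (ZMod.val_eq_zero i).mp h0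
      rw [h1]
      rfl
    | sr i =>
      exfalso
      have h : x * (x * y) ^ i.val = 1 := ha
      have hk : (x * y) ^ i.val = x := by
        have h1 := eq_inv_of_mul_eq_one_right h
        rw [h1, invol_inv hx]
      have hcomm : x * (x * y) = (x * y) * x := by
        have h1 : (x * y) ^ i.val * (x * y) = (x * y) * (x * y) ^ i.val := by
          rw [← pow_succ, ← pow_succ']
        rw [hk] at h1
        exact h1
      have hyx : x * y = y * x := by
        have h1 : x * (x * y) = y := by rw [← mul_assoc, invol_mul_self hx, one_mul]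
        rw [h1] at hcomm
        calc x * y = x * (x * y * x) := by rw [← hcomm]
          _ = (x * x) * y * x := by group
          _ = y * x := by rw [invol_mul_self hx, one_mul]
      have hd2 : (x * y) ^ 2 = 1 := by
        rw [pow_two]
        nth_rewrite 1 [hyx]
        calc y * x * (x * y) = y * (x * x) * y := by group
          _ = 1 := by rw [invol_mul_self hx, mul_one, invol_mul_self hy]
      have hn2 : orderOf (x * y) ∣ 2 := orderOf_dvd_of_pow_eq_one hd2
      have hn1 : orderOf (x * y) ≠ 1 := by
        rw [Ne, orderOf_eq_one_iff]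
        exact hd1
      have hn : orderOf (x * y) = 2 := by
        have h3 := Nat.le_of_dvd (by norm_num) hn2
        have h4 := orderOf_pos (x * y)
        omega
      have hlt0 : i.val < orderOf (x * y) := ZMod.val_lt i
      have hlt : i.val < 2 := lt_of_lt_of_eq hlt0 hn
      clear hlt0
      generalize i.val = k at hk hlt
      interval_cases k
      · rw [pow_zero] at hk
        exact invol_ne_one hx hk.symm
      · rw [pow_one] at hk
        exact invol_ne_one hy (mul_left_cancel (a := x) (by rw [hk, mul_one]))
  have hrange : (MonoidHom.mk' f hf_mul).range = Subgroup.closure ({x, y} : Set G) := by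
    have hxm := x_mem_closure_pair x y
    have hym := y_mem_closure_pair x y
    have hdm : x * y ∈ Subgroup.closure ({x, y} : Set G) := Subgroup.mul_mem _ hxm hym
    apply le_antisymm
    · rintro _ ⟨a, rfl⟩
      cases a with
      | r i => exact Subgroup.pow_mem _ hdm _
      | sr i => exact Subgroup.mul_mem _ hxm (Subgroup.pow_mem _ hdm _)
    · rw [Subgroup.closure_le]
      intro z hz
      rcases hz with hz | hz
      · rw [hz]
        refine ⟨DihedralGroup.sr 0, ?_⟩
        show x * (x * y) ^ (0 : ZMod (orderOf (x * y))).val = x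
        rw [ZMod.val_zero, pow_zero, mul_one]
      · rw [Set.mem_singleton_iff] at hz
        rw [hz]
        refine ⟨DihedralGroup.sr 1, ?_⟩
        show x * (x * y) ^ (1 : ZMod (orderOf (x * y))).val = y
        rw [ZMod.val_one_eq_one_mod, pow_mod_orderOf, pow_one, ← mul_assoc, invol_mul_self hx,
          one_mul]
  exact ⟨(MulEquiv.subgroupCongr hrange.symm).trans (MonoidHom.ofInjective hinj).symm⟩

end Cfsg.Agent.S0206
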