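import Cfsg.Statements.S0207
import Mathlib
import Cfsg.Agent.Lib.Lead.Invol

set_option autoImplicit false
open Cfsg

namespace Cfsg.Agent.S0207

/-- If x, y are distinct involutions, every element of the subgroup they generate that lies outside the cyclic subgroup generated by xy is an involution. -/
theorem result {G : Type*} [Group G] [Finite G] (x y : G) (hx : orderOf x = 2) (hy : orderOf y = 2) (hxy : x ≠ y) (d : G) (hd : d ∈ Subgroup.closure ({x, y} : Set G)) (hd' : d ∉ Subgroup.zpowers (x * y)) : orderOf d = 2 := by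
  obtain ⟨i, hi | hi⟩ := Cfsg.Agent.Lib.Lead.mem_closure_pair hx hy hd
  · exact absurd (hi ▸ Subgroup.zpow_mem_zpowers _ i) hd'
  · rw [Cfsg.Agent.Lib.Lead.invol_iff]
    refine ⟨?_, ?_⟩
    · intro h1
      exact hd' (h1 ▸ Subgroup.one_mem _)
    · rw [hi, mul_assoc, ← mul_assoc x, Cfsg.Agent.Lib.Lead.pair_conj_zpow hx hy,
        mul_assoc ((x * y) ^ (-i)), Cfsg.Agent.Lib.Lead.invol_mul_self hx, mul_one, ← zpow_add,
        add_neg_cancel, zpow_zero]

end Cfsg.Agent.S0207
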