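import Cfsg.Statements.S0208
import Mathlib

set_option autoImplicit false
open Cfsg

namespace Cfsg.Agent.S0208

/-- If x, y are involutions and xy has odd order, then some element of the subgroup generated by x and y conjugates x to y. -/
theorem result {G : Type*} [Group G] [Finite G] (x y : G) (hx : orderOf x = 2) (hy : orderOf y = 2) (hodd : Odd (orderOf (x * y))) : ∃ d ∈ Subgroup.closure ({x, y} : Set G), d * x * d⁻¹ = y := by
  obtain ⟨k, hk⟩ := hodd
  have hx2 : x * x = 1 := by
    have := pow_orderOf_eq_one x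
    rwa [hx, pow_two] at this
  have hy2 : y * y = 1 := by
    have := pow_orderOf_eq_one y
    rwa [hy, pow_two] at this
  have hxinv : x⁻¹ = x := inv_eq_of_mul_eq_one_right hx2
  have hyinv : y⁻¹ = y := inv_eq_of_mul_eq_one_right hy2
  have hxmem : x ∈ Subgroup.closure ({x, y} : Set G) := Subgroup.subset_closure (by simp)
  have hymem : y ∈ Subgroup.closure ({x, y} : Set G) := Subgroup.subset_closure (by simp)
  -- conjugation by x inverts x * y
  have hinv : ∀ n : ℕ, x * (x * y) ^ n * x = ((x * y) ^ n)⁻¹ := by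
    intro n
    have h := map_pow (MulAut.conj x) (x * y) n
    simp only [MulAut.conj_apply] at h
    rw [hxinv] at h
    rw [h, ← inv_pow]
    congr 1
    rw [mul_inv_rev, hxinv, hyinv]
    calc x * (x * y) * x = (x * x) * y * x := by group
      _ = y * x := by rw [hx2, one_mul]
  refine ⟨(x * y) ^ k, ?_, ?_⟩
  · exact Subgroup.pow_mem _ (Subgroup.mul_mem _ hxmem hymem) k
  · have h1 : ((x * y) ^ k)⁻¹ = x * (x * y) ^ k * x := (hinv k).symm
    rw [h1]
    have h2 : (x * y) ^ (2 * k + 1) = 1 := by rw [← hk]; exact pow_orderOf_eq_one _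
    calc (x * y) ^ k * x * (x * (x * y) ^ k * x)
        = (x * y) ^ k * (x * x) * (x * y) ^ k * x := by group
      _ = ((x * y) ^ k * (x * y) ^ k) * x := by rw [hx2, mul_one]
      _ = (x * y) ^ (2 * k) * x := by rw [← pow_add]; congr 2; ring
      _ = ((x * y) ^ (2 * k + 1) * (x * y)⁻¹) * x := by rw [pow_succ]; group
      _ = (x * y)⁻¹ * x := by rw [h2, one_mul]
      _ = y := by rw [mul_inv_rev, hxinv, hyinv, mul_assoc, hx2, mul_one]

end Cfsg.Agent.S0208
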