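import Cfsg.Statements.S0209
import Mathlib
import Cfsg.Agent.Lib.Lead.Invol

set_option autoImplicit false
open Cfsg

namespace Cfsg.Agent.S0209

/-- If x, y are involutions whose product has even order n, the element (xy)^(n/2) is an involution that commutes with x and with y. -/
theorem result {G : Type*} [Group G] [Finite G] (x y : G) (hx : orderOf x = 2) (hy : orderOf y = 2) (heven : Even (orderOf (x * y))) : orderOf ((x * y) ^ (orderOf (x * y) / 2)) = 2 ∧ Commute ((x * y) ^ (orderOf (x * y) / 2)) x ∧ Commute ((x * y) ^ (orderOf (x * y) / 2)) y := by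
  have hnpos : 0 < orderOf (x * y) := orderOf_pos (x * y)
  obtain ⟨m, hm⟩ := heven
  have hm2 : orderOf (x * y) / 2 = m := by omega
  rw [hm2]
  have hz2 : (x * y) ^ m * (x * y) ^ m = 1 := by
    rw [← pow_add, ← hm]; exact pow_orderOf_eq_one (x * y)
  have hz1 : (x * y) ^ m ≠ 1 := by
    intro h
    have h1 := orderOf_dvd_of_pow_eq_one h
    have h2 := Nat.le_of_dvd (by omega) h1
    omega
  have hzinv : (x * y) ^ (-(m : ℤ)) = (x * y) ^ m := by
    rw [zpow_neg, zpow_natCast]; exact inv_eq_of_mul_eq_one_right hz2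
  refine ⟨Cfsg.Agent.Lib.Lead.invol_iff.mpr ⟨hz1, hz2⟩, ?_, ?_⟩
  · have h := Cfsg.Agent.Lib.Lead.pair_conj_zpow hx hy (m : ℤ)
    rw [hzinv, zpow_natCast] at h
    exact h.symm
  · have h := Cfsg.Agent.Lib.Lead.pair_conj_zpow' hx hy (m : ℤ)
    rw [hzinv, zpow_natCast] at h
    exact h.symm

end Cfsg.Agent.S0209
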