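import Cfsg.Statements.S0210
import Mathlib
import Cfsg.Agent.Lib.Lead.Invol

set_option autoImplicit false
open Cfsg

namespace Cfsg.Agent.S0210

/-- If x, y are involutions whose product has even order, no element of the subgroup generated by x and y conjugates x to y. -/
theorem result {G : Type*} [Group G] [Finite G] (x y : G) (hx : orderOf x = 2) (hy : orderOf y = 2) (heven : Even (orderOf (x * y))) (d : G) (hd : d ∈ Subgroup.closure ({x, y} : Set G)) : d * x * d⁻¹ ≠ y := by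
  intro hcontra
  obtain ⟨i, hi⟩ := Cfsg.Agent.Lib.Lead.conj_closure_pair hx hy hd
  have h2 : (x * y) ^ (-1 : ℤ) * x = (x * y) ^ (2 * i) * x :=
    ((Cfsg.Agent.Lib.Lead.pair_y_eq hx hy).symm.trans hcontra.symm).trans hi
  have h2' : (x * y) ^ (-1 : ℤ) = (x * y) ^ (2 * i) := mul_right_cancel h2
  have h3 : (x * y) ^ (2 * i + 1) = 1 := by
    rw [zpow_add, zpow_one, ← h2', zpow_neg, zpow_one, inv_mul_cancel]
  have h4 : (orderOf (x * y) : ℤ) ∣ 2 * i + 1 := orderOf_dvd_iff_zpow_eq_one.mpr h3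
  obtain ⟨m, hm⟩ := heven
  rw [hm] at h4
  obtain ⟨c, hc⟩ := h4
  push_cast at hc
  have h5 : (2 : ℤ) ∣ 2 * i + 1 := ⟨m * c, by rw [hc]; ring⟩
  omega

end Cfsg.Agent.S0210
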