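import Cfsg.Statements.S0211
import Mathlib
import Cfsg.Agent.Lib.Lead.Invol

set_option autoImplicit false
open Cfsg

namespace Cfsg.Agent.S0211

/-- Let x, y be involutions with xy of even order n and z = (xy)^(n/2). Then xz is conjugate to x by an element of the subgroup generated by x, y if and only if 4 divides n. -/
theorem result {G : Type*} [Group G] [Finite G] (x y : G) (hx : orderOf x = 2) (hy : orderOf y = 2) (heven : Even (orderOf (x * y))) : (∃ d ∈ Subgroup.closure ({x, y} : Set G), d * x * d⁻¹ = x * (x * y) ^ (orderOf (x * y) / 2)) ↔ 4 ∣ orderOf (x * y) := by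
  have hnpos : 0 < orderOf (x * y) := orderOf_pos (x * y)
  obtain ⟨m, hm⟩ := heven
  have hm2 : orderOf (x * y) / 2 = m := by omega
  rw [hm2]
  have hxz : x * (x * y) ^ m = (x * y) ^ (-(m : ℤ)) * x := by
    have h := Cfsg.Agent.Lib.Lead.pair_conj_zpow hx hy (m : ℤ)
    rwa [zpow_natCast] at h
  constructor
  · rintro ⟨d, hd, hdx⟩
    obtain ⟨i, hi⟩ := Cfsg.Agent.Lib.Lead.conj_closure_pair hx hy hd
    have h2 : (x * y) ^ (2 * i) * x = (x * y) ^ (-(m : ℤ)) * x := (hi.symm.trans hdx).trans hxz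
    have h2' : (x * y) ^ (2 * i) = (x * y) ^ (-(m : ℤ)) := mul_right_cancel h2
    have h3 : (x * y) ^ (2 * i + m) = 1 := by
      rw [zpow_add, h2', ← zpow_add, neg_add_cancel, zpow_zero]
    have h4 : (orderOf (x * y) : ℤ) ∣ 2 * i + m := orderOf_dvd_iff_zpow_eq_one.mpr h3
    rw [hm] at h4 ⊢
    obtain ⟨c, hc⟩ := h4
    push_cast at hc
    have : (2 : ℤ) ∣ m := ⟨c * m - i, by linarith⟩
    have h5 : (2 : ℕ) ∣ m := by exact_mod_cast this
    obtain ⟨k, hk⟩ := h5
    exact ⟨k, by omega⟩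
  · rintro ⟨k, hk⟩
    have hmk : m = 2 * k := by omega
    refine ⟨(x * y) ^ (-(k : ℤ)), ?_, ?_⟩
    · exact Subgroup.zpow_mem _ (Subgroup.mul_mem _ (Cfsg.Agent.Lib.Lead.x_mem_closure_pair x y)
        (Cfsg.Agent.Lib.Lead.y_mem_closure_pair x y)) _
    · rw [hxz, ← zpow_neg, neg_neg, mul_assoc, Cfsg.Agent.Lib.Lead.pair_conj_zpow hx hy,
        ← mul_assoc, ← zpow_add, hmk]
      congr 2
      push_cast
      ring

end Cfsg.Agent.S0211
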