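import Cfsg.Statements.S0233
import Mathlib
import Cfsg.Agent.Lib.Lead.SylowAux2
import Cfsg.Agent.Lib.Lead.BrauerFowler

set_option autoImplicit false
open Cfsg Cfsg.Agent.Lib.Lead

namespace Cfsg.Agent.S0233

open scoped Pointwise commutatorElement

/-- Let G be a finite group of even order with exactly n involutions whose centre has odd order, and put a = |G|/n. Then G has a proper subgroup H with |G : H| = 2 or |G : H| < a(a+1)/2; over ℕ the latter reads 2·|G:H|·n² < |G|·(|G| + n). -/
theorem result {G : Type*} [Group G] [Finite G] (heven : Even (Nat.card G)) (hZ : Odd (Nat.card (Subgroup.center G))) : ∃ H : Subgroup G, H ≠ ⊤ ∧ (H.index = 2 ∨ 2 * H.index * (Nat.card {t : G // orderOf t = 2}) ^ 2 < Nat.card G * (Nat.card G + Nat.card {t : G // orderOf t = 2})) := by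
  classical
  haveI : Fintype G := Fintype.ofFinite G
  rw [← card_invs]
  by_cases h2 : ∃ H : Subgroup G, H.index = 2
  · obtain ⟨H, hH⟩ := h2
    refine ⟨H, ?_, Or.inl hH⟩
    rintro rfl
    rw [Subgroup.index_top] at hH
    omega
  · push Not at h2
    have hnontriv : (⊥ : Subgroup G) ≠ ⊤ := by
      intro h
      have h1 : Nat.card G = 1 := by
        rw [← Subgroup.card_top (G := G), ← h, Subgroup.card_bot]
      rw [h1] at heven
      exact absurd heven (by decide)
    have hex : ∃ k, ∃ H : Subgroup G, H ≠ ⊤ ∧ H.index = k := ⟨_, ⊥, hnontriv, rfl⟩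
    obtain ⟨H₀, hH₀, hk⟩ := Nat.find_spec hex
    have hmin : ∀ H : Subgroup G, H ≠ ⊤ → H₀.index ≤ H.index := by
      intro H hH
      rw [hk]
      exact Nat.find_min' hex ⟨H, hH, rfl⟩
    refine ⟨H₀, hH₀, Or.inr ?_⟩
    have hm : ∀ H : Subgroup G, H ≠ ⊤ → H₀.index * Nat.card H ≤ Fintype.card G := by
      intro H hH
      have h1 := hmin H hH
      rw [← Nat.card_eq_fintype_card, ← H.card_mul_index]
      calc H₀.index * Nat.card H ≤ H.index * Nat.card H := Nat.mul_le_mul_right _ h1
        _ = Nat.card H * H.index := mul_comm _ _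
    have hZ' : ∀ t : G, orderOf t = 2 → Subgroup.centralizer ({t} : Set G) ≠ ⊤ := by
      intro t ht htop
      have htc : t ∈ Subgroup.center G := by
        rw [Subgroup.mem_center_iff]
        intro g
        have h1 : g ∈ Subgroup.centralizer ({t} : Set G) := by rw [htop]; trivial
        rw [Subgroup.mem_centralizer_singleton_iff] at h1
        exact h1
      have hd : orderOf (⟨t, htc⟩ : Subgroup.center G) ∣ Nat.card (Subgroup.center G) :=
        orderOf_dvd_natCard _
      rw [Subgroup.orderOf_mk, ht] at hd
      exact (Nat.not_even_iff_odd.mpr hZ) (even_iff_two_dvd.mpr hd)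
    have h3 := bf_ineq H₀.index hm h2 hZ'
    rw [Nat.card_eq_fintype_card]
    have hpos : 0 < Fintype.card G := Fintype.card_pos
    generalize 2 * H₀.index * (invs G).card ^ 2 = A at *
    generalize 2 * H₀.index * (invs G).card = B at *
    generalize Fintype.card G * (Fintype.card G + (invs G).card) = C at *
    omega

end Cfsg.Agent.S0233
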