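import Cfsg.Statements.S0212
import Mathlib
import Cfsg.Agent.Lib.Lead.SylowAux2
import Cfsg.Agent.Lib.Lead.BrauerFowler2
import Cfsg.Agent.S0233

set_option autoImplicit false
open Cfsg Cfsg.Agent.Lib.Lead

namespace Cfsg.Agent.S0212

open scoped Pointwise commutatorElement

/-- The Brauer–Fowler bound: if G is a finite simple group and t an involution of G whose centralizer has order n, then |G| ≤ (2n^2)!. -/
theorem result {G : Type*} [Group G] [Finite G] [IsSimpleGroup G] (t : G) (ht : orderOf t = 2) : Nat.card G ≤ Nat.factorial (2 * (Nat.card (Subgroup.centralizer ({t} : Set G))) ^ 2) := by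
  classical
  haveI : Fintype G := Fintype.ofFinite G
  have hcpos : 0 < Nat.card (Subgroup.centralizer ({t} : Set G)) := Nat.card_pos
  by_cases hZ : Subgroup.centralizer ({t} : Set G) = ⊤
  · rw [hZ, Subgroup.card_top]
    refine le_trans ?_ (Nat.self_le_factorial _)
    have : 0 < Nat.card G := Nat.card_pos
    nlinarith
  · have heven : Even (Nat.card G) := by
      rw [even_iff_two_dvd, ← ht]
      exact orderOf_dvd_natCard t
    have hcenter : Subgroup.center G = ⊥ := by
      rcases (Subgroup.Normal.eq_bot_or_eq_top (inferInstance : (Subgroup.center G).Normal)) with h | h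
      · exact h
      · exfalso
        apply hZ
        rw [eq_top_iff]
        intro g _
        rw [Subgroup.mem_centralizer_singleton_iff]
        have h1 : t ∈ Subgroup.center G := by rw [h]; trivial
        exact (Subgroup.mem_center_iff.mp h1 g)
    have hZodd : Odd (Nat.card (Subgroup.center G)) := by
      rw [hcenter, Subgroup.card_bot]
      exact odd_one
    obtain ⟨H, hH, hidx⟩ := Cfsg.Agent.S0233.result heven hZodd
    have hidxle : H.index ≤ 2 * Nat.card (Subgroup.centralizer ({t} : Set G)) ^ 2 := by
      rcases hidx with h | h
      · rw [h]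
        nlinarith
      · have hgn := card_le_centralizer_mul t (invs G) (fun g => mem_invs.mpr (invol_conj ht g))
        rw [← card_invs, Nat.card_eq_fintype_card (α := G)] at h
        generalize Nat.card (Subgroup.centralizer ({t} : Set G)) = c at *
        generalize (invs G).card = n at *
        generalize Fintype.card G = g at *
        generalize H.index = i at *
        have h1 : g * (g + n) ≤ (c * n) * (c * n + n) :=
          Nat.mul_le_mul hgn (Nat.add_le_add_right hgn n)
        have h2 : (c * n) * (c * n + n) ≤ 2 * c ^ 2 * n ^ 2 := by
          have h4 : c ≤ c ^ 2 := Nat.le_self_pow two_ne_zero c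
          have h5 := Nat.mul_le_mul_right (n ^ 2) h4
          nlinarith
        have h3 : 2 * i * n ^ 2 < 2 * c ^ 2 * n ^ 2 := lt_of_lt_of_le h (h1.trans h2)
        by_contra hcon
        push Not at hcon
        have h6 := Nat.mul_le_mul_right (n ^ 2) hcon.le
        nlinarith
    have hcore : H.normalCore = ⊥ := by
      rcases (Subgroup.Normal.eq_bot_or_eq_top (inferInstance : H.normalCore.Normal)) with h | h
      · exact h
      · exfalso
        apply hH
        rw [eq_top_iff, ← h]
        exact Subgroup.normalCore_le H
    have hinj : Function.Injective (MulAction.toPermHom G (G ⧸ H)) := by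
      rw [← MonoidHom.ker_eq_bot_iff, ← Subgroup.normalCore_eq_ker, hcore]
    have h1 := Nat.card_le_card_of_injective _ hinj
    rw [Nat.card_perm] at h1
    exact le_trans h1 (Nat.factorial_le hidxle)

end Cfsg.Agent.S0212
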