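import Cfsg.Statements.S0216
import Mathlib
import Cfsg.Agent.Lib.Lead.SylowAux
import Cfsg.Agent.S0209
import Cfsg.Agent.S0211

set_option autoImplicit false
open Cfsg Cfsg.Agent.Lib.Lead

namespace Cfsg.Agent.S0216

/-- For an involution u in a Sylow 2-subgroup P of a finite group G, the following are equivalent: no G-conjugate of u other than u lies in P; every commutator of u with an element of G has odd order. -/
theorem result {G : Type*} [Group G] [Finite G] (P : Sylow 2 G) (u : G) (hu : orderOf u = 2) (huP : u ∈ P) : (∀ g : G, g * u * g⁻¹ ∈ P → g * u * g⁻¹ = u) ↔ (∀ g : G, Odd (orderOf (u * g * u⁻¹ * g⁻¹))) := by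
  have : Fact (Nat.Prime 2) := ⟨Nat.prime_two⟩
  constructor
  · intro hiso g
    by_contra hodd
    rw [Nat.not_odd_iff_even] at hodd
    have hvo : orderOf (g * u * g⁻¹) = 2 := invol_conj hu g
    have huv : u * g * u⁻¹ * g⁻¹ = u * (g * u * g⁻¹) := by rw [invol_inv hu]; group
    rw [huv] at hodd
    generalize hv : g * u * g⁻¹ = v at hvo hodd
    obtain ⟨hz2, hzu, hzv⟩ := Cfsg.Agent.S0209.result u v hu hvo hodd
    have hconj : ∃ h : G, h * u * h⁻¹ = u * (u * v) ^ (orderOf (u * v) / 2) := by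
      by_cases h4 : 4 ∣ orderOf (u * v)
      · obtain ⟨d, -, hd⟩ := (Cfsg.Agent.S0211.result u v hu hvo hodd).mpr h4
        exact ⟨d, hd⟩
      · obtain ⟨m, hm⟩ := hodd
        have hm2 : orderOf (u * v) / 2 = m := by omega
        have hmodd : Odd m := by
          rw [← Nat.not_even_iff_odd]
          rintro ⟨k, hk⟩
          exact h4 ⟨k, by omega⟩
        obtain ⟨j, hj⟩ := hmodd
        rw [hm2]
        refine ⟨(u * v) ^ (-(j : ℤ)) * g, ?_⟩
        have h1 : (u * v) ^ (-(j : ℤ)) * g * u * ((u * v) ^ (-(j : ℤ)) * g)⁻¹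
            = (u * v) ^ (-(j : ℤ)) * (g * u * g⁻¹) * ((u * v) ^ (-(j : ℤ)))⁻¹ := by
          group
        rw [h1, hv]
        have hy := pair_y_eq hu hvo
        rw [← zpow_neg, neg_neg]
        calc (u * v) ^ (-(j : ℤ)) * v * (u * v) ^ (j : ℤ)
            = (u * v) ^ (-(j : ℤ)) * ((u * v) ^ (-1 : ℤ) * u) * (u * v) ^ (j : ℤ) := by
              rw [← hy]
          _ = (u * v) ^ (-(j : ℤ)) * (u * v) ^ (-1 : ℤ) * (u * (u * v) ^ (j : ℤ)) := by
              simp only [mul_assoc]
          _ = (u * v) ^ (-(j : ℤ)) * (u * v) ^ (-1 : ℤ) * ((u * v) ^ (-(j : ℤ)) * u) := by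
              rw [pair_conj_zpow hu hvo]
          _ = (u * v) ^ (-(m : ℤ)) * u := by
              rw [← mul_assoc, ← zpow_add, ← zpow_add]
              congr 2
              rw [hj]
              push_cast
              ring
          _ = u * (u * v) ^ m := by
              rw [← zpow_natCast (u * v) m, pair_conj_zpow hu hvo]
    obtain ⟨h, hh⟩ := hconj
    have hcomm : Commute u (u * (u * v) ^ (orderOf (u * v) / 2)) :=
      (Commute.refl u).mul_right hzu.symm
    have h6 := isolated_key P u hu hiso _ h hh hcomm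
    have hz1 : (u * v) ^ (orderOf (u * v) / 2) = 1 := by
      have h7 : u * (u * v) ^ (orderOf (u * v) / 2) = u * 1 := by rw [mul_one]; exact h6
      exact mul_left_cancel h7
    exact invol_ne_one hz2 hz1
  · intro hodd g hg
    have h1 := hodd g
    have hmem : u * g * u⁻¹ * g⁻¹ ∈ (P : Subgroup G) := by
      have h2 : u * g * u⁻¹ * g⁻¹ = u * (g * u * g⁻¹)⁻¹ := by group
      rw [h2]; exact Subgroup.mul_mem _ huP (Subgroup.inv_mem _ hg)
    obtain ⟨k, hk⟩ := (IsPGroup.iff_orderOf.mp P.isPGroup') ⟨_, hmem⟩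
    rw [Subgroup.orderOf_mk] at hk
    have hk0 : k = 0 := by
      by_contra hk0
      rw [hk] at h1
      have h3 : Even (2 ^ k) := (Nat.even_pow.mpr ⟨even_two, hk0⟩)
      exact (Nat.not_even_iff_odd.mpr h1) h3
    rw [hk0, pow_zero, orderOf_eq_one_iff] at hk
    have h2 : u * (g * u * g⁻¹)⁻¹ = 1 := by rw [← hk]; group
    have h3 := eq_inv_of_mul_eq_one_left h2
    rw [inv_inv] at h3
    exact h3.symm

end Cfsg.Agent.S0216
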