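import Cfsg.Statements.S0218
import Mathlib
import Cfsg.Agent.Lib.Lead.SylowAux2

set_option autoImplicit false
open Cfsg Cfsg.Agent.Lib.Lead

namespace Cfsg.Agent.S0218

open scoped Pointwise commutatorElement

/-- The generalized quaternion group of order 2^(n+3) contains exactly one element of order 2. -/
theorem result (n : ℕ) : Nat.card {x : QuaternionGroup (2 ^ (n + 1)) // orderOf x = 2} = 1 := by
  have hN : NeZero (2 ^ (n + 1)) := ⟨by positivity⟩
  have hNpos : 0 < 2 ^ (n + 1) := by positivity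
  have key : ∀ z : QuaternionGroup (2 ^ (n + 1)), orderOf z = 2 →
      z = QuaternionGroup.a ((2 ^ (n+1) : ℕ) : ZMod (2 * 2 ^ (n+1))) := by
    intro z hz
    cases z with
    | a i =>
      rw [QuaternionGroup.orderOf_a] at hz
      congr 1
      have hg : Nat.gcd (2 * 2 ^ (n + 1)) i.val ∣ 2 * 2 ^ (n + 1) := Nat.gcd_dvd_left _ _
      have hg2 : Nat.gcd (2 * 2 ^ (n + 1)) i.val ∣ i.val := Nat.gcd_dvd_right _ _
      have hgpos : 0 < Nat.gcd (2 * 2 ^ (n + 1)) i.val := Nat.gcd_pos_of_pos_left _ (by positivity)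
      have h1 : 2 * 2 ^ (n + 1) = Nat.gcd (2 * 2 ^ (n + 1)) i.val * 2 := by
        have := Nat.div_mul_cancel hg
        rw [hz] at this
        omega
      have h2 : Nat.gcd (2 * 2 ^ (n + 1)) i.val = 2 ^ (n + 1) := by omega
      rw [h2] at hg2
      have hlt : i.val < 2 * 2 ^ (n + 1) := ZMod.val_lt i
      obtain ⟨c, hc⟩ := hg2
      have hc1 : c = 1 := by
        rcases Nat.lt_or_ge c 2 with h | h
        · interval_cases c
          · exfalso
            rw [hc] at h2
            simp at h2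
          · rfl
        · exfalso
          have : 2 ^ (n + 1) * 2 ≤ 2 ^ (n + 1) * c := Nat.mul_le_mul_left _ h
          omega
      subst hc1
      rw [← ZMod.natCast_zmod_val i, hc]
      simp
    | xa i =>
      rw [QuaternionGroup.orderOf_xa] at hz
      omega
  rw [Nat.card_eq_one_iff_unique]
  refine ⟨⟨?_⟩, ⟨⟨QuaternionGroup.a ((2 ^ (n+1) : ℕ) : ZMod (2 * 2 ^ (n+1))), ?_⟩⟩⟩
  · rintro ⟨x, hx⟩ ⟨y, hy⟩
    exact Subtype.ext ((key x hx).trans (key y hy).symm)
  · rw [QuaternionGroup.orderOf_a]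
    have hv : ((2 ^ (n+1) : ℕ) : ZMod (2 * 2 ^ (n+1))).val = 2 ^ (n + 1) := by
      apply ZMod.val_natCast_of_lt
      omega
    rw [hv]
    have : Nat.gcd (2 * 2 ^ (n + 1)) (2 ^ (n + 1)) = 2 ^ (n + 1) :=
      Nat.gcd_eq_right (Dvd.intro_left 2 rfl)
    rw [this]
    exact Nat.mul_div_cancel _ hNpos

end Cfsg.Agent.S0218
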