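import Cfsg.Statements.S0220
import Mathlib
import Cfsg.Agent.Lib.Lead.SylowAux2
import Cfsg.Agent.Lib.Lead.OrbitCount
import Cfsg.Agent.S0219

set_option autoImplicit false
open Cfsg Cfsg.Agent.Lib.Lead

namespace Cfsg.Agent.S0220

open scoped Pointwise commutatorElement

/-- If x is an involution of a finite group G and a Sylow 2-subgroup of the centralizer of x is cyclic, then G has a subgroup of index 2; in particular G is not simple unless it has order 2. -/
theorem result {G : Type*} [Group G] [Finite G] (x : G) (hx : orderOf x = 2) (S : Sylow 2 ↥(Subgroup.centralizer ({x} : Set G))) (hS : IsCyclic (S : Subgroup ↥(Subgroup.centralizer ({x} : Set G)))) : ∃ H : Subgroup G, H.index = 2 := by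
  classical
  have hxC : x ∈ Subgroup.centralizer ({x} : Set G) :=
    Subgroup.mem_centralizer_singleton_iff.mpr rfl
  obtain ⟨xc, hxc⟩ : ∃ xc : Subgroup.centralizer ({x} : Set G), (xc : G) = x := ⟨⟨x, hxC⟩, rfl⟩
  have hxco : orderOf xc = 2 := by
    have h1 : orderOf (xc : G) = 2 := by rw [hxc]; exact hx
    rw [← h1, Subgroup.orderOf_coe]
  have hxS : xc ∈ (S : Subgroup (Subgroup.centralizer ({x} : Set G))) := by
    have hcen : ∀ g : Subgroup.centralizer ({x} : Set G), g * xc = xc * g := by
      intro g
      apply Subtype.ext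
      have := g.2
      rw [Subgroup.mem_centralizer_singleton_iff] at this
      show (g : G) * (xc : G) = (xc : G) * g
      rw [hxc]; exact this
    have hnorm : (Subgroup.zpowers xc).Normal := by
      constructor
      intro n hn g
      have : g * n * g⁻¹ = n := by
        obtain ⟨k, rfl⟩ := Subgroup.mem_zpowers_iff.mp hn
        have hc : Commute g xc := hcen g
        rw [(hc.zpow_right k).eq, mul_inv_cancel_right]
      rw [this]; exact hn
    exact (isPGroup_zpowers_invol hxco).le_sylow_of_normal S (Subgroup.mem_zpowers xc)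
  have hS'p : IsPGroup 2 ((S : Subgroup (Subgroup.centralizer ({x} : Set G))).map
      (Subgroup.centralizer ({x} : Set G)).subtype) := S.isPGroup'.map _
  obtain ⟨T, hT⟩ := hS'p.exists_le_sylow
  have hmax : ∀ g : G, g ∈ T → ∀ hgC : g ∈ Subgroup.centralizer ({x} : Set G),
      (⟨g, hgC⟩ : Subgroup.centralizer ({x} : Set G)) ∈ S := by
    intro g hgT hgC
    have hQ : IsPGroup 2 ((T : Subgroup G).subgroupOf (Subgroup.centralizer ({x} : Set G))) :=
      T.isPGroup'.comap_subtype
    have hle : (S : Subgroup (Subgroup.centralizer ({x} : Set G)))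
        ≤ (T : Subgroup G).subgroupOf (Subgroup.centralizer ({x} : Set G)) := by
      intro s hs
      rw [Subgroup.mem_subgroupOf]
      exact hT (Subgroup.mem_map_of_mem _ hs)
    have heq := S.is_maximal' hQ hle
    have : (⟨g, hgC⟩ : Subgroup.centralizer ({x} : Set G))
        ∈ (T : Subgroup G).subgroupOf (Subgroup.centralizer ({x} : Set G)) := by
      rw [Subgroup.mem_subgroupOf]; exact hgT
    rw [heq] at this
    exact this
  have hxT : x ∈ T := hT ⟨xc, hxS, hxc⟩
  haveI hTne : Nontrivial T :=
    ⟨⟨⟨x, hxT⟩, 1, fun h => invol_ne_one hx (congrArg Subtype.val h)⟩⟩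
  haveI hcen := T.isPGroup'.center_nontrivial
  obtain ⟨z, hz⟩ : ∃ z : Subgroup.center T, orderOf z = 2 := by
    have h2 : 2 ∣ Nat.card (Subgroup.center T) := by
      have hpc : IsPGroup 2 (Subgroup.center T) := T.isPGroup'.to_subgroup _
      obtain ⟨k, hk⟩ := IsPGroup.iff_card.mp hpc
      have hk0 : k ≠ 0 := by
        rintro rfl
        rw [pow_zero] at hk
        have h1 := Finite.one_lt_card (α := Subgroup.center T)
        omega
      rw [hk]; exact dvd_pow_self 2 hk0
    exact exists_prime_orderOf_dvd_card' 2 h2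
  have hzo : orderOf (((z : T) : G)) = 2 := by
    rw [Subgroup.orderOf_coe, Subgroup.orderOf_coe, hz]
  have hzc : ∀ t : G, t ∈ T → t * ((z : T) : G) = ((z : T) : G) * t := by
    intro t ht
    have := Subgroup.mem_center_iff.mp z.2 ⟨t, ht⟩
    exact congrArg Subtype.val this
  have hzC : ((z : T) : G) ∈ Subgroup.centralizer ({x} : Set G) := by
    rw [Subgroup.mem_centralizer_singleton_iff]
    exact (hzc x hxT).symm
  have hzS := hmax _ (z : T).2 hzC
  haveI : IsCyclic (S : Subgroup (Subgroup.centralizer ({x} : Set G))) := hS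
  have huniq : (⟨⟨((z : T) : G), hzC⟩, hzS⟩ : (S : Subgroup (Subgroup.centralizer ({x} : Set G))))
      = ⟨xc, hxS⟩ := by
    apply invol_unique_of_cyclic
    · rw [Subgroup.orderOf_mk, Subgroup.orderOf_mk]; exact hzo
    · rw [Subgroup.orderOf_mk]; exact hxco
  have hzx : ((z : T) : G) = x := by
    have := congrArg (fun s : (S : Subgroup (Subgroup.centralizer ({x} : Set G))) => ((s : Subgroup.centralizer ({x} : Set G)) : G)) huniq
    simpa [hxc] using this
  have hTC : ∀ t : G, t ∈ T → t ∈ Subgroup.centralizer ({x} : Set G) := by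
    intro t ht
    rw [Subgroup.mem_centralizer_singleton_iff, ← hzx]
    exact hzc t ht
  have hTcyc : IsCyclic (T : Subgroup G) := by
    let f : (S : Subgroup (Subgroup.centralizer ({x} : Set G))) →* (T : Subgroup G) :=
      { toFun := fun s => ⟨((s : Subgroup.centralizer ({x} : Set G)) : G),
          hT (Subgroup.mem_map_of_mem _ s.2)⟩
        map_one' := rfl
        map_mul' := fun a b => rfl }
    apply isCyclic_of_surjective f
    intro t
    exact ⟨⟨⟨t.1, hTC t.1 t.2⟩, hmax t.1 t.2 (hTC t.1 t.2)⟩, rfl⟩
  have heven : Even (Nat.card G) := by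
    rw [even_iff_two_dvd, ← hx]
    exact orderOf_dvd_natCard x
  exact Cfsg.Agent.S0219.result heven T hTcyc

end Cfsg.Agent.S0220
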