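import Cfsg.Statements.S0226
import Mathlib
import Cfsg.Agent.Lib.Lead.Invol

set_option autoImplicit false
open Cfsg

namespace Cfsg.Agent.S0226

/-- A finite group of even order has an odd number of involutions. -/
theorem result {G : Type*} [Group G] [Finite G] (heven : Even (Nat.card G)) : Odd (Nat.card {t : G // orderOf t = 2}) := by
  have h := Cfsg.Agent.Lib.Lead.card_invol_add_one_modEq (G := G)
  rw [Nat.odd_iff]
  have h2 : Nat.card G % 2 = 0 := Nat.even_iff.mp heven
  unfold Nat.ModEq at h
  omega

end Cfsg.Agent.S0226
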