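import Cfsg.Statements.S0228
import Mathlib
-- import your own Cfsg.Agent.* helpers here

set_option autoImplicit false
open Cfsg

namespace Cfsg.Agent.S0228


theorem sylow_card_three {G : Type*} [Group G] [Finite G] (hG : Nat.card G = 12) (P : Sylow 3 G) :
    Nat.card (P : Subgroup G) = 3 := by
  haveI : Fact (Nat.Prime 3) := ⟨by norm_num⟩
  obtain ⟨n, hn⟩ := IsPGroup.iff_card.mp P.2
  have h1 := (P : Subgroup G).card_mul_index
  have h2 := P.not_dvd_index
  rw [hG, hn] at h1
  rcases n with _ | _ | n
  · exfalso; apply h2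
    have : (P : Subgroup G).index = 12 := by simpa using h1
    rw [this]; norm_num
  · simpa using hn
  · exfalso
    have : 9 ∣ 12 := by rw [← h1]; exact Dvd.dvd.mul_right ⟨3 ^ n, by ring⟩ _
    omega

theorem sylow_card_four {G : Type*} [Group G] [Finite G] (hG : Nat.card G = 12) (P : Sylow 2 G) :
    Nat.card (P : Subgroup G) = 4 := by
  haveI : Fact (Nat.Prime 2) := ⟨by norm_num⟩
  obtain ⟨n, hn⟩ := IsPGroup.iff_card.mp P.2
  have h1 := (P : Subgroup G).card_mul_index
  have h2 := P.not_dvd_index
  rw [hG, hn] at h1
  rcases n with _ | _ | _ | n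
  · exfalso; apply h2
    have : (P : Subgroup G).index = 12 := by simpa using h1
    rw [this]; norm_num
  · exfalso; apply h2
    have : (P : Subgroup G).index = 6 := by omega
    rw [this]; norm_num
  · simpa using hn
  · exfalso
    have : 8 ∣ 12 := by rw [← h1]; exact Dvd.dvd.mul_right ⟨2 ^ n, by ring⟩ _
    omega

/-- A group of order 12 in which no involution is central is isomorphic to the alternating group on four letters. -/
theorem result {G : Type*} [Group G] [Finite G] (hG : Nat.card G = 12) (hz : ∀ z : G, orderOf z = 2 → z ∉ Subgroup.center G) : Nonempty (G ≃* alternatingGroup (Fin 4)) := by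
  classical
  haveI : Fact (Nat.Prime 3) := ⟨by norm_num⟩
  haveI : Fact (Nat.Prime 2) := ⟨by norm_num⟩
  have hn3mod := card_sylow_modEq_one 3 G
  obtain ⟨P⟩ : Nonempty (Sylow 3 G) := inferInstance
  have hP3 := sylow_card_three hG P
  have hidx : (P : Subgroup G).index = 4 := by
    have := (P : Subgroup G).card_mul_index; rw [hG, hP3] at this; omega
  have hdvd := P.card_dvd_index
  rw [hidx] at hdvd
  have hn3 : Nat.card (Sylow 3 G) = 1 ∨ Nat.card (Sylow 3 G) = 4 := by
    have hle := Nat.le_of_dvd (by norm_num) hdvd
    unfold Nat.ModEq at hn3mod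
    omega
  rcases hn3 with h1 | h4
  · exfalso
    have hPn : ∀ g : G, g ∈ Subgroup.normalizer ((P : Subgroup G) : Set G) := by
      intro g
      haveI : Subsingleton (Sylow 3 G) := (Nat.card_eq_one_iff_unique.mp h1).1
      exact Sylow.smul_eq_iff_mem_normalizer.mp (Subsingleton.elim _ _)
    obtain ⟨x, hxP, hx1⟩ : ∃ x ∈ (P : Subgroup G), x ≠ 1 := by
      by_contra hcon
      push_neg at hcon
      have : (P : Subgroup G) = ⊥ := (Subgroup.eq_bot_iff_forall _).mpr hcon
      have hb : Nat.card (P : Subgroup G) = 1 := by rw [this]; exact Subgroup.card_bot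
      omega
    have hox : orderOf x = 3 := by
      have hd : orderOf x ∣ 3 := by
        have := orderOf_dvd_natCard (⟨x, hxP⟩ : (P : Subgroup G))
        rw [hP3] at this
        rwa [Subgroup.orderOf_mk] at this
      rcases (Nat.dvd_prime (by norm_num : Nat.Prime 3)).mp hd with h | h
      · exact absurd (orderOf_eq_one_iff.mp h) hx1
      · exact h
    have hzP : Subgroup.zpowers x = (P : Subgroup G) :=
      Subgroup.eq_of_le_of_card_ge (by rw [Subgroup.zpowers_le]; exact hxP)
        (by rw [Nat.card_zpowers, hox, hP3])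
    have hx3 : x ^ 3 = 1 := by rw [← hox]; exact pow_orderOf_eq_one x
    have hconj : ∀ g : G, g * x * g⁻¹ = x ∨ g * x * g⁻¹ = x⁻¹ := by
      intro g
      have hm : g * x * g⁻¹ ∈ (P : Subgroup G) :=
        (Subgroup.mem_normalizer_iff.mp (hPn g) x).mp hxP
      rw [← hzP] at hm
      obtain ⟨k, hk⟩ := Subgroup.mem_zpowers_iff.mp hm
      have hk' : x ^ (k % 3) = g * x * g⁻¹ := by
        rw [← hk]; simpa [hox] using zpow_mod_orderOf x k
      have h0 := Int.emod_nonneg k (by norm_num : (3 : ℤ) ≠ 0)
      have h3 := Int.emod_lt_of_pos k (by norm_num : (0 : ℤ) < 3)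
      obtain ⟨r, hr⟩ : ∃ r : ℤ, r = k % 3 := ⟨_, rfl⟩
      rw [← hr] at hk' h0 h3
      interval_cases r
      · exfalso
        rw [zpow_zero] at hk'
        apply hx1
        have : x = g⁻¹ * (g * x * g⁻¹) * g := by group
        rw [this, ← hk']; group
      · left; rw [← hk']; simp
      · right; rw [← hk']
        have : x ^ (2 : ℤ) * x = 1 := by
          rw [← zpow_add_one]; norm_num; exact_mod_cast hx3
        exact eq_inv_of_mul_eq_one_left this
    obtain ⟨Q⟩ : Nonempty (Sylow 2 G) := inferInstance
    have hQ4 := sylow_card_four hG Q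
    have hQcomm : ∀ a b : (Q : Subgroup G), a * b = b * a :=
      IsPGroup.commutative_of_card_eq_prime_sq (p := 2) (by rw [hQ4]; norm_num)
    obtain ⟨a, haQ, ha1⟩ : ∃ a ∈ (Q : Subgroup G), a ≠ 1 := by
      by_contra hcon; push_neg at hcon
      have : (Q : Subgroup G) = ⊥ := (Subgroup.eq_bot_iff_forall _).mpr hcon
      have hb : Nat.card (Q : Subgroup G) = 1 := by rw [this]; exact Subgroup.card_bot
      omega
    obtain ⟨b, hbQ, hb1, hba⟩ : ∃ b ∈ (Q : Subgroup G), b ≠ 1 ∧ b ≠ a := by
      by_contra hcon
      push_neg at hcon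
      have hsub : ((Q : Subgroup G) : Set G) ⊆ {1, a} := fun b hb => by
        by_cases h1 : b = 1
        · simp [h1]
        · simp [hcon b hb h1]
      have hle := Set.ncard_le_ncard hsub (Set.toFinite _)
      have h2 : ({1, a} : Set G).ncard ≤ 2 := by
        have := Set.ncard_insert_le (1 : G) ({a} : Set G)
        rw [Set.ncard_singleton] at this
        exact this
      have h4 : ((Q : Subgroup G) : Set G).ncard = 4 := by
        rw [← hQ4]; exact (Nat.card_coe_set_eq _).symm
      omega
    obtain ⟨c, hcQ, hc1, hcx⟩ : ∃ c ∈ (Q : Subgroup G), c ≠ 1 ∧ c * x = x * c := by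
      rcases hconj a with ha | ha
      · refine ⟨a, haQ, ha1, ?_⟩
        calc a * x = (a * x * a⁻¹) * a := by group
          _ = x * a := by rw [ha]
      · rcases hconj b with hb | hb
        · refine ⟨b, hbQ, hb1, ?_⟩
          calc b * x = (b * x * b⁻¹) * b := by group
            _ = x * b := by rw [hb]
        · refine ⟨a⁻¹ * b, mul_mem (inv_mem haQ) hbQ, ?_, ?_⟩
          · intro h; apply hba; exact (inv_mul_eq_one.mp h).symm
          · calc a⁻¹ * b * x = a⁻¹ * (b * x * b⁻¹) * b := by group
              _ = a⁻¹ * (a * x * a⁻¹) * b := by rw [hb, ha]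
              _ = x * (a⁻¹ * b) := by group
    have hoc : orderOf c = 2 ∨ orderOf c = 4 := by
      have hd : orderOf c ∣ 4 := by
        have := orderOf_dvd_natCard (⟨c, hcQ⟩ : (Q : Subgroup G))
        rw [hQ4] at this
        rwa [Subgroup.orderOf_mk] at this
      have hne : orderOf c ≠ 1 := fun h => hc1 (orderOf_eq_one_iff.mp h)
      have hle := Nat.le_of_dvd (by norm_num) hd
      obtain ⟨m, hm⟩ : ∃ m, m = orderOf c := ⟨_, rfl⟩
      rw [← hm] at hd hne hle ⊢
      interval_cases m
      all_goals first | omega | (exfalso; revert hd; decide)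
    obtain ⟨t, htQ, ht2, htx⟩ : ∃ t ∈ (Q : Subgroup G), orderOf t = 2 ∧ t * x = x * t := by
      rcases hoc with h | h
      · exact ⟨c, hcQ, h, hcx⟩
      · refine ⟨c ^ 2, pow_mem hcQ 2, ?_, ?_⟩
        · rw [orderOf_pow' c (by norm_num), h]; rfl
        · have : Commute c x := hcx
          exact (this.pow_left 2).eq
    have hZ : Subgroup.centralizer ({t} : Set G) = ⊤ := by
      apply (Subgroup.card_eq_iff_eq_top _).mp
      have h3 : 3 ∣ Nat.card (Subgroup.centralizer ({t} : Set G)) := by
        have hle : Subgroup.zpowers x ≤ Subgroup.centralizer ({t} : Set G) := by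
          rw [Subgroup.zpowers_le, Subgroup.mem_centralizer_iff]
          intro h hh
          rw [Set.mem_singleton_iff] at hh
          rw [hh]; exact htx
        have := Subgroup.card_dvd_of_le hle
        rwa [Nat.card_zpowers, hox] at this
      have h4 : 4 ∣ Nat.card (Subgroup.centralizer ({t} : Set G)) := by
        have hle : (Q : Subgroup G) ≤ Subgroup.centralizer ({t} : Set G) := by
          intro q hq
          rw [Subgroup.mem_centralizer_iff]
          intro h hh
          rw [Set.mem_singleton_iff] at hh
          rw [hh]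
          have := hQcomm ⟨t, htQ⟩ ⟨q, hq⟩
          exact congrArg Subtype.val this
        have := Subgroup.card_dvd_of_le hle
        rwa [hQ4] at this
      have hd := Subgroup.card_subgroup_dvd_card (Subgroup.centralizer ({t} : Set G))
      rw [hG] at hd
      have hpos : 0 < Nat.card (Subgroup.centralizer ({t} : Set G)) := Nat.card_pos
      have hle := Nat.le_of_dvd (by norm_num) hd
      rw [hG]
      omega
    apply hz t ht2
    rw [Subgroup.mem_center_iff]
    intro g
    have hg : g ∈ Subgroup.centralizer ({t} : Set G) := by rw [hZ]; trivial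
    rw [Subgroup.mem_centralizer_iff] at hg
    exact (hg t rfl).symm
  · have hnorm : ∀ R : Sylow 3 G, Subgroup.normalizer ((R : Subgroup G) : Set G) = R := by
      intro R
      have hi : (Subgroup.normalizer ((R : Subgroup G) : Set G)).index = 4 := by
        rw [← h4]; exact (R.card_eq_index_normalizer).symm
      have hc := (Subgroup.normalizer ((R : Subgroup G) : Set G)).card_mul_index
      rw [hi, hG] at hc
      have hc3 : Nat.card (Subgroup.normalizer ((R : Subgroup G) : Set G)) = 3 := by omega
      exact (Subgroup.eq_of_le_of_card_ge Subgroup.le_normalizer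
        (by rw [hc3, sylow_card_three hG R])).symm
    have hinj : Function.Injective (MulAction.toPermHom G (Sylow 3 G)) := by
      rw [injective_iff_map_eq_one]
      intro g hg
      have hgR : ∀ R : Sylow 3 G, g ∈ (R : Subgroup G) := by
        intro R
        rw [← hnorm R]
        apply Sylow.smul_eq_iff_mem_normalizer.mp
        have := congrArg (fun σ => σ R) hg
        simpa using this
      obtain ⟨R, hR⟩ : ∃ R : Sylow 3 G, R ≠ P := by
        by_contra hcon
        push_neg at hcon
        have : Nat.card (Sylow 3 G) = 1 :=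
          Nat.card_eq_one_iff_unique.mpr ⟨⟨fun a b => by rw [hcon a, hcon b]⟩, ⟨P⟩⟩
        omega
      by_contra hg1
      have hz1 : Subgroup.zpowers g ≤ (P : Subgroup G) := by
        rw [Subgroup.zpowers_le]; exact hgR P
      have hz2 : Subgroup.zpowers g ≤ (R : Subgroup G) := by
        rw [Subgroup.zpowers_le]; exact hgR R
      have hcz : Nat.card (Subgroup.zpowers g) = 3 := by
        have hd := Subgroup.card_dvd_of_le hz1
        rw [hP3] at hd
        rcases (Nat.dvd_prime (by norm_num : Nat.Prime 3)).mp hd with h | h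
        · exfalso; rw [Nat.card_zpowers, orderOf_eq_one_iff] at h; exact hg1 h
        · exact h
      have e1 := Subgroup.eq_of_le_of_card_ge hz1 (by rw [hcz, hP3])
      have e2 := Subgroup.eq_of_le_of_card_ge hz2 (by rw [hcz, sylow_card_three hG R])
      exact hR (Sylow.ext (e2.symm.trans e1))
    have e : Sylow 3 G ≃ Fin 4 := Finite.equivFinOfCardEq h4
    let ψ : G →* Equiv.Perm (Fin 4) :=
      (Equiv.permCongrHom e).toMonoidHom.comp (MulAction.toPermHom G (Sylow 3 G))
    have hψ : Function.Injective ψ := (Equiv.permCongrHom e).injective.comp hinj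
    have hrange : ψ.range = alternatingGroup (Fin 4) := by
      apply Equiv.Perm.eq_alternatingGroup_of_index_eq_two
      have hc : Nat.card ψ.range = 12 := by
        rw [← hG]; exact (Nat.card_congr (MonoidHom.ofInjective hψ).toEquiv).symm
      have := ψ.range.card_mul_index
      rw [hc] at this
      have h24 : Nat.card (Equiv.Perm (Fin 4)) = 24 := by
        rw [Nat.card_eq_fintype_card, Fintype.card_perm, Fintype.card_fin]; rfl
      omega
    exact ⟨(MonoidHom.ofInjective hψ).trans (MulEquiv.subgroupCongr hrange)⟩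

end Cfsg.Agent.S0228
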