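import Cfsg.Statements.S0229
import Mathlib
import Cfsg.Agent.Lib.Lead.SylowAux
import Cfsg.Agent.S0208
import Cfsg.Agent.S0209
import Cfsg.Agent.S0211

set_option autoImplicit false
open Cfsg Cfsg.Agent.Lib.Lead

namespace Cfsg.Agent.S0229

/-- Let t be an involution of a Sylow 2-subgroup S of a finite group G, conjugate in G to no other element of S, and let s be an involution of G not conjugate to t. Then the order of st is twice an odd number. -/
theorem result {G : Type*} [Group G] [Finite G] (S : Sylow 2 G) (t : G) (ht : orderOf t = 2) (htS : t ∈ S) (hiso : ∀ g : G, g * t * g⁻¹ ∈ S → g * t * g⁻¹ = t) (s : G) (hs : orderOf s = 2) (hns : ¬ IsConj s t) : orderOf (s * t) % 4 = 2 := by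
  have hswap : orderOf (s * t) = orderOf (t * s) := orderOf_mul_swap s t
  rw [hswap]
  by_cases hodd : Odd (orderOf (t * s))
  · exfalso
    rw [← hswap] at hodd
    obtain ⟨d, -, hd⟩ := Cfsg.Agent.S0208.result s t hs ht hodd
    exact hns (isConj_iff.mpr ⟨d, hd⟩)
  · rw [Nat.not_odd_iff_even] at hodd
    by_cases h4 : 4 ∣ orderOf (t * s)
    · exfalso
      obtain ⟨hz2, hzt, hzs⟩ := Cfsg.Agent.S0209.result t s ht hs hodd
      obtain ⟨d, -, hd⟩ := (Cfsg.Agent.S0211.result t s ht hs hodd).mpr h4
      have hcomm : Commute t (t * (t * s) ^ (orderOf (t * s) / 2)) :=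
        (Commute.refl t).mul_right hzt.symm
      have h6 := isolated_key S t ht hiso _ d hd hcomm
      have hz1 : (t * s) ^ (orderOf (t * s) / 2) = 1 := by
        have h7 : t * (t * s) ^ (orderOf (t * s) / 2) = t * 1 := by rw [mul_one]; exact h6
        exact mul_left_cancel h7
      exact invol_ne_one hz2 hz1
    · obtain ⟨m, hm⟩ := hodd
      omega

end Cfsg.Agent.S0229
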