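import Cfsg.Statements.S0230
import Mathlib
import Cfsg.Agent.Lib.Lead.SylowAux2
import Cfsg.Agent.Lib.Lead.BrauerFowler3

set_option autoImplicit false
open Cfsg Cfsg.Agent.Lib.Lead

namespace Cfsg.Agent.S0230

open scoped Pointwise commutatorElement

/-- Let G be a finite group with two non-conjugate involutions, and let t be an involution whose centralizer has maximal order among centralizers of involutions. Then |G| < |C_G(t)|^3. -/
theorem result {G : Type*} [Group G] [Finite G] (s t : G) (hs : orderOf s = 2) (ht : orderOf t = 2) (hnc : ¬ IsConj s t) (hmax : ∀ u : G, orderOf u = 2 → Nat.card (Subgroup.centralizer ({u} : Set G)) ≤ Nat.card (Subgroup.centralizer ({t} : Set G))) : Nat.card G < Nat.card (Subgroup.centralizer ({t} : Set G)) ^ 3 := by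
  classical
  haveI : Fintype G := Fintype.ofFinite G
  have hconj2 : ∀ a b : G, orderOf a = 2 → IsConj a b → orderOf b = 2 := by
    intro a b ha hab
    rw [isConj_iff] at hab
    obtain ⟨c, rfl⟩ := hab
    exact invol_conj ha c
  have hzex : ∀ p : G × G, ∃ z : G, (IsConj s p.1 ∧ IsConj t p.2) →
      (orderOf z = 2 ∧ z * p.1 = p.1 * z ∧ z * p.2 = p.2 * z) := by
    intro p
    by_cases hp : IsConj s p.1 ∧ IsConj t p.2
    · have hu : orderOf p.1 = 2 := hconj2 _ _ hs hp.1
      have hv : orderOf p.2 = 2 := hconj2 _ _ ht hp.2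
      have hnc' : ¬ IsConj p.1 p.2 := fun h => hnc (hp.1.trans (h.trans hp.2.symm))
      obtain ⟨z, hz⟩ := exists_invol_commute_of_not_conj hu hv hnc'
      exact ⟨z, fun _ => hz⟩
    · exact ⟨1, fun h => absurd h hp⟩
  choose zf hzf using hzex
  have hcpos : 0 < Nat.card (Subgroup.centralizer ({t} : Set G)) := Nat.card_pos
  have hcent : ∀ z : G, orderOf z = 2 →
      ((centF z).erase 1).card ≤ Nat.card (Subgroup.centralizer ({t} : Set G)) - 1 := by
    intro z hz
    have h1 : (1 : G) ∈ centF z := by rw [mem_centF, one_mul, mul_one]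
    rw [Finset.card_erase_of_mem h1, card_centF]
    exact Nat.sub_le_sub_right (hmax z hz) 1
  have hb1 : ((Finset.univ.filter (fun u => IsConj s u)) ×ˢ (Finset.univ.filter (fun v => IsConj t v))).card
      ≤ (Nat.card (Subgroup.centralizer ({t} : Set G)) - 1) *
        ((invs G ×ˢ (Finset.univ.filter (fun v => IsConj t v))).filter
          (fun q => q.1 * q.2 = q.2 * q.1)).card := by
    apply Finset.card_le_mul_card_image_of_maps_to (f := fun p => (zf p, p.2))
    · intro p hp
      rw [Finset.mem_product, Finset.mem_filter, Finset.mem_filter] at hp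
      have h1 := hzf p ⟨hp.1.2, hp.2.2⟩
      rw [Finset.mem_filter, Finset.mem_product, mem_invs, Finset.mem_filter]
      exact ⟨⟨h1.1, Finset.mem_univ _, hp.2.2⟩, h1.2.2⟩
    · intro q hq
      rw [Finset.mem_filter, Finset.mem_product, mem_invs] at hq
      refine le_trans (Finset.card_le_card_of_injOn (fun p => p.1) ?_ ?_) (hcent q.1 hq.1.1)
      · intro p hp
        rw [Finset.mem_coe, Finset.mem_filter, Finset.mem_product, Finset.mem_filter,
          Finset.mem_filter] at hp
        have h1 := hzf p ⟨hp.1.1.2, hp.1.2.2⟩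
        have h2 : zf p = q.1 := (Prod.ext_iff.mp hp.2).1
        rw [h2] at h1
        rw [Finset.mem_coe, Finset.mem_erase, mem_centF]
        refine ⟨?_, h1.2.1.symm⟩
        exact invol_ne_one (hconj2 _ _ hs hp.1.1.2)
      · intro p hp p' hp' h
        rw [Finset.mem_coe, Finset.mem_filter] at hp hp'
        have h2 : p.2 = q.2 := (Prod.ext_iff.mp hp.2).2
        have h2' : p'.2 = q.2 := (Prod.ext_iff.mp hp'.2).2
        exact Prod.ext h (h2.trans h2'.symm)
  have hb2 : ((invs G ×ˢ (Finset.univ.filter (fun v => IsConj t v))).filter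
          (fun q => q.1 * q.2 = q.2 * q.1)).card ≤
      (Nat.card (Subgroup.centralizer ({t} : Set G)) - 1) *
        (Finset.univ.filter (fun v => IsConj t v)).card := by
    apply Finset.card_le_mul_card_image_of_maps_to (f := fun q => q.2)
    · intro q hq
      rw [Finset.mem_filter, Finset.mem_product] at hq
      exact hq.1.2
    · intro v hv
      rw [Finset.mem_filter] at hv
      refine le_trans (Finset.card_le_card_of_injOn (fun q => q.1) ?_ ?_)
        (hcent v (hconj2 _ _ ht hv.2))
      · intro q hq
        rw [Finset.mem_coe, Finset.mem_filter, Finset.mem_filter, Finset.mem_product, mem_invs] at hq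
        have h2 : q.2 = v := hq.2
        rw [Finset.mem_coe, Finset.mem_erase, mem_centF]
        refine ⟨invol_ne_one hq.1.1.1, ?_⟩
        rw [← h2]
        exact hq.1.2
      · intro q hq q' hq' h
        rw [Finset.mem_coe, Finset.mem_filter] at hq hq'
        exact Prod.ext h (hq.2.trans hq'.2.symm)
  rw [Finset.card_product] at hb1
  have hTpos : 0 < (Finset.univ.filter (fun v => IsConj t v)).card := by
    rw [Finset.card_pos]
    exact ⟨t, Finset.mem_filter.mpr ⟨Finset.mem_univ _, IsConj.refl t⟩⟩
  have hS : (Finset.univ.filter (fun u => IsConj s u)).card ≤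
      (Nat.card (Subgroup.centralizer ({t} : Set G)) - 1) *
        (Nat.card (Subgroup.centralizer ({t} : Set G)) - 1) := by
    have h1 := le_trans hb1 (Nat.mul_le_mul_left _ hb2)
    rw [← mul_assoc] at h1
    exact Nat.le_of_mul_le_mul_right h1 hTpos
  have hG := card_le_centralizer_mul s (Finset.univ.filter (fun u => IsConj s u))
    (fun g => Finset.mem_filter.mpr ⟨Finset.mem_univ _, isConj_iff.mpr ⟨g, rfl⟩⟩)
  have hCs := hmax s hs
  rw [Nat.card_eq_fintype_card (α := G)]
  have h3 : Fintype.card G ≤ Nat.card (Subgroup.centralizer ({t} : Set G)) *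
      ((Nat.card (Subgroup.centralizer ({t} : Set G)) - 1) *
        (Nat.card (Subgroup.centralizer ({t} : Set G)) - 1)) :=
    le_trans hG (Nat.mul_le_mul hCs hS)
  refine lt_of_le_of_lt h3 ?_
  generalize Nat.card (Subgroup.centralizer ({t} : Set G)) = c at *
  obtain ⟨c', rfl⟩ : ∃ c', c = c' + 1 := ⟨c - 1, by omega⟩
  simp only [Nat.add_sub_cancel]
  nlinarith

end Cfsg.Agent.S0230
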