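import Cfsg.Statements.S0231
import Mathlib
import Cfsg.Agent.Lib.Lead.SylowAux
import Cfsg.Agent.S0208
import Cfsg.Agent.S0209

set_option autoImplicit false
open scoped Pointwise
open Cfsg Cfsg.Agent.Lib.Lead

namespace Cfsg.Agent.S0231

/-- Let T be a Sylow 2-subgroup of the finite group G which is not normal and which intersects every other Sylow 2-subgroup trivially. Then G has a single conjugacy class of involutions. -/
theorem result {G : Type*} [Group G] [Finite G] (T : Sylow 2 G) (hnn : ¬ (T : Subgroup G).Normal) (hTI : ∀ g : G, MulAut.conj g • (T : Subgroup G) ≠ T → MulAut.conj g • (T : Subgroup G) ⊓ T = ⊥) (s t : G) (hs : orderOf s = 2) (ht : orderOf t = 2) : IsConj s t := by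
  have : Fact (Nat.Prime 2) := ⟨Nat.prime_two⟩
  have hTI' : ∀ a b : G, MulAut.conj a • (T : Subgroup G) ≠ MulAut.conj b • (T : Subgroup G) →
      ∀ x : G, x ∈ MulAut.conj a • (T : Subgroup G) → x ∈ MulAut.conj b • (T : Subgroup G) →
      x = 1 := by
    intro a b hab x hxa hxb
    have h1 : MulAut.conj (b⁻¹ * a) • (T : Subgroup G) ≠ T := by
      intro h
      apply hab
      have h0 : MulAut.conj a • (T : Subgroup G)
          = MulAut.conj b • (MulAut.conj (b⁻¹ * a) • (T : Subgroup G)) := by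
        rw [← mul_smul, ← map_mul]
        congr 2
        group
      rw [h0, h]
    have h2 := hTI _ h1
    rw [mem_conj_smul] at hxa hxb
    have h3 : b⁻¹ * x * b ∈ MulAut.conj (b⁻¹ * a) • (T : Subgroup G) ⊓ T := by
      refine Subgroup.mem_inf.mpr ⟨?_, hxb⟩
      rw [mem_conj_smul]
      have h0 : (b⁻¹ * a)⁻¹ * (b⁻¹ * x * b) * (b⁻¹ * a) = a⁻¹ * x * a := by group
      rw [h0]; exact hxa
    rw [h2, Subgroup.mem_bot] at h3
    have h0 : x = b * (b⁻¹ * x * b) * b⁻¹ := by group
    rw [h0, h3]; group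
  have key : ∀ a b : G, MulAut.conj a • (T : Subgroup G) ≠ MulAut.conj b • (T : Subgroup G) →
      ∀ s t : G, orderOf s = 2 → orderOf t = 2 → s ∈ MulAut.conj a • (T : Subgroup G) →
      t ∈ MulAut.conj b • (T : Subgroup G) → IsConj s t := by
    intro a b hab s t hs ht hsa htb
    by_cases hodd : Odd (orderOf (s * t))
    · obtain ⟨d, -, hd⟩ := Cfsg.Agent.S0208.result s t hs ht hodd
      exact isConj_iff.mpr ⟨d, hd⟩
    · exfalso
      rw [Nat.not_odd_iff_even] at hodd
      obtain ⟨hz2, hzs, hzt⟩ := Cfsg.Agent.S0209.result s t hs ht hodd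
      generalize (s * t) ^ (orderOf (s * t) / 2) = z at hz2 hzs hzt
      have hmem : ∀ (c : G) (r : G), orderOf r = 2 → Commute z r →
          r ∈ MulAut.conj c • (T : Subgroup G) → z ∈ MulAut.conj c • (T : Subgroup G) := by
        intro c r hr hzr hrc
        have h1 : MulAut.conj (z * c) • (T : Subgroup G) = MulAut.conj c • (T : Subgroup G) := by
          by_contra hne
          apply invol_ne_one hr
          apply hTI' (z * c) c hne r _ hrc
          rw [mem_conj_smul] at hrc ⊢
          have h0 : (z * c)⁻¹ * r * (z * c) = c⁻¹ * (z⁻¹ * (r * z)) * c := by group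
          rw [h0, ← hzr.eq, inv_mul_cancel_left]
          exact hrc
        have h2 : z • (c • T) = c • T := by
          apply Sylow.ext
          show MulAut.conj z • (MulAut.conj c • (T : Subgroup G)) = MulAut.conj c • (T : Subgroup G)
          rw [map_mul, mul_smul] at h1
          exact h1
        have h3 := Sylow.smul_eq_iff_mem_normalizer.mp h2
        exact mem_sylow_of_normalizes (c • T) (isPGroup_zpowers_invol hz2) h3
      have hza := hmem a s hs hzs hsa
      have hzb := hmem b t ht hzt htb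
      exact invol_ne_one hz2 (hTI' a b hab z hza hzb)
  obtain ⟨a, ha⟩ := sylow_conj_mem T _ (isPGroup_zpowers_invol hs)
  obtain ⟨b, hb⟩ := sylow_conj_mem T _ (isPGroup_zpowers_invol ht)
  have hsa : s ∈ MulAut.conj a⁻¹ • (T : Subgroup G) := by
    rw [mem_conj_smul, inv_inv]; exact ha s (Subgroup.mem_zpowers s)
  have htb : t ∈ MulAut.conj b⁻¹ • (T : Subgroup G) := by
    rw [mem_conj_smul, inv_inv]; exact hb t (Subgroup.mem_zpowers t)
  by_cases hab : MulAut.conj a⁻¹ • (T : Subgroup G) = MulAut.conj b⁻¹ • (T : Subgroup G)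
  · have hex : ∃ g : G, MulAut.conj g • (T : Subgroup G) ≠ T := by
      by_contra hall
      push Not at hall
      apply hnn
      constructor
      intro n hn g
      have h0 := hall g
      rw [← h0]
      exact conj_mem_conj_smul hn
    obtain ⟨g, hg⟩ := hex
    have hc : MulAut.conj (a⁻¹ * g) • (T : Subgroup G) ≠ MulAut.conj a⁻¹ • (T : Subgroup G) := by
      intro h
      apply hg
      rw [map_mul, mul_smul] at h
      exact smul_left_cancel _ h
    have hro : orderOf ((a⁻¹ * g * a) * s * (a⁻¹ * g * a)⁻¹) = 2 := invol_conj hs _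
    have hrc : (a⁻¹ * g * a) * s * (a⁻¹ * g * a)⁻¹ ∈ MulAut.conj (a⁻¹ * g) • (T : Subgroup G) := by
      rw [mem_conj_smul]
      have h0 : (a⁻¹ * g)⁻¹ * ((a⁻¹ * g * a) * s * (a⁻¹ * g * a)⁻¹) * (a⁻¹ * g) = a * s * a⁻¹ := by
        group
      rw [h0]; exact ha s (Subgroup.mem_zpowers s)
    have h1 : IsConj s ((a⁻¹ * g * a) * s * (a⁻¹ * g * a)⁻¹) := isConj_iff.mpr ⟨_, rfl⟩
    have hc' : MulAut.conj (a⁻¹ * g) • (T : Subgroup G) ≠ MulAut.conj b⁻¹ • (T : Subgroup G) := by
      rw [← hab]; exact hc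
    have h2 : IsConj ((a⁻¹ * g * a) * s * (a⁻¹ * g * a)⁻¹) t := key _ _ hc' _ t hro ht hrc htb
    exact h1.trans h2
  · exact key _ _ hab s t hs ht hsa htb

end Cfsg.Agent.S0231
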