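import Cfsg.Statements.S0234
import Mathlib
import Cfsg.Agent.Lib.Lead.SylowAux2
import Cfsg.Agent.Lib.Lead.CharFSMatrix
import Cfsg.Agent.Lib.Lead.CharCenter
import Cfsg.Agent.Lib.Lead.CharCount
import Cfsg.Agent.Lib.Helper8.CharPermFS

set_option autoImplicit false
open Cfsg Cfsg.Agent.Lib.Lead

namespace Cfsg.Agent.S0234

open scoped Pointwise commutatorElement

/-- In a finite simple group G of even order greater than 2, the number n of involutions satisfies 3n < |G|. -/
theorem result {G : Type*} [Group G] [Finite G] [IsSimpleGroup G] (heven : Even (Nat.card G)) (hgt : 2 < Nat.card G) : 3 * Nat.card {t : G // orderOf t = 2} < Nat.card G := by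
  classical
  haveI : Fintype G := Fintype.ofFinite G
  haveI : Fintype (Cfsg.IrrCharacter G) := Fintype.ofFinite _
  haveI : Fact (Nat.Prime 2) := ⟨Nat.prime_two⟩
  have hG0 : (Nat.card G : ℂ) ≠ 0 := Nat.cast_ne_zero.mpr Nat.card_pos.ne'
  obtain ⟨t, ht⟩ := exists_prime_orderOf_dvd_card' 2 heven.two_dvd
  have htt : t * t = 1 := by
    have := pow_orderOf_eq_one t
    rwa [ht, sq] at this
  have ht1 : t ≠ 1 := by
    rintro rfl
    rw [orderOf_one] at ht
    omega
  have hnc : ¬ ∀ g : G, t * g = g * t := by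
    intro hc
    have hn : (Subgroup.zpowers t).Normal := by
      constructor
      intro x hx g
      have hle : Subgroup.zpowers t ≤ Subgroup.centralizer {g} := by
        rw [Subgroup.zpowers_le, Subgroup.mem_centralizer_iff]
        intro h hh
        rw [Set.mem_singleton_iff] at hh
        rw [hh]; exact (hc g).symm
      have h2 := hle hx
      rw [Subgroup.mem_centralizer_iff] at h2
      have hxc : x * g = g * x := (h2 g rfl).symm
      have e : g * x * g⁻¹ = x := by rw [← hxc, mul_inv_cancel_right]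
      rw [e]; exact hx
    rcases hn.eq_bot_or_eq_top with h | h
    · exact ht1 (Subgroup.zpowers_eq_bot.mp h)
    · have hc2 : Nat.card (Subgroup.zpowers t) = Nat.card G := by
        rw [h]; exact Subgroup.card_top
      rw [Nat.card_zpowers, ht] at hc2
      omega
  have hdeg : ∀ χ : Cfsg.IrrCharacter G, (∀ g : G, (χ : G → ℂ) g = 1) ∨
      ∃ n : ℕ, 3 ≤ n ∧ (χ : G → ℂ) 1 = n := by
    intro χ
    obtain ⟨n, ρ, hirr, hχ⟩ := χ.2
    haveI := hirr
    have hχ1 : (χ : G → ℂ) 1 = n := by
      rw [← hχ, Representation.char_one, Module.finrank_fin_fun]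
    rcases (MonoidHom.normal_ker ρ).eq_bot_or_eq_top with hk | hk
    · right
      refine ⟨n, ?_, hχ1⟩
      by_contra hn3
      push Not at hn3
      have hinj : ∀ g : G, ρ g = 1 → g = 1 := by
        intro g hg
        have hmem : g ∈ MonoidHom.ker ρ := MonoidHom.mem_ker.mpr hg
        rw [hk] at hmem
        exact Subgroup.mem_bot.mp hmem
      apply hnc
      obtain ⟨n', hn'0, hn'⟩ := irr_one χ.2
      have hnn : n = n' := by
        have : (n : ℂ) = n' := by rw [← hχ1, hn']
        exact_mod_cast this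
      have hn0 : n ≠ 0 := by rw [hnn]; exact hn'0
      have hcases : n = 1 ∨ n = 2 := by omega
      rcases hcases with rfl | rfl
      · intro g
        have h1 := linear_char_commutator χ.2 (by rw [hχ1]; simp) t g
        have h2 : ρ (t * g * t⁻¹ * g⁻¹) = LinearMap.id := by
          apply (char_eq_finrank_iff ρ _).mp
          rw [hχ, h1, Module.finrank_fin_fun]; simp
        have h3 := hinj _ h2
        rw [mul_inv_eq_one, mul_inv_eq_iff_eq_mul] at h3
        exact h3
      · have hMmul : ∀ g h : G, LinearMap.toMatrix' (ρ (g * h)) =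
            LinearMap.toMatrix' (ρ g) * LinearMap.toMatrix' (ρ h) := toMatrix'_rho_mul ρ
        have hM1 : LinearMap.toMatrix' (ρ 1) = 1 := toMatrix'_rho_one ρ
        let d : G →* ℂ :=
          { toFun := fun g => (LinearMap.toMatrix' (ρ g)).det
            map_one' := by rw [hM1, Matrix.det_one]
            map_mul' := fun g h => by rw [hMmul, Matrix.det_mul] }
        have hdcomm : ∀ a b : G, a * b * a⁻¹ * b⁻¹ ∈ MonoidHom.ker d := by
          intro a b
          rw [MonoidHom.mem_ker, map_mul, map_mul, map_mul]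
          have h1 : d a * d a⁻¹ = 1 := by rw [← map_mul, mul_inv_cancel, map_one]
          have h2 : d b * d b⁻¹ = 1 := by rw [← map_mul, mul_inv_cancel, map_one]
          calc d a * d b * d a⁻¹ * d b⁻¹ = (d a * d a⁻¹) * (d b * d b⁻¹) := by ring
            _ = 1 := by rw [h1, h2, mul_one]
        have hdtop : MonoidHom.ker d = ⊤ := by
          rcases (MonoidHom.normal_ker d).eq_bot_or_eq_top with h | h
          · exfalso
            apply hnc
            intro g
            have h3 := hdcomm t g
            rw [h] at h3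
            have h4 := Subgroup.mem_bot.mp h3
            rw [mul_inv_eq_one, mul_inv_eq_iff_eq_mul] at h4
            exact h4
          · exact h
        have hdet : (LinearMap.toMatrix' (ρ t)).det = 1 := by
          have hmem : t ∈ MonoidHom.ker d := by rw [hdtop]; exact Subgroup.mem_top t
          exact MonoidHom.mem_ker.mp hmem
        obtain ⟨A, hA⟩ : ∃ A : Matrix (Fin 2) (Fin 2) ℂ, A = LinearMap.toMatrix' (ρ t) :=
          ⟨_, rfl⟩
        rw [← hA] at hdet
        have hAA : A * A = 1 := by rw [hA, ← hMmul, htt, hM1]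
        have hCH : A * A = A.trace • A - A.det • (1 : Matrix (Fin 2) (Fin 2) ℂ) := by
          ext i j
          fin_cases i <;> fin_cases j <;>
            simp [Matrix.mul_apply, Fin.sum_univ_two, Matrix.det_fin_two,
              Matrix.trace_fin_two] <;> ring
        rw [hAA, hdet, one_smul] at hCH
        have h2 : A.trace • A = (2 : ℂ) • (1 : Matrix (Fin 2) (Fin 2) ℂ) := by
          rw [two_smul]
          exact (eq_sub_iff_add_eq.mp hCH).symm
        have htr : A.trace ≠ 0 := by
          intro h0
          rw [h0, zero_smul] at h2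
          have := congrFun (congrFun h2 0) 0
          simp at this
        have hAc : A = (2 / A.trace) • (1 : Matrix (Fin 2) (Fin 2) ℂ) := by
          calc A = (A.trace)⁻¹ • (A.trace • A) := by
                rw [smul_smul, inv_mul_cancel₀ htr, one_smul]
            _ = (A.trace)⁻¹ • ((2 : ℂ) • (1 : Matrix (Fin 2) (Fin 2) ℂ)) := by rw [h2]
            _ = (2 / A.trace) • (1 : Matrix (Fin 2) (Fin 2) ℂ) := by
                rw [smul_smul, div_eq_inv_mul]
        obtain ⟨c, hc⟩ : ∃ c : ℂ, A = c • (1 : Matrix (Fin 2) (Fin 2) ℂ) := ⟨_, hAc⟩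
        intro g
        have hcomm : LinearMap.toMatrix' (ρ (t * g)) = LinearMap.toMatrix' (ρ (g * t)) := by
          rw [hMmul, hMmul, ← hA, hc, Matrix.smul_mul, Matrix.mul_smul, one_mul, mul_one]
        have hρ : ρ (t * g) = ρ (g * t) := LinearMap.toMatrix'.injective hcomm
        have h5 : ρ ((g * t)⁻¹ * (t * g)) = 1 := by
          rw [map_mul, hρ, ← map_mul, inv_mul_cancel, map_one]
        have h6 := hinj _ h5
        rw [inv_mul_eq_one] at h6
        exact h6.symm
    · left
      have hall : ∀ g : G, (χ : G → ℂ) g = n := by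
        intro g
        have hg : ρ g = LinearMap.id := by
          have hmem : g ∈ MonoidHom.ker ρ := by rw [hk]; exact Subgroup.mem_top g
          exact MonoidHom.mem_ker.mp hmem
        rw [← hχ, (char_eq_finrank_iff ρ g).mpr hg, Module.finrank_fin_fun]
      have h1 := classInner_irr_self χ.2
      unfold Cfsg.classInner at h1
      have hsum : ∑ g : G, (χ : G → ℂ) g * (starRingEnd ℂ) ((χ : G → ℂ) g) =
          (Nat.card G : ℂ) * ((n : ℂ) * n) := by
        have hterm : ∀ g ∈ (Finset.univ : Finset G),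
            (χ : G → ℂ) g * (starRingEnd ℂ) ((χ : G → ℂ) g) = (n : ℂ) * n := by
          intro g _
          rw [hall g, Complex.conj_natCast]
        rw [Finset.sum_congr rfl hterm, Finset.sum_const, Finset.card_univ, nsmul_eq_mul,
          Nat.card_eq_fintype_card]
      rw [hsum, ← mul_assoc, inv_mul_cancel₀ hG0, one_mul] at h1
      have hn1 : n * n = 1 := by exact_mod_cast h1
      have hn : n = 1 := by
        have h0 : n ≠ 0 := by rintro rfl; simp at hn1
        have h2 : n ≤ 1 := by
          by_contra h; push Not at h; nlinarith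
        omega
      intro g
      rw [hall g, hn]; simp
  have hdegN : ∀ χ : Cfsg.IrrCharacter G, ∃ n : ℕ, (χ : G → ℂ) 1 = n := fun χ => by
    obtain ⟨n, -, hn⟩ := irr_one χ.2; exact ⟨n, hn⟩
  choose dg hdg using hdegN
  have hfs : ∀ χ : Cfsg.IrrCharacter G, ∃ z : ℤ,
      (Nat.card G : ℂ)⁻¹ * ∑ g : G, (χ : G → ℂ) (g * g) = (z : ℂ) ∧ z ≤ 1 := fun χ => by
    obtain ⟨z, h1, h2, -⟩ := Cfsg.Agent.Lib.Helper8.fs_irr χ; exact ⟨z, h1, h2⟩
  choose fz hfz hfz1 using hfs
  have hcount := card_sq_eq_one (G := G)
  rw [finsum_eq_sum_of_fintype] at hcount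
  have hcount' : ((Nat.card {s : G // s * s = 1} : ℕ) : ℤ) =
      ∑ χ : Cfsg.IrrCharacter G, fz χ * (dg χ : ℤ) := by
    have h : ((Nat.card {s : G // s * s = 1} : ℕ) : ℂ) =
        ((∑ χ : Cfsg.IrrCharacter G, fz χ * (dg χ : ℤ) : ℤ) : ℂ) := by
      rw [hcount]
      push_cast
      apply Finset.sum_congr rfl
      intro χ _
      rw [hfz χ, hdg χ]
    exact_mod_cast h
  have hsq := sum_sq_degrees G
  rw [finsum_eq_sum_of_fintype] at hsq
  have hsq' : ∑ χ : Cfsg.IrrCharacter G, (dg χ) ^ 2 = Nat.card G := by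
    have h : ((∑ χ : Cfsg.IrrCharacter G, (dg χ) ^ 2 : ℕ) : ℂ) = (Nat.card G : ℂ) := by
      rw [← hsq]
      push_cast
      apply Finset.sum_congr rfl
      intro χ _
      rw [hdg χ]
    exact_mod_cast h
  have hm1 : Nat.card {s : G // s * s = 1} = Nat.card {t : G // orderOf t = 2} + 1 := by
    rw [Nat.card_eq_fintype_card, Nat.card_eq_fintype_card, Fintype.card_subtype,
      Fintype.card_subtype]
    have hins : Finset.univ.filter (fun s : G => s * s = 1) =
        insert 1 (Finset.univ.filter (fun s : G => orderOf s = 2)) := by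
      ext s
      simp only [Finset.mem_filter, Finset.mem_univ, true_and, Finset.mem_insert]
      rw [orderOf_eq_prime_iff, sq]
      constructor
      · intro h
        by_cases hs : s = 1
        · left; exact hs
        · right; exact ⟨h, hs⟩
      · rintro (rfl | ⟨h, -⟩)
        · exact one_mul 1
        · exact h
    rw [hins, Finset.card_insert_of_notMem]
    simp
  have hle1 : ∑ χ : Cfsg.IrrCharacter G, fz χ * (dg χ : ℤ) ≤
      ∑ χ : Cfsg.IrrCharacter G, (dg χ : ℤ) := by
    apply Finset.sum_le_sum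
    intro χ _
    have := mul_le_mul_of_nonneg_right (hfz1 χ) (Int.natCast_nonneg (dg χ))
    rwa [one_mul] at this
  obtain ⟨T, hT⟩ : ∃ T : Finset (Cfsg.IrrCharacter G),
      T = Finset.univ.filter (fun χ : Cfsg.IrrCharacter G => ∀ g : G, (χ : G → ℂ) g = 1) :=
    ⟨_, rfl⟩
  have hTcard : T.card ≤ 1 := by
    rw [Finset.card_le_one]
    intro a ha b hb
    rw [hT, Finset.mem_filter] at ha hb
    exact Subtype.ext (funext fun g => by rw [ha.2 g, hb.2 g])
  have hper : ∀ χ : Cfsg.IrrCharacter G,
      3 * dg χ ≤ dg χ ^ 2 + 2 * (if χ ∈ T then 1 else 0) := by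
    intro χ
    rcases hdeg χ with h | ⟨n, hn3, hn⟩
    · have h1 : dg χ = 1 := by
        have := hdg χ
        rw [h 1] at this
        exact_mod_cast this.symm
      have hmem : χ ∈ T := by rw [hT, Finset.mem_filter]; exact ⟨Finset.mem_univ _, h⟩
      rw [if_pos hmem, h1] <;> norm_num
    · have h1 : dg χ = n := by
        have := hdg χ
        rw [hn] at this
        exact_mod_cast this.symm
      rw [h1]
      have h2 : 3 * n ≤ n ^ 2 := by
        calc 3 * n ≤ n * n := Nat.mul_le_mul_right n hn3
          _ = n ^ 2 := (sq n).symm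
      exact le_trans h2 (Nat.le_add_right _ _)
  have hsum3 : 3 * ∑ χ : Cfsg.IrrCharacter G, dg χ ≤ Nat.card G + 2 := by
    rw [Finset.mul_sum]
    calc ∑ χ : Cfsg.IrrCharacter G, 3 * dg χ
        ≤ ∑ χ : Cfsg.IrrCharacter G, (dg χ ^ 2 + 2 * (if χ ∈ T then 1 else 0)) :=
          Finset.sum_le_sum (fun χ _ => hper χ)
      _ = ∑ χ : Cfsg.IrrCharacter G, dg χ ^ 2 + 2 * T.card := by
          rw [Finset.sum_add_distrib, ← Finset.mul_sum, Finset.sum_ite_mem, Finset.univ_inter,
            Finset.sum_const, smul_eq_mul, mul_one]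
      _ ≤ Nat.card G + 2 := by rw [hsq']; omega
  have hfinal : ((Nat.card {s : G // s * s = 1} : ℕ) : ℤ) ≤
      ((∑ χ : Cfsg.IrrCharacter G, dg χ : ℕ) : ℤ) := by
    rw [hcount']; push_cast; exact hle1
  have hfinal' : Nat.card {s : G // s * s = 1} ≤ ∑ χ : Cfsg.IrrCharacter G, dg χ := by
    exact_mod_cast hfinal
  rw [hm1] at hfinal'
  omega

end Cfsg.Agent.S0234
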