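import Cfsg.Statements.S0235
import Mathlib
import Cfsg.Agent.Lib.Lead.Invol

set_option autoImplicit false
open Cfsg Cfsg.Agent.Lib.Lead

namespace Cfsg.Agent.S0235

/-- If x² ≠ 1, the ordered pairs (u, v) of involutions with uv = x correspond bijectively to the involutions t with t x t⁻¹ = x⁻¹ (via (u, v) ↦ u), so the two counts agree. -/
theorem result {G : Type*} [Group G] [Finite G] (x : G) (hx : x ^ 2 ≠ 1) : Nat.card {p : G × G // orderOf p.1 = 2 ∧ orderOf p.2 = 2 ∧ p.1 * p.2 = x} = Nat.card {t : G // orderOf t = 2 ∧ t * x * t⁻¹ = x⁻¹} := by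
  apply Nat.card_congr
  refine ⟨fun p => ⟨p.1.1, p.2.1, ?_⟩, fun t => ⟨(t.1, t.1 * x), t.2.1, ?_, ?_⟩, ?_, ?_⟩
  · obtain ⟨⟨u, v⟩, hu, hv, huv⟩ := p
    change orderOf u = 2 at hu
    change orderOf v = 2 at hv
    change u * v = x at huv
    show u * x * u⁻¹ = x⁻¹
    rw [← huv, invol_inv hu, mul_inv_rev, invol_inv hu, invol_inv hv, ← mul_assoc,
      invol_mul_self hu, one_mul]
  · obtain ⟨t, ht, htx⟩ := t
    show orderOf (t * x) = 2
    rw [invol_iff]
    constructor
    · intro h
      apply hx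
      have h1 : x = t := by
        have := eq_inv_of_mul_eq_one_right h
        rw [this, invol_inv ht]
      rw [h1, pow_two, invol_mul_self ht]
    · have h1 : t * x * (t * x) = (t * x * t⁻¹) * x := by
        rw [invol_inv ht]; group
      rw [h1, htx, inv_mul_cancel]
  · show t.1 * (t.1 * x) = x
    rw [← mul_assoc, invol_mul_self t.2.1, one_mul]
  · intro p
    obtain ⟨⟨u, v⟩, hu, hv, huv⟩ := p
    change orderOf u = 2 at hu
    change u * v = x at huv
    apply Subtype.ext
    show (u, u * x) = (u, v)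
    rw [← huv, ← mul_assoc, invol_mul_self hu, one_mul]
  · intro t
    rfl

end Cfsg.Agent.S0235
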