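import Cfsg.Statements.S0236
import Mathlib
import Cfsg.Agent.Lib.Lead.Invol

set_option autoImplicit false
open Cfsg Cfsg.Agent.Lib.Lead

namespace Cfsg.Agent.S0236

/-- If x is an involution, the number of ordered pairs (u, v) of involutions with uv = x, plus one, equals the number of involutions in the centralizer of x. -/
theorem result {G : Type*} [Group G] [Finite G] (x : G) (hx : orderOf x = 2) : Nat.card {p : G × G // orderOf p.1 = 2 ∧ orderOf p.2 = 2 ∧ p.1 * p.2 = x} + 1 = Nat.card {t : G // orderOf t = 2 ∧ Commute t x} := by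
  have e : Nat.card {p : G × G // orderOf p.1 = 2 ∧ orderOf p.2 = 2 ∧ p.1 * p.2 = x}
      = Nat.card {t : G // (orderOf t = 2 ∧ Commute t x) ∧ t ≠ x} := by
    apply Nat.card_congr
    refine ⟨fun p => ⟨p.1.1, ⟨p.2.1, ?_⟩, ?_⟩, fun t => ⟨(t.1, t.1 * x), t.2.1.1, ?_, ?_⟩, ?_, ?_⟩
    · obtain ⟨⟨u, v⟩, hu, hv, huv⟩ := p
      change orderOf u = 2 at hu
      change orderOf v = 2 at hv
      change u * v = x at huv
      show u * x = x * u
      have hxx : u * v * (u * v) = 1 := by rw [huv]; exact invol_mul_self hx
      have h2 : u * v * u = v := by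
        have h1 : u * v * u * v = 1 := by rw [← hxx]; group
        have := eq_inv_of_mul_eq_one_left h1
        rw [this, invol_inv hv]
      rw [← huv, h2, ← mul_assoc, invol_mul_self hu, one_mul]
    · obtain ⟨⟨u, v⟩, hu, hv, huv⟩ := p
      change orderOf v = 2 at hv
      change u * v = x at huv
      show u ≠ x
      intro h
      rw [h] at huv
      exact invol_ne_one hv (by simpa using huv)
    · obtain ⟨t, ⟨ht, hc⟩, hne⟩ := t
      show orderOf (t * x) = 2
      rw [invol_iff]
      constructor
      · intro h
        apply hne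
        have := eq_inv_of_mul_eq_one_left h
        rw [this, invol_inv hx]
      · have h1 : t * x * (t * x) = (t * t) * (x * x) := by
          have := hc.eq
          calc t * x * (t * x) = t * (x * t) * x := by group
            _ = t * (t * x) * x := by rw [this]
            _ = (t * t) * (x * x) := by group
        rw [h1, invol_mul_self ht, invol_mul_self hx, one_mul]
    · show t.1 * (t.1 * x) = x
      rw [← mul_assoc, invol_mul_self t.2.1.1, one_mul]
    · intro p
      obtain ⟨⟨u, v⟩, hu, hv, huv⟩ := p
      change orderOf u = 2 at hu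
      change u * v = x at huv
      apply Subtype.ext
      show (u, u * x) = (u, v)
      rw [← huv, ← mul_assoc, invol_mul_self hu, one_mul]
    · intro t
      rfl
  rw [e]
  have e1 : Nat.card {t : G // (orderOf t = 2 ∧ Commute t x) ∧ t ≠ x}
      = Set.ncard {t : G | (orderOf t = 2 ∧ Commute t x) ∧ t ≠ x} := Nat.card_coe_set_eq _
  have e2 : Nat.card {t : G // orderOf t = 2 ∧ Commute t x}
      = Set.ncard {t : G | orderOf t = 2 ∧ Commute t x} := Nat.card_coe_set_eq _
  rw [e1, e2]
  have hset : {t : G | orderOf t = 2 ∧ Commute t x}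
      = insert x {t : G | (orderOf t = 2 ∧ Commute t x) ∧ t ≠ x} := by
    ext t
    simp only [Set.mem_insert_iff, Set.mem_ofPred_eq]
    constructor
    · intro h
      by_cases htx : t = x
      · exact Or.inl htx
      · exact Or.inr ⟨h, htx⟩
    · rintro (rfl | h)
      · exact ⟨hx, Commute.refl _⟩
      · exact h.1
  rw [hset, Set.ncard_insert_of_notMem]
  simp

end Cfsg.Agent.S0236
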