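import Cfsg.Statements.S0237
import Mathlib

set_option autoImplicit false
open Cfsg

namespace Cfsg.Agent.S0237

/-- If x is real (conjugate to x⁻¹) in a finite group G, the number of g with g x g⁻¹ = x⁻¹ equals |C_G(x)|. -/
theorem result {G : Type*} [Group G] [Finite G] (x : G) (hreal : IsConj x x⁻¹) : Nat.card {g : G // g * x * g⁻¹ = x⁻¹} = Nat.card (Subgroup.centralizer ({x} : Set G)) := by
  obtain ⟨g₀, hg₀⟩ := isConj_iff.mp hreal
  apply Nat.card_congr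
  refine ⟨fun g => ⟨g₀⁻¹ * g.1, ?_⟩, fun c => ⟨g₀ * c.1, ?_⟩, ?_, ?_⟩
  · obtain ⟨g, h1⟩ := g
    rw [Subgroup.mem_centralizer_iff]
    intro y hy
    rw [Set.mem_singleton_iff] at hy
    subst hy
    -- g x g⁻¹ = x⁻¹ = g₀ x g₀⁻¹
    have h2 : g * y = g₀ * y * g₀⁻¹ * g := by
      rw [hg₀]; exact mul_inv_eq_iff_eq_mul.mp h1
    calc y * (g₀⁻¹ * g) = g₀⁻¹ * (g₀ * y * g₀⁻¹ * g) := by group
      _ = g₀⁻¹ * (g * y) := by rw [h2]
      _ = g₀⁻¹ * g * y := by group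
  · have hc := c.2
    rw [Subgroup.mem_centralizer_iff] at hc
    have hc' := hc x rfl
    calc g₀ * c.1 * x * (g₀ * c.1)⁻¹ = g₀ * (c.1 * x) * c.1⁻¹ * g₀⁻¹ := by group
      _ = g₀ * (x * c.1) * c.1⁻¹ * g₀⁻¹ := by rw [hc']
      _ = g₀ * x * g₀⁻¹ := by group
      _ = x⁻¹ := hg₀
  · intro g
    apply Subtype.ext
    simp
  · intro c
    apply Subtype.ext
    simp

end Cfsg.Agent.S0237
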