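import Cfsg.Statements.S0238
import Mathlib
import Cfsg.Agent.Lib.Lead.Invol
import Cfsg.Agent.S0235
import Cfsg.Agent.S0236
import Cfsg.Agent.S0237

set_option autoImplicit false
open Cfsg Cfsg.Agent.Lib.Lead

namespace Cfsg.Agent.S0238

/-- For every x in a finite group G, the number c of ordered pairs (u, v) of involutions with uv = x is at most |C_G(x)|; c = 0 when x is not conjugate to x⁻¹; and c + 2 ≤ |C_G(x)| when x is an involution. -/
theorem result {G : Type*} [Group G] [Finite G] (x : G) : Nat.card {p : G × G // orderOf p.1 = 2 ∧ orderOf p.2 = 2 ∧ p.1 * p.2 = x} ≤ Nat.card (Subgroup.centralizer ({x} : Set G)) ∧ (¬ IsConj x x⁻¹ → Nat.card {p : G × G // orderOf p.1 = 2 ∧ orderOf p.2 = 2 ∧ p.1 * p.2 = x} = 0) ∧ (orderOf x = 2 → Nat.card {p : G × G // orderOf p.1 = 2 ∧ orderOf p.2 = 2 ∧ p.1 * p.2 = x} + 2 ≤ Nat.card (Subgroup.centralizer ({x} : Set G))) := by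
  classical
  have key : ∀ u v : G, orderOf u = 2 → orderOf v = 2 → u * v = x → u * x * u⁻¹ = x⁻¹ := by
    intro u v hu hv huv
    rw [← huv, invol_inv hu, mul_inv_rev, invol_inv hu, invol_inv hv, ← mul_assoc,
      invol_mul_self hu, one_mul]
  have hb : ¬ IsConj x x⁻¹ →
      Nat.card {p : G × G // orderOf p.1 = 2 ∧ orderOf p.2 = 2 ∧ p.1 * p.2 = x} = 0 := by
    intro hn
    rw [Nat.card_eq_zero]
    left
    constructor
    rintro ⟨⟨u, v⟩, hu, hv, huv⟩
    exact hn (isConj_iff.mpr ⟨u, key u v hu hv huv⟩)
  have hcC : orderOf x = 2 →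
      Nat.card {p : G × G // orderOf p.1 = 2 ∧ orderOf p.2 = 2 ∧ p.1 * p.2 = x} + 2
        ≤ Nat.card (Subgroup.centralizer ({x} : Set G)) := by
    intro hx
    have h1 := Cfsg.Agent.S0236.result x hx
    let f : Option {t : G // orderOf t = 2 ∧ Commute t x} → Subgroup.centralizer ({x} : Set G) :=
      fun o => o.elim 1 (fun t => ⟨t.1, by
        rw [Subgroup.mem_centralizer_iff]
        intro y hy
        rw [Set.mem_singleton_iff] at hy
        rw [hy]
        exact t.2.2.eq.symm⟩)
    have hf : Function.Injective f := by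
      intro a b hab
      cases a with
      | none =>
        cases b with
        | none => rfl
        | some t =>
          exfalso
          apply invol_ne_one t.2.1
          have := congrArg Subtype.val hab
          exact this.symm
      | some s =>
        cases b with
        | none =>
          exfalso
          apply invol_ne_one s.2.1
          exact congrArg Subtype.val hab
        | some t =>
          have h3 := Subtype.ext_iff.mp hab
          exact congrArg some (Subtype.ext h3)
    have h2 := Nat.card_le_card_of_injective f hf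
    rw [Finite.card_option, ← h1] at h2
    exact h2
  refine ⟨?_, hb, hcC⟩
  by_cases hx2 : x ^ 2 = 1
  · have hxinv : x⁻¹ = x := by
      rw [pow_two] at hx2; exact inv_eq_of_mul_eq_one_right hx2
    let f : {p : G × G // orderOf p.1 = 2 ∧ orderOf p.2 = 2 ∧ p.1 * p.2 = x} →
        Subgroup.centralizer ({x} : Set G) :=
      fun p => ⟨p.1.1, by
        rw [Subgroup.mem_centralizer_iff]
        intro y hy
        rw [Set.mem_singleton_iff] at hy
        rw [hy]
        have := key p.1.1 p.1.2 p.2.1 p.2.2.1 p.2.2.2
        rw [hxinv] at this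
        exact (mul_inv_eq_iff_eq_mul.mp this).symm⟩
    have hf : Function.Injective f := by
      rintro ⟨⟨u, v⟩, hu, hv, huv⟩ ⟨⟨u', v'⟩, hu', hv', huv'⟩ hab
      have h1 : u = u' := congrArg Subtype.val hab
      subst h1
      change u * v = x at huv
      change u * v' = x at huv'
      have : v = v' := mul_left_cancel (huv.trans huv'.symm)
      subst this
      rfl
    exact Nat.card_le_card_of_injective f hf
  · by_cases hr : IsConj x x⁻¹
    · rw [Cfsg.Agent.S0235.result x hx2, ← Cfsg.Agent.S0237.result x hr]
      exact Nat.card_le_card_of_injective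
        (fun t : {t : G // orderOf t = 2 ∧ t * x * t⁻¹ = x⁻¹} =>
          (⟨t.1, t.2.2⟩ : {g : G // g * x * g⁻¹ = x⁻¹}))
        (fun a b hab => by
          have h3 := Subtype.ext_iff.mp hab
          exact Subtype.ext h3)
    · rw [hb hr]; exact Nat.zero_le _

end Cfsg.Agent.S0238
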