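import Cfsg.Statements.S0239
import Mathlib

set_option autoImplicit false
open Cfsg

namespace Cfsg.Agent.S0239

/-- If some nontrivial element x of a finite group G is conjugate to x⁻¹, then |G| is even. -/
theorem result {G : Type*} [Group G] [Finite G] (x : G) (hx : x ≠ 1) (hreal : IsConj x x⁻¹) : Even (Nat.card G) := by
  by_contra hodd
  rw [Nat.not_even_iff_odd] at hodd
  obtain ⟨g, hg⟩ := isConj_iff.mp hreal
  -- g * x * g⁻¹ = x⁻¹
  have h1 : g * x = x⁻¹ * g := mul_inv_eq_iff_eq_mul.mp hg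
  have h2 : x * g = g * x⁻¹ :=
    eq_mul_inv_iff_mul_eq.mpr (by rw [mul_assoc, h1, mul_inv_cancel_left])
  have hg2 : g ^ 2 * x = x * g ^ 2 := by
    calc g ^ 2 * x = g * (g * x) := by rw [pow_two, mul_assoc]
      _ = g * (x⁻¹ * g) := by rw [h1]
      _ = (g * x⁻¹) * g := by rw [mul_assoc]
      _ = x * g * g := by rw [h2]
      _ = x * g ^ 2 := by rw [pow_two, mul_assoc]
  have hgodd : Odd (orderOf g) := hodd.of_dvd_nat (orderOf_dvd_natCard g)
  obtain ⟨k, hk⟩ := hgodd
  have hgpow : g = (g ^ 2) ^ (k + 1) := by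
    rw [← pow_mul]
    have : 2 * (k + 1) = orderOf g + 1 := by omega
    rw [this, pow_succ, pow_orderOf_eq_one, one_mul]
  have hcomm : Commute (g ^ 2) x := hg2
  have hgx : Commute g x := by
    rw [hgpow]; exact hcomm.pow_left _
  have hxx : x = x⁻¹ := by
    rw [← hg, hgx.eq, mul_inv_cancel_right]
  have hx2 : x ^ 2 = 1 := by
    rw [pow_two]
    nth_rewrite 2 [hxx]
    exact mul_inv_cancel x
  have hxodd : Odd (orderOf x) := hodd.of_dvd_nat (orderOf_dvd_natCard x)
  have hdvd : orderOf x ∣ 2 := orderOf_dvd_of_pow_eq_one hx2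
  have : orderOf x = 1 := by
    rcases (Nat.dvd_prime Nat.prime_two).mp hdvd with h | h
    · exact h
    · rw [h] at hxodd; exact absurd hxodd (by decide)
  exact hx (orderOf_eq_one_iff.mp this)

end Cfsg.Agent.S0239
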