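import Cfsg.Statements.S0240
import Mathlib
import Cfsg.Agent.Lib.Lead.Invol

set_option autoImplicit false
open Cfsg Cfsg.Agent.Lib.Lead

namespace Cfsg.Agent.S0240

/-- Let G be a finite group with n involutions and H a subgroup with |H|·(n+1) > |G|. Then some nontrivial h ∈ H is strongly real in G: an involution t of G satisfies t h t⁻¹ = h⁻¹. -/
theorem result {G : Type*} [Group G] [Finite G] (H : Subgroup G) (hH : Nat.card G < Nat.card H * (Nat.card {t : G // orderOf t = 2} + 1)) : ∃ h : G, h ∈ H ∧ h ≠ 1 ∧ ∃ t : G, orderOf t = 2 ∧ t * h * t⁻¹ = h⁻¹ := by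
  classical
  let ι : Option {t : G // orderOf t = 2} → G := fun o => o.elim 1 (fun t => t.1)
  have hι : ∀ o : Option {t : G // orderOf t = 2}, ι o * ι o = 1 := by
    intro o
    cases o with
    | none => simp [ι]
    | some t => exact invol_mul_self t.2
  have hιinj : Function.Injective ι := by
    intro a b hab
    cases a with
    | none =>
      cases b with
      | none => rfl
      | some t => exact absurd hab.symm (invol_ne_one t.2)
    | some s =>
      cases b with
      | none => exact absurd hab (invol_ne_one s.2)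
      | some t => exact congrArg some (Subtype.ext hab)
  let f : Option {t : G // orderOf t = 2} × H → G := fun p => ι p.1 * p.2
  have hcard : Nat.card G < Nat.card (Option {t : G // orderOf t = 2} × H) := by
    rw [Nat.card_prod, Finite.card_option, mul_comm]; exact hH
  have hninj : ¬ Function.Injective f := fun hinj =>
    absurd (Nat.card_le_card_of_injective f hinj) (by omega)
  simp only [Function.Injective] at hninj
  push Not at hninj
  obtain ⟨p, q, hfpq, hpq⟩ := hninj
  obtain ⟨a, h⟩ := p
  obtain ⟨b, k⟩ := q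
  change ι a * h = ι b * k at hfpq
  have hab : a ≠ b := by
    rintro rfl
    apply hpq
    have h1 := mul_left_cancel hfpq
    rw [Subtype.ext h1]
  have hne : ι a ≠ ι b := fun e => hab (hιinj e)
  have hmem : ι a * ι b ∈ H := by
    have h2 : ι a * ι b = (h : G) * (k : G)⁻¹ := by
      have h1 : (h : G) = ι a * (ι b * k) := by rw [← hfpq, ← mul_assoc, hι, one_mul]
      rw [h1, mul_assoc, mul_assoc, mul_inv_cancel, mul_one]
    rw [h2]; exact H.mul_mem h.2 (H.inv_mem k.2)
  have hne1 : ι a * ι b ≠ 1 := by
    intro e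
    apply hne
    have h1 := eq_inv_of_mul_eq_one_left e
    rw [h1]; exact inv_eq_of_mul_eq_one_right (hι b)
  refine ⟨ι a * ι b, hmem, hne1, ?_⟩
  cases a with
  | none =>
    cases b with
    | none => exact absurd rfl hab
    | some t =>
      refine ⟨t.1, t.2, ?_⟩
      show t.1 * (1 * t.1) * t.1⁻¹ = (1 * t.1)⁻¹
      rw [one_mul, mul_inv_cancel_right, invol_inv t.2]
  | some s =>
    refine ⟨s.1, s.2, ?_⟩
    show s.1 * (s.1 * ι b) * s.1⁻¹ = (s.1 * ι b)⁻¹
    rw [← mul_assoc, invol_mul_self s.2, one_mul, mul_inv_rev, invol_inv s.2,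
      inv_eq_of_mul_eq_one_right (hι b)]

end Cfsg.Agent.S0240
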