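import Cfsg.Statements.S0241
import Mathlib
import Cfsg.Agent.Lib.Lead.Invol

set_option autoImplicit false
open Cfsg Cfsg.Agent.Lib.Lead

namespace Cfsg.Agent.S0241

/-- If x ≠ 1 is conjugate to x⁻¹ in a finite group G and |C_G(x)| is odd, then some involution t satisfies t x t⁻¹ = x⁻¹. -/
theorem result {G : Type*} [Group G] [Finite G] (x : G) (hx : x ≠ 1) (hreal : IsConj x x⁻¹) (hodd : Odd (Nat.card (Subgroup.centralizer ({x} : Set G)))) : ∃ t : G, orderOf t = 2 ∧ t * x * t⁻¹ = x⁻¹ := by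
  obtain ⟨g, hg⟩ := isConj_iff.mp hreal
  have hxmem : x ∈ Subgroup.centralizer ({x} : Set G) := by
    rw [Subgroup.mem_centralizer_iff]
    intro y hy
    rw [Set.mem_singleton_iff] at hy
    rw [hy]
  have hx2 : x * x ≠ 1 := by
    intro h
    have hxo : orderOf x = 2 := invol_iff.mpr ⟨hx, h⟩
    have h1 : orderOf (⟨x, hxmem⟩ : Subgroup.centralizer ({x} : Set G)) = 2 := by
      rw [← hxo]; exact Subgroup.orderOf_mk x hxmem
    have hdvd := orderOf_dvd_natCard (⟨x, hxmem⟩ : Subgroup.centralizer ({x} : Set G))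
    rw [h1] at hdvd
    exact (Nat.not_even_iff_odd.mpr hodd) (even_iff_two_dvd.mpr hdvd)
  obtain ⟨a, m, hmodd, ham⟩ := Nat.exists_eq_two_pow_mul_odd (orderOf_pos g).ne'
  have hg' : g * x⁻¹ * g⁻¹ = x := by
    have h := congrArg (fun y => y⁻¹) hg
    simp only [mul_inv_rev, inv_inv] at h
    rw [mul_assoc]; exact h
  have hconj : ∀ k : ℕ, g ^ k * x * (g ^ k)⁻¹ = if Even k then x else x⁻¹ := by
    intro k
    induction k with
    | zero => simp
    | succ k ih =>
      have h1 : g ^ (k + 1) * x * (g ^ (k + 1))⁻¹ = g * (g ^ k * x * (g ^ k)⁻¹) * g⁻¹ := by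
        rw [pow_succ']; group
      rw [h1, ih]
      by_cases hk : Even k
      · have h2 : ¬ Even (k + 1) := by rw [Nat.even_add_one]; simpa using hk
        rw [if_pos hk, if_neg h2, hg]
      · have h2 : Even (k + 1) := by rw [Nat.even_add_one]; exact hk
        rw [if_neg hk, if_pos h2, hg']
  have htx : g ^ m * x * (g ^ m)⁻¹ = x⁻¹ := by
    rw [hconj m, if_neg (Nat.not_even_iff_odd.mpr hmodd)]
  have ht2c : (g ^ m) ^ 2 ∈ Subgroup.centralizer ({x} : Set G) := by
    rw [Subgroup.mem_centralizer_iff]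
    intro y hy
    rw [Set.mem_singleton_iff] at hy
    subst hy
    have h2 := hconj (m * 2)
    rw [if_pos (by simp)] at h2
    rw [← pow_mul]
    exact (mul_inv_eq_iff_eq_mul.mp h2).symm
  have ht2pow : ((g ^ m) ^ 2) ^ (2 ^ a) = 1 := by
    rw [← pow_mul, ← pow_mul]
    have h1 : m * (2 * 2 ^ a) = orderOf g * 2 := by rw [ham]; ring
    rw [h1, pow_mul, pow_orderOf_eq_one, one_pow]
  have ho : orderOf ((g ^ m) ^ 2) ∣ 2 ^ a := orderOf_dvd_of_pow_eq_one ht2pow
  have ho2 : orderOf ((g ^ m) ^ 2) ∣ Nat.card (Subgroup.centralizer ({x} : Set G)) := by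
    have h1 := orderOf_dvd_natCard (⟨(g ^ m) ^ 2, ht2c⟩ : Subgroup.centralizer ({x} : Set G))
    rwa [Subgroup.orderOf_mk] at h1
  have ho3 : orderOf ((g ^ m) ^ 2) = 1 := by
    have hcop : Nat.Coprime (2 ^ a) (Nat.card (Subgroup.centralizer ({x} : Set G))) := by
      apply Nat.Coprime.pow_left
      rw [Nat.coprime_two_left]
      exact hodd
    exact Nat.eq_one_of_dvd_coprimes hcop ho ho2
  have ht2 : (g ^ m) ^ 2 = 1 := orderOf_eq_one_iff.mp ho3
  refine ⟨g ^ m, invol_iff.mpr ⟨?_, by rw [← pow_two]; exact ht2⟩, htx⟩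
  intro h1
  rw [h1] at htx
  apply hx2
  have h3 : x = x⁻¹ := by simpa using htx
  calc x * x = x * x⁻¹ := by rw [← h3]
    _ = 1 := mul_inv_cancel x

end Cfsg.Agent.S0241
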