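import Cfsg.Statements.S0250
import Mathlib
import Cfsg.Agent.Lib.Lead.SylowAux2
import Cfsg.Agent.Lib.Lead.PermEmbed
import Cfsg.Agent.S0242

set_option autoImplicit false
open Cfsg Cfsg.Agent.Lib.Lead

namespace Cfsg.Agent.S0250

open scoped Pointwise commutatorElement

/-- SL_2(2) is isomorphic to S_3. -/
theorem result {F : Type*} [Field F] [Fintype F] (hF : Fintype.card F = 2) : Nonempty (Matrix.SpecialLinearGroup (Fin 2) F ≃* Equiv.Perm (Fin 3)) := by
  have h1 := Cfsg.Agent.S0242.result hF 2 (by norm_num)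
  rw [Fin.prod_univ_two] at h1
  norm_num at h1
  exact sl2_perm 3 (by rw [hF]) hF (by rw [h1]; rfl)

end Cfsg.Agent.S0250
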