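import Cfsg.Statements.S0494
import Mathlib
import Cfsg.Agent.Lib.Helper2.SimpleOrder
import Cfsg.Agent.Lib.Helper2.SimpleOrder2


set_option autoImplicit false
open Cfsg

namespace Cfsg.Agent.S0494

/-- A simple group of order 60 is isomorphic to the alternating group of degree 5. -/
theorem result {G : Type*} [Group G] [Finite G] [IsSimpleGroup G]
    (h : Nat.card G = 60) : Nonempty (G ≃* alternatingGroup (Fin 5)) := by
  classical
  haveI : Fact (Nat.Prime 2) := ⟨Nat.prime_two⟩
  obtain ⟨P⟩ : Nonempty (Sylow 2 G) := inferInstance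
  obtain ⟨hP, hidx⟩ := Cfsg.Agent.Lib.Helper2.sylow_card_of_eq_pow 2 P 2 15 (by rw [h]; norm_num)
    (by norm_num)
  obtain ⟨h1, h2, h3⟩ := Cfsg.Agent.Lib.Helper2.sylow_count 2 P
  rw [hidx] at h2
  rw [h] at h3
  obtain ⟨N, hN⟩ : ∃ N, N = Subgroup.normalizer ((P : Subgroup G) : Set G) := ⟨_, rfl⟩
  rw [← hN] at h3
  have hNidx : N.index = Nat.card (Sylow 2 G) := by
    rw [hN]; exact (P.card_eq_index_normalizer).symm
  have hn5 : Nat.card (Sylow 2 G) = 5 := by
    have hle := Nat.le_of_dvd (by norm_num) h2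
    have hne1 := Cfsg.Agent.Lib.Helper2.sylow_not_normal_of_simple 2 P (by rw [hP]; norm_num)
      (by rw [hP, h]; norm_num)
    have hne3 : Nat.card (Sylow 2 G) ≠ 3 := by
      intro h4
      have hNtop : N ≠ ⊤ := by
        intro h5; rw [h5, Subgroup.index_top] at hNidx; omega
      have := Cfsg.Agent.Lib.Helper2.simple_card_dvd_factorial N hNtop
      rw [hNidx, h4, h] at this
      revert this; decide
    have hne15 : Nat.card (Sylow 2 G) ≠ 15 := by
      intro h4
      rw [h4] at h3
      have hNcard : Nat.card N = 4 := by omega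
      have hPN : (P : Subgroup G) = N := by
        apply Subgroup.eq_of_le_of_card_ge (hN ▸ Subgroup.le_normalizer)
        rw [hNcard, hP]; norm_num
      have hcomm : IsMulCommutative (P : Subgroup G) :=
        ⟨⟨IsPGroup.commutative_of_card_eq_prime_sq (p := 2) hP⟩⟩
      have hNC : Subgroup.normalizer ((P : Subgroup G) : Set G)
          ≤ Subgroup.centralizer ((P : Subgroup G) : Set G) := by
        rw [← hN, ← hPN]
        exact Subgroup.le_centralizer_iff_isMulCommutative.2 hcomm
      have hcompl := MonoidHom.ker_transferSylow_isComplement' P hNC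
      have hnorm : (MonoidHom.transferSylow P hNC).ker.Normal := inferInstance
      rcases hnorm.eq_bot_or_eq_top with h5 | h5
      · rw [h5] at hcompl
        have h6 : (P : Subgroup G) = ⊤ := Subgroup.isComplement'_bot_left.mp hcompl
        rw [h6, Subgroup.card_top, h] at hP; omega
      · rw [h5] at hcompl
        have h6 : (P : Subgroup G) = ⊥ := Subgroup.isComplement'_top_left.mp hcompl
        rw [h6, Subgroup.card_bot] at hP; omega
    obtain ⟨n, hn⟩ : ∃ n, n = Nat.card (Sylow 2 G) := ⟨_, rfl⟩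
    rw [← hn] at h1 h2 hle hne1 hne3 hne15 ⊢
    clear hn hNidx h3
    interval_cases n <;> omega
  have hNidx5 : N.index = 5 := hNidx.trans hn5
  have hNtop : N ≠ ⊤ := by
    intro h5; rw [h5, Subgroup.index_top] at hNidx5; omega
  obtain ⟨φ, hφ⟩ : ∃ φ : G →* Equiv.Perm (G ⧸ N), φ = MulAction.toPermHom G (G ⧸ N) := ⟨_, rfl⟩
  have hker : φ.ker = ⊥ := by
    have hn : φ.ker.Normal := inferInstance
    rcases hn.eq_bot_or_eq_top with h4 | h4
    · exact h4
    · exfalso; apply hNtop
      rw [eq_top_iff]; intro g _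
      have hg : g ∈ φ.ker := h4 ▸ Subgroup.mem_top g
      rw [MonoidHom.mem_ker, hφ] at hg
      have h5 : g • ((1 : G) : G ⧸ N) = ((1 : G) : G ⧸ N) := by
        have := congrArg (fun σ : Equiv.Perm (G ⧸ N) => σ ((1 : G) : G ⧸ N)) hg
        simpa using this
      rw [MulAction.Quotient.smul_mk, QuotientGroup.eq] at h5
      have h6 : g⁻¹ ∈ N := by simpa using h5
      simpa using N.inv_mem h6
  have hφinj : Function.Injective φ := (MonoidHom.ker_eq_bot_iff φ).1 hker
  letI : Fintype (G ⧸ N) := Fintype.ofFinite _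
  have hcardX : Fintype.card (G ⧸ N) = 5 := by
    rw [← Nat.card_eq_fintype_card]; exact hNidx5
  obtain ⟨e⟩ : Nonempty ((G ⧸ N) ≃ Fin 5) := ⟨Fintype.equivFinOfCardEq hcardX⟩
  obtain ⟨ψ, hψ⟩ : ∃ ψ : G →* Equiv.Perm (Fin 5),
      ψ = (e.permCongrHom).toMonoidHom.comp φ := ⟨_, rfl⟩
  have hψinj : Function.Injective ψ := by
    rw [hψ]
    exact (e.permCongrHom).injective.comp hφinj
  have hsign : ∀ g, Equiv.Perm.sign (ψ g) = 1 := by
    obtain ⟨χ, hχ⟩ : ∃ χ : G →* ℤˣ, χ = Equiv.Perm.sign.comp ψ := ⟨_, rfl⟩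
    have hn : χ.ker.Normal := inferInstance
    rcases hn.eq_bot_or_eq_top with h4 | h4
    · exfalso
      have hχi : Function.Injective χ := (MonoidHom.ker_eq_bot_iff χ).1 h4
      have h5 := Nat.card_le_card_of_injective χ hχi
      rw [h] at h5
      have h6 : Nat.card ℤˣ = 2 := by
        rw [Nat.card_eq_fintype_card]; rfl
      omega
    · intro g
      have : g ∈ χ.ker := h4 ▸ Subgroup.mem_top g
      have := MonoidHom.mem_ker.1 this
      rw [hχ] at this
      exact this
  have hrange : ψ.range = alternatingGroup (Fin 5) := by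
    apply Subgroup.eq_of_le_of_card_ge
    · rintro _ ⟨g, rfl⟩
      exact Equiv.Perm.mem_alternatingGroup.2 (hsign g)
    · have h5 : Nat.card ψ.range = 60 := by
        rw [← h]; exact (Nat.card_congr (MonoidHom.ofInjective hψinj).toEquiv).symm
      have h6 : Nat.card (alternatingGroup (Fin 5)) = 60 := by
        rw [nat_card_alternatingGroup]
        simp [Nat.factorial]
      rw [h5, h6]
  exact ⟨(MonoidHom.ofInjective hψinj).trans (MulEquiv.subgroupCongr hrange)⟩

end Cfsg.Agent.S0494
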