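import Mathlib
import Cfsg.Statements.S0255
import Mathlib
import Cfsg.Agent.Lib.Helper2.L27Pres
import Cfsg.Agent.Lib.Helper4.SL2Unip

set_option autoImplicit false
open Cfsg

namespace Cfsg.Agent.S0255

/-- PSL_2(7) is isomorphic to PSL_3(2). -/
theorem result {F K : Type*} [Field F] [Fintype F] [Field K] [Fintype K] (hF : Fintype.card F = 7) (hK : Fintype.card K = 2) : Nonempty (Matrix.ProjectiveSpecialLinearGroup (Fin 2) F ≃* Matrix.ProjectiveSpecialLinearGroup (Fin 3) K) := by
  classical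
  suffices hmain : ∀ R : Set (FreeGroup (Fin 2)), R = {FreeGroup.of (0 : Fin 2) * FreeGroup.of (0 : Fin 2),
        FreeGroup.of (1 : Fin 2) * FreeGroup.of (1 : Fin 2) * FreeGroup.of (1 : Fin 2) * FreeGroup.of (1 : Fin 2) * FreeGroup.of (1 : Fin 2) * FreeGroup.of (1 : Fin 2) * FreeGroup.of (1 : Fin 2),
        FreeGroup.of (0 : Fin 2) * FreeGroup.of (1 : Fin 2) * FreeGroup.of (0 : Fin 2) * FreeGroup.of (1 : Fin 2) * FreeGroup.of (0 : Fin 2) * FreeGroup.of (1 : Fin 2),
        FreeGroup.of (1 : Fin 2) * FreeGroup.of (0 : Fin 2) * FreeGroup.of (1 : Fin 2) * FreeGroup.of (1 : Fin 2) * FreeGroup.of (1 : Fin 2) * FreeGroup.of (1 : Fin 2) * FreeGroup.of (1 : Fin 2) * FreeGroup.of (1 : Fin 2) * FreeGroup.of (0 : Fin 2) * FreeGroup.of (1 : Fin 2) * FreeGroup.of (0 : Fin 2) * FreeGroup.of (1 : Fin 2) * FreeGroup.of (1 : Fin 2) * FreeGroup.of (1 : Fin 2) * FreeGroup.of (1 : Fin 2) * FreeGroup.of (1 : Fin 2) * FreeGroup.of (1 : Fin 2) * FreeGroup.of (0 : Fin 2) * FreeGroup.of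 (1 : Fin 2) * FreeGroup.of (0 : Fin 2) * FreeGroup.of (1 : Fin 2) * FreeGroup.of (1 : Fin 2) * FreeGroup.of (1 : Fin 2) * FreeGroup.of (1 : Fin 2) * FreeGroup.of (1 : Fin 2) * FreeGroup.of (1 : Fin 2) * FreeGroup.of (0 : Fin 2) * FreeGroup.of (1 : Fin 2) * FreeGroup.of (0 : Fin 2) * FreeGroup.of (1 : Fin 2) * FreeGroup.of (1 : Fin 2) * FreeGroup.of (1 : Fin 2) * FreeGroup.of (1 : Fin 2) * FreeGroup.of (1 : Fin 2) * FreeGroup.of (1 : Fin 2) * FreeGroup.of (0 : Fin 2)} →
      Nonempty (Matrix.ProjectiveSpecialLinearGroup (Fin 2) F ≃*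
        Matrix.ProjectiveSpecialLinearGroup (Fin 3) K) from hmain _ rfl
  intro R hR
  obtain ⟨A, B, hdA, hdB, hq0, hq1, hq2, hq3, hA01, hB01, hAB01⟩ :
      ∃ (A B : Matrix (Fin 2) (Fin 2) (ZMod 7)),
        A 0 0 * A 1 1 - A 0 1 * A 1 0 = 1 ∧ B 0 0 * B 1 1 - B 0 1 * B 1 0 = 1 ∧
        (A * A = 1 ∨ A * A = -1) ∧
        (B * B * B * B * B * B * B = 1 ∨ B * B * B * B * B * B * B = -1) ∧
        (A * B * A * B * A * B = 1 ∨ A * B * A * B * A * B = -1) ∧
        (B * A * B * B * B * B * B * B * A * B * A * B * B * B * B * B * B * A * B * A * B * B * B * B * B * B * A * B * A * B * B * B * B * B * B * A = 1 ∨ B * A * B * B * B * B * B * B * A * B * A * B * B * B * B * B * B * A * B * A * B * B * B * B * B * B * A * B * A * B * B * B * B * B * B * A = -1) ∧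
        A 0 1 ≠ 0 ∧ B 0 1 ≠ 0 ∧ (A * B) 0 1 ≠ 0 :=
    ⟨!![0, 1; 6, 0], !![0, 2; 3, 2], by decide +kernel, by decide +kernel, by decide +kernel,
      by decide +kernel, by decide +kernel, by decide +kernel, by decide +kernel,
      by decide +kernel, by decide +kernel⟩
  obtain ⟨C, D, D', hCC, hDD, ht0, ht1, ht2, ht3, hC20⟩ :
      ∃ (C D D' : Matrix (Fin 3) (Fin 3) (ZMod 2)),
        C * C = 1 ∧ D * D' = 1 ∧
        C * C = 1 ∧
        D * D * D * D * D * D * D = 1 ∧
        C * D * C * D * C * D = 1 ∧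
        D * C * D * D * D * D * D * D * C * D * C * D * D * D * D * D * D * C * D * C * D * D * D * D * D * D * C * D * C * D * D * D * D * D * D * C = 1 ∧
        C 2 0 = 1 :=
    ⟨!![1, 0, 0; 0, 1, 0; 1, 0, 1], !![0, 1, 0; 0, 0, 1; 1, 1, 0],
      !![1, 0, 1; 1, 0, 0; 0, 1, 0], by decide +kernel, by decide +kernel, by decide +kernel,
      by decide +kernel, by decide +kernel, by decide +kernel, by decide +kernel⟩
  have hdet2 : ∀ x y : Matrix (Fin 3) (Fin 3) (ZMod 2), x * y = 1 → x.det = 1 := by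
    intro x y h
    have h' := congrArg Matrix.det h
    rw [Matrix.det_mul, Matrix.det_one] at h'
    have h2 : ∀ a b : ZMod 2, a * b = 1 → a = 1 := by decide
    exact h2 _ _ h'
  -- relations in the presented group
  have hP0 : (PresentedGroup.of (rels := R) 0) * (PresentedGroup.of (rels := R) 0) = 1 := by
    have h : PresentedGroup.mk R (FreeGroup.of (0 : Fin 2) * FreeGroup.of (0 : Fin 2)) = 1 :=
      PresentedGroup.one_of_mem (by rw [hR]; exact Set.mem_insert _ _)
    simp only [map_mul] at h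
    exact h
  have hP1 : (PresentedGroup.of (rels := R) 1) * (PresentedGroup.of (rels := R) 1) * (PresentedGroup.of (rels := R) 1) * (PresentedGroup.of (rels := R) 1) * (PresentedGroup.of (rels := R) 1) * (PresentedGroup.of (rels := R) 1) * (PresentedGroup.of (rels := R) 1) = 1 := by
    have h : PresentedGroup.mk R (FreeGroup.of (1 : Fin 2) * FreeGroup.of (1 : Fin 2) * FreeGroup.of (1 : Fin 2) * FreeGroup.of (1 : Fin 2) * FreeGroup.of (1 : Fin 2) * FreeGroup.of (1 : Fin 2) * FreeGroup.of (1 : Fin 2)) = 1 :=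
      PresentedGroup.one_of_mem (by rw [hR]; exact Set.mem_insert_of_mem _ (Set.mem_insert _ _))
    simp only [map_mul] at h
    exact h
  have hP2 : (PresentedGroup.of (rels := R) 0) * (PresentedGroup.of (rels := R) 1) * (PresentedGroup.of (rels := R) 0) * (PresentedGroup.of (rels := R) 1) * (PresentedGroup.of (rels := R) 0) * (PresentedGroup.of (rels := R) 1) = 1 := by
    have h : PresentedGroup.mk R (FreeGroup.of (0 : Fin 2) * FreeGroup.of (1 : Fin 2) * FreeGroup.of (0 : Fin 2) * FreeGroup.of (1 : Fin 2) * FreeGroup.of (0 : Fin 2) * FreeGroup.of (1 : Fin 2)) = 1 :=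
      PresentedGroup.one_of_mem (by rw [hR]; exact Set.mem_insert_of_mem _ (Set.mem_insert_of_mem _ (Set.mem_insert _ _)))
    simp only [map_mul] at h
    exact h
  have hP3 : (PresentedGroup.of (rels := R) 1) * (PresentedGroup.of (rels := R) 0) * (PresentedGroup.of (rels := R) 1) * (PresentedGroup.of (rels := R) 1) * (PresentedGroup.of (rels := R) 1) * (PresentedGroup.of (rels := R) 1) * (PresentedGroup.of (rels := R) 1) * (PresentedGroup.of (rels := R) 1) * (PresentedGroup.of (rels := R) 0) * (PresentedGroup.of (rels := R) 1) * (PresentedGroup.of (rels := R) 0) * (PresentedGroup.of (rels := R) 1) * (PresentedGroup.of (rels := R) 1) * (PresentedGroup.of (rels := R) 1) * (PresentedGroup.of (rels := R) 1) * (PresentedGroup.of (rels := R) 1) * (PresentedGroup.of (rels := R) 1) * (PresentedGroup.of (rels := R) 0) * (PresentedGroup.of (rels := R) 1) * (PresentedGroup.of (rels := R) 0) * (PresentedGroup.of (rels := R) 1) * (PresentedGroup.of (rels := R) 1) * (PresentedGroup.of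 (rels := R) 1) * (PresentedGroup.of (rels := R) 1) * (PresentedGroup.of (rels := R) 1) * (PresentedGroup.of (rels := R) 1) * (PresentedGroup.of (rels := R) 0) * (PresentedGroup.of (rels := R) 1) * (PresentedGroup.of (rels := R) 0) * (PresentedGroup.of (rels := R) 1) * (PresentedGroup.of (rels := R) 1) * (PresentedGroup.of (rels := R) 1) * (PresentedGroup.of (rels := R) 1) * (PresentedGroup.of (rels := R) 1) * (PresentedGroup.of (rels := R) 1) * (PresentedGroup.of (rels := R) 0) = 1 := by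
    have h : PresentedGroup.mk R (FreeGroup.of (1 : Fin 2) * FreeGroup.of (0 : Fin 2) * FreeGroup.of (1 : Fin 2) * FreeGroup.of (1 : Fin 2) * FreeGroup.of (1 : Fin 2) * FreeGroup.of (1 : Fin 2) * FreeGroup.of (1 : Fin 2) * FreeGroup.of (1 : Fin 2) * FreeGroup.of (0 : Fin 2) * FreeGroup.of (1 : Fin 2) * FreeGroup.of (0 : Fin 2) * FreeGroup.of (1 : Fin 2) * FreeGroup.of (1 : Fin 2) * FreeGroup.of (1 : Fin 2) * FreeGroup.of (1 : Fin 2) * FreeGroup.of (1 : Fin 2) * FreeGroup.of (1 : Fin 2) * FreeGroup.of (0 : Fin 2) * FreeGroup.of (1 : Fin 2) * FreeGroup.of (0 : Fin 2) * FreeGroup.of (1 : Fin 2) * FreeGroup.of (1 : Fin 2) * FreeGroup.of (1 : Fin 2) * FreeGroup.of (1 : Fin 2) * FreeGroup.of (1 : Fin 2) * FreeGroup.of (1 : Fin 2) * FreeGroup.of (0 : Fin 2) * FreeGroup.of (1 : Fin 2) * FreeGroup.of (0 : Fin 2) * FreeGroup.of (1 : Fin 2) * FreeGroup.of (1 : Fin 2) * FreeGroup.of (1 : Fin 2) * FreeGroup.of (1 : Fin 2) * FreeGroup.of (1 : Fin 2) * FreeGroup.of (1 : Fin 2)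 * FreeGroup.of (0 : Fin 2)) = 1 :=
      PresentedGroup.one_of_mem (by rw [hR]; exact Set.mem_insert_of_mem _ (Set.mem_insert_of_mem _ (Set.mem_insert_of_mem _ (Set.mem_singleton _))))
    simp only [map_mul] at h
    exact h
  have hgen : Subgroup.closure ({PresentedGroup.of (rels := R) 0, PresentedGroup.of 1} :
      Set (PresentedGroup R)) = ⊤ := by
    have h := PresentedGroup.closure_range_of R
    have hr : Set.range (PresentedGroup.of : Fin 2 → PresentedGroup R) =
        {PresentedGroup.of 0, PresentedGroup.of 1} := by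
      ext g
      constructor
      · rintro ⟨i, rfl⟩
        fin_cases i
        · exact Set.mem_insert _ _
        · exact Set.mem_insert_of_mem _ (Set.mem_singleton _)
      · rintro (rfl | rfl)
        · exact ⟨0, rfl⟩
        · exact ⟨1, rfl⟩
    rw [hr] at h
    exact h
  obtain ⟨hfinP, hcardP⟩ := Cfsg.Agent.Lib.Helper2.l27pres_card_le
    (PresentedGroup.of (rels := R) 0) (PresentedGroup.of 1) hP0 hP1 hP2 hP3 hgen
  -- the field with seven elements
  have hchar7 : CharP F 7 := charP_of_card_eq_prime (hp := ⟨by norm_num⟩) hF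
  have h7 : (7 : F) = 0 := by
    have h := CharP.cast_eq_zero F 7
    rwa [Nat.cast_ofNat] at h
  obtain ⟨ι, hιinj⟩ : ∃ ι : ZMod 7 →+* F, Function.Injective ι :=
    ⟨ZMod.castHom (dvd_refl 7) F, ZMod.castHom_injective F⟩
  obtain ⟨gA, hgA⟩ : ∃ g : Matrix.SpecialLinearGroup (Fin 2) (ZMod 7),
      (g : Matrix (Fin 2) (Fin 2) (ZMod 7)) = A :=
    ⟨⟨A, by rw [Matrix.det_fin_two]; exact hdA⟩, rfl⟩
  obtain ⟨gB, hgB⟩ : ∃ g : Matrix.SpecialLinearGroup (Fin 2) (ZMod 7),
      (g : Matrix (Fin 2) (Fin 2) (ZMod 7)) = B :=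
    ⟨⟨B, by rw [Matrix.det_fin_two]; exact hdB⟩, rfl⟩
  obtain ⟨μ, hμ⟩ : ∃ μ : Matrix.SpecialLinearGroup (Fin 2) (ZMod 7) →*
      Matrix.SpecialLinearGroup (Fin 2) F,
      ∀ x, (μ x : Matrix (Fin 2) (Fin 2) F) = (x : Matrix (Fin 2) (Fin 2) (ZMod 7)).map ι :=
    ⟨Matrix.SpecialLinearGroup.map ι, fun x => rfl⟩
  obtain ⟨π, hπ1, hπ2, hπs⟩ : ∃ π : Matrix.SpecialLinearGroup (Fin 2) F →*
      Matrix.ProjectiveSpecialLinearGroup (Fin 2) F,
      (∀ x, x ∈ Subgroup.center (Matrix.SpecialLinearGroup (Fin 2) F) → π x = 1) ∧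
      (∀ x, π x = 1 → x ∈ Subgroup.center (Matrix.SpecialLinearGroup (Fin 2) F)) ∧
      Function.Surjective π :=
    ⟨QuotientGroup.mk' _, fun x hx => (QuotientGroup.eq_one_iff x).mpr hx,
      fun x hx => (QuotientGroup.eq_one_iff x).mp hx, QuotientGroup.mk'_surjective _⟩
  have hcen : ∀ Z : Matrix.SpecialLinearGroup (Fin 2) (ZMod 7),
      ((Z : Matrix (Fin 2) (Fin 2) (ZMod 7)) = 1 ∨ (Z : Matrix (Fin 2) (Fin 2) (ZMod 7)) = -1) →
      π (μ Z) = 1 := by
    intro Z hZ
    rcases hZ with hZ | hZ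
    · have hZ1 : Z = 1 := Subtype.ext hZ
      rw [hZ1, map_one, map_one]
    · apply hπ1
      have e : (μ Z : Matrix (Fin 2) (Fin 2) F) = -1 := by
        rw [hμ, hZ]
        ext a b
        rw [Matrix.map_apply, Matrix.neg_apply, Matrix.neg_apply, Matrix.one_apply,
          Matrix.one_apply, map_neg, apply_ite ι, map_one, map_zero]
      rw [Matrix.SpecialLinearGroup.mem_center_iff]
      exact ⟨-1, by rw [Fintype.card_fin]; exact neg_one_sq, by rw [map_neg, map_one, e]⟩
  have hnc : ∀ Z : Matrix.SpecialLinearGroup (Fin 2) (ZMod 7),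
      (Z : Matrix (Fin 2) (Fin 2) (ZMod 7)) 0 1 ≠ 0 → π (μ Z) ≠ 1 := by
    intro Z hZ h
    have hc := hπ2 _ h
    rw [Matrix.SpecialLinearGroup.mem_center_iff] at hc
    obtain ⟨r, _, hr⟩ := hc
    have h01 := congrFun (congrFun hr 0) 1
    rw [hμ, Matrix.map_apply, Matrix.scalar_apply,
      Matrix.diagonal_apply_ne _ (by decide)] at h01
    exact hZ (hιinj (h01.symm.trans (map_zero ι).symm))
  obtain ⟨fQ, hfQ0, hfQ1⟩ : ∃ f : Fin 2 → Matrix.ProjectiveSpecialLinearGroup (Fin 2) F,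
      f 0 = π (μ gA) ∧ f 1 = π (μ gB) := ⟨![π (μ gA), π (μ gB)], rfl, rfl⟩
  have hliftQ : ∀ r ∈ R, FreeGroup.lift fQ r = 1 := by
    intro r hr
    rw [hR] at hr
    rcases hr with rfl | rfl | rfl | rfl
    · simp only [map_mul, FreeGroup.lift_apply_of, hfQ0, hfQ1]
      simp only [← map_mul]
      refine hcen _ ?_
      simp only [Matrix.SpecialLinearGroup.coe_mul, hgA, hgB]
      exact hq0
    · simp only [map_mul, FreeGroup.lift_apply_of, hfQ0, hfQ1]
      simp only [← map_mul]
      refine hcen _ ?_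
      simp only [Matrix.SpecialLinearGroup.coe_mul, hgA, hgB]
      exact hq1
    · simp only [map_mul, FreeGroup.lift_apply_of, hfQ0, hfQ1]
      simp only [← map_mul]
      refine hcen _ ?_
      simp only [Matrix.SpecialLinearGroup.coe_mul, hgA, hgB]
      exact hq2
    · simp only [map_mul, FreeGroup.lift_apply_of, hfQ0, hfQ1]
      simp only [← map_mul]
      refine hcen _ ?_
      simp only [Matrix.SpecialLinearGroup.coe_mul, hgA, hgB]
      exact hq3
  obtain ⟨α, hαX, hαY⟩ : ∃ α : PresentedGroup R →* Matrix.ProjectiveSpecialLinearGroup (Fin 2) F,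
      α (PresentedGroup.of 0) = π (μ gA) ∧ α (PresentedGroup.of 1) = π (μ gB) :=
    ⟨PresentedGroup.toGroup hliftQ,
      (PresentedGroup.toGroup.of hliftQ).trans hfQ0, (PresentedGroup.toGroup.of hliftQ).trans hfQ1⟩
  -- orders of the images
  have hX2 : (PresentedGroup.of (rels := R) 0) ^ 2 = 1 := by
    rw [pow_two]
    exact hP0
  have hY7 : (PresentedGroup.of (rels := R) 1) ^ 7 = 1 := by
    rw [pow_succ, pow_succ, pow_succ, pow_succ, pow_succ, pow_succ, pow_one]
    exact hP1
  have hXY3 : (PresentedGroup.of (rels := R) 0 * PresentedGroup.of 1) ^ 3 = 1 := by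
    rw [pow_succ, pow_succ, pow_one]
    have h := hP2
    simp only [mul_assoc] at h ⊢
    exact h
  have hoX : orderOf (α (PresentedGroup.of 0)) = 2 := by
    have : Fact (Nat.Prime 2) := ⟨Nat.prime_two⟩
    refine orderOf_eq_prime ?_ ?_
    · rw [← map_pow, hX2, map_one]
    · rw [hαX]
      exact hnc _ (by rw [hgA]; exact hA01)
  have hoY : orderOf (α (PresentedGroup.of 1)) = 7 := by
    have : Fact (Nat.Prime 7) := ⟨by norm_num⟩
    refine orderOf_eq_prime ?_ ?_
    · rw [← map_pow, hY7, map_one]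
    · rw [hαY]
      exact hnc _ (by rw [hgB]; exact hB01)
  have hoXY : orderOf (α (PresentedGroup.of 0 * PresentedGroup.of 1)) = 3 := by
    have : Fact (Nat.Prime 3) := ⟨Nat.prime_three⟩
    refine orderOf_eq_prime ?_ ?_
    · rw [← map_pow, hXY3, map_one]
    · rw [map_mul, hαX, hαY, ← map_mul, ← map_mul]
      exact hnc _ (by rw [Matrix.SpecialLinearGroup.coe_mul, hgA, hgB]; exact hAB01)
  have hd2 : 2 ∣ Nat.card α.range := by
    have h := α.range.orderOf_dvd_natCard (MonoidHom.mem_range.mpr ⟨_, rfl⟩ :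
      α (PresentedGroup.of 0) ∈ α.range)
    rwa [hoX] at h
  have hd7 : 7 ∣ Nat.card α.range := by
    have h := α.range.orderOf_dvd_natCard (MonoidHom.mem_range.mpr ⟨_, rfl⟩ :
      α (PresentedGroup.of 1) ∈ α.range)
    rwa [hoY] at h
  have hd3 : 3 ∣ Nat.card α.range := by
    have h := α.range.orderOf_dvd_natCard (MonoidHom.mem_range.mpr ⟨_, rfl⟩ :
      α (PresentedGroup.of 0 * PresentedGroup.of 1) ∈ α.range)
    rwa [hoXY] at h
  -- the order of PSL(2,7)
  have hcSL : Nat.card (Matrix.SpecialLinearGroup (Fin 2) F) = 336 := by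
    rw [Cfsg.Agent.Lib.Helper4.card_sl2, hF]
    norm_num
  have hfinSL : Finite (Matrix.SpecialLinearGroup (Fin 2) F) :=
    Nat.finite_of_card_ne_zero (by rw [hcSL]; norm_num)
  obtain ⟨z, hz⟩ : ∃ z : Matrix.SpecialLinearGroup (Fin 2) F,
      (z : Matrix (Fin 2) (Fin 2) F) = -1 :=
    ⟨⟨-1, by rw [Matrix.det_neg, Matrix.det_one, Fintype.card_fin]; norm_num⟩, rfl⟩
  have hzc : z ∈ Subgroup.center (Matrix.SpecialLinearGroup (Fin 2) F) := by
    rw [Matrix.SpecialLinearGroup.mem_center_iff]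
    exact ⟨-1, by rw [Fintype.card_fin]; exact neg_one_sq, by rw [map_neg, map_one, hz]⟩
  have hz1 : z ≠ 1 := by
    intro h
    have h00 : (z : Matrix (Fin 2) (Fin 2) F) 0 0 = (1 : Matrix (Fin 2) (Fin 2) F) 0 0 := by
      rw [h]
      rfl
    rw [hz, Matrix.neg_apply, Matrix.one_apply_eq] at h00
    have h10 : (1 : F) = 0 := by linear_combination (3 : F) * h00 + h7
    exact one_ne_zero h10
  have hcne : Subgroup.center (Matrix.SpecialLinearGroup (Fin 2) F) ≠ ⊥ := by
    intro hb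
    rw [hb, Subgroup.mem_bot] at hzc
    exact hz1 hzc
  have hc2 : 2 ≤ Nat.card (Subgroup.center (Matrix.SpecialLinearGroup (Fin 2) F)) :=
    (Subgroup.one_lt_card_iff_ne_bot _).mpr hcne
  have hc2' : Nat.card (Subgroup.center (Matrix.SpecialLinearGroup (Fin 2) F)) ≤ 2 := by
    have hn : NeZero (max (Fintype.card (Fin 2)) 1) := ⟨by rw [Fintype.card_fin]; decide⟩
    have h := card_rootsOfUnity (R := F) (k := max (Fintype.card (Fin 2)) 1)
    have e : max (Fintype.card (Fin 2)) 1 = 2 := by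
      rw [Fintype.card_fin]
      rfl
    rw [Nat.card_congr (Matrix.SpecialLinearGroup.center_equiv_rootsOfUnity
      (n := Fin 2) (R := F)).toEquiv]
    exact h.trans e.le
  have hmul := Subgroup.card_eq_card_quotient_mul_card_subgroup
    (Subgroup.center (Matrix.SpecialLinearGroup (Fin 2) F))
  have hfinQ : Finite (Matrix.ProjectiveSpecialLinearGroup (Fin 2) F) :=
    Finite.of_surjective π hπs
  have hcQ : Nat.card (Matrix.ProjectiveSpecialLinearGroup (Fin 2) F) = 168 := by
    have hc : Nat.card (Subgroup.center (Matrix.SpecialLinearGroup (Fin 2) F)) = 2 :=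
      le_antisymm hc2' hc2
    rw [hcSL, hc] at hmul
    have hmul' : 336 = Nat.card (Matrix.ProjectiveSpecialLinearGroup (Fin 2) F) * 2 := hmul
    omega
  have hsimple : IsSimpleGroup (Matrix.ProjectiveSpecialLinearGroup (Fin 2) F) :=
    Matrix.ProjectiveSpecialLinearGroup.rank_two_simple (by
      rw [Nat.card_eq_fintype_card, hF]
      norm_num)
  -- surjectivity of α
  have hRtop : α.range = ⊤ := by
    by_contra hne
    have hcore : Subgroup.normalCore α.range = ⊥ := by
      rcases (Subgroup.normalCore_normal α.range).eq_bot_or_eq_top with h | h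
      · exact h
      · exact absurd (top_unique (h ▸ Subgroup.normalCore_le α.range)) hne
    have hinj : Function.Injective (MulAction.toPermHom
        (Matrix.ProjectiveSpecialLinearGroup (Fin 2) F)
        (Matrix.ProjectiveSpecialLinearGroup (Fin 2) F ⧸ α.range)) := by
      rw [← MonoidHom.ker_eq_bot_iff, ← Subgroup.normalCore_eq_ker, hcore]
    have hle := Nat.card_le_card_of_injective _ hinj
    rw [Nat.card_perm, hcQ] at hle
    have hidx : Nat.card (Matrix.ProjectiveSpecialLinearGroup (Fin 2) F ⧸ α.range) =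
        α.range.index := rfl
    have hmi := Subgroup.card_mul_index α.range
    rw [hcQ] at hmi
    have h6 : 6 ∣ Nat.card α.range :=
      Nat.Coprime.mul_dvd_of_dvd_of_dvd (by norm_num : Nat.Coprime 2 3) hd2 hd3
    have h42 : 42 ∣ Nat.card α.range :=
      Nat.Coprime.mul_dvd_of_dvd_of_dvd (by norm_num : Nat.Coprime 6 7) h6 hd7
    have hpos : 0 < Nat.card α.range := Nat.card_pos
    have h42' : 42 ≤ Nat.card α.range := Nat.le_of_dvd hpos h42
    have hi4 : α.range.index ≤ 4 := by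
      by_contra hcon
      have h5 : 5 ≤ α.range.index := by omega
      have := Nat.mul_le_mul h42' h5
      omega
    rw [hidx] at hle
    have hfac : (α.range.index).factorial ≤ (4 : ℕ).factorial := Nat.factorial_le hi4
    have h24 : (4 : ℕ).factorial = 24 := rfl
    omega
  have hαsurj : Function.Surjective α := MonoidHom.range_eq_top.mp hRtop
  have hαbij : Function.Bijective α := by
    rw [Nat.bijective_iff_surjective_and_card]
    refine ⟨hαsurj, le_antisymm ?_ (Nat.card_le_card_of_surjective α hαsurj)⟩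
    rw [hcQ]
    exact hcardP
  -- the field with two elements
  have hchar2 : CharP K 2 := charP_of_card_eq_prime (hp := ⟨Nat.prime_two⟩) hK
  obtain ⟨κ, hκ⟩ : ∃ κ : ZMod 2 →+* K, True := ⟨ZMod.castHom (dvd_refl 2) K, trivial⟩
  obtain ⟨gC, hgC⟩ : ∃ g : Matrix.SpecialLinearGroup (Fin 3) (ZMod 2),
      (g : Matrix (Fin 3) (Fin 3) (ZMod 2)) = C := ⟨⟨C, hdet2 C C hCC⟩, rfl⟩
  obtain ⟨gD, hgD⟩ : ∃ g : Matrix.SpecialLinearGroup (Fin 3) (ZMod 2),
      (g : Matrix (Fin 3) (Fin 3) (ZMod 2)) = D := ⟨⟨D, hdet2 D D' hDD⟩, rfl⟩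
  obtain ⟨ν, hν⟩ : ∃ ν : Matrix.SpecialLinearGroup (Fin 3) (ZMod 2) →*
      Matrix.SpecialLinearGroup (Fin 3) K,
      ∀ x, (ν x : Matrix (Fin 3) (Fin 3) K) = (x : Matrix (Fin 3) (Fin 3) (ZMod 2)).map κ :=
    ⟨Matrix.SpecialLinearGroup.map κ, fun x => rfl⟩
  obtain ⟨ρ, hρ2, hρs⟩ : ∃ ρ : Matrix.SpecialLinearGroup (Fin 3) K →*
      Matrix.ProjectiveSpecialLinearGroup (Fin 3) K,
      (∀ x, ρ x = 1 → x ∈ Subgroup.center (Matrix.SpecialLinearGroup (Fin 3) K)) ∧
      Function.Surjective ρ :=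
    ⟨QuotientGroup.mk' _, fun x hx => (QuotientGroup.eq_one_iff x).mp hx,
      QuotientGroup.mk'_surjective _⟩
  obtain ⟨fT, hfT0, hfT1⟩ : ∃ f : Fin 2 → Matrix.ProjectiveSpecialLinearGroup (Fin 3) K,
      f 0 = ρ (ν gC) ∧ f 1 = ρ (ν gD) := ⟨![ρ (ν gC), ρ (ν gD)], rfl, rfl⟩
  have hliftT : ∀ r ∈ R, FreeGroup.lift fT r = 1 := by
    intro r hr
    rw [hR] at hr
    rcases hr with rfl | rfl | rfl | rfl
    · simp only [map_mul, FreeGroup.lift_apply_of, hfT0, hfT1]
      simp only [← map_mul]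
      have hZ : gC * gC = 1 := by
        apply Subtype.ext
        simp only [Matrix.SpecialLinearGroup.coe_mul, hgC, hgD]
        exact ht0
      rw [hZ, map_one, map_one]
    · simp only [map_mul, FreeGroup.lift_apply_of, hfT0, hfT1]
      simp only [← map_mul]
      have hZ : gD * gD * gD * gD * gD * gD * gD = 1 := by
        apply Subtype.ext
        simp only [Matrix.SpecialLinearGroup.coe_mul, hgC, hgD]
        exact ht1
      rw [hZ, map_one, map_one]
    · simp only [map_mul, FreeGroup.lift_apply_of, hfT0, hfT1]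
      simp only [← map_mul]
      have hZ : gC * gD * gC * gD * gC * gD = 1 := by
        apply Subtype.ext
        simp only [Matrix.SpecialLinearGroup.coe_mul, hgC, hgD]
        exact ht2
      rw [hZ, map_one, map_one]
    · simp only [map_mul, FreeGroup.lift_apply_of, hfT0, hfT1]
      simp only [← map_mul]
      have hZ : gD * gC * gD * gD * gD * gD * gD * gD * gC * gD * gC * gD * gD * gD * gD * gD * gD * gC * gD * gC * gD * gD * gD * gD * gD * gD * gC * gD * gC * gD * gD * gD * gD * gD * gD * gC = 1 := by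
        apply Subtype.ext
        simp only [Matrix.SpecialLinearGroup.coe_mul, hgC, hgD]
        exact ht3
      rw [hZ, map_one, map_one]
  obtain ⟨β, hβX⟩ : ∃ β : PresentedGroup R →* Matrix.ProjectiveSpecialLinearGroup (Fin 3) K,
      β (PresentedGroup.of 0) = ρ (ν gC) :=
    ⟨PresentedGroup.toGroup hliftT, (PresentedGroup.toGroup.of hliftT).trans hfT0⟩
  have hβ1 : β (PresentedGroup.of 0) ≠ 1 := by
    rw [hβX]
    intro h
    have hc := hρ2 _ h
    rw [Matrix.SpecialLinearGroup.mem_center_iff] at hc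
    obtain ⟨r, _, hr⟩ := hc
    have h20 := congrFun (congrFun hr 2) 0
    rw [hν, hgC, Matrix.map_apply, hC20, map_one, Matrix.scalar_apply,
      Matrix.diagonal_apply_ne _ (by decide)] at h20
    exact zero_ne_one h20
  -- assemble
  obtain ⟨γ, hγ⟩ : ∃ γ : Matrix.ProjectiveSpecialLinearGroup (Fin 2) F →*
      Matrix.ProjectiveSpecialLinearGroup (Fin 3) K,
      ∀ p, γ (α p) = β p :=
    ⟨β.comp (MulEquiv.ofBijective α hαbij).symm.toMonoidHom, fun p => by
      show β ((MulEquiv.ofBijective α hαbij).symm ((MulEquiv.ofBijective α hαbij) p)) = β p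
      rw [MulEquiv.symm_apply_apply]⟩
  have hγinj : Function.Injective γ := by
    rw [← MonoidHom.ker_eq_bot_iff]
    rcases (MonoidHom.normal_ker γ).eq_bot_or_eq_top with hb | ht
    · exact hb
    · exfalso
      have hmem : α (PresentedGroup.of 0) ∈ γ.ker := by
        rw [ht]
        exact Subgroup.mem_top _
      rw [MonoidHom.mem_ker, hγ] at hmem
      exact hβ1 hmem
  have hfinSLT : Finite (Matrix.SpecialLinearGroup (Fin 3) K) :=
    Finite.of_injective _ Matrix.SpecialLinearGroup.toGL_injective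
  have hcGL : Nat.card (GL (Fin 3) K) = 168 := by
    rw [Matrix.card_GL_field, hK, Fin.prod_univ_three]
    rfl
  have hcSLT : Nat.card (Matrix.SpecialLinearGroup (Fin 3) K) ≤ 168 := by
    rw [← hcGL]
    exact Nat.card_le_card_of_injective _ Matrix.SpecialLinearGroup.toGL_injective
  have hfinT : Finite (Matrix.ProjectiveSpecialLinearGroup (Fin 3) K) :=
    Finite.of_surjective ρ hρs
  have hcT : Nat.card (Matrix.ProjectiveSpecialLinearGroup (Fin 3) K) ≤ 168 :=
    (Nat.card_le_card_of_surjective ρ hρs).trans hcSLT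
  have hγbij : Function.Bijective γ := by
    rw [Nat.bijective_iff_injective_and_card]
    refine ⟨hγinj, le_antisymm (Nat.card_le_card_of_injective γ hγinj) ?_⟩
    rw [hcQ]
    exact hcT
  exact ⟨MulEquiv.ofBijective γ hγbij⟩

end Cfsg.Agent.S0255
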