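import Mathlib
import Cfsg.Statements.S2427
import Mathlib
import Cfsg.Agent.Lib.Helper2.SL23

set_option autoImplicit false
open Cfsg

namespace Cfsg.Agent.S2427

/-- The group SL₂ over the field with 3 elements has order 24 and centre of order 2; its commutator subgroup has order 8, is isomorphic to the quaternion group of order 8 and is complemented by every Sylow 3-subgroup (so the group is a semidirect product of a quaternion group of order 8 by a cyclic group of order 3); and its only normal subgroups besides the trivial subgroup and the whole group are the centre and the commutator subgroup. -/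
theorem result :
    Nat.card (Matrix.SpecialLinearGroup (Fin 2) (ZMod 3)) = 24 ∧
    Nat.card (Subgroup.center (Matrix.SpecialLinearGroup (Fin 2) (ZMod 3))) = 2 ∧
    Nat.card (commutator (Matrix.SpecialLinearGroup (Fin 2) (ZMod 3))) = 8 ∧
    Nonempty (commutator (Matrix.SpecialLinearGroup (Fin 2) (ZMod 3)) ≃* QuaternionGroup 2) ∧
    (∀ P : Sylow 3 (Matrix.SpecialLinearGroup (Fin 2) (ZMod 3)),
      Subgroup.IsComplement' (commutator (Matrix.SpecialLinearGroup (Fin 2) (ZMod 3)))
        (P : Subgroup (Matrix.SpecialLinearGroup (Fin 2) (ZMod 3)))) ∧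
    ∀ N : Subgroup (Matrix.SpecialLinearGroup (Fin 2) (ZMod 3)), N.Normal →
      N = ⊥ ∨ N = ⊤ ∨ N = Subgroup.center (Matrix.SpecialLinearGroup (Fin 2) (ZMod 3)) ∨
        N = commutator (Matrix.SpecialLinearGroup (Fin 2) (ZMod 3)) := by
  haveI : Fact (Nat.Prime 2) := ⟨Nat.prime_two⟩
  haveI : Fact (Nat.Prime 3) := ⟨Nat.prime_three⟩
  have hQ := Cfsg.Agent.Lib.Helper2.sl23_commutator_eq
  have hcardG := Cfsg.Agent.Lib.Helper2.sl23_card
  have hcardQ := Cfsg.Agent.Lib.Helper2.sl23_card_Q
  obtain ⟨z, hz1, hz2, hzc, hzu, hz3, hz4⟩ := Cfsg.Agent.Lib.Helper2.sl23_center_elt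
  have hcenter : Subgroup.center (Matrix.SpecialLinearGroup (Fin 2) (ZMod 3)) =
      Subgroup.zpowers z := by
    apply le_antisymm
    · intro g hg
      rw [Subgroup.mem_center_iff] at hg
      rcases hzu g hg with h | h
      · rw [h]; exact Subgroup.one_mem _
      · rw [h]; exact Subgroup.mem_zpowers z
    · rw [Subgroup.zpowers_le, Subgroup.mem_center_iff]
      exact hzc
  have hzord : orderOf z = 2 := orderOf_eq_prime (p := 2) hz2 hz1
  refine ⟨hcardG, ?_, ?_, ?_, ?_, ?_⟩
  · rw [hcenter, Nat.card_zpowers, hzord]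
  · rw [hQ]; exact hcardQ
  · rw [hQ]; exact Cfsg.Agent.Lib.Helper2.sl23_quat_iso
  · intro P
    rw [hQ]
    have hP3 : Nat.card (P : Subgroup (Matrix.SpecialLinearGroup (Fin 2) (ZMod 3))) = 3 := by
      have h1 := P.card_eq_multiplicity
      rw [hcardG] at h1
      have hf : (24 : ℕ).factorization 3 = 1 := by
        have hle : 1 ≤ (24 : ℕ).factorization 3 :=
          (Nat.Prime.pow_dvd_iff_le_factorization Nat.prime_three (by norm_num)).mp (by norm_num)
        have hlt : ¬ 2 ≤ (24 : ℕ).factorization 3 := by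
          intro h
          have h9 := (Nat.Prime.pow_dvd_iff_le_factorization Nat.prime_three
            (by norm_num : (24 : ℕ) ≠ 0)).mpr h
          norm_num at h9
        omega
      rw [hf] at h1
      simpa using h1
    apply Subgroup.isComplement'_of_coprime
    · rw [hcardQ, hP3, hcardG]
    · rw [hcardQ, hP3]; decide
  · intro N hN
    rw [hQ]
    have hkey : ∀ c ∈ N, c ^ 4 = 1 → c ^ 2 ≠ 1 → Cfsg.Agent.Lib.Helper2.sl23Q ≤ N := by
      intro c hcN hc4 hc2 q hq
      rw [Cfsg.Agent.Lib.Helper2.sl23_mem_Q] at hq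
      by_cases hq2 : q ^ 2 = 1
      · rcases hz3 q hq2 with h | h
        · rw [h]; exact N.one_mem
        · rw [h, hz4 c hc4 hc2]; exact N.pow_mem hcN 2
      · obtain ⟨y, hy⟩ := Cfsg.Agent.Lib.Helper2.sl23_order4_conj c hc4 hc2 q hq hq2
        rw [hy]; exact hN.conj_mem c hcN y
    by_cases hcase : ∃ g ∈ N, g ^ 4 ≠ 1
    · obtain ⟨g, hgN, hg4⟩ := hcase
      right; left
      obtain ⟨x, hx⟩ := Cfsg.Agent.Lib.Helper2.sl23_comm_order4 g hg4
      have hcN : g * x * g⁻¹ * x⁻¹ ∈ N := by
        have h1 : x * g⁻¹ * x⁻¹ ∈ N := hN.conj_mem g⁻¹ (N.inv_mem hgN) x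
        have h2 : g * x * g⁻¹ * x⁻¹ = g * (x * g⁻¹ * x⁻¹) := by group
        rw [h2]; exact N.mul_mem hgN h1
      have hQN : Cfsg.Agent.Lib.Helper2.sl23Q ≤ N :=
        hkey _ hcN (Cfsg.Agent.Lib.Helper2.sl23_comm_mem g x) hx
      have hd1 : 8 ∣ Nat.card N := by
        rw [← hcardQ]; exact Subgroup.card_dvd_of_le hQN
      have hd2 : Nat.card N ∣ 24 := by
        rw [← hcardG]; exact Subgroup.card_subgroup_dvd_card N
      have hne8 : Nat.card N ≠ 8 := by
        intro h8
        have hEq : Cfsg.Agent.Lib.Helper2.sl23Q = N :=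
          Subgroup.eq_of_le_of_card_ge hQN (by rw [h8, hcardQ])
        rw [← hEq, Cfsg.Agent.Lib.Helper2.sl23_mem_Q] at hgN
        exact hg4 hgN
      have h24 : Nat.card N = 24 := by
        obtain ⟨k, hk⟩ := hd1
        have hle : Nat.card N ≤ 24 := Nat.le_of_dvd (by norm_num) hd2
        have hk3 : k ≤ 3 := by omega
        have hpos : 0 < Nat.card N := Nat.card_pos
        interval_cases k
        · omega
        · omega
        · rw [hk] at hd2; norm_num at hd2
        · omega
      apply Subgroup.eq_top_of_card_eq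
      rw [h24, hcardG]
    · push_neg at hcase
      by_cases hcase2 : ∃ c ∈ N, c ^ 2 ≠ 1
      · obtain ⟨c, hcN, hc2⟩ := hcase2
        right; right; right
        apply le_antisymm
        · intro g hg
          rw [Cfsg.Agent.Lib.Helper2.sl23_mem_Q]
          exact hcase g hg
        · exact hkey c hcN (hcase c hcN) hc2
      · push_neg at hcase2
        by_cases hbot : N = ⊥
        · left; exact hbot
        · right; right; left
          rw [hcenter]
          obtain ⟨g, hgN, hg1⟩ : ∃ g ∈ N, g ≠ 1 := by
            by_contra hcon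
            push_neg at hcon
            exact hbot ((Subgroup.eq_bot_iff_forall N).mpr hcon)
          have hgz : g = z := by
            rcases hz3 g (hcase2 g hgN) with h | h
            · exact absurd h hg1
            · exact h
          apply le_antisymm
          · intro a ha
            rcases hz3 a (hcase2 a ha) with h | h
            · rw [h]; exact Subgroup.one_mem _
            · rw [h]; exact Subgroup.mem_zpowers z
          · rw [Subgroup.zpowers_le, ← hgz]; exact hgN

end Cfsg.Agent.S2427
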