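import Mathlib
import Cfsg.Statements.S0257
import Cfsg.Agent.Lib.Helper2.SLCongr
import Cfsg.Agent.S2427

set_option autoImplicit false
open Cfsg

namespace Cfsg.Agent.S0257

/-- SL_2(3) has a normal subgroup of index 3 isomorphic to the quaternion group of order 8, and its centre has order 2. -/
theorem result {F : Type*} [Field F] [Fintype F] (hF : Fintype.card F = 3) : (∃ Q : Subgroup (Matrix.SpecialLinearGroup (Fin 2) F), Q.Normal ∧ Q.index = 3 ∧ Nonempty (Q ≃* QuaternionGroup 2)) ∧ Nat.card (Subgroup.center (Matrix.SpecialLinearGroup (Fin 2) F)) = 2 := by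
  have e0 : ZMod 3 ≃+* F := ZMod.ringEquivOfPrime F Nat.prime_three hF
  obtain ⟨e, -⟩ : ∃ e : Matrix.SpecialLinearGroup (Fin 2) (ZMod 3) ≃*
      Matrix.SpecialLinearGroup (Fin 2) F, e = e := ⟨Cfsg.Agent.Lib.Helper2.slCongrRing e0, rfl⟩
  obtain ⟨h1, h2, h3, ⟨ι⟩, -, -⟩ := Cfsg.Agent.S2427.result
  constructor
  · refine ⟨Subgroup.map (e : Matrix.SpecialLinearGroup (Fin 2) (ZMod 3) →*
      Matrix.SpecialLinearGroup (Fin 2) F) (commutator (Matrix.SpecialLinearGroup (Fin 2) (ZMod 3))),
      ?_, ?_, ?_⟩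
    · exact Subgroup.Normal.map inferInstance _ e.surjective
    · rw [Subgroup.index_map_equiv]
      have hmul := Subgroup.card_mul_index (commutator (Matrix.SpecialLinearGroup (Fin 2) (ZMod 3)))
      rw [h3, h1] at hmul
      omega
    · exact ⟨(MulEquiv.subgroupMap e _).symm.trans ι⟩
  · rw [← Nat.card_congr (Subgroup.centerCongr e).toEquiv]
    exact h2

end Cfsg.Agent.S0257
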