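import Cfsg.Statements.S0264
import Mathlib
import Cfsg.Agent.Lib.Lead.SylowAux2
import Cfsg.Agent.Lib.Lead.SLGen

set_option autoImplicit false
open Cfsg Cfsg.Agent.Lib.Lead

namespace Cfsg.Agent.S0264

open scoped Pointwise commutatorElement

/-- GL_n(F)' = SL_n(F) (as the kernel of det), for every field F and every n, except n = 2 over the field of two elements. -/
theorem result {F : Type*} [Field F] (n : ℕ) (h : n = 2 → ∃ a : F, a ≠ 0 ∧ a ≠ 1) : commutator (Matrix.GeneralLinearGroup (Fin n) F) = (Matrix.GeneralLinearGroup.det : Matrix.GeneralLinearGroup (Fin n) F →* Fˣ).ker := by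
  rcases Nat.lt_or_ge n 2 with hn | hn
  · have hker : (Matrix.GeneralLinearGroup.det : Matrix.GeneralLinearGroup (Fin n) F →* Fˣ).ker = ⊥ := by
      rw [eq_bot_iff]
      intro g hg
      rw [Subgroup.mem_bot]
      have hdet : (g : Matrix (Fin n) (Fin n) F).det = 1 := by
        have := congrArg Units.val (MonoidHom.mem_ker.1 hg)
        simpa using this
      apply Units.ext
      ext i j
      interval_cases n
      · exact i.elim0
      · rw [Matrix.det_unique] at hdet
        fin_cases i; fin_cases j; simpa using hdet
    rw [hker, eq_bot_iff, ← hker]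
    exact Abelianization.commutator_subset_ker _
  · haveI := fin_nontrivial_of_two_le n hn
    apply gl_commutator_eq_ker_det
    intro i j hij c
    rcases Nat.eq_or_lt_of_le hn with h2 | h3
    · obtain ⟨a, ha0, ha1⟩ := h h2.symm
      exact toGL_transvection_mem_commutator_of_ne hij a ha0 ha1 c
    · exact toGL_transvection_mem_commutator_of_three hij (exists_third n h3 i j) c

end Cfsg.Agent.S0264
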