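import Cfsg.Statements.S0265
import Mathlib
import Cfsg.Agent.Lib.Lead.SylowAux2
import Cfsg.Agent.S0242

set_option autoImplicit false
open Cfsg Cfsg.Agent.Lib.Lead

namespace Cfsg.Agent.S0265

open scoped Pointwise commutatorElement

/-- |PGL_n(q)| = |SL_n(q)|: GL_n modulo its centre (the q-1 non-zero scalars) has the same order as the kernel of det. -/
theorem result {F : Type*} [Field F] [Fintype F] (n : ℕ) : Nat.card (Matrix.ProjGenLinGroup (Fin n) F) = Nat.card (Matrix.SpecialLinearGroup (Fin n) F) := by
  classical
  rcases Nat.eq_zero_or_pos n with rfl | hn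
  · haveI : Subsingleton (Matrix.SpecialLinearGroup (Fin 0) F) :=
      ⟨fun a b => Subtype.ext (Subsingleton.elim _ _)⟩
    haveI : Subsingleton (Matrix.GeneralLinearGroup (Fin 0) F) :=
      ⟨fun a b => Units.ext (Subsingleton.elim _ _)⟩
    haveI : Subsingleton (Matrix.ProjGenLinGroup (Fin 0) F) := by
      unfold Matrix.ProjGenLinGroup; infer_instance
    rw [Nat.card_of_subsingleton (1 : Matrix.ProjGenLinGroup (Fin 0) F),
      Nat.card_of_subsingleton (1 : Matrix.SpecialLinearGroup (Fin 0) F)]
  · have h242 := Cfsg.Agent.S0242.result (F := F) rfl n hn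
    have hGL := Matrix.card_GL_field (𝔽 := F) (n := n)
    rw [← hGL] at h242
    have hq := Subgroup.card_eq_card_quotient_mul_card_subgroup
      (Subgroup.center (Matrix.GeneralLinearGroup (Fin n) F))
    have hc : Nat.card (Subgroup.center (Matrix.GeneralLinearGroup (Fin n) F)) =
        Fintype.card F - 1 := by
      rw [Matrix.GeneralLinearGroup.center_eq_range_scalar]
      have hinj : Function.Injective
          (Matrix.GeneralLinearGroup.scalar (Fin n) : Fˣ →* GL (Fin n) F) := by
        intro a b hab
        have h3 := congrArg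
          (fun g : GL (Fin n) F => (g : Matrix (Fin n) (Fin n) F) ⟨0, hn⟩ ⟨0, hn⟩) hab
        simpa [Matrix.GeneralLinearGroup.scalar, Units.ext_iff] using h3
      have h4 := Nat.card_range_of_injective hinj
      rw [Nat.card_units, Nat.card_eq_fintype_card (α := F)] at h4
      exact h4
    have hpos : 0 < Fintype.card F - 1 := by
      have h5 := Fintype.one_lt_card (α := F)
      omega
    show Nat.card (Matrix.GeneralLinearGroup (Fin n) F ⧸
      Subgroup.center (Matrix.GeneralLinearGroup (Fin n) F)) = _
    rw [hc] at hq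
    apply Nat.eq_of_mul_eq_mul_right hpos
    rw [← hq, ← h242, mul_comm]

end Cfsg.Agent.S0265
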