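import Cfsg.Statements.S0266
import Mathlib
-- import your own Cfsg.Agent.* helpers here

set_option autoImplicit false
open scoped MatrixGroups
open Cfsg

namespace Cfsg.Agent.S0266


open Matrix Matrix.ProjGenLinGroup MatrixGroups

theorem mk_eq_iff {F : Type*} [Field F] (u v : Fin 2 → F) (hu : u ≠ 0) (hv : v ≠ 0) :
    Projectivization.mk F u hu = Projectivization.mk F v hv ↔ u 0 * v 1 - u 1 * v 0 = 0 := by
  rw [Projectivization.mk_eq_mk_iff']
  constructor
  · rintro ⟨a, rfl⟩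
    simp only [Pi.smul_apply, smul_eq_mul]
    ring
  · intro h
    by_cases hv0 : v 0 = 0
    · have hv1 : v 1 ≠ 0 := by
        intro hv1
        apply hv
        ext i
        fin_cases i
        · exact hv0
        · exact hv1
      have hu0 : u 0 = 0 := by
        rw [hv0, mul_zero, sub_zero] at h
        exact (mul_eq_zero.mp h).resolve_right hv1
      refine ⟨u 1 / v 1, ?_⟩
      ext i
      fin_cases i
      · show u 1 / v 1 * v 0 = u 0
        rw [hv0, hu0, mul_zero]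
      · show u 1 / v 1 * v 1 = u 1
        field_simp
    · refine ⟨u 0 / v 0, ?_⟩
      ext i
      fin_cases i
      · show u 0 / v 0 * v 0 = u 0
        field_simp
      · show u 0 / v 0 * v 1 = u 1
        field_simp
        linear_combination h

theorem mulVec2 {F : Type*} [Field F] (A : Matrix (Fin 2) (Fin 2) F) (v : Fin 2 → F) (i : Fin 2) :
    (A *ᵥ v) i = A i 0 * v 0 + A i 1 * v 1 := by
  simp [Matrix.mulVec, dotProduct, Fin.sum_univ_two]

theorem e0_ne {F : Type*} [Field F] : (![1, 0] : Fin 2 → F) ≠ 0 := by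
  intro h
  have := congrFun h 0
  simp at this

theorem e1_ne {F : Type*} [Field F] : (![0, 1] : Fin 2 → F) ≠ 0 := by
  intro h
  have := congrFun h 1
  simp at this

theorem e2_ne {F : Type*} [Field F] : (![1, 1] : Fin 2 → F) ≠ 0 := by
  intro h
  have := congrFun h 0
  simp at this

theorem smul_pt {F : Type*} [Field F] (M : GL (Fin 2) F) (v : Fin 2 → F) (hv : v ≠ 0)
    (w : Fin 2 → F) (hw : w ≠ 0)
    (h : ((M : Matrix (Fin 2) (Fin 2) F) *ᵥ v) 0 * w 1 -
      ((M : Matrix (Fin 2) (Fin 2) F) *ᵥ v) 1 * w 0 = 0) :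
    (mk M : PGL(Fin 2, F)) • Projectivization.mk F v hv = Projectivization.mk F w hw := by
  have e : (mk M : PGL(Fin 2, F)) • Projectivization.mk F v hv =
      Projectivization.mk F ((M : Matrix (Fin 2) (Fin 2) F) *ᵥ v)
        ((smul_ne_zero_iff_ne M).2 hv) := rfl
  rw [e, mk_eq_iff]
  exact h

theorem smul_pt' {F : Type*} [Field F] (M : GL (Fin 2) F) (v : Fin 2 → F) (hv : v ≠ 0)
    (w : Fin 2 → F) (hw : w ≠ 0)
    (h : (mk M : PGL(Fin 2, F)) • Projectivization.mk F v hv = Projectivization.mk F w hw) :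
    ((M : Matrix (Fin 2) (Fin 2) F) *ᵥ v) 0 * w 1 -
      ((M : Matrix (Fin 2) (Fin 2) F) *ᵥ v) 1 * w 0 = 0 := by
  have e : (mk M : PGL(Fin 2, F)) • Projectivization.mk F v hv =
      Projectivization.mk F ((M : Matrix (Fin 2) (Fin 2) F) *ᵥ v)
        ((smul_ne_zero_iff_ne M).2 hv) := rfl
  rw [e, mk_eq_iff] at h
  exact h

theorem claimA {F : Type*} [Field F] (a b c : Projectivization F (Fin 2 → F))
    (hab : a ≠ b) (hac : a ≠ c) (hbc : b ≠ c) :
    ∃ M : GL (Fin 2) F,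
      (mk M : PGL(Fin 2, F)) • Projectivization.mk F ![1, 0] e0_ne = a ∧
      (mk M : PGL(Fin 2, F)) • Projectivization.mk F ![0, 1] e1_ne = b ∧
      (mk M : PGL(Fin 2, F)) • Projectivization.mk F ![1, 1] e2_ne = c := by
  induction a using Projectivization.ind with | h u hu =>
  induction b using Projectivization.ind with | h v hv =>
  induction c using Projectivization.ind with | h w hw =>
  have hD : u 0 * v 1 - u 1 * v 0 ≠ 0 := fun h => hab ((mk_eq_iff u v hu hv).mpr h)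
  have hDα : w 0 * v 1 - w 1 * v 0 ≠ 0 := fun h => hbc ((mk_eq_iff w v hw hv).mpr h).symm
  have hDβ : u 0 * w 1 - u 1 * w 0 ≠ 0 := fun h => hac ((mk_eq_iff u w hu hw).mpr h)
  have hdet : (!![(w 0 * v 1 - w 1 * v 0) * u 0, (u 0 * w 1 - u 1 * w 0) * v 0;
      (w 0 * v 1 - w 1 * v 0) * u 1, (u 0 * w 1 - u 1 * w 0) * v 1] :
      Matrix (Fin 2) (Fin 2) F).det ≠ 0 := by
    rw [Matrix.det_fin_two_of]
    have e : (w 0 * v 1 - w 1 * v 0) * u 0 * ((u 0 * w 1 - u 1 * w 0) * v 1) -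
        (u 0 * w 1 - u 1 * w 0) * v 0 * ((w 0 * v 1 - w 1 * v 0) * u 1) =
        (w 0 * v 1 - w 1 * v 0) * (u 0 * w 1 - u 1 * w 0) * (u 0 * v 1 - u 1 * v 0) := by ring
    rw [e]
    exact mul_ne_zero (mul_ne_zero hDα hDβ) hD
  refine ⟨Matrix.GeneralLinearGroup.mkOfDetNeZero _ hdet, ?_, ?_, ?_⟩
  · apply smul_pt
    show ((!![(w 0 * v 1 - w 1 * v 0) * u 0, (u 0 * w 1 - u 1 * w 0) * v 0;
      (w 0 * v 1 - w 1 * v 0) * u 1, (u 0 * w 1 - u 1 * w 0) * v 1] :
      Matrix (Fin 2) (Fin 2) F) *ᵥ ![1, 0]) 0 * u 1 -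
      ((!![(w 0 * v 1 - w 1 * v 0) * u 0, (u 0 * w 1 - u 1 * w 0) * v 0;
      (w 0 * v 1 - w 1 * v 0) * u 1, (u 0 * w 1 - u 1 * w 0) * v 1] :
      Matrix (Fin 2) (Fin 2) F) *ᵥ ![1, 0]) 1 * u 0 = 0
    rw [mulVec2, mulVec2]
    simp
    ring
  · apply smul_pt
    show ((!![(w 0 * v 1 - w 1 * v 0) * u 0, (u 0 * w 1 - u 1 * w 0) * v 0;
      (w 0 * v 1 - w 1 * v 0) * u 1, (u 0 * w 1 - u 1 * w 0) * v 1] :
      Matrix (Fin 2) (Fin 2) F) *ᵥ ![0, 1]) 0 * v 1 -
      ((!![(w 0 * v 1 - w 1 * v 0) * u 0, (u 0 * w 1 - u 1 * w 0) * v 0;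
      (w 0 * v 1 - w 1 * v 0) * u 1, (u 0 * w 1 - u 1 * w 0) * v 1] :
      Matrix (Fin 2) (Fin 2) F) *ᵥ ![0, 1]) 1 * v 0 = 0
    rw [mulVec2, mulVec2]
    simp
    ring
  · apply smul_pt
    show ((!![(w 0 * v 1 - w 1 * v 0) * u 0, (u 0 * w 1 - u 1 * w 0) * v 0;
      (w 0 * v 1 - w 1 * v 0) * u 1, (u 0 * w 1 - u 1 * w 0) * v 1] :
      Matrix (Fin 2) (Fin 2) F) *ᵥ ![1, 1]) 0 * w 1 -
      ((!![(w 0 * v 1 - w 1 * v 0) * u 0, (u 0 * w 1 - u 1 * w 0) * v 0;
      (w 0 * v 1 - w 1 * v 0) * u 1, (u 0 * w 1 - u 1 * w 0) * v 1] :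
      Matrix (Fin 2) (Fin 2) F) *ᵥ ![1, 1]) 1 * w 0 = 0
    rw [mulVec2, mulVec2]
    simp
    ring

theorem lemS {F : Type*} [Field F] (h : PGL(Fin 2, F))
    (h0 : h • Projectivization.mk F (![1, 0] : Fin 2 → F) e0_ne =
      Projectivization.mk F (![1, 0] : Fin 2 → F) e0_ne)
    (h1 : h • Projectivization.mk F (![0, 1] : Fin 2 → F) e1_ne =
      Projectivization.mk F (![0, 1] : Fin 2 → F) e1_ne)
    (h2 : h • Projectivization.mk F (![1, 1] : Fin 2 → F) e2_ne =
      Projectivization.mk F (![1, 1] : Fin 2 → F) e2_ne) :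
    h = 1 := by
  induction h using Matrix.ProjGenLinGroup.induction_on with | mk H =>
  have k0 := smul_pt' H _ _ _ _ h0
  have k1 := smul_pt' H _ _ _ _ h1
  have k2 := smul_pt' H _ _ _ _ h2
  rw [mulVec2, mulVec2] at k0 k1 k2
  simp at k0 k1 k2
  have k2' : (H : Matrix (Fin 2) (Fin 2) F) 0 0 = (H : Matrix (Fin 2) (Fin 2) F) 1 1 := by
    rw [k0, k1] at k2
    simpa [sub_eq_zero] using k2
  have hdet : (H : Matrix (Fin 2) (Fin 2) F).det ≠ 0 := by
    have := (Matrix.GeneralLinearGroup.det H).ne_zero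
    rwa [Matrix.GeneralLinearGroup.val_det_apply] at this
  rw [Matrix.det_fin_two, k0, k1, mul_zero, sub_zero] at hdet
  have h00 : (H : Matrix (Fin 2) (Fin 2) F) 0 0 ≠ 0 := left_ne_zero_of_mul hdet
  have hH : H = Matrix.GeneralLinearGroup.scalar (Fin 2) (Units.mk0 _ h00) := by
    apply Units.ext
    rw [Matrix.GeneralLinearGroup.coe_scalar]
    ext i j
    fin_cases i <;> fin_cases j
    · simp
    · simpa using k1
    · simpa using k0
    · simpa using k2'.symm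
  rw [hH, mk_scalar]

/-- PGL_2(F) is sharply 3-transitive on the projective line: it is 3-transitive and the stabiliser of three distinct points is trivial. -/
theorem result {F : Type*} [Field F] : MulAction.IsMultiplyPretransitive (Matrix.ProjGenLinGroup (Fin 2) F) (Projectivization F (Fin 2 → F)) 3 ∧ ∀ (g : Matrix.ProjGenLinGroup (Fin 2) F) (a b c : Projectivization F (Fin 2 → F)), a ≠ b → a ≠ c → b ≠ c → g • a = a → g • b = b → g • c = c → g = 1 := by
  classical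
  constructor
  · refine ⟨fun x y => ?_⟩
    obtain ⟨Mx, hx0, hx1, hx2⟩ := claimA (x 0) (x 1) (x 2) (x.injective.ne (by decide))
      (x.injective.ne (by decide)) (x.injective.ne (by decide))
    obtain ⟨My, hy0, hy1, hy2⟩ := claimA (y 0) (y 1) (y 2) (y.injective.ne (by decide))
      (y.injective.ne (by decide)) (y.injective.ne (by decide))
    refine ⟨mk My * (mk Mx)⁻¹, ?_⟩
    ext i
    fin_cases i
    · show (mk My * (mk Mx)⁻¹) • x 0 = y 0
      rw [← hx0, ← hy0, mul_smul, inv_smul_smul]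
    · show (mk My * (mk Mx)⁻¹) • x 1 = y 1
      rw [← hx1, ← hy1, mul_smul, inv_smul_smul]
    · show (mk My * (mk Mx)⁻¹) • x 2 = y 2
      rw [← hx2, ← hy2, mul_smul, inv_smul_smul]
  · intro g a b c hab hac hbc ha hb hc
    obtain ⟨N, hNa, hNb, hNc⟩ := claimA a b c hab hac hbc
    have key : (mk N)⁻¹ * g * mk N = 1 := by
      apply lemS
      · rw [mul_smul, mul_smul, hNa, ha, ← hNa, inv_smul_smul]
      · rw [mul_smul, mul_smul, hNb, hb, ← hNb, inv_smul_smul]
      · rw [mul_smul, mul_smul, hNc, hc, ← hNc, inv_smul_smul]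
    have e : g = mk N * ((mk N)⁻¹ * g * mk N) * (mk N)⁻¹ := by group
    rw [e, key, mul_one, mul_inv_cancel]

end Cfsg.Agent.S0266
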