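import Cfsg.Statements.S0267
import Mathlib
import Cfsg.Agent.S0266
-- import your own Cfsg.Agent.* helpers here

set_option autoImplicit false
open Cfsg

namespace Cfsg.Agent.S0267


open Matrix Matrix.ProjGenLinGroup MatrixGroups Cfsg.Agent.S0266

theorem emb3 {α : Type*} (a b c : α) (hab : a ≠ b) (hac : a ≠ c) (hbc : b ≠ c) :
    ∃ x : Fin 3 ↪ α, x 0 = a ∧ x 1 = b ∧ x 2 = c := by
  refine ⟨⟨![a, b, c], ?_⟩, rfl, rfl, rfl⟩
  intro i j h
  fin_cases i <;> fin_cases j <;>
    first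
    | rfl
    | exact absurd h hab
    | exact absurd h hac
    | exact absurd h hbc
    | exact absurd h.symm hab
    | exact absurd h.symm hac
    | exact absurd h.symm hbc

theorem sl_smul {F : Type*} [Field F] (g : Matrix.SpecialLinearGroup (Fin 2) F)
    (x : Projectivization F (Fin 2 → F)) :
    g • x = (Matrix.ProjGenLinGroup.mk (Matrix.SpecialLinearGroup.toGL g) : PGL(Fin 2, F)) • x :=
  rfl

theorem dir1 {F : Type*} [Field F] [Fintype F] (h2 : ringChar F = 2) :
    MulAction.IsMultiplyPretransitive (Matrix.SpecialLinearGroup (Fin 2) F)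
      (Projectivization F (Fin 2 → F)) 3 := by
  classical
  refine ⟨fun x y => ?_⟩
  obtain ⟨Mx, hx0, hx1, hx2⟩ := claimA (x 0) (x 1) (x 2) (x.injective.ne (by decide))
    (x.injective.ne (by decide)) (x.injective.ne (by decide))
  obtain ⟨My, hy0, hy1, hy2⟩ := claimA (y 0) (y 1) (y 2) (y.injective.ne (by decide))
    (y.injective.ne (by decide)) (y.injective.ne (by decide))
  have hroots : ∀ r : Fˣ, ∃ k : Fˣ, k ^ Fintype.card (Fin 2) = r := by
    intro r
    obtain ⟨k, hk⟩ := FiniteField.isSquare_of_char_two h2 (r : F)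
    have hk0 : k ≠ 0 := by
      rintro rfl
      rw [mul_zero] at hk
      exact r.ne_zero hk
    refine ⟨Units.mk0 k hk0, Units.ext ?_⟩
    rw [Fintype.card_fin, Units.val_pow_eq_pow_val, Units.val_mk0, pow_two, hk]
  obtain ⟨Y, hY⟩ := Matrix.ProjectiveSpecialLinearGroup.toPGL_surj_of_roots hroots
    ((mk My * (mk Mx)⁻¹ : PGL(Fin 2, F)))
  induction Y using QuotientGroup.induction_on with | H S =>
  have hS : (Matrix.ProjGenLinGroup.mk (Matrix.SpecialLinearGroup.toGL S) : PGL(Fin 2, F)) =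
      mk My * (mk Mx)⁻¹ := hY
  refine ⟨S, ?_⟩
  ext i
  fin_cases i
  · show S • x 0 = y 0
    rw [sl_smul, hS, ← hx0, ← hy0, mul_smul, inv_smul_smul]
  · show S • x 1 = y 1
    rw [sl_smul, hS, ← hx1, ← hy1, mul_smul, inv_smul_smul]
  · show S • x 2 = y 2
    rw [sl_smul, hS, ← hx2, ← hy2, mul_smul, inv_smul_smul]

theorem dir2 {F : Type*} [Field F] [Fintype F]
    (h : MulAction.IsMultiplyPretransitive (Matrix.SpecialLinearGroup (Fin 2) F)
      (Projectivization F (Fin 2 → F)) 3) : ringChar F = 2 := by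
  classical
  by_contra h2
  obtain ⟨d, hd⟩ := FiniteField.exists_nonsquare h2
  have hd0 : d ≠ 0 := by
    rintro rfl
    exact hd ⟨0, by rw [mul_zero]⟩
  have hdv : (![d, 1] : Fin 2 → F) ≠ 0 := by
    intro h
    have := congrFun h 0
    simp at this
    exact hd0 this
  have h01 : Projectivization.mk F (![1, 0] : Fin 2 → F) e0_ne ≠
      Projectivization.mk F (![0, 1] : Fin 2 → F) e1_ne := by
    rw [Ne, mk_eq_iff]
    simp
  have h02 : Projectivization.mk F (![1, 0] : Fin 2 → F) e0_ne ≠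
      Projectivization.mk F (![1, 1] : Fin 2 → F) e2_ne := by
    rw [Ne, mk_eq_iff]
    simp
  have h12 : Projectivization.mk F (![0, 1] : Fin 2 → F) e1_ne ≠
      Projectivization.mk F (![1, 1] : Fin 2 → F) e2_ne := by
    rw [Ne, mk_eq_iff]
    simp
  have h0d : Projectivization.mk F (![1, 0] : Fin 2 → F) e0_ne ≠
      Projectivization.mk F (![d, 1] : Fin 2 → F) hdv := by
    rw [Ne, mk_eq_iff]
    simp
  have h1d : Projectivization.mk F (![0, 1] : Fin 2 → F) e1_ne ≠
      Projectivization.mk F (![d, 1] : Fin 2 → F) hdv := by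
    rw [Ne, mk_eq_iff]
    simpa using hd0
  obtain ⟨x, hx0, hx1, hx2⟩ := emb3 _ _ _ h01 h02 h12
  obtain ⟨y, hy0, hy1, hy2⟩ := emb3 _ _ _ h01 h0d h1d
  obtain ⟨g, hg⟩ := h.exists_smul_eq x y
  have g0 : g • x 0 = y 0 := DFunLike.congr_fun hg 0
  have g1 : g • x 1 = y 1 := DFunLike.congr_fun hg 1
  have g2 : g • x 2 = y 2 := DFunLike.congr_fun hg 2
  rw [hx0, hy0, sl_smul] at g0
  rw [hx1, hy1, sl_smul] at g1
  rw [hx2, hy2, sl_smul] at g2
  have k0 := smul_pt' _ _ _ _ _ g0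
  have k1 := smul_pt' _ _ _ _ _ g1
  have k2 := smul_pt' _ _ _ _ _ g2
  rw [mulVec2, mulVec2] at k0 k1 k2
  simp at k0 k1 k2
  have hdet : (g : Matrix (Fin 2) (Fin 2) F).det = 1 := g.2
  rw [Matrix.det_fin_two, k0, k1, mul_zero, sub_zero] at hdet
  rw [k0, k1] at k2
  apply hd
  refine ⟨(g : Matrix (Fin 2) (Fin 2) F) 0 0, ?_⟩
  have k2' : (g : Matrix (Fin 2) (Fin 2) F) 0 0 = (g : Matrix (Fin 2) (Fin 2) F) 1 1 * d := by
    simpa [sub_eq_zero] using k2
  calc d = ((g : Matrix (Fin 2) (Fin 2) F) 0 0 * (g : Matrix (Fin 2) (Fin 2) F) 1 1) * d := by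
        rw [hdet, one_mul]
    _ = (g : Matrix (Fin 2) (Fin 2) F) 0 0 * ((g : Matrix (Fin 2) (Fin 2) F) 1 1 * d) := by ring
    _ = (g : Matrix (Fin 2) (Fin 2) F) 0 0 * (g : Matrix (Fin 2) (Fin 2) F) 0 0 := by rw [← k2']

/-- SL_2(q) is 3-transitive on the q+1 points of the projective line if and only if q is even. -/
theorem result {F : Type*} [Field F] [Fintype F] : MulAction.IsMultiplyPretransitive (Matrix.SpecialLinearGroup (Fin 2) F) (Projectivization F (Fin 2 → F)) 3 ↔ ringChar F = 2 := by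
  exact ⟨dir2, dir1⟩

end Cfsg.Agent.S0267
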