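import Cfsg.Statements.S0268
import Mathlib
import Cfsg.Agent.Lib.Lead.SylowAux2

set_option autoImplicit false
open Cfsg Cfsg.Agent.Lib.Lead

namespace Cfsg.Agent.S0268

open scoped Pointwise commutatorElement

/-- For q odd, -1 is the unique involution of SL_2(q). -/
theorem result {F : Type*} [Field F] [Fintype F] (hF : Odd (Fintype.card F)) (g : Matrix.SpecialLinearGroup (Fin 2) F) (h1 : g ≠ 1) (h2 : g * g = 1) : (g : Matrix (Fin 2) (Fin 2) F) = -1 := by
  have h2F : (2 : F) ≠ 0 := by
    intro h
    have h3 : ringChar F = 2 :=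
      CharP.ringChar_of_prime_eq_zero Nat.prime_two (by exact_mod_cast h)
    rw [FiniteField.even_card_iff_char_two] at h3
    obtain ⟨k, hk⟩ := hF
    omega
  have hdet : (g : Matrix (Fin 2) (Fin 2) F) 0 0 * (g : Matrix (Fin 2) (Fin 2) F) 1 1 -
      (g : Matrix (Fin 2) (Fin 2) F) 0 1 * (g : Matrix (Fin 2) (Fin 2) F) 1 0 = 1 := by
    have h3 := g.2
    rw [Matrix.det_fin_two] at h3
    exact h3
  have hsq := congrArg
    (fun x : Matrix.SpecialLinearGroup (Fin 2) F => (x : Matrix (Fin 2) (Fin 2) F)) h2
  simp only [Matrix.SpecialLinearGroup.coe_mul, Matrix.SpecialLinearGroup.coe_one] at hsq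
  have e00 := congrFun (congrFun hsq 0) 0
  have e01 := congrFun (congrFun hsq 0) 1
  have e10 := congrFun (congrFun hsq 1) 0
  simp only [Matrix.mul_apply, Fin.sum_univ_two, Matrix.one_apply_eq, Matrix.one_apply_ne,
    ne_eq, Fin.reduceEq, not_false_eq_true] at e00 e01 e10
  have hne : ∀ M : Matrix (Fin 2) (Fin 2) F, (g : Matrix (Fin 2) (Fin 2) F) = M →
      M 0 0 = 1 → M 0 1 = 0 → M 1 0 = 0 → M 1 1 = 1 → False := by
    intro M hM h00 h01 h10 h11
    apply h1
    apply Subtype.ext
    rw [hM]
    ext i j
    fin_cases i <;> fin_cases j <;> simp [h00, h01, h10, h11]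
  generalize (g : Matrix (Fin 2) (Fin 2) F) = M at *
  generalize ha : M 0 0 = a at *
  generalize hb : M 0 1 = b at *
  generalize hc : M 1 0 = c at *
  generalize hd : M 1 1 = d at *
  have hs : a + d ≠ 0 := by
    intro hs
    have hd' : d = -a := by linear_combination hs
    subst hd'
    apply h2F
    linear_combination -(e00 + hdet)
  have hb0 : b = 0 := by
    have h3 : b * (a + d) = 0 := by linear_combination e01
    rcases mul_eq_zero.mp h3 with h | h
    · exact h
    · exact absurd h hs
  have hc0 : c = 0 := by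
    have h3 : c * (a + d) = 0 := by linear_combination e10
    rcases mul_eq_zero.mp h3 with h | h
    · exact h
    · exact absurd h hs
  subst hb0
  subst hc0
  have ha0 : a ≠ 0 := by
    intro h0
    rw [h0] at e00
    simp at e00
  have had : a = d := by
    have h3 : a * (a - d) = 0 := by linear_combination e00 - hdet
    rcases mul_eq_zero.mp h3 with h | h
    · exact absurd h ha0
    · linear_combination h
  subst had
  have ha2 : (a - 1) * (a + 1) = 0 := by linear_combination e00
  rcases mul_eq_zero.mp ha2 with h | h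
  · exfalso
    have ha1 : a = 1 := by linear_combination h
    exact hne M rfl (by rw [ha, ha1]) hb hc (by rw [hd, ha1])
  · have ha1 : a = -1 := by linear_combination h
    ext i j
    fin_cases i <;> fin_cases j <;> simp [ha, hb, hc, hd, ha1]

end Cfsg.Agent.S0268
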