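import Cfsg.Statements.S0272
import Mathlib
import Cfsg.Agent.Lib.Lead.SylowAux2
import Cfsg.Agent.Lib.Lead.GL2Sylow

set_option autoImplicit false
open Cfsg Cfsg.Agent.Lib.Lead

namespace Cfsg.Agent.S0272

open scoped Pointwise commutatorElement

/-- The normaliser in GL_2(q) of a Sylow p-subgroup, p the characteristic, has order q (q-1)^2. -/
theorem result {F : Type*} [Field F] [Fintype F] {q : ℕ} (hF : Fintype.card F = q) (p : ℕ) [Fact p.Prime] [CharP F p] (P : Sylow p (Matrix.GeneralLinearGroup (Fin 2) F)) : Nat.card (Subgroup.normalizer ((P : Subgroup (Matrix.GeneralLinearGroup (Fin 2) F)) : Set (Matrix.GeneralLinearGroup (Fin 2) F))) = q * (q - 1) ^ 2 := by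
  classical
  subst hF
  have h1 := (Subgroup.normalizer ((P : Subgroup (Matrix.GeneralLinearGroup (Fin 2) F)) : Set (Matrix.GeneralLinearGroup (Fin 2) F))).card_mul_index
  have h2 := (Cfsg.upperTriangularGL 2 F).card_mul_index
  have h0 : (Subgroup.normalizer ((P : Subgroup (Matrix.GeneralLinearGroup (Fin 2) F)) : Set (Matrix.GeneralLinearGroup (Fin 2) F))).index = Fintype.card F + 1 := by
    rw [← card_sylow_gl2 p]
    exact (Sylow.card_eq_index_normalizer P).symm
  rw [h0] at h1
  rw [Cfsg.Agent.Lib.Helper4.index_borel2, Cfsg.Agent.Lib.Helper4.card_borel2] at h2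
  have h3 := h1.trans h2.symm
  exact Nat.eq_of_mul_eq_mul_right (by omega) h3

end Cfsg.Agent.S0272
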