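import Cfsg.Statements.S0280
import Mathlib
import Cfsg.Agent.Lib.Helper4.SUCenter2

set_option autoImplicit false
open Cfsg

namespace Cfsg.Agent.S0280

open Cfsg.Agent.Lib.Helper4 in

/-- Order of PSU_n(q): gcd(n, q+1) (q+1) |PSU_n(q)| = q^(n(n-1)/2) * prod_{i=1}^{n} (q^i - (-1)^i), n at least 2. -/
theorem result {F : Type*} [Field F] [Fintype F] {q : ℕ} (hF : Fintype.card F = q ^ 2) (n : ℕ) (hn : 2 ≤ n) : Nat.gcd n (q + 1) * ((q + 1) * Nat.card (Cfsg.PSU n F q)) = q ^ (n * (n - 1) / 2) * ∏ i ∈ Finset.range n, (if Even i then q ^ (i + 1) + 1 else q ^ (i + 1) - 1) := by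
  have h1 := Subgroup.card_eq_card_quotient_mul_card_subgroup (Subgroup.center (Cfsg.SU n F q))
  rw [su_center_card2 hF n hn] at h1
  have h2 : Nat.gcd n (q + 1) * ((q + 1) * Nat.card (Cfsg.PSU n F q)) =
      (q + 1) * Nat.card (Cfsg.SU n F q) := by
    rw [h1]
    show Nat.gcd n (q + 1) * ((q + 1) *
      Nat.card (Cfsg.SU n F q ⧸ Subgroup.center (Cfsg.SU n F q))) = _
    ring
  rw [h2, su_card_mul hF n (by omega)]
  exact gu_card hF n

end Cfsg.Agent.S0280
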