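import Cfsg.Statements.S0282
import Mathlib
import Cfsg.Agent.Lib.Helper4.SUOrder
import Cfsg.Agent.Lib.Helper4.GUOrder
import Cfsg.Agent.Lib.Helper4.SUCenter
import Cfsg.Agent.Lib.Lead.CharBurnside

set_option autoImplicit false
open Cfsg

namespace Cfsg.Agent.S0282

open Cfsg.Agent.Lib.Helper4 in

/-- PSU_3(2) is a solvable group of order 72. -/
theorem result {F : Type*} [Field F] [Fintype F] (hF : Fintype.card F = 4) : Nat.card (Cfsg.PSU 3 F 2) = 72 ∧ Group.IsSolvable (Cfsg.PSU 3 F 2) := by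
  have hF' : Fintype.card F = 2 ^ 2 := by rw [hF]; norm_num
  have h1 := su_card_mul hF' 3 (by norm_num)
  have h2 := gu_card hF' 3
  have h3 := su_center_card hF' 3 le_rfl
  have h4 : Nat.card (Cfsg.GU 3 F 2) = 648 := by
    rw [h2]
    simp [Finset.prod_range_succ]
  have h5 : Nat.card (Cfsg.SU 3 F 2) = 216 := by
    rw [h4] at h1
    omega
  have h6 : Nat.card (Subgroup.center (Cfsg.SU 3 F 2)) = 3 := by
    rw [h3]; rfl
  have h7 := Subgroup.card_eq_card_quotient_mul_card_subgroup (Subgroup.center (Cfsg.SU 3 F 2))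
  rw [h5, h6] at h7
  have hcard : Nat.card (Cfsg.PSU 3 F 2) = 72 := by
    have h8 : Nat.card (Cfsg.PSU 3 F 2) = Nat.card (↥(Cfsg.SU 3 F 2) ⧸ Subgroup.center (Cfsg.SU 3 F 2)) := rfl
    rw [h8]
    omega
  refine ⟨hcard, ?_⟩
  exact Cfsg.Agent.Lib.Lead.burnside_paqb 72 (Cfsg.PSU 3 F 2) 2 3 3 2 Nat.prime_two Nat.prime_three hcard (by rw [hcard]; norm_num)

end Cfsg.Agent.S0282
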