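import Cfsg.Statements.S0289
import Mathlib
import Cfsg.Agent.Lib.Lead.SylowAux2
import Cfsg.Agent.Lib.Lead.QuadCount

set_option autoImplicit false
open Cfsg Cfsg.Agent.Lib.Lead

namespace Cfsg.Agent.S0289

open scoped Pointwise commutatorElement

/-- The hyperbolic quadratic form on F^(2m), m at least 1, has q^(2m-1) + q^m - q^(m-1) zeros (that is, (q^m - 1)(q^(m-1) + 1) non-zero isotropic vectors). -/
theorem result {F : Type*} [Field F] [Fintype F] {q : ℕ} (hF : Fintype.card F = q) (m : ℕ) (hm : 1 ≤ m) : Nat.card {v : Fin m ⊕ Fin m → F // Cfsg.quadFormPlus m F v = 0} = q ^ (2 * m - 1) + q ^ m - q ^ (m - 1) := by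
  classical
  subst hF
  have e : {v : Fin m ⊕ Fin m → F // Cfsg.quadFormPlus m F v = 0} ≃
      {p : (Fin m → F) × (Fin m → F) // ∑ i, p.1 i * p.2 i = 0} :=
    (Equiv.sumArrowEquivProdArrow (Fin m) (Fin m) F).subtypeEquiv (fun v => Iff.rfl)
  rw [Nat.card_congr e, card_pairs_dot_zero]
  obtain ⟨k, rfl⟩ : ∃ k, m = k + 1 := ⟨m - 1, by omega⟩
  simp only [Nat.add_sub_cancel]
  have h1 : 1 ≤ Fintype.card F ^ (k+1) := Nat.one_le_pow _ _ Fintype.card_pos
  have e2 : Fintype.card F ^ (2 * (k + 1) - 1) = Fintype.card F ^ (k+1) * Fintype.card F ^ k := by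
    rw [← pow_add]; congr 1; omega
  rw [e2]
  generalize Fintype.card F ^ (k+1) = A at *
  generalize Fintype.card F ^ k = B at *
  obtain ⟨A', rfl⟩ : ∃ A', A = A' + 1 := ⟨A - 1, by omega⟩
  simp only [Nat.add_sub_cancel]
  rw [Nat.add_mul, one_mul]
  generalize A' * B = C
  omega

end Cfsg.Agent.S0289
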