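import Cfsg.Statements.S0290
import Mathlib
import Cfsg.Agent.Lib.Lead.SylowAux2
import Cfsg.Agent.Lib.Lead.QuadCount

set_option autoImplicit false
open Cfsg Cfsg.Agent.Lib.Lead

namespace Cfsg.Agent.S0290

open scoped Pointwise commutatorElement

/-- The minus-type quadratic form on F^(2m), m at least 1, has q^(2m-1) + q^(m-1) - q^m zeros (that is, (q^m + 1)(q^(m-1) - 1) non-zero isotropic vectors). -/
theorem result {F : Type*} [Field F] [Fintype F] {q : ℕ} (hF : Fintype.card F = q) (m : ℕ) (hm : 1 ≤ m) (a b : F) (hab : ∀ z₁ z₂ : F, z₁ ^ 2 + a * z₁ * z₂ + b * z₂ ^ 2 = 0 → z₁ = 0 ∧ z₂ = 0) : Nat.card {v : (Fin (m - 1) ⊕ Fin (m - 1)) ⊕ Fin 2 → F // Cfsg.quadFormMinus (m - 1) F a b v = 0} = q ^ (2 * m - 1) + q ^ (m - 1) - q ^ m := by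
  classical
  subst hF
  generalize hk : m - 1 = k
  obtain rfl : m = k + 1 := by omega
  clear hk hm
  have e : {v : (Fin k ⊕ Fin k) ⊕ Fin 2 → F // Cfsg.quadFormMinus k F a b v = 0} ≃
      {w : (Fin 2 → F) × ((Fin k → F) × (Fin k → F)) //
        ∑ i, w.2.1 i * w.2.2 i + (w.1 0 ^ 2 + a * w.1 0 * w.1 1 + b * w.1 1 ^ 2) = 0} :=
    ((Equiv.sumArrowEquivProdArrow (Fin k ⊕ Fin k) (Fin 2) F).trans
      ((Equiv.prodComm _ _).trans ((Equiv.refl _).prodCongr
        (Equiv.sumArrowEquivProdArrow (Fin k) (Fin k) F)))).subtypeEquiv (fun v => Iff.rfl)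
  have h0 : ∀ z : Fin 2 → F, z 0 ^ 2 + a * z 0 * z 1 + b * z 1 ^ 2 = 0 ↔ z = 0 := by
    intro z
    constructor
    · intro h
      obtain ⟨h1, h2⟩ := hab _ _ h
      ext i
      fin_cases i
      · exact h1
      · exact h2
    · rintro rfl; simp
  rw [Nat.card_congr e,
    card_form_zero (fun z : Fin 2 → F => z 0 ^ 2 + a * z 0 * z 1 + b * z 1 ^ 2) 0 h0 k,
    Fintype.card_fun, Fintype.card_fin]
  rcases Nat.eq_zero_or_pos k with hk | hk
  · subst hk; simp
  · obtain ⟨j, rfl⟩ : ∃ j, k = j + 1 := ⟨k - 1, by omega⟩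
    simp only [Nat.add_sub_cancel]
    have hq2 : Fintype.card F ^ 2 - 1 + 1 = Fintype.card F ^ 2 :=
      Nat.sub_add_cancel (Nat.one_le_pow _ _ Fintype.card_pos)
    have hA1 : 1 ≤ Fintype.card F ^ (j+1) := Nat.one_le_pow _ _ Fintype.card_pos
    have hqB : Fintype.card F * Fintype.card F ^ j = Fintype.card F ^ (j+1) := by
      rw [pow_succ, mul_comm]
    have e2 : Fintype.card F ^ (2 * (j + 1 + 1) - 1) =
        Fintype.card F * Fintype.card F ^ (j+1) * Fintype.card F ^ (j+1) := by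
      rw [mul_assoc, ← pow_add, ← pow_succ']; congr 1; omega
    have e3 : Fintype.card F ^ (j + 1 + 1) = Fintype.card F * Fintype.card F ^ (j+1) := by
      rw [pow_succ']
    rw [e2, e3]
    generalize Fintype.card F ^ (j+1) = A at *
    generalize Fintype.card F ^ j = B at *
    generalize Fintype.card F = q at *
    calc A + (A-1)*B + (q^2-1)*((A-1)*B) = A + ((q^2 - 1) + 1) * ((A-1)*B) := by ring
      _ = A + q * ((A - 1) * (q * B)) := by rw [hq2]; ring
      _ = A + q * ((A-1) * A) := by rw [hqB]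
      _ = q * A * A + A - q * A := by
        obtain ⟨A', rfl⟩ : ∃ A', A = A' + 1 := ⟨A - 1, by omega⟩
        simp only [Nat.add_sub_cancel]
        symm; apply Nat.sub_eq_of_eq_add; ring

end Cfsg.Agent.S0290
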