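import Cfsg.Statements.S0291
import Mathlib
import Cfsg.Agent.Lib.Lead.SylowAux2
import Cfsg.Agent.Lib.Lead.QuadCount

set_option autoImplicit false
open Cfsg Cfsg.Agent.Lib.Lead

namespace Cfsg.Agent.S0291

open scoped Pointwise commutatorElement

/-- For q odd, the form x_0^2 + sum_{i<m} x_i y_i on F^(2m+1) has exactly q^(2m) zeros. -/
theorem result {F : Type*} [Field F] [Fintype F] {q : ℕ} (hF : Fintype.card F = q) (hodd : Odd q) (m : ℕ) : Nat.card {v : Unit ⊕ (Fin m ⊕ Fin m) → F // Cfsg.quadFormOdd m F v = 0} = q ^ (2 * m) := by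
  classical
  subst hF
  have e : {v : Unit ⊕ (Fin m ⊕ Fin m) → F // Cfsg.quadFormOdd m F v = 0} ≃
      {w : F × ((Fin m → F) × (Fin m → F)) // ∑ i, w.2.1 i * w.2.2 i + w.1 ^ 2 = 0} :=
    ((Equiv.sumArrowEquivProdArrow Unit (Fin m ⊕ Fin m) F).trans
      ((Equiv.funUnique Unit F).prodCongr
        (Equiv.sumArrowEquivProdArrow (Fin m) (Fin m) F))).subtypeEquiv (fun v => by
      unfold Cfsg.quadFormOdd
      rw [add_comm]
      exact Iff.rfl)
  rw [Nat.card_congr e, card_form_zero (fun t : F => t ^ 2) 0 (fun t => by simp) m]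
  rcases Nat.eq_zero_or_pos m with hm | hm
  · subst hm; simp
  · obtain ⟨k, rfl⟩ : ∃ k, m = k + 1 := ⟨m - 1, by omega⟩
    simp only [Nat.add_sub_cancel]
    have hq : Fintype.card F - 1 + 1 = Fintype.card F := Nat.sub_add_cancel Fintype.card_pos
    have hA : Fintype.card F ^ (k+1) - 1 + 1 = Fintype.card F ^ (k+1) :=
      Nat.sub_add_cancel (Nat.one_le_pow _ _ Fintype.card_pos)
    have hqB : Fintype.card F * Fintype.card F ^ k = Fintype.card F ^ (k+1) := by
      rw [pow_succ, mul_comm]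
    have e2 : Fintype.card F ^ (2 * (k + 1)) = Fintype.card F ^ (k+1) * Fintype.card F ^ (k+1) := by
      rw [← pow_add]; congr 1; omega
    rw [e2]
    generalize Fintype.card F ^ (k+1) = A at *
    generalize Fintype.card F ^ k = B at *
    generalize Fintype.card F = q at *
    calc A + (A-1)*B + (q-1)*((A-1)*B) = A + ((q - 1) + 1) * ((A-1)*B) := by ring
      _ = A + (A - 1) * (q * B) := by rw [hq]; ring
      _ = A + (A-1) * A := by rw [hqB]
      _ = ((A - 1) + 1) * A := by ring
      _ = A * A := by rw [hA]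

end Cfsg.Agent.S0291
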