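import Cfsg.Statements.S0305
import Mathlib
-- import your own Cfsg.Agent.* helpers here

set_option autoImplicit false
open Cfsg

namespace Cfsg.Agent.S0305


open Matrix

def Mx {F : Type*} [Field F] (a b c d : F) : Matrix (Fin 1 ⊕ Fin 1) (Fin 1 ⊕ Fin 1) F :=
  Matrix.of (fun i j => Sum.elim (fun _ => Sum.elim (fun _ => a) (fun _ => b) j)
    (fun _ => Sum.elim (fun _ => c) (fun _ => d) j) i)

theorem Mx_mul {F : Type*} [Field F] (a b c d a' b' c' d' : F) :
    Mx a b c d * Mx a' b' c' d' =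
      Mx (a * a' + b * c') (a * b' + b * d') (c * a' + d * c') (c * b' + d * d') := by
  ext (i|i) (j|j) <;> simp [Mx, Matrix.mul_apply, Fintype.sum_sum_type]

theorem Mx_one {F : Type*} [Field F] : Mx (1:F) 0 0 1 = 1 := by
  ext (i|i) (j|j) <;> simp [Mx, Matrix.one_apply] <;> exact Subsingleton.elim _ _

theorem Mx_eta {F : Type*} [Field F] (M : Matrix (Fin 1 ⊕ Fin 1) (Fin 1 ⊕ Fin 1) F) :
    M = Mx (M (Sum.inl 0) (Sum.inl 0)) (M (Sum.inl 0) (Sum.inr 0)) (M (Sum.inr 0) (Sum.inl 0))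
      (M (Sum.inr 0) (Sum.inr 0)) := by
  ext (i|i) (j|j) <;> fin_cases i <;> fin_cases j <;> rfl

theorem Mx_inj {F : Type*} [Field F] {a b c d a' b' c' d' : F}
    (h : Mx a b c d = Mx a' b' c' d') : a = a' ∧ b = b' ∧ c = c' ∧ d = d' := by
  refine ⟨?_, ?_, ?_, ?_⟩
  · exact congrFun (congrFun h (Sum.inl 0)) (Sum.inl 0)
  · exact congrFun (congrFun h (Sum.inl 0)) (Sum.inr 0)
  · exact congrFun (congrFun h (Sum.inr 0)) (Sum.inl 0)
  · exact congrFun (congrFun h (Sum.inr 0)) (Sum.inr 0)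

theorem Mx_Q {F : Type*} [Field F] (a b c d : F) (u : Fin 1 ⊕ Fin 1 → F) :
    Cfsg.quadFormPlus 1 F (Mx a b c d *ᵥ u) =
      (a * u (Sum.inl 0) + b * u (Sum.inr 0)) * (c * u (Sum.inl 0) + d * u (Sum.inr 0)) := by
  simp [Cfsg.quadFormPlus, Mx, Matrix.mulVec, dotProduct, Fintype.sum_sum_type]

theorem Q_apply {F : Type*} [Field F] (u : Fin 1 ⊕ Fin 1 → F) :
    Cfsg.quadFormPlus 1 F u = u (Sum.inl 0) * u (Sum.inr 0) := by
  simp [Cfsg.quadFormPlus]

def Dm {F : Type*} [Field F] (a : Fˣ) : GL (Fin 1 ⊕ Fin 1) F :=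
  ⟨Mx (a : F) 0 0 ((a⁻¹ : Fˣ) : F), Mx ((a⁻¹ : Fˣ) : F) 0 0 (a : F),
    by rw [Mx_mul, ← Mx_one]; congr 1 <;> simp,
    by rw [Mx_mul, ← Mx_one]; congr 1 <;> simp⟩

def Sm {F : Type*} [Field F] (b : Fˣ) : GL (Fin 1 ⊕ Fin 1) F :=
  ⟨Mx 0 (b : F) ((b⁻¹ : Fˣ) : F) 0, Mx 0 (b : F) ((b⁻¹ : Fˣ) : F) 0,
    by rw [Mx_mul, ← Mx_one]; congr 1 <;> simp,
    by rw [Mx_mul, ← Mx_one]; congr 1 <;> simp⟩

theorem Dm_val {F : Type*} [Field F] (a : Fˣ) :
    ((Dm a : GL (Fin 1 ⊕ Fin 1) F) : Matrix (Fin 1 ⊕ Fin 1) (Fin 1 ⊕ Fin 1) F) =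
      Mx (a : F) 0 0 ((a⁻¹ : Fˣ) : F) := rfl

theorem Sm_val {F : Type*} [Field F] (b : Fˣ) :
    ((Sm b : GL (Fin 1 ⊕ Fin 1) F) : Matrix (Fin 1 ⊕ Fin 1) (Fin 1 ⊕ Fin 1) F) =
      Mx 0 (b : F) ((b⁻¹ : Fˣ) : F) 0 := rfl

theorem Dm_mul_Dm {F : Type*} [Field F] (a b : Fˣ) : Dm a * Dm b = Dm (a * b) := by
  apply Units.ext
  rw [Units.val_mul, Dm_val, Dm_val, Dm_val, Mx_mul]
  congr 1 <;> simp [mul_comm]

theorem Dm_mul_Sm {F : Type*} [Field F] (a b : Fˣ) : Dm a * Sm b = Sm (a * b) := by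
  apply Units.ext
  rw [Units.val_mul, Dm_val, Sm_val, Sm_val, Mx_mul]
  congr 1 <;> simp [mul_comm]

theorem Sm_mul_Dm {F : Type*} [Field F] (b a : Fˣ) : Sm b * Dm a = Sm (b * a⁻¹) := by
  apply Units.ext
  rw [Units.val_mul, Dm_val, Sm_val, Sm_val, Mx_mul]
  congr 1 <;> simp [mul_comm]

theorem Sm_mul_Sm {F : Type*} [Field F] (b c : Fˣ) : Sm b * Sm c = Dm (b * c⁻¹) := by
  apply Units.ext
  rw [Units.val_mul, Dm_val, Sm_val, Sm_val, Mx_mul]
  congr 1 <;> simp [mul_comm]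

theorem mem_iso {F : Type*} [Field F] (g : GL (Fin 1 ⊕ Fin 1) F) :
    g ∈ Cfsg.isometryGroup F (Cfsg.quadFormPlus 1 F) ↔
      ∀ u : Fin 1 ⊕ Fin 1 → F, Cfsg.quadFormPlus 1 F
        ((g : Matrix (Fin 1 ⊕ Fin 1) (Fin 1 ⊕ Fin 1) F) *ᵥ u) = Cfsg.quadFormPlus 1 F u := by
  constructor
  · intro h u
    exact h u u
  · intro h u _
    exact h u

theorem Dm_mem {F : Type*} [Field F] (a : Fˣ) :
    Dm a ∈ Cfsg.isometryGroup F (Cfsg.quadFormPlus 1 F) := by
  rw [mem_iso]
  intro u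
  rw [Dm_val, Mx_Q, Q_apply]
  have : (a : F) * ((a⁻¹ : Fˣ) : F) = 1 := Units.mul_inv a
  linear_combination (u (Sum.inl 0) * u (Sum.inr 0)) * this

theorem Sm_mem {F : Type*} [Field F] (b : Fˣ) :
    Sm b ∈ Cfsg.isometryGroup F (Cfsg.quadFormPlus 1 F) := by
  rw [mem_iso]
  intro u
  rw [Sm_val, Mx_Q, Q_apply]
  have : (b : F) * ((b⁻¹ : Fˣ) : F) = 1 := Units.mul_inv b
  linear_combination (u (Sum.inl 0) * u (Sum.inr 0)) * this

theorem classify {F : Type*} [Field F] (g : GL (Fin 1 ⊕ Fin 1) F)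
    (hg : g ∈ Cfsg.isometryGroup F (Cfsg.quadFormPlus 1 F)) :
    (∃ a : Fˣ, g = Dm a) ∨ (∃ b : Fˣ, g = Sm b) := by
  rw [mem_iso] at hg
  obtain ⟨a, b, c, d, hM⟩ : ∃ a b c d : F,
      (g : Matrix (Fin 1 ⊕ Fin 1) (Fin 1 ⊕ Fin 1) F) = Mx a b c d := ⟨_, _, _, _, Mx_eta _⟩
  rw [hM] at hg
  have h1 := hg (Sum.elim (fun _ => 1) (fun _ => 0))
  have h2 := hg (Sum.elim (fun _ => 0) (fun _ => 1))
  have h3 := hg (Sum.elim (fun _ => 1) (fun _ => 1))
  rw [Mx_Q, Q_apply] at h1 h2 h3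
  simp only [Sum.elim_inl, Sum.elim_inr, mul_one, mul_zero, add_zero, zero_add] at h1 h2 h3
  have h4 : a * d + b * c = 1 := by linear_combination h3 - h1 - h2
  by_cases ha : a = 0
  · right
    subst ha
    rw [zero_mul, zero_add] at h4
    have hb : b ≠ 0 := by
      rintro rfl
      rw [zero_mul] at h4
      exact zero_ne_one h4
    have hd : d = 0 := by
      rcases mul_eq_zero.mp h2 with h | h
      · exact absurd h hb
      · exact h
    subst hd
    refine ⟨Units.mk0 b hb, Units.ext ?_⟩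
    rw [hM, Sm_val]
    congr 1
    rw [Units.val_inv_eq_inv_val, Units.val_mk0]
    exact eq_inv_of_mul_eq_one_right h4
  · left
    have hc : c = 0 := by
      rcases mul_eq_zero.mp h1 with h | h
      · exact absurd h ha
      · exact h
    subst hc
    rw [mul_zero, add_zero] at h4
    have hd : d ≠ 0 := by
      rintro rfl
      rw [mul_zero] at h4
      exact zero_ne_one h4
    have hb : b = 0 := by
      rcases mul_eq_zero.mp h2 with h | h
      · exact h
      · exact absurd h hd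
    subst hb
    refine ⟨Units.mk0 a ha, Units.ext ?_⟩
    rw [hM, Dm_val]
    congr 1
    rw [Units.val_inv_eq_inv_val, Units.val_mk0]
    exact eq_inv_of_mul_eq_one_right h4

noncomputable def Φfun {F : Type*} [Field F] {n : ℕ} (e : Multiplicative (ZMod n) ≃* Fˣ) :
    DihedralGroup n → GL (Fin 1 ⊕ Fin 1) F
  | .r i => Dm (e (Multiplicative.ofAdd i))
  | .sr i => Sm (e (Multiplicative.ofAdd (-i)))

theorem main {F : Type*} [Field F] {n : ℕ} (e : Multiplicative (ZMod n) ≃* Fˣ) :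
    Nonempty (Cfsg.isometryGroup F (Cfsg.quadFormPlus 1 F) ≃* DihedralGroup n) := by
  classical
  have hmem : ∀ x : DihedralGroup n, Φfun e x ∈ Cfsg.isometryGroup F (Cfsg.quadFormPlus 1 F) := by
    intro x
    cases x with
    | r i => exact Dm_mem _
    | sr i => exact Sm_mem _
  have hmul : ∀ x y : DihedralGroup n, Φfun e (x * y) = Φfun e x * Φfun e y := by
    intro x y
    cases x with
    | r i =>
      cases y with
      | r j =>
        show Dm _ = Dm _ * Dm _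
        rw [Dm_mul_Dm, ← map_mul, ← ofAdd_add]
      | sr j =>
        show Sm _ = Dm _ * Sm _
        rw [Dm_mul_Sm, ← map_mul, ← ofAdd_add]
        congr 3
        ring
    | sr i =>
      cases y with
      | r j =>
        show Sm _ = Sm _ * Dm _
        rw [Sm_mul_Dm, ← map_inv, ← map_mul, ← ofAdd_neg, ← ofAdd_add]
        congr 3
        ring
      | sr j =>
        show Dm _ = Sm _ * Sm _
        rw [Sm_mul_Sm, ← map_inv, ← map_mul, ← ofAdd_neg, ← ofAdd_add]
        congr 3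
        ring
  let Φ : DihedralGroup n →* Cfsg.isometryGroup F (Cfsg.quadFormPlus 1 F) :=
    { toFun := fun x => ⟨Φfun e x, hmem x⟩
      map_one' := by
        apply Subtype.ext
        show Dm (e (Multiplicative.ofAdd (0 : ZMod n))) = 1
        rw [ofAdd_zero, map_one]
        apply Units.ext
        rw [Dm_val]
        simp [Mx_one]
      map_mul' := fun x y => Subtype.ext (hmul x y) }
  have hΦ : ∀ x, (Φ x).1 = Φfun e x := fun x => rfl
  have hbij : Function.Bijective Φ := by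
    constructor
    · intro x y hxy
      have h1 : Φfun e x = Φfun e y := by rw [← hΦ, ← hΦ, hxy]
      have h2 := congrArg (fun g : GL (Fin 1 ⊕ Fin 1) F =>
        (g : Matrix (Fin 1 ⊕ Fin 1) (Fin 1 ⊕ Fin 1) F)) h1
      cases x with
      | r i =>
        cases y with
        | r j =>
          have h3 : Mx _ _ _ _ = Mx _ _ _ _ := h2
          have h4 := (Mx_inj h3).1
          have h5 := e.injective (Units.ext h4)
          rw [Multiplicative.ofAdd.injective h5]
        | sr j =>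
          have h3 : Mx _ _ _ _ = Mx _ _ _ _ := h2
          have h4 := (Mx_inj h3).1
          exact absurd h4 (Units.ne_zero _)
      | sr i =>
        cases y with
        | r j =>
          have h3 : Mx _ _ _ _ = Mx _ _ _ _ := h2
          have h4 := (Mx_inj h3).1
          exact absurd h4.symm (Units.ne_zero _)
        | sr j =>
          have h3 : Mx _ _ _ _ = Mx _ _ _ _ := h2
          have h4 := (Mx_inj h3).2.1
          have h5 := e.injective (Units.ext h4)
          have h6 : -i = -j := Multiplicative.ofAdd.injective h5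
          rw [neg_inj.mp h6]
    · intro g
      rcases classify g.1 g.2 with ⟨a, ha⟩ | ⟨b, hb⟩
      · obtain ⟨k, hk⟩ := e.surjective a
        refine ⟨DihedralGroup.r (Multiplicative.toAdd k), Subtype.ext ?_⟩
        rw [hΦ, ha, ← hk]
        rfl
      · obtain ⟨k, hk⟩ := e.surjective b
        refine ⟨DihedralGroup.sr (-(Multiplicative.toAdd k)), Subtype.ext ?_⟩
        rw [hΦ, hb, ← hk]
        show Sm (e (Multiplicative.ofAdd (- -(Multiplicative.toAdd k)))) = _
        rw [neg_neg]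
        rfl
  exact ⟨(MulEquiv.ofBijective Φ hbij).symm⟩

/-- GO^+_2(q) is dihedral of order 2(q-1). -/
theorem result {F : Type*} [Field F] [Fintype F] {q : ℕ} (hF : Fintype.card F = q) : Nonempty (Cfsg.isometryGroup F (Cfsg.quadFormPlus 1 F) ≃* DihedralGroup (q - 1)) := by
  classical
  have hc : Nat.card Fˣ = q - 1 := by
    rw [Nat.card_eq_fintype_card, Fintype.card_units, hF]
  have e := zmodCyclicMulEquiv (G := Fˣ) inferInstance
  rw [hc] at e
  exact main e

end Cfsg.Agent.S0305
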