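import Cfsg.Statements.S0306
import Mathlib
-- import your own Cfsg.Agent.* helpers here

set_option autoImplicit false
open Cfsg

namespace Cfsg.Agent.S0306

open Matrix

abbrev ι2 : Type := (Fin 0 ⊕ Fin 0) ⊕ Fin 2

def Nm {F : Type*} [Field F] (a b : F) (t : F × F) : F := t.1 ^ 2 + a * t.1 * t.2 + b * t.2 ^ 2

def mulP {F : Type*} [Field F] (a b : F) (t t' : F × F) : F × F :=
  (t.1 * t'.1 - b * t.2 * t'.2, t.1 * t'.2 + t.2 * t'.1 + a * t.2 * t'.2)

def cj {F : Type*} [Field F] (a : F) (t : F × F) : F × F := (t.1 + a * t.2, -t.2)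

theorem Nm_mul {F : Type*} [Field F] (a b : F) (t t' : F × F) :
    Nm a b (mulP a b t t') = Nm a b t * Nm a b t' := by
  simp only [Nm, mulP]; ring

theorem Nm_cj {F : Type*} [Field F] (a b : F) (t : F × F) : Nm a b (cj a t) = Nm a b t := by
  simp only [Nm, cj]; ring

theorem mulP_cj {F : Type*} [Field F] (a b : F) (t : F × F) :
    mulP a b t (cj a t) = (Nm a b t, 0) := by
  simp only [Nm, mulP, cj]; refine Prod.ext ?_ ?_ <;> simp <;> ring

theorem cj_mulP {F : Type*} [Field F] (a b : F) (t : F × F) :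
    mulP a b (cj a t) t = (Nm a b t, 0) := by
  simp only [Nm, mulP, cj]; refine Prod.ext ?_ ?_ <;> simp <;> ring

def Mx {F : Type*} [Field F] (p q r s : F) : Matrix ι2 ι2 F :=
  Matrix.of (fun i j => Sum.elim (fun _ => 0)
    (fun i' => Sum.elim (fun _ => 0) (fun j' => !![p, q; r, s] i' j') j) i)

theorem Mx_mul {F : Type*} [Field F] (p q r s p' q' r' s' : F) :
    Mx p q r s * Mx p' q' r' s' =
      Mx (p * p' + q * r') (p * q' + q * s') (r * p' + s * r') (r * q' + s * s') := by
  ext (i|i) (j|j)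
  · rcases i with i | i <;> exact i.elim0
  · rcases i with i | i <;> exact i.elim0
  · rcases j with j | j <;> exact j.elim0
  · fin_cases i <;> fin_cases j <;>
      simp [Mx, Matrix.mul_apply, Fintype.sum_sum_type, Fin.sum_univ_two]

theorem Mx_one {F : Type*} [Field F] : Mx (1:F) 0 0 1 = 1 := by
  ext (i|i) (j|j)
  · rcases i with i | i <;> exact i.elim0
  · rcases i with i | i <;> exact i.elim0
  · rcases j with j | j <;> exact j.elim0
  · fin_cases i <;> fin_cases j <;> simp [Mx]

theorem Mx_eta {F : Type*} [Field F] (M : Matrix ι2 ι2 F) :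
    M = Mx (M (Sum.inr 0) (Sum.inr 0)) (M (Sum.inr 0) (Sum.inr 1)) (M (Sum.inr 1) (Sum.inr 0))
      (M (Sum.inr 1) (Sum.inr 1)) := by
  ext (i|i) (j|j)
  · rcases i with i | i <;> exact i.elim0
  · rcases i with i | i <;> exact i.elim0
  · rcases j with j | j <;> exact j.elim0
  · fin_cases i <;> fin_cases j <;> rfl

theorem Mx_inj {F : Type*} [Field F] {p q r s p' q' r' s' : F}
    (h : Mx p q r s = Mx p' q' r' s') : p = p' ∧ q = q' ∧ r = r' ∧ s = s' := by
  refine ⟨?_, ?_, ?_, ?_⟩
  · exact congrFun (congrFun h (Sum.inr 0)) (Sum.inr 0)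
  · exact congrFun (congrFun h (Sum.inr 0)) (Sum.inr 1)
  · exact congrFun (congrFun h (Sum.inr 1)) (Sum.inr 0)
  · exact congrFun (congrFun h (Sum.inr 1)) (Sum.inr 1)

theorem Q_apply {F : Type*} [Field F] (a b : F) (u : ι2 → F) :
    Cfsg.quadFormMinus 0 F a b u = Nm a b (u (Sum.inr 0), u (Sum.inr 1)) := by
  simp [Cfsg.quadFormMinus, Nm]

theorem Mx_Q {F : Type*} [Field F] (a b p q r s : F) (u : ι2 → F) :
    Cfsg.quadFormMinus 0 F a b (Mx p q r s *ᵥ u) =
      Nm a b (p * u (Sum.inr 0) + q * u (Sum.inr 1), r * u (Sum.inr 0) + s * u (Sum.inr 1)) := by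
  simp [Cfsg.quadFormMinus, Nm, Mx, Matrix.mulVec, dotProduct, Fintype.sum_sum_type,
    Fin.sum_univ_two]

def R {F : Type*} [Field F] (a b : F) (t : F × F) : Matrix ι2 ι2 F :=
  Mx t.1 (-(b * t.2)) t.2 (t.1 + a * t.2)

theorem R_mul {F : Type*} [Field F] (a b : F) (t t' : F × F) :
    R a b t * R a b t' = R a b (mulP a b t t') := by
  simp only [R, Mx_mul, mulP]
  congr 1 <;> ring

theorem R_one {F : Type*} [Field F] (a b : F) : R a b (1, 0) = 1 := by
  simp [R, Mx_one]

theorem R_inj {F : Type*} [Field F] (a b : F) {t t' : F × F} (h : R a b t = R a b t') : t = t' := by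
  have := Mx_inj h
  exact Prod.ext this.1 this.2.2.1

def Rg {F : Type*} [Field F] (a b : F) (t : F × F) (h : Nm a b t = 1) : GL ι2 F :=
  ⟨R a b t, R a b (cj a t), by rw [R_mul, mulP_cj, h, R_one], by rw [R_mul, cj_mulP, h, R_one]⟩

def Sg {F : Type*} [Field F] (a : F) : GL ι2 F :=
  ⟨Mx 1 a 0 (-1), Mx 1 a 0 (-1), by rw [Mx_mul, ← Mx_one]; congr 1 <;> ring,
    by rw [Mx_mul, ← Mx_one]; congr 1 <;> ring⟩

theorem Rg_val {F : Type*} [Field F] (a b : F) (t : F × F) (h : Nm a b t = 1) :
    ((Rg a b t h : GL ι2 F) : Matrix ι2 ι2 F) = R a b t := rfl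

theorem Sg_val {F : Type*} [Field F] (a : F) :
    ((Sg a : GL ι2 F) : Matrix ι2 ι2 F) = Mx 1 a 0 (-1) := rfl

theorem Sg_mul_Sg {F : Type*} [Field F] (a : F) : Sg a * Sg a = 1 := by
  apply Units.ext
  rw [Units.val_mul, Sg_val, Mx_mul, Units.val_one, ← Mx_one]; congr 1 <;> ring

theorem S_R_S {F : Type*} [Field F] (a b : F) (t : F × F) :
    Mx 1 a 0 (-1) * R a b t * Mx 1 a 0 (-1) = R a b (cj a t) := by
  simp only [R, Mx_mul, cj]
  congr 1 <;> ring

theorem Sg_Rg_Sg {F : Type*} [Field F] (a b : F) (t : F × F) (h : Nm a b t = 1) :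
    Sg a * Rg a b t h * Sg a = (Rg a b t h)⁻¹ := by
  apply Units.ext
  rw [Units.val_mul, Units.val_mul, Sg_val, Rg_val, S_R_S]
  rfl

theorem mem_iso {F : Type*} [Field F] (a b : F) (g : GL ι2 F) :
    g ∈ Cfsg.isometryGroup F (Cfsg.quadFormMinus 0 F a b) ↔
      ∀ u : ι2 → F, Cfsg.quadFormMinus 0 F a b
        ((g : Matrix ι2 ι2 F) *ᵥ u) = Cfsg.quadFormMinus 0 F a b u := by
  constructor
  · intro h u
    exact h u u
  · intro h u _
    exact h u

theorem Rg_mem {F : Type*} [Field F] (a b : F) (t : F × F) (h : Nm a b t = 1) :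
    Rg a b t h ∈ Cfsg.isometryGroup F (Cfsg.quadFormMinus 0 F a b) := by
  rw [mem_iso]
  intro u
  rw [Rg_val, R, Mx_Q, Q_apply]
  simp only [Nm] at h ⊢
  linear_combination (u (Sum.inr 0) ^ 2 + a * u (Sum.inr 0) * u (Sum.inr 1) + b * u (Sum.inr 1) ^ 2) * h

theorem Sg_mem {F : Type*} [Field F] (a b : F) :
    Sg a ∈ Cfsg.isometryGroup F (Cfsg.quadFormMinus 0 F a b) := by
  rw [mem_iso]
  intro u
  rw [Sg_val, Mx_Q, Q_apply]
  simp only [Nm]
  ring

theorem classify {F : Type*} [Field F] (a b : F)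
    (hab : ∀ z₁ z₂ : F, z₁ ^ 2 + a * z₁ * z₂ + b * z₂ ^ 2 = 0 → z₁ = 0 ∧ z₂ = 0)
    (g : GL ι2 F) (hg : g ∈ Cfsg.isometryGroup F (Cfsg.quadFormMinus 0 F a b)) :
    ∃ (t : F × F) (h : Nm a b t = 1), g = Rg a b t h ∨ g = Rg a b t h * Sg a := by
  rw [mem_iso] at hg
  obtain ⟨p, q, r, s, hM⟩ : ∃ p q r s : F,
      (g : Matrix ι2 ι2 F) = Mx p q r s := ⟨_, _, _, _, Mx_eta _⟩
  rw [hM] at hg
  have h1 := hg (Sum.elim (fun _ => 0) ![1, 0])
  have h2 := hg (Sum.elim (fun _ => 0) ![0, 1])
  have h3 := hg (Sum.elim (fun _ => 0) ![1, 1])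
  rw [Mx_Q, Q_apply] at h1 h2 h3
  simp only [Nm, Sum.elim_inr, Matrix.cons_val_zero, Matrix.cons_val_one, mul_one, mul_zero,
    add_zero, zero_add] at h1 h2 h3
  have ht : Nm a b (p, r) = 1 := by simp only [Nm]; linear_combination h1
  refine ⟨(p, r), ht, ?_⟩
  -- h = R(cj t) * M = Mx 1 c 0 d
  set c : F := (p + a * r) * q + b * r * s with hc
  set d : F := p * s - r * q with hd
  have hprod : R a b (cj a (p, r)) * Mx p q r s = Mx 1 c 0 d := by
    simp only [R, cj, Mx_mul]
    congr 1
    · simp only [Nm] at ht; linear_combination ht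
    · rw [hc]; ring
    · ring
    · rw [hd]; ring
  have hM2 : Mx p q r s = R a b (p, r) * Mx 1 c 0 d := by
    rw [← hprod, ← mul_assoc, R_mul, mulP_cj, ht, R_one, one_mul]
  have E1 : 2 * c + a * d = a := by
    rw [hc, hd]; linear_combination h3 - h1 - h2
  have E2 : c ^ 2 + a * c * d + b * d ^ 2 = b := by
    have := Nm_mul a b (cj a (p, r)) (q, s)
    rw [Nm_cj, ht, one_mul] at this
    have h2' : Nm a b (q, s) = b := by simp only [Nm]; linear_combination h2
    rw [h2'] at this
    simp only [Nm, mulP, cj] at this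
    rw [hc, hd]
    linear_combination this
  have key : Nm a b (c, d - 1) * Nm a b (c - a, d + 1) = 0 := by
    simp only [Nm]
    linear_combination ((c ^ 2 + a * c * d + b * d ^ 2 - b) - 2 * (a * c + 2 * b * (d - 1))
      + (4 * b - a ^ 2) * (d - 1)) * E2 + (b * (2 * c + a * d - a)) * E1
  rcases mul_eq_zero.mp key with h | h
  · obtain ⟨hc0, hd0⟩ := hab _ _ h
    left
    apply Units.ext
    rw [hM, Rg_val, hM2]
    have hd1 : d = 1 := by linear_combination hd0
    have hc1 : c = 0 := hc0
    rw [hc1, hd1, Mx_one, mul_one]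
  · obtain ⟨hc0, hd0⟩ := hab _ _ h
    right
    apply Units.ext
    rw [hM, Units.val_mul, Rg_val, Sg_val, hM2]
    have hc1 : c = a := by linear_combination hc0
    have hd1 : d = -1 := by linear_combination hd0
    rw [hc1, hd1]

theorem dihedral_of {G : Type*} [Group G] {n : ℕ} (e : Multiplicative (ZMod n) →* G)
    (he : Function.Injective e) (s : G) (hs : s * s = 1) (hsc : ∀ k, s * e k * s = (e k)⁻¹)
    (hs' : ∀ k, s ≠ e k) (hall : ∀ g, (∃ k, g = e k) ∨ (∃ k, g = s * e k)) :
    Nonempty (G ≃* DihedralGroup n) := by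
  classical
  let Φf : DihedralGroup n → G := fun x => match x with
    | .r i => e (Multiplicative.ofAdd i)
    | .sr i => s * e (Multiplicative.ofAdd i)
  have hcomm : ∀ k, e k * s = s * (e k)⁻¹ := by
    intro k
    rw [← hsc k, ← mul_assoc, ← mul_assoc, hs, one_mul]
  have hmul : ∀ x y, Φf (x * y) = Φf x * Φf y := by
    intro x y
    cases x with
    | r i =>
      cases y with
      | r j =>
        show e (Multiplicative.ofAdd (i + j)) = e _ * e _
        rw [ofAdd_add, map_mul]
      | sr j =>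
        show s * e (Multiplicative.ofAdd (j - i))
          = e (Multiplicative.ofAdd i) * (s * e (Multiplicative.ofAdd j))
        rw [← mul_assoc, hcomm, mul_assoc, ← map_inv, ← map_mul, ← ofAdd_neg, ← ofAdd_add]
        congr 3
        ring
    | sr i =>
      cases y with
      | r j =>
        show s * e (Multiplicative.ofAdd (i + j)) = s * e _ * e _
        rw [ofAdd_add, map_mul, mul_assoc]
      | sr j =>
        show e (Multiplicative.ofAdd (j - i))
          = s * e (Multiplicative.ofAdd i) * (s * e (Multiplicative.ofAdd j))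
        rw [← mul_assoc, hsc, ← map_inv, ← map_mul, ← ofAdd_neg, ← ofAdd_add]
        congr 2
        ring
  let Φ : DihedralGroup n →* G :=
    { toFun := Φf
      map_one' := by show e (Multiplicative.ofAdd (0 : ZMod n)) = 1; rw [ofAdd_zero, map_one]
      map_mul' := hmul }
  have hbij : Function.Bijective Φ := by
    constructor
    · intro x y hxy
      cases x with
      | r i =>
        cases y with
        | r j =>
          have h1 : e (Multiplicative.ofAdd i) = e (Multiplicative.ofAdd j) := hxy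
          rw [Multiplicative.ofAdd.injective (he h1)]
        | sr j =>
          have h1 : e (Multiplicative.ofAdd i) = s * e (Multiplicative.ofAdd j) := hxy
          exfalso
          apply hs' (Multiplicative.ofAdd i * (Multiplicative.ofAdd j)⁻¹)
          rw [map_mul, map_inv, h1, mul_inv_cancel_right]
      | sr i =>
        cases y with
        | r j =>
          have h1 : s * e (Multiplicative.ofAdd i) = e (Multiplicative.ofAdd j) := hxy
          exfalso
          apply hs' (Multiplicative.ofAdd j * (Multiplicative.ofAdd i)⁻¹)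
          rw [map_mul, map_inv, ← h1, mul_inv_cancel_right]
        | sr j =>
          have h1 : s * e (Multiplicative.ofAdd i) = s * e (Multiplicative.ofAdd j) := hxy
          rw [Multiplicative.ofAdd.injective (he (mul_left_cancel h1))]
    · intro g
      rcases hall g with ⟨k, hk⟩ | ⟨k, hk⟩
      · exact ⟨DihedralGroup.r (Multiplicative.toAdd k), hk.symm⟩
      · exact ⟨DihedralGroup.sr (Multiplicative.toAdd k), hk.symm⟩
  exact ⟨(MulEquiv.ofBijective Φ hbij).symm⟩

theorem no_a0 {F : Type*} [Field F] [Fintype F] (a b : F)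
    (hab : ∀ z₁ z₂ : F, z₁ ^ 2 + a * z₁ * z₂ + b * z₂ ^ 2 = 0 → z₁ = 0 ∧ z₂ = 0) :
    ¬ (a = 0 ∧ (2 : F) = 0) := by
  rintro ⟨rfl, h2⟩
  have hchar : ringChar F = 2 := CharP.ringChar_of_prime_eq_zero Nat.prime_two (by exact_mod_cast h2)
  obtain ⟨s, hs⟩ := FiniteField.isSquare_of_char_two hchar b
  have := hab s 1 (by rw [hs]; linear_combination (s * s) * h2)
  exact one_ne_zero this.2

theorem rot_struct {F : Type*} [Field F] [Fintype F] (a b : F)
    (hab : ∀ z₁ z₂ : F, z₁ ^ 2 + a * z₁ * z₂ + b * z₂ ^ 2 = 0 → z₁ = 0 ∧ z₂ = 0) :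
    ∃ C : Subgroup (GL ι2 F),
      (∀ g, g ∈ C ↔ ∃ (t : F × F) (h : Nm a b t = 1), g = Rg a b t h) ∧ IsCyclic C ∧
        Nat.card C = Fintype.card F + 1 := by
  classical
  let C : Subgroup (GL ι2 F) :=
    { carrier := {g | ∃ (t : F × F) (h : Nm a b t = 1), g = Rg a b t h}
      mul_mem' := by
        rintro _ _ ⟨t, h, rfl⟩ ⟨t', h', rfl⟩
        refine ⟨mulP a b t t', by rw [Nm_mul, h, h', one_mul], ?_⟩
        apply Units.ext
        rw [Units.val_mul, Rg_val, Rg_val, Rg_val, R_mul]
      one_mem' := ⟨(1, 0), by simp [Nm], by apply Units.ext; rw [Rg_val, R_one]; rfl⟩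
      inv_mem' := by
        rintro _ ⟨t, h, rfl⟩
        refine ⟨cj a t, by rw [Nm_cj, h], ?_⟩
        apply Units.ext
        rfl }
  refine ⟨C, fun g => Iff.rfl, ?_⟩
  let L := AlgebraicClosure F
  let am : F →+* L := algebraMap F L
  have aminj : Function.Injective am := (algebraMap F L).injective
  obtain ⟨lam, hlam⟩ : ∃ lam : L, lam ^ 2 - am a * lam + am b = 0 := by
    have hdeg := Polynomial.degree_quadratic (R := L) (a := 1) (b := -am a) (c := am b) one_ne_zero
    obtain ⟨x, hx⟩ := IsAlgClosed.exists_root (Polynomial.C (1 : L) * Polynomial.X ^ 2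
      + Polynomial.C (-am a) * Polynomial.X + Polynomial.C (am b)) (by rw [hdeg]; norm_num)
    refine ⟨x, ?_⟩
    rw [Polynomial.IsRoot.def] at hx
    simp only [Polynomial.eval_add, Polynomial.eval_mul, Polynomial.eval_C, Polynomial.eval_pow,
      Polynomial.eval_X] at hx
    linear_combination hx
  have hlamF : ∀ z : F, lam ≠ am z := by
    intro z hz
    rw [hz] at hlam
    have h1 : am (z ^ 2 + a * z * (-1) + b * (-1) ^ 2) = 0 := by
      simp only [map_add, map_mul, map_pow, map_neg, map_one]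
      linear_combination hlam
    have h2 := hab z (-1) (aminj (by rw [h1, map_zero]))
    exact one_ne_zero (neg_eq_zero.mp h2.2)
  let φ : F × F → L := fun t => am t.1 + am t.2 * lam
  have φ_mul : ∀ t t', φ (mulP a b t t') = φ t * φ t' := by
    intro t t'
    simp only [φ, mulP, map_sub, map_add, map_mul]
    linear_combination (-(am t.2 * am t'.2)) * hlam
  have φ_inj : Function.Injective φ := by
    intro t t' h
    have h' : am t.1 + am t.2 * lam = am t'.1 + am t'.2 * lam := h
    by_cases hy : t.2 = t'.2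
    · rw [hy] at h'
      exact Prod.ext (aminj (add_right_cancel h')) hy
    · exfalso
      apply hlamF ((t'.1 - t.1) / (t.2 - t'.2))
      rw [map_div₀, map_sub, map_sub,
        eq_div_iff (sub_ne_zero.mpr (fun h'' => hy (aminj h'')))]
      linear_combination h'
  -- Frobenius
  let p := ringChar F
  haveI : CharP F p := ringChar.charP F
  obtain ⟨n, hp, hq⟩ := FiniteField.card F p
  haveI : CharP L p := charP_of_injective_algebraMap (algebraMap F L).injective p
  haveI : ExpChar L p := ExpChar.prime hp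
  let Fr : L →+* L := iterateFrobenius L p n
  have hFr : ∀ x, Fr x = x ^ Fintype.card F := by
    intro x; rw [hq]; exact iterateFrobenius_def p n x
  have hFram : ∀ z : F, Fr (am z) = am z := by
    intro z; rw [hFr, ← map_pow, FiniteField.pow_card]
  have hmu1 : Fr lam ^ 2 - am a * Fr lam + am b = 0 := by
    have := congrArg Fr hlam
    rw [map_zero, map_add, map_sub, map_mul, map_pow, hFram, hFram] at this
    exact this
  have hmu2 : (Fr lam - lam) * (Fr lam - (am a - lam)) = 0 := by linear_combination hmu1 - hlam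
  have hmu3 : Fr lam ≠ lam := by
    intro h
    have hroot : lam ^ Fintype.card F = lam := by rw [← hFr]; exact h
    let P : Polynomial L := Polynomial.X ^ Fintype.card F - Polynomial.X
    have hP0 : P ≠ 0 := FiniteField.X_pow_card_sub_X_ne_zero L Fintype.one_lt_card
    have hPdeg : P.natDegree = Fintype.card F :=
      FiniteField.X_pow_card_sub_X_natDegree_eq L Fintype.one_lt_card
    have hsub : (insert lam (Finset.univ.image am)).val ⊆ P.roots := by
      intro x hx
      rw [Finset.mem_val, Finset.mem_insert, Finset.mem_image] at hx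
      rw [Polynomial.mem_roots hP0, Polynomial.IsRoot.def]
      simp only [P, Polynomial.eval_sub, Polynomial.eval_pow, Polynomial.eval_X]
      rcases hx with rfl | ⟨z, _, rfl⟩
      · rw [hroot, sub_self]
      · rw [← map_pow, FiniteField.pow_card, sub_self]
    have hcard := Polynomial.card_le_degree_of_subset_roots hsub
    rw [hPdeg, Finset.card_insert_of_notMem (by
      rw [Finset.mem_image]; rintro ⟨z, _, hz⟩; exact hlamF z hz.symm),
      Finset.card_image_of_injective _ aminj, Finset.card_univ] at hcard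
    omega
  have hmu4 : Fr lam = am a - lam := by
    rcases mul_eq_zero.mp hmu2 with h | h
    · exact absurd (sub_eq_zero.mp h) hmu3
    · exact sub_eq_zero.mp h
  have hpow : ∀ t : F × F, φ t ^ (Fintype.card F + 1) = am (Nm a b t) := by
    intro t
    rw [pow_succ, ← hFr]
    show Fr (am t.1 + am t.2 * lam) * (am t.1 + am t.2 * lam) = _
    rw [map_add, map_mul, hFram, hFram, hmu4]
    simp only [Nm, map_add, map_mul, map_pow]
    linear_combination (-(am t.2) ^ 2) * hlam
  let ent : Matrix ι2 ι2 F → F × F :=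
    fun M => (M (Sum.inr 0) (Sum.inr 0), M (Sum.inr 1) (Sum.inr 0))
  have hent : ∀ t, ent (R a b t) = t := by
    intro t; simp [ent, R, Mx]
  let ψ : C →* L :=
    { toFun := fun g => φ (ent (g.1 : Matrix ι2 ι2 F))
      map_one' := by
        show φ (ent ((1 : GL ι2 F) : Matrix ι2 ι2 F)) = 1
        rw [Units.val_one, ← R_one a b, hent]; simp [φ]
      map_mul' := by
        rintro ⟨_, t, h, rfl⟩ ⟨_, t', h', rfl⟩
        show φ (ent ((Rg a b t h * Rg a b t' h' : GL ι2 F) : Matrix ι2 ι2 F))
          = φ (ent (R a b t)) * φ (ent (R a b t'))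
        rw [Units.val_mul, Rg_val, Rg_val, R_mul, hent, hent, hent, φ_mul] }
  have hψinj : Function.Injective ψ := by
    rintro ⟨_, t, h, rfl⟩ ⟨_, t', h', rfl⟩ hEq
    have h1 : φ (ent (R a b t)) = φ (ent (R a b t')) := hEq
    rw [hent, hent] at h1
    have := φ_inj h1
    subst this
    rfl
  have hcyc : IsCyclic C := isCyclic_of_injective_ringHom ψ hψinj
  refine ⟨hcyc, ?_⟩
  let Cset : Finset (F × F) := Finset.univ.filter (fun t => Nm a b t = 1)
  have hcardC : Nat.card C = Cset.card := by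
    have e : C ≃ {t : F × F // Nm a b t = 1} :=
      { toFun := fun g => ⟨ent (g.1 : Matrix ι2 ι2 F), by
          obtain ⟨_, t, h, rfl⟩ := g
          show Nm a b (ent (R a b t)) = 1
          rw [hent]; exact h⟩
        invFun := fun t => ⟨Rg a b t.1 t.2, t.1, t.2, rfl⟩
        left_inv := by
          rintro ⟨_, t, h, rfl⟩
          apply Subtype.ext
          apply Units.ext
          show R a b (ent (R a b t)) = R a b t
          rw [hent]
        right_inv := by
          rintro ⟨t, h⟩
          apply Subtype.ext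
          show ent (R a b t) = t
          exact hent t }
    rw [Nat.card_congr e, Nat.card_eq_fintype_card, Fintype.card_subtype]
  rw [hcardC]
  have hU : Cset.card ≤ Fintype.card F + 1 := by
    have h1 : Cset.card ≤ (Polynomial.nthRootsFinset (Fintype.card F + 1) (1 : L)).card := by
      apply Finset.card_le_card_of_injOn φ
      · intro t ht
        rw [Finset.mem_coe] at ht
        rw [Finset.mem_coe, Polynomial.mem_nthRootsFinset (Nat.succ_pos _), hpow,
          (Finset.mem_filter.mp ht).2, map_one]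
      · exact φ_inj.injOn
    refine le_trans h1 ?_
    rw [Polynomial.nthRootsFinset_def]
    exact le_trans (Multiset.toFinset_card_le _) (Polynomial.card_nthRoots _ _)
  have hL : Fintype.card F + 1 ≤ Cset.card := by
    let T : Finset (F × F) := Finset.univ.erase 0
    have hT : T.card = Fintype.card F ^ 2 - 1 := by
      rw [Finset.card_erase_of_mem (Finset.mem_univ _), Finset.card_univ, Fintype.card_prod, sq]
    have hfib : ∀ c ∈ T.image (Nm a b), (T.filter (fun t => Nm a b t = c)).card ≤ Cset.card := by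
      intro c hc
      obtain ⟨t0, ht0, rfl⟩ := Finset.mem_image.mp hc
      have hc0 : Nm a b t0 ≠ 0 := by
        intro h0
        have := hab t0.1 t0.2 h0
        exact (Finset.mem_erase.mp ht0).1 (Prod.ext this.1 this.2)
      apply Finset.card_le_card_of_injOn (fun t => ((Nm a b t0)⁻¹ * (mulP a b t (cj a t0)).1,
        (Nm a b t0)⁻¹ * (mulP a b t (cj a t0)).2))
      · intro t ht
        rw [Finset.mem_coe, Finset.mem_filter] at ht
        rw [Finset.mem_coe, Finset.mem_filter]
        refine ⟨Finset.mem_univ _, ?_⟩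
        have h1 := Nm_mul a b t (cj a t0)
        rw [Nm_cj, ht.2] at h1
        have h2 : ∀ (c : F) (s : F × F), Nm a b (c * s.1, c * s.2) = c ^ 2 * Nm a b s := by
          intro c s; simp only [Nm]; ring
        rw [h2, h1]
        field_simp
      · intro t ht t' ht' hEq
        have h1 : mulP a b t (cj a t0) = mulP a b t' (cj a t0) := by
          have h2 := congrArg Prod.fst hEq
          have h3 := congrArg Prod.snd hEq
          simp only at h2 h3
          exact Prod.ext (mul_left_cancel₀ (inv_ne_zero hc0) h2)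
            (mul_left_cancel₀ (inv_ne_zero hc0) h3)
        have h4 : ∀ s : F × F, mulP a b (mulP a b s (cj a t0)) t0
            = (Nm a b t0 * s.1, Nm a b t0 * s.2) := by
          intro s; simp only [mulP, cj, Nm]; refine Prod.ext ?_ ?_ <;> simp <;> ring
        have h5 := h4 t
        rw [h1, h4 t'] at h5
        exact Prod.ext (mul_left_cancel₀ hc0 (congrArg Prod.fst h5).symm)
          (mul_left_cancel₀ hc0 (congrArg Prod.snd h5).symm)
    have h1 := Finset.card_le_mul_card_image T Cset.card hfib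
    have h2 : (T.image (Nm a b)).card ≤ Fintype.card F - 1 := by
      have hss : T.image (Nm a b) ⊆ Finset.univ.erase 0 := by
        intro c hc
        obtain ⟨t0, ht0, rfl⟩ := Finset.mem_image.mp hc
        rw [Finset.mem_erase]
        refine ⟨?_, Finset.mem_univ _⟩
        intro h0
        have := hab t0.1 t0.2 h0
        exact (Finset.mem_erase.mp ht0).1 (Prod.ext this.1 this.2)
      have := Finset.card_le_card hss
      rwa [Finset.card_erase_of_mem (Finset.mem_univ _), Finset.card_univ] at this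
    have hq2 : 2 ≤ Fintype.card F := Fintype.one_lt_card
    rw [hT] at h1
    have h3 : Fintype.card F ^ 2 - 1 ≤ Cset.card * (Fintype.card F - 1) :=
      le_trans h1 (Nat.mul_le_mul_left _ h2)
    by_contra hcon
    have h4 : Cset.card * (Fintype.card F - 1) ≤ Fintype.card F * (Fintype.card F - 1) :=
      Nat.mul_le_mul_right _ (by omega)
    obtain ⟨k, hk⟩ : ∃ k, Fintype.card F = k + 2 := ⟨Fintype.card F - 2, by omega⟩
    rw [hk] at h3 h4
    have e2 : k + 2 - 1 = k + 1 := by omega
    rw [e2] at h3 h4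
    have e1 : (k + 2) ^ 2 - 1 = (k + 2) * (k + 1) + (k + 1) := by
      have : (k + 2) ^ 2 = (k + 2) * (k + 1) + (k + 1) + 1 := by ring
      omega
    rw [e1] at h3
    omega
  omega

/-- GO^-_2(q) is dihedral of order 2(q+1). -/
theorem result {F : Type*} [Field F] [Fintype F] {q : ℕ} (hF : Fintype.card F = q) (a b : F) (hab : ∀ z₁ z₂ : F, z₁ ^ 2 + a * z₁ * z₂ + b * z₂ ^ 2 = 0 → z₁ = 0 ∧ z₂ = 0) : Nonempty (Cfsg.isometryGroup F (Cfsg.quadFormMinus 0 F a b) ≃* DihedralGroup (q + 1)) := by
  classical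
  obtain ⟨C, hCmem, hcyc, hcard⟩ := rot_struct a b hab
  have e0 := zmodCyclicMulEquiv (G := C) hcyc
  rw [hcard, hF] at e0
  have hCle : C ≤ Cfsg.isometryGroup F (Cfsg.quadFormMinus 0 F a b) := by
    intro g hg
    obtain ⟨t, h, rfl⟩ := (hCmem g).mp hg
    exact Rg_mem a b t h
  let e : Multiplicative (ZMod (q + 1)) →* Cfsg.isometryGroup F (Cfsg.quadFormMinus 0 F a b) :=
    (Subgroup.inclusion hCle).comp e0.toMonoidHom
  have he : ∀ k, ∃ (t : F × F) (h : Nm a b t = 1), ((e k).1 : GL ι2 F) = Rg a b t h :=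
    fun k => (hCmem _).mp (e0 k).2
  have he' : ∀ (t : F × F) (h : Nm a b t = 1), ∃ k, ((e k).1 : GL ι2 F) = Rg a b t h := by
    intro t h
    obtain ⟨k, hk⟩ := e0.surjective ⟨Rg a b t h, (hCmem _).mpr ⟨t, h, rfl⟩⟩
    exact ⟨k, congrArg Subtype.val hk⟩
  refine dihedral_of e ((Subgroup.inclusion_injective hCle).comp e0.injective)
    ⟨Sg a, Sg_mem a b⟩ ?_ ?_ ?_ ?_
  · exact Subtype.ext (Sg_mul_Sg a)
  · intro k
    obtain ⟨t, h, hk⟩ := he k
    apply Subtype.ext
    show Sg a * (e k).1 * Sg a = ((e k).1)⁻¹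
    rw [hk, Sg_Rg_Sg]
  · intro k hk
    obtain ⟨t, h, hk'⟩ := he k
    have h1 : Sg a = Rg a b t h := by rw [← hk', ← hk]
    have h2 := congrArg (fun g : GL ι2 F => (g : Matrix ι2 ι2 F)) h1
    have h3 : Mx 1 a 0 (-1) = Mx t.1 (-(b * t.2)) t.2 (t.1 + a * t.2) := h2
    obtain ⟨e1, e2, e3, e4⟩ := Mx_inj h3
    apply no_a0 a b hab
    constructor
    · rw [e2, ← e3]; ring
    · rw [← e3, ← e1] at e4; linear_combination -e4
  · intro g
    obtain ⟨t, h, hg | hg⟩ := classify a b hab g.1 g.2
    · left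
      obtain ⟨k, hk⟩ := he' t h
      exact ⟨k, Subtype.ext (by rw [hg, hk])⟩
    · right
      obtain ⟨k, hk⟩ := he' (cj a t) (by rw [Nm_cj, h])
      refine ⟨k, Subtype.ext ?_⟩
      show g.1 = Sg a * (e k).1
      rw [hg, hk]
      have h1 := Sg_Rg_Sg a b t h
      have h2 : (Rg a b t h)⁻¹ = Rg a b (cj a t) (by rw [Nm_cj, h]) := by apply Units.ext; rfl
      rw [← h2, ← h1, ← mul_assoc, ← mul_assoc, Sg_mul_Sg, one_mul]

end Cfsg.Agent.S0306
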