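import Cfsg.Statements.S0307
import Mathlib
-- import your own Cfsg.Agent.* helpers here

set_option autoImplicit false
open Cfsg

namespace Cfsg.Agent.S0307


open Matrix Matrix.ProjGenLinGroup MatrixGroups

theorem exists_g0 {F : Type*} [Field F] [Fintype F] {q : ℕ} (hF : Fintype.card F = q) (n : ℕ) :
    ∃ g0 : Fˣ →* Multiplicative (ZMod (Nat.gcd n (q - 1))), Function.Surjective g0 ∧
      (∀ u : Fˣ, g0 (u ^ n) = 1) ∧ ∀ u, g0 u = 1 → ∃ k : Fˣ, k ^ n = u := by
  classical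
  obtain ⟨ζ, hζ⟩ := IsCyclic.exists_generator (α := Fˣ)
  have hord : orderOf ζ = q - 1 := by
    rw [orderOf_eq_card_of_forall_mem_zpowers hζ, Nat.card_eq_fintype_card, Fintype.card_units,
      hF]
  have hq1 : 0 < q - 1 := by
    have := Fintype.one_lt_card (α := F)
    omega
  have hdpos : 0 < Nat.gcd n (q - 1) := Nat.gcd_pos_of_pos_right _ hq1
  haveI : NeZero (Nat.gcd n (q - 1)) := ⟨hdpos.ne'⟩
  have hord' : orderOf (Multiplicative.ofAdd (1 : ZMod (Nat.gcd n (q - 1)))) =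
      Nat.gcd n (q - 1) := by
    rw [orderOf_ofAdd_eq_addOrderOf, ZMod.addOrderOf_one]
  let g0 : Fˣ →* Multiplicative (ZMod (Nat.gcd n (q - 1))) :=
    monoidHomOfForallMemZpowers hζ (g' := Multiplicative.ofAdd (1 : ZMod (Nat.gcd n (q - 1))))
      (by rw [hord', hord]; exact Nat.gcd_dvd_right _ _)
  have hg0 : g0 ζ = Multiplicative.ofAdd (1 : ZMod (Nat.gcd n (q - 1))) :=
    monoidHomOfForallMemZpowers_apply_gen _ _
  have hexp : ∀ x : Multiplicative (ZMod (Nat.gcd n (q - 1))), x ^ n = 1 := by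
    intro x
    have h1 : x ^ (Nat.gcd n (q - 1)) = 1 := by
      have := pow_card_eq_one' (G := Multiplicative (ZMod (Nat.gcd n (q - 1)))) (x := x)
      rwa [Nat.card_eq_fintype_card, Fintype.card_multiplicative, ZMod.card] at this
    obtain ⟨c, hc⟩ := Nat.gcd_dvd_left n (q - 1)
    calc x ^ n = x ^ (Nat.gcd n (q - 1) * c) := by rw [← hc]
      _ = 1 := by rw [pow_mul, h1, one_pow]
  refine ⟨g0, ?_, fun u => by rw [map_pow]; exact hexp _, ?_⟩
  · intro y
    refine ⟨ζ ^ (Multiplicative.toAdd y).val, ?_⟩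
    rw [map_pow, hg0, ← ofAdd_nsmul, nsmul_one, ZMod.natCast_zmod_val]
    rfl
  · intro u hu
    obtain ⟨i, rfl⟩ := Subgroup.mem_zpowers_iff.mp (hζ u)
    rw [map_zpow, hg0] at hu
    have hdi : ((Nat.gcd n (q - 1) : ℕ) : ℤ) ∣ i := by
      have := orderOf_dvd_iff_zpow_eq_one.mpr hu
      rwa [hord'] at this
    obtain ⟨j, rfl⟩ := hdi
    have hbez : ((Nat.gcd n (q - 1) : ℕ) : ℤ) =
        n * Nat.gcdA n (q - 1) + (q - 1 : ℕ) * Nat.gcdB n (q - 1) := Nat.gcd_eq_gcd_ab n (q - 1)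
    refine ⟨ζ ^ (Nat.gcdA n (q - 1) * j), ?_⟩
    have h1 : ζ ^ ((q - 1 : ℕ) : ℤ) = 1 := by
      rw [zpow_natCast, ← hord, pow_orderOf_eq_one]
    have e : ((Nat.gcd n (q - 1) : ℕ) : ℤ) * j =
        Nat.gcdA n (q - 1) * j * (n : ℤ) + ((q - 1 : ℕ) : ℤ) * (Nat.gcdB n (q - 1) * j) := by
      rw [hbez]
      ring
    rw [e, _root_.zpow_add, _root_.zpow_mul ζ ((q - 1 : ℕ) : ℤ), h1, _root_.one_zpow, mul_one,
      _root_.zpow_mul ζ (Nat.gcdA n (q - 1) * j) (n : ℤ), zpow_natCast]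

set_option backward.isDefEq.respectTransparency.types false in
theorem main {F : Type*} [Field F] [Fintype F] (n : ℕ) (hn : 1 ≤ n) (d : ℕ)
    (g0 : Fˣ →* Multiplicative (ZMod d)) (hsurj : Function.Surjective g0)
    (hK1 : ∀ u : Fˣ, g0 (u ^ n) = 1) (hK2 : ∀ u, g0 u = 1 → ∃ k : Fˣ, k ^ n = u) :
    ∃ g : Matrix.ProjGenLinGroup (Fin n) F →* Multiplicative (ZMod d), Function.Surjective g ∧
      g.ker = (Matrix.ProjectiveSpecialLinearGroup.toPGL :
        Matrix.ProjectiveSpecialLinearGroup (Fin n) F →* Matrix.ProjGenLinGroup (Fin n) F).range := by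
  classical
  haveI : Nonempty (Fin n) := ⟨⟨0, hn⟩⟩
  have hf : (g0.comp GeneralLinearGroup.det).comp (GeneralLinearGroup.scalar (Fin n)) = 1 := by
    ext u
    rw [MonoidHom.comp_apply, MonoidHom.comp_apply, GeneralLinearGroup.det_scalar,
      Fintype.card_fin, hK1]
    rfl
  refine ⟨lift (g0.comp GeneralLinearGroup.det) hf, ?_, ?_⟩
  · intro y
    obtain ⟨u, hu⟩ := hsurj y
    obtain ⟨A, hA⟩ := GeneralLinearGroup.det_surjective (n := Fin n) u
    exact ⟨mk A, by rw [lift_mk, MonoidHom.comp_apply, hA, hu]⟩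
  · ext x
    induction x using Matrix.ProjGenLinGroup.induction_on with | mk A =>
    rw [MonoidHom.mem_ker, lift_mk, MonoidHom.mem_range, MonoidHom.comp_apply]
    constructor
    · intro h
      obtain ⟨k, hk⟩ := hK2 (GeneralLinearGroup.det A) h
      have hr : (k⁻¹) ^ Fintype.card (Fin n) * GeneralLinearGroup.det A = 1 := by
        rw [Fintype.card_fin, ← hk, inv_pow, inv_mul_cancel]
      simp only [Units.ext_iff, Units.val_mul, Units.val_pow_eq_pow_val,
        GeneralLinearGroup.val_det_apply, ← Matrix.det_smul A.1 (k⁻¹).1, Units.val_one] at hr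
      refine ⟨QuotientGroup.mk ⟨(k⁻¹).1 • A.1, hr⟩, ?_⟩
      simp only [ProjectiveSpecialLinearGroup.toPGL_mk, mk_eq_mk_iff]
      refine ⟨(k⁻¹)⁻¹, Units.ext ?_⟩
      simp only [Units.val_mul, SpecialLinearGroup.coe_GL_coe_matrix, GeneralLinearGroup.coe_scalar]
      simp [← Matrix.mul_smul, ← Matrix.diagonal_smul, Pi.smul_def, smul_eq_mul]
    · rintro ⟨Y, hY⟩
      induction Y using QuotientGroup.induction_on with | H X =>
      rw [ProjectiveSpecialLinearGroup.toPGL_mk, mk_eq_mk_iff] at hY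
      obtain ⟨u, hu⟩ := hY
      rw [← hu, map_mul, GeneralLinearGroup.det_scalar, Fintype.card_fin, map_mul, hK1, mul_one]
      have hX : GeneralLinearGroup.det (SpecialLinearGroup.toGL X) = 1 := by
        ext
        simp
      rw [hX, map_one]

/-- PSL_n(q) is normal in PGL_n(q) with cyclic quotient of order gcd(n, q-1): the image of the natural map PSL_n → PGL_n is the kernel of a surjective homomorphism onto the cyclic group of that order. -/
theorem result {F : Type*} [Field F] [Fintype F] {q : ℕ} (hF : Fintype.card F = q) (n : ℕ) (hn : 1 ≤ n) : ∃ g : Matrix.ProjGenLinGroup (Fin n) F →* Multiplicative (ZMod (Nat.gcd n (q - 1))), Function.Surjective g ∧ g.ker = (Matrix.ProjectiveSpecialLinearGroup.toPGL : Matrix.ProjectiveSpecialLinearGroup (Fin n) F →* Matrix.ProjGenLinGroup (Fin n) F).range := by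
  classical
  obtain ⟨g0, h1, h2, h3⟩ := exists_g0 hF n
  exact main n hn _ g0 h1 h2 h3

end Cfsg.Agent.S0307
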