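import Cfsg.Statements.S0308
import Mathlib

set_option autoImplicit false
open Cfsg

namespace Cfsg.Agent.S0308

/-- the union of the double cosets `B n B`, `n ∈ N`. -/
def bigCell {G : Type*} [Group G] (P : Cfsg.BNPair G) : Set G :=
  {x | ∃ n ∈ P.N, x ∈ DoubleCoset.doubleCoset n (P.B : Set G) P.B}

theorem mem_bigCell {G : Type*} [Group G] (P : Cfsg.BNPair G) (x : G) :
    x ∈ bigCell P ↔ ∃ n ∈ P.N, ∃ b ∈ P.B, ∃ c ∈ P.B, x = b * n * c := by
  unfold bigCell
  simp only [Set.mem_setOf_eq, DoubleCoset.mem_doubleCoset, SetLike.mem_coe]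

theorem B_mul_bigCell {G : Type*} [Group G] (P : Cfsg.BNPair G) {b x : G} (hb : b ∈ P.B)
    (hx : x ∈ bigCell P) : b * x ∈ bigCell P := by
  rw [mem_bigCell] at hx ⊢
  obtain ⟨n, hn, b1, hb1, c, hc, rfl⟩ := hx
  exact ⟨n, hn, b * b1, P.B.mul_mem hb hb1, c, hc, by simp [mul_assoc]⟩

theorem S_mul_bigCell {G : Type*} [Group G] (P : Cfsg.BNPair G) {s x : G} (hs : s ∈ P.S)
    (hx : x ∈ bigCell P) : s * x ∈ bigCell P := by
  rw [mem_bigCell] at hx ⊢
  obtain ⟨n, hn, b1, hb1, c, hc, rfl⟩ := hx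
  have h := P.mul_mem_union s hs n hn b1 hb1
  rcases h with h | h
  · rw [DoubleCoset.mem_doubleCoset] at h
    obtain ⟨d, hd, e, he, h⟩ := h
    refine ⟨s * n, P.N.mul_mem (P.subset hs) hn, d, hd, e * c, P.B.mul_mem he hc, ?_⟩
    calc s * (b1 * n * c) = (s * b1 * n) * c := by simp [mul_assoc]
      _ = d * (s * n) * (e * c) := by rw [h]; simp [mul_assoc]
  · rw [DoubleCoset.mem_doubleCoset] at h
    obtain ⟨d, hd, e, he, h⟩ := h
    refine ⟨n, hn, d, hd, e * c, P.B.mul_mem he hc, ?_⟩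
    calc s * (b1 * n * c) = (s * b1 * n) * c := by simp [mul_assoc]
      _ = d * n * (e * c) := by rw [h]; simp [mul_assoc]

/-- the subgroup of elements whose left translations preserve the big cell. -/
def stab {G : Type*} [Group G] (P : Cfsg.BNPair G) : Subgroup G where
  carrier := {h | ∀ x ∈ bigCell P, h * x ∈ bigCell P ∧ h⁻¹ * x ∈ bigCell P}
  mul_mem' := by
    intro a b ha hb x hx
    refine ⟨?_, ?_⟩
    · rw [mul_assoc]
      exact (ha _ (hb x hx).1).1
    · rw [mul_inv_rev, mul_assoc]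
      exact (hb _ (ha x hx).2).2
  one_mem' := by
    intro x hx
    simpa using hx
  inv_mem' := by
    intro a ha x hx
    refine ⟨(ha x hx).2, ?_⟩
    rw [inv_inv]
    exact (ha x hx).1

theorem stab_eq_top {G : Type*} [Group G] (P : Cfsg.BNPair G) : stab P = ⊤ := by
  have hB : P.B ≤ stab P := by
    intro b hb x hx
    exact ⟨B_mul_bigCell P hb hx, B_mul_bigCell P (P.B.inv_mem hb) hx⟩
  have hS : P.S ⊆ (stab P : Set G) := by
    intro s hs x hx
    refine ⟨S_mul_bigCell P hs hx, ?_⟩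
    have h1 : s⁻¹ * x = s * ((s * s)⁻¹ * x) := by group
    rw [h1]
    exact S_mul_bigCell P hs (B_mul_bigCell P (P.B.inv_mem (P.sq_mem s hs)) hx)
  have hN : P.N ≤ stab P := by
    rw [← P.closure_sup]
    refine sup_le ?_ (inf_le_left.trans hB)
    rw [Subgroup.closure_le]
    exact hS
  rw [eq_top_iff, ← P.sup_eq_top]
  exact sup_le hB hN

/-- Bruhat decomposition, existence part: every element of a group with a (B,N)-pair lies in some double
coset `B n B` with `n ∈ N`. -/
theorem result {G : Type*} [Group G] (P : Cfsg.BNPair G) (g : G) :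
    ∃ n ∈ P.N, g ∈ DoubleCoset.doubleCoset n (P.B : Set G) P.B := by
  have hg : g ∈ stab P := by rw [stab_eq_top]; trivial
  have h1 : (1 : G) ∈ bigCell P := by
    rw [mem_bigCell]
    exact ⟨1, P.N.one_mem, 1, P.B.one_mem, 1, P.B.one_mem, by simp⟩
  have := (hg 1 h1).1
  rw [mul_one] at this
  exact this
end Cfsg.Agent.S0308
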