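import Cfsg.Statements.S0313
import Mathlib
import Cfsg.Agent.Lib.Helper1.BN

set_option autoImplicit false
open Cfsg

namespace Cfsg.Agent.S0313

/-- Two standard parabolic subgroups of a group with a (B,N)-pair which are conjugate in `G` coincide. -/
theorem result {G : Type*} [Group G] (P : Cfsg.BNPair G) {J K : Set G}
    (hJ : J ⊆ P.S) (hK : K ⊆ P.S) (g : G)
    (h : (P.parabolic J).map (MulAut.conj g).toMonoidHom = P.parabolic K) :
    P.parabolic J = P.parabolic K := by
  have hg : g ∈ P.parabolic K := by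
    apply Lib.Helper1.PreBN.mem_of_conj_le (P := Lib.Helper1.ofBN P) P.sup_eq_top (P.parabolic K)
      (Lib.Helper1.PreBN.B_le_par (P := Lib.Helper1.ofBN P) K)
    intro b hb
    rw [← h]
    exact ⟨b, Lib.Helper1.PreBN.B_le_par (P := Lib.Helper1.ofBN P) J hb, by simp⟩
  ext x
  constructor
  · intro hx
    have h1 : g * x * g⁻¹ ∈ P.parabolic K := by
      rw [← h]; exact ⟨x, hx, by simp⟩
    have h2 : x = g⁻¹ * (g * x * g⁻¹) * g := by group
    rw [h2]
    exact mul_mem (mul_mem (inv_mem hg) h1) hg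
  · intro hx
    have h1 : g * x * g⁻¹ ∈ (P.parabolic J).map (MulAut.conj g).toMonoidHom := by
      rw [h]; exact mul_mem (mul_mem hg hx) (inv_mem hg)
    obtain ⟨y, hy, e⟩ := h1
    simp only [MulEquiv.coe_toMonoidHom, MulAut.conj_apply, mul_left_inj, mul_right_inj] at e
    rw [← e]
    exact hy
end Cfsg.Agent.S0313
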