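import Cfsg.Statements.S0316
import Mathlib
import Cfsg.Agent.Lib.Helper1.BN

set_option autoImplicit false
open Cfsg

namespace Cfsg.Agent.S0316

/-- The map `J ↦ P_J` is a lattice isomorphism from the power set of the set of distinguished generators onto the
subgroups containing `B`. -/
theorem result {G : Type*} [Group G] (P : Cfsg.BNPair G) :
    ∃ e : Set P.S ≃o {M : Subgroup G // P.B ≤ M},
      ∀ J : Set P.S, ((e J : {M : Subgroup G // P.B ≤ M}) : Subgroup G) = P.parabolic (Subtype.val '' J) := by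
  have hsub : ∀ J : Set P.S, Subtype.val '' J ⊆ P.S := by
    rintro J x ⟨y, _, rfl⟩
    exact y.2
  let f : Set P.S → {M : Subgroup G // P.B ≤ M} :=
    fun J => ⟨P.parabolic (Subtype.val '' J), le_sup_left⟩
  have hf : ∀ J K : Set P.S, f J ≤ f K ↔ J ≤ K := by
    intro J K
    show P.parabolic (Subtype.val '' J) ≤ P.parabolic (Subtype.val '' K) ↔ J ≤ K
    rw [← Lib.Helper1.ofBN_par, ← Lib.Helper1.ofBN_par,
      Lib.Helper1.PreBN.par_le_iff (P := Lib.Helper1.ofBN P) (hsub J) (hsub K)]
    exact Set.image_subset_image_iff Subtype.val_injective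
  have hsurj : Function.Surjective (OrderEmbedding.ofMapLEIff f hf) := by
    rintro ⟨M, hM⟩
    obtain ⟨J, hJ, rfl⟩ := Lib.Helper1.PreBN.exists_par_eq (P := Lib.Helper1.ofBN P) P.sup_eq_top M hM
    refine ⟨Subtype.val ⁻¹' J, ?_⟩
    apply Subtype.ext
    show P.parabolic (Subtype.val '' (Subtype.val ⁻¹' J)) = _
    have hJ' : J ⊆ P.S := hJ
    rw [Subtype.image_preimage_coe, Set.inter_eq_right.2 hJ']
    rfl
  exact ⟨RelIso.ofSurjective (OrderEmbedding.ofMapLEIff f hf) hsurj, fun J => rfl⟩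
end Cfsg.Agent.S0316
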