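import Cfsg.Statements.S0319
import Mathlib
import Cfsg.Agent.Lib.Helper1.BN

set_option autoImplicit false
open Cfsg

namespace Cfsg.Agent.S0319

open Cfsg.Agent.Lib.Helper1 in
open Cfsg.Agent.Lib.Helper1.PreBN in
theorem comm_of_normal {G : Type*} [Group G] {P : PreBN G} (H : Subgroup G) [H.Normal]
    (X : Set G) (hX : X ⊆ P.S) (hle : H ≤ P.par X) {s s' : G} (hs : s ∈ X) (hs' : s' ∈ P.S)
    (hs'X : s' ∉ X) (hsH : s ∈ P.B ⊔ H) : s * s' * s⁻¹ * s'⁻¹ ∈ P.B := by
  have hsS := hX hs
  have hne : s ≠ s' := fun e => hs'X (e ▸ hs)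
  rw [← SetLike.mem_coe, Subgroup.mul_normal] at hsH
  obtain ⟨b, hb, h, hh, e0⟩ := hsH
  have hb : b ∈ P.B := hb
  have hh : h ∈ H := hh
  have e0 : b * h = s := e0
  have hhs : b⁻¹ * s ∈ H := by
    rw [← e0, inv_mul_cancel_left]; exact hh
  have hh' : s' * (b⁻¹ * s) * s'⁻¹ ∈ H := Subgroup.Normal.conj_mem inferInstance _ hhs s'
  have hlen_s : P.len s = 1 := by
    apply le_antisymm
    · have h1 := len_le (IsWord.singleton hsS) (by simp [Eqv.refl] : P.Eqv [s].prod s)
      simpa using h1
    · by_contra hc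
      have h0 : P.len s = 0 := by omega
      exact S_not_mem_B hsS ((len_eq_zero (S_mem_N hsS)).1 h0)
  have hss'N : s' * s ∈ P.N := P.N.mul_mem (S_mem_N hs') (S_mem_N hsS)
  have hlen2 : 1 ≤ P.len (s' * s) := by
    by_contra hc
    have h0 : P.len (s' * s) = 0 := by omega
    have hB := (len_eq_zero hss'N).1 h0
    have h1 : s'⁻¹ * s ∈ P.B := by
      have e : s'⁻¹ * s = (s' * s')⁻¹ * (s' * s) := by group
      rw [e]
      exact P.B.mul_mem (P.B.inv_mem (P.sq_mem s' hs')) hB
    exact hne (P.inj s' hs' s hsS h1).symm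
  have hd1 : P.DC (s' * s) (s' * b⁻¹ * s) :=
    F2L (S_mem_N hsS) hs' (by rw [hlen_s]; exact hlen2) (P.B.inv_mem hb)
  obtain ⟨b1, hb1, b2, hb2, e1⟩ := hd1
  have e2 : s' * (b⁻¹ * s) * s'⁻¹ = b1 * ((s' * s) * b2 * s') * (s' * s')⁻¹ := by
    calc s' * (b⁻¹ * s) * s'⁻¹ = (s' * b⁻¹ * s) * s'⁻¹ := by group
      _ = b1 * (s' * s) * b2 * s'⁻¹ := by rw [e1]
      _ = b1 * ((s' * s) * b2 * s') * (s' * s')⁻¹ := by group
  have hu : (s' * s')⁻¹ ∈ P.B := P.B.inv_mem (P.sq_mem s' hs')
  rcases axR hs' hss'N hb2 with hd | hd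
  · have hd' : P.DC (s' * s * s') (s' * (b⁻¹ * s) * s'⁻¹) := by
      rw [e2]; exact (hd.mul_left hb1).mul_right hu
    have hnN : s' * s * s' ∈ P.N := P.N.mul_mem hss'N (S_mem_N hs')
    have hnX : s' * s * s' ∈ P.par X := by
      obtain ⟨c1, hc1, c2, hc2, e3⟩ := hd'
      have e4 : s' * s * s' = c1⁻¹ * (s' * (b⁻¹ * s) * s'⁻¹) * c2⁻¹ := by rw [e3]; group
      rw [e4]
      exact mul_mem (mul_mem (inv_mem (B_le_par X hc1)) (hle hh')) (inv_mem (B_le_par X hc2))
    obtain ⟨L, hL, hLl, hLn⟩ := exists_reduced hnN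
    have hlet : ∀ a ∈ L, a = s := by
      intro a ha
      have h1 := letters_mem hnN hL hLl hLn a ha
      have h2 : P.B ⊔ Subgroup.closure {s' * s * s'} ≤ P.par X :=
        sup_le (B_le_par X) ((Subgroup.closure_le _).2 (by
          intro x hx
          rw [Set.mem_singleton_iff] at hx
          rw [hx]; exact hnX))
      have h3 : P.B ⊔ Subgroup.closure {s' * s * s'} ≤ P.par {s, s'} :=
        sup_le (B_le_par _) ((Subgroup.closure_le _).2 (by
          intro x hx
          rw [Set.mem_singleton_iff] at hx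
          rw [hx]
          exact mul_mem (mul_mem (mem_par_of_mem (by simp)) (mem_par_of_mem (by simp)))
            (mem_par_of_mem (by simp))))
      have h4 := S_inter_par hX (hL a ha) (h2 h1)
      have h5 := S_inter_par (K := {s, s'}) (by
        intro x hx
        rcases hx with rfl | hx
        · exact hsS
        · rw [Set.mem_singleton_iff] at hx
          rw [hx]; exact hs') (hL a ha) (h3 h1)
      rcases h5 with h5 | h5
      · exact h5
      · rw [Set.mem_singleton_iff] at h5
        rw [h5] at h4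
        exact absurd h4 hs'X
    have hprod : L.prod ∈ Subgroup.closure {s} :=
      Subgroup.list_prod_mem _ (fun a ha => by
        rw [hlet a ha]; exact Subgroup.subset_closure rfl)
    rcases closure_singleton_cases hsS hprod with h1 | h1
    · exfalso
      have hnB : s' * s * s' ∈ P.B := by
        have e : s' * s * s' = L.prod * (L.prod⁻¹ * (s' * s * s')) := by group
        rw [e]
        exact P.B.mul_mem h1 hLn
      apply S_not_mem_B hsS
      have e : s = (s' * s')⁻¹ * (s' * (s' * s * s') * s'⁻¹) := by group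
      rw [e]
      exact P.B.mul_mem hu (T_conj (S_mem_N hs') hnB hnN)
    · have h2 : P.Eqv s (s' * s * s') := h1.trans hLn
      have e : s * s' * s⁻¹ * s'⁻¹ =
          (s * ((s⁻¹ * (s' * s * s')) * (s' * s')⁻¹) * s⁻¹)⁻¹ := by group
      rw [e]
      apply P.B.inv_mem
      apply T_conj (S_mem_N hsS)
      · exact P.B.mul_mem h2 hu
      · exact P.N.mul_mem (P.N.mul_mem (P.N.inv_mem (S_mem_N hsS)) hnN)
          (P.N.inv_mem (P.N.mul_mem (S_mem_N hs') (S_mem_N hs')))
  · exfalso
    have hd' : P.DC (s' * s) (s' * (b⁻¹ * s) * s'⁻¹) := by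
      rw [e2]; exact (hd.mul_left hb1).mul_right hu
    have hnX : s' * s ∈ P.par X := by
      obtain ⟨c1, hc1, c2, hc2, e3⟩ := hd'
      have e4 : s' * s = c1⁻¹ * (s' * (b⁻¹ * s) * s'⁻¹) * c2⁻¹ := by rw [e3]; group
      rw [e4]
      exact mul_mem (mul_mem (inv_mem (B_le_par X hc1)) (hle hh')) (inv_mem (B_le_par X hc2))
    have h1 : s' ∈ P.par X := by
      have e : s' = (s' * s) * s⁻¹ := by group
      rw [e]
      exact mul_mem hnX (inv_mem (mem_par_of_mem hs))
    exact hs'X (S_inter_par hX hs' h1)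

open Cfsg.Agent.Lib.Helper1 in
/-- Simplicity criterion for groups with a (B,N)-pair: if the distinguished generators admit no
splitting into two non-empty mutually commuting parts, `B` is solvable, `G` is perfect and the intersection
of all conjugates of `B` is trivial, then `G` is simple. -/
theorem result {G : Type*} [Group G] [Nontrivial G]
    (P : Cfsg.BNPair G) (hirr : P.Irreducible) (hsolv : Group.IsSolvable P.B) (hperf : commutator G = ⊤)
    (hcore : P.B.normalCore = ⊥) : IsSimpleGroup G := by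
  refine IsSimpleGroup.mk (fun H hH => ?_)
  haveI := hH
  obtain ⟨X, hX, hM⟩ := PreBN.exists_par_eq (P := ofBN P) P.sup_eq_top (P.B ⊔ H) le_sup_left
  have hX' : X ⊆ P.S := hX
  have hHle : H ≤ (ofBN P).par X := by rw [← hM]; exact le_sup_right
  by_cases hXe : X = ∅
  · left
    subst hXe
    have h1 : (ofBN P).par ∅ = P.B := by
      unfold PreBN.par
      rw [Subgroup.closure_empty, sup_bot_eq]
      rfl
    rw [h1] at hHle
    have h2 : H ≤ P.B.normalCore := Subgroup.normal_le_normalCore.2 hHle
    rw [hcore] at h2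
    exact le_bot_iff.1 h2
  · by_cases hXS : X = P.S
    · right
      have h1 : P.B ⊔ H = ⊤ := by
        rw [hM, hXS]
        have h2 := PreBN.par_S (P := ofBN P)
        exact h2.trans P.sup_eq_top
      have hsurj : Function.Surjective ((QuotientGroup.mk' H).comp P.B.subtype) := by
        intro q
        induction q using QuotientGroup.induction_on with | _ g
        have hg : g ∈ P.B ⊔ H := by rw [h1]; trivial
        rw [← SetLike.mem_coe, Subgroup.mul_normal] at hg
        obtain ⟨b, hb, h, hh, e⟩ := hg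
        have e : b * h = g := e
        refine ⟨⟨b, hb⟩, ?_⟩
        show ((b : G) : G ⧸ H) = ((g : G) : G ⧸ H)
        rw [QuotientGroup.eq, ← e, inv_mul_cancel_left]
        exact hh
      haveI : Group.IsSolvable (G ⧸ H) := Group.isSolvable_of_surjective hsurj
      have hperf' : commutator (G ⧸ H) = ⊤ := by
        have h3 := Subgroup.map_commutator (⊤ : Subgroup G) ⊤ (QuotientGroup.mk' H)
        rw [Subgroup.map_top_of_surjective _ (QuotientGroup.mk'_surjective H)] at h3
        rw [commutator_def] at hperf ⊢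
        rw [← h3, hperf, Subgroup.map_top_of_surjective _ (QuotientGroup.mk'_surjective H)]
      have hsub : Subsingleton (G ⧸ H) := by
        by_contra hns
        rw [not_subsingleton_iff_nontrivial] at hns
        haveI := hns
        exact (Group.IsSolvable.commutator_lt_top_of_nontrivial (G ⧸ H)).ne hperf'
      exact QuotientGroup.subgroup_eq_top_of_subsingleton H hsub
    · exfalso
      have hXne : X.Nonempty := Set.nonempty_iff_ne_empty.2 hXe
      have hdiff : (P.S \ X).Nonempty := by
        by_contra hc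
        rw [Set.not_nonempty_iff_eq_empty, Set.diff_eq_empty] at hc
        exact hXS (Set.Subset.antisymm hX' hc)
      obtain ⟨s, hs, s', hs', hns⟩ := hirr X hX' hXne hdiff
      have hsM : s ∈ P.B ⊔ H := by
        rw [hM]; exact PreBN.mem_par_of_mem hs
      exact hns (comm_of_normal (P := ofBN P) H X hX hHle hs hs'.1 hs'.2 hsM)
end Cfsg.Agent.S0319
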