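import Cfsg.Statements.S0321
import Mathlib
import Cfsg.Agent.Lib.Helper1.BN

set_option autoImplicit false
open Cfsg

namespace Cfsg.Agent.S0321

/-- For `n ∈ N` not in `B`, the union `B ∪ B n B` is (the underlying set of) a subgroup exactly when `n` agrees
modulo `B ⊓ N` with one of the distinguished representatives; thus the distinguished involutions are
determined by `B` and `N`. -/
theorem result {G : Type*} [Group G] (P : Cfsg.BNPair G) {n : G}
    (hn : n ∈ P.N) (hnB : n ∉ P.B) :
    (∃ H : Subgroup G, (H : Set G) = (P.B : Set G) ∪ DoubleCoset.doubleCoset n (P.B : Set G) P.B) ↔ ∃ s ∈ P.S, s⁻¹ * n ∈ P.B := by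
  constructor
  · rintro ⟨H, hH⟩
    have hBH : P.B ≤ H := by
      intro b hb
      have h1 : b ∈ (H : Set G) := by rw [hH]; exact Or.inl hb
      exact h1
    obtain ⟨J, hJ, rfl⟩ := Lib.Helper1.PreBN.exists_par_eq (P := Lib.Helper1.ofBN P) P.sup_eq_top H hBH
    have hnH : n ∈ (Lib.Helper1.ofBN P).par J := by
      have h1 : n ∈ (((Lib.Helper1.ofBN P).par J : Subgroup G) : Set G) := by
        rw [hH]; exact Or.inr (DoubleCoset.mem_doubleCoset_self _ _ _)
      exact h1
    have hJne : J.Nonempty := by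
      by_contra hcon
      rw [Set.not_nonempty_iff_eq_empty] at hcon
      subst hcon
      apply hnB
      have h1 : (Lib.Helper1.ofBN P).par ∅ = P.B := by
        unfold Lib.Helper1.PreBN.par
        rw [Subgroup.closure_empty, sup_bot_eq]
        rfl
      rw [h1] at hnH
      exact hnH
    obtain ⟨s, hs⟩ := hJne
    refine ⟨s, hJ hs, ?_⟩
    have hsH : s ∈ (((Lib.Helper1.ofBN P).par J : Subgroup G) : Set G) :=
      Lib.Helper1.PreBN.mem_par_of_mem hs
    rw [hH] at hsH
    rcases hsH with h | h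
    · exact absurd h (Lib.Helper1.PreBN.S_not_mem_B (P := Lib.Helper1.ofBN P) (hJ hs))
    · have h1 := ((Lib.Helper1.ofBN P).mem_doubleCoset_iff _ _).1 h
      exact (Lib.Helper1.PreBN.bruhat (P := Lib.Helper1.ofBN P) hn (P.subset (hJ hs)) h1).symm
  · rintro ⟨s, hs, h⟩
    refine ⟨(Lib.Helper1.ofBN P).par {s}, ?_⟩
    ext g
    constructor
    · intro hg
      rcases Lib.Helper1.PreBN.par_singleton_mem (P := Lib.Helper1.ofBN P) hs hg with h1 | h1
      · exact Or.inl h1
      · right
        exact ((Lib.Helper1.ofBN P).mem_doubleCoset_iff _ _).2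
          ((Lib.Helper1.PreBN.Eqv.dc (P := Lib.Helper1.ofBN P) h).symm.trans h1)
    · rintro (hg | hg)
      · exact Lib.Helper1.PreBN.B_le_par (P := Lib.Helper1.ofBN P) _ hg
      · obtain ⟨b, hb, c, hc, rfl⟩ := ((Lib.Helper1.ofBN P).mem_doubleCoset_iff _ _).1 hg
        have hn' : n ∈ (Lib.Helper1.ofBN P).par {s} := by
          have h1 : n = s * (s⁻¹ * n) := by group
          rw [h1]
          exact mul_mem (Lib.Helper1.PreBN.mem_par_of_mem rfl)
            (Lib.Helper1.PreBN.B_le_par (P := Lib.Helper1.ofBN P) _ h)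
        exact mul_mem (mul_mem (Lib.Helper1.PreBN.B_le_par (P := Lib.Helper1.ofBN P) _ hb) hn')
          (Lib.Helper1.PreBN.B_le_par (P := Lib.Helper1.ofBN P) _ hc)
end Cfsg.Agent.S0321
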