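import Cfsg.Statements.S0322
import Mathlib
import Cfsg.Agent.Lib.Helper1.BN

set_option autoImplicit false
open Cfsg

namespace Cfsg.Agent.S0322

/-- A group with a (B,N)-pair of rank one acts doubly transitively on the left cosets of `B`. -/
theorem result {G : Type*} [Group G] (P : Cfsg.BNPair G) (h : P.rank = 1) : MulAction.IsMultiplyPretransitive G (G ⧸ P.B) 2 := by
  have hcard : Nat.card P.S = 1 := h
  rw [Nat.card_eq_one_iff_unique] at hcard
  obtain ⟨hsub, ⟨s, hs⟩⟩ := hcard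
  have hS : P.S = {s} := by
    ext x
    constructor
    · intro hx
      have h1 := hsub.elim ⟨x, hx⟩ ⟨s, hs⟩
      exact congrArg Subtype.val h1
    · intro hx
      rw [Set.mem_singleton_iff] at hx
      rw [hx]; exact hs
  have key : ∀ g : G, g ∉ P.B → ∃ b ∈ P.B, ∃ c ∈ P.B, g = b * s * c := by
    intro g hg
    have hg' : g ∈ (Lib.Helper1.ofBN P).par {s} := by
      have h1 : (Lib.Helper1.ofBN P).par (Lib.Helper1.ofBN P).S = ⊤ := by
        rw [Lib.Helper1.PreBN.par_S]; exact P.sup_eq_top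
      have h2 : (Lib.Helper1.ofBN P).S = {s} := hS
      rw [h2] at h1
      rw [h1]; trivial
    rcases Lib.Helper1.PreBN.par_singleton_mem (P := Lib.Helper1.ofBN P) hs hg' with h1 | h1
    · exact absurd h1 hg
    · exact h1
  rw [MulAction.is_two_pretransitive_iff]
  intro a b c d hab hcd
  induction a using QuotientGroup.induction_on with | _ x
  induction b using QuotientGroup.induction_on with | _ y
  induction c using QuotientGroup.induction_on with | _ z
  induction d using QuotientGroup.induction_on with | _ w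
  have h1 : x⁻¹ * y ∉ P.B := fun hh => hab (QuotientGroup.eq.2 hh)
  have h2 : z⁻¹ * w ∉ P.B := fun hh => hcd (QuotientGroup.eq.2 hh)
  obtain ⟨b1, hb1, b2, hb2, e1⟩ := key _ h1
  obtain ⟨b3, hb3, b4, hb4, e2⟩ := key _ h2
  refine ⟨z * b3 * b1⁻¹ * x⁻¹, ?_, ?_⟩
  · show ((z * b3 * b1⁻¹ * x⁻¹ * x : G) : G ⧸ P.B) = (z : G ⧸ P.B)
    rw [QuotientGroup.eq]
    have h3 : (z * b3 * b1⁻¹ * x⁻¹ * x)⁻¹ * z = b1 * b3⁻¹ := by group
    rw [h3]
    exact mul_mem hb1 (inv_mem hb3)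
  · show ((z * b3 * b1⁻¹ * x⁻¹ * y : G) : G ⧸ P.B) = (w : G ⧸ P.B)
    rw [QuotientGroup.eq]
    have h3 : (z * b3 * b1⁻¹ * x⁻¹ * y)⁻¹ * w = (x⁻¹ * y)⁻¹ * b1 * b3⁻¹ * (z⁻¹ * w) := by group
    rw [h3, e1, e2]
    have h4 : (b1 * s * b2)⁻¹ * b1 * b3⁻¹ * (b3 * s * b4) = b2⁻¹ * b4 := by group
    rw [h4]
    exact mul_mem (inv_mem hb2) hb4
end Cfsg.Agent.S0322
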