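import Cfsg.Statements.S0323
import Mathlib

set_option autoImplicit false
open scoped Pointwise
open Cfsg

namespace Cfsg.Agent.S0323

/-- A doubly transitive action on a set with at least three points yields a (B,N)-pair of rank one:
`B` is the stabiliser of a point `x`, `N` the setwise stabiliser of a pair `{x, y}`. -/
theorem result {G Ω : Type*} [Group G] [MulAction G Ω]
    (h2 : MulAction.IsMultiplyPretransitive G Ω 2) {x y z : Ω} (hxy : x ≠ y) (hyz : y ≠ z) (hxz : x ≠ z) :
    ∃ P : Cfsg.BNPair G, P.B = MulAction.stabilizer G x ∧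
      P.N = MulAction.stabilizer G ({x, y} : Set Ω) ∧ P.rank = 1 := by
  rw [MulAction.is_two_pretransitive_iff] at h2
  obtain ⟨s, hsx, hsy⟩ := h2 hxy (Ne.symm hxy)
  have memB : ∀ g : G, g ∈ MulAction.stabilizer G x ↔ g • x = x :=
    fun g => MulAction.mem_stabilizer_iff
  have memN : ∀ g : G, g ∈ MulAction.stabilizer G ({x, y} : Set Ω) → g • x = x ∨ g • x = y := by
    intro g hg
    rw [MulAction.mem_stabilizer_iff] at hg
    have h1 : g • x ∈ g • ({x, y} : Set Ω) := Set.smul_mem_smul_set (by simp)
    rw [hg] at h1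
    simpa using h1
  have hsN : s ∈ MulAction.stabilizer G ({x, y} : Set Ω) := by
    rw [MulAction.mem_stabilizer_iff, Set.smul_set_insert, Set.smul_set_singleton, hsx, hsy,
      Set.pair_comm]
  have F : ∀ g h : G, (g • x = x ↔ h • x = x) →
      ∃ b ∈ MulAction.stabilizer G x, ∃ c ∈ MulAction.stabilizer G x, g = b * h * c := by
    intro g h hgh
    by_cases hg : g • x = x
    · have hh := hgh.1 hg
      refine ⟨g * h⁻¹, ?_, 1, one_mem _, by group⟩
      rw [memB, mul_smul, inv_smul_eq_iff.2 hh.symm, hg]
    · have hh : h • x ≠ x := fun e => hg (hgh.2 e)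
      obtain ⟨b, hbx, hbh⟩ := h2 (Ne.symm hh) (Ne.symm hg)
      refine ⟨b, (memB b).2 hbx, h⁻¹ * b⁻¹ * g, ?_, by group⟩
      rw [memB, mul_smul, mul_smul, ← hbh, inv_smul_smul, inv_smul_smul]
  refine ⟨{ B := MulAction.stabilizer G x, N := MulAction.stabilizer G ({x, y} : Set Ω), S := {s},
            sup_eq_top := ?_, conj_mem := ?_, subset := ?_, sq_mem := ?_, inj := ?_,
            closure_sup := ?_, mul_mem_union := ?_, conj_ne := ?_ }, rfl, rfl, ?_⟩
  · rw [eq_top_iff]
    intro g _
    by_cases hg : g • x = x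
    · exact Subgroup.mem_sup_left ((memB g).2 hg)
    · obtain ⟨b, hb, c, hc, e⟩ := F g s (by
        rw [hsx]; exact ⟨fun h => absurd h hg, fun h => absurd h.symm hxy⟩)
      rw [e]
      exact mul_mem (mul_mem (Subgroup.mem_sup_left hb) (Subgroup.mem_sup_right hsN))
        (Subgroup.mem_sup_left hc)
  · intro n hn t ht
    rw [Subgroup.mem_inf] at ht
    obtain ⟨htB, htN⟩ := ht
    rw [memB] at htB ⊢
    have hty : t • y = y := by
      have h1 : t • y ∈ t • ({x, y} : Set Ω) := Set.smul_mem_smul_set (by simp)
      rw [MulAction.mem_stabilizer_iff.1 htN] at h1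
      rcases h1 with h1 | h1
      · exfalso
        rw [← htB] at h1
        exact hxy (MulAction.injective t h1).symm
      · exact h1
    have hn' := memN n⁻¹ (inv_mem hn)
    rw [mul_smul, mul_smul]
    rcases hn' with h1 | h1
    · rw [h1, htB]
      exact (inv_smul_eq_iff.1 h1).symm
    · rw [h1, hty]
      exact (inv_smul_eq_iff.1 h1).symm
  · intro a ha
    rw [Set.mem_singleton_iff] at ha
    rw [ha]; exact hsN
  · intro a ha
    rw [Set.mem_singleton_iff] at ha
    subst ha
    rw [memB, mul_smul, hsx, hsy]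
  · intro a ha a' ha' _
    rw [Set.mem_singleton_iff] at ha ha'
    rw [ha, ha']
  · apply le_antisymm
    · apply sup_le _ inf_le_right
      rw [Subgroup.closure_le]
      intro a ha
      rw [Set.mem_singleton_iff] at ha
      rw [ha]; exact hsN
    · intro n hn
      rcases memN n hn with h1 | h1
      · exact Subgroup.mem_sup_right (Subgroup.mem_inf.2 ⟨(memB n).2 h1, hn⟩)
      · have h3 : n = s * (s⁻¹ * n) := by group
        rw [h3]
        refine mul_mem (Subgroup.mem_sup_left (Subgroup.subset_closure rfl))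
          (Subgroup.mem_sup_right (Subgroup.mem_inf.2 ⟨?_, mul_mem (inv_mem hsN) hn⟩))
        rw [memB, mul_smul, h1, ← hsx, inv_smul_smul]
  · intro a ha n hn b hb
    rw [Set.mem_singleton_iff] at ha
    subst ha
    rw [memB] at hb
    have hn' := memN n hn
    by_cases hg : (a * b * n) • x = x
    · rcases hn' with h1 | h1
      · right
        rw [DoubleCoset.mem_doubleCoset]
        exact F _ _ ⟨fun _ => h1, fun _ => hg⟩
      · left
        rw [DoubleCoset.mem_doubleCoset]
        exact F _ _ ⟨fun _ => by rw [mul_smul, h1, hsy], fun _ => hg⟩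
    · rcases hn' with h1 | h1
      · left
        rw [DoubleCoset.mem_doubleCoset]
        exact F _ _ ⟨fun h => absurd h hg, fun h => by
          rw [mul_smul, h1, hsx] at h; exact absurd h.symm hxy⟩
      · right
        rw [DoubleCoset.mem_doubleCoset]
        exact F _ _ ⟨fun h => absurd h hg, fun h => by
          rw [h1] at h; exact absurd h.symm hxy⟩
  · intro a ha
    rw [Set.mem_singleton_iff] at ha
    subst ha
    obtain ⟨b, hbx, hby⟩ := h2 hxy hxz
    intro himg
    have h1 : a * b * a ∈ ((MulAction.stabilizer G x : Subgroup G) : Set G) := by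
      rw [← himg]; exact ⟨b, (memB b).2 hbx, rfl⟩
    have h1' : (a * b * a) • x = x := (memB _).1 h1
    rw [mul_smul, mul_smul, hsx, hby] at h1'
    rw [← hsy] at h1'
    exact hyz (MulAction.injective a h1').symm
  · show Nat.card ({s} : Set G) = 1
    simp
end Cfsg.Agent.S0323
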