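import Cfsg.Statements.S0326
import Mathlib

set_option autoImplicit false
open Cfsg

namespace Cfsg.Agent.S0326

/-- The Suzuki–Tits ovoid over a finite field with `q` elements has `q² + 1` points. -/
theorem result {F : Type*} [Field F] [Fintype F] (m : ℕ) :
    Nat.card (Cfsg.suzukiOvoid F m) = Fintype.card F ^ 2 + 1 := by
  classical
  obtain ⟨f, hf⟩ : ∃ f : F × F → Fin 4 → F, f = fun xy =>
      ![xy.1 * xy.2 + xy.1 ^ (2 ^ (m + 1) + 2) + xy.2 ^ (2 ^ (m + 1)), xy.2, xy.1, 1] := ⟨_, rfl⟩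
  have hf3 : ∀ xy, f xy 3 = 1 := by
    intro xy; rw [hf]; rfl
  have hf2 : ∀ xy, f xy 2 = xy.1 := by
    intro xy; rw [hf]; rfl
  have hf1 : ∀ xy, f xy 1 = xy.2 := by
    intro xy; rw [hf]; rfl
  have hf0 : ∀ xy, f xy ≠ 0 := by
    intro xy h
    have h3 := congrFun h 3
    rw [hf3] at h3
    exact one_ne_zero h3
  have h10 : (![1, 0, 0, 0] : Fin 4 → F) ≠ 0 := by
    intro h
    have h0 := congrFun h 0
    exact one_ne_zero h0
  obtain ⟨φ, hφ⟩ : ∃ φ : F × F → Projectivization F (Fin 4 → F),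
      φ = fun xy => Projectivization.mk F (f xy) (hf0 xy) := ⟨_, rfl⟩
  have hset : Cfsg.suzukiOvoid F m
      = insert (Projectivization.mk F ![1, 0, 0, 0] h10) (Set.range φ) := by
    ext p
    constructor
    · rintro ⟨v, hv, rfl, h | ⟨x, y, h⟩⟩
      · subst h
        exact Set.mem_insert _ _
      · refine Set.mem_insert_of_mem _ ⟨(x, y), ?_⟩
        rw [hφ]
        have hfx : f (x, y) = v := by rw [hf, h]
        simp only [hfx]
    · rintro (rfl | ⟨⟨x, y⟩, rfl⟩)
      · exact ⟨_, h10, rfl, Or.inl rfl⟩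
      · refine ⟨f (x, y), hf0 (x, y), by rw [hφ], Or.inr ⟨x, y, ?_⟩⟩
        rw [hf]
  have hinj : Function.Injective φ := by
    rintro ⟨x, y⟩ ⟨x', y'⟩ h
    rw [hφ] at h
    simp only at h
    rw [Projectivization.mk_eq_mk_iff] at h
    obtain ⟨a, ha⟩ := h
    have h3 := congrFun ha 3
    have h2 := congrFun ha 2
    have h1 := congrFun ha 1
    rw [Pi.smul_apply, hf3, hf3, Units.smul_def, smul_eq_mul, mul_one] at h3
    rw [Pi.smul_apply, hf2, hf2, Units.smul_def, smul_eq_mul, h3, one_mul] at h2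
    rw [Pi.smul_apply, hf1, hf1, Units.smul_def, smul_eq_mul, h3, one_mul] at h1
    simp only at h1 h2
    rw [h1, h2]
  have hnot : Projectivization.mk F ![1, 0, 0, 0] h10 ∉ Set.range φ := by
    rintro ⟨⟨x, y⟩, h⟩
    rw [hφ] at h
    simp only at h
    rw [Projectivization.mk_eq_mk_iff] at h
    obtain ⟨a, ha⟩ := h
    have h3 := congrFun ha 3
    rw [Pi.smul_apply, hf3, Units.smul_def, smul_eq_mul] at h3
    have h4 : (![1, 0, 0, 0] : Fin 4 → F) 3 = 0 := rfl
    rw [h4, mul_zero] at h3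
    exact zero_ne_one h3
  rw [Nat.card_coe_set_eq, hset, Set.ncard_insert_of_notMem hnot, ← Set.image_univ,
    Set.ncard_image_of_injective _ hinj, Set.ncard_univ, Nat.card_eq_fintype_card,
    Fintype.card_prod]
  ring

end Cfsg.Agent.S0326
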