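import Cfsg.Statements.S0351
import Mathlib

set_option autoImplicit false
open Cfsg

namespace Cfsg.Agent.S0351

/-- Derived design: removing a point p from the blocks through p of an S(t+1, k+1, v) yields an S(t, k, v-1) on the points other than p. -/
theorem result {α : Type*} [Fintype α] [DecidableEq α] {t k : ℕ} {B : Set (Finset α)} (hB : Cfsg.IsSteinerSystem (t + 1) (k + 1) B) (p : α) : Cfsg.IsSteinerSystem t k {b' : Finset {a : α // a ≠ p} | ∃ b ∈ B, p ∈ b ∧ b' = Finset.subtype (fun a => a ≠ p) b} := by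
  constructor
  · rintro b' ⟨b, hb, hpb, rfl⟩
    rw [Finset.card_subtype]
    have h1 : b.filter (fun a => a ≠ p) = b.erase p := by
      ext a; simp [and_comm]
    rw [h1, Finset.card_erase_of_mem hpb, hB.1 b hb]; rfl
  · intro s' hs'
    have hps : p ∉ s'.map (Function.Embedding.subtype (fun a => a ≠ p)) := by
      intro h
      obtain ⟨a, -, ha⟩ := Finset.mem_map.1 h
      exact a.2 ha
    have hs : (insert p (s'.map (Function.Embedding.subtype (fun a => a ≠ p)))).card = t + 1 := by
      rw [Finset.card_insert_of_notMem hps, Finset.card_map, hs']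
    obtain ⟨b, ⟨hbB, hsb⟩, huniq⟩ := hB.2 _ hs
    have hpb : p ∈ b := hsb (Finset.mem_insert_self p _)
    refine ⟨Finset.subtype (fun a => a ≠ p) b, ⟨⟨b, hbB, hpb, rfl⟩, ?_⟩, ?_⟩
    · intro a ha
      rw [Finset.mem_subtype]
      exact hsb (Finset.mem_insert_of_mem (Finset.mem_map_of_mem _ ha))
    · rintro b'' ⟨⟨b2, hb2, hpb2, rfl⟩, hs'b2⟩
      have hsub : insert p (s'.map (Function.Embedding.subtype (fun a => a ≠ p))) ⊆ b2 := by
        intro a ha
        rcases Finset.mem_insert.1 ha with rfl | ha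
        · exact hpb2
        · obtain ⟨a', ha', rfl⟩ := Finset.mem_map.1 ha
          exact Finset.mem_subtype.1 (hs'b2 ha')
      rw [huniq b2 ⟨hb2, hsub⟩]

end Cfsg.Agent.S0351
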