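import Cfsg.Statements.S0353
import Mathlib
import Cfsg.Agent.S0352

set_option autoImplicit false
open Cfsg

namespace Cfsg.Agent.S0353

/-- In an S(5, 8, 24), the symmetric difference of two blocks meeting in four points is a block. -/
theorem result {α : Type*} [Fintype α] [DecidableEq α] (hα : Fintype.card α = 24) {B : Set (Finset α)} (hB : Cfsg.IsSteinerSystem 5 8 B) {b c : Finset α} (hb : b ∈ B) (hc : c ∈ B) (h4 : (b ∩ c).card = 4) : symmDiff b c ∈ B := by
  classical
  by_contra hne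
  have hB' := hB
  obtain ⟨hcard, hex⟩ := hB
  have hb8 := hcard b hb
  have hc8 := hcard c hc
  have F1 : ∀ d ∈ B, ∀ d' ∈ B, d ≠ d' →
      (d ∩ d').card = 0 ∨ (d ∩ d').card = 2 ∨ (d ∩ d').card = 4 :=
    fun d hd d' hd' h => Cfsg.Agent.S0352.result hα hB' hd hd' h
  have F3 : ∀ s : Finset α, s.card = 5 → ∃ d ∈ B, s ⊆ d := fun s hs => (hex s hs).exists
  have F1' : ∀ d ∈ B, ∀ d' ∈ B, 5 ≤ (d ∩ d').card → d = d' := by
    intro d hd d' hd' h5
    by_contra hdd
    rcases F1 d hd d' hd' hdd with h | h | h <;> omega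
  obtain ⟨P, hP⟩ : ∃ P, P = b \ c := ⟨_, rfl⟩
  obtain ⟨Q, hQ⟩ : ∃ Q, Q = c \ b := ⟨_, rfl⟩
  obtain ⟨X, hX⟩ : ∃ X, X = b ∩ c := ⟨_, rfl⟩
  have hbPX : b = P ∪ X := by
    ext x; simp only [hP, hX, Finset.mem_union, Finset.mem_sdiff, Finset.mem_inter]; tauto
  have hcQX : c = Q ∪ X := by
    ext x; simp only [hQ, hX, Finset.mem_union, Finset.mem_sdiff, Finset.mem_inter]; tauto
  have hPX : Disjoint P X := by
    rw [Finset.disjoint_left]; intro x hx hx'
    rw [hP, Finset.mem_sdiff] at hx; rw [hX, Finset.mem_inter] at hx'; exact hx.2 hx'.2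
  have hQX : Disjoint Q X := by
    rw [Finset.disjoint_left]; intro x hx hx'
    rw [hQ, Finset.mem_sdiff] at hx; rw [hX, Finset.mem_inter] at hx'; exact hx.2 hx'.1
  have hPQ : Disjoint P Q := by
    rw [Finset.disjoint_left]; intro x hx hx'
    rw [hP, Finset.mem_sdiff] at hx; rw [hQ, Finset.mem_sdiff] at hx'; exact hx.2 hx'.1
  have hPb : P ⊆ b := by rw [hP]; exact Finset.sdiff_subset
  have hP4 : P.card = 4 := by
    have := Finset.card_sdiff_add_card_inter b c
    rw [← hP] at this; omega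
  have hQ4 : Q.card = 4 := by
    have := Finset.card_sdiff_add_card_inter c b
    rw [Finset.inter_comm, ← hQ] at this; omega
  have hsd : symmDiff b c = P ∪ Q := by
    ext x; simp only [hP, hQ, Finset.mem_symmDiff, Finset.mem_union, Finset.mem_sdiff]
  have hPc : ∀ x ∈ P, x ∉ c := fun x hx => by
    rw [hP, Finset.mem_sdiff] at hx; exact hx.2
  have hQb : ∀ x ∈ Q, x ∉ b := fun x hx => by
    rw [hQ, Finset.mem_sdiff] at hx; exact hx.2
  -- Lemma A
  have A : ∀ y ∈ Q, ∃ D ∈ B, P ⊆ D ∧ y ∈ D ∧ (D ∩ Q).card = 2 := by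
    intro y hy
    have hyP : y ∉ P := Finset.disjoint_right.1 hPQ hy
    obtain ⟨D, hD, hsub⟩ := F3 (insert y P) (by rw [Finset.card_insert_of_notMem hyP, hP4])
    have hPD : P ⊆ D := (Finset.subset_insert y P).trans hsub
    have hyD : y ∈ D := hsub (Finset.mem_insert_self y P)
    have hyb : y ∉ b := hQb y hy
    have hDb : D ≠ b := fun h => hyb (h ▸ hyD)
    have hPDb : P ⊆ D ∩ b := Finset.subset_inter hPD hPb
    have hDb4 : (D ∩ b).card = 4 := by
      have := Finset.card_le_card hPDb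
      rcases F1 D hD b hb hDb with h | h | h <;> omega
    have hDbP : D ∩ b = P := (Finset.eq_of_subset_of_card_le hPDb (by omega)).symm
    have hDX : D ∩ X = ∅ := by
      rw [Finset.eq_empty_iff_forall_notMem]
      intro x hx
      rw [Finset.mem_inter] at hx
      have hxb : x ∈ b := by
        have := hx.2; rw [hX, Finset.mem_inter] at this; exact this.1
      have hxP : x ∈ P := by rw [← hDbP]; exact Finset.mem_inter.2 ⟨hx.1, hxb⟩
      exact Finset.disjoint_left.1 hPX hxP hx.2
    have hDc : D ∩ c = D ∩ Q := by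
      rw [hcQX, Finset.inter_union_distrib_left, hDX, Finset.union_empty]
    have hDc' : D ≠ c := by
      intro h
      obtain ⟨e, he⟩ : P.Nonempty := Finset.card_pos.1 (by omega)
      exact hPc e he (h ▸ hPD he)
    have hyDQ : y ∈ D ∩ Q := Finset.mem_inter.2 ⟨hyD, hy⟩
    have hpos : 0 < (D ∩ Q).card := Finset.card_pos.2 ⟨y, hyDQ⟩
    rcases F1 D hD c hc hDc' with h | h | h
    · rw [hDc] at h; omega
    · rw [hDc] at h; exact ⟨D, hD, hPD, hyD, h⟩
    · exfalso
      rw [hDc] at h
      have hQD : Q ⊆ D := by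
        have h1 : D ∩ Q = Q := Finset.eq_of_subset_of_card_le Finset.inter_subset_right (by omega)
        intro x hx; rw [← h1] at hx; exact (Finset.mem_inter.1 hx).1
      have hPQD : P ∪ Q ⊆ D := Finset.union_subset hPD hQD
      have h2 : P ∪ Q = D := Finset.eq_of_subset_of_card_le hPQD
        (by rw [Finset.card_union_of_disjoint hPQ, hcard D hD]; omega)
      exact hne (by rw [hsd, h2]; exact hD)
  obtain ⟨i, hi⟩ : Q.Nonempty := Finset.card_pos.1 (by omega)
  obtain ⟨D, hD, hPD, hiD, hDQ⟩ := A i hi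
  obtain ⟨k, hk⟩ : (Q \ D).Nonempty := by
    apply Finset.card_pos.1
    have := Finset.card_sdiff_add_card_inter Q D
    rw [Finset.inter_comm] at this; omega
  have hkQ := (Finset.mem_sdiff.1 hk).1
  have hkD := (Finset.mem_sdiff.1 hk).2
  obtain ⟨D', hD', hPD', hkD', hD'Q⟩ := A k hkQ
  have hDD' : D ≠ D' := fun h => hkD (h ▸ hkD')
  have hDDP : D ∩ D' = P := by
    have hsub : P ⊆ D ∩ D' := Finset.subset_inter hPD hPD'
    have := Finset.card_le_card hsub
    have h4' : (D ∩ D').card = 4 := by rcases F1 D hD D' hD' hDD' with h | h | h <;> omega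
    exact (Finset.eq_of_subset_of_card_le hsub (by omega)).symm
  have hdisj : Disjoint (D ∩ Q) (D' ∩ Q) := by
    rw [Finset.disjoint_left]; intro x hx hx'
    have : x ∈ P := by
      rw [← hDDP]; exact Finset.mem_inter.2 ⟨(Finset.mem_inter.1 hx).1, (Finset.mem_inter.1 hx').1⟩
    exact Finset.disjoint_left.1 hPQ this (Finset.mem_inter.1 hx).2
  have hQsplit : (D ∩ Q) ∪ (D' ∩ Q) = Q := by
    apply Finset.eq_of_subset_of_card_le
      (Finset.union_subset Finset.inter_subset_right Finset.inter_subset_right)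
    rw [Finset.card_union_of_disjoint hdisj]; omega
  have hik : i ≠ k := fun h => hkD (h ▸ hiD)
  have hiD' : i ∉ D' := by
    intro h
    exact Finset.disjoint_left.1 hdisj (Finset.mem_inter.2 ⟨hiD, hi⟩) (Finset.mem_inter.2 ⟨h, hi⟩)
  obtain ⟨h, hh⟩ : P.Nonempty := Finset.card_pos.1 (by omega)
  obtain ⟨P', hP'⟩ : ∃ P', P' = P.erase h := ⟨_, rfl⟩
  have hP'3 : P'.card = 3 := by rw [hP', Finset.card_erase_of_mem hh]; omega
  have hP'P : P' ⊆ P := by rw [hP']; exact Finset.erase_subset _ _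
  have hiP : i ∉ P := Finset.disjoint_right.1 hPQ hi
  have hkP : k ∉ P := Finset.disjoint_right.1 hPQ hkQ
  have hiP' : i ∉ P' := fun hx => hiP (hP'P hx)
  have hkP' : k ∉ insert i P' := by
    rw [Finset.mem_insert]; rintro (hx | hx)
    · exact hik hx.symm
    · exact hkP (hP'P hx)
  obtain ⟨E, hE, hsubE⟩ := F3 (insert k (insert i P'))
    (by rw [Finset.card_insert_of_notMem hkP', Finset.card_insert_of_notMem hiP', hP'3])
  have hkE : k ∈ E := hsubE (Finset.mem_insert_self _ _)
  have hiE : i ∈ E := hsubE (Finset.mem_insert_of_mem (Finset.mem_insert_self _ _))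
  have hP'E : P' ⊆ E := fun x hx =>
    hsubE (Finset.mem_insert_of_mem (Finset.mem_insert_of_mem hx))
  have hED : E ≠ D := fun h => hkD (h ▸ hkE)
  have hED' : E ≠ D' := fun h => hiD' (h ▸ hiE)
  have hEb : E ≠ b := fun h => hQb i hi (h ▸ hiE)
  have hEc : E ≠ c := by
    obtain ⟨e, he⟩ : P'.Nonempty := Finset.card_pos.1 (by omega)
    intro h; exact hPc e (hP'P he) (h ▸ hP'E he)
  have hhE : h ∉ E := by
    intro hhE
    apply hED
    apply F1' E hE D hD
    have hsub : insert i P ⊆ E ∩ D := by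
      intro x hx
      rcases Finset.mem_insert.1 hx with hxi | hx
      · rw [hxi]; exact Finset.mem_inter.2 ⟨hiE, hiD⟩
      · refine Finset.mem_inter.2 ⟨?_, hPD hx⟩
        by_cases hxh : x = h
        · rw [hxh]; exact hhE
        · apply hP'E; rw [hP']; exact Finset.mem_erase.2 ⟨hxh, hx⟩
    have := Finset.card_le_card hsub
    rw [Finset.card_insert_of_notMem hiP] at this; omega
  have hEP : E ∩ P = P' := by
    ext x; rw [hP']; simp only [Finset.mem_inter, Finset.mem_erase]
    constructor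
    · rintro ⟨hxE, hxP⟩; exact ⟨fun hxh => hhE (hxh ▸ hxE), hxP⟩
    · rintro ⟨hxh, hxP⟩
      exact ⟨hP'E (by rw [hP']; exact Finset.mem_erase.2 ⟨hxh, hxP⟩), hxP⟩
  have hEb_card : (E ∩ b).card = (E ∩ P).card + (E ∩ X).card := by
    conv_lhs => rw [hbPX]
    rw [Finset.inter_union_distrib_left, Finset.card_union_of_disjoint]
    exact hPX.mono Finset.inter_subset_right Finset.inter_subset_right
  have hEX1 : (E ∩ X).card = 1 := by
    have h3 : (E ∩ P).card = 3 := by rw [hEP]; exact hP'3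
    rcases F1 E hE b hb hEb with h | h | h <;> omega
  have hEc_card : (E ∩ c).card = (E ∩ Q).card + (E ∩ X).card := by
    conv_lhs => rw [hcQX]
    rw [Finset.inter_union_distrib_left, Finset.card_union_of_disjoint]
    exact hQX.mono Finset.inter_subset_right Finset.inter_subset_right
  have hEQ2 : 2 ≤ (E ∩ Q).card := by
    have hsub : ({i, k} : Finset α) ⊆ E ∩ Q := by
      intro x hx
      rcases Finset.mem_insert.1 hx with hxi | hx
      · rw [hxi]; exact Finset.mem_inter.2 ⟨hiE, hi⟩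
      · rw [Finset.mem_singleton.1 hx]; exact Finset.mem_inter.2 ⟨hkE, hkQ⟩
    have := Finset.card_le_card hsub
    rwa [Finset.card_pair hik] at this
  have hEQ3 : (E ∩ Q).card = 3 := by
    rcases F1 E hE c hc hEc with h | h | h <;> omega
  have hsplit : (E ∩ Q).card = (E ∩ (D ∩ Q)).card + (E ∩ (D' ∩ Q)).card := by
    conv_lhs => rw [← hQsplit]
    rw [Finset.inter_union_distrib_left, Finset.card_union_of_disjoint]
    exact hdisj.mono Finset.inter_subset_right Finset.inter_subset_right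
  have hle1 : (E ∩ (D ∩ Q)).card ≤ 2 :=
    (Finset.card_le_card Finset.inter_subset_right).trans hDQ.le
  have hle2 : (E ∩ (D' ∩ Q)).card ≤ 2 :=
    (Finset.card_le_card Finset.inter_subset_right).trans hD'Q.le
  have hdjP : ∀ F : Finset α, Disjoint P' (F ∩ Q) := by
    intro F
    rw [Finset.disjoint_left]; intro x hx hx'
    exact Finset.disjoint_left.1 hPQ (hP'P hx) (Finset.mem_inter.1 hx').2
  rcases (show (E ∩ (D ∩ Q)).card = 2 ∨ (E ∩ (D' ∩ Q)).card = 2 by omega) with h2 | h2
  · have hsubDQ : D ∩ Q ⊆ E := by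
      have h1 : E ∩ (D ∩ Q) = D ∩ Q :=
        Finset.eq_of_subset_of_card_le Finset.inter_subset_right (by omega)
      intro x hx; rw [← h1] at hx; exact (Finset.mem_inter.1 hx).1
    apply hED
    apply F1' E hE D hD
    have hsub5 : P' ∪ (D ∩ Q) ⊆ E ∩ D := by
      apply Finset.union_subset
      · intro x hx; exact Finset.mem_inter.2 ⟨hP'E hx, hPD (hP'P hx)⟩
      · intro x hx; exact Finset.mem_inter.2 ⟨hsubDQ hx, (Finset.mem_inter.1 hx).1⟩
    have := Finset.card_le_card hsub5
    rw [Finset.card_union_of_disjoint (hdjP D)] at this; omega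
  · have hsubDQ : D' ∩ Q ⊆ E := by
      have h1 : E ∩ (D' ∩ Q) = D' ∩ Q :=
        Finset.eq_of_subset_of_card_le Finset.inter_subset_right (by omega)
      intro x hx; rw [← h1] at hx; exact (Finset.mem_inter.1 hx).1
    apply hED'
    apply F1' E hE D' hD'
    have hsub5 : P' ∪ (D' ∩ Q) ⊆ E ∩ D' := by
      apply Finset.union_subset
      · intro x hx; exact Finset.mem_inter.2 ⟨hP'E hx, hPD' (hP'P hx)⟩
      · intro x hx; exact Finset.mem_inter.2 ⟨hsubDQ hx, (Finset.mem_inter.1 hx).1⟩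
    have := Finset.card_le_card hsub5
    rw [Finset.card_union_of_disjoint (hdjP D')] at this; omega

end Cfsg.Agent.S0353
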