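import Cfsg.Statements.S0355
import Mathlib
import Cfsg.Agent.Lib.Helper1.Steiner

set_option autoImplicit false
open Cfsg

namespace Cfsg.Agent.S0355


theorem key : ∀ m ≤ 3, 3 * Nat.choose m 1 + 6 * Nat.choose m 3
      ≤ 3 * Nat.choose m 0 + 4 * Nat.choose m 2 ∧
    (3 * Nat.choose m 1 + 6 * Nat.choose m 3 = 3 * Nat.choose m 0 + 4 * Nat.choose m 2 →
      m = 1 ∨ m = 3) := by decide

/-- In a Steiner system S(4, 7, 23), two distinct blocks intersect in 1 or 3 points. -/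
theorem result {α : Type*} [Fintype α] [DecidableEq α] (hα : Fintype.card α = 23) {B : Set (Finset α)} (hB : Cfsg.IsSteinerSystem 4 7 B) {b c : Finset α} (hb : b ∈ B) (hc : c ∈ B) (hbc : b ≠ c) : (b ∩ c).card = 1 ∨ (b ∩ c).card = 3 := by
  obtain ⟨Bf, hBf, -⟩ := Cfsg.Agent.Lib.Helper1.exists_blockFinset B
  have e0 := Cfsg.Agent.Lib.Helper1.steiner_inter_sum_erase hB Bf hBf b hb 0 (by norm_num)
  have e1 := Cfsg.Agent.Lib.Helper1.steiner_inter_sum_erase hB Bf hBf b hb 1 (by norm_num)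
  have e2 := Cfsg.Agent.Lib.Helper1.steiner_inter_sum_erase hB Bf hBf b hb 2 (by norm_num)
  have e3 := Cfsg.Agent.Lib.Helper1.steiner_inter_sum_erase hB Bf hBf b hb 3 (by norm_num)
  obtain ⟨S0, hS0⟩ : ∃ S, S = ∑ c ∈ Bf.erase b, Nat.choose (b ∩ c).card 0 := ⟨_, rfl⟩
  rw [← hS0, hα] at e0
  norm_num [Nat.choose] at e0
  obtain ⟨S1, hS1⟩ : ∃ S, S = ∑ c ∈ Bf.erase b, Nat.choose (b ∩ c).card 1 := ⟨_, rfl⟩
  rw [← hS1, hα] at e1
  norm_num [Nat.choose] at e1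
  obtain ⟨S2, hS2⟩ : ∃ S, S = ∑ c ∈ Bf.erase b, Nat.choose (b ∩ c).card 2 := ⟨_, rfl⟩
  rw [← hS2, hα] at e2
  norm_num [Nat.choose] at e2
  obtain ⟨S3, hS3⟩ : ∃ S, S = ∑ c ∈ Bf.erase b, Nat.choose (b ∩ c).card 3 := ⟨_, rfl⟩
  rw [← hS3, hα] at e3
  norm_num [Nat.choose] at e3
  have hsum : ∑ c ∈ Bf.erase b, (3 * Nat.choose (b ∩ c).card 1 + 6 * Nat.choose (b ∩ c).card 3)
      = ∑ c ∈ Bf.erase b, (3 * Nat.choose (b ∩ c).card 0 + 4 * Nat.choose (b ∩ c).card 2) := by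
    simp only [Finset.sum_add_distrib, ← Finset.mul_sum]
    rw [← hS0, ← hS1, ← hS2, ← hS3]; omega
  have hle : ∀ c ∈ Bf.erase b, 3 * Nat.choose (b ∩ c).card 1 + 6 * Nat.choose (b ∩ c).card 3
      ≤ 3 * Nat.choose (b ∩ c).card 0 + 4 * Nat.choose (b ∩ c).card 2 := by
    intro c hc
    obtain ⟨hcb, hcB⟩ := Finset.mem_erase.1 hc
    have hlt := Cfsg.Agent.Lib.Helper1.steiner_inter_lt hB hb ((hBf c).1 hcB) (Ne.symm hcb)
    exact (key _ (by omega)).1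
  have heq := (Finset.sum_eq_sum_iff_of_le hle).1 hsum c
    (Finset.mem_erase.2 ⟨Ne.symm hbc, (hBf c).2 hc⟩)
  have hlt := Cfsg.Agent.Lib.Helper1.steiner_inter_lt hB hb hc hbc
  exact (key _ (by omega)).2 heq

end Cfsg.Agent.S0355
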