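import Cfsg.Statements.S0356
import Mathlib
import Cfsg.Agent.Lib.Helper1.Steiner

set_option autoImplicit false
open Cfsg

namespace Cfsg.Agent.S0356


theorem key : ∀ m ≤ 2, 2 * Nat.choose m 2 ≤ Nat.choose m 1 ∧
    (2 * Nat.choose m 2 = Nat.choose m 1 → m = 0 ∨ m = 2) := by decide

/-- In a Steiner system S(3, 6, 22), two distinct blocks intersect in 0 or 2 points. -/
theorem result {α : Type*} [Fintype α] [DecidableEq α] (hα : Fintype.card α = 22) {B : Set (Finset α)} (hB : Cfsg.IsSteinerSystem 3 6 B) {b c : Finset α} (hb : b ∈ B) (hc : c ∈ B) (hbc : b ≠ c) : (b ∩ c).card = 0 ∨ (b ∩ c).card = 2 := by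
  obtain ⟨Bf, hBf, -⟩ := Cfsg.Agent.Lib.Helper1.exists_blockFinset B
  have e1 := Cfsg.Agent.Lib.Helper1.steiner_inter_sum_erase hB Bf hBf b hb 1 (by norm_num)
  have e2 := Cfsg.Agent.Lib.Helper1.steiner_inter_sum_erase hB Bf hBf b hb 2 (by norm_num)
  obtain ⟨S1, hS1⟩ : ∃ S, S = ∑ c ∈ Bf.erase b, Nat.choose (b ∩ c).card 1 := ⟨_, rfl⟩
  rw [← hS1, hα] at e1
  norm_num [Nat.choose] at e1
  obtain ⟨S2, hS2⟩ : ∃ S, S = ∑ c ∈ Bf.erase b, Nat.choose (b ∩ c).card 2 := ⟨_, rfl⟩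
  rw [← hS2, hα] at e2
  norm_num [Nat.choose] at e2
  have hsum : ∑ c ∈ Bf.erase b, (2 * Nat.choose (b ∩ c).card 2)
      = ∑ c ∈ Bf.erase b, Nat.choose (b ∩ c).card 1 := by
    simp only [← Finset.mul_sum]
    rw [← hS1, ← hS2]; omega
  have hle : ∀ c ∈ Bf.erase b, 2 * Nat.choose (b ∩ c).card 2 ≤ Nat.choose (b ∩ c).card 1 := by
    intro c hc
    obtain ⟨hcb, hcB⟩ := Finset.mem_erase.1 hc
    have hlt := Cfsg.Agent.Lib.Helper1.steiner_inter_lt hB hb ((hBf c).1 hcB) (Ne.symm hcb)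
    exact (key _ (by omega)).1
  have heq := (Finset.sum_eq_sum_iff_of_le hle).1 hsum c
    (Finset.mem_erase.2 ⟨Ne.symm hbc, (hBf c).2 hc⟩)
  have hlt := Cfsg.Agent.Lib.Helper1.steiner_inter_lt hB hb hc hbc
  exact (key _ (by omega)).2 heq

end Cfsg.Agent.S0356
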