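import Cfsg.Statements.S0357
import Mathlib
import Cfsg.Agent.Lib.Helper1.Steiner

set_option autoImplicit false
open Cfsg

namespace Cfsg.Agent.S0357


theorem key : ∀ m ≤ 4, (if m = 0 then 1 else 0) + Nat.choose m 1 + Nat.choose m 3
    = Nat.choose m 0 + Nat.choose m 2 + Nat.choose m 4 := by decide

/-- In a Steiner system S(5, 6, 12), the complement of every block is again a block. -/
theorem result {α : Type*} [Fintype α] [DecidableEq α] (hα : Fintype.card α = 12) {B : Set (Finset α)} (hB : Cfsg.IsSteinerSystem 5 6 B) {b : Finset α} (hb : b ∈ B) : bᶜ ∈ B := by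
  classical
  obtain ⟨Bf, hBf, -⟩ := Cfsg.Agent.Lib.Helper1.exists_blockFinset B
  have e0 := Cfsg.Agent.Lib.Helper1.steiner_inter_sum_erase hB Bf hBf b hb 0 (by norm_num)
  have e1 := Cfsg.Agent.Lib.Helper1.steiner_inter_sum_erase hB Bf hBf b hb 1 (by norm_num)
  have e2 := Cfsg.Agent.Lib.Helper1.steiner_inter_sum_erase hB Bf hBf b hb 2 (by norm_num)
  have e3 := Cfsg.Agent.Lib.Helper1.steiner_inter_sum_erase hB Bf hBf b hb 3 (by norm_num)
  have e4 := Cfsg.Agent.Lib.Helper1.steiner_inter_sum_erase hB Bf hBf b hb 4 (by norm_num)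
  obtain ⟨S0, hS0⟩ : ∃ S, S = ∑ c ∈ Bf.erase b, Nat.choose (b ∩ c).card 0 := ⟨_, rfl⟩
  rw [← hS0, hα] at e0
  norm_num [Nat.choose] at e0
  obtain ⟨S1, hS1⟩ : ∃ S, S = ∑ c ∈ Bf.erase b, Nat.choose (b ∩ c).card 1 := ⟨_, rfl⟩
  rw [← hS1, hα] at e1
  norm_num [Nat.choose] at e1
  obtain ⟨S2, hS2⟩ : ∃ S, S = ∑ c ∈ Bf.erase b, Nat.choose (b ∩ c).card 2 := ⟨_, rfl⟩
  rw [← hS2, hα] at e2
  norm_num [Nat.choose] at e2
  obtain ⟨S3, hS3⟩ : ∃ S, S = ∑ c ∈ Bf.erase b, Nat.choose (b ∩ c).card 3 := ⟨_, rfl⟩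
  rw [← hS3, hα] at e3
  norm_num [Nat.choose] at e3
  obtain ⟨S4, hS4⟩ : ∃ S, S = ∑ c ∈ Bf.erase b, Nat.choose (b ∩ c).card 4 := ⟨_, rfl⟩
  rw [← hS4, hα] at e4
  norm_num [Nat.choose] at e4
  have hterm : ∀ c ∈ Bf.erase b, (if Disjoint b c then 1 else 0)
      + Nat.choose (b ∩ c).card 1 + Nat.choose (b ∩ c).card 3
      = Nat.choose (b ∩ c).card 0 + Nat.choose (b ∩ c).card 2 + Nat.choose (b ∩ c).card 4 := by
    intro c hc
    obtain ⟨hcb, hcB⟩ := Finset.mem_erase.1 hc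
    have hlt := Cfsg.Agent.Lib.Helper1.steiner_inter_lt hB hb ((hBf c).1 hcB) (Ne.symm hcb)
    have h4 := key _ (show (b ∩ c).card ≤ 4 by omega)
    have h5 : Disjoint b c ↔ (b ∩ c).card = 0 := by
      rw [Finset.card_eq_zero, Finset.disjoint_iff_inter_eq_empty]
    simp only [h5]
    exact h4
  have hsum := Finset.sum_congr rfl hterm
  simp only [Finset.sum_add_distrib] at hsum
  rw [← hS0, ← hS1, ← hS2, ← hS3, ← hS4, ← Finset.card_filter] at hsum
  have hpos : 0 < ((Bf.erase b).filter (fun c => Disjoint b c)).card := by omega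
  obtain ⟨c, hc⟩ := Finset.card_pos.1 hpos
  obtain ⟨hc1, hd⟩ := Finset.mem_filter.1 hc
  obtain ⟨-, hcB⟩ := Finset.mem_erase.1 hc1
  have hcB' := (hBf c).1 hcB
  have hsub : c ⊆ bᶜ := by
    intro a ha
    rw [Finset.mem_compl]
    exact fun hab => Finset.disjoint_left.1 hd hab ha
  have hcard : bᶜ.card ≤ c.card := by
    rw [Finset.card_compl, hα, hB.1 b hb, hB.1 c hcB']
  rw [← Finset.eq_of_subset_of_card_le hsub hcard]
  exact hcB'

end Cfsg.Agent.S0357
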