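import Cfsg.Statements.S0376
import Mathlib
import Cfsg.Agent.Lib.Helper1.M24Order
import Cfsg.Agent.S0364

set_option autoImplicit false
open Cfsg

namespace Cfsg.Agent.S0376


theorem card_pt : Nat.card Cfsg.GolayPt = 24 := by
  rw [Nat.card_eq_fintype_card]; decide

/-- A point stabiliser in the group of the length-24 code has order 10200960 = 2^7·3^2·5·7·11·23. -/
theorem result (p : Cfsg.GolayPt) : Nat.card (MulAction.stabilizer Cfsg.M24 p) = 10200960 := by
  haveI h5 : MulAction.IsMultiplyPretransitive ↥Cfsg.M24 Cfsg.GolayPt 5 :=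
    Cfsg.Agent.Lib.Helper1.M24_5trans
  haveI h1 : MulAction.IsPretransitive ↥Cfsg.M24 Cfsg.GolayPt := by
    rw [← MulAction.is_one_pretransitive_iff]
    exact MulAction.isMultiplyPretransitive_of_le (n := 5) (by norm_num) (by rw [card_pt]; norm_num)
  have hidx := MulAction.index_stabilizer_of_transitive (G := ↥Cfsg.M24) (x := p)
  have hmul := Subgroup.card_mul_index (MulAction.stabilizer ↥Cfsg.M24 p)
  rw [hidx, card_pt, Cfsg.Agent.S0364.result] at hmul
  omega

end Cfsg.Agent.S0376
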