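import Cfsg.Statements.S0377
import Mathlib
import Cfsg.Agent.Lib.Helper1.MathieuSimple
import Cfsg.Agent.S0376

set_option autoImplicit false
open Cfsg

namespace Cfsg.Agent.S0377


open Cfsg.Agent.Lib.Helper1 in
theorem compl_ncard (p : Cfsg.GolayPt) : ({p}ᶜ : Set Cfsg.GolayPt).ncard = 23 := by
  classical
  have h : ({p}ᶜ : Set Cfsg.GolayPt) = ↑(Finset.univ.erase p) := by
    ext x; simp
  rw [h, Set.ncard_coe_finset, Finset.card_erase_of_mem (Finset.mem_univ _), Finset.card_univ]
  rfl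

/-- A point stabiliser in the group of the length-24 code is simple. -/
theorem result (p : Cfsg.GolayPt) : IsSimpleGroup (MulAction.stabilizer Cfsg.M24 p) := by
  classical
  haveI : Fact (Nat.Prime 23) := ⟨by norm_num⟩
  have hcard : Nat.card (MulAction.stabilizer Cfsg.M24 p) = 23 * 443520 := by
    rw [Cfsg.Agent.S0376.result]
  have hXn := compl_ncard p
  have hinv : ∀ g : MulAction.stabilizer Cfsg.M24 p, ∀ x ∈ ({p}ᶜ : Set Cfsg.GolayPt),
      g • x ∈ ({p}ᶜ : Set Cfsg.GolayPt) := by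
    intro g x hx hgx
    apply hx
    have hg : g • p = p := g.2
    have hgx' : g • x = p := hgx
    have h1 : g • x = g • p := by rw [hg]; exact hgx'
    exact MulAction.injective g h1
  have hfaith : ∀ g : MulAction.stabilizer Cfsg.M24 p,
      (∀ x ∈ ({p}ᶜ : Set Cfsg.GolayPt), g • x = x) → g = 1 := by
    intro g hg
    apply Subtype.ext
    apply Subtype.ext
    apply Equiv.ext
    intro x
    by_cases hx : x = p
    · rw [hx]; exact g.2
    · exact hg x hx
  have h2 : ∀ a ∈ ({p}ᶜ : Set Cfsg.GolayPt), ∀ b ∈ ({p}ᶜ : Set Cfsg.GolayPt),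
      ∀ c ∈ ({p}ᶜ : Set Cfsg.GolayPt), ∀ d ∈ ({p}ᶜ : Set Cfsg.GolayPt), a ≠ b → c ≠ d →
      ∃ g : MulAction.stabilizer Cfsg.M24 p, g • a = c ∧ g • b = d := by
    intro a ha b hb c hc d hd hab hcd
    obtain ⟨g, hg, hgF, hga, hgb⟩ := Cfsg.Agent.Lib.Helper1.M24_fix_2trans {p} (by simp) a b c d
      (fun h => ha (Finset.mem_singleton.1 h)) (fun h => hb (Finset.mem_singleton.1 h))
      (fun h => hc (Finset.mem_singleton.1 h)) (fun h => hd (Finset.mem_singleton.1 h)) hab hcd
    exact ⟨⟨⟨g, hg⟩, hgF p (Finset.mem_singleton_self p)⟩, hga, hgb⟩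
  have hdiv : ∀ N : Subgroup (MulAction.stabilizer Cfsg.M24 p), N.Normal → N ≠ ⊥ →
      23 ∣ Nat.card N := by
    intro N hN hne
    have h := Cfsg.Agent.Lib.Helper1.ncard_dvd_card_normal ({p}ᶜ : Set Cfsg.GolayPt)
      hinv hfaith h2 N hN hne
    rwa [hXn] at h
  have hcent : ∀ σ : MulAction.stabilizer Cfsg.M24 p, orderOf σ = 23 →
      ∀ c : MulAction.stabilizer Cfsg.M24 p, Commute c σ → c ∈ Subgroup.zpowers σ := by
    intro σ hσ c hc
    have hσ1 : σ ≠ 1 := by
      rintro rfl
      rw [orderOf_one] at hσ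
      omega
    obtain ⟨b, hb, hσb⟩ : ∃ b ∈ ({p}ᶜ : Set Cfsg.GolayPt), σ • b ≠ b := by
      by_contra hcon
      push Not at hcon
      exact hσ1 (hfaith σ hcon)
    have hsub : ∀ k : ℤ, σ ^ k • b ∈ ({p}ᶜ : Set Cfsg.GolayPt) := fun k => hinv _ b hb
    have horb := Cfsg.Agent.Lib.Helper1.orbit_zpowers_eq σ (by norm_num : Nat.Prime 23) hσ b hσb
      ({p}ᶜ) (Set.toFinite _) hXn hsub
    apply Cfsg.Agent.Lib.Helper1.mem_zpowers_of_commute σ c hc b
    · intro g hg
      apply hfaith
      intro x hx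
      obtain ⟨k, rfl⟩ := horb x hx
      exact hg k
    · exact horb (c • b) (hinv c b hb)
  have hNorm : ∀ P : Sylow 23 (MulAction.stabilizer Cfsg.M24 p),
      Nat.card (Subgroup.normalizer ((P : Subgroup (MulAction.stabilizer Cfsg.M24 p)) :
        Set (MulAction.stabilizer Cfsg.M24 p))) = 23 * 11 := by
    intro P
    have hP : Nat.card (P : Subgroup (MulAction.stabilizer Cfsg.M24 p)) = 23 := by
      rw [Sylow.card_eq_multiplicity, hcard]
      have h1 : (23 * 443520).factorization 23 = 1 := by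
        rw [Nat.factorization_mul (by norm_num) (by norm_num), Finsupp.add_apply,
          Nat.Prime.factorization_self (by norm_num),
          Nat.factorization_eq_zero_of_not_dvd (by norm_num)]
      rw [h1, pow_one]
    exact Cfsg.Agent.Lib.Helper1.card_normalizer_of_arith hcard (by norm_num) P hP
      (Cfsg.Agent.Lib.Helper1.card_centralizer_sylow P hP hcent) (by
        intro e he _ h
        have hle : e ≤ 22 := Nat.le_of_dvd (by norm_num) he
        exact Cfsg.Agent.Lib.Helper1.arith23 e hle he h)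
  exact Cfsg.Agent.Lib.Helper1.simple_of_sylow (p := 23) (q := 11) (m := 443520) (by norm_num)
    hcard (by norm_num) (by norm_num) hNorm hdiv

end Cfsg.Agent.S0377
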