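import Cfsg.Statements.S0365
import Mathlib
import Cfsg.Agent.Lib.Helper1.MathieuSimple
import Cfsg.Agent.S0377

set_option autoImplicit false
open Cfsg

namespace Cfsg.Agent.S0365


theorem not_pp24 : ¬ IsPrimePow 24 := by
  rw [isPrimePow_iff_unique_prime_dvd]
  rintro ⟨p, _, hu⟩
  have h2 := hu 2 ⟨by norm_num, by norm_num⟩
  have h3 := hu 3 ⟨by norm_num, by norm_num⟩
  omega

/-- The permutation group preserving the length-24 code is simple. -/
theorem result : IsSimpleGroup Cfsg.M24 := by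
  classical
  have hXn : (Set.univ : Set Cfsg.GolayPt).ncard = 24 := by
    rw [Set.ncard_univ, Cfsg.Agent.Lib.Helper1.card_golayPt]
  have hinv : ∀ g : Cfsg.M24, ∀ x ∈ (Set.univ : Set Cfsg.GolayPt),
      g • x ∈ (Set.univ : Set Cfsg.GolayPt) := fun _ _ _ => Set.mem_univ _
  have hfaith : ∀ g : Cfsg.M24, (∀ x ∈ (Set.univ : Set Cfsg.GolayPt), g • x = x) → g = 1 := by
    intro g hg
    apply Subtype.ext
    apply Equiv.ext
    intro x
    exact hg x (Set.mem_univ _)
  have h2 : ∀ a ∈ (Set.univ : Set Cfsg.GolayPt), ∀ b ∈ (Set.univ : Set Cfsg.GolayPt),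
      ∀ c ∈ (Set.univ : Set Cfsg.GolayPt), ∀ d ∈ (Set.univ : Set Cfsg.GolayPt), a ≠ b → c ≠ d →
      ∃ g : Cfsg.M24, g • a = c ∧ g • b = d := by
    intro a _ b _ c _ d _ hab hcd
    obtain ⟨g, hg, -, hga, hgb⟩ := Cfsg.Agent.Lib.Helper1.M24_fix_2trans ∅ (by simp) a b c d
      (Finset.notMem_empty _) (Finset.notMem_empty _) (Finset.notMem_empty _)
      (Finset.notMem_empty _) hab hcd
    exact ⟨⟨g, hg⟩, hga, hgb⟩
  exact Cfsg.Agent.Lib.Helper1.simple_of_stab_simple (Set.univ : Set Cfsg.GolayPt) hinv hfaith h2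
    (by rw [hXn]; exact not_pp24) none (Set.mem_univ _) (Cfsg.Agent.S0377.result none)

end Cfsg.Agent.S0365
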