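import Cfsg.Statements.S0371
import Mathlib
import Cfsg.Agent.Lib.Helper1.Golay

set_option autoImplicit false
open Cfsg

namespace Cfsg.Agent.S0371


theorem sq_rows (u : (ZMod 23)ˣ) (hu : IsSquare u) (t : ZMod 23) (p : Cfsg.GolayPt) :
    Cfsg.qrWord t (Equiv.optionCongr (Units.mulLeft u) p)
      = Cfsg.qrWord (((u⁻¹ : (ZMod 23)ˣ) : ZMod 23) * t) p := by
  obtain ⟨s, rfl⟩ := hu
  cases p with
  | none => rfl
  | some x =>
    have hiff : (∃ r : ZMod 23, ((s * s : (ZMod 23)ˣ) : ZMod 23) * x = r ^ 2 + t) ↔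
        (∃ r : ZMod 23, x = r ^ 2 + (((s * s)⁻¹ : (ZMod 23)ˣ) : ZMod 23) * t) := by
      have h2 : (s : ZMod 23) * ((s⁻¹ : (ZMod 23)ˣ) : ZMod 23) = 1 := by
        rw [← Units.val_mul, mul_inv_cancel, Units.val_one]
      constructor
      · rintro ⟨r, hr⟩
        refine ⟨((s⁻¹ : (ZMod 23)ˣ) : ZMod 23) * r, ?_⟩
        have h1 : x = (((s * s)⁻¹ : (ZMod 23)ˣ) : ZMod 23)
            * (((s * s : (ZMod 23)ˣ) : ZMod 23) * x) := by
          rw [← mul_assoc, ← Units.val_mul, inv_mul_cancel, Units.val_one, one_mul]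
        rw [h1, hr]
        simp only [mul_inv_rev, Units.val_mul]
        ring
      · rintro ⟨r, hr⟩
        refine ⟨(s : ZMod 23) * r, ?_⟩
        rw [hr]
        simp only [mul_inv_rev, Units.val_mul]
        linear_combination (t * ((s : ZMod 23) * ((s⁻¹ : (ZMod 23)ˣ) : ZMod 23) + 1)) * h2
    have e1 : Equiv.optionCongr (Units.mulLeft (s * s)) (some x)
        = some (((s * s : (ZMod 23)ˣ) : ZMod 23) * x) := rfl
    rw [e1]
    exact if_congr hiff rfl rfl

/-- Multiplication by a nonzero square residue modulo 23, fixing the extra point, lies in the group of the length-24 code. -/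
theorem result (u : (ZMod 23)ˣ) (hu : IsSquare u) : Equiv.optionCongr (Units.mulLeft u) ∈ Cfsg.M24 := by
  apply Cfsg.Agent.Lib.Helper1.mem_M24_of_forall
  intro t
  have h1 : (fun p => Cfsg.qrWord t (Equiv.optionCongr (Units.mulLeft u) p))
      = Cfsg.qrWord (((u⁻¹ : (ZMod 23)ˣ) : ZMod 23) * t) := funext (sq_rows u hu t)
  rw [h1]
  exact Submodule.subset_span (Or.inl (Set.mem_range_self _))

end Cfsg.Agent.S0371
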