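import Cfsg.Statements.S0374
import Mathlib
import Cfsg.Agent.Lib.Helper1.M24Order

set_option autoImplicit false
open Cfsg

namespace Cfsg.Agent.S0374


/-- The group of the length-24 code is generated by x ↦ x+1, x ↦ -1/x and the cube-twist permutation. -/
theorem result : Subgroup.closure {Equiv.optionCongr (Equiv.addRight (1 : ZMod 23)), Cfsg.projInv, Cfsg.cubeTwist} = Cfsg.M24 := by
  apply le_antisymm Cfsg.Agent.Lib.Helper1.K3_le_M24
  intro σ hσ
  have hinj : Function.Injective (fun j : Fin 5 => σ (Cfsg.Agent.Lib.Helper1.pt j.val)) := by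
    intro i j hij
    have h1 := σ.injective hij
    exact Fin.ext (Cfsg.Agent.Lib.Helper1.pt_inj (by omega) (by omega) h1)
  obtain ⟨τ, hτ, hτx⟩ := Cfsg.Agent.Lib.Helper1.to_base _ hinj
  have hρ : τ * σ ∈ Cfsg.M24 := Cfsg.M24.mul_mem (Cfsg.Agent.Lib.Helper1.K3_le_M24 hτ) hσ
  obtain ⟨e, he, heq, -, -⟩ := Cfsg.Agent.Lib.Helper1.fix5_eq_word (τ * σ) hρ
    (fun j hj => hτx ⟨j, hj⟩)
  have h2 : σ = τ⁻¹ * Cfsg.Agent.Lib.Helper1.wordPerm e.2.2 := by
    rw [← heq]; group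
  rw [h2]
  exact Subgroup.mul_mem _ (Subgroup.inv_mem _ hτ) (Cfsg.Agent.Lib.Helper1.wordPerm_mem_K3 _)

end Cfsg.Agent.S0374
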