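import Cfsg.Statements.S0378
import Mathlib
import Cfsg.Agent.Lib.Helper1.M24Order
import Cfsg.Agent.S0364

set_option autoImplicit false
open Cfsg

namespace Cfsg.Agent.S0378


theorem card_pt : Nat.card Cfsg.GolayPt = 24 := by
  rw [Nat.card_eq_fintype_card]; decide

/-- A two-point stabiliser in the group of the length-24 code has order 443520 = 2^7·3^2·5·7·11. -/
theorem result (p q : Cfsg.GolayPt) (hpq : p ≠ q) : Nat.card ↥(MulAction.stabilizer Cfsg.M24 p ⊓ MulAction.stabilizer Cfsg.M24 q) = 443520 := by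
  have hn : ({p, q} : Set Cfsg.GolayPt).ncard = 2 := Set.ncard_pair hpq
  have h5 : MulAction.IsMultiplyPretransitive ↥Cfsg.M24 Cfsg.GolayPt 5 :=
    Cfsg.Agent.Lib.Helper1.M24_5trans
  have h2 : MulAction.IsMultiplyPretransitive ↥Cfsg.M24 Cfsg.GolayPt ({p, q} : Set Cfsg.GolayPt).ncard := by
    rw [hn]
    exact MulAction.isMultiplyPretransitive_of_le (n := 5) (by norm_num) (by rw [card_pt]; norm_num)
  have hidx := MulAction.IsMultiplyPretransitive.index_of_fixingSubgroup_eq ({p, q} : Set Cfsg.GolayPt) h2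
  rw [hn, card_pt] at hidx
  have heq : fixingSubgroup ↥Cfsg.M24 ({p, q} : Set Cfsg.GolayPt)
      = MulAction.stabilizer ↥Cfsg.M24 p ⊓ MulAction.stabilizer ↥Cfsg.M24 q := by
    ext g
    rw [mem_fixingSubgroup_iff, Subgroup.mem_inf, MulAction.mem_stabilizer_iff,
      MulAction.mem_stabilizer_iff]
    constructor
    · intro h
      exact ⟨h p (Set.mem_insert _ _), h q (Set.mem_insert_of_mem _ rfl)⟩
    · rintro ⟨hp, hq⟩ y hy
      rcases hy with rfl | rfl
      · exact hp
      · exact hq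
  rw [heq] at hidx
  have hmul := Subgroup.card_mul_index
    (MulAction.stabilizer ↥Cfsg.M24 p ⊓ MulAction.stabilizer ↥Cfsg.M24 q)
  rw [hidx, Cfsg.Agent.S0364.result] at hmul
  have hc : Nat.choose 24 2 * Nat.factorial 2 = 552 := by decide
  rw [hc] at hmul
  omega

end Cfsg.Agent.S0378
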