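import Cfsg.Statements.S0379
import Mathlib
import Cfsg.Agent.Lib.Helper1.MathieuSimple
import Cfsg.Agent.Lib.Helper1.Simple2
import Cfsg.Agent.Lib.Helper1.M24Fix9
import Cfsg.Agent.S0378

set_option autoImplicit false
open Cfsg

namespace Cfsg.Agent.S0379


theorem arith22 : ∀ e ≤ 20, e ∣ 20 → 40320 / e % 11 = 1 → e = 5 := by decide

theorem compl2_ncard (p q : Cfsg.GolayPt) (hpq : p ≠ q) :
    (({p, q} : Set Cfsg.GolayPt)ᶜ).ncard = 22 := by
  classical
  have h : (({p, q} : Set Cfsg.GolayPt)ᶜ) = ↑((Finset.univ.erase p).erase q) := by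
    ext x; simp
  rw [h, Set.ncard_coe_finset,
    Finset.card_erase_of_mem (Finset.mem_erase.2 ⟨hpq.symm, Finset.mem_univ q⟩),
    Finset.card_erase_of_mem (Finset.mem_univ _), Finset.card_univ]
  rfl

/-- A two-point stabiliser in the group of the length-24 code is simple. -/
theorem result (p q : Cfsg.GolayPt) (hpq : p ≠ q) : IsSimpleGroup ↥(MulAction.stabilizer Cfsg.M24 p ⊓ MulAction.stabilizer Cfsg.M24 q) := by
  classical
  haveI : Fact (Nat.Prime 11) := ⟨by norm_num⟩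
  have hcard : Nat.card ↥(MulAction.stabilizer Cfsg.M24 p ⊓ MulAction.stabilizer Cfsg.M24 q)
      = 11 * 40320 := by
    rw [Cfsg.Agent.S0378.result p q hpq]
  have hXn := compl2_ncard p q hpq
  have hgp : ∀ g : ↥(MulAction.stabilizer Cfsg.M24 p ⊓ MulAction.stabilizer Cfsg.M24 q),
      g • p = p := fun g => (Subgroup.mem_inf.1 g.2).1
  have hgq : ∀ g : ↥(MulAction.stabilizer Cfsg.M24 p ⊓ MulAction.stabilizer Cfsg.M24 q),
      g • q = q := fun g => (Subgroup.mem_inf.1 g.2).2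
  have hinv : ∀ g : ↥(MulAction.stabilizer Cfsg.M24 p ⊓ MulAction.stabilizer Cfsg.M24 q),
      ∀ x ∈ (({p, q} : Set Cfsg.GolayPt)ᶜ), g • x ∈ (({p, q} : Set Cfsg.GolayPt)ᶜ) := by
    intro g x hx hgx
    apply hx
    rcases hgx with h | h
    · left; exact MulAction.injective g (h.trans (hgp g).symm)
    · right
      have h' : g • x = q := h
      exact MulAction.injective g (h'.trans (hgq g).symm)
  have hfaithS : ∀ g : ↥(MulAction.stabilizer Cfsg.M24 p ⊓ MulAction.stabilizer Cfsg.M24 q),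
      ∀ S : Set Cfsg.GolayPt, S ⊆ (({p, q} : Set Cfsg.GolayPt)ᶜ) → S.ncard = 11 →
      (∀ x ∈ S, g • x = x) → g = 1 := by
    intro g S hS hSn hfix
    have h1 := Cfsg.Agent.Lib.Helper1.eq_one_of_fix10
      ((g : Cfsg.M24) : Equiv.Perm Cfsg.GolayPt) (g : Cfsg.M24).2 S.toFinset
      (by rw [← Set.ncard_eq_toFinset_card']; omega)
      (fun x hx => hfix x (Set.mem_toFinset.1 hx))
    exact Subtype.ext (Subtype.ext h1)
  have hfaith : ∀ g : ↥(MulAction.stabilizer Cfsg.M24 p ⊓ MulAction.stabilizer Cfsg.M24 q),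
      (∀ x ∈ (({p, q} : Set Cfsg.GolayPt)ᶜ), g • x = x) → g = 1 := by
    intro g hg
    obtain ⟨S, hS, hSn⟩ := Set.exists_subset_card_eq (s := (({p, q} : Set Cfsg.GolayPt)ᶜ))
      (n := 11) (by rw [hXn]; norm_num)
    exact hfaithS g S hS hSn (fun x hx => hg x (hS hx))
  have conv : ∀ a, a ∈ (({p, q} : Set Cfsg.GolayPt)ᶜ) → a ∉ ({p, q} : Finset Cfsg.GolayPt) := by
    intro a ha h
    apply ha
    simp only [Finset.mem_insert, Finset.mem_singleton] at h
    exact h
  have h2 : ∀ a ∈ (({p, q} : Set Cfsg.GolayPt)ᶜ), ∀ b ∈ (({p, q} : Set Cfsg.GolayPt)ᶜ),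
      ∀ c ∈ (({p, q} : Set Cfsg.GolayPt)ᶜ), ∀ d ∈ (({p, q} : Set Cfsg.GolayPt)ᶜ), a ≠ b → c ≠ d →
      ∃ g : ↥(MulAction.stabilizer Cfsg.M24 p ⊓ MulAction.stabilizer Cfsg.M24 q),
        g • a = c ∧ g • b = d := by
    intro a ha b hb c hc d hd hab hcd
    obtain ⟨g, hg, hgF, hga, hgb⟩ := Cfsg.Agent.Lib.Helper1.M24_fix_2trans {p, q}
      (Finset.card_le_two.trans (by norm_num)) a b c d (conv a ha) (conv b hb) (conv c hc)
      (conv d hd) hab hcd
    exact ⟨⟨⟨g, hg⟩, Subgroup.mem_inf.2 ⟨hgF p (by simp), hgF q (by simp)⟩⟩, hga, hgb⟩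
  have hdiv : ∀ N : Subgroup ↥(MulAction.stabilizer Cfsg.M24 p ⊓ MulAction.stabilizer Cfsg.M24 q),
      N.Normal → N ≠ ⊥ → 11 ∣ Nat.card N := by
    intro N hN hne
    have h := Cfsg.Agent.Lib.Helper1.ncard_dvd_card_normal (({p, q} : Set Cfsg.GolayPt)ᶜ)
      hinv hfaith h2 N hN hne
    rw [hXn] at h
    exact (by norm_num : 11 ∣ 22).trans h
  have hNorm : ∀ P : Sylow 11 ↥(MulAction.stabilizer Cfsg.M24 p ⊓ MulAction.stabilizer Cfsg.M24 q),
      Nat.card (Subgroup.normalizer ((P : Subgroup ↥(MulAction.stabilizer Cfsg.M24 p ⊓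
        MulAction.stabilizer Cfsg.M24 q)) : Set ↥(MulAction.stabilizer Cfsg.M24 p ⊓
        MulAction.stabilizer Cfsg.M24 q))) = 11 * 5 := by
    intro P
    have hP : Nat.card (P : Subgroup ↥(MulAction.stabilizer Cfsg.M24 p ⊓
        MulAction.stabilizer Cfsg.M24 q)) = 11 := by
      rw [Sylow.card_eq_multiplicity, hcard]
      have h1 : (11 * 40320).factorization 11 = 1 := by
        rw [Nat.factorization_mul (by norm_num) (by norm_num), Finsupp.add_apply,
          Nat.Prime.factorization_self (by norm_num),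
          Nat.factorization_eq_zero_of_not_dvd (by norm_num)]
      rw [h1, pow_one]
    exact Cfsg.Agent.Lib.Helper1.card_normalizer_of_arith hcard (by norm_num) P hP
      (Cfsg.Agent.Lib.Helper1.card_centralizer_sylow_two (({p, q} : Set Cfsg.GolayPt)ᶜ)
        (Set.toFinite _) (by rw [hXn]) hinv hfaithS P hP) (by
        intro e he _ h
        have hle : e ≤ 20 := Nat.le_of_dvd (by norm_num) he
        exact arith22 e hle he h)
  exact Cfsg.Agent.Lib.Helper1.simple_of_sylow (p := 11) (q := 5) (m := 40320) (by norm_num)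
    hcard (by norm_num) (by norm_num) hNorm hdiv

end Cfsg.Agent.S0379
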