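import Cfsg.Statements.S0387
import Mathlib
import Cfsg.Agent.Lib.Helper1.M24Order
import Cfsg.Agent.Lib.Helper1.Steiner
import Cfsg.Agent.S0364
import Cfsg.Agent.S0368
import Cfsg.Agent.S0361

set_option autoImplicit false
open scoped Pointwise
open Cfsg

namespace Cfsg.Agent.S0387


open Cfsg.Agent.Lib.Helper1 in
/-- For each point of the base dodecad, a word stabilising the dodecad and carrying the base
point to it. -/
def cert12 : List (ℕ × List ℕ) := [(0, []),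
  (2, [4, 0, 3, 0, 4, 0, 4]),
  (3, [3, 1, 3, 1, 4, 1, 3]),
  (4, [0, 3, 1, 1, 4, 1, 2, 0]),
  (6, [0, 0, 4, 0, 0, 0, 2, 0]),
  (7, [4, 2, 0, 0, 2, 1, 3, 1]),
  (8, [1, 2, 0, 3, 0, 4, 2, 0, 0]),
  (9, [3, 3, 2, 0, 4, 2, 1, 1]),
  (10, [3, 1, 1, 4, 4, 1, 3, 0]),
  (11, [1, 2, 0, 3, 0, 0, 4, 1]),
  (13, [1, 4, 1, 1, 4, 1, 3, 3]),
  (14, [0, 3, 1, 4, 2, 0, 0])]

open Cfsg.Agent.Lib.Helper1 in
set_option maxRecDepth 100000 in
theorem cert12_ok : cert12.all (fun e => wordIdx e.2 0 == e.1 && (List.range 24).all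
    (fun j => (28637 : ℕ).testBit (wordIdx e.2 j) == (28637 : ℕ).testBit j)) = true := by
  decide +kernel

open Cfsg.Agent.Lib.Helper1 in
set_option maxRecDepth 100000 in
theorem cert12_cover : (List.range 24).all
    (fun i => !(28637 : ℕ).testBit i || cert12.any (fun e => e.1 == i)) = true := by
  decide +kernel

open Cfsg.Agent.Lib.Helper1 in
open scoped Pointwise in
theorem flag_reach (d : Finset Cfsg.GolayPt) (hd : d ∈ Cfsg.dodecads) (p : Cfsg.GolayPt)
    (hp : p ∈ d) :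
    ∃ g ∈ Cfsg.M24, g • Cfsg.support₂ (gDec 28637) = d ∧ g (pt 0) = p := by
  obtain ⟨g₁, hg₁, rfl⟩ := Cfsg.Agent.S0368.reach d hd
  have hq : g₁⁻¹ • p ∈ Cfsg.support₂ (gDec 28637) := Finset.inv_smul_mem_iff.2 hp
  rw [mem_support_gDec] at hq
  have h1 := List.all_eq_true.1 cert12_cover (gIdx (g₁⁻¹ • p)) (List.mem_range.2 (gIdx_lt _))
  rw [hq] at h1
  simp only [Bool.not_true, Bool.false_or, List.any_eq_true, beq_iff_eq] at h1
  obtain ⟨e, he, hei⟩ := h1
  have h2 := List.all_eq_true.1 cert12_ok e he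
  rw [Bool.and_eq_true] at h2
  obtain ⟨h3, h4⟩ := h2
  refine ⟨g₁ * wordPerm e.2, Cfsg.M24.mul_mem hg₁ (wordPerm_mem _), ?_, ?_⟩
  · rw [mul_smul, word_smul_support e.2 28637 28637 h4]
  · rw [Equiv.Perm.mul_apply, wordPerm_apply _ _ (by norm_num)]
    have h5 : wordIdx e.2 0 = e.1 := by simpa using h3
    rw [h5, hei, pt_gIdx]
    simp

/-- The set of flags: a dodecad together with one of its points. -/
def flags : Set (Finset Cfsg.GolayPt × Cfsg.GolayPt) := {x | x.1 ∈ Cfsg.dodecads ∧ x.2 ∈ x.1}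

theorem flags_ncard : flags.ncard = 30912 := by
  classical
  obtain ⟨Bf, hBf, hcard⟩ := Cfsg.Agent.Lib.Helper1.exists_blockFinset Cfsg.dodecads
  rw [Cfsg.Agent.S0361.result] at hcard
  have hset : flags = ↑((Bf ×ˢ (Finset.univ : Finset Cfsg.GolayPt)).filter (fun x => x.2 ∈ x.1)) := by
    ext x
    simp only [flags, Set.mem_setOf_eq, Finset.coe_filter, Finset.mem_product, Finset.mem_univ,
      and_true, hBf]
  rw [hset, Set.ncard_coe_finset, Finset.card_filter, Finset.sum_product]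
  have h1 : ∀ d ∈ Bf, (∑ p : Cfsg.GolayPt, if p ∈ d then 1 else 0) = 12 := by
    intro d hd
    rw [Finset.sum_boole]
    have : (Finset.univ.filter (fun p => p ∈ d)) = d := by
      ext p; simp
    rw [this]
    exact_mod_cast ((hBf d).1 hd).2
  rw [Finset.sum_congr rfl h1, Finset.sum_const, ← hcard]
  rfl

open scoped Pointwise in
theorem orbit_flag (d : Finset Cfsg.GolayPt) (hd : d ∈ Cfsg.dodecads) (p : Cfsg.GolayPt)
    (hp : p ∈ d) : MulAction.orbit ↥Cfsg.M24 (d, p) = flags := by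
  classical
  ext x
  constructor
  · rintro ⟨g, rfl⟩
    refine ⟨⟨Cfsg.Agent.Lib.Helper1.M24_smul_mem g.1 g.2 d hd.1, ?_⟩, ?_⟩
    · show ((g : Equiv.Perm Cfsg.GolayPt) • d).card = 12
      rw [Finset.card_smul_finset]
      exact hd.2
    · show (g : Equiv.Perm Cfsg.GolayPt) • p ∈ (g : Equiv.Perm Cfsg.GolayPt) • d
      exact Finset.smul_mem_smul_finset hp
  · rintro ⟨hx1, hx2⟩
    obtain ⟨g, hg, hgd, hgp⟩ := flag_reach d hd p hp
    obtain ⟨g', hg', hgd', hgp'⟩ := flag_reach x.1 hx1 x.2 hx2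
    refine ⟨⟨g' * g⁻¹, Cfsg.M24.mul_mem hg' (Cfsg.M24.inv_mem hg)⟩, ?_⟩
    apply Prod.ext
    · show (g' * g⁻¹) • d = x.1
      rw [← hgd, mul_smul, inv_smul_smul, hgd']
    · show (g' * g⁻¹) p = x.2
      rw [← hgp, Equiv.Perm.mul_apply]
      simp [hgp']

/-- The stabiliser of a dodecad and a point on it has order 7920 = 2^4·3^2·5·11. -/
theorem result (d : Finset Cfsg.GolayPt) (hd : d ∈ Cfsg.dodecads) (p : Cfsg.GolayPt) (hp : p ∈ d) : Nat.card ↥(MulAction.stabilizer Cfsg.M24 d ⊓ MulAction.stabilizer Cfsg.M24 p) = 7920 := by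
  have hidx := MulAction.index_stabilizer (G := ↥Cfsg.M24) (x := (d, p))
  rw [orbit_flag d hd p hp, flags_ncard] at hidx
  have heq : MulAction.stabilizer ↥Cfsg.M24 (d, p)
      = MulAction.stabilizer ↥Cfsg.M24 d ⊓ MulAction.stabilizer ↥Cfsg.M24 p := by
    ext g
    rw [Subgroup.mem_inf, MulAction.mem_stabilizer_iff, MulAction.mem_stabilizer_iff,
      MulAction.mem_stabilizer_iff, Prod.smul_mk, Prod.mk.injEq]
  rw [heq] at hidx
  have hmul := Subgroup.card_mul_index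
    (MulAction.stabilizer ↥Cfsg.M24 d ⊓ MulAction.stabilizer ↥Cfsg.M24 p)
  rw [hidx, Cfsg.Agent.S0364.result] at hmul
  omega

end Cfsg.Agent.S0387
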