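import Cfsg.Statements.S0388
import Mathlib
import Cfsg.Agent.Lib.Helper1.M12Simple
import Cfsg.Agent.S0387

set_option autoImplicit false
open scoped Pointwise
open Cfsg

namespace Cfsg.Agent.S0388


open scoped Pointwise in
theorem key (d : Finset Cfsg.GolayPt) (hd : d ∈ Cfsg.dodecads) (p : Cfsg.GolayPt) (hp : p ∈ d) :
    IsSimpleGroup ↥(MulAction.stabilizer Cfsg.M24 d ⊓ MulAction.stabilizer Cfsg.M24 p) := by
  classical
  haveI : Fact (Nat.Prime 11) := ⟨by norm_num⟩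
  have hcard : Nat.card ↥(MulAction.stabilizer Cfsg.M24 d ⊓ MulAction.stabilizer Cfsg.M24 p)
      = 11 * 720 := by
    rw [Cfsg.Agent.S0387.result d hd p hp]
  have hXn : ((d.erase p : Finset Cfsg.GolayPt) : Set Cfsg.GolayPt).ncard = 11 := by
    rw [Set.ncard_coe_finset, Finset.card_erase_of_mem hp, hd.2]
  have hgd : ∀ g : ↥(MulAction.stabilizer Cfsg.M24 d ⊓ MulAction.stabilizer Cfsg.M24 p),
      ((g : Cfsg.M24) : Equiv.Perm Cfsg.GolayPt) • d = d := fun g => (Subgroup.mem_inf.1 g.2).1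
  have hgp : ∀ g : ↥(MulAction.stabilizer Cfsg.M24 d ⊓ MulAction.stabilizer Cfsg.M24 p),
      g • p = p := fun g => (Subgroup.mem_inf.1 g.2).2
  have hinv : ∀ g : ↥(MulAction.stabilizer Cfsg.M24 d ⊓ MulAction.stabilizer Cfsg.M24 p),
      ∀ x ∈ ((d.erase p : Finset Cfsg.GolayPt) : Set Cfsg.GolayPt),
      g • x ∈ ((d.erase p : Finset Cfsg.GolayPt) : Set Cfsg.GolayPt) := by
    intro g x hx
    rw [Finset.mem_coe, Finset.mem_erase] at hx ⊢
    refine ⟨?_, ?_⟩
    · intro h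
      have h1 : g • x = g • p := by rw [hgp g]; exact h
      exact hx.1 (MulAction.injective g h1)
    · have h1 : ((g : Cfsg.M24) : Equiv.Perm Cfsg.GolayPt) • x
          ∈ ((g : Cfsg.M24) : Equiv.Perm Cfsg.GolayPt) • d := Finset.smul_mem_smul_finset hx.2
      rw [hgd g] at h1
      exact h1
  have hfaith : ∀ g : ↥(MulAction.stabilizer Cfsg.M24 d ⊓ MulAction.stabilizer Cfsg.M24 p),
      (∀ x ∈ ((d.erase p : Finset Cfsg.GolayPt) : Set Cfsg.GolayPt), g • x = x) → g = 1 := by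
    intro g hg
    have h1 := Cfsg.Agent.Lib.Helper1.faithful_dodecad d hd
      ((g : Cfsg.M24) : Equiv.Perm Cfsg.GolayPt) (g : Cfsg.M24).2 (hgd g) (by
        intro x hx
        by_cases hxp : x = p
        · rw [hxp]; exact hgp g
        · exact hg x (Finset.mem_coe.2 (Finset.mem_erase.2 ⟨hxp, hx⟩)))
    exact Subtype.ext (Subtype.ext h1)
  have h2 : ∀ a ∈ ((d.erase p : Finset Cfsg.GolayPt) : Set Cfsg.GolayPt),
      ∀ b ∈ ((d.erase p : Finset Cfsg.GolayPt) : Set Cfsg.GolayPt),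
      ∀ c ∈ ((d.erase p : Finset Cfsg.GolayPt) : Set Cfsg.GolayPt),
      ∀ e ∈ ((d.erase p : Finset Cfsg.GolayPt) : Set Cfsg.GolayPt), a ≠ b → c ≠ e →
      ∃ g : ↥(MulAction.stabilizer Cfsg.M24 d ⊓ MulAction.stabilizer Cfsg.M24 p),
        g • a = c ∧ g • b = e := by
    intro a ha b hb c hc e he hab hce
    rw [Finset.mem_coe, Finset.mem_erase] at ha hb hc he
    obtain ⟨g, hg, hgd', hgp', hga, hgb⟩ := Cfsg.Agent.Lib.Helper1.M11_2trans d hd p hp a b c e
      ha.2 hb.2 hc.2 he.2 ha.1 hb.1 hc.1 he.1 hab hce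
    exact ⟨⟨⟨g, hg⟩, Subgroup.mem_inf.2 ⟨hgd', hgp'⟩⟩, hga, hgb⟩
  exact Cfsg.Agent.Lib.Helper1.simple_of_sylow_action (p := 11) (q := 5) (m := 720)
    (by norm_num) hcard (by norm_num) (by norm_num)
    ((d.erase p : Finset Cfsg.GolayPt) : Set Cfsg.GolayPt) (Set.toFinite _) hXn hinv hfaith h2
    (by
      intro e he _ h
      have hle : e ≤ 10 := Nat.le_of_dvd (by norm_num) he
      exact Cfsg.Agent.Lib.Helper1.arith11 e hle he h)

/-- The stabiliser of a dodecad and a point on it is simple. -/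
theorem result (d : Finset Cfsg.GolayPt) (hd : d ∈ Cfsg.dodecads) (p : Cfsg.GolayPt) (hp : p ∈ d) : IsSimpleGroup ↥(MulAction.stabilizer Cfsg.M24 d ⊓ MulAction.stabilizer Cfsg.M24 p) := by
  exact key d hd p hp

end Cfsg.Agent.S0388
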