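import Cfsg.Statements.S0383
import Mathlib
import Cfsg.Agent.Lib.Helper1.M12Simple
import Cfsg.Agent.S0388

set_option autoImplicit false
open scoped Pointwise
open Cfsg

namespace Cfsg.Agent.S0383


open scoped Pointwise in
theorem key (d : Finset Cfsg.GolayPt) (hd : d ∈ Cfsg.dodecads) :
    IsSimpleGroup (MulAction.stabilizer Cfsg.M24 d) := by
  classical
  have hXn : ((d : Finset Cfsg.GolayPt) : Set Cfsg.GolayPt).ncard = 12 := by
    rw [Set.ncard_coe_finset, hd.2]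
  have hinv : ∀ g : MulAction.stabilizer Cfsg.M24 d,
      ∀ x ∈ ((d : Finset Cfsg.GolayPt) : Set Cfsg.GolayPt),
      g • x ∈ ((d : Finset Cfsg.GolayPt) : Set Cfsg.GolayPt) := by
    intro g x hx
    rw [Finset.mem_coe] at hx ⊢
    have h1 : ((g : Cfsg.M24) : Equiv.Perm Cfsg.GolayPt) • x
        ∈ ((g : Cfsg.M24) : Equiv.Perm Cfsg.GolayPt) • d := Finset.smul_mem_smul_finset hx
    have hgd : ((g : Cfsg.M24) : Equiv.Perm Cfsg.GolayPt) • d = d := g.2
    rw [hgd] at h1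
    exact h1
  have hfaith : ∀ g : MulAction.stabilizer Cfsg.M24 d,
      (∀ x ∈ ((d : Finset Cfsg.GolayPt) : Set Cfsg.GolayPt), g • x = x) → g = 1 := by
    intro g hg
    have h1 := Cfsg.Agent.Lib.Helper1.faithful_dodecad d hd
      ((g : Cfsg.M24) : Equiv.Perm Cfsg.GolayPt) (g : Cfsg.M24).2 g.2
      (fun x hx => hg x (Finset.mem_coe.2 hx))
    exact Subtype.ext (Subtype.ext h1)
  have h2 : ∀ a ∈ ((d : Finset Cfsg.GolayPt) : Set Cfsg.GolayPt),
      ∀ b ∈ ((d : Finset Cfsg.GolayPt) : Set Cfsg.GolayPt),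
      ∀ c ∈ ((d : Finset Cfsg.GolayPt) : Set Cfsg.GolayPt),
      ∀ e ∈ ((d : Finset Cfsg.GolayPt) : Set Cfsg.GolayPt), a ≠ b → c ≠ e →
      ∃ g : MulAction.stabilizer Cfsg.M24 d, g • a = c ∧ g • b = e := by
    intro a ha b hb c hc e he hab hce
    rw [Finset.mem_coe] at ha hb hc he
    obtain ⟨g, hg, hgd', hga, hgb⟩ := Cfsg.Agent.Lib.Helper1.M12_2trans d hd a b c e
      ha hb hc he hab hce
    exact ⟨⟨⟨g, hg⟩, hgd'⟩, hga, hgb⟩
  obtain ⟨a, ha⟩ : d.Nonempty := Finset.card_pos.1 (by rw [hd.2]; norm_num)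
  haveI := Cfsg.Agent.S0388.result d hd a ha
  exact Cfsg.Agent.Lib.Helper1.simple_of_stab_simple
    ((d : Finset Cfsg.GolayPt) : Set Cfsg.GolayPt) hinv hfaith h2
    (by rw [hXn]; exact Cfsg.Agent.Lib.Helper1.not_pp12) a (Finset.mem_coe.2 ha)
    (Cfsg.Agent.Lib.Helper1.stabEquiv d a).isSimpleGroup

/-- A dodecad stabiliser in the group of the length-24 code is simple. -/
theorem result (d : Finset Cfsg.GolayPt) (hd : d ∈ Cfsg.dodecads) : IsSimpleGroup (MulAction.stabilizer Cfsg.M24 d) := by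
  exact key d hd

end Cfsg.Agent.S0383
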