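import Cfsg.Statements.S0386
import Mathlib
import Cfsg.Agent.Lib.Helper1.Steiner
import Cfsg.Agent.Lib.Helper1.GolayEnum
import Cfsg.Agent.S0359
import Cfsg.Agent.S0363

set_option autoImplicit false
open Cfsg

namespace Cfsg.Agent.S0386


theorem key6 : ∀ m : ℕ, (m = 2 ∨ m = 4 ∨ m = 6) →
    8 * (if m = 6 then 1 else 0) + 5 * Nat.choose m 1 = 2 * Nat.choose m 2 + 8 * Nat.choose m 0 := by
  rintro m (rfl | rfl | rfl) <;> decide

theorem key2 : ∀ m : ℕ, (m = 2 ∨ m = 4 ∨ m = 6) →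
    8 * (if m = 2 then 1 else 0) + 9 * Nat.choose m 1 = 2 * Nat.choose m 2 + 24 * Nat.choose m 0 := by
  rintro m (rfl | rfl | rfl) <;> decide

theorem key4 : ∀ m : ℕ, (m = 2 ∨ m = 4 ∨ m = 6) →
    4 * (if m = 4 then 1 else 0) + 2 * Nat.choose m 2 + 12 * Nat.choose m 0 = 7 * Nat.choose m 1 := by
  rintro m (rfl | rfl | rfl) <;> decide

/-- An octad meets a dodecad in 2, 4 or 6 points. -/
theorem inter_dodecad (d c : Finset Cfsg.GolayPt) (hd : d ∈ Cfsg.dodecads) (hc : c ∈ Cfsg.octads) :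
    (d ∩ c).card = 2 ∨ (d ∩ c).card = 4 ∨ (d ∩ c).card = 6 := by
  obtain ⟨⟨v, hv, rfl⟩, hvc⟩ := hc
  obtain ⟨⟨w, hw, rfl⟩, hwc⟩ := hd
  have h1 := Cfsg.Agent.S0359.result (v + w) (Submodule.add_mem _ hv hw)
  have h2 : hammingNorm (v + w) = (Cfsg.support₂ (v + w)).card := rfl
  rw [h2, Cfsg.Agent.S0363.support_add] at h1
  have e1 := Finset.card_sdiff_add_card_inter (Cfsg.support₂ v) (Cfsg.support₂ w)
  have e2 := Finset.card_sdiff_add_card_inter (Cfsg.support₂ w) (Cfsg.support₂ v)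
  rw [Finset.inter_comm (Cfsg.support₂ v) (Cfsg.support₂ w)] at e1
  have e3 : (symmDiff (Cfsg.support₂ v) (Cfsg.support₂ w)).card
      = (Cfsg.support₂ v \ Cfsg.support₂ w).card + (Cfsg.support₂ w \ Cfsg.support₂ v).card := by
    rw [symmDiff_def]
    exact Finset.card_union_of_disjoint disjoint_sdiff_sdiff
  have hle : (Cfsg.support₂ w ∩ Cfsg.support₂ v).card ≤ 8 := by
    rw [← hvc]; exact Finset.card_le_card Finset.inter_subset_right
  omega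

/-- For a fixed dodecad, 132 octads meet it in 6 points, 132 in 2 points and 495 in 4 points. -/
theorem result (d : Finset Cfsg.GolayPt) (hd : d ∈ Cfsg.dodecads) : {o : Finset Cfsg.GolayPt | o ∈ Cfsg.octads ∧ (o ∩ d).card = 6}.ncard = 132 ∧ {o : Finset Cfsg.GolayPt | o ∈ Cfsg.octads ∧ (o ∩ d).card = 2}.ncard = 132 ∧ {o : Finset Cfsg.GolayPt | o ∈ Cfsg.octads ∧ (o ∩ d).card = 4}.ncard = 495 := by
  classical
  have hS := Cfsg.Agent.S0363.result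
  obtain ⟨Bf, hBf, -⟩ := Cfsg.Agent.Lib.Helper1.exists_blockFinset Cfsg.octads
  have hα : Fintype.card Cfsg.GolayPt = 24 := by decide
  have e0 := Cfsg.Agent.Lib.Helper1.steiner_inter_sum hS Bf hBf d 0 (by norm_num)
  have e1 := Cfsg.Agent.Lib.Helper1.steiner_inter_sum hS Bf hBf d 1 (by norm_num)
  have e2 := Cfsg.Agent.Lib.Helper1.steiner_inter_sum hS Bf hBf d 2 (by norm_num)
  obtain ⟨S0, hS0⟩ : ∃ S, S = ∑ c ∈ Bf, Nat.choose (d ∩ c).card 0 := ⟨_, rfl⟩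
  obtain ⟨S1, hS1⟩ : ∃ S, S = ∑ c ∈ Bf, Nat.choose (d ∩ c).card 1 := ⟨_, rfl⟩
  obtain ⟨S2, hS2⟩ : ∃ S, S = ∑ c ∈ Bf, Nat.choose (d ∩ c).card 2 := ⟨_, rfl⟩
  rw [← hS0, hd.2, hα] at e0
  rw [← hS1, hd.2, hα] at e1
  rw [← hS2, hd.2, hα] at e2
  norm_num [Nat.choose] at e0 e1 e2
  have hm : ∀ c ∈ Bf, (d ∩ c).card = 2 ∨ (d ∩ c).card = 4 ∨ (d ∩ c).card = 6 :=
    fun c hc => inter_dodecad d c hd ((hBf c).1 hc)
  have hset : ∀ k : ℕ, {o : Finset Cfsg.GolayPt | o ∈ Cfsg.octads ∧ (o ∩ d).card = k}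
      = ↑(Bf.filter (fun c => (d ∩ c).card = k)) := by
    intro k
    ext o
    simp only [Set.mem_setOf_eq, Finset.coe_filter, hBf, Finset.inter_comm o d]
  have h6 := Finset.sum_congr (s₁ := Bf) rfl (fun c hc => key6 _ (hm c hc))
  have h2 := Finset.sum_congr (s₁ := Bf) rfl (fun c hc => key2 _ (hm c hc))
  have h4 := Finset.sum_congr (s₁ := Bf) rfl (fun c hc => key4 _ (hm c hc))
  simp only [Finset.sum_add_distrib, ← Finset.mul_sum] at h6 h2 h4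
  rw [← hS0, ← hS1, ← hS2, ← Finset.card_filter] at h6 h2 h4
  rw [hset 6, hset 2, hset 4, Set.ncard_coe_finset, Set.ncard_coe_finset, Set.ncard_coe_finset]
  refine ⟨?_, ?_, ?_⟩ <;> omega

end Cfsg.Agent.S0386
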