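import Cfsg.Statements.S0385
import Mathlib
import Cfsg.Agent.S0363
import Cfsg.Agent.S0386

set_option autoImplicit false
open Cfsg

namespace Cfsg.Agent.S0385


/-- The 6-point intersections of octads with a fixed dodecad form a Steiner system S(5, 6, 12) on the dodecad. -/
theorem result (d : Finset Cfsg.GolayPt) (hd : d ∈ Cfsg.dodecads) : Cfsg.IsSteinerSystem 5 6 {h : Finset {p : Cfsg.GolayPt // p ∈ d} | ∃ o ∈ Cfsg.octads, (o ∩ d).card = 6 ∧ h = Finset.subtype (fun p => p ∈ d) o} := by
  classical
  have hS := Cfsg.Agent.S0363.result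
  refine ⟨?_, ?_⟩
  · rintro b ⟨o, ho, hcard, rfl⟩
    rw [Finset.card_subtype, Finset.filter_mem_eq_inter]
    exact hcard
  · intro s hs
    set s' : Finset Cfsg.GolayPt := s.map (Function.Embedding.subtype _) with hs'
    have hs'c : s'.card = 5 := by rw [hs', Finset.card_map, hs]
    have hs'd : s' ⊆ d := by
      intro x hx
      rw [hs', Finset.mem_map] at hx
      obtain ⟨y, -, rfl⟩ := hx
      exact y.2
    obtain ⟨o, ⟨ho, hso⟩, huniq⟩ := hS.2 s' hs'c
    have h5 : 5 ≤ (d ∩ o).card := by
      rw [← hs'c]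
      exact Finset.card_le_card (Finset.subset_inter hs'd hso)
    have h6 : (d ∩ o).card = 6 := by
      rcases Cfsg.Agent.S0386.inter_dodecad d o hd ho with h | h | h <;> omega
    refine ⟨Finset.subtype (fun p => p ∈ d) o, ⟨⟨o, ho, by rw [Finset.inter_comm]; exact h6, rfl⟩, ?_⟩, ?_⟩
    · intro x hx
      rw [Finset.mem_subtype]
      apply hso
      rw [hs', Finset.mem_map]
      exact ⟨x, hx, rfl⟩
    · rintro b' ⟨⟨o', ho', -, rfl⟩, hsb⟩
      have : o' = o := by
        apply huniq
        refine ⟨ho', ?_⟩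
        intro x hx
        rw [hs', Finset.mem_map] at hx
        obtain ⟨y, hy, rfl⟩ := hx
        have := hsb hy
        rw [Finset.mem_subtype] at this
        exact this
      rw [this]

end Cfsg.Agent.S0385
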