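import Cfsg.Statements.S0389
import Mathlib
import Cfsg.Agent.Lib.Helper1.M12Chain
import Cfsg.Agent.S0387

set_option autoImplicit false
open scoped Pointwise
open Cfsg

namespace Cfsg.Agent.S0389


open Cfsg.Agent.Lib.Helper1 in
open scoped Pointwise in
theorem exists3 (d : Finset Cfsg.GolayPt) (hd : d ∈ Cfsg.dodecads) (p : Cfsg.GolayPt)
    (hp : p ∈ d) (x y : Fin 3 ↪ Cfsg.GolayPt)
    (hx : ∀ i, x i ∉ d) (hy : ∀ i, y i ∉ d) :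
    ∃ g ∈ Cfsg.M24, g • d = d ∧ g p = p ∧ ∀ i, g (x i) = y i := by
  obtain ⟨g₁, hg₁, rfl, rfl⟩ := Cfsg.Agent.S0387.flag_reach d hd p hp
  have hxd : ∀ i, g₁⁻¹ (x i) ∈ S DC := fun i =>
    (mem_S_DC _).2 (fun h => hx i (Finset.inv_smul_mem_iff.1 h))
  have hyd : ∀ i, g₁⁻¹ (y i) ∈ S DC := fun i =>
    (mem_S_DC _).2 (fun h => hy i (Finset.inv_smul_mem_iff.1 h))
  obtain ⟨g, hg, hM, hP, hxy⟩ := chain_trans lv11_ok (List.mem_cons_self) rfl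
    (fun i => g₁⁻¹ (x i)) (fun i => g₁⁻¹ (y i))
    (fun i j h => x.injective (g₁⁻¹.injective h)) (fun i j h => y.injective (g₁⁻¹.injective h))
    hxd hyd
  refine ⟨g₁ * g * g₁⁻¹, Cfsg.M24.mul_mem (Cfsg.M24.mul_mem hg₁ hg) (Cfsg.M24.inv_mem hg₁),
    ?_, ?_, ?_⟩
  · have h1 := hM D0 (by simp)
    show (g₁ * g * g₁⁻¹) • g₁ • S D0 = g₁ • S D0
    rw [mul_smul, mul_smul, inv_smul_smul, h1]
  · have h1 := hP 0 (by simp)
    rw [Equiv.Perm.mul_apply, Equiv.Perm.mul_apply]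
    simp [h1]
  · intro i
    have h1 : g (g₁⁻¹ (x i)) = g₁⁻¹ (y i) := hxy i
    rw [Equiv.Perm.mul_apply, Equiv.Perm.mul_apply, h1]
    simp

/-- The stabiliser of a dodecad and a point on it is 3-transitive on the complementary dodecad. -/
theorem result (d : Finset Cfsg.GolayPt) (hd : d ∈ Cfsg.dodecads) (p : Cfsg.GolayPt) (hp : p ∈ d) (x y : Fin 3 ↪ Cfsg.GolayPt) (hx : ∀ i, x i ∉ d) (hy : ∀ i, y i ∉ d) : ∃ g ∈ MulAction.stabilizer Cfsg.M24 d ⊓ MulAction.stabilizer Cfsg.M24 p, ∀ i, (g : Equiv.Perm Cfsg.GolayPt) (x i) = y i := by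
  obtain ⟨k, hk, hkd, hkp, hkx⟩ := exists3 d hd p hp x y hx hy
  exact ⟨⟨k, hk⟩, Subgroup.mem_inf.2 ⟨hkd, hkp⟩, hkx⟩

end Cfsg.Agent.S0389
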