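import Cfsg.Statements.S0392
import Mathlib
import Cfsg.Agent.Lib.Helper1.Leech

set_option autoImplicit false
open Cfsg

namespace Cfsg.Agent.S0392


theorem sq16 (x : Cfsg.GolayPt → ℤ) (hx : x ∈ Cfsg.leechSet) : (16 : ℤ) ∣ ∑ i, x i ^ 2 := by
  classical
  obtain ⟨m, h1, h2, h3⟩ := hx
  by_cases hm : m ≡ 0 [ZMOD 2]
  · have hpt : ∀ i, ∃ q : ℤ, x i ^ 2 = 4 * (if x i ≡ 2 [ZMOD 4] then 1 else 0) + 16 * q := by
      intro i
      have a1 := h1 i
      by_cases h : x i ≡ 2 [ZMOD 4]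
      · rw [if_pos h]
        obtain ⟨a, ha⟩ : ∃ a : ℤ, x i = 4 * a + 2 := ⟨(x i - 2) / 4, by unfold Int.ModEq at *; omega⟩
        exact ⟨a ^ 2 + a, by rw [ha]; ring⟩
      · rw [if_neg h]
        obtain ⟨a, ha⟩ : ∃ a : ℤ, x i = 4 * a := ⟨x i / 4, by unfold Int.ModEq at *; omega⟩
        exact ⟨a ^ 2, by rw [ha]; ring⟩
    choose q hq using hpt
    rw [Finset.sum_congr rfl (fun i _ => hq i), Finset.sum_add_distrib, ← Finset.mul_sum,
      ← Finset.mul_sum, Finset.sum_boole]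
    obtain ⟨a, ha⟩ := Cfsg.Agent.Lib.Helper1.gSupp_card4 (h3 2)
    rw [ha]
    exact ⟨a + ∑ i, q i, by push_cast; ring⟩
  · have hpt : ∀ i, ∃ q : ℤ, x i ^ 2 = 2 * x i - 1 + 4 * (if x i ≡ 3 [ZMOD 4] then 1 else 0) + 16 * q := by
      intro i
      have a1 := h1 i
      by_cases h : x i ≡ 3 [ZMOD 4]
      · rw [if_pos h]
        obtain ⟨a, ha⟩ : ∃ a : ℤ, x i = 4 * a + 3 := ⟨(x i - 3) / 4, by unfold Int.ModEq at *; omega⟩
        exact ⟨a ^ 2 + a, by rw [ha]; ring⟩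
      · rw [if_neg h]
        obtain ⟨a, ha⟩ : ∃ a : ℤ, x i = 4 * a + 1 := ⟨(x i - 1) / 4, by unfold Int.ModEq at *; omega⟩
        exact ⟨a ^ 2, by rw [ha]; ring⟩
    choose q hq using hpt
    rw [Finset.sum_congr rfl (fun i _ => hq i), Finset.sum_add_distrib, Finset.sum_add_distrib,
      Finset.sum_sub_distrib, ← Finset.mul_sum, ← Finset.mul_sum, ← Finset.mul_sum, Finset.sum_boole]
    obtain ⟨a, ha⟩ := Cfsg.Agent.Lib.Helper1.gSupp_card4 (h3 3)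
    rw [ha]
    have hcard : ∑ _i : Cfsg.GolayPt, (1 : ℤ) = 24 := by
      rw [Finset.sum_const, Finset.card_univ]
      have : Fintype.card Cfsg.GolayPt = 24 := by decide
      rw [this]; norm_num
    rw [hcard]
    obtain ⟨s, hs⟩ : ∃ s : ℤ, ∑ i, x i = 4 + 8 * s :=
      ⟨(∑ i, x i - 4) / 8, by unfold Int.ModEq at *; omega⟩
    rw [hs]
    exact ⟨s - 1 + a + ∑ i, q i, by push_cast; ring⟩

/-- Sum of squares of every lattice vector is divisible by 16 (even lattice at scale 1/8). -/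
theorem result (x : Cfsg.GolayPt → ℤ) (hx : x ∈ Cfsg.leechLattice) : (16 : ℤ) ∣ Cfsg.sqNorm x := by
  rw [Cfsg.Agent.Lib.Helper1.mem_leechLattice_iff] at hx
  exact sq16 x hx

end Cfsg.Agent.S0392
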