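import Cfsg.Statements.S0391
import Mathlib
import Cfsg.Agent.Lib.Helper1.Leech
import Cfsg.Agent.S0392

set_option autoImplicit false
open Cfsg

namespace Cfsg.Agent.S0391


theorem sq_pos_of_ne (x : Cfsg.GolayPt → ℤ) (h0 : x ≠ 0) : 0 < ∑ i, x i ^ 2 := by
  obtain ⟨i, hi⟩ : ∃ i, x i ≠ 0 := by
    by_contra hne
    apply h0
    funext i
    by_contra hi
    exact hne ⟨i, hi⟩
  have h1 : x i ^ 2 ≤ ∑ j, x j ^ 2 :=
    Finset.single_le_sum (f := fun j => x j ^ 2) (fun j _ => sq_nonneg (x j)) (Finset.mem_univ i)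
  have h2 : 0 < x i ^ 2 := by positivity
  omega

theorem sq32 (x : Cfsg.GolayPt → ℤ) (hx : x ∈ Cfsg.leechSet) (h0 : x ≠ 0) : 32 ≤ ∑ i, x i ^ 2 := by
  classical
  have h16 := Cfsg.Agent.S0392.sq16 x hx
  have hpos := sq_pos_of_ne x h0
  obtain ⟨m, h1, h2, h3⟩ := hx
  by_contra hlt
  have hs : ∑ i, x i ^ 2 = 16 := by
    obtain ⟨a, ha⟩ := h16
    omega
  by_cases hm : m ≡ 0 [ZMOD 2]
  · rcases Cfsg.Agent.Lib.Helper1.gSupp_card (h3 2) with hc | hc
    · -- all coordinates divisible by 4
      have hpt : ∀ i, ∃ q : ℤ, x i ^ 2 = 4 * x i + 32 * q := by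
        intro i
        have a1 := h1 i
        have hi : ¬ x i ≡ 2 [ZMOD 4] := by
          intro h
          have : i ∈ (Finset.univ.filter fun i => x i ≡ 2 [ZMOD 4]) := by
            simp only [Finset.mem_filter, Finset.mem_univ, true_and]; exact h
          rw [Finset.card_eq_zero.1 hc] at this
          exact absurd this (Finset.notMem_empty i)
        rcases (show (∃ b : ℤ, x i = 8 * b) ∨ (∃ b : ℤ, x i = 8 * b + 4) by
          unfold Int.ModEq at *
          rcases (show x i % 8 = 0 ∨ x i % 8 = 4 by omega) with h | h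
          · exact Or.inl ⟨x i / 8, by omega⟩
          · exact Or.inr ⟨(x i - 4) / 8, by omega⟩) with ⟨b, hb⟩ | ⟨b, hb⟩
        · exact ⟨2 * b ^ 2 - b, by rw [hb]; ring⟩
        · exact ⟨2 * b ^ 2 + b, by rw [hb]; ring⟩
      choose q hq using hpt
      rw [Finset.sum_congr rfl (fun i _ => hq i), Finset.sum_add_distrib, ← Finset.mul_sum,
        ← Finset.mul_sum] at hs
      unfold Int.ModEq at *
      omega
    · have hc8 : 8 ≤ (Finset.univ.filter fun i => x i ≡ 2 [ZMOD 4]).card := by
        rcases hc with hc | hc | hc | hc <;> omega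
      have hle : ∑ i ∈ (Finset.univ.filter fun i => x i ≡ 2 [ZMOD 4]), x i ^ 2 ≤ ∑ i, x i ^ 2 :=
        Finset.sum_le_sum_of_subset_of_nonneg (Finset.filter_subset _ _)
          (fun i _ _ => sq_nonneg (x i))
      have hge : (Finset.univ.filter fun i => x i ≡ 2 [ZMOD 4]).card • (4 : ℤ)
          ≤ ∑ i ∈ (Finset.univ.filter fun i => x i ≡ 2 [ZMOD 4]), x i ^ 2 := by
        apply Finset.card_nsmul_le_sum
        intro i hi
        rw [Finset.mem_filter] at hi
        have h := hi.2
        obtain ⟨a, ha⟩ : ∃ a : ℤ, x i = 4 * a + 2 := ⟨(x i - 2) / 4, by unfold Int.ModEq at *; omega⟩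
        rw [ha]
        have h2a : 0 < (2 * a + 1) ^ 2 := by
          have : 2 * a + 1 ≠ 0 := by omega
          positivity
        nlinarith
      rw [nsmul_eq_mul] at hge
      have : (8 : ℤ) ≤ ((Finset.univ.filter fun i => x i ≡ 2 [ZMOD 4]).card : ℤ) := by
        exact_mod_cast hc8
      omega
  · have hge : (Finset.univ : Finset Cfsg.GolayPt).card • (1 : ℤ) ≤ ∑ i, x i ^ 2 := by
      apply Finset.card_nsmul_le_sum
      intro i _
      have a1 := h1 i
      have hne : x i ≠ 0 := by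
        intro h
        rw [h] at a1
        unfold Int.ModEq at *
        omega
      have : 0 < x i ^ 2 := by positivity
      omega
    rw [Finset.card_univ, show Fintype.card Cfsg.GolayPt = 24 by decide] at hge
    have hge' : (24 : ℤ) ≤ ∑ i, x i ^ 2 := by
      simpa only [nsmul_eq_mul, mul_one, Nat.cast_ofNat] using hge
    omega

/-- Nonzero lattice vectors have sum of squares ≥ 32 (no vectors of customary norm 2). -/
theorem result (x : Cfsg.GolayPt → ℤ) (hx : x ∈ Cfsg.leechLattice) (h0 : x ≠ 0) : 32 ≤ Cfsg.sqNorm x := by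
  rw [Cfsg.Agent.Lib.Helper1.mem_leechLattice_iff] at hx
  exact sq32 x hx h0

end Cfsg.Agent.S0391
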