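import Cfsg.Statements.S0394
import Mathlib
import Cfsg.Agent.Lib.Helper1.LeechMin2

set_option autoImplicit false
open Cfsg

namespace Cfsg.Agent.S0394

/-- Exactly 196560 lattice vectors have sum of squares 32. -/
theorem result : {x : Cfsg.GolayPt → ℤ | x ∈ Cfsg.leechLattice ∧ Cfsg.sqNorm x = 32}.ncard = 196560 := by
  have h : {x : Cfsg.GolayPt → ℤ | x ∈ Cfsg.leechLattice ∧ Cfsg.sqNorm x = 32}
      = {x : Cfsg.GolayPt → ℤ | x ∈ Cfsg.leechSet ∧ Cfsg.sqNorm x = 32} := by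
    ext x
    constructor
    · rintro ⟨h1, h2⟩
      exact ⟨(Cfsg.Agent.Lib.Helper1.mem_leechLattice_iff x).1 h1, h2⟩
    · rintro ⟨h1, h2⟩
      exact ⟨(Cfsg.Agent.Lib.Helper1.mem_leechLattice_iff x).2 h1, h2⟩
  rw [h]
  exact Cfsg.Agent.Lib.Helper1.leech_min_count

end Cfsg.Agent.S0394
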