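import Cfsg.Statements.S0415
import Mathlib
import Cfsg.Agent.Lib.Helper1.Sharp4

set_option autoImplicit false
open Cfsg

namespace Cfsg.Agent.S0415

theorem inj4 {α : Type*} (a b c d : α) (h : [a, b, c, d].Nodup) :
    Function.Injective ![a, b, c, d] := by
  rw [← List.nodup_ofFn]
  exact h

/-- Degrees of sharply 4-transitive permutation groups are 4, 5, 6, 11. -/
theorem result {α : Type*} [Fintype α] [DecidableEq α] (G : Subgroup (Equiv.Perm α)) (h4 : 4 ≤ Fintype.card α) [MulAction.IsMultiplyPretransitive G α 4] (hsharp : ∀ x : Fin 4 ↪ α, MulAction.stabilizer G x = ⊥) : Fintype.card α = 4 ∨ Fintype.card α = 5 ∨ Fintype.card α = 6 ∨ Fintype.card α = 11 := by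
  by_cases hn : Fintype.card α ≤ 6
  · omega
  · right; right; right
    apply Cfsg.Agent.Lib.Helper1.sharp4_degree (G := ↥G) (Ω := α)
    · intro a b c d a' b' c' d' hnd hnd'
      obtain ⟨g, hg⟩ := MulAction.exists_smul_eq G
        (⟨![a, b, c, d], inj4 a b c d hnd⟩ : Fin 4 ↪ α)
        (⟨![a', b', c', d'], inj4 a' b' c' d' hnd'⟩ : Fin 4 ↪ α)
      exact ⟨g, congrArg (fun f : Fin 4 ↪ α => f 0) hg, congrArg (fun f : Fin 4 ↪ α => f 1) hg,
        congrArg (fun f : Fin 4 ↪ α => f 2) hg, congrArg (fun f : Fin 4 ↪ α => f 3) hg⟩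
    · intro g a b c d hnd ha hb hc hd
      have hmem : g ∈ MulAction.stabilizer G (⟨![a, b, c, d], inj4 a b c d hnd⟩ : Fin 4 ↪ α) := by
        rw [MulAction.mem_stabilizer_iff]
        apply Function.Embedding.ext
        intro i
        fin_cases i
        · exact ha
        · exact hb
        · exact hc
        · exact hd
      rw [hsharp] at hmem
      exact Subgroup.mem_bot.1 hmem
    · omega

end Cfsg.Agent.S0415
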