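import Cfsg.Statements.S0417
import Mathlib
import Cfsg.Agent.Lib.Helper1.Sharp6

set_option autoImplicit false
open Cfsg

namespace Cfsg.Agent.S0417

/-- For k ≥ 6, sharply k-transitive groups have degree k, k+1 or k+2. -/
theorem result {α : Type*} [Fintype α] [DecidableEq α] (G : Subgroup (Equiv.Perm α)) (k : ℕ) (hk : 6 ≤ k) (hn : k ≤ Fintype.card α) [MulAction.IsMultiplyPretransitive G α k] (hsharp : ∀ x : Fin k ↪ α, MulAction.stabilizer G x = ⊥) : Fintype.card α = k ∨ Fintype.card α = k + 1 ∨ Fintype.card α = k + 2 := by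
  apply Cfsg.Agent.Lib.Helper1.sharpk_degree k hk ↥G α
  · intro x y
    obtain ⟨g, hg⟩ := MulAction.exists_smul_eq G x y
    exact ⟨g, fun i => congrArg (fun f : Fin k ↪ α => f i) hg⟩
  · intro g x hg
    have hmem : g ∈ MulAction.stabilizer G x := by
      rw [MulAction.mem_stabilizer_iff]
      exact Function.Embedding.ext hg
    rw [hsharp] at hmem
    exact Subgroup.mem_bot.1 hmem
  · exact hn

end Cfsg.Agent.S0417
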