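import Cfsg.Statements.S0418
import Mathlib
import Cfsg.Agent.Lib.Helper1.Sharp

set_option autoImplicit false
open Cfsg

namespace Cfsg.Agent.S0418

/-- A sharply 4-transitive group of degree 11 is simple of order 7920. -/
theorem result {α : Type*} [Fintype α] [DecidableEq α] (hα : Fintype.card α = 11) (G : Subgroup (Equiv.Perm α)) [MulAction.IsMultiplyPretransitive G α 4] (hsharp : ∀ x : Fin 4 ↪ α, MulAction.stabilizer G x = ⊥) : Cfsg.IsM11 G := by
  haveI : Fact (Nat.Prime 11) := ⟨by norm_num⟩
  have hcard : Nat.card G = 11 * 720 := by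
    rw [Cfsg.Agent.Lib.Helper1.card_of_sharp hsharp (by rw [hα]; norm_num), hα]
    rfl
  refine ⟨?_, hcard⟩
  have hXn : (Set.univ : Set α).ncard = 11 := by
    rw [Set.ncard_univ, Nat.card_eq_fintype_card, hα]
  exact Cfsg.Agent.Lib.Helper1.simple_of_sylow_action (p := 11) (q := 5) (m := 720)
    (by norm_num) hcard (by norm_num) (by norm_num) (Set.univ : Set α) Set.finite_univ hXn
    (fun _ _ _ => Set.mem_univ _)
    (fun g hg => Subtype.ext (Equiv.ext (fun x => hg x (Set.mem_univ _))))
    (fun a _ b _ c _ d _ hab hcd => Cfsg.Agent.Lib.Helper1.two_trans_of_multiply (k := 4)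
      (by norm_num) (by rw [Nat.card_eq_fintype_card, hα]; norm_num) a b c d hab hcd)
    (by
      intro e he _ h
      exact Cfsg.Agent.Lib.Helper1.arith_11_720 e (Nat.le_of_dvd (by norm_num) he) he h)

end Cfsg.Agent.S0418
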