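import Cfsg.Statements.S0419
import Mathlib
import Cfsg.Agent.Lib.Helper1.Sharp

set_option autoImplicit false
open Cfsg

namespace Cfsg.Agent.S0419

/-- A sharply 5-transitive group of degree 12 is simple of order 95040. -/
theorem result {α : Type*} [Fintype α] [DecidableEq α] (hα : Fintype.card α = 12) (G : Subgroup (Equiv.Perm α)) [MulAction.IsMultiplyPretransitive G α 5] (hsharp : ∀ x : Fin 5 ↪ α, MulAction.stabilizer G x = ⊥) : Cfsg.IsM12 G := by
  classical
  have hcard : Nat.card G = 95040 := by
    rw [Cfsg.Agent.Lib.Helper1.card_of_sharp hsharp (by rw [hα]; norm_num), hα]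
    rfl
  refine ⟨?_, hcard⟩
  have hk5 : 5 ≤ Nat.card α := by rw [Nat.card_eq_fintype_card, hα]; norm_num
  have h2 : ∀ a b c d : α, a ≠ b → c ≠ d → ∃ g : G, g • a = c ∧ g • b = d :=
    fun a b c d hab hcd => Cfsg.Agent.Lib.Helper1.two_trans_of_multiply (k := 5)
      (by norm_num) hk5 a b c d hab hcd
  have hfaithG : ∀ g : G, (∀ x, g • x = x) → g = 1 :=
    fun g hg => Subtype.ext (Equiv.ext hg)
  obtain ⟨a⟩ : Nonempty α := Fintype.card_pos_iff.1 (by rw [hα]; norm_num)
  have hH : IsSimpleGroup (MulAction.stabilizer G a) := by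
    haveI : Fact (Nat.Prime 11) := ⟨by norm_num⟩
    have hHcard : Nat.card (MulAction.stabilizer G a) = 11 * 720 := by
      have hidx := MulAction.index_stabilizer (G := G) (x := a)
      haveI : MulAction.IsPretransitive G α := by
        rw [← MulAction.is_one_pretransitive_iff]
        exact MulAction.isMultiplyPretransitive_of_le (n := 5) (by norm_num) hk5
      rw [MulAction.orbit_eq_univ, Set.ncard_univ, Nat.card_eq_fintype_card, hα] at hidx
      have hmul := Subgroup.card_mul_index (MulAction.stabilizer G a)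
      rw [hidx, hcard] at hmul
      omega
    have hXn : ({a}ᶜ : Set α).ncard = 11 := by
      have h : ({a}ᶜ : Set α) = ↑(Finset.univ.erase a) := by
        ext x; simp
      rw [h, Set.ncard_coe_finset, Finset.card_erase_of_mem (Finset.mem_univ _),
        Finset.card_univ, hα]
    have hinv : ∀ g : MulAction.stabilizer G a, ∀ x ∈ ({a}ᶜ : Set α),
        g • x ∈ ({a}ᶜ : Set α) := by
      intro g x hx hgx
      apply hx
      have hg : g • a = a := g.2
      have hgx' : g • x = a := hgx
      exact MulAction.injective g (hgx'.trans hg.symm)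
    have hfaith : ∀ g : MulAction.stabilizer G a,
        (∀ x ∈ ({a}ᶜ : Set α), g • x = x) → g = 1 := by
      intro g hg
      apply Subtype.ext
      apply hfaithG
      intro x
      by_cases hx : x = a
      · rw [hx]; exact g.2
      · exact hg x hx
    have h2' : ∀ b ∈ ({a}ᶜ : Set α), ∀ c ∈ ({a}ᶜ : Set α), ∀ d ∈ ({a}ᶜ : Set α),
        ∀ e ∈ ({a}ᶜ : Set α), b ≠ c → d ≠ e →
        ∃ g : MulAction.stabilizer G a, g • b = d ∧ g • c = e := by
      intro b hb c hc d hd e he hbc hde
      obtain ⟨g, hga, hgb, hgc⟩ := Cfsg.Agent.Lib.Helper1.three_trans_of_multiply (G := G)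
        (k := 5) (by norm_num) hk5 a b c a d e
        (fun h => hb (Set.mem_singleton_iff.2 h.symm))
        (fun h => hc (Set.mem_singleton_iff.2 h.symm)) hbc
        (fun h => hd (Set.mem_singleton_iff.2 h.symm))
        (fun h => he (Set.mem_singleton_iff.2 h.symm)) hde
      exact ⟨⟨g, hga⟩, hgb, hgc⟩
    exact Cfsg.Agent.Lib.Helper1.simple_of_sylow_action (p := 11) (q := 5) (m := 720)
      (by norm_num) hHcard (by norm_num) (by norm_num) ({a}ᶜ : Set α) (Set.toFinite _) hXn
      hinv hfaith h2' (by
        intro e he _ h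
        exact Cfsg.Agent.Lib.Helper1.arith_11_720 e (Nat.le_of_dvd (by norm_num) he) he h)
  exact Cfsg.Agent.Lib.Helper1.simple_of_stab_simple (Set.univ : Set α)
    (fun _ _ _ => Set.mem_univ _) (fun g hg => hfaithG g (fun x => hg x (Set.mem_univ _)))
    (fun a _ b _ c _ d _ hab hcd => h2 a b c d hab hcd)
    (by
      rw [Set.ncard_univ, Nat.card_eq_fintype_card, hα]
      exact Cfsg.Agent.Lib.Helper1.not_isPrimePow_12) a (Set.mem_univ _) hH

end Cfsg.Agent.S0419
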