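import Cfsg.Statements.S0427
import Mathlib
import Cfsg.Agent.Lib.Helper1.SRG22

set_option autoImplicit false
open Cfsg

namespace Cfsg.Agent.S0427

/-- The block graph (adjacent = disjoint) of an S(3, 6, 22) is strongly regular with parameters (77, 16, 0, 4). -/
theorem result {α : Type*} [Fintype α] (hα : Fintype.card α = 22) {B : Set (Finset α)} (hB : Cfsg.IsSteinerSystem 3 6 B) [Fintype B] [DecidableRel (Cfsg.blockGraph B).Adj] : (Cfsg.blockGraph B).IsSRGWith 77 16 0 4 := by
  classical
  obtain ⟨Bf, hBf, hcard⟩ := Cfsg.Agent.Lib.Helper1.exists_blockFinset B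
  have hadj : ∀ v w : ↥B, (Cfsg.blockGraph B).Adj v w ↔ Disjoint (v : Finset α) (w : Finset α) := by
    intro v w
    rw [Cfsg.blockGraph, SimpleGraph.fromRel_adj]
    constructor
    · rintro ⟨-, h | h⟩
      · exact h
      · exact h.symm
    · intro h
      refine ⟨?_, Or.inl h⟩
      rintro rfl
      have h6 := hB.1 v v.2
      rw [Finset.disjoint_self_iff_empty] at h
      rw [h, Finset.card_empty] at h6
      omega
  have hcount : ∀ (P : Finset α → Prop) [DecidablePred P] (s : Set ↥B), (∀ d : ↥B, d ∈ s ↔ P d) →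
      Nat.card ↥s = (Bf.filter P).card := by
    intro P _ s hs
    rw [Nat.card_coe_set_eq, ← Set.ncard_image_of_injective s Subtype.val_injective,
      ← Set.ncard_coe_finset]
    congr 1
    ext c
    simp only [Set.mem_image, Finset.coe_filter, Set.mem_setOf_eq, hBf]
    constructor
    · rintro ⟨d, hd, rfl⟩
      exact ⟨d.2, (hs d).1 hd⟩
    · rintro ⟨hc, hP⟩
      exact ⟨⟨c, hc⟩, (hs _).2 hP, rfl⟩
  refine ⟨?_, ?_, ?_, ?_⟩
  · rw [Fintype.card_eq_nat_card, Nat.card_coe_set_eq, hcard,
      Cfsg.Agent.Lib.Helper1.s22_card hα hB Bf hBf]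
  · intro v
    rw [← SimpleGraph.card_neighborSet_eq_degree, Fintype.card_eq_nat_card,
      hcount (fun d => Disjoint (v : Finset α) d) _
        (fun d => by rw [SimpleGraph.mem_neighborSet, hadj])]
    exact Cfsg.Agent.Lib.Helper1.s22_disjoint hα hB Bf hBf v v.2
  · intro v w hvw
    have hne : (w : Finset α) ≠ (v : Finset α) := fun h => hvw.ne (Subtype.ext h.symm)
    rw [Fintype.card_eq_nat_card,
      hcount (fun d => Disjoint (v : Finset α) d ∧ Disjoint (w : Finset α) d) _
        (fun d => by rw [SimpleGraph.mem_commonNeighbors, hadj, hadj]),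
      Cfsg.Agent.Lib.Helper1.s22_common hα hB Bf hBf v w v.2 w.2 hne]
    have h := (hadj v w).1 hvw
    rw [Finset.disjoint_iff_inter_eq_empty] at h
    rw [h, Finset.card_empty]
  · intro v w hvw hnadj
    have hne : (w : Finset α) ≠ (v : Finset α) := fun h => hvw (Subtype.ext h.symm)
    rw [Fintype.card_eq_nat_card,
      hcount (fun d => Disjoint (v : Finset α) d ∧ Disjoint (w : Finset α) d) _
        (fun d => by rw [SimpleGraph.mem_commonNeighbors, hadj, hadj]),
      Cfsg.Agent.Lib.Helper1.s22_common hα hB Bf hBf v w v.2 w.2 hne]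
    rcases Cfsg.Agent.Lib.Helper1.s22_inter hα hB Bf hBf v w v.2 w.2 hne with h | h
    · exfalso
      apply hnadj
      rw [hadj, Finset.disjoint_iff_inter_eq_empty]
      exact Finset.card_eq_zero.1 h
    · rw [h]

end Cfsg.Agent.S0427
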