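import Cfsg.Statements.S0428
import Mathlib
import Cfsg.Agent.Lib.Helper1.SRG22b

set_option autoImplicit false
open Cfsg

namespace Cfsg.Agent.S0428

/-- The point-block graph of an S(3, 6, 22) is strongly regular with parameters (100, 22, 0, 6). -/
theorem result {α : Type*} [Fintype α] (hα : Fintype.card α = 22) {B : Set (Finset α)} (hB : Cfsg.IsSteinerSystem 3 6 B) [Fintype B] [DecidableRel (Cfsg.pointBlockGraph B).Adj] : (Cfsg.pointBlockGraph B).IsSRGWith 100 22 0 6 := by
  classical
  obtain ⟨Bf, hBf, hcard⟩ := Cfsg.Agent.Lib.Helper1.exists_blockFinset B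
  have hne6 : ∀ b : ↥B, ¬ Disjoint (b : Finset α) (b : Finset α) := by
    intro b h
    have h6 := hB.1 b b.2
    rw [Finset.disjoint_self_iff_empty] at h
    rw [h, Finset.card_empty] at h6
    omega
  have a_nn : ¬ (Cfsg.pointBlockGraph B).Adj none none := fun h => h.ne rfl
  have a_np : ∀ a : α, (Cfsg.pointBlockGraph B).Adj none (some (Sum.inl a)) := by
    intro a
    simp [Cfsg.pointBlockGraph, SimpleGraph.fromRel_adj, Cfsg.pointBlockRel]
  have a_pn : ∀ a : α, (Cfsg.pointBlockGraph B).Adj (some (Sum.inl a)) none :=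
    fun a => (a_np a).symm
  have a_nb : ∀ b : ↥B, ¬ (Cfsg.pointBlockGraph B).Adj none (some (Sum.inr b)) := by
    intro b
    simp [Cfsg.pointBlockGraph, SimpleGraph.fromRel_adj, Cfsg.pointBlockRel]
  have a_bn : ∀ b : ↥B, ¬ (Cfsg.pointBlockGraph B).Adj (some (Sum.inr b)) none :=
    fun b h => a_nb b h.symm
  have a_pp : ∀ a a' : α,
      ¬ (Cfsg.pointBlockGraph B).Adj (some (Sum.inl a)) (some (Sum.inl a')) := by
    intro a a'
    simp [Cfsg.pointBlockGraph, SimpleGraph.fromRel_adj, Cfsg.pointBlockRel]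
  have a_pb : ∀ (a : α) (b : ↥B),
      (Cfsg.pointBlockGraph B).Adj (some (Sum.inl a)) (some (Sum.inr b)) ↔ a ∈ (b : Finset α) := by
    intro a b
    simp [Cfsg.pointBlockGraph, SimpleGraph.fromRel_adj, Cfsg.pointBlockRel]
  have a_bp : ∀ (b : ↥B) (a : α),
      (Cfsg.pointBlockGraph B).Adj (some (Sum.inr b)) (some (Sum.inl a)) ↔ a ∈ (b : Finset α) :=
    fun b a => ⟨fun h => (a_pb a b).1 h.symm, fun h => ((a_pb a b).2 h).symm⟩
  have a_bb : ∀ b c : ↥B, (Cfsg.pointBlockGraph B).Adj (some (Sum.inr b)) (some (Sum.inr c))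
      ↔ Disjoint (b : Finset α) (c : Finset α) := by
    intro b c
    rw [Cfsg.pointBlockGraph, SimpleGraph.fromRel_adj]
    simp only [Cfsg.pointBlockRel]
    constructor
    · rintro ⟨-, h | h⟩
      · exact h
      · exact h.symm
    · intro h
      refine ⟨?_, Or.inl h⟩
      intro hbc
      have hbc' : b = c := Sum.inr_injective (Option.some_injective _ hbc)
      subst hbc'
      exact hne6 b h
  have cB : ∀ (P : Finset α → Prop) [DecidablePred P],
      Nat.card {d : ↥B // P (d : Finset α)} = (Bf.filter P).card := by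
    intro P _
    rw [Nat.card_congr (Equiv.subtypeSubtypeEquivSubtypeInter (fun c : Finset α => c ∈ B) P)]
    have h1 : Nat.card {c : Finset α // c ∈ B ∧ P c}
        = ({c : Finset α | c ∈ B ∧ P c} : Set (Finset α)).ncard := Nat.card_coe_set_eq _
    rw [h1, ← Set.ncard_coe_finset]
    congr 1
    ext c
    simp only [Set.mem_setOf_eq, Finset.coe_filter, hBf]
  have cα : ∀ (Q : α → Prop) [DecidablePred Q],
      Nat.card {a : α // Q a} = (Finset.univ.filter Q).card := by
    intro Q _
    rw [Nat.card_eq_fintype_card, Fintype.card_subtype]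
  have kB1 : ∀ p : α, Nat.card {d : ↥B // p ∈ (d : Finset α)} = 21 := fun p => by
    rw [cB (fun d => p ∈ d)]
    exact Cfsg.Agent.Lib.Helper1.s22_count1 hα hB Bf hBf p
  have kB2 : ∀ p q : α, p ≠ q →
      Nat.card {d : ↥B // p ∈ (d : Finset α) ∧ q ∈ (d : Finset α)} = 5 := fun p q h => by
    rw [cB (fun d => p ∈ d ∧ q ∈ d)]
    exact Cfsg.Agent.Lib.Helper1.s22_count2 hα hB Bf hBf p q h
  have kBd : ∀ b : ↥B, Nat.card {d : ↥B // Disjoint (b : Finset α) (d : Finset α)} = 16 :=
    fun b => by
      rw [cB (fun d => Disjoint (b : Finset α) d)]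
      exact Cfsg.Agent.Lib.Helper1.s22_disjoint hα hB Bf hBf b b.2
  have kBc : ∀ b c : ↥B, b ≠ c → Nat.card {d : ↥B // Disjoint (b : Finset α) (d : Finset α)
      ∧ Disjoint (c : Finset α) (d : Finset α)} = 2 * ((b : Finset α) ∩ c).card := fun b c h => by
    rw [cB (fun d => Disjoint (b : Finset α) d ∧ Disjoint (c : Finset α) d)]
    exact Cfsg.Agent.Lib.Helper1.s22_common hα hB Bf hBf b c b.2 c.2
      (fun h' => h (Subtype.ext h'.symm))
  have kBp : ∀ (p : α) (b : ↥B), p ∉ (b : Finset α) →
      Nat.card {d : ↥B // p ∈ (d : Finset α) ∧ Disjoint (b : Finset α) (d : Finset α)} = 6 :=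
    fun p b h => by
      rw [cB (fun d => p ∈ d ∧ Disjoint (b : Finset α) d)]
      exact Cfsg.Agent.Lib.Helper1.s22_pt_block hα hB Bf hBf p b b.2 h
  have kBp' : ∀ (p : α) (b : ↥B), p ∉ (b : Finset α) →
      Nat.card {d : ↥B // Disjoint (b : Finset α) (d : Finset α) ∧ p ∈ (d : Finset α)} = 6 :=
    fun p b h => by
      rw [← kBp p b h]
      exact Nat.card_congr (Equiv.subtypeEquivRight (fun d => and_comm))
  have kBp0 : ∀ (p : α) (b : ↥B), p ∈ (b : Finset α) →
      Nat.card {d : ↥B // p ∈ (d : Finset α) ∧ Disjoint (b : Finset α) (d : Finset α)} = 0 := by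
    intro p b hp
    rw [Nat.card_eq_zero]
    left
    constructor
    rintro ⟨d, hd, hdis⟩
    exact Finset.disjoint_left.1 hdis hp hd
  have kBp0' : ∀ (p : α) (b : ↥B), p ∈ (b : Finset α) →
      Nat.card {d : ↥B // Disjoint (b : Finset α) (d : Finset α) ∧ p ∈ (d : Finset α)} = 0 :=
    fun p b h => by
      rw [← kBp0 p b h]
      exact Nat.card_congr (Equiv.subtypeEquivRight (fun d => and_comm))
  have kFB : Nat.card {d : ↥B // False} = 0 := by
    rw [Nat.card_eq_zero]
    left
    constructor
    rintro ⟨d, hd⟩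
    exact hd
  have kFα : Nat.card {a : α // False} = 0 := by
    rw [Nat.card_eq_zero]
    left
    constructor
    rintro ⟨d, hd⟩
    exact hd
  have kα : Nat.card {a : α // True} = 22 := by
    rw [cα (fun _ => True), Finset.filter_true_of_mem (fun _ _ => trivial), Finset.card_univ, hα]
  have kαb : ∀ b : ↥B, Nat.card {a : α // a ∈ (b : Finset α)} = 6 := by
    intro b
    rw [cα (fun a => a ∈ (b : Finset α)), Finset.filter_univ_mem, hB.1 b b.2]
  have kαbc : ∀ b c : ↥B, Nat.card {a : α // a ∈ (b : Finset α) ∧ a ∈ (c : Finset α)}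
      = ((b : Finset α) ∩ c).card := by
    intro b c
    rw [cα (fun a => a ∈ (b : Finset α) ∧ a ∈ (c : Finset α))]
    congr 1
    ext a
    simp only [Finset.mem_filter, Finset.mem_univ, true_and, Finset.mem_inter]
  refine ⟨?_, ?_, ?_, ?_⟩
  · rw [Fintype.card_option, Fintype.card_sum, hα, Fintype.card_eq_nat_card (α := ↥B),
      Nat.card_coe_set_eq, hcard, Cfsg.Agent.Lib.Helper1.s22_card hα hB Bf hBf]
  · intro v
    rw [← SimpleGraph.card_neighborSet_eq_degree, Fintype.card_eq_nat_card,
      Cfsg.Agent.Lib.Helper1.card_optsum]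
    rcases v with _ | (p | b)
    · simp only [SimpleGraph.mem_neighborSet, a_nn, a_np, a_nb, reduceIte, kα, kFB]
    · simp only [SimpleGraph.mem_neighborSet, a_pn, a_pp, a_pb, reduceIte, kFα, kB1]
    · simp only [SimpleGraph.mem_neighborSet, a_bn, a_bp, a_bb, reduceIte, kαb, kBd]
  · intro v w hvw
    rw [Fintype.card_eq_nat_card, Cfsg.Agent.Lib.Helper1.card_optsum]
    rcases v with _ | (p | b) <;> rcases w with _ | (q | c)
    · exact absurd hvw a_nn
    · simp only [SimpleGraph.mem_commonNeighbors, a_nn, a_np, a_nb, a_pn, a_pp, a_pb, reduceIte,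
        and_true, true_and, and_false, false_and, kFα, kFB]
    · exact absurd hvw (a_nb c)
    · simp only [SimpleGraph.mem_commonNeighbors, a_nn, a_np, a_nb, a_pn, a_pp, a_pb, reduceIte,
        and_true, true_and, and_false, false_and, kFα, kFB]
    · exact absurd hvw (a_pp p q)
    · have hpc := (a_pb p c).1 hvw
      simp only [SimpleGraph.mem_commonNeighbors, a_pn, a_bn, a_pp, a_pb, a_bp, a_bb, reduceIte,
        and_true, true_and, and_false, false_and, kFα, kBp0 p c hpc]
    · exact absurd hvw (a_bn b)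
    · have hqb := (a_bp b q).1 hvw
      simp only [SimpleGraph.mem_commonNeighbors, a_pn, a_bn, a_pp, a_pb, a_bp, a_bb, reduceIte,
        and_true, true_and, and_false, false_and, kFα, kBp0' q b hqb]
    · have hd := (a_bb b c).1 hvw
      have hbc : b ≠ c := by
        rintro rfl
        exact hne6 b hd
      have h0 : ((b : Finset α) ∩ c).card = 0 := by
        rw [Finset.card_eq_zero, ← Finset.disjoint_iff_inter_eq_empty]
        exact hd
      simp only [SimpleGraph.mem_commonNeighbors, a_bn, a_bp, a_bb, reduceIte,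
        and_true, true_and, and_false, false_and, kαbc, kBc b c hbc, h0]
  · intro v w hvw hnadj
    rw [Fintype.card_eq_nat_card, Cfsg.Agent.Lib.Helper1.card_optsum]
    rcases v with _ | (p | b) <;> rcases w with _ | (q | c)
    · exact absurd rfl hvw
    · exact absurd (a_np q) hnadj
    · simp only [SimpleGraph.mem_commonNeighbors, a_nn, a_np, a_nb, a_bn, a_bp, a_bb, reduceIte,
        and_true, true_and, and_false, false_and, kαb, kFB]
    · exact absurd (a_pn p) hnadj
    · have hpq : p ≠ q := by
        rintro rfl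
        exact hvw rfl
      simp only [SimpleGraph.mem_commonNeighbors, a_pn, a_pp, a_pb, reduceIte,
        and_true, true_and, and_false, false_and, and_self, kFα, kB2 p q hpq]
    · have hpc : p ∉ (c : Finset α) := fun h => hnadj ((a_pb p c).2 h)
      simp only [SimpleGraph.mem_commonNeighbors, a_pn, a_bn, a_pp, a_pb, a_bp, a_bb, reduceIte,
        and_true, true_and, and_false, false_and, kFα, kBp p c hpc]
    · simp only [SimpleGraph.mem_commonNeighbors, a_nn, a_np, a_nb, a_bn, a_bp, a_bb, reduceIte,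
        and_true, true_and, and_false, false_and, kαb, kFB]
    · have hqb : q ∉ (b : Finset α) := fun h => hnadj ((a_bp b q).2 h)
      simp only [SimpleGraph.mem_commonNeighbors, a_pn, a_bn, a_pp, a_pb, a_bp, a_bb, reduceIte,
        and_true, true_and, and_false, false_and, kFα, kBp' q b hqb]
    · have hbc : b ≠ c := by
        rintro rfl
        exact hvw rfl
      have hnd : ¬ Disjoint (b : Finset α) (c : Finset α) := fun h => hnadj ((a_bb b c).2 h)
      have h2 : ((b : Finset α) ∩ c).card = 2 := by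
        rcases Cfsg.Agent.Lib.Helper1.s22_inter hα hB Bf hBf b c b.2 c.2
          (fun h' => hbc (Subtype.ext h'.symm)) with h | h
        · exfalso
          apply hnd
          rw [Finset.disjoint_iff_inter_eq_empty]
          exact Finset.card_eq_zero.1 h
        · exact h
      simp only [SimpleGraph.mem_commonNeighbors, a_bn, a_bp, a_bb, reduceIte,
        and_true, true_and, and_false, false_and, kαbc, kBc b c hbc, h2]

end Cfsg.Agent.S0428
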