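import Cfsg.Statements.S0432
import Mathlib
import Cfsg.Agent.Lib.Helper1.Leech

set_option autoImplicit false
open Cfsg

namespace Cfsg.Agent.S0432


open scoped Pointwise in
theorem filter_comp (σ : Equiv.Perm Cfsg.GolayPt) (x : Cfsg.GolayPt → ℤ) (k : ℤ) :
    (Finset.univ.filter fun i : Cfsg.GolayPt => x (σ i) ≡ k [ZMOD 4])
      = σ⁻¹ • (Finset.univ.filter fun i : Cfsg.GolayPt => x i ≡ k [ZMOD 4]) := by
  classical
  ext i
  rw [Finset.mem_smul_finset]
  simp only [Finset.mem_filter, Finset.mem_univ, true_and]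
  constructor
  · intro h
    exact ⟨σ i, h, by simp⟩
  · rintro ⟨j, hj, rfl⟩
    simpa using hj

/-- Coordinate permutations from the code's group preserve the lattice. -/
theorem result (σ : Equiv.Perm Cfsg.GolayPt) (hσ : σ ∈ Cfsg.M24) (x : Cfsg.GolayPt → ℤ) (hx : x ∈ Cfsg.leechLattice) : (fun i => x (σ i)) ∈ Cfsg.leechLattice := by
  classical
  rw [Cfsg.Agent.Lib.Helper1.mem_leechLattice_iff] at hx ⊢
  obtain ⟨m, h1, h2, h3⟩ := hx
  refine ⟨m, fun i => h1 (σ i), ?_, ?_⟩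
  · rw [Equiv.sum_comp σ x]
    exact h2
  · intro k
    rw [filter_comp]
    exact Cfsg.Agent.Lib.Helper1.M24_smul_mem σ⁻¹ (Cfsg.M24.inv_mem hσ) _ (h3 k)

end Cfsg.Agent.S0432
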