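import Cfsg.Statements.S0433
import Mathlib
import Cfsg.Agent.Lib.Helper1.Leech

set_option autoImplicit false
open Cfsg

namespace Cfsg.Agent.S0433


theorem sum_ite_neg (c : Finset Cfsg.GolayPt) (x : Cfsg.GolayPt → ℤ) :
    ∑ i, (if i ∈ c then -x i else x i) = ∑ i, x i - 2 * ∑ i ∈ c, x i := by
  classical
  have : ∀ i, (if i ∈ c then -x i else x i) = x i - 2 * (if i ∈ c then x i else 0) := by
    intro i
    by_cases h : i ∈ c <;> simp [h] <;> ring
  simp only [this, Finset.sum_sub_distrib, ← Finset.mul_sum]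
  congr 2
  rw [Finset.sum_ite_mem, Finset.univ_inter]

theorem sum_c_mod4 (c : Finset Cfsg.GolayPt) (hc : c ∈ Cfsg.Agent.Lib.Helper1.gSupp)
    (x : Cfsg.GolayPt → ℤ) (m : ℤ) (h1 : ∀ i, x i ≡ m [ZMOD 2])
    (h3 : ∀ k : ℤ, (Finset.univ.filter fun i => x i ≡ k [ZMOD 4]) ∈ Cfsg.Agent.Lib.Helper1.gSupp) :
    (4 : ℤ) ∣ ∑ i ∈ c, x i := by
  classical
  have hpt : ∀ i, ∃ q : ℤ, x i = m + 2 * (if x i ≡ m + 2 [ZMOD 4] then 1 else 0) + 4 * q := by
    intro i
    have a1 := h1 i
    by_cases h : x i ≡ m + 2 [ZMOD 4]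
    · rw [if_pos h]
      unfold Int.ModEq at *
      exact ⟨(x i - m - 2) / 4, by omega⟩
    · rw [if_neg h]
      unfold Int.ModEq at *
      exact ⟨(x i - m) / 4, by omega⟩
  choose q hq using hpt
  have e1 : ∑ i ∈ c, x i = ∑ i ∈ c, (m + 2 * (if x i ≡ m + 2 [ZMOD 4] then 1 else 0) + 4 * q i) :=
    Finset.sum_congr rfl (fun i _ => hq i)
  rw [e1, Finset.sum_add_distrib, Finset.sum_add_distrib, ← Finset.mul_sum, ← Finset.mul_sum,
    Finset.sum_const, Finset.sum_boole]
  have hA := h3 (m + 2)
  have h4 := Cfsg.Agent.Lib.Helper1.gSupp_card4 hc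
  have h2 := Cfsg.Agent.Lib.Helper1.gSupp_inter_even hc hA
  have e2 : c.filter (fun i => x i ≡ m + 2 [ZMOD 4])
      = c ∩ (Finset.univ.filter fun i => x i ≡ m + 2 [ZMOD 4]) := by
    ext i; simp
  rw [e2]
  obtain ⟨a, ha⟩ := h4
  obtain ⟨b, hb⟩ := h2
  rw [ha, hb]
  refine ⟨a * m + b + ∑ i ∈ c, q i, ?_⟩
  push_cast
  simp only [nsmul_eq_mul]
  push_cast
  ring

/-- Sign changes on the support of a codeword preserve the lattice. -/
theorem result (c : Finset Cfsg.GolayPt) (hc : c ∈ Cfsg.supports (Cfsg.golayCode : Set (Cfsg.GolayPt → ZMod 2))) (x : Cfsg.GolayPt → ℤ) (hx : x ∈ Cfsg.leechLattice) : (fun i => if i ∈ c then -x i else x i) ∈ Cfsg.leechLattice := by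
  classical
  rw [Cfsg.Agent.Lib.Helper1.mem_leechLattice_iff] at hx ⊢
  obtain ⟨m, h1, h2, h3⟩ := hx
  refine ⟨m, ?_, ?_, ?_⟩
  · intro i
    have a1 := h1 i
    by_cases h : i ∈ c
    · simp only [h, if_true]
      unfold Int.ModEq at *
      omega
    · simp only [h, if_false]
      exact a1
  · rw [sum_ite_neg]
    obtain ⟨a, ha⟩ := sum_c_mod4 c hc x m h1 h3
    rw [ha]
    unfold Int.ModEq at *
    omega
  · intro k
    by_cases hk : k ≡ m [ZMOD 2]
    · by_cases hm : m ≡ 0 [ZMOD 2]
      · have : (Finset.univ.filter fun i : Cfsg.GolayPt => (if i ∈ c then -x i else x i) ≡ k [ZMOD 4])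
            = (Finset.univ.filter fun i : Cfsg.GolayPt => x i ≡ k [ZMOD 4]) := by
          ext i
          simp only [Finset.mem_filter, Finset.mem_univ, true_and]
          have a1 := h1 i
          by_cases h : i ∈ c
          · simp only [h, if_true]
            unfold Int.ModEq at *
            omega
          · simp only [h, if_false]
        rw [this]
        exact h3 k
      · have : (Finset.univ.filter fun i : Cfsg.GolayPt => (if i ∈ c then -x i else x i) ≡ k [ZMOD 4])
            = symmDiff (Finset.univ.filter fun i : Cfsg.GolayPt => x i ≡ k [ZMOD 4]) c := by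
          ext i
          simp only [Finset.mem_symmDiff, Finset.mem_filter, Finset.mem_univ, true_and]
          have a1 := h1 i
          by_cases h : i ∈ c
          · simp only [h, if_true, not_true, and_false, false_or, true_and]
            unfold Int.ModEq at *
            omega
          · simp only [h, if_false, not_false_iff, and_true, false_and, or_false]
        rw [this]
        exact Cfsg.Agent.Lib.Helper1.gSupp_symmDiff (h3 k) hc
    · have : (Finset.univ.filter fun i : Cfsg.GolayPt => (if i ∈ c then -x i else x i) ≡ k [ZMOD 4])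
          = (Finset.univ.filter fun i : Cfsg.GolayPt => x i ≡ k [ZMOD 4]) := by
        ext i
        simp only [Finset.mem_filter, Finset.mem_univ, true_and]
        have a1 := h1 i
        by_cases h : i ∈ c
        · simp only [h, if_true]
          unfold Int.ModEq at *
          omega
        · simp only [h, if_false]
      rw [this]
      exact h3 k

end Cfsg.Agent.S0433
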