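import Cfsg.Statements.S0439
import Mathlib

set_option autoImplicit false
open Cfsg

namespace Cfsg.Agent.S0439

open Equiv in
theorem share {α : Type*} [DecidableEq α] {x y z : α} (hxy : x ≠ y) (hxz : x ≠ z) (hyz : y ≠ z) :
    (swap x y * swap y z) ^ 3 = 1 := by
  have h1 : swap y z * swap x y * swap y z = swap z x := swap_mul_swap_mul_swap hxy hxz
  have h2 : swap y x * swap z y * swap y x = swap x z :=
    swap_mul_swap_mul_swap (Ne.symm hyz) (Ne.symm hxz)
  rw [swap_comm y x, swap_comm z y] at h2
  rw [swap_comm z x] at h1
  have hd : swap x y * swap x y = 1 := swap_mul_self x y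
  have he : swap y z * swap y z = 1 := swap_mul_self y z
  generalize swap x y = d at *
  generalize swap y z = e at *
  generalize swap x z = f at *
  have : (d * e) ^ 3 = (d * e * d) * (e * d * e) := by
    simp [pow_succ, mul_assoc]
  rw [this, h1, h2, ← h1]
  calc e * d * e * (e * d * e) = e * (d * (e * e) * d) * e := by simp [mul_assoc]
    _ = 1 := by rw [he, mul_one, hd, mul_one, he]

open Equiv in
theorem two_or_three {α : Type*} [DecidableEq α] {a b c d : α} (hab : a ≠ b) (hcd : c ≠ d) :
    (swap a b * swap c d) ^ 2 = 1 ∨ (swap a b * swap c d) ^ 3 = 1 := by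
  by_cases hca : c = a
  · subst hca
    by_cases hdb : d = b
    · subst hdb
      left
      simp
    · right
      rw [swap_comm c b]
      exact share (Ne.symm hab) (fun h => hdb h.symm) hcd
  · by_cases hcb : c = b
    · subst hcb
      by_cases hda : d = a
      · subst hda
        left
        rw [swap_comm c d]
        simp
      · right
        exact share hab (fun h => hda h.symm) hcd
    · by_cases hda : d = a
      · subst hda
        right
        rw [swap_comm d b, swap_comm c d]
        exact share (Ne.symm hab) (fun h => hcb h.symm) (fun h => hca h.symm)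
      · by_cases hdb : d = b
        · subst hdb
          right
          rw [swap_comm c d]
          exact share hab (fun h => hca h.symm) (fun h => hcb h.symm)
        · left
          have hdis : (swap a b).Disjoint (swap c d) := by
            apply Equiv.Perm.disjoint_swap_swap
            simp only [List.nodup_cons, List.mem_cons, List.not_mem_nil, or_false, not_or,
              List.nodup_nil, and_true, not_false_eq_true]
            exact ⟨⟨hab, fun h => hca h.symm, fun h => hda h.symm⟩,
              ⟨fun h => hcb h.symm, fun h => hdb h.symm⟩, hcd⟩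
          have hc : Commute (swap a b) (swap c d) := hdis.commute
          rw [hc.mul_pow]
          simp [pow_two]

/-- In the symmetric group of degree n ≥ 2, the set of transpositions is a conjugacy class of 3-transpositions which generates the group. -/
theorem result (n : ℕ) (hn : 2 ≤ n) : Cfsg.IsThreeTranspositionClass {σ : Equiv.Perm (Fin n) | σ.IsSwap} := by
  refine ⟨⟨?_, ?_⟩, ?_, ?_⟩
  · intro d hd
    exact Equiv.Perm.IsSwap.orderOf hd
  · rintro d ⟨a, b, hab, rfl⟩ e ⟨c, d', hcd, rfl⟩
    exact two_or_three hab hcd
  · have h01 : (⟨0, by omega⟩ : Fin n) ≠ ⟨1, by omega⟩ := by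
      intro h
      simp [Fin.ext_iff] at h
    refine ⟨Equiv.swap ⟨0, by omega⟩ ⟨1, by omega⟩, ⟨_, _, h01, rfl⟩, ?_⟩
    ext σ
    show σ.IsSwap ↔ IsConj _ σ
    constructor
    · rintro ⟨c, d', hcd, rfl⟩
      exact Equiv.Perm.isConj_swap h01 hcd
    · intro h
      rw [isConj_iff] at h
      obtain ⟨c, rfl⟩ := h
      refine ⟨c ⟨0, by omega⟩, c ⟨1, by omega⟩, fun h => h01 (c.injective h), ?_⟩
      rw [Equiv.mul_swap_eq_swap_mul]
      simp [mul_assoc]
  · exact Equiv.Perm.closure_isSwap
end Cfsg.Agent.S0439
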