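import Mathlib
import Cfsg.Statements.S0440
import Cfsg.Agent.Lib.Helper4.SpThreeTransp

set_option autoImplicit false
open Cfsg

namespace Cfsg.Agent.S0440

open Cfsg.Agent.Lib.Helper4 in
/-- In the symplectic group in dimension 2n ≥ 2 over the field with two elements, the elements g for which g - 1 has rank one (the symplectic transvections) form a conjugacy class of 3-transpositions generating the group. -/
theorem result (n : ℕ) (hn : 1 ≤ n) : Cfsg.IsThreeTranspositionClass {g : Matrix.symplecticGroup (Fin n) (ZMod 2) | ((g : Matrix (Fin n ⊕ Fin n) (Fin n ⊕ Fin n) (ZMod 2)) - 1).rank = 1} := by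
  refine ⟨⟨?_, ?_⟩, ?_, ?_⟩
  · intro d hd
    obtain ⟨u, hu, hdu⟩ := (t3_mem_iff d.1 d.2).1 hd
    apply orderOf_eq_prime
    · apply Subtype.ext
      rw [sq]
      show d.1 * d.1 = 1
      rw [hdu]
      exact t3_sq u
    · intro h1
      rw [h1] at hd
      simp at hd
  · intro d hd e he
    obtain ⟨u, hu, hdu⟩ := (t3_mem_iff d.1 d.2).1 hd
    obtain ⟨w, hw, hew⟩ := (t3_mem_iff e.1 e.2).1 he
    rcases t3_cases (stdSymp n (ZMod 2) u w) with h | h
    · left
      apply Subtype.ext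
      show (d.1 * e.1) ^ 2 = 1
      rw [hdu, hew]
      exact t3_sq_comm u w h
    · right
      apply Subtype.ext
      show (d.1 * e.1) ^ 3 = 1
      rw [hdu, hew]
      exact t3_cube u w h
  · obtain ⟨u₀, hu₀⟩ : ∃ u₀ : Fin n ⊕ Fin n → ZMod 2, u₀ ≠ 0 :=
      ⟨Pi.single (Sum.inl ⟨0, hn⟩) 1, by
        intro h
        have := congrFun h (Sum.inl ⟨0, hn⟩)
        simp at this⟩
    refine ⟨⟨Cfsg.sympTransvection n u₀ 1, sympTransv_mem n u₀ 1⟩,
      (t3_mem_iff _ (sympTransv_mem n u₀ 1)).2 ⟨u₀, hu₀, rfl⟩, ?_⟩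
    ext g
    show _ ↔ IsConj _ g
    rw [Set.mem_setOf_eq, isConj_iff]
    constructor
    · intro hg
      obtain ⟨u, hu, hgu⟩ := (t3_mem_iff g.1 g.2).1 hg
      obtain ⟨h, hh⟩ := sp_transitive_nonzero n u₀ u hu₀ hu
      refine ⟨h, ?_⟩
      rw [mul_inv_eq_iff_eq_mul]
      apply Subtype.ext
      show h.1 * Cfsg.sympTransvection n u₀ 1 = g.1 * h.1
      rw [hgu, ← hh]
      exact t3_conj h.1 h.2 u₀
    · rintro ⟨h, hh⟩
      rw [mul_inv_eq_iff_eq_mul] at hh
      have hh' : h.1 * Cfsg.sympTransvection n u₀ 1 = g.1 * h.1 := congrArg Subtype.val hh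
      rw [t3_conj h.1 h.2 u₀] at hh'
      have hne : h.1.mulVec u₀ ≠ 0 := by
        intro h0
        apply hu₀
        have h1 : (h⁻¹).1 * h.1 = 1 := congrArg Subtype.val (inv_mul_cancel h)
        have h2 : ((h⁻¹).1 * h.1).mulVec u₀ = 0 := by
          rw [← Matrix.mulVec_mulVec, h0, Matrix.mulVec_zero]
        rw [h1, Matrix.one_mulVec] at h2
        exact h2
      have hg : g = ⟨Cfsg.sympTransvection n (h.1.mulVec u₀) 1, sympTransv_mem n _ 1⟩ := by
        apply mul_right_cancel (b := h)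
        apply Subtype.ext
        exact hh'.symm
      rw [hg]
      exact (t3_mem_iff _ (sympTransv_mem n _ 1)).2 ⟨_, hne, rfl⟩
  · rw [eq_top_iff, ← sp_gen_transv n (ZMod 2), Subgroup.closure_le]
    rintro A ⟨w, c, hA⟩
    by_cases hw : w = 0
    · have : A = 1 := Subtype.ext (by rw [hA, hw]; simp [Cfsg.sympTransvection])
      rw [this]
      exact one_mem _
    rcases t3_cases c with hc | hc
    · have : A = 1 := Subtype.ext (by rw [hA, hc]; simp [Cfsg.sympTransvection])
      rw [this]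
      exact one_mem _
    · exact Subgroup.subset_closure ((t3_mem_iff A.1 A.2).2 ⟨w, hw, by rw [hA, hc]⟩)

end Cfsg.Agent.S0440
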