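import Cfsg.Statements.S0442
import Mathlib

set_option autoImplicit false
open Cfsg

namespace Cfsg.Agent.S0442

theorem inv_conj {G : Type*} [Group G] (a c : G) (ha : a * a = 1) (hc : c * c = 1) (m : ℕ) :
    a * (a * c) ^ m * a = ((a * c) ^ m)⁻¹ := by
  have hai : a⁻¹ = a := inv_eq_of_mul_eq_one_left ha
  have hci : c⁻¹ = c := inv_eq_of_mul_eq_one_left hc
  have h1 : a * (a * c) ^ m * a⁻¹ = (a * (a * c) * a⁻¹) ^ m := (conj_pow).symm
  have h2 : a * (a * c) * a⁻¹ = (a * c)⁻¹ := by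
    rw [mul_inv_rev, hai, hci, ← mul_assoc, ha, one_mul]
  rw [h2, inv_pow, hai] at h1
  exact h1

theorem inv_conj' {G : Type*} [Group G] (a c : G) (ha : a * a = 1) (hc : c * c = 1) (m : ℕ) :
    c * (a * c) ^ m * c = ((a * c) ^ m)⁻¹ := by
  have hai : a⁻¹ = a := inv_eq_of_mul_eq_one_left ha
  have hci : c⁻¹ = c := inv_eq_of_mul_eq_one_left hc
  have h1 : c * (a * c) ^ m * c⁻¹ = (c * (a * c) * c⁻¹) ^ m := (conj_pow).symm
  have h2 : c * (a * c) * c⁻¹ = (a * c)⁻¹ := by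
    rw [mul_inv_rev, hai, hci, mul_assoc, mul_assoc, hc, mul_one]
  rw [h2, inv_pow, hci] at h1
  exact h1

theorem comm_of {G : Type*} [Group G] (a c : G) (ha : a * a = 1) (hc : c * c = 1) (m : ℕ)
    (h : (a * c) ^ (2 * m) = 1) : Commute ((a * c) ^ m) a := by
  have h1 := inv_conj a c ha hc m
  have h2 : (a * c) ^ m * (a * c) ^ m = 1 := by
    rw [← pow_add, ← two_mul]; exact h
  have h3 : ((a * c) ^ m)⁻¹ = (a * c) ^ m := inv_eq_of_mul_eq_one_left h2
  rw [h3] at h1
  show (a * c) ^ m * a = a * (a * c) ^ m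
  calc (a * c) ^ m * a = (a * (a * c) ^ m * a) * a := by rw [h1]
    _ = a * (a * c) ^ m * (a * a) := by group
    _ = a * (a * c) ^ m := by rw [ha, mul_one]

theorem alg1 {G : Type*} [Group G] (a g gi b Z Zi : G) (ha : a * a = 1) (hb : b * b = 1)
    (_hg1 : gi * g = 1) (hg2 : g * gi = 1) (hZ1 : Zi * Z = 1) (_hZ2 : Z * Zi = 1)
    (hbdef : b = gi * a * g) (hZa : a * Z * a = Zi) (hZb : b * Z * b = Zi)
    (hZZ : Z * Z * (a * b) = 1) : g * Z * a = a * (g * Z) := by
  have e1 : g * b = a * g := by grind (acSteps := 100000)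
  have e2 : b * Z = Zi * b := by grind (acSteps := 100000)
  have e3 : Zi * b = Z * a := by grind (acSteps := 100000)
  calc g * Z * a = g * (Z * a) := by rw [mul_assoc]
    _ = g * (Zi * b) := by rw [e3]
    _ = g * (b * Z) := by rw [e2]
    _ = g * b * Z := by rw [mul_assoc]
    _ = a * g * Z := by rw [e1]
    _ = a * (g * Z) := by rw [mul_assoc]

/-- A standard trick for producing elements of an involution centraliser: for an involution a and an element g, let b be the conjugate g⁻¹ * a * g. If a * b has odd order 2m + 1 then g * (a * b) ^ m commutes with a; if a * b has even order 2m then (a * b) ^ m and (a * (g * a * g⁻¹)) ^ m commute with a. -/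
theorem result {G : Type*} [Group G] (a g : G) (ha : orderOf a = 2) : (∀ m : ℕ, orderOf (a * (g⁻¹ * a * g)) = 2 * m + 1 → Commute (g * (a * (g⁻¹ * a * g)) ^ m) a) ∧ (∀ m : ℕ, orderOf (a * (g⁻¹ * a * g)) = 2 * m → Commute ((a * (g⁻¹ * a * g)) ^ m) a ∧ Commute ((a * (g * a * g⁻¹)) ^ m) a) := by
  have ha2 : a * a = 1 := by
    have h := pow_orderOf_eq_one a
    rw [ha, pow_two] at h
    exact h
  have hai : a⁻¹ = a := inv_eq_of_mul_eq_one_left ha2
  have hb2 : (g⁻¹ * a * g) * (g⁻¹ * a * g) = 1 := by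
    have : (g⁻¹ * a * g) * (g⁻¹ * a * g) = g⁻¹ * (a * a) * g := by group
    rw [this, ha2]; group
  have hc2 : (g * a * g⁻¹) * (g * a * g⁻¹) = 1 := by
    have : (g * a * g⁻¹) * (g * a * g⁻¹) = g * (a * a) * g⁻¹ := by group
    rw [this, ha2]; group
  constructor
  · intro m hm
    have hz : (a * (g⁻¹ * a * g)) ^ (2 * m + 1) = 1 := by rw [← hm]; exact pow_orderOf_eq_one _
    have hZa := inv_conj a (g⁻¹ * a * g) ha2 hb2 m
    have hZb := inv_conj' a (g⁻¹ * a * g) ha2 hb2 m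
    have hZZ : (a * (g⁻¹ * a * g)) ^ m * (a * (g⁻¹ * a * g)) ^ m * (a * (g⁻¹ * a * g)) = 1 := by
      rw [← pow_add, ← pow_succ]
      have : m + m + 1 = 2 * m + 1 := by ring
      rw [this]; exact hz
    show g * (a * (g⁻¹ * a * g)) ^ m * a = a * (g * (a * (g⁻¹ * a * g)) ^ m)
    exact alg1 a g g⁻¹ (g⁻¹ * a * g) ((a * (g⁻¹ * a * g)) ^ m) ((a * (g⁻¹ * a * g)) ^ m)⁻¹ ha2 hb2 (inv_mul_cancel g) (mul_inv_cancel g)
      (inv_mul_cancel _) (mul_inv_cancel _) rfl hZa hZb hZZ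
  · intro m hm
    constructor
    · apply comm_of a _ ha2 hb2 m
      rw [← hm]; exact pow_orderOf_eq_one _
    · apply comm_of a _ ha2 hc2 m
      have hw : a * (g * a * g⁻¹) = g * (a * (g⁻¹ * a * g))⁻¹ * g⁻¹ := by
        rw [mul_inv_rev, mul_inv_rev, mul_inv_rev, hai, inv_inv]; group
      have ho : orderOf (a * (g * a * g⁻¹)) = 2 * m := by
        rw [hw, ← hm]
        have h1 : orderOf (g * (a * (g⁻¹ * a * g))⁻¹ * g⁻¹) = orderOf ((a * (g⁻¹ * a * g))⁻¹) := by
          have := orderOf_injective (MulAut.conj g).toMonoidHom (MulAut.conj g).injective ((a * (g⁻¹ * a * g))⁻¹)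
          simpa using this
        rw [h1, orderOf_inv]
      rw [← ho]; exact pow_orderOf_eq_one _

end Cfsg.Agent.S0442
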