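import Cfsg.Statements.S0443
import Mathlib

set_option autoImplicit false
open Cfsg

namespace Cfsg.Agent.S0443

/-- Two definitions of a 2-central involution agree: an element t of order 2 of a finite group lies in the centre of some Sylow 2-subgroup if and only if its centraliser contains some Sylow 2-subgroup. -/
theorem result {G : Type*} [Group G] [Finite G] (t : G) (ht : orderOf t = 2) : Cfsg.IsTwoCentralInvolution t ↔ ∃ P : Sylow 2 G, (P : Subgroup G) ≤ Subgroup.centralizer ({t} : Set G) := by
  constructor
  · rintro ⟨_, P, _, hcomm⟩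
    refine ⟨P, fun x hx => ?_⟩
    rw [Subgroup.mem_centralizer_iff]
    intro y hy
    rw [Set.mem_singleton_iff] at hy
    subst hy
    exact (hcomm x hx).symm
  · rintro ⟨P, hP⟩
    have hcomm : ∀ x ∈ (P : Subgroup G), x * t = t * x := by
      intro x hx
      have := hP hx
      rw [Subgroup.mem_centralizer_iff] at this
      exact (this t rfl).symm
    refine ⟨ht, P, ?_, fun x hx => hcomm x hx⟩
    -- t ∈ P by maximality
    have hK : IsPGroup 2 (Subgroup.zpowers t) := by
      apply IsPGroup.of_card (n := 1)
      rw [Nat.card_zpowers, ht, pow_one]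
    have hnorm : (P : Subgroup G) ≤ Subgroup.normalizer ((Subgroup.zpowers t : Subgroup G) : Set G) := by
      intro x hx
      rw [Subgroup.mem_normalizer_iff]
      intro n
      have hx' := hcomm x hx
      have key : ∀ n ∈ Subgroup.zpowers t, x * n * x⁻¹ = n := by
        intro n hn
        obtain ⟨k, rfl⟩ := Subgroup.mem_zpowers_iff.mp hn
        have hc : Commute x (t ^ k) := Commute.zpow_right hx' k
        rw [hc.eq, mul_inv_cancel_right]
      constructor
      · intro hn
        rw [key n hn]; exact hn
      · intro hn
        have h1 := key _ hn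
        have h3 : x * n * x⁻¹ = n := by
          have h4 : x⁻¹ * (x * (x * n * x⁻¹) * x⁻¹) * x = x⁻¹ * (x * n * x⁻¹) * x := by rw [h1]
          have h5 : x⁻¹ * (x * (x * n * x⁻¹) * x⁻¹) * x = x * n * x⁻¹ := by group
          have h6 : x⁻¹ * (x * n * x⁻¹) * x = n := by group
          rw [h5, h6] at h4
          exact h4
        rw [← h3]; exact hn
    have hQ : IsPGroup 2 ((P : Subgroup G) ⊔ Subgroup.zpowers t : Subgroup G) :=
      IsPGroup.to_sup_of_normal_right' P.isPGroup' hK hnorm
    have hmax := P.is_maximal' hQ le_sup_left
    have : t ∈ (P : Subgroup G) ⊔ Subgroup.zpowers t :=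
      (le_sup_right : Subgroup.zpowers t ≤ _) (Subgroup.mem_zpowers t)
    rw [hmax] at this
    exact this

end Cfsg.Agent.S0443
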