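import Cfsg.Statements.S0444
import Mathlib
import Cfsg.Agent.Lib.Helper6.OrderSix
-- import your own Cfsg.Agent.* helpers here

set_option autoImplicit false
open Cfsg

namespace Cfsg.Agent.S0444



/-- Two members of a set of 3-transpositions which do not commute generate a subgroup isomorphic to the symmetric group on three letters. -/
theorem result {G : Type*} [Group G] {E : Set G} (hE : Cfsg.IsThreeTranspositionSet E) {d e : G} (hd : d ∈ E) (he : e ∈ E) (h : ¬ Commute d e) : Nonempty (Subgroup.closure ({d, e} : Set G) ≃* Equiv.Perm (Fin 3)) := by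
  classical
  haveI : Fact (Nat.Prime 3) := ⟨by norm_num⟩
  obtain ⟨hord, h23⟩ := hE
  have hd2 : d * d = 1 := by
    have := hord d hd; rw [← pow_two, ← this]; exact pow_orderOf_eq_one d
  have he2 : e * e = 1 := by
    have := hord e he; rw [← pow_two, ← this]; exact pow_orderOf_eq_one e
  have hdinv : d⁻¹ = d := inv_eq_of_mul_eq_one_left hd2
  have heinv : e⁻¹ = e := inv_eq_of_mul_eq_one_left he2
  have h3 : (d * e) ^ 3 = 1 := by
    rcases h23 d hd e he with h2 | h3
    · exfalso; apply h
      have : d * e * (d * e) = 1 := by rw [← pow_two]; exact h2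
      have h' : d * e = (d * e)⁻¹ := eq_inv_of_mul_eq_one_left this
      rw [mul_inv_rev, hdinv, heinv] at h'
      exact h'
    · exact h3
  have hede : e * d * e = d * e * d := by
    have h1 : d * e * (d * e) * (d * e) = 1 := by
      rw [show (3 : ℕ) = 2 + 1 from rfl, pow_succ, pow_two] at h3; exact h3
    calc e * d * e = d⁻¹ * (d * e * (d * e) * (d * e)) * (e⁻¹ * d⁻¹) := by group
      _ = d * e * d := by rw [h1, hdinv, heinv]; group
  obtain ⟨T, hT⟩ : ∃ T : Finset G, T = {1, d, e, d * e, e * d, d * e * d} := ⟨_, rfl⟩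
  have hmemT : ∀ y, y ∈ T ↔ (y = 1 ∨ y = d ∨ y = e ∨ y = d * e ∨ y = e * d ∨ y = d * e * d) := by
    intro y; rw [hT]; simp only [Finset.mem_insert, Finset.mem_singleton]
  have hstep : ∀ y ∈ T, d * y ∈ T ∧ e * y ∈ T := by
    intro y hy
    rw [hmemT] at hy
    rw [hmemT, hmemT]
    rcases hy with h | h | h | h | h | h
    · rw [h]
      exact ⟨Or.inr (Or.inl (mul_one d)), Or.inr (Or.inr (Or.inl (mul_one e)))⟩
    · rw [h]
      exact ⟨Or.inl hd2, Or.inr (Or.inr (Or.inr (Or.inr (Or.inl rfl))))⟩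
    · rw [h]
      exact ⟨Or.inr (Or.inr (Or.inr (Or.inl rfl))), Or.inl he2⟩
    · rw [h]
      refine ⟨Or.inr (Or.inr (Or.inl ?_)), Or.inr (Or.inr (Or.inr (Or.inr (Or.inr ?_))))⟩
      · rw [← mul_assoc, hd2, one_mul]
      · rw [← mul_assoc, hede]
    · rw [h]
      refine ⟨Or.inr (Or.inr (Or.inr (Or.inr (Or.inr ?_)))), Or.inr (Or.inl ?_)⟩
      · rw [mul_assoc]
      · rw [← mul_assoc, he2, one_mul]
    · rw [h]
      refine ⟨Or.inr (Or.inr (Or.inr (Or.inr (Or.inl ?_)))), Or.inr (Or.inr (Or.inr (Or.inl ?_)))⟩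
      · rw [← mul_assoc, ← mul_assoc, hd2, one_mul]
      · rw [← mul_assoc, ← mul_assoc, hede, mul_assoc (d * e), hd2, mul_one]
  have hsub : ∀ x ∈ Subgroup.closure ({d, e} : Set G), x ∈ T := by
    intro x hx
    induction hx using Subgroup.closure_induction_left with
    | one => rw [hmemT]; exact Or.inl rfl
    | mul_left x hx y hy ih =>
      rcases hx with h | h
      · rw [h]; exact (hstep y ih).1
      · rw [Set.mem_singleton_iff] at h; rw [h]; exact (hstep y ih).2
    | inv_mul_cancel x hx y hy ih =>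
      rcases hx with h | h
      · rw [h, hdinv]; exact (hstep y ih).1
      · rw [Set.mem_singleton_iff] at h; rw [h, heinv]; exact (hstep y ih).2
  obtain ⟨H, hH⟩ : ∃ H : Subgroup G, H = Subgroup.closure ({d, e} : Set G) := ⟨_, rfl⟩
  rw [← hH]
  rw [← hH] at hsub
  have hsub' : (H : Set G) ⊆ (T : Set G) := fun x hx => Finset.mem_coe.mpr (hsub x hx)
  have hfin : (H : Set G).Finite := (Finset.finite_toSet T).subset hsub'
  haveI : Finite H := hfin.to_subtype
  have hle6 : Nat.card H ≤ 6 := by
    have h1 : Nat.card H = (H : Set G).ncard := (Nat.card_coe_set_eq _)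
    have h2 := Set.ncard_le_ncard hsub' (Finset.finite_toSet T)
    rw [Set.ncard_coe_finset] at h2
    have h3 : T.card ≤ 6 := by rw [hT]; exact Finset.card_le_six
    omega
  have hdH : d ∈ H := by rw [hH]; exact Subgroup.subset_closure (by simp)
  have heH : e ∈ H := by rw [hH]; exact Subgroup.subset_closure (by simp)
  have h2dvd : 2 ∣ Nat.card H := by
    have := orderOf_dvd_natCard (⟨d, hdH⟩ : H)
    rwa [Subgroup.orderOf_mk, hord d hd] at this
  have hde1 : d * e ≠ 1 := by
    intro h1
    apply h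
    have : e = d := by rw [← hdinv]; exact (eq_inv_of_mul_eq_one_right h1)
    rw [this]
    first | done | exact Commute.refl d
  have h3dvd : 3 ∣ Nat.card H := by
    have := orderOf_dvd_natCard (⟨d * e, mul_mem hdH heH⟩ : H)
    rwa [Subgroup.orderOf_mk, orderOf_eq_prime h3 hde1] at this
  have h6 : Nat.card H = 6 := by
    have hpos : 0 < Nat.card H := Nat.card_pos
    omega
  exact Cfsg.Agent.Lib.Helper6.nonempty_mulEquiv_perm_fin_three h6
    ⟨⟨d, hdH⟩, ⟨e, heH⟩, fun hc => h (congrArg Subtype.val hc)⟩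

end Cfsg.Agent.S0444
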