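import Cfsg.Statements.S0445
import Mathlib

set_option autoImplicit false
open Cfsg

namespace Cfsg.Agent.S0445


theorem det_eq (M : Matrix (Fin 5) (Fin 5) (ZMod 2)) (h0 : ∀ i : Fin 4, M i.succ 0 = 0)
    (h1 : ∀ j : Fin 3, M 1 j.succ.succ = 0) :
    M.det = M 0 0 * M 1 1
      * (M.submatrix (fun i : Fin 3 => i.succ.succ) (fun j : Fin 3 => j.succ.succ)).det := by
  rw [Matrix.det_succ_column_zero, Fin.sum_univ_succ]
  have htail : ∑ i : Fin 4, (-1 : ZMod 2) ^ ((i.succ : Fin 5) : ℕ) * M i.succ 0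
      * (M.submatrix i.succ.succAbove Fin.succ).det = 0 :=
    Finset.sum_eq_zero (fun i _ => by rw [h0 i]; ring)
  rw [htail, add_zero]
  simp only [Fin.val_zero, pow_zero, one_mul, Fin.succAbove_zero]
  rw [Matrix.det_succ_row_zero, Fin.sum_univ_succ]
  have htail2 : ∑ j : Fin 3, (-1 : ZMod 2) ^ ((j.succ : Fin 4) : ℕ)
      * (M.submatrix Fin.succ Fin.succ) 0 j.succ
      * ((M.submatrix Fin.succ Fin.succ).submatrix Fin.succ j.succ.succAbove).det = 0 :=
    Finset.sum_eq_zero (fun j _ => by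
      have h : (M.submatrix Fin.succ Fin.succ) 0 j.succ = 0 := h1 j
      rw [h]; ring)
  rw [htail2, add_zero]
  simp only [Fin.val_zero, pow_zero, one_mul, Fin.succAbove_zero, Matrix.submatrix_apply,
    Matrix.submatrix_submatrix]
  rw [mul_assoc]
  rfl

theorem ne_one_cases : ∀ j : Fin 5, j ≠ 1 → j = 0 ∨ ∃ k : Fin 3, j = k.succ.succ := by decide

theorem comm_iff (M : Matrix (Fin 5) (Fin 5) (ZMod 2)) :
    M * Matrix.transvection 0 1 1 = Matrix.transvection 0 1 1 * M ↔
      (∀ i : Fin 4, M i.succ 0 = 0) ∧ (∀ j : Fin 3, M 1 j.succ.succ = 0) ∧ M 0 0 = M 1 1 := by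
  have key : M * Matrix.transvection 0 1 1 = Matrix.transvection 0 1 1 * M ↔
      ∀ i j : Fin 5, (if j = 1 then M i 0 else 0) = (if i = 0 then M 1 j else 0) := by
    rw [Matrix.transvection, Matrix.mul_add, Matrix.add_mul, Matrix.mul_one, Matrix.one_mul,
      add_right_inj, ← Matrix.ext_iff]
    refine forall_congr' (fun i => forall_congr' (fun j => ?_))
    have e1 : (M * Matrix.single (0 : Fin 5) (1 : Fin 5) (1 : ZMod 2)) i j
        = if j = 1 then M i 0 else 0 := by
      by_cases hj : j = 1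
      · subst hj
        rw [Matrix.mul_single_apply_same, if_pos rfl, mul_one]
      · rw [Matrix.mul_single_apply_of_ne (hbj := hj), if_neg hj]
    have e2 : (Matrix.single (0 : Fin 5) (1 : Fin 5) (1 : ZMod 2) * M) i j
        = if i = 0 then M 1 j else 0 := by
      by_cases hi : i = 0
      · subst hi
        rw [Matrix.single_mul_apply_same, if_pos rfl, one_mul]
      · rw [Matrix.single_mul_apply_of_ne (h := hi), if_neg hi]
    rw [e1, e2]
  rw [key]
  constructor
  · intro h
    refine ⟨fun i => ?_, fun j => ?_, ?_⟩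
    · have := h i.succ 1
      simpa [Fin.succ_ne_zero] using this
    · have := h 0 j.succ.succ
      have hne : (j.succ.succ : Fin 5) ≠ 1 := by
        intro h'; exact absurd (Fin.succ_injective _ h') (Fin.succ_ne_zero j)
      simpa [hne] using this.symm
    · have := h 0 1
      simpa using this
  · rintro ⟨h0, h1, h2⟩ i j
    by_cases hi : i = 0 <;> by_cases hj : j = 1
    · subst hi; subst hj; simpa using h2
    · subst hi
      rw [if_neg hj, if_pos rfl]
      rcases ne_one_cases j hj with rfl | ⟨k, rfl⟩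
      · exact (h0 0).symm
      · exact (h1 k).symm
    · subst hj
      obtain ⟨k, rfl⟩ := Fin.exists_succ_eq.2 hi
      rw [if_pos rfl, if_neg hi]
      exact h0 k
    · rw [if_neg hj, if_neg hi]

/-- The matrix with first column `e₀`, second row `e₁`, and the given remaining entries. -/
def mk (u : Fin 4 → ZMod 2) (w : Fin 3 → ZMod 2) (A : Matrix (Fin 3) (Fin 3) (ZMod 2)) :
    Matrix (Fin 5) (Fin 5) (ZMod 2) :=
  Matrix.of (fun i j =>
    Fin.cases (motive := fun _ => ZMod 2) (Fin.cases (motive := fun _ => ZMod 2) 1 u j)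
      (fun i' => Fin.cases (motive := fun _ => ZMod 2)
        (Fin.cases (motive := fun _ => ZMod 2) 0
          (fun j' => Fin.cases (motive := fun _ => ZMod 2) 1 (fun _ => 0) j') j)
        (fun i'' => Fin.cases (motive := fun _ => ZMod 2) 0
          (fun j' => Fin.cases (motive := fun _ => ZMod 2) (w i'') (fun j'' => A i'' j'') j') j)
        i') i)

section
variable (u : Fin 4 → ZMod 2) (w : Fin 3 → ZMod 2) (A : Matrix (Fin 3) (Fin 3) (ZMod 2))

theorem mk_00 : mk u w A 0 0 = 1 := rfl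
theorem mk_0s (j : Fin 4) : mk u w A 0 j.succ = u j := by simp [mk]
theorem mk_10 : mk u w A 1 0 = 0 := rfl
theorem mk_11 : mk u w A 1 1 = 1 := rfl
theorem mk_1ss (j : Fin 3) : mk u w A 1 j.succ.succ = 0 := by
  show mk u w A (Fin.succ 0) j.succ.succ = 0
  simp only [mk, Matrix.of_apply, Fin.cases_succ, Fin.cases_zero]
theorem mk_ss0 (i : Fin 3) : mk u w A i.succ.succ 0 = 0 := by simp [mk]
theorem mk_ss1 (i : Fin 3) : mk u w A i.succ.succ 1 = w i := by
  show mk u w A i.succ.succ (Fin.succ 0) = w i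
  simp only [mk, Matrix.of_apply, Fin.cases_succ, Fin.cases_zero]
theorem mk_ssss (i j : Fin 3) : mk u w A i.succ.succ j.succ.succ = A i j := by simp [mk]

theorem mk_col0 (i : Fin 4) : mk u w A i.succ 0 = 0 := by
  refine Fin.cases ?_ (fun i' => ?_) i
  · exact mk_10 u w A
  · exact mk_ss0 u w A i'

end

theorem three : ∀ x y z : ZMod 2, x * y * z = 1 → x = 1 ∧ y = 1 ∧ z = 1 := by decide

theorem blk_det (M : Matrix (Fin 5) (Fin 5) (ZMod 2)) (hdet : M.det = 1)
    (hcomm : M * Matrix.transvection 0 1 1 = Matrix.transvection 0 1 1 * M) :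
    (M.submatrix (fun i : Fin 3 => i.succ.succ) (fun j : Fin 3 => j.succ.succ)).det = 1 := by
  obtain ⟨h0, h1, h2⟩ := (comm_iff M).1 hcomm
  have h := det_eq M h0 h1
  rw [hdet] at h
  exact (three _ _ _ h.symm).2.2

section
variable (u : Fin 4 → ZMod 2) (w : Fin 3 → ZMod 2) (A : Matrix (Fin 3) (Fin 3) (ZMod 2))

theorem mk_blk : (mk u w A).submatrix (fun i : Fin 3 => i.succ.succ)
    (fun j : Fin 3 => j.succ.succ) = A := by
  ext i j
  exact mk_ssss u w A i j

theorem mk_det (hA : A.det = 1) : (mk u w A).det = 1 := by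
  rw [det_eq (mk u w A) (mk_col0 u w A) (mk_1ss u w A), mk_00, mk_11, mk_blk, hA]
  rfl

theorem mk_comm : mk u w A * Matrix.transvection 0 1 1 = Matrix.transvection 0 1 1 * mk u w A :=
  (comm_iff _).2 ⟨mk_col0 u w A, mk_1ss u w A, by rw [mk_00, mk_11]⟩

end

theorem mk_eq (M : Matrix (Fin 5) (Fin 5) (ZMod 2)) (hdet : M.det = 1)
    (hcomm : M * Matrix.transvection 0 1 1 = Matrix.transvection 0 1 1 * M) :
    mk (fun j => M 0 j.succ) (fun i => M i.succ.succ 1)
      (M.submatrix (fun i : Fin 3 => i.succ.succ) (fun j : Fin 3 => j.succ.succ)) = M := by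
  obtain ⟨h0, h1, h2⟩ := (comm_iff M).1 hcomm
  have hd := det_eq M h0 h1
  rw [hdet] at hd
  obtain ⟨h00, h11, -⟩ := three _ _ _ hd.symm
  ext i j
  refine Fin.cases ?_ (fun i' => ?_) i
  · refine Fin.cases ?_ (fun j' => ?_) j
    · rw [mk_00, h00]
    · rw [mk_0s]
  · refine Fin.cases ?_ (fun i'' => ?_) i'
    · refine Fin.cases ?_ (fun j' => ?_) j
      · exact (mk_10 _ _ _).trans (h0 0).symm
      · refine Fin.cases ?_ (fun j'' => ?_) j'
        · exact (mk_11 _ _ _).trans h11.symm
        · exact (mk_1ss _ _ _ j'').trans (h1 j'').symm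
    · refine Fin.cases ?_ (fun j' => ?_) j
      · exact (mk_ss0 _ _ _ i'').trans (h0 i''.succ).symm
      · refine Fin.cases ?_ (fun j'' => ?_) j'
        · exact mk_ss1 _ _ _ i''
        · exact mk_ssss _ _ _ i'' j''

/-- The matrices of determinant one commuting with the transvection, parametrised. -/
def E : {M : Matrix (Fin 5) (Fin 5) (ZMod 2) //
      M.det = 1 ∧ M * Matrix.transvection 0 1 1 = Matrix.transvection 0 1 1 * M}
    ≃ (Fin 4 → ZMod 2) × (Fin 3 → ZMod 2) × {A : Matrix (Fin 3) (Fin 3) (ZMod 2) // A.det = 1} where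
  toFun M := (fun j => M.1 0 j.succ, fun i => M.1 i.succ.succ 1,
    ⟨M.1.submatrix (fun i : Fin 3 => i.succ.succ) (fun j : Fin 3 => j.succ.succ),
      blk_det M.1 M.2.1 M.2.2⟩)
  invFun d := ⟨mk d.1 d.2.1 d.2.2.1, mk_det _ _ _ d.2.2.2, mk_comm _ _ _⟩
  left_inv M := Subtype.ext (mk_eq M.1 M.2.1 M.2.2)
  right_inv d := by
    obtain ⟨u, w, A, hA⟩ := d
    refine Prod.ext ?_ (Prod.ext ?_ (Subtype.ext ?_))
    · funext j; exact mk_0s u w A j
    · funext i; exact mk_ss1 u w A i
    · exact mk_blk u w A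

theorem unit_one : ∀ x : ZMod 2, IsUnit x → x = 1 := by decide

/-- Invertible 3 × 3 matrices over the field with two elements have determinant one. -/
def GLequiv : GL (Fin 3) (ZMod 2) ≃ {A : Matrix (Fin 3) (Fin 3) (ZMod 2) // A.det = 1} where
  toFun g := ⟨(g : Matrix (Fin 3) (Fin 3) (ZMod 2)), unit_one _ (Matrix.isUnits_det_units g)⟩
  invFun A := Matrix.GeneralLinearGroup.mkOfDetNeZero A.1 (by rw [A.2]; exact one_ne_zero)
  left_inv g := Units.ext rfl
  right_inv A := Subtype.ext rfl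

theorem card_det_one : Nat.card {A : Matrix (Fin 3) (Fin 3) (ZMod 2) // A.det = 1} = 168 := by
  rw [← Nat.card_congr GLequiv, Matrix.card_GL_field]
  simp [Fin.prod_univ_three]


/-- The centraliser as a set of matrices. -/
def Cequiv (s : Matrix.SpecialLinearGroup (Fin 5) (ZMod 2))
    (hs : (s : Matrix (Fin 5) (Fin 5) (ZMod 2)) = Matrix.transvection 0 1 1) :
    ↥(Subgroup.centralizer ({s} : Set (Matrix.SpecialLinearGroup (Fin 5) (ZMod 2))))
      ≃ {M : Matrix (Fin 5) (Fin 5) (ZMod 2) //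
        M.det = 1 ∧ M * Matrix.transvection 0 1 1 = Matrix.transvection 0 1 1 * M} where
  toFun g := ⟨(g.1 : Matrix (Fin 5) (Fin 5) (ZMod 2)), g.1.2, by
    have h := (Subgroup.mem_centralizer_iff.1 g.2) s (Set.mem_singleton s)
    have h' := congrArg (fun x : Matrix.SpecialLinearGroup (Fin 5) (ZMod 2) =>
      (x : Matrix (Fin 5) (Fin 5) (ZMod 2))) h
    simp only [Matrix.SpecialLinearGroup.coe_mul, hs] at h'
    exact h'.symm⟩
  invFun M := ⟨(⟨M.1, M.2.1⟩ : Matrix.SpecialLinearGroup (Fin 5) (ZMod 2)),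
    Subgroup.mem_centralizer_iff.2 (by
      intro h hh
      rw [Set.mem_singleton_iff] at hh
      subst hh
      apply Subtype.ext
      show (h : Matrix (Fin 5) (Fin 5) (ZMod 2)) * M.1
        = M.1 * (h : Matrix (Fin 5) (Fin 5) (ZMod 2))
      rw [hs]
      exact M.2.2.symm)⟩
  left_inv g := Subtype.ext (Subtype.ext rfl)
  right_inv M := Subtype.ext rfl

/-- In the special linear group of dimension 5 over the field with two elements, the centraliser of a transvection has order 21504 = 2 ^ 7 · 168 (it is an extension of an extraspecial group of order 2 ^ 7 by the simple group of order 168). -/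
theorem result (s : Matrix.SpecialLinearGroup (Fin 5) (ZMod 2)) (hs : (s : Matrix (Fin 5) (Fin 5) (ZMod 2)) = Matrix.transvection 0 1 1) : Nat.card (Subgroup.centralizer ({s} : Set (Matrix.SpecialLinearGroup (Fin 5) (ZMod 2)))) = 21504 := by
  rw [Nat.card_congr ((Cequiv s hs).trans E), Nat.card_prod, Nat.card_prod, card_det_one]
  simp

end Cfsg.Agent.S0445
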