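import Cfsg.Statements.S0446
import Mathlib

set_option autoImplicit false
open Cfsg

namespace Cfsg.Agent.S0446

/-- Every finite group of even order contains a 2-central involution, i.e. an element of order 2 in the centre of some Sylow 2-subgroup. -/
theorem result {G : Type*} [Group G] [Finite G] (h : Even (Nat.card G)) : ∃ t : G, Cfsg.IsTwoCentralInvolution t := by
  have : Fact (Nat.Prime 2) := ⟨Nat.prime_two⟩
  obtain ⟨P⟩ : Nonempty (Sylow 2 G) := inferInstance
  have h2 : 2 ∣ Nat.card G := even_iff_two_dvd.mp h
  have hPne : (P : Subgroup G) ≠ ⊥ := P.ne_bot_of_dvd_card h2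
  have : Nontrivial (P : Subgroup G) := (Subgroup.nontrivial_iff_ne_bot _).mpr hPne
  have hPp : IsPGroup 2 (P : Subgroup G) := P.isPGroup'
  have : Nontrivial (Subgroup.center (P : Subgroup G)) := hPp.center_nontrivial
  have hZp : IsPGroup 2 (Subgroup.center (P : Subgroup G)) := hPp.to_subgroup _
  have hZcard : 2 ∣ Nat.card (Subgroup.center (P : Subgroup G)) := by
    rcases hZp.card_eq_or_dvd with h1 | h1
    · exfalso
      have := (Finite.one_lt_card_iff_nontrivial (α := Subgroup.center (P : Subgroup G))).mpr inferInstance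
      omega
    · exact h1
  obtain ⟨z, hz⟩ := exists_prime_orderOf_dvd_card' 2 hZcard
  -- z : center P, of order 2
  refine ⟨((z : (P : Subgroup G)) : G), ?_, P, ?_, ?_⟩
  · rw [Subgroup.orderOf_coe, Subgroup.orderOf_coe]; exact hz
  · exact (z : (P : Subgroup G)).2
  · intro x hx
    have := Subgroup.mem_center_iff.mp z.2 ⟨x, hx⟩
    exact congrArg Subtype.val this

end Cfsg.Agent.S0446
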