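import Cfsg.Statements.S0481
import Mathlib

set_option autoImplicit false
open Cfsg

namespace Cfsg.Agent.S0481

/-- Large extraspecial subgroups: let z be an involution of a finite group G whose centraliser C contains a normal 2-subgroup Q with centre of order 2 and all squares central, such that every element of G centralising Q lies in Q. Then C contains a Sylow 2-subgroup of G, and any involution of G whose centraliser contains a Sylow 2-subgroup of G is conjugate to z. -/
theorem result {G : Type*} [Group G] [Finite G] (z : G) (hz : orderOf z = 2) (Q : Subgroup G) (hQC : Q ≤ Subgroup.centralizer ({z} : Set G)) (hQn : ∀ g ∈ Subgroup.centralizer ({z} : Set G), ∀ q ∈ Q, g * q * g⁻¹ ∈ Q) (hQ2 : IsPGroup 2 Q) (hZ : Nat.card (Subgroup.center Q) = 2) (hsq : ∀ x : Q, x ^ 2 ∈ Subgroup.center Q) (hlarge : Subgroup.centralizer (Q : Set G) ≤ Q) : (∃ P : Sylow 2 G, (P : Subgroup G) ≤ Subgroup.centralizer ({z} : Set G)) ∧ ∀ u : G, orderOf u = 2 → (∃ P : Sylow 2 G, (P : Subgroup G) ≤ Subgroup.centralizer ({u} : Set G)) → IsConj z u :=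 by
  classical
  haveI : Fact (Nat.Prime 2) := ⟨Nat.prime_two⟩
  have hz1 : z ≠ 1 := by
    intro h
    rw [h, orderOf_one] at hz
    omega
  have hzcent : z ∈ Subgroup.centralizer (Q : Set G) := by
    rw [Subgroup.mem_centralizer_iff]
    intro q hq
    have h1 := hQC hq
    rw [Subgroup.mem_centralizer_iff] at h1
    exact (h1 z rfl).symm
  have hzQ : z ∈ Q := hlarge hzcent
  have key : ∀ w : G, w ≠ 1 → (∀ q ∈ Q, q * w = w * q) → w = z := by
    intro w hw1 hw
    have hwQ : w ∈ Q := hlarge (by rw [Subgroup.mem_centralizer_iff]; exact hw)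
    obtain ⟨y, hy, huniq⟩ := (Nat.card_eq_two_iff' (1 : Subgroup.center Q)).1 hZ
    have hzc : (⟨z, hzQ⟩ : Q) ∈ Subgroup.center Q := by
      rw [Subgroup.mem_center_iff]
      rintro ⟨q, hq⟩
      apply Subtype.ext
      exact (Subgroup.mem_centralizer_iff.1 hzcent q hq)
    have hwc : (⟨w, hwQ⟩ : Q) ∈ Subgroup.center Q := by
      rw [Subgroup.mem_center_iff]
      rintro ⟨q, hq⟩
      apply Subtype.ext
      exact hw q hq
    have e1 := huniq ⟨⟨z, hzQ⟩, hzc⟩ (by
      intro h
      apply hz1
      have := congrArg (fun x : Subgroup.center Q => ((x : Q) : G)) h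
      simpa using this)
    have e2 := huniq ⟨⟨w, hwQ⟩, hwc⟩ (by
      intro h
      apply hw1
      have := congrArg (fun x : Subgroup.center Q => ((x : Q) : G)) h
      simpa using this)
    have e3 := e2.trans e1.symm
    have := congrArg (fun x : Subgroup.center Q => ((x : Q) : G)) e3
    simpa using this
  obtain ⟨T, hQT⟩ := hQ2.exists_le_sylow
  have hT : (T : Subgroup G) ≤ Subgroup.centralizer ({z} : Set G) := by
    haveI : Nontrivial (T : Subgroup G) :=
      ⟨⟨⟨z, hQT hzQ⟩, 1, by
        intro h
        apply hz1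
        simpa using congrArg Subtype.val h⟩⟩
    have hTp : IsPGroup 2 (T : Subgroup G) := T.isPGroup'
    haveI := hTp.center_nontrivial
    obtain ⟨w, hw⟩ := exists_ne (1 : Subgroup.center (T : Subgroup G))
    have hwz : ((w : (T : Subgroup G)) : G) = z := by
      apply key
      · intro h
        apply hw
        ext
        exact h
      · intro q hq
        have := Subgroup.mem_center_iff.1 w.2 ⟨q, hQT hq⟩
        exact congrArg Subtype.val this
    intro t ht
    rw [Subgroup.mem_centralizer_iff]
    intro x hx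
    rw [Set.mem_singleton_iff] at hx
    subst hx
    have h1 := Subgroup.mem_center_iff.1 w.2 ⟨t, ht⟩
    have h2 := congrArg Subtype.val h1
    simp only [Subgroup.coe_mul] at h2
    rw [hwz] at h2
    exact h2.symm
  refine ⟨⟨T, hT⟩, ?_⟩
  rintro u hu ⟨P, hP⟩
  obtain ⟨g, hg⟩ := MulAction.exists_smul_eq G T P
  have hu1 : u ≠ 1 := by
    intro h
    rw [h, orderOf_one] at hu
    omega
  have hw : g⁻¹ * u * g = z := by
    apply key
    · intro h
      apply hu1
      have : u = g * (g⁻¹ * u * g) * g⁻¹ := by group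
      rw [this, h]
      group
    · intro q hq
      have hqP : g * q * g⁻¹ ∈ (P : Subgroup G) := by
        rw [← hg, Sylow.coe_subgroup_smul]
        have := Subgroup.smul_mem_pointwise_smul q (MulAut.conj g) (T : Subgroup G) (hQT hq)
        simpa [MulAut.smul_def] using this
      have h1 := Subgroup.mem_centralizer_iff.1 (hP hqP) u rfl
      calc q * (g⁻¹ * u * g) = g⁻¹ * ((g * q * g⁻¹) * u) * g := by group
        _ = g⁻¹ * (u * (g * q * g⁻¹)) * g := by rw [h1]
        _ = g⁻¹ * u * g * q := by group
  rw [isConj_iff]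
  refine ⟨g, ?_⟩
  rw [← hw]
  group
end Cfsg.Agent.S0481
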