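import Cfsg.Statements.S0493
import Mathlib
import Cfsg.Agent.Lib.Lead.CharBurnside
import Cfsg.Agent.Lib.Helper2.SimpleOrder


set_option autoImplicit false
open Cfsg

namespace Cfsg.Agent.S0493

theorem sylow_card_p {G : Type*} [Group G] [Finite G] (p m : ℕ) [Fact p.Prime]
    (hG : Nat.card G = p * m) (hm : ¬ p ∣ m) (P : Sylow p G) :
    Nat.card (P : Subgroup G) = p ∧ (P : Subgroup G).index = m := by
  have hp : p.Prime := Fact.out
  have h1 := Subgroup.card_mul_index (P : Subgroup G)
  rw [hG] at h1
  obtain ⟨k, hk⟩ := IsPGroup.iff_card.1 P.2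
  have h2 : ¬ p ∣ (P : Subgroup G).index := P.not_dvd_index
  rw [hk] at h1 ⊢
  rcases k with _ | _ | k
  · exfalso; apply h2; rw [pow_zero, one_mul] at h1; rw [h1]; exact dvd_mul_right p m
  · rw [zero_add, pow_one] at h1 ⊢
    exact ⟨rfl, Nat.eq_of_mul_eq_mul_left hp.pos h1⟩
  · exfalso; apply hm
    have h3 : p * (p ^ (k + 1) * (P : Subgroup G).index) = p * m := by rw [← h1]; ring
    have h4 := Nat.eq_of_mul_eq_mul_left hp.pos h3
    rw [← h4]
    exact Dvd.intro (p ^ k * (P : Subgroup G).index) (by ring)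

theorem no_simple {G : Type*} [Group G] [Finite G] [IsSimpleGroup G] (p m : ℕ) [Fact p.Prime]
    (hG : Nat.card G = p * m) (hm : ¬ p ∣ m) (hm1 : 1 < m)
    (h : ∀ d, d ∣ m → d % p = 1 → d = 1 ∨ Nat.Coprime (p * m / d) (p - 1)) : False := by
  have hp : p.Prime := Fact.out
  obtain ⟨P⟩ : Nonempty (Sylow p G) := inferInstance
  obtain ⟨hP, hidx⟩ := sylow_card_p p m hG hm P
  obtain ⟨h1, h2, h3⟩ := Cfsg.Agent.Lib.Helper2.sylow_count p P
  rw [hidx] at h2
  have hne : p * m ≠ p := by
    intro h5
    have h6 : p * m = p * 1 := by rw [mul_one]; exact h5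
    have := Nat.eq_of_mul_eq_mul_left hp.pos h6
    omega
  rcases h _ h2 h1 with h4 | h4
  · refine Cfsg.Agent.Lib.Helper2.sylow_not_normal_of_simple p P ?_ ?_ h4
    · rw [hP]; exact hp.one_lt.ne'
    · rw [hP, hG]; exact hne.symm
  · apply Cfsg.Agent.Lib.Helper2.sylow_prime_burnside p P hP
    · rw [hG]; exact hne
    · have h5 : Nat.card (Subgroup.normalizer ((P : Subgroup G) : Set G))
          = p * m / Nat.card (Sylow p G) := by
        rw [← hG, ← h3]; exact (Nat.mul_div_cancel _ Nat.card_pos).symm
      rw [h5]; exact h4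

theorem cyclic_of_paqb {G : Type*} [Group G] [Finite G] [IsSimpleGroup G] (p q a b : ℕ)
    (hp : p.Prime) (hq : q.Prime) (h : Nat.card G = p ^ a * q ^ b) : IsCyclic G := by
  have hs : Group.IsSolvable G :=
    Cfsg.Agent.Lib.Lead.burnside_paqb (Nat.card G) G p q a b hp hq rfl h
  have hc := IsSimpleGroup.comm_iff_isSolvable.2 hs
  obtain ⟨g, hg⟩ := exists_ne (1 : G)
  have hn : (Subgroup.zpowers g).Normal :=
    ⟨fun x hx y => by rw [hc y x, mul_inv_cancel_right]; exact hx⟩
  rcases hn.eq_bot_or_eq_top with h1 | h1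
  · exact absurd (Subgroup.zpowers_eq_bot.1 h1) hg
  · exact ⟨⟨g, fun x => Subgroup.mem_zpowers_iff.1 (h1 ▸ Subgroup.mem_top x)⟩⟩

/-- A finite simple group of order at most 100 that is not cyclic has order 60. -/
theorem result {G : Type*} [Group G] [Finite G] [IsSimpleGroup G]
    (hG : ¬ IsCyclic G) (h : Nat.card G ≤ 100) : Nat.card G = 60 := by
  have hpos : 0 < Nat.card G := Nat.card_pos
  have hpq : ∀ p q a b : ℕ, p.Prime → q.Prime → Nat.card G = p ^ a * q ^ b → False :=
    fun p q a b hp hq hc => hG (cyclic_of_paqb p q a b hp hq hc)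
  have hns : ∀ (p m : ℕ), p.Prime → Nat.card G = p * m → ¬ p ∣ m → 1 < m →
      (∀ d, d ∣ m → d % p = 1 → d = 1 ∨ Nat.Coprime (p * m / d) (p - 1)) → False := by
    intro p m hp
    haveI : Fact p.Prime := ⟨hp⟩
    exact no_simple p m
  obtain ⟨n, hn⟩ : ∃ n, n = Nat.card G := ⟨_, rfl⟩
  rw [← hn] at h hpos hpq hns ⊢
  clear hn
  interval_cases n
  · exact (hpq 2 3 0 0 (by norm_num) (by norm_num) (by norm_num)).elim
  · exact (hpq 2 3 1 0 (by norm_num) (by norm_num) (by norm_num)).elim
  · exact (hpq 3 2 1 0 (by norm_num) (by norm_num) (by norm_num)).elim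
  · exact (hpq 2 3 2 0 (by norm_num) (by norm_num) (by norm_num)).elim
  · exact (hpq 5 2 1 0 (by norm_num) (by norm_num) (by norm_num)).elim
  · exact (hpq 2 3 1 1 (by norm_num) (by norm_num) (by norm_num)).elim
  · exact (hpq 7 2 1 0 (by norm_num) (by norm_num) (by norm_num)).elim
  · exact (hpq 2 3 3 0 (by norm_num) (by norm_num) (by norm_num)).elim
  · exact (hpq 3 2 2 0 (by norm_num) (by norm_num) (by norm_num)).elim
  · exact (hpq 2 5 1 1 (by norm_num) (by norm_num) (by norm_num)).elim
  · exact (hpq 11 2 1 0 (by norm_num) (by norm_num) (by norm_num)).elim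
  · exact (hpq 2 3 2 1 (by norm_num) (by norm_num) (by norm_num)).elim
  · exact (hpq 13 2 1 0 (by norm_num) (by norm_num) (by norm_num)).elim
  · exact (hpq 2 7 1 1 (by norm_num) (by norm_num) (by norm_num)).elim
  · exact (hpq 3 5 1 1 (by norm_num) (by norm_num) (by norm_num)).elim
  · exact (hpq 2 3 4 0 (by norm_num) (by norm_num) (by norm_num)).elim
  · exact (hpq 17 2 1 0 (by norm_num) (by norm_num) (by norm_num)).elim
  · exact (hpq 2 3 1 2 (by norm_num) (by norm_num) (by norm_num)).elim
  · exact (hpq 19 2 1 0 (by norm_num) (by norm_num) (by norm_num)).elim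
  · exact (hpq 2 5 2 1 (by norm_num) (by norm_num) (by norm_num)).elim
  · exact (hpq 3 7 1 1 (by norm_num) (by norm_num) (by norm_num)).elim
  · exact (hpq 2 11 1 1 (by norm_num) (by norm_num) (by norm_num)).elim
  · exact (hpq 23 2 1 0 (by norm_num) (by norm_num) (by norm_num)).elim
  · exact (hpq 2 3 3 1 (by norm_num) (by norm_num) (by norm_num)).elim
  · exact (hpq 5 2 2 0 (by norm_num) (by norm_num) (by norm_num)).elim
  · exact (hpq 2 13 1 1 (by norm_num) (by norm_num) (by norm_num)).elim
  · exact (hpq 3 2 3 0 (by norm_num) (by norm_num) (by norm_num)).elim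
  · exact (hpq 2 7 2 1 (by norm_num) (by norm_num) (by norm_num)).elim
  · exact (hpq 29 2 1 0 (by norm_num) (by norm_num) (by norm_num)).elim
  · exact (hns 5 6 (by norm_num) (by norm_num) (by norm_num) (by norm_num) (by
      intro d hd hmod
      have hle := Nat.le_of_dvd (by norm_num) hd
      interval_cases d <;> first | omega | (left; rfl) | (right; decide))).elim
  · exact (hpq 31 2 1 0 (by norm_num) (by norm_num) (by norm_num)).elim
  · exact (hpq 2 3 5 0 (by norm_num) (by norm_num) (by norm_num)).elim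
  · exact (hpq 3 11 1 1 (by norm_num) (by norm_num) (by norm_num)).elim
  · exact (hpq 2 17 1 1 (by norm_num) (by norm_num) (by norm_num)).elim
  · exact (hpq 5 7 1 1 (by norm_num) (by norm_num) (by norm_num)).elim
  · exact (hpq 2 3 2 2 (by norm_num) (by norm_num) (by norm_num)).elim
  · exact (hpq 37 2 1 0 (by norm_num) (by norm_num) (by norm_num)).elim
  · exact (hpq 2 19 1 1 (by norm_num) (by norm_num) (by norm_num)).elim
  · exact (hpq 3 13 1 1 (by norm_num) (by norm_num) (by norm_num)).elim
  · exact (hpq 2 5 3 1 (by norm_num) (by norm_num) (by norm_num)).elim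
  · exact (hpq 41 2 1 0 (by norm_num) (by norm_num) (by norm_num)).elim
  · exact (hns 7 6 (by norm_num) (by norm_num) (by norm_num) (by norm_num) (by
      intro d hd hmod
      have hle := Nat.le_of_dvd (by norm_num) hd
      interval_cases d <;> first | omega | (left; rfl) | (right; decide))).elim
  · exact (hpq 43 2 1 0 (by norm_num) (by norm_num) (by norm_num)).elim
  · exact (hpq 2 11 2 1 (by norm_num) (by norm_num) (by norm_num)).elim
  · exact (hpq 3 5 2 1 (by norm_num) (by norm_num) (by norm_num)).elim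
  · exact (hpq 2 23 1 1 (by norm_num) (by norm_num) (by norm_num)).elim
  · exact (hpq 47 2 1 0 (by norm_num) (by norm_num) (by norm_num)).elim
  · exact (hpq 2 3 4 1 (by norm_num) (by norm_num) (by norm_num)).elim
  · exact (hpq 7 2 2 0 (by norm_num) (by norm_num) (by norm_num)).elim
  · exact (hpq 2 5 1 2 (by norm_num) (by norm_num) (by norm_num)).elim
  · exact (hpq 3 17 1 1 (by norm_num) (by norm_num) (by norm_num)).elim
  · exact (hpq 2 13 2 1 (by norm_num) (by norm_num) (by norm_num)).elim
  · exact (hpq 53 2 1 0 (by norm_num) (by norm_num) (by norm_num)).elim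
  · exact (hpq 2 3 1 3 (by norm_num) (by norm_num) (by norm_num)).elim
  · exact (hpq 5 11 1 1 (by norm_num) (by norm_num) (by norm_num)).elim
  · exact (hpq 2 7 3 1 (by norm_num) (by norm_num) (by norm_num)).elim
  · exact (hpq 3 19 1 1 (by norm_num) (by norm_num) (by norm_num)).elim
  · exact (hpq 2 29 1 1 (by norm_num) (by norm_num) (by norm_num)).elim
  · exact (hpq 59 2 1 0 (by norm_num) (by norm_num) (by norm_num)).elim
  · rfl
  · exact (hpq 61 2 1 0 (by norm_num) (by norm_num) (by norm_num)).elim
  · exact (hpq 2 31 1 1 (by norm_num) (by norm_num) (by norm_num)).elim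
  · exact (hpq 3 7 2 1 (by norm_num) (by norm_num) (by norm_num)).elim
  · exact (hpq 2 3 6 0 (by norm_num) (by norm_num) (by norm_num)).elim
  · exact (hpq 5 13 1 1 (by norm_num) (by norm_num) (by norm_num)).elim
  · exact (hns 11 6 (by norm_num) (by norm_num) (by norm_num) (by norm_num) (by
      intro d hd hmod
      have hle := Nat.le_of_dvd (by norm_num) hd
      interval_cases d <;> first | omega | (left; rfl) | (right; decide))).elim
  · exact (hpq 67 2 1 0 (by norm_num) (by norm_num) (by norm_num)).elim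
  · exact (hpq 2 17 2 1 (by norm_num) (by norm_num) (by norm_num)).elim
  · exact (hpq 3 23 1 1 (by norm_num) (by norm_num) (by norm_num)).elim
  · exact (hns 7 10 (by norm_num) (by norm_num) (by norm_num) (by norm_num) (by
      intro d hd hmod
      have hle := Nat.le_of_dvd (by norm_num) hd
      interval_cases d <;> first | omega | (left; rfl) | (right; decide))).elim
  · exact (hpq 71 2 1 0 (by norm_num) (by norm_num) (by norm_num)).elim
  · exact (hpq 2 3 3 2 (by norm_num) (by norm_num) (by norm_num)).elim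
  · exact (hpq 73 2 1 0 (by norm_num) (by norm_num) (by norm_num)).elim
  · exact (hpq 2 37 1 1 (by norm_num) (by norm_num) (by norm_num)).elim
  · exact (hpq 3 5 1 2 (by norm_num) (by norm_num) (by norm_num)).elim
  · exact (hpq 2 19 2 1 (by norm_num) (by norm_num) (by norm_num)).elim
  · exact (hpq 7 11 1 1 (by norm_num) (by norm_num) (by norm_num)).elim
  · exact (hns 13 6 (by norm_num) (by norm_num) (by norm_num) (by norm_num) (by
      intro d hd hmod
      have hle := Nat.le_of_dvd (by norm_num) hd
      interval_cases d <;> first | omega | (left; rfl) | (right; decide))).elim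
  · exact (hpq 79 2 1 0 (by norm_num) (by norm_num) (by norm_num)).elim
  · exact (hpq 2 5 4 1 (by norm_num) (by norm_num) (by norm_num)).elim
  · exact (hpq 3 2 4 0 (by norm_num) (by norm_num) (by norm_num)).elim
  · exact (hpq 2 41 1 1 (by norm_num) (by norm_num) (by norm_num)).elim
  · exact (hpq 83 2 1 0 (by norm_num) (by norm_num) (by norm_num)).elim
  · exact (hns 7 12 (by norm_num) (by norm_num) (by norm_num) (by norm_num) (by
      intro d hd hmod
      have hle := Nat.le_of_dvd (by norm_num) hd
      interval_cases d <;> first | omega | (left; rfl) | (right; decide))).elim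
  · exact (hpq 5 17 1 1 (by norm_num) (by norm_num) (by norm_num)).elim
  · exact (hpq 2 43 1 1 (by norm_num) (by norm_num) (by norm_num)).elim
  · exact (hpq 3 29 1 1 (by norm_num) (by norm_num) (by norm_num)).elim
  · exact (hpq 2 11 3 1 (by norm_num) (by norm_num) (by norm_num)).elim
  · exact (hpq 89 2 1 0 (by norm_num) (by norm_num) (by norm_num)).elim
  · exact (hns 5 18 (by norm_num) (by norm_num) (by norm_num) (by norm_num) (by
      intro d hd hmod
      have hle := Nat.le_of_dvd (by norm_num) hd
      interval_cases d <;> first | omega | (left; rfl) | (right; decide))).elim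
  · exact (hpq 7 13 1 1 (by norm_num) (by norm_num) (by norm_num)).elim
  · exact (hpq 2 23 2 1 (by norm_num) (by norm_num) (by norm_num)).elim
  · exact (hpq 3 31 1 1 (by norm_num) (by norm_num) (by norm_num)).elim
  · exact (hpq 2 47 1 1 (by norm_num) (by norm_num) (by norm_num)).elim
  · exact (hpq 5 19 1 1 (by norm_num) (by norm_num) (by norm_num)).elim
  · exact (hpq 2 3 5 1 (by norm_num) (by norm_num) (by norm_num)).elim
  · exact (hpq 97 2 1 0 (by norm_num) (by norm_num) (by norm_num)).elim
  · exact (hpq 2 7 1 2 (by norm_num) (by norm_num) (by norm_num)).elim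
  · exact (hpq 3 11 2 1 (by norm_num) (by norm_num) (by norm_num)).elim
  · exact (hpq 2 5 2 2 (by norm_num) (by norm_num) (by norm_num)).elim

end Cfsg.Agent.S0493
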