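import Cfsg.Statements.S0499
import Mathlib
import Cfsg.Agent.Lib.Lead.PNilp
import Cfsg.Agent.Lib.Helper6.Basic
import Cfsg.Agent.Lib.Helper1.ConjAct

set_option autoImplicit false
open Cfsg

namespace Cfsg.Agent.S0499

/-- A non-abelian finite simple group of even order has order divisible by 12, 16 or 56. -/
theorem result {G : Type*} [Group G] [Finite G] [IsSimpleGroup G]
    (hG : ¬ IsMulCommutative G) (h2 : Even (Nat.card G)) :
    12 ∣ Nat.card G ∨ 16 ∣ Nat.card G ∨ 56 ∣ Nat.card G := by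
  haveI : Fact (Nat.Prime 2) := ⟨Nat.prime_two⟩
  obtain ⟨P⟩ : Nonempty (Sylow 2 G) := inferInstance
  have hno : ¬ ∃ N : Subgroup G, N.Normal ∧ N.IsComplement' (P : Subgroup G) := by
    rintro ⟨N, hNn, hNc⟩
    rcases hNn.eq_bot_or_eq_top with h | h
    · rw [h] at hNc
      have hPtop : (P : Subgroup G) = ⊤ := Subgroup.isComplement'_bot_left.mp hNc
      have hpg : IsPGroup 2 G := by
        have h3 : IsPGroup 2 (P : Subgroup G) := P.2
        rw [hPtop] at h3
        exact h3.of_equiv Subgroup.topEquiv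
      exact hG ⟨⟨Cfsg.Agent.Lib.Helper6.comm_of_simple_pgroup hpg⟩⟩
    · rw [h] at hNc
      have hPbot : (P : Subgroup G) = ⊥ := Subgroup.isComplement'_top_left.mp hNc
      have := P.not_dvd_index
      rw [hPbot, Subgroup.index_bot] at this
      exact this h2.two_dvd
  rw [Cfsg.Agent.Lib.Lead.frobenius_pnilpotent P] at hno
  push Not at hno
  obtain ⟨Q, hQP, g, hgN, hgcop, hgC⟩ := hno
  have hgpos : 0 < orderOf g := orderOf_pos g
  obtain ⟨h, hh, hhC, r, k, hr, hk⟩ := Cfsg.Agent.Lib.Helper1.exists_prime_pow_order_not_mem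
    (Subgroup.centralizer (Q : Set G)) (orderOf g) g rfl hgpos hgC
  haveI : Fact r.Prime := ⟨hr⟩
  have hk0 : k ≠ 0 := by
    rintro rfl
    rw [pow_zero, orderOf_eq_one_iff] at hk
    exact hhC (hk ▸ Subgroup.one_mem _)
  have hrdvd : r ∣ orderOf g :=
    (hk ▸ dvd_pow_self r hk0 : r ∣ orderOf h).trans (orderOf_dvd_of_mem_zpowers hh)
  have hr2 : r ≠ 2 := by
    rintro rfl
    exact (Nat.Prime.coprime_iff_not_dvd Nat.prime_two).1 hgcop.symm hrdvd
  have hrG : r ∣ Nat.card G := hrdvd.trans (orderOf_dvd_natCard g)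
  have hHp : IsPGroup r (Subgroup.zpowers h) :=
    IsPGroup.of_card (n := k) (by rw [Nat.card_zpowers, hk])
  have hHN : Subgroup.zpowers h ≤ Subgroup.normalizer (Q : Set G) := by
    rw [Subgroup.zpowers_le]; exact (Subgroup.zpowers_le.2 hgN) hh
  have hmod := Cfsg.Agent.Lib.Helper1.card_modEq_card_inf_centralizer Q (Subgroup.zpowers h)
    hHp hHN
  have hQp : IsPGroup 2 Q := P.2.to_le hQP
  obtain ⟨a, ha⟩ := IsPGroup.iff_card.1 hQp
  obtain ⟨F, hF⟩ : ∃ F, F = Q ⊓ Subgroup.centralizer (Subgroup.zpowers h : Set G) := ⟨_, rfl⟩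
  rw [← hF] at hmod
  have hFQ : F ≤ Q := hF ▸ inf_le_left
  have hFdvd : Nat.card F ∣ Nat.card Q := Subgroup.card_dvd_of_le hFQ
  rw [ha] at hFdvd hmod
  obtain ⟨b, hb, hFb⟩ := (Nat.dvd_prime_pow Nat.prime_two).1 hFdvd
  have hFne : F ≠ Q := by
    intro h3
    apply hhC
    have h4 : Q ≤ Subgroup.centralizer (Subgroup.zpowers h : Set G) := by
      rw [← h3, hF]; exact inf_le_right
    rw [Subgroup.le_centralizer_iff] at h4
    exact h4 (Subgroup.mem_zpowers h)
  have hblt : b < a := by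
    rcases hb.lt_or_eq with h3 | h3
    · exact h3
    · exfalso; apply hFne
      exact Subgroup.eq_of_le_of_card_ge hFQ (by rw [ha, hFb, h3])
  rw [hFb] at hmod
  have hQG : 2 ^ a ∣ Nat.card G := ha ▸ Subgroup.card_subgroup_dvd_card Q
  by_cases ha4 : 4 ≤ a
  · right; left
    exact (pow_dvd_pow 2 ha4).trans hQG
  · have ha3 : a ≤ 3 := by omega
    have hdvd : r ∣ 2 ^ a - 2 ^ b :=
      (Nat.modEq_iff_dvd' (Nat.pow_le_pow_right (by norm_num) hblt.le)).1 hmod.symm
    have h2le := hr.two_le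
    have key : (r = 3 ∧ 2 ≤ a) ∨ (r = 7 ∧ a = 3) := by
      clear hmod hQG ha hFb hFdvd hHp hk hrG hrdvd
      interval_cases a <;> interval_cases b <;>
        (have hle : r ≤ 7 := le_trans (Nat.le_of_dvd (by norm_num) hdvd) (by norm_num)
         interval_cases r <;>
          first
          | (exfalso; exact hr2 rfl)
          | (exfalso; norm_num at hr; done)
          | (exfalso; norm_num at hdvd; done)
          | (left; exact ⟨rfl, by norm_num⟩)
          | (right; exact ⟨rfl, rfl⟩))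
    rcases key with ⟨rfl, ha2⟩ | ⟨rfl, rfl⟩
    · left
      have h4 : 2 ^ 2 ∣ Nat.card G := (pow_dvd_pow 2 ha2).trans hQG
      have h12 : 3 * 2 ^ 2 ∣ Nat.card G :=
        Nat.Coprime.mul_dvd_of_dvd_of_dvd (by norm_num) hrG h4
      exact h12
    · right; right
      have h56 : 7 * 2 ^ 3 ∣ Nat.card G :=
        Nat.Coprime.mul_dvd_of_dvd_of_dvd (by norm_num) hrG hQG
      exact h56

end Cfsg.Agent.S0499
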