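import Cfsg.Statements.S0502
import Mathlib
import Cfsg.Agent.Lib.Helper3.PGroup
-- import your own Cfsg.Agent.* helpers here

set_option autoImplicit false
open Cfsg

namespace Cfsg.Agent.S0502


theorem kf_closure {P : Type*} [Group P] [Finite P] (a b : P) (ha : a * a = 1) (hb : b * b = 1)
    (hab : a * b = b * a) (ha1 : a ≠ 1) (hb1 : b ≠ 1) (hne : a ≠ b) :
    IsKleinFour (Subgroup.closure ({a, b} : Set P)) ∧
      ∀ x ∈ Subgroup.closure ({a, b} : Set P), x = 1 ∨ x = a ∨ x = b ∨ x = a * b := by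
  classical
  haveI : Fact (Nat.Prime 2) := ⟨Nat.prime_two⟩
  have hainv : a⁻¹ = a := inv_eq_of_mul_eq_one_left ha
  have hbinv : b⁻¹ = b := inv_eq_of_mul_eq_one_left hb
  have hstep : ∀ y : P, (y = 1 ∨ y = a ∨ y = b ∨ y = a * b) →
      (a * y = 1 ∨ a * y = a ∨ a * y = b ∨ a * y = a * b) ∧
      (b * y = 1 ∨ b * y = a ∨ b * y = b ∨ b * y = a * b) := by
    intro y hy
    rcases hy with h | h | h | h
    · rw [h]; exact ⟨Or.inr (Or.inl (mul_one a)), Or.inr (Or.inr (Or.inl (mul_one b)))⟩
    · rw [h]; exact ⟨Or.inl ha, Or.inr (Or.inr (Or.inr hab.symm))⟩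
    · rw [h]; exact ⟨Or.inr (Or.inr (Or.inr rfl)), Or.inl hb⟩
    · rw [h]
      refine ⟨Or.inr (Or.inr (Or.inl ?_)), Or.inr (Or.inl ?_)⟩
      · rw [← mul_assoc, ha, one_mul]
      · rw [← mul_assoc, ← hab, mul_assoc, hb, mul_one]
  have helts : ∀ x ∈ Subgroup.closure ({a, b} : Set P), x = 1 ∨ x = a ∨ x = b ∨ x = a * b := by
    intro x hx
    induction hx using Subgroup.closure_induction_left with
    | one => exact Or.inl rfl
    | mul_left x hx y hy ih =>
      rcases hx with h | h
      · rw [h]; exact (hstep y ih).1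
      · rw [Set.mem_singleton_iff] at h; rw [h]; exact (hstep y ih).2
    | inv_mul_cancel x hx y hy ih =>
      rcases hx with h | h
      · rw [h, hainv]; exact (hstep y ih).1
      · rw [Set.mem_singleton_iff] at h; rw [h, hbinv]; exact (hstep y ih).2
  refine ⟨?_, helts⟩
  obtain ⟨K, hK⟩ : ∃ K : Subgroup P, K = Subgroup.closure ({a, b} : Set P) := ⟨_, rfl⟩
  rw [← hK] at helts ⊢
  have haK : a ∈ K := by rw [hK]; exact Subgroup.subset_closure (by simp)
  have hbK : b ∈ K := by rw [hK]; exact Subgroup.subset_closure (by simp)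
  have hsq : ∀ x : K, x ^ 2 = 1 := by
    intro x
    apply Subtype.ext
    show (x : P) ^ 2 = 1
    rw [pow_two]
    rcases helts x x.2 with h | h | h | h
    · rw [h, one_mul]
    · rw [h, ha]
    · rw [h, hb]
    · rw [h]
      calc a * b * (a * b) = a * (b * a) * b := by group
        _ = a * (a * b) * b := by rw [hab]
        _ = (a * a) * (b * b) := by group
        _ = 1 := by rw [ha, hb, one_mul]
  refine ⟨?_, ?_⟩
  · have hle : Nat.card K ≤ 4 := by
      have hsub : (K : Set P) ⊆ (({1, a, b, a * b} : Finset P) : Set P) := by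
        intro x hx
        have h0 := helts x hx
        simp only [Finset.coe_insert, Finset.coe_singleton, Set.mem_insert_iff,
          Set.mem_singleton_iff]
        exact h0
      have h2 := Set.ncard_le_ncard hsub (Finset.finite_toSet _)
      rw [Set.ncard_coe_finset] at h2
      have h3 : ({1, a, b, a * b} : Finset P).card ≤ 4 := Finset.card_le_four
      have h1 : Nat.card K = (K : Set P).ncard := (Nat.card_coe_set_eq _)
      omega
    have h2dvd : 2 ∣ Nat.card K := by
      have h0 := orderOf_dvd_natCard (⟨a, haK⟩ : K)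
      rwa [Subgroup.orderOf_mk, orderOf_eq_prime (p := 2) (by rw [pow_two]; exact ha) ha1] at h0
    have hge : 3 ≤ Nat.card K := by
      have hsub : ((({1, a, b} : Finset P)) : Set P) ⊆ (K : Set P) := by
        intro x hx
        simp only [Finset.coe_insert, Finset.coe_singleton, Set.mem_insert_iff,
          Set.mem_singleton_iff] at hx
        rcases hx with h | h | h
        · rw [h]; exact one_mem K
        · rw [h]; exact haK
        · rw [h]; exact hbK
      have h2 := Set.ncard_le_ncard hsub (Set.toFinite _)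
      rw [Set.ncard_coe_finset] at h2
      have h3 : ({1, a, b} : Finset P).card = 3 := by
        rw [Finset.card_insert_of_notMem, Finset.card_insert_of_notMem, Finset.card_singleton]
        · simpa using hne
        · simp only [Finset.mem_insert, Finset.mem_singleton, not_or]
          exact ⟨fun h => ha1 h.symm, fun h => hb1 h.symm⟩
      have h1 : Nat.card K = (K : Set P).ncard := (Nat.card_coe_set_eq _)
      omega
    omega
  · have hd : Monoid.exponent K ∣ 2 := Monoid.exponent_dvd_of_forall_pow_eq_one hsq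
    rcases (Nat.dvd_prime Nat.prime_two).mp hd with h | h
    · exfalso
      rw [Monoid.exp_eq_one_iff] at h
      have h0 := congrArg Subtype.val (Subsingleton.elim (⟨a, haK⟩ : K) 1)
      exact ha1 h0
    · exact h

theorem exists_ne_ne {P : Type*} [Group P] [Finite P] (H : Subgroup P) (h : 3 ≤ Nat.card H)
    (z : P) : ∃ w ∈ H, w ≠ 1 ∧ w ≠ z := by
  classical
  by_contra hcon
  push_neg at hcon
  have hsub : (H : Set P) ⊆ {1, z} := fun b hb => by
    by_cases h1 : b = 1
    · simp [h1]
    · simp [hcon b hb h1]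
  have hle := Set.ncard_le_ncard hsub (Set.toFinite _)
  have h2 : ({1, z} : Set P).ncard ≤ 2 := by
    have h0 := Set.ncard_insert_le (1 : P) ({z} : Set P)
    rw [Set.ncard_singleton] at h0
    exact h0
  have h4 : (H : Set P).ncard = Nat.card H := (Nat.card_coe_set_eq _).symm
  omega

theorem cent_card_ge {P : Type*} [Group P] [Finite P] (hP : IsPGroup 2 P) (E : Subgroup P)
    [hEn : E.Normal] (hE : IsMulCommutative E) (hE2 : ∀ e ∈ E, e ^ 2 = 1)
    (hE8 : 8 ≤ Nat.card E) (u : P) (hu : u * u = 1) :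
    4 ≤ Nat.card ↥(E ⊓ Subgroup.centralizer ({u} : Set P)) := by
  classical
  haveI : Fact (Nat.Prime 2) := ⟨Nat.prime_two⟩
  have hEcomm : ∀ a ∈ E, ∀ b ∈ E, a * b = b * a := by
    intro a ha b hb
    have h0 := mul_comm' (⟨a, ha⟩ : E) ⟨b, hb⟩
    exact congrArg Subtype.val h0
  have huinv : u⁻¹ = u := inv_eq_of_mul_eq_one_left hu
  obtain ⟨C, hC⟩ : ∃ C : Subgroup P, C = E ⊓ Subgroup.centralizer ({u} : Set P) := ⟨_, rfl⟩
  rw [← hC]
  have hconj : ∀ e ∈ E, u * e * u⁻¹ ∈ E := fun e he => hEn.conj_mem e he u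
  let φ : ↥E →* ↥E :=
    { toFun := fun e => ⟨(e : P) * (u * e * u⁻¹), mul_mem e.2 (hconj e e.2)⟩
      map_one' := by apply Subtype.ext; simp
      map_mul' := fun x y => by
        apply Subtype.ext
        show ((x : P) * (y : P)) * (u * ((x : P) * (y : P)) * u⁻¹) =
          ((x : P) * (u * (x : P) * u⁻¹)) * ((y : P) * (u * (y : P) * u⁻¹))
        have hc := hEcomm (y : P) y.2 (u * (x : P) * u⁻¹) (hconj x x.2)
        calc ((x : P) * (y : P)) * (u * ((x : P) * (y : P)) * u⁻¹)
            = (x : P) * ((y : P) * (u * (x : P) * u⁻¹)) * (u * (y : P) * u⁻¹) := by group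
          _ = (x : P) * ((u * (x : P) * u⁻¹) * (y : P)) * (u * (y : P) * u⁻¹) := by rw [hc]
          _ = _ := by group }
  have hφ : ∀ e : ↥E, ((φ e : ↥E) : P) = (e : P) * (u * (e : P) * u⁻¹) := fun e => rfl
  have hkerC : ∀ e : φ.ker, ((e : ↥E) : P) ∈ C := by
    intro e
    have h1 : φ (e : ↥E) = 1 := e.2
    have h2 : ((e : ↥E) : P) * (u * ((e : ↥E) : P) * u⁻¹) = 1 := by
      rw [← hφ, h1]; rfl
    rw [hC]
    refine Subgroup.mem_inf.mpr ⟨(e : ↥E).2, ?_⟩
    rw [Subgroup.mem_centralizer_iff]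
    intro h hh
    rw [Set.mem_singleton_iff] at hh
    rw [hh]
    have he2 : ((e : ↥E) : P) * ((e : ↥E) : P) = 1 := by
      rw [← pow_two]; exact hE2 _ (e : ↥E).2
    have h3 : u * ((e : ↥E) : P) * u⁻¹ = ((e : ↥E) : P) :=
      mul_left_cancel (h2.trans he2.symm)
    calc u * ((e : ↥E) : P) = (u * ((e : ↥E) : P) * u⁻¹) * u := by group
      _ = ((e : ↥E) : P) * u := by rw [h3]
  have hrangeC : ∀ e : ↥E, ((φ e : ↥E) : P) ∈ C := by
    intro e
    rw [hC]
    refine Subgroup.mem_inf.mpr ⟨(φ e).2, ?_⟩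
    rw [Subgroup.mem_centralizer_iff]
    intro h hh
    rw [Set.mem_singleton_iff] at hh
    rw [hh, hφ]
    have hc := hEcomm (e : P) e.2 (u * (e : P) * u⁻¹) (hconj e e.2)
    have h1 : u * (u * (e : P) * u⁻¹) = (e : P) * u := by
      calc u * (u * (e : P) * u⁻¹) = (u * u) * (e : P) * u⁻¹ := by group
        _ = (e : P) * u := by rw [hu, one_mul, huinv]
    calc u * ((e : P) * (u * (e : P) * u⁻¹))
        = (u * (e : P) * u⁻¹) * (u * (u * (e : P) * u⁻¹)) := by group
      _ = (u * (e : P) * u⁻¹) * ((e : P) * u) := by rw [h1]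
      _ = ((u * (e : P) * u⁻¹) * (e : P)) * u := by group
      _ = ((e : P) * (u * (e : P) * u⁻¹)) * u := by rw [hc]
  have h1 := Subgroup.card_eq_card_quotient_mul_card_subgroup φ.ker
  have h2 : Nat.card (↥E ⧸ φ.ker) = Nat.card φ.range :=
    Nat.card_congr (QuotientGroup.quotientKerEquivRange φ).toEquiv
  have h3 : Nat.card φ.ker ≤ Nat.card C := by
    apply Nat.card_le_card_of_injective (fun e : φ.ker => (⟨((e : ↥E) : P), hkerC e⟩ : C))
    intro e₁ e₂ h
    apply Subtype.ext; apply Subtype.ext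
    exact congrArg (fun c : C => (c : P)) h
  have h4 : Nat.card φ.range ≤ Nat.card C := by
    apply Nat.card_le_card_of_injective (fun e : φ.range => (⟨((e : ↥E) : P), by
      obtain ⟨x, hx⟩ := e.2; rw [← hx]; exact hrangeC x⟩ : C))
    intro e₁ e₂ h
    apply Subtype.ext; apply Subtype.ext
    exact congrArg (fun c : C => (c : P)) h
  have h5 : 8 ≤ Nat.card C * Nat.card C := by
    calc 8 ≤ Nat.card E := hE8
      _ = Nat.card φ.range * Nat.card φ.ker := by rw [h1, h2]
      _ ≤ Nat.card C * Nat.card C := Nat.mul_le_mul h4 h3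
  obtain ⟨j, hj⟩ := IsPGroup.iff_card.mp (hP.to_subgroup C)
  rw [hj] at h5 ⊢
  rcases j with _ | _ | j
  · norm_num at h5
  · norm_num at h5
  · calc 4 = 2 ^ 2 := by norm_num
      _ ≤ 2 ^ (j + 1 + 1) := Nat.pow_le_pow_right (by norm_num) (by omega)

/-- If a finite 2-group has a normal elementary abelian subgroup of order at least 8, then any two of its Klein
four-subgroups are joined by a chain of Klein four-subgroups with consecutive members commuting elementwise. -/
theorem result {P : Type*} [Group P] [Finite P] (hP : IsPGroup 2 P)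
    (E : Subgroup P) [E.Normal] (hE : IsMulCommutative E) (hE2 : ∀ e ∈ E, e ^ 2 = 1) (hE8 : 8 ≤ Nat.card E) :
    Cfsg.IsFourConnected P := by
  classical
  haveI : Fact (Nat.Prime 2) := ⟨Nat.prime_two⟩
  have hEcomm : ∀ a ∈ E, ∀ b ∈ E, a * b = b * a := by
    intro a ha b hb
    have h0 := mul_comm' (⟨a, ha⟩ : E) ⟨b, hb⟩
    exact congrArg Subtype.val h0
  have hEne : E ≠ ⊥ := by
    intro h; rw [h, Subgroup.card_bot] at hE8; omega
  obtain ⟨z, hzE, hz1, hzZ⟩ :=
    Cfsg.Agent.Lib.Helper3.exists_ne_one_mem_center_of_normal hP E hEne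
  have hzc : ∀ g : P, g * z = z * g := fun g => Subgroup.mem_center_iff.mp hzZ g
  have hz2 : z * z = 1 := by rw [← pow_two]; exact hE2 z hzE
  have hK1 := cent_card_ge hP E hE hE2 hE8
  have hkey : ∀ U : Subgroup P, IsKleinFour U → ∃ A B : Subgroup P, B ≤ E ∧ IsKleinFour B ∧
      IsKleinFour A ∧ (∀ a ∈ U, ∀ b ∈ A, a * b = b * a) ∧ (∀ a ∈ A, ∀ b ∈ B, a * b = b * a) := by
    intro U hU
    have hU4 : Nat.card U = 4 := hU.card_four
    have hUsq : ∀ x ∈ U, x * x = 1 := by
      intro x hx
      have h0 := Monoid.pow_exponent_eq_one (⟨x, hx⟩ : U)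
      rw [hU.exponent_two, pow_two] at h0
      exact congrArg Subtype.val h0
    have hUcomm : ∀ x ∈ U, ∀ y ∈ U, x * y = y * x := by
      intro x hx y hy
      have h0 := mul_comm_of_exponent_two hU.exponent_two (⟨x, hx⟩ : U) ⟨y, hy⟩
      exact congrArg Subtype.val h0
    obtain ⟨u, huU, hu1, huz⟩ := exists_ne_ne U (by omega) z
    have hu2 := hUsq u huU
    obtain ⟨hA, hAel⟩ := kf_closure u z hu2 hz2 (hzc u) hu1 hz1 huz
    obtain ⟨w, hwC, hw1, hwz⟩ := exists_ne_ne (E ⊓ Subgroup.centralizer ({u} : Set P))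
      (by have h0 := hK1 u hu2; omega) z
    obtain ⟨hwE, hwu⟩ := Subgroup.mem_inf.mp hwC
    rw [Subgroup.mem_centralizer_iff] at hwu
    have hwu' : u * w = w * u := hwu u rfl
    have hw2 : w * w = 1 := by rw [← pow_two]; exact hE2 w hwE
    obtain ⟨hB, hBel⟩ := kf_closure z w hz2 hw2 (hzc w).symm hz1 hw1 (Ne.symm hwz)
    refine ⟨Subgroup.closure {u, z}, Subgroup.closure {z, w}, ?_, hB, hA, ?_, ?_⟩
    · rw [Subgroup.closure_le]
      intro x hx
      rcases hx with h | h
      · rw [h]; exact hzE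
      · rw [Set.mem_singleton_iff] at h; rw [h]; exact hwE
    · intro x hx y hy
      rcases hAel y hy with h | h | h | h
      · rw [h, mul_one, one_mul]
      · rw [h]; exact hUcomm x hx u huU
      · rw [h]; exact hzc x
      · rw [h]
        exact ((show Commute x u from hUcomm x hx u huU).mul_right
          (show Commute x z from hzc x)).eq
    · intro x hx y hy
      have hyu : u * y = y * u := by
        rcases hBel y hy with h | h | h | h
        · rw [h, mul_one, one_mul]
        · rw [h]; exact hzc u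
        · rw [h]; exact hwu'
        · rw [h]
          exact ((show Commute u z from hzc u).mul_right (show Commute u w from hwu')).eq
      have hyz : z * y = y * z := (hzc y).symm
      rcases hAel x hx with h | h | h | h
      · rw [h, mul_one, one_mul]
      · rw [h]; exact hyu
      · rw [h]; exact hyz
      · rw [h]
        exact ((show Commute u y from hyu).mul_left (show Commute z y from hyz)).eq
  intro U V hU hV
  obtain ⟨A₁, B₁, hB₁E, hB₁, hA₁, hUA, hAB⟩ := hkey U hU
  obtain ⟨A₂, B₂, hB₂E, hB₂, hA₂, hVA, hAB'⟩ := hkey V hV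
  refine ((((Relation.ReflTransGen.single ⟨hU, hA₁, hUA⟩).tail ⟨hA₁, hB₁, hAB⟩).tail
    ⟨hB₁, hB₂, fun a ha b hb => hEcomm a (hB₁E ha) b (hB₂E hb)⟩).tail
    ⟨hB₂, hA₂, fun b hb a ha => (hAB' a ha b hb).symm⟩).tail
    ⟨hA₂, hV, fun a ha v hv => (hVA v hv a ha).symm⟩

end Cfsg.Agent.S0502
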