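import Cfsg.Statements.S0514
import Mathlib
import Cfsg.Agent.Lib.Lead.SylowAux2
import Cfsg.Agent.Lib.Lead.DihFusion

set_option autoImplicit false
open Cfsg Cfsg.Agent.Lib.Lead

namespace Cfsg.Agent.S0514

open scoped Pointwise commutatorElement

/-- In a finite group whose Sylow 2-subgroups are dihedral of order at least 4, the centralizer of any involution has a
normal subgroup of odd order whose index in the centralizer is a power of 2. -/
theorem result {X : Type*} [Group X] [Finite X]
    (S : Sylow 2 X) (n : ℕ) (hn : 2 ≤ n) (hS : Nonempty ((S : Subgroup X) ≃* DihedralGroup n)) (t : X)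
    (ht : orderOf t = 2) :
    ∃ N : Subgroup (Subgroup.centralizer ({t} : Set X)), N.Normal ∧ Odd (Nat.card N) ∧ ∃ k : ℕ, N.index = 2 ^ k := by
  classical
  obtain ⟨e⟩ := hS
  haveI : NeZero n := ⟨by omega⟩
  have hdih : ∀ d : DihedralGroup n,
      (∃ j, d = DihedralGroup.r j) ∨ (∃ j, d = DihedralGroup.sr j) := by
    intro d
    cases d with
    | r j => exact Or.inl ⟨j, rfl⟩
    | sr j => exact Or.inr ⟨j, rfl⟩
  generalize hC : Subgroup.centralizer ({t} : Set X) = C
  haveI hKn : (Cfsg.pResidual 2 ↥C).Normal := pResidual_normal 2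
  suffices hodd : Odd (Nat.card (Cfsg.pResidual 2 ↥C)) by
    exact ⟨Cfsg.pResidual 2 ↥C, hKn, hodd,
      (IsPGroup.iff_card (p := 2)).mp (isPGroup_quotient_pResidual (G := ↥C) 2)⟩
  have htC : t ∈ C := by
    rw [← hC, Subgroup.mem_centralizer_iff]
    intro y hy
    rw [Set.mem_singleton_iff] at hy
    rw [hy]
  have hCc : ∀ c ∈ C, c * t = t * c := by
    intro c hc
    rw [← hC] at hc
    exact (Subgroup.mem_centralizer_iff.1 hc t (Set.mem_singleton t)).symm
  obtain ⟨t', ht'def⟩ : ∃ t' : ↥C, t' = ⟨t, htC⟩ := ⟨_, rfl⟩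
  have ht'ord : orderOf t' = 2 := by
    rw [ht'def, ← Subgroup.orderOf_coe]; exact ht
  have ht'c : ∀ c : ↥C, c * t' = t' * c := by
    intro c
    apply Subtype.ext
    rw [ht'def]
    exact hCc c.1 c.2
  obtain ⟨R⟩ : Nonempty (Sylow 2 ↥C) := inferInstance
  have ht'R : t' ∈ (R : Subgroup ↥C) := central_invol_mem_sylow R t' ht'c ht'ord
  have hRp : IsPGroup 2 ↥((R : Subgroup ↥C).map C.subtype) := R.isPGroup'.map _
  obtain ⟨g, hg⟩ := sylow_conj_mem S _ hRp
  have hmemS : ∀ q : ↥(R : Subgroup ↥C), g * ((q : ↥C) : X) * g⁻¹ ∈ (S : Subgroup X) :=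
    fun q => hg _ (Subgroup.mem_map.2 ⟨q.1, q.2, rfl⟩)
  let ψ : ↥(R : Subgroup ↥C) →* ↥(S : Subgroup X) :=
    { toFun := fun q => ⟨g * ((q : ↥C) : X) * g⁻¹, hmemS q⟩
      map_one' := by
        apply Subtype.ext
        show g * (1 : X) * g⁻¹ = 1
        group
      map_mul' := by
        intro a b
        apply Subtype.ext
        show g * (((a : ↥C) : X) * ((b : ↥C) : X)) * g⁻¹
          = (g * ((a : ↥C) : X) * g⁻¹) * (g * ((b : ↥C) : X) * g⁻¹)
        group }
  have hψ : Function.Injective ψ := by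
    intro a b hab
    have h2 : g * ((a : ↥C) : X) * g⁻¹ = g * ((b : ↥C) : X) * g⁻¹ := congrArg Subtype.val hab
    exact Subtype.ext (Subtype.ext (mul_left_cancel (mul_right_cancel h2)))
  obtain ⟨φ, hφdef⟩ : ∃ φ : ↥(R : Subgroup ↥C) →* DihedralGroup n, φ = e.toMonoidHom.comp ψ :=
    ⟨_, rfl⟩
  have hφ : Function.Injective φ := by
    rw [hφdef]; exact e.injective.comp hψ
  obtain ⟨tR, htRdef⟩ : ∃ tR : ↥(R : Subgroup ↥C), tR = ⟨t', ht'R⟩ := ⟨_, rfl⟩
  have htRcoe : (tR : ↥C) = t' := by rw [htRdef]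
  have htRc : ∀ q : ↥(R : Subgroup ↥C), φ q * φ tR = φ tR * φ q := by
    intro q
    rw [← map_mul, ← map_mul]
    congr 1
    apply Subtype.ext
    rw [Subgroup.coe_mul, Subgroup.coe_mul, htRcoe]
    exact ht'c q.1
  have htRord : orderOf (φ tR) = 2 := by
    rw [orderOf_injective φ hφ, ← Subgroup.orderOf_coe, htRcoe]; exact ht'ord
  have hinvol : ∀ q : ↥(R : Subgroup ↥C), orderOf (q : ↥C) = orderOf (φ q) := by
    intro q
    rw [orderOf_injective φ hφ, Subgroup.orderOf_coe]
  rcases hdih (φ tR) with ⟨i, hcase⟩ | ⟨i, hcase⟩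
  · -- the involution maps to a rotation
    obtain ⟨M₀, hM₀def⟩ : ∃ M₀ : Subgroup ↥(R : Subgroup ↥C),
        M₀ = (Subgroup.zpowers (DihedralGroup.r (1 : ZMod n))).comap φ := ⟨_, rfl⟩
    obtain ⟨M, hMdef⟩ : ∃ M : Subgroup ↥C, M = M₀.map (R : Subgroup ↥C).subtype := ⟨_, rfl⟩
    have hMmem : ∀ q : ↥(R : Subgroup ↥C), (q : ↥C) ∈ M ↔ ∃ j, φ q = DihedralGroup.r j := by
      intro q
      constructor
      · intro hq
        rw [hMdef] at hq
        obtain ⟨q', hq', hqq⟩ := Subgroup.mem_map.1 hq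
        have hq'q : q' = q := Subtype.ext hqq
        rw [hq'q, hM₀def, Subgroup.mem_comap] at hq'
        obtain ⟨k, hk⟩ := Subgroup.mem_zpowers_iff.1 hq'
        rw [DihedralGroup.r_one_zpow] at hk
        exact ⟨_, hk.symm⟩
      · rintro ⟨j, hj⟩
        rw [hMdef]
        refine Subgroup.mem_map.2 ⟨q, ?_, rfl⟩
        rw [hM₀def, Subgroup.mem_comap, hj, Subgroup.mem_zpowers_iff]
        exact ⟨(j.val : ℤ), by
          rw [DihedralGroup.r_one_zpow, Int.cast_natCast, ZMod.natCast_zmod_val]⟩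
    have hnot : ∀ q : ↥(R : Subgroup ↥C), (q : ↥C) ∉ M → ∃ j, φ q = DihedralGroup.sr j := by
      intro q hq
      rcases hdih (φ q) with ⟨j, hc⟩ | ⟨j, hc⟩
      · exact absurd ((hMmem q).2 ⟨j, hc⟩) hq
      · exact ⟨j, hc⟩
    have hMR : M ≤ (R : Subgroup ↥C) := by rw [hMdef]; exact Subgroup.map_subtype_le _
    have hMc : IsCyclic ↥M := by
      have hM₀c : IsCyclic ↥M₀ := by
        let θ : ↥M₀ →* ↥(Subgroup.zpowers (DihedralGroup.r (1 : ZMod n))) :=
          (φ.comp M₀.subtype).codRestrict _ (fun q => Subgroup.mem_comap.1 (hM₀def.le q.2))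
        have hθ : Function.Injective θ := by
          intro a b hab
          have h1 : φ (a : ↥(R : Subgroup ↥C)) = φ (b : ↥(R : Subgroup ↥C)) :=
            congrArg Subtype.val hab
          exact Subtype.ext (hφ h1)
        exact isCyclic_of_injective θ hθ
      haveI := hM₀c
      rw [hMdef]
      exact isCyclic_of_surjective
        (Subgroup.equivMapOfInjective M₀ _ (Subgroup.subtype_injective _))
        (MulEquiv.surjective _)
    have hmul : ∀ a ∈ (R : Subgroup ↥C), ∀ b ∈ (R : Subgroup ↥C), a ∉ M → b ∉ M →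
        a * b ∈ M := by
      intro a ha b hb haM hbM
      obtain ⟨j, hj⟩ := hnot ⟨a, ha⟩ haM
      obtain ⟨k, hk⟩ := hnot ⟨b, hb⟩ hbM
      exact (hMmem (⟨a, ha⟩ * ⟨b, hb⟩)).2
        ⟨k - j, by rw [map_mul, hj, hk, DihedralGroup.sr_mul_sr]⟩
    have hxx : ∀ x ∈ (R : Subgroup ↥C), x ∉ M →
        orderOf x = 2 ∧ ∀ c : ↥C, c * x * c⁻¹ ∉ M := by
      intro x hxR hxM
      obtain ⟨j, hj⟩ := hnot ⟨x, hxR⟩ hxM
      have hxo : orderOf x = 2 := by
        have := hinvol ⟨x, hxR⟩
        rw [hj, DihedralGroup.orderOf_sr] at this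
        exact this
      refine ⟨hxo, fun c hc => ?_⟩
      obtain ⟨k, hk⟩ := (hMmem ⟨c * x * c⁻¹, hMR hc⟩).1 hc
      have hko : orderOf (DihedralGroup.r k) = 2 := by
        rw [← hk, ← hinvol]
        show orderOf (c * x * c⁻¹) = 2
        rw [orderOf_conj_eq, hxo]
      have hio : orderOf (DihedralGroup.r i) = 2 := by rw [← hcase]; exact htRord
      obtain ⟨hk2, hk0⟩ := dihedral_r_invol k hko
      obtain ⟨hi2, hi0⟩ := dihedral_r_invol i hio
      have hki : k = i := zmod_two_torsion_unique n k i hk2 hk0 hi2 hi0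
      have h1 : (⟨c * x * c⁻¹, hMR hc⟩ : ↥(R : Subgroup ↥C)) = tR := by
        apply hφ
        rw [hk, hcase, hki]
      have h2 : c * x * c⁻¹ = t' := by
        have := congrArg Subtype.val h1
        rw [← htRcoe]; exact this
      have h3 : x = t' := by
        have : x = c⁻¹ * (c * x * c⁻¹) * c := by group
        rw [this, h2, mul_assoc, ← ht'c c, ← mul_assoc, inv_mul_cancel, one_mul]
      apply hxM
      rw [h3, ← htRcoe]
      exact (hMmem tR).2 ⟨i, hcase⟩
    exact odd_card_pResidual_of_transfer R M hMR hMc hmul hxx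
  · -- the involution maps to a reflection
    obtain ⟨M, hMdef⟩ : ∃ M : Subgroup ↥C, M = Subgroup.zpowers t' := ⟨_, rfl⟩
    have hMmem : ∀ x : ↥C, x ∈ M ↔ x = 1 ∨ x = t' := by
      intro x
      rw [hMdef]
      constructor
      · intro hx
        obtain ⟨k, rfl⟩ := Subgroup.mem_zpowers_iff.1 hx
        have h1 : t' ^ k = t' ^ (k % ((orderOf t' : ℕ) : ℤ)) := (zpow_mod_orderOf t' k).symm
        rw [ht'ord] at h1
        have h2 : k % ((2 : ℕ) : ℤ) = 0 ∨ k % ((2 : ℕ) : ℤ) = 1 := by omega
        rcases h2 with h2 | h2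
        · left; rw [h1, h2, zpow_zero]
        · right; rw [h1, h2, zpow_one]
      · rintro (h | h)
        · rw [h]; exact Subgroup.one_mem _
        · rw [h]; exact Subgroup.mem_zpowers _
    have hMR : M ≤ (R : Subgroup ↥C) := by
      rw [hMdef, Subgroup.zpowers_le]; exact ht'R
    have hMc : IsCyclic ↥M := by rw [hMdef]; infer_instance
    have hi2 : ∀ q : ↥(R : Subgroup ↥C), (q : ↥C) ∉ M →
        (∃ j, φ q = DihedralGroup.r j ∧ 2 * j = 0 ∧ j ≠ 0) ∨
        (∃ j, φ q = DihedralGroup.sr j ∧ 2 * (j - i) = 0 ∧ j - i ≠ 0) := by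
      intro q hq
      rw [hMmem] at hq
      have hq' := not_or.1 hq
      have hc := htRc q
      rw [hcase] at hc
      rcases hdih (φ q) with ⟨j, hqc⟩ | ⟨j, hqc⟩
      · left
        rw [hqc, DihedralGroup.r_mul_sr, DihedralGroup.sr_mul_r] at hc
        have h1 : i - j = i + j := DihedralGroup.sr.inj hc
        refine ⟨j, hqc, by linear_combination (-1 : ZMod n) * h1, ?_⟩
        intro hj0
        apply hq'.1
        have : q = 1 := by
          apply hφ
          rw [hqc, map_one, DihedralGroup.one_def, hj0]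
        rw [this]; rfl
      · right
        rw [hqc, DihedralGroup.sr_mul_sr, DihedralGroup.sr_mul_sr] at hc
        have h1 : i - j = j - i := DihedralGroup.r.inj hc
        refine ⟨j, hqc, by linear_combination (-1 : ZMod n) * h1, ?_⟩
        intro h0
        apply hq'.2
        have hji : j = i := sub_eq_zero.1 h0
        have : q = tR := by
          apply hφ
          rw [hqc, hcase, hji]
        rw [this, htRcoe]
    have hback : ∀ q : ↥(R : Subgroup ↥C), (φ q = 1 ∨ φ q = DihedralGroup.sr i) →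
        (q : ↥C) ∈ M := by
      intro q hq
      rw [hMmem]
      rcases hq with hq | hq
      · left
        have : q = 1 := hφ (by rw [hq, map_one])
        rw [this]; rfl
      · right
        have : q = tR := hφ (by rw [hq, hcase])
        rw [this, htRcoe]
    have hmul : ∀ a ∈ (R : Subgroup ↥C), ∀ b ∈ (R : Subgroup ↥C), a ∉ M → b ∉ M →
        a * b ∈ M := by
      intro a ha b hb haM hbM
      apply hback (⟨a, ha⟩ * ⟨b, hb⟩)
      rw [map_mul]
      rcases hi2 ⟨a, ha⟩ haM with ⟨j, hj, hj2, hj0⟩ | ⟨j, hj, hj2, hj0⟩ <;>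
        rcases hi2 ⟨b, hb⟩ hbM with ⟨k, hk, hk2, hk0⟩ | ⟨k, hk, hk2, hk0⟩
      · left
        have hjk : j = k := zmod_two_torsion_unique n j k hj2 hj0 hk2 hk0
        rw [hj, hk, DihedralGroup.r_mul_r, DihedralGroup.one_def, ← hjk]
        congr 1
        linear_combination hj2
      · right
        have hjk : j = k - i := zmod_two_torsion_unique n j (k - i) hj2 hj0 hk2 hk0
        rw [hj, hk, DihedralGroup.r_mul_sr]
        congr 1
        linear_combination -hjk
      · right
        have hjk : j - i = k := zmod_two_torsion_unique n (j - i) k hj2 hj0 hk2 hk0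
        rw [hj, hk, DihedralGroup.sr_mul_r]
        congr 1
        linear_combination hj2 - hjk
      · left
        have hjk : j - i = k - i :=
          zmod_two_torsion_unique n (j - i) (k - i) hj2 hj0 hk2 hk0
        rw [hj, hk, DihedralGroup.sr_mul_sr, DihedralGroup.one_def]
        congr 1
        linear_combination -hjk
    have hxx : ∀ x ∈ (R : Subgroup ↥C), x ∉ M →
        orderOf x = 2 ∧ ∀ c : ↥C, c * x * c⁻¹ ∉ M := by
      intro x hxR hxM
      have hx1 : x ≠ 1 := fun h => hxM ((hMmem x).2 (Or.inl h))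
      have hxt : x ≠ t' := fun h => hxM ((hMmem x).2 (Or.inr h))
      have hxo : orderOf x = 2 := by
        have hφo : orderOf (φ ⟨x, hxR⟩) = 2 := by
          rcases hi2 ⟨x, hxR⟩ hxM with ⟨j, hj, hj2, hj0⟩ | ⟨j, hj, -, -⟩
          · rw [hj]
            apply orderOf_eq_prime
            · rw [pow_two, DihedralGroup.r_mul_r, DihedralGroup.one_def]
              congr 1
              linear_combination hj2
            · intro h
              rw [DihedralGroup.one_def] at h
              exact hj0 (DihedralGroup.r.inj h)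
          · rw [hj, DihedralGroup.orderOf_sr]
        have := hinvol ⟨x, hxR⟩
        rw [hφo] at this
        exact this
      refine ⟨hxo, fun c hc => ?_⟩
      rw [hMmem] at hc
      rcases hc with hc | hc
      · apply hx1
        have : x = c⁻¹ * (c * x * c⁻¹) * c := by group
        rw [this, hc]; group
      · apply hxt
        have : x = c⁻¹ * (c * x * c⁻¹) * c := by group
        rw [this, hc, mul_assoc, ← ht'c c, ← mul_assoc, inv_mul_cancel, one_mul]
    exact odd_card_pResidual_of_transfer R M hMR hMc hmul hxx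

end Cfsg.Agent.S0514
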