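import Cfsg.Statements.S0520
import Mathlib
import Cfsg.Agent.S0502
-- import your own Cfsg.Agent.* helpers here

set_option autoImplicit false
open Cfsg

namespace Cfsg.Agent.S0520

open scoped Pointwise

/-- conjugate of a subgroup -/
def cj {G : Type*} [Group G] (g : G) (W : Subgroup G) : Subgroup G :=
  W.map (MulAut.conj g).toMonoidHom

theorem mem_cj {G : Type*} [Group G] (g x : G) (W : Subgroup G) :
    x ∈ cj g W ↔ g⁻¹ * x * g ∈ W := by
  unfold cj
  rw [Subgroup.mem_map]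
  constructor
  · rintro ⟨w, hw, rfl⟩
    have : g⁻¹ * (MulAut.conj g).toMonoidHom w * g = w := by
      show g⁻¹ * (g * w * g⁻¹) * g = w
      group
    rw [this]; exact hw
  · intro h
    refine ⟨g⁻¹ * x * g, h, ?_⟩
    show g * (g⁻¹ * x * g) * g⁻¹ = x
    group

theorem cj_one {G : Type*} [Group G] (W : Subgroup G) : cj 1 W = W := by
  ext x
  rw [mem_cj]
  simp

theorem cj_mul {G : Type*} [Group G] (g h : G) (W : Subgroup G) :
    cj (g * h) W = cj g (cj h W) := by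
  ext x
  rw [mem_cj, mem_cj, mem_cj]
  have : (g * h)⁻¹ * x * (g * h) = h⁻¹ * (g⁻¹ * x * g) * h := by group
  rw [this]

/-- the commuting relation on four-subgroups -/
def Rk {G : Type*} [Group G] (A B : Subgroup G) : Prop :=
  IsKleinFour A ∧ IsKleinFour B ∧ ∀ a ∈ A, ∀ b ∈ B, a * b = b * a

theorem kf_of_equiv {A B : Type*} [Group A] [Group B] (e : A ≃* B) (h : IsKleinFour A) :
    IsKleinFour B :=
  { card_four := by rw [← Nat.card_congr e.toEquiv]; exact h.card_four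
    exponent_two := by rw [← Monoid.exponent_eq_of_mulEquiv e]; exact h.exponent_two }

theorem kf_cj {G : Type*} [Group G] (g : G) (W : Subgroup G) (h : IsKleinFour W) :
    IsKleinFour (cj g W) :=
  kf_of_equiv (W.equivMapOfInjective (MulAut.conj g).toMonoidHom (MulAut.conj g).injective) h

theorem Rk_cj {G : Type*} [Group G] (g : G) (A B : Subgroup G) (h : Rk A B) :
    Rk (cj g A) (cj g B) := by
  obtain ⟨hA, hB, hc⟩ := h
  refine ⟨kf_cj g A hA, kf_cj g B hB, ?_⟩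
  intro a ha b hb
  rw [mem_cj] at ha hb
  have h1 := hc _ ha _ hb
  calc a * b = g * ((g⁻¹ * a * g) * (g⁻¹ * b * g)) * g⁻¹ := by group
    _ = g * ((g⁻¹ * b * g) * (g⁻¹ * a * g)) * g⁻¹ := by rw [h1]
    _ = b * a := by group

theorem Rk_symm {G : Type*} [Group G] : Symmetric (Rk (G := G)) := by
  intro A B h
  exact ⟨h.2.1, h.1, fun b hb a ha => (h.2.2 a ha b hb).symm⟩

theorem conn_cj {G : Type*} [Group G] (g : G) (A B : Subgroup G)
    (h : Relation.ReflTransGen Rk A B) : Relation.ReflTransGen Rk (cj g A) (cj g B) :=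
  Relation.ReflTransGen.lift (cj g) (fun a b hab => Rk_cj g a b hab) A B h

theorem conn_symm {G : Type*} [Group G] (A B : Subgroup G)
    (h : Relation.ReflTransGen Rk A B) : Relation.ReflTransGen Rk B A := by
  induction h with
  | refl => exact Relation.ReflTransGen.refl
  | tail _ hbc ih => exact Relation.ReflTransGen.head (Rk_symm hbc) ih

theorem four_of_rank0 {X : Type*} [Group X] [Finite X] (h : ¬ Cfsg.PRankLE 2 1 X) :
    ∃ W : Subgroup X, IsKleinFour W := by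
  unfold Cfsg.PRankLE at h
  push_neg at h
  obtain ⟨A, hAc, hA2, hAcard⟩ := h
  have h3 : 3 ≤ Nat.card A := by rw [pow_one] at hAcard; omega
  obtain ⟨a, haA, ha1, _⟩ := Cfsg.Agent.S0502.exists_ne_ne A h3 1
  obtain ⟨b, hbA, hb1, hba⟩ := Cfsg.Agent.S0502.exists_ne_ne A h3 a
  have haa : a * a = 1 := by rw [← sq]; exact hA2 a haA
  have hbb : b * b = 1 := by rw [← sq]; exact hA2 b hbA
  have hab : a * b = b * a := by
    have := hAc.is_comm.comm ⟨a, haA⟩ ⟨b, hbA⟩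
    exact congrArg Subtype.val this
  exact ⟨_, (Cfsg.Agent.S0502.kf_closure a b haa hbb hab ha1 hb1 hba.symm).1⟩

theorem four_of_rank {G : Type*} [Group G] [Finite G] (Q : Subgroup G)
    (h : ¬ Cfsg.PRankLE 2 1 ↥Q) : ∃ W : Subgroup G, W ≤ Q ∧ IsKleinFour W := by
  obtain ⟨W, hW⟩ := four_of_rank0 h
  refine ⟨W.map Q.subtype, ?_,
    kf_of_equiv (W.equivMapOfInjective Q.subtype (Subgroup.subtype_injective Q)) hW⟩
  rintro _ ⟨w, _, rfl⟩
  exact w.2

theorem rank_of_four {G : Type*} [Group G] (Q W : Subgroup G) (hW : W ≤ Q)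
    (hK : IsKleinFour W) : ¬ Cfsg.PRankLE 2 1 ↥Q := by
  intro h
  have hK' : IsKleinFour ↥(W.subgroupOf Q) :=
    kf_of_equiv (Subgroup.subgroupOfEquivOfLe hW).symm hK
  have h1 := h (W.subgroupOf Q) (@IsKleinFour.isMulCommutative _ _ hK') (by
    intro a ha
    have h2 : (⟨a, ha⟩ : ↥(W.subgroupOf Q)) ^ Monoid.exponent ↥(W.subgroupOf Q) = 1 :=
      Monoid.pow_exponent_eq_one _
    rw [hK'.exponent_two] at h2
    exact congrArg Subtype.val h2)
  rw [hK'.card_four] at h1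
  norm_num at h1

theorem conn_of_sub {G : Type*} [Group G] (S : Subgroup G) (hS : Cfsg.IsFourConnected ↥S)
    (U V : Subgroup G) (hU : U ≤ S) (hV : V ≤ S) (hUK : IsKleinFour U) (hVK : IsKleinFour V) :
    Relation.ReflTransGen Rk U V := by
  have h1 := hS (U.subgroupOf S) (V.subgroupOf S)
    (kf_of_equiv (Subgroup.subgroupOfEquivOfLe hU).symm hUK)
    (kf_of_equiv (Subgroup.subgroupOfEquivOfLe hV).symm hVK)
  have hlift : ∀ A B : Subgroup ↥S,
      (IsKleinFour A ∧ IsKleinFour B ∧ ∀ a ∈ A, ∀ b ∈ B, a * b = b * a) →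
      Rk (A.map S.subtype) (B.map S.subtype) := by
    rintro A B ⟨hA, hB, hc⟩
    refine ⟨kf_of_equiv (A.equivMapOfInjective S.subtype (Subgroup.subtype_injective S)) hA,
      kf_of_equiv (B.equivMapOfInjective S.subtype (Subgroup.subtype_injective S)) hB, ?_⟩
    rintro _ ⟨a, ha, rfl⟩ _ ⟨b, hb, rfl⟩
    exact congrArg Subtype.val (hc a ha b hb)
  have h2 : Relation.ReflTransGen Rk ((U.subgroupOf S).map S.subtype)
      ((V.subgroupOf S).map S.subtype) :=
    Relation.ReflTransGen.lift (fun A : Subgroup ↥S => A.map S.subtype) hlift _ _ h1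
  rw [Subgroup.map_subgroupOf_eq_of_le hU, Subgroup.map_subgroupOf_eq_of_le hV] at h2
  exact h2

theorem exists_cj_le {G : Type*} [Group G] [Finite G] (S : Sylow 2 G) (W : Subgroup G)
    (hW : IsKleinFour W) : ∃ g : G, cj g W ≤ (S : Subgroup G) := by
  haveI : Fact (Nat.Prime 2) := ⟨Nat.prime_two⟩
  have hWp : IsPGroup 2 ↥W := by
    apply IsPGroup.of_card (n := 2)
    rw [hW.card_four]; norm_num
  obtain ⟨P, hP⟩ := hWp.exists_le_sylow
  obtain ⟨g₀, hg₀⟩ := MulAction.exists_smul_eq G P S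
  refine ⟨g₀, ?_⟩
  intro x hx
  rw [mem_cj] at hx
  have h1 : g₀⁻¹ * x * g₀ ∈ (P : Subgroup G) := hP hx
  have h3 : g₀ * (g₀⁻¹ * x * g₀) * g₀⁻¹ ∈ MulAut.conj g₀ • (P : Subgroup G) :=
    Subgroup.smul_mem_pointwise_smul _ (MulAut.conj g₀) _ h1
  rw [← Sylow.coe_subgroup_smul, hg₀] at h3
  have e : g₀ * (g₀⁻¹ * x * g₀) * g₀⁻¹ = x := by group
  rwa [e] at h3

theorem conj_into {G : Type*} [Group G] [Finite G] (S : Sylow 2 G) (Γ : Subgroup G)
    (hSΓ : (S : Subgroup G) ≤ Γ) (Q : Subgroup G) (hQ : IsPGroup 2 Q) (hQΓ : Q ≤ Γ) :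
    ∃ γ ∈ Γ, ∀ x ∈ Q, γ⁻¹ * x * γ ∈ (S : Subgroup G) := by
  haveI : Fact (Nat.Prime 2) := ⟨Nat.prime_two⟩
  have hQ' : IsPGroup 2 ↥(Q.subgroupOf Γ) :=
    hQ.of_equiv (Subgroup.subgroupOfEquivOfLe hQΓ).symm
  obtain ⟨P, hP⟩ := hQ'.exists_le_sylow
  obtain ⟨γ, hγ⟩ := MulAction.exists_smul_eq ↥Γ P (S.subtype hSΓ)
  refine ⟨(γ : G)⁻¹, Γ.inv_mem γ.2, ?_⟩
  intro x hx
  have h1 : (⟨x, hQΓ hx⟩ : ↥Γ) ∈ (P : Subgroup ↥Γ) := hP (by
    rw [Subgroup.mem_subgroupOf]; exact hx)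
  have h2 : γ * (⟨x, hQΓ hx⟩ : ↥Γ) * γ⁻¹ ∈ MulAut.conj γ • (P : Subgroup ↥Γ) :=
    Subgroup.smul_mem_pointwise_smul _ (MulAut.conj γ) _ h1
  rw [← Sylow.coe_subgroup_smul, hγ, Sylow.coe_subtype, Subgroup.mem_subgroupOf] at h2
  rw [inv_inv]
  exact h2

theorem norm_le {G : Type*} [Group G] [Finite G] (S : Sylow 2 G) (Γ : Subgroup G)
    (hΓ : ∀ Q : Subgroup G, Q ≤ (S : Subgroup G) → ¬ Cfsg.PRankLE 2 1 ↥Q →
      Subgroup.normalizer (Q : Set G) ≤ Γ)
    (hSΓ : (S : Subgroup G) ≤ Γ) (Q : Subgroup G) (hQ : IsPGroup 2 Q) (hQΓ : Q ≤ Γ)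
    (W : Subgroup G) (hWQ : W ≤ Q) (hW : IsKleinFour W) :
    Subgroup.normalizer (Q : Set G) ≤ Γ := by
  obtain ⟨γ, hγ, hconj⟩ := conj_into S Γ hSΓ Q hQ hQΓ
  have hQ'S : cj γ⁻¹ Q ≤ (S : Subgroup G) := by
    intro x hx
    rw [mem_cj, inv_inv] at hx
    have := hconj _ hx
    have e : γ⁻¹ * (γ * x * γ⁻¹) * γ = x := by group
    rwa [e] at this
  have hW' : cj γ⁻¹ W ≤ cj γ⁻¹ Q := by
    intro x hx
    rw [mem_cj] at hx ⊢
    exact hWQ hx
  have hrank := rank_of_four (cj γ⁻¹ Q) (cj γ⁻¹ W) hW' (kf_cj γ⁻¹ W hW)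
  have hN := hΓ _ hQ'S hrank
  intro n hn
  have h1 : γ⁻¹ * n * γ ∈ Subgroup.normalizer ((cj γ⁻¹ Q : Subgroup G) : Set G) := by
    rw [Subgroup.mem_normalizer_iff]
    intro h
    rw [mem_cj, mem_cj, inv_inv]
    have h2 := (Subgroup.mem_normalizer_iff.1 hn) (γ * h * γ⁻¹)
    rw [h2]
    have e : γ * (γ⁻¹ * n * γ * h * (γ⁻¹ * n * γ)⁻¹) * γ⁻¹ = n * (γ * h * γ⁻¹) * n⁻¹ := by
      group
    rw [e]
  have h3 := hN h1
  have e : n = γ * (γ⁻¹ * n * γ) * γ⁻¹ := by group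
  rw [e]
  exact Γ.mul_mem (Γ.mul_mem hγ h3) (Γ.inv_mem hγ)

theorem two_le {G : Type*} [Group G] [Finite G] (S : Sylow 2 G) (Γ : Subgroup G)
    (hΓ : ∀ Q : Subgroup G, Q ≤ (S : Subgroup G) → ¬ Cfsg.PRankLE 2 1 ↥Q →
      Subgroup.normalizer (Q : Set G) ≤ Γ)
    (hSΓ : (S : Subgroup G) ≤ Γ) (T : Subgroup G) (hT : IsPGroup 2 T) (W : Subgroup G)
    (hWT : W ≤ T) (hWΓ : W ≤ Γ) (hW : IsKleinFour W) : T ≤ Γ := by
  haveI : Fact (Nat.Prime 2) := ⟨Nat.prime_two⟩
  have hQ : IsPGroup 2 ↥(T ⊓ Γ) := hT.to_le inf_le_left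
  have hN := norm_le S Γ hΓ hSΓ (T ⊓ Γ) hQ inf_le_right W (le_inf hWT hWΓ) hW
  by_contra hcon
  have hlt : (T ⊓ Γ).subgroupOf T < ⊤ := by
    rw [lt_top_iff_ne_top]
    intro h
    apply hcon
    intro x hx
    have : (⟨x, hx⟩ : ↥T) ∈ (T ⊓ Γ).subgroupOf T := by rw [h]; exact Subgroup.mem_top _
    exact (Subgroup.mem_subgroupOf.1 this).2
  haveI : Group.IsNilpotent ↥T := hT.isNilpotent
  have h2 := Group.normalizerCondition_of_isNilpotent (G := ↥T) _ hlt
  obtain ⟨x, hxN, hxQ⟩ := SetLike.exists_of_lt h2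
  apply hxQ
  rw [Subgroup.mem_subgroupOf]
  refine ⟨x.2, hN ?_⟩
  rw [Subgroup.mem_normalizer_iff]
  intro h
  have hx' := Subgroup.mem_normalizer_iff.1 hxN
  constructor
  · intro hh
    have := (hx' ⟨h, hh.1⟩).1 (by rw [Subgroup.mem_subgroupOf]; exact hh)
    rw [Subgroup.mem_subgroupOf] at this
    exact this
  · intro hh
    have hhT : h ∈ T := by
      have e : h = (x : G)⁻¹ * ((x : G) * h * (x : G)⁻¹) * (x : G) := by group
      rw [e]
      exact T.mul_mem (T.mul_mem (T.inv_mem x.2) hh.1) x.2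
    have := (hx' ⟨h, hhT⟩).2 (by rw [Subgroup.mem_subgroupOf]; exact hh)
    rw [Subgroup.mem_subgroupOf] at this
    exact this

/-- Let G be a finite group of 2-rank at least 2 and S a Sylow 2-subgroup whose commuting graph of Klein four-subgroups is
connected. Then the commuting graph of Klein four-subgroups of G is disconnected if and only if the 2-generated core — the
subgroup generated by the normalizers N_G(Q) of the subgroups Q of S that contain a Klein four-group — is a proper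
subgroup of G. -/
theorem result {G : Type*} [Group G] [Finite G] (h2 : ¬ Cfsg.PRankLE 2 1 G)
    (S : Sylow 2 G) (hS : Cfsg.IsFourConnected (S : Subgroup G)) :
    ¬ Cfsg.IsFourConnected G ↔
      (⨆ Q : {Q : Subgroup G // Q ≤ (S : Subgroup G) ∧ ¬ Cfsg.PRankLE 2 1 Q},
          Subgroup.normalizer ((Q : Subgroup G) : Set G)) ≠ ⊤ := by
  classical
  haveI : Fact (Nat.Prime 2) := ⟨Nat.prime_two⟩
  obtain ⟨Γ, hΓdef⟩ : ∃ Γ : Subgroup G, Γ =
      ⨆ Q : {Q : Subgroup G // Q ≤ (S : Subgroup G) ∧ ¬ Cfsg.PRankLE 2 1 Q},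
        Subgroup.normalizer ((Q : Subgroup G) : Set G) := ⟨_, rfl⟩
  rw [← hΓdef]
  have hΓ : ∀ Q : Subgroup G, Q ≤ (S : Subgroup G) → ¬ Cfsg.PRankLE 2 1 ↥Q →
      Subgroup.normalizer (Q : Set G) ≤ Γ := by
    intro Q hQS hQr
    rw [hΓdef]
    exact le_iSup (fun Q : {Q : Subgroup G // Q ≤ (S : Subgroup G) ∧ ¬ Cfsg.PRankLE 2 1 Q} =>
      Subgroup.normalizer ((Q : Subgroup G) : Set G)) ⟨Q, hQS, hQr⟩
  obtain ⟨W₁, hW₁⟩ := four_of_rank0 h2
  obtain ⟨g₀, hg₀⟩ := exists_cj_le S W₁ hW₁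
  obtain ⟨U₀, hU₀def⟩ : ∃ U₀ : Subgroup G, U₀ = cj g₀ W₁ := ⟨_, rfl⟩
  have hU₀K : IsKleinFour ↥U₀ := by rw [hU₀def]; exact kf_cj g₀ W₁ hW₁
  have hU₀S : U₀ ≤ (S : Subgroup G) := by rw [hU₀def]; exact hg₀
  have hSp : IsPGroup 2 ↥(S : Subgroup G) := S.isPGroup'
  have hNS : Subgroup.normalizer ((S : Subgroup G) : Set G) ≤ Γ :=
    hΓ (S : Subgroup G) le_rfl (rank_of_four _ U₀ hU₀S hU₀K)
  have hSΓ : (S : Subgroup G) ≤ Γ := (Subgroup.le_normalizer).trans hNS
  have hkey : ∀ W : Subgroup G, Relation.ReflTransGen Rk U₀ W → W ≤ Γ := by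
    intro W hconn
    induction hconn with
    | refl => exact hU₀S.trans hSΓ
    | tail hUB hBC ih =>
      rename_i B C
      obtain ⟨hBk, hCk, hc⟩ := hBC
      have hBp : IsPGroup 2 ↥B := by
        apply IsPGroup.of_card (n := 2)
        rw [hBk.card_four]; norm_num
      have hN := norm_le S Γ hΓ hSΓ B hBp ih B le_rfl hBk
      intro c hcC
      apply hN
      rw [Subgroup.mem_normalizer_iff]
      intro b
      have e : ∀ b ∈ B, c * b * c⁻¹ = b := by
        intro b hb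
        rw [← hc b hb c hcC]; group
      constructor
      · intro hb; rw [e b hb]; exact hb
      · intro hb
        have h1 := hc _ hb c hcC
        have h2' : c * b = c * (c * b * c⁻¹) := by rw [← h1]; group
        have h3 := mul_left_cancel h2'
        rw [h3]; exact hb
  constructor
  · intro hnc hΓtop
    apply hnc
    have hstab : ∀ g : G, ∀ W : Subgroup G, Relation.ReflTransGen Rk U₀ W →
        Relation.ReflTransGen Rk U₀ (cj g W) := by
      intro g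
      have hg : g ∈ ⨆ Q : {Q : Subgroup G // Q ≤ (S : Subgroup G) ∧ ¬ Cfsg.PRankLE 2 1 Q},
          Subgroup.normalizer ((Q : Subgroup G) : Set G) := by
        rw [← hΓdef, hΓtop]; exact Subgroup.mem_top g
      refine Subgroup.iSup_induction _ (C := fun g => ∀ W : Subgroup G,
        Relation.ReflTransGen Rk U₀ W → Relation.ReflTransGen Rk U₀ (cj g W)) hg ?_ ?_ ?_
      · rintro ⟨Q, hQS, hQr⟩ n hn W hW
        obtain ⟨UQ, hUQ, hUQk⟩ := four_of_rank Q hQr
        have h1 : Relation.ReflTransGen Rk U₀ UQ :=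
          conn_of_sub (S : Subgroup G) hS U₀ UQ hU₀S (hUQ.trans hQS) hU₀K hUQk
        have h2' : cj n UQ ≤ (S : Subgroup G) := by
          intro x hx
          rw [mem_cj] at hx
          have h3 : n⁻¹ * x * n ∈ Q := hUQ hx
          have h4 := (Subgroup.mem_normalizer_iff.1 hn (n⁻¹ * x * n)).1 h3
          have e : n * (n⁻¹ * x * n) * n⁻¹ = x := by group
          rw [e] at h4
          exact hQS h4
        have h5 : Relation.ReflTransGen Rk U₀ (cj n UQ) :=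
          conn_of_sub (S : Subgroup G) hS U₀ (cj n UQ) hU₀S h2' hU₀K (kf_cj n UQ hUQk)
        have h6 : Relation.ReflTransGen Rk (cj n UQ) (cj n W) :=
          conn_cj n UQ W ((conn_symm _ _ h1).trans hW)
        exact h5.trans h6
      · intro W hW
        rw [cj_one]; exact hW
      · intro x y hx hy W hW
        rw [cj_mul]
        exact hx _ (hy W hW)
    show ∀ U V : Subgroup G, IsKleinFour U → IsKleinFour V → Relation.ReflTransGen Rk U V
    intro U V hU hV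
    obtain ⟨x, hx⟩ := exists_cj_le S U hU
    obtain ⟨y, hy⟩ := exists_cj_le S V hV
    have h1 : Relation.ReflTransGen Rk U₀ (cj x U) :=
      conn_of_sub (S : Subgroup G) hS U₀ (cj x U) hU₀S hx hU₀K (kf_cj x U hU)
    have h2' : Relation.ReflTransGen Rk U₀ (cj y V) :=
      conn_of_sub (S : Subgroup G) hS U₀ (cj y V) hU₀S hy hU₀K (kf_cj y V hV)
    have h3 := hstab x⁻¹ _ h1
    have h4 := hstab y⁻¹ _ h2'
    rw [← cj_mul, inv_mul_cancel, cj_one] at h3 h4
    exact (conn_symm _ _ h3).trans h4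
  · intro hΓne hconn
    apply hΓne
    rw [eq_top_iff]
    intro g _
    have hconn' : ∀ U V : Subgroup G, IsKleinFour U → IsKleinFour V →
        Relation.ReflTransGen Rk U V := hconn
    have h1 : cj g U₀ ≤ Γ := hkey _ (hconn' U₀ (cj g U₀) hU₀K (kf_cj g U₀ hU₀K))
    have hTp : IsPGroup 2 ↥(cj g (S : Subgroup G)) :=
      hSp.of_equiv ((S : Subgroup G).equivMapOfInjective (MulAut.conj g).toMonoidHom
        (MulAut.conj g).injective)
    have hWT : cj g U₀ ≤ cj g (S : Subgroup G) := by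
      intro x hx
      rw [mem_cj] at hx ⊢
      exact hU₀S hx
    have hTΓ := two_le S Γ hΓ hSΓ (cj g (S : Subgroup G)) hTp (cj g U₀) hWT h1
      (kf_cj g U₀ hU₀K)
    obtain ⟨γ, hγ, hconj⟩ := conj_into S Γ hSΓ (cj g (S : Subgroup G)) hTp hTΓ
    have hmap : ∀ s ∈ (S : Subgroup G), (γ⁻¹ * g) * s * (γ⁻¹ * g)⁻¹ ∈ (S : Subgroup G) := by
      intro s hs
      have h1' : g * s * g⁻¹ ∈ cj g (S : Subgroup G) := by
        rw [mem_cj]
        have e : g⁻¹ * (g * s * g⁻¹) * g = s := by group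
        rw [e]; exact hs
      have h2' := hconj _ h1'
      have e : (γ⁻¹ * g) * s * (γ⁻¹ * g)⁻¹ = γ⁻¹ * (g * s * g⁻¹) * γ := by group
      rw [e]; exact h2'
    have hnorm : γ⁻¹ * g ∈ Subgroup.normalizer ((S : Subgroup G) : Set G) := by
      let φ : ↥(S : Subgroup G) → ↥(S : Subgroup G) :=
        fun s => ⟨(γ⁻¹ * g) * s.1 * (γ⁻¹ * g)⁻¹, hmap s.1 s.2⟩
      have hφinj : Function.Injective φ := by
        intro s₁ s₂ h
        have h' : (γ⁻¹ * g) * s₁.1 * (γ⁻¹ * g)⁻¹ = (γ⁻¹ * g) * s₂.1 * (γ⁻¹ * g)⁻¹ :=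
          congrArg Subtype.val h
        exact Subtype.ext (mul_left_cancel (mul_right_cancel h'))
      have hφsurj := Finite.injective_iff_surjective.1 hφinj
      rw [Subgroup.mem_normalizer_iff]
      intro h
      constructor
      · exact hmap h
      · intro hh
        obtain ⟨s, hs⟩ := hφsurj ⟨(γ⁻¹ * g) * h * (γ⁻¹ * g)⁻¹, hh⟩
        have h' : (γ⁻¹ * g) * s.1 * (γ⁻¹ * g)⁻¹ = (γ⁻¹ * g) * h * (γ⁻¹ * g)⁻¹ :=
          congrArg Subtype.val hs
        have h'' : s.1 = h := mul_left_cancel (mul_right_cancel h')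
        rw [← h'']; exact s.2
    have h3 : γ⁻¹ * g ∈ Γ := hNS hnorm
    have e : g = γ * (γ⁻¹ * g) := by group
    rw [e]
    exact Γ.mul_mem hγ h3

end Cfsg.Agent.S0520
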