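import Cfsg.Statements.S0526
import Mathlib
import Cfsg.Agent.Lib.Helper1.SS

set_option autoImplicit false
open Cfsg

namespace Cfsg.Agent.S0526

open scoped commutatorElement

open Cfsg.Agent.Lib.Helper1 in
theorem step_lemma {G : Type*} [Group G] (A : Subgroup G) (g : G) (hAn : A.Normal)
    (hBn : (A ⊔ Subgroup.zpowers g).Normal) : ⁅A ⊔ Subgroup.zpowers g, commutator G⁆ ≤ A := by
  haveI := hAn
  have hCeq : Subgroup.zpowers (QuotientGroup.mk' A g) =
      (A ⊔ Subgroup.zpowers g).map (QuotientGroup.mk' A) := by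
    rw [Subgroup.map_sup, MonoidHom.map_zpowers]
    have h1 : A.map (QuotientGroup.mk' A) = ⊥ := by
      rw [Subgroup.map_eq_bot_iff, QuotientGroup.ker_mk']
    rw [h1, bot_sup_eq]
  have hCn : (Subgroup.zpowers (QuotientGroup.mk' A g)).Normal := by
    rw [hCeq]; exact hBn.map _ (QuotientGroup.mk'_surjective A)
  have hcent := comm_le_centralizer_zpowers _ hCn
  rw [Subgroup.commutator_le]
  intro b hb d hd
  rw [← QuotientGroup.eq_one_iff (N := A)]
  have h5 : ((⁅b, d⁆ : G) : G ⧸ A) = ⁅(QuotientGroup.mk' A b), (QuotientGroup.mk' A d)⁆ :=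
    map_commutatorElement (QuotientGroup.mk' A) b d
  rw [h5, commutatorElement_eq_one_iff_commute]
  have hb' : QuotientGroup.mk' A b ∈ Subgroup.zpowers (QuotientGroup.mk' A g) := by
    rw [hCeq]; exact ⟨b, hb, rfl⟩
  have hd' : QuotientGroup.mk' A d ∈
      Subgroup.centralizer (Subgroup.zpowers (QuotientGroup.mk' A g) : Set (G ⧸ A)) :=
    hcent (map_commutator_le (QuotientGroup.mk' A) hd)
  exact Subgroup.mem_centralizer_iff.1 hd' _ hb'

/-- In a finite supersolvable group the commutator subgroup is nilpotent. -/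
theorem result {G : Type*} [Group G] [Finite G] (hG : Cfsg.IsSupersolvable G) : Group.IsNilpotent (commutator G) := by
  rw [Lib.Helper1.ss_iff] at hG
  have key : ∀ {A : Subgroup G}, Lib.Helper1.SSReach A → ∀ X : Subgroup G, X ≤ A →
      ∃ k : ℕ, (fun Y : Subgroup G => ⁅Y, commutator G⁆)^[k] X = ⊥ := by
    intro A hA
    induction hA with
    | bot => intro X hX; exact ⟨0, le_bot_iff.1 hX⟩
    | step A g hA hAn hBn ih =>
      intro X hX
      have hstep : ⁅A ⊔ Subgroup.zpowers g, commutator G⁆ ≤ A := step_lemma A g hAn hBn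
      obtain ⟨k, hk⟩ := ih ⁅X, commutator G⁆ ((Subgroup.commutator_mono hX le_rfl).trans hstep)
      exact ⟨k + 1, by rw [Function.iterate_succ_apply]; exact hk⟩
  obtain ⟨k, hk⟩ := key hG (commutator G) le_top
  apply Subgroup.isNilpotent_of_lowerCentralSeries_eq_bot (n := k)
  have hlcs : ∀ j, (commutator G).lowerCentralSeries j =
      (fun Y : Subgroup G => ⁅Y, commutator G⁆)^[j] (commutator G) := by
    intro j
    induction j with
    | zero => rfl
    | succ j ih => rw [Subgroup.lowerCentralSeries_succ, ih, Function.iterate_succ_apply']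
  rw [hlcs, hk]
end Cfsg.Agent.S0526
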