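import Cfsg.Statements.S0527
import Mathlib
import Cfsg.Agent.Lib.Helper1.SS
import Cfsg.Agent.Lib.Helper1.Basic

set_option autoImplicit false
open Cfsg

namespace Cfsg.Agent.S0527

universe u

theorem aux : ∀ n : ℕ, ∀ (G : Type u) [Group G] [Finite G], Nat.card G = n →
    Cfsg.IsSupersolvable G → ∀ M : Subgroup G, IsCoatom M → M.index.Prime := by
  intro n
  induction n using Nat.strong_induction_on with
  | _ n ih =>
    intro G _ _ hn hG M hM
    haveI : Nontrivial G := by
      by_contra hnt
      rw [not_nontrivial_iff_subsingleton] at hnt
      exact hM.1 (Subsingleton.elim _ _)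
    obtain ⟨N, hN, hp⟩ := Lib.Helper1.exists_normal_prime_card hG
    haveI := hN
    by_cases hNM : N ≤ M
    · have hlt : Nat.card (G ⧸ N) < n := hn ▸ Lib.Helper1.card_quotient_lt N hp
      have hsurj := QuotientGroup.mk'_surjective N
      have hM' : IsCoatom (M.map (QuotientGroup.mk' N)) := by
        constructor
        · intro htop
          apply hM.1
          have h1 : M = (M.map (QuotientGroup.mk' N)).comap (QuotientGroup.mk' N) := by
            rw [Subgroup.comap_map_eq, QuotientGroup.ker_mk', sup_eq_left.2 hNM]
          rw [h1, htop, Subgroup.comap_top]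
        · intro L hL
          have h1 : M ≤ L.comap (QuotientGroup.mk' N) := by
            intro x hx
            exact hL.le ⟨x, hx, rfl⟩
          have h2 : M ≠ L.comap (QuotientGroup.mk' N) := by
            intro e
            apply hL.ne
            rw [e, Subgroup.map_comap_eq_self_of_surjective hsurj]
          have h3 := hM.2 _ (lt_of_le_of_ne h1 h2)
          rw [← Subgroup.map_comap_eq_self_of_surjective hsurj L, h3,
            Subgroup.map_top_of_surjective _ hsurj]
      have h4 := ih _ hlt (G ⧸ N) rfl (Lib.Helper1.ss_quotient hG N) _ hM'
      have h5 : (M.map (QuotientGroup.mk' N)).index = M.index := by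
        apply Subgroup.index_map_eq M hsurj
        rw [QuotientGroup.ker_mk']
        exact hNM
      rw [h5] at h4
      exact h4
    · have htop : N ⊔ M = ⊤ := Lib.Helper1.sup_coatom_eq_top hM hNM
      have hdisj : N ⊓ M = ⊥ := by
        have hdvd : Nat.card ↥(N ⊓ M) ∣ Nat.card N := Subgroup.card_dvd_of_le inf_le_left
        rcases (Nat.dvd_prime hp).1 hdvd with h1 | h1
        · exact Subgroup.card_eq_one.1 h1
        · exfalso
          apply hNM
          have h2 : N ⊓ M = N := Subgroup.eq_of_le_of_card_ge inf_le_left (by rw [h1])
          exact inf_eq_left.1 h2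
      have hc : Subgroup.IsComplement' N M := by
        apply Subgroup.isComplement'_of_disjoint_and_mul_eq_univ
        · rw [disjoint_iff]; exact hdisj
        · rw [← Subgroup.normal_mul, htop]; rfl
      rw [hc.index_eq_card]
      exact hp

/-- In a finite supersolvable group the index of any maximal subgroup is a prime number. -/
theorem result {G : Type*} [Group G] [Finite G] (hG : Cfsg.IsSupersolvable G) (M : Subgroup G) (hM : IsCoatom M) : M.index.Prime := by
  exact aux (Nat.card G) G rfl hG M hM
end Cfsg.Agent.S0527
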