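import Cfsg.Statements.S0530
import Mathlib
import Cfsg.Agent.Lib.Helper1.SS

set_option autoImplicit false
open Cfsg

namespace Cfsg.Agent.S0530

universe u

open Cfsg.Agent.Lib.Helper1

theorem zpowers_normal_of_conj_mem {G : Type*} [Group G] (x : G)
    (h : ∀ g : G, g * x * g⁻¹ ∈ Subgroup.zpowers x) : (Subgroup.zpowers x).Normal := by
  constructor
  intro n hn g
  obtain ⟨k, rfl⟩ := Subgroup.mem_zpowers_iff.1 hn
  rw [← conj_zpow]
  exact Subgroup.zpow_mem _ (h g) k

theorem ss_of_isCyclic {G : Type*} [Group G] [IsCyclic G] : Cfsg.IsSupersolvable G := by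
  rw [ss_iff]
  obtain ⟨g, hg⟩ := IsCyclic.exists_generator (α := G)
  have h1 : (⊤ : Subgroup G) = ⊥ ⊔ Subgroup.zpowers g := by
    rw [bot_sup_eq]
    exact ((Subgroup.eq_top_iff' _).2 hg).symm
  rw [h1]
  refine SSReach.step ⊥ g SSReach.bot Subgroup.normal_bot ?_
  rw [← h1]
  exact Subgroup.normal_top

theorem aux : ∀ m : ℕ, ∀ (G : Type u) [Group G] [Finite G], Nat.card G = m →
    ∀ p n : ℕ, p.Prime → m = 2 * p ^ n → Cfsg.IsSupersolvable G := by
  intro m
  induction m using Nat.strong_induction_on with
  | _ m ih =>
    intro G _ _ hm p n hp hmn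
    -- reduce to: find normal subgroup N of prime order with quotient of the right order
    have key : ∀ (N : Subgroup G) [N.Normal] [IsCyclic N] (p' n' : ℕ), p'.Prime →
        (Nat.card N).Prime → Nat.card (G ⧸ N) = 2 * p' ^ n' → Cfsg.IsSupersolvable G := by
      intro N _ _ p' n' hp' hNp hq
      have hlt : Nat.card (G ⧸ N) < m := hm ▸ card_quotient_lt N hNp
      exact ss_of_cyclic_normal N (ih _ hlt (G ⧸ N) rfl p' n' hp' hq)
    cases n with
    | zero =>
      have h2 : Nat.card G = 2 := by rw [hm, hmn]; simp
      haveI : Fact (Nat.Prime 2) := ⟨Nat.prime_two⟩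
      haveI := isCyclic_of_prime_card h2
      exact ss_of_isCyclic
    | succ k =>
      by_cases hp2 : p = 2
      · subst hp2
        haveI : Fact (Nat.Prime 2) := ⟨Nat.prime_two⟩
        have hcard : Nat.card G = 2 ^ (k + 2) := by rw [hm, hmn]; ring
        have hPG : IsPGroup 2 G := IsPGroup.of_card hcard
        haveI : Nontrivial G := by
          rw [← Finite.one_lt_card_iff_nontrivial, hcard]
          exact Nat.one_lt_two_pow (by omega)
        haveI := hPG.center_nontrivial
        have hc : 2 ∣ Nat.card (Subgroup.center G) := by
          rcases (hPG.to_subgroup (Subgroup.center G)).card_eq_or_dvd with h | h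
          · exact absurd h (ne_of_gt Finite.one_lt_card)
          · exact h
        obtain ⟨z, hz⟩ := exists_prime_orderOf_dvd_card' 2 hc
        have hzc : ∀ g : G, g * (z : G) * g⁻¹ = z := by
          intro g
          have := Subgroup.mem_center_iff.1 z.2 g
          rw [this, mul_inv_cancel_right]
        have hord : orderOf (z : G) = 2 := by rw [Subgroup.orderOf_coe, hz]
        haveI : (Subgroup.zpowers (z : G)).Normal :=
          zpowers_normal_of_conj_mem _ (fun g => by rw [hzc]; exact Subgroup.mem_zpowers _)
        have hN : Nat.card (Subgroup.zpowers (z : G)) = 2 := by rw [Nat.card_zpowers, hord]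
        have hq : Nat.card (G ⧸ Subgroup.zpowers (z : G)) = 2 * 2 ^ k := by
          have := card_quotient_mul (Subgroup.zpowers (z : G))
          rw [hN, hcard] at this
          have e : 2 ^ (k + 2) = (2 * 2 ^ k) * 2 := by ring
          rw [e] at this
          exact Nat.eq_of_mul_eq_mul_right (by norm_num) this
        exact key (Subgroup.zpowers (z : G)) 2 k Nat.prime_two (hN ▸ Nat.prime_two) hq
      · haveI : Fact p.Prime := ⟨hp⟩
        have hcard : Nat.card G = 2 * p ^ (k + 1) := by rw [hm, hmn]
        obtain P : Sylow p G := default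
        have hcop : Nat.Coprime 2 p := (Nat.coprime_primes Nat.prime_two hp).2 (Ne.symm hp2)
        have hPc : Nat.card P = p ^ (k + 1) := by
          rw [Sylow.card_eq_multiplicity, hcard, Nat.factorization_mul (by norm_num) (pow_pos hp.pos _).ne',
            Nat.Prime.factorization_pow hp]
          simp [Nat.factorization_eq_zero_of_not_dvd
            (fun h : p ∣ 2 => hp2 ((Nat.prime_dvd_prime_iff_eq hp Nat.prime_two).1 h))]
        have hidx : (P : Subgroup G).index = 2 := by
          have := Subgroup.card_mul_index (P : Subgroup G)
          rw [hPc, hcard, mul_comm] at this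
          exact Nat.eq_of_mul_eq_mul_right (pow_pos hp.pos _) this
        haveI hPn : (P : Subgroup G).Normal := Subgroup.normal_of_index_eq_two hidx
        -- center of P
        haveI : Nontrivial (P : Subgroup G) := by
          rw [← Finite.one_lt_card_iff_nontrivial, hPc]
          exact Nat.one_lt_pow (by omega) hp.one_lt
        have hPG : IsPGroup p (P : Subgroup G) := P.isPGroup'
        haveI := hPG.center_nontrivial
        have hc : p ∣ Nat.card (Subgroup.center (P : Subgroup G)) := by
          rcases (hPG.to_subgroup (Subgroup.center (P : Subgroup G))).card_eq_or_dvd with h | h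
          · exact absurd h (ne_of_gt Finite.one_lt_card)
          · exact h
        obtain ⟨z, hz⟩ := exists_prime_orderOf_dvd_card' p hc
        obtain ⟨x, hxP, hxc, hxo⟩ : ∃ x : G, x ∈ (P : Subgroup G) ∧
            (∀ g ∈ (P : Subgroup G), g * x = x * g) ∧ orderOf x = p := by
          refine ⟨((z : (P : Subgroup G)) : G), (z : (P : Subgroup G)).2, ?_, ?_⟩
          · intro g hg
            have := Subgroup.mem_center_iff.1 z.2 ⟨g, hg⟩
            exact congrArg Subtype.val this
          · rw [Subgroup.orderOf_coe, Subgroup.orderOf_coe, hz]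
        obtain ⟨t, ht⟩ : ∃ t : G, t ∉ (P : Subgroup G) := by
          by_contra hcon
          push_neg at hcon
          have : (P : Subgroup G) = ⊤ := (Subgroup.eq_top_iff' _).2 hcon
          rw [this, Subgroup.index_top] at hidx
          omega
        have hmem := @Subgroup.mul_mem_iff_of_index_two G _ (P : Subgroup G) hidx
        have htt : t * t ∈ (P : Subgroup G) := by rw [hmem]
        have htinv : t⁻¹ ∉ (P : Subgroup G) := fun h => ht (by simpa using inv_mem h)
        have hcases : ∀ g : G, g ∈ (P : Subgroup G) ∨ ∃ h ∈ (P : Subgroup G), g = t * h := by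
          intro g
          by_cases hg : g ∈ (P : Subgroup G)
          · exact Or.inl hg
          · refine Or.inr ⟨t⁻¹ * g, ?_, by group⟩
            rw [hmem]
            exact ⟨fun h => absurd h htinv, fun h => absurd h hg⟩
        have hx'P : t * x * t⁻¹ ∈ (P : Subgroup G) := hPn.conj_mem x hxP t
        have hx'c : ∀ g ∈ (P : Subgroup G), g * (t * x * t⁻¹) = (t * x * t⁻¹) * g := by
          intro g hg
          have h1 : t⁻¹ * g * t ∈ (P : Subgroup G) := by
            have := hPn.conj_mem g hg t⁻¹
            simpa using this
          have h2 := hxc _ h1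
          have e1 : g * (t * x * t⁻¹) = t * ((t⁻¹ * g * t) * x) * t⁻¹ := by group
          have e2 : (t * x * t⁻¹) * g = t * (x * (t⁻¹ * g * t)) * t⁻¹ := by group
          rw [e1, e2, h2]
        have hxx' : x * (t * x * t⁻¹) = (t * x * t⁻¹) * x := (hxc _ hx'P).symm
        have htx' : t * (t * x * t⁻¹) * t⁻¹ = x := by
          have h2 := hxc _ htt
          have e1 : t * (t * x * t⁻¹) * t⁻¹ = ((t * t) * x) * (t⁻¹ * t⁻¹) := by group
          rw [e1, h2]; group
        have hxp : x ^ p = 1 := by rw [← hxo]; exact pow_orderOf_eq_one x
        have hx1 : x ≠ 1 := by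
          intro h
          rw [h, orderOf_one] at hxo
          exact hp.one_lt.ne hxo
        by_cases hy : x * (t * x * t⁻¹) = 1
        · -- t inverts x
          have hinv : t * x * t⁻¹ = x⁻¹ := eq_inv_of_mul_eq_one_right hy
          haveI : (Subgroup.zpowers x).Normal := by
            apply zpowers_normal_of_conj_mem
            intro g
            rcases hcases g with hg | ⟨h, hh, rfl⟩
            · rw [hxc g hg, mul_inv_cancel_right]
              exact Subgroup.mem_zpowers x
            · have e : t * h * x * (t * h)⁻¹ = t * (h * x * h⁻¹) * t⁻¹ := by group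
              rw [e, hxc h hh, mul_inv_cancel_right, hinv]
              exact inv_mem (Subgroup.mem_zpowers x)
          have hN : Nat.card (Subgroup.zpowers x) = p := by rw [Nat.card_zpowers, hxo]
          have hq : Nat.card (G ⧸ Subgroup.zpowers x) = 2 * p ^ k := by
            have := card_quotient_mul (Subgroup.zpowers x)
            rw [hN, hcard] at this
            have e : 2 * p ^ (k + 1) = (2 * p ^ k) * p := by ring
            rw [e] at this
            exact Nat.eq_of_mul_eq_mul_right hp.pos this
          exact key (Subgroup.zpowers x) p k hp (hN ▸ hp) hq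
        · -- y = x * x' is central of order p
          have hyP : x * (t * x * t⁻¹) ∈ (P : Subgroup G) := mul_mem hxP hx'P
          have hyc : ∀ g ∈ (P : Subgroup G),
              g * (x * (t * x * t⁻¹)) = (x * (t * x * t⁻¹)) * g := by
            intro g hg
            rw [← mul_assoc, hxc g hg, mul_assoc, hx'c g hg, ← mul_assoc]
          have hyt : t * (x * (t * x * t⁻¹)) * t⁻¹ = x * (t * x * t⁻¹) := by
            have e : t * (x * (t * x * t⁻¹)) * t⁻¹ = (t * x * t⁻¹) * (t * (t * x * t⁻¹) * t⁻¹) := by
              group
            rw [e, htx', hxx']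
          have hyo : orderOf (x * (t * x * t⁻¹)) = p := by
            apply orderOf_eq_prime _ hy
            have hcomm : Commute x (t * x * t⁻¹) := hxx'
            rw [hcomm.mul_pow, hxp, conj_pow, hxp]
            group
          haveI : (Subgroup.zpowers (x * (t * x * t⁻¹))).Normal := by
            apply zpowers_normal_of_conj_mem
            intro g
            rcases hcases g with hg | ⟨h, hh, rfl⟩
            · rw [hyc g hg, mul_inv_cancel_right]
              exact Subgroup.mem_zpowers _
            · have e : t * h * (x * (t * x * t⁻¹)) * (t * h)⁻¹ =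
                  t * (h * (x * (t * x * t⁻¹)) * h⁻¹) * t⁻¹ := by group
              rw [e, hyc h hh, mul_inv_cancel_right, hyt]
              exact Subgroup.mem_zpowers _
          have hN : Nat.card (Subgroup.zpowers (x * (t * x * t⁻¹))) = p := by
            rw [Nat.card_zpowers, hyo]
          have hq : Nat.card (G ⧸ Subgroup.zpowers (x * (t * x * t⁻¹))) = 2 * p ^ k := by
            have := card_quotient_mul (Subgroup.zpowers (x * (t * x * t⁻¹)))
            rw [hN, hcard] at this
            have e : 2 * p ^ (k + 1) = (2 * p ^ k) * p := by ring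
            rw [e] at this
            exact Nat.eq_of_mul_eq_mul_right hp.pos this
          exact key (Subgroup.zpowers (x * (t * x * t⁻¹))) p k hp (hN ▸ hp) hq

/-- A finite group whose order is twice a prime power is supersolvable. -/
theorem result {G : Type*} [Group G] [Finite G] (p n : ℕ) (hp : p.Prime) (hG : Nat.card G = 2 * p ^ n) : Cfsg.IsSupersolvable G := by

  exact aux (Nat.card G) G rfl p n hp hG
end Cfsg.Agent.S0530
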