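import Cfsg.Statements.S0531
import Mathlib
import Cfsg.Agent.Lib.Helper1.SS

set_option autoImplicit false
open Cfsg

namespace Cfsg.Agent.S0531

universe u

open Cfsg.Agent.Lib.Helper1 in
theorem aux : ∀ n : ℕ, ∀ (G : Type u) [Group G] [Finite G], Nat.card G = n →
    Cfsg.IsSupersolvable G → Cfsg.HasSubgroupOfEveryOrder G := by
  intro n
  induction n using Nat.strong_induction_on with
  | _ n ih =>
    intro G _ _ hn hG d hd
    by_cases hnt : Nontrivial G
    · haveI := hnt
      obtain ⟨N, hN, hp⟩ := exists_normal_prime_card hG
      haveI := hN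
      have hlt : Nat.card (G ⧸ N) < n := hn ▸ card_quotient_lt N hp
      have hcard := card_quotient_mul N
      have hQ := ih _ hlt (G ⧸ N) rfl (ss_quotient hG N)
      have hsurj := QuotientGroup.mk'_surjective N
      have hcomap : ∀ K' : Subgroup (G ⧸ N),
          Nat.card (K'.comap (QuotientGroup.mk' N)) = Nat.card K' * Nat.card N := by
        intro K'
        have h1 := Subgroup.index_comap_of_surjective K' hsurj
        have h2 := Subgroup.card_mul_index (K'.comap (QuotientGroup.mk' N))
        have h3 := Subgroup.card_mul_index K'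
        have hpos : 0 < K'.index := Nat.pos_of_ne_zero Subgroup.index_ne_zero_of_finite
        rw [h1] at h2
        have h4 : Nat.card (K'.comap (QuotientGroup.mk' N)) * K'.index =
            (Nat.card K' * Nat.card N) * K'.index := by
          rw [h2, ← hcard, ← h3]; ring
        exact Nat.eq_of_mul_eq_mul_right hpos h4
      by_cases hpd : Nat.card N ∣ d
      · obtain ⟨d', rfl⟩ := hpd
        have hd' : d' ∣ Nat.card (G ⧸ N) := by
          rw [← hcard, mul_comm] at hd
          exact Nat.dvd_of_mul_dvd_mul_right hp.pos hd
        obtain ⟨K', hK'⟩ := hQ d' hd'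
        exact ⟨K'.comap (QuotientGroup.mk' N), by rw [hcomap, hK', mul_comm]⟩
      · have hcop : Nat.Coprime d (Nat.card N) :=
          ((Nat.Prime.coprime_iff_not_dvd hp).2 hpd).symm
        have hd' : d ∣ Nat.card (G ⧸ N) := by
          rw [← hcard] at hd
          exact hcop.dvd_of_dvd_mul_right hd
        obtain ⟨K', hK'⟩ := hQ d hd'
        have hNK : N ≤ K'.comap (QuotientGroup.mk' N) := by
          intro x hx
          show QuotientGroup.mk' N x ∈ K'
          have : QuotientGroup.mk' N x = 1 := (QuotientGroup.eq_one_iff x).2 hx
          rw [this]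
          exact one_mem _
        have hKc : Nat.card (K'.comap (QuotientGroup.mk' N)) = d * Nat.card N := by
          rw [hcomap, hK']
        have hcN : Nat.card (N.subgroupOf (K'.comap (QuotientGroup.mk' N))) = Nat.card N :=
          Nat.card_congr (Subgroup.subgroupOfEquivOfLe hNK).toEquiv
        have hidx : (N.subgroupOf (K'.comap (QuotientGroup.mk' N))).index = d := by
          have h5 := Subgroup.card_mul_index (N.subgroupOf (K'.comap (QuotientGroup.mk' N)))
          rw [hcN, hKc] at h5
          exact Nat.eq_of_mul_eq_mul_left hp.pos (by rw [h5, mul_comm])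
        obtain ⟨H, hH⟩ := Subgroup.exists_right_complement'_of_coprime
          (N := N.subgroupOf (K'.comap (QuotientGroup.mk' N)))
          (by rw [hcN, hidx]; exact hcop.symm)
        refine ⟨H.map (K'.comap (QuotientGroup.mk' N)).subtype, ?_⟩
        rw [Subgroup.card_map_of_injective (Subgroup.subtype_injective _)]
        have h6 := hH.symm.index_eq_card
        rw [← h6, hidx]
    · rw [not_nontrivial_iff_subsingleton] at hnt
      haveI := hnt
      have h1 : Nat.card G = 1 := Nat.card_eq_one_iff_unique.2 ⟨inferInstance, ⟨1⟩⟩
      rw [h1, Nat.dvd_one] at hd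
      exact ⟨⊥, by rw [hd]; simp⟩

/-- A finite supersolvable group has a subgroup of each order dividing its order. -/
theorem result {G : Type*} [Group G] [Finite G] (hG : Cfsg.IsSupersolvable G) : Cfsg.HasSubgroupOfEveryOrder G := by
  exact aux (Nat.card G) G rfl hG
end Cfsg.Agent.S0531
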