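import Cfsg.Statements.S0534
import Mathlib
import Cfsg.Agent.S0531
import Cfsg.Agent.Lib.Helper1.CLTProd
import Cfsg.Agent.Lib.Lead.Hall

set_option autoImplicit false
open Cfsg

namespace Cfsg.Agent.S0534

/-- Let G be a finite solvable group and A a finite abelian group such that every prime dividing the order of A divides the order of G and, for each prime p dividing the order of G, the exponent of p in the order of A is one less than its exponent in the order of G. Then G × A has a subgroup of every order dividing its order. -/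
theorem result {G A : Type*} [Group G] [CommGroup A] [Finite G] [Finite A] [Group.IsSolvable G] (hA : ∀ p : ℕ, p.Prime → p ∣ Nat.card A → p ∣ Nat.card G) (hexp : ∀ p : ℕ, p.Prime → p ∣ Nat.card G → (Nat.card A).factorization p + 1 = (Nat.card G).factorization p) : Cfsg.HasSubgroupOfEveryOrder (G × A) := by
  intro d hd
  rw [Nat.card_prod] at hd
  open Cfsg.Agent.Lib.Helper1 in
  obtain ⟨m, n, e, hgmn, hcop, hdme, hea⟩ := split_divisor (Nat.card G) (Nat.card A) d
    Nat.card_pos.ne' Nat.card_pos.ne' hd hexp
  obtain ⟨H, hH⟩ := Cfsg.Agent.Lib.Lead.hall_exists _ G m n rfl hgmn hcop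
  open Cfsg.Agent.Lib.Helper1 in
  have hAclt : Cfsg.HasSubgroupOfEveryOrder A := Cfsg.Agent.S0531.result (ss_of_comm _ A rfl)
  obtain ⟨B, hB⟩ := hAclt e hea
  refine ⟨H.prod B, ?_⟩
  rw [Nat.card_congr (Subgroup.prodEquiv H B).toEquiv, Nat.card_prod, hH, hB, hdme]
end Cfsg.Agent.S0534
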