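import Cfsg.Statements.S0535
import Mathlib
import Cfsg.Agent.Lib.Lead.HallConverse
import Cfsg.Agent.Lib.Lead.Hall


set_option autoImplicit false
open Cfsg

namespace Cfsg.Agent.S0535

universe u

theorem aux : ∀ (n : ℕ) (G : Type u) [Group G] [Finite G], Nat.card G = n →
    (∀ H : Subgroup G, H ≠ ⊥ → ∀ p : ℕ, p.Prime → p ∣ Nat.card H →
      ∃ K : Subgroup H, K ≠ ⊤ ∧ ∃ k : ℕ, K.index = p ^ k) → Group.IsSolvable G := by
  intro n
  induction n using Nat.strong_induction_on with
  | _ n ih =>
  intro G _ _ hn h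
  apply Cfsg.Agent.Lib.Lead.hall_converse (Nat.card G) G rfl
  intro p hp
  by_cases hpG : p ∣ Nat.card G
  · have htop : (⊤ : Subgroup G) ≠ ⊥ := by
      intro h0
      have : Nat.card (⊤ : Subgroup G) = 1 := by rw [h0]; exact Subgroup.card_bot
      rw [Subgroup.card_top] at this
      rw [this] at hpG
      exact hp.one_lt.ne' (Nat.dvd_one.1 hpG)
    obtain ⟨K, hK, k, hk⟩ := h ⊤ htop p hp (by rw [Subgroup.card_top]; exact hpG)
    obtain ⟨K₀, hK₀⟩ : ∃ K₀ : Subgroup G, K₀ = K.map (⊤ : Subgroup G).subtype := ⟨_, rfl⟩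
    have hidx : K₀.index = p ^ k := by
      rw [hK₀, Subgroup.index_map_subtype, Subgroup.index_top, mul_one, hk]
    have hK₀top : K₀ ≠ ⊤ := by
      intro h1
      rw [← Subgroup.index_eq_one, hidx] at h1
      have : K.index = 1 := by rw [hk, h1]
      exact hK (Subgroup.index_eq_one.1 this)
    have hlt : Nat.card K₀ < Nat.card G := by
      have h1 := Subgroup.card_mul_index K₀
      have h2 : 1 < K₀.index := by
        have h3 : K₀.index ≠ 1 := fun h => hK₀top (Subgroup.index_eq_one.1 h)
        have h4 : K₀.index ≠ 0 := Subgroup.index_ne_zero_of_finite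
        omega
      have h5 : 0 < Nat.card K₀ := Nat.card_pos
      nlinarith
    have hK₀sol : Group.IsSolvable K₀ := by
      apply ih (Nat.card K₀) (hn ▸ hlt) K₀ rfl
      intro H' hH' q hq hqH'
      have hinj := K₀.subtype_injective
      have hne : H'.map K₀.subtype ≠ ⊥ := by
        intro h0
        apply hH'
        rw [Subgroup.map_eq_bot_iff_of_injective _ hinj] at h0; exact h0
      have hcard : Nat.card (H'.map K₀.subtype) = Nat.card H' :=
        Subgroup.card_map_of_injective hinj
      obtain ⟨K', hK', k', hk'⟩ := h (H'.map K₀.subtype) hne q hq (hcard ▸ hqH')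
      let e : H' ≃* H'.map K₀.subtype := H'.equivMapOfInjective K₀.subtype hinj
      refine ⟨K'.comap e.toMonoidHom, ?_, k', ?_⟩
      · intro h1
        have h2 : (K'.comap e.toMonoidHom).index = K'.index :=
          Subgroup.index_comap_of_surjective K' e.surjective
        rw [h1, Subgroup.index_top] at h2
        exact hK' (Subgroup.index_eq_one.1 h2.symm)
      · rw [Subgroup.index_comap_of_surjective K' e.surjective, hk']
    have hKpos : Nat.card K₀ ≠ 0 := Nat.card_pos.ne'
    obtain ⟨H₁, hH₁⟩ := Cfsg.Agent.Lib.Lead.hall_exists (Nat.card K₀) K₀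
      (ordCompl[p] (Nat.card K₀)) (ordProj[p] (Nat.card K₀)) rfl
      (by rw [mul_comm]; exact (Nat.ordProj_mul_ordCompl_eq_self _ _).symm)
      ((Nat.coprime_ordCompl hp hKpos).symm.pow_right _)
    refine ⟨H₁.map K₀.subtype, ?_, ?_⟩
    · have hc : Nat.card (H₁.map K₀.subtype) = ordCompl[p] (Nat.card K₀) := by
        rw [Subgroup.card_map_of_injective K₀.subtype_injective, hH₁]
      refine ⟨k + (Nat.card K₀).factorization p, ?_⟩
      have h1 := Subgroup.card_mul_index (H₁.map K₀.subtype)
      have h2 := Subgroup.card_mul_index K₀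
      rw [hidx] at h2
      rw [hc] at h1
      have h3 := Nat.ordProj_mul_ordCompl_eq_self (Nat.card K₀) p
      have hpos : 0 < ordCompl[p] (Nat.card K₀) := Nat.ordCompl_pos p hKpos
      apply Nat.eq_of_mul_eq_mul_left hpos
      rw [h1, ← h2, pow_add]
      nth_rewrite 1 [← h3]
      ring
    · rw [Subgroup.card_map_of_injective K₀.subtype_injective, hH₁]
      exact Nat.not_dvd_ordCompl hp hKpos
  · exact ⟨⊤, ⟨0, by simp⟩, by rw [Subgroup.card_top]; exact hpG⟩

/-- Suppose that for every nontrivial subgroup H of a finite group and every prime p dividing the order of H there is a proper subgroup of H whose index in H is a power of p. Then the group is solvable. -/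
theorem result {G : Type*} [Group G] [Finite G] (h : ∀ H : Subgroup G, H ≠ ⊥ → ∀ p : ℕ, p.Prime → p ∣ Nat.card H → ∃ K : Subgroup H, K ≠ ⊤ ∧ ∃ k : ℕ, K.index = p ^ k) : Group.IsSolvable G :=
  aux (Nat.card G) G rfl h

end Cfsg.Agent.S0535
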