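import Cfsg.Statements.S0537
import Mathlib
import Cfsg.Agent.Lib.Helper1.SchmidtStr
import Cfsg.Agent.Lib.Helper1.SchmidtStr2
import Cfsg.Agent.Lib.Helper1.MinNormal
import Cfsg.Agent.Lib.Helper1.Basic

set_option autoImplicit false
open Cfsg

namespace Cfsg.Agent.S0537

theorem isPGroup_of_sylow_eq_top {G : Type*} [Group G] {p : ℕ} (P : Sylow p G)
    (h : (P : Subgroup G) = ⊤) : IsPGroup p G := by
  intro g
  have hg : g ∈ (P : Subgroup G) := by rw [h]; trivial
  obtain ⟨k, hk⟩ := P.2 ⟨g, hg⟩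
  refine ⟨k, ?_⟩
  have := congrArg Subtype.val hk
  simpa using this

theorem nilpotent_of_comm {H : Type*} [Group H] (h : IsMulCommutative H) : Group.IsNilpotent H := by
  letI : CommGroup H := { (inferInstance : Group H) with mul_comm := fun a b => mul_comm' a b }
  exact CommGroup.isNilpotent

/-- the normal Sylow subgroup of a non-nilpotent minimal non-abelian group has exponent `q` -/
theorem exponent_aux {G : Type*} [Group G] [Finite G]
    (h : ∀ H : Subgroup G, H ≠ ⊤ → IsMulCommutative H) (p q : ℕ) [Fact p.Prime] [Fact q.Prime]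
    (hpq : p ≠ q) (P : Sylow p G) (Q : Sylow q G) (hQ : (Q : Subgroup G).Normal)
    (hQc : IsMulCommutative (Q : Subgroup G)) (hsup : (P : Subgroup G) ⊔ Q = ⊤)
    (hPn : ¬ (P : Subgroup G).Normal) : ∀ a ∈ (Q : Subgroup G), a ^ q = 1 := by
  haveI := hQ
  have hp : p.Prime := Fact.out
  have hq : q.Prime := Fact.out
  have hQcomm : ∀ a ∈ (Q : Subgroup G), ∀ b ∈ (Q : Subgroup G), a * b = b * a :=
    fun a ha b hb => Cfsg.Agent.Lib.Helper1.comm_of_isMulCommutative ha hb
  by_contra hexp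
  push_neg at hexp
  obtain ⟨a0, ha0, ha0q⟩ := hexp
  let Ω : Subgroup G :=
    { carrier := {y | y ∈ (Q : Subgroup G) ∧ y ^ q = 1}
      mul_mem' := by
        rintro a b ⟨ha, ha'⟩ ⟨hb, hb'⟩
        refine ⟨mul_mem ha hb, ?_⟩
        rw [(show Commute a b from hQcomm a ha b hb).mul_pow, ha', hb', one_mul]
      one_mem' := ⟨one_mem _, one_pow _⟩
      inv_mem' := by
        rintro a ⟨ha, ha'⟩
        exact ⟨inv_mem ha, by rw [inv_pow, ha', inv_one]⟩ }
  let V : Subgroup G :=
    { carrier := {g | ∃ y ∈ (Q : Subgroup G), y ^ q = g}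
      mul_mem' := by
        rintro _ _ ⟨a, ha, rfl⟩ ⟨b, hb, rfl⟩
        exact ⟨a * b, mul_mem ha hb, (show Commute a b from hQcomm a ha b hb).mul_pow q⟩
      one_mem' := ⟨1, one_mem _, one_pow _⟩
      inv_mem' := by
        rintro _ ⟨a, ha, rfl⟩
        exact ⟨a⁻¹, inv_mem ha, inv_pow a q⟩ }
  have hΩQ : Ω ≤ (Q : Subgroup G) := fun y hy => hy.1
  have hVQ : V ≤ (Q : Subgroup G) := by
    rintro _ ⟨a, ha, rfl⟩
    exact pow_mem ha q
  haveI hΩn : Ω.Normal := by
    constructor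
    rintro n ⟨hn, hn'⟩ g
    refine ⟨hQ.conj_mem n hn g, ?_⟩
    rw [conj_pow, hn']
    group
  haveI hVn : V.Normal := by
    constructor
    rintro _ ⟨a, ha, rfl⟩ g
    exact ⟨g * a * g⁻¹, hQ.conj_mem a ha g, conj_pow⟩
  have hΩne : Ω ≠ (Q : Subgroup G) := by
    intro heq
    have : a0 ∈ Ω := by rw [heq]; exact ha0
    exact ha0q this.2
  have hVne : V ≠ (Q : Subgroup G) := by
    intro heq
    have hsurj : ∀ m : ℕ, ∀ y ∈ (Q : Subgroup G), ∃ z ∈ (Q : Subgroup G), z ^ (q ^ m) = y := by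
      intro m
      induction m with
      | zero => intro y hy; exact ⟨y, hy, by simp⟩
      | succ m ih =>
        intro y hy
        obtain ⟨z, hz, hzy⟩ := ih y hy
        have hzV : z ∈ V := by rw [heq]; exact hz
        obtain ⟨w, hw, hwz⟩ := hzV
        refine ⟨w, hw, ?_⟩
        rw [pow_succ', pow_mul, hwz, hzy]
    obtain ⟨k, hk⟩ := IsPGroup.iff_card.1 Q.2
    obtain ⟨z, hz, hza⟩ := hsurj k a0 ha0
    have h1 : (⟨z, hz⟩ : (Q : Subgroup G)) ^ (Nat.card (Q : Subgroup G)) = 1 := pow_card_eq_one'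
    rw [hk] at h1
    have h2 : z ^ (q ^ k) = 1 := by
      have := congrArg Subtype.val h1
      simpa using this
    rw [h2] at hza
    apply ha0q
    rw [← hza, one_pow]
  have hdisj : ∀ A : Subgroup G, A ≤ (Q : Subgroup G) → (P : Subgroup G) ⊓ A = ⊥ := by
    intro A hA
    have := IsPGroup.disjoint_of_ne p q hpq _ _ P.2 (Q.2.to_le hA)
    exact disjoint_iff.1 this
  have hcardG : Nat.card G = Nat.card (P : Subgroup G) * Nat.card (Q : Subgroup G) := by
    rw [← Cfsg.Agent.Lib.Helper1.card_sup_of_disjoint _ _ (hdisj _ le_rfl), hsup, Subgroup.card_top]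
  have hprop : ∀ A : Subgroup G, A.Normal → A ≤ (Q : Subgroup G) → A ≠ (Q : Subgroup G) →
      (P : Subgroup G) ⊔ A ≠ ⊤ := by
    intro A hAn hA hne htop
    haveI := hAn
    have hc := Cfsg.Agent.Lib.Helper1.card_sup_of_disjoint (P : Subgroup G) A (hdisj A hA)
    rw [htop, Subgroup.card_top, hcardG] at hc
    have hPpos : 0 < Nat.card (P : Subgroup G) := Nat.card_pos
    have := Nat.eq_of_mul_eq_mul_left hPpos hc
    exact hne (Subgroup.eq_of_le_of_card_ge hA this.le)
  have hcΩ : ∀ x ∈ (P : Subgroup G), ∀ w ∈ Ω, x * w = w * x := by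
    intro x hx w hw
    haveI := h _ (hprop Ω hΩn hΩQ hΩne)
    exact Cfsg.Agent.Lib.Helper1.comm_of_isMulCommutative (A := (P : Subgroup G) ⊔ Ω)
      (Subgroup.mem_sup_left hx) (Subgroup.mem_sup_right hw)
  have hcV : ∀ x ∈ (P : Subgroup G), ∀ w ∈ V, x * w = w * x := by
    intro x hx w hw
    haveI := h _ (hprop V hVn hVQ hVne)
    exact Cfsg.Agent.Lib.Helper1.comm_of_isMulCommutative (A := (P : Subgroup G) ⊔ V)
      (Subgroup.mem_sup_left hx) (Subgroup.mem_sup_right hw)
  -- `P` centralizes `Q`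
  have hcent : ∀ x ∈ (P : Subgroup G), ∀ y ∈ (Q : Subgroup G), x * y = y * x := by
    intro x hx y hy
    obtain ⟨c, hcdef⟩ : ∃ c, c = x * y * x⁻¹ * y⁻¹ := ⟨_, rfl⟩
    have hxyx : x * y * x⁻¹ ∈ (Q : Subgroup G) := hQ.conj_mem y hy x
    have hcQ : c ∈ (Q : Subgroup G) := by rw [hcdef]; exact mul_mem hxyx (inv_mem hy)
    have hcq : c ^ q = 1 := by
      rw [hcdef, (show Commute (x * y * x⁻¹) y⁻¹ from hQcomm _ hxyx _ (inv_mem hy)).mul_pow,
        conj_pow, inv_pow]
      have h1 : x * y ^ q = y ^ q * x := hcV x hx _ ⟨y, hy, rfl⟩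
      rw [h1]
      group
    have hcΩ' : c ∈ Ω := ⟨hcQ, hcq⟩
    have hxc : x * c = c * x := hcΩ x hx c hcΩ'
    have hxck : ∀ k : ℕ, x * c ^ k = c ^ k * x := by
      intro k
      exact ((show Commute x c from hxc).pow_right k).eq
    have hconj : x * y * x⁻¹ = c * y := by rw [hcdef]; group
    have hpow : ∀ k : ℕ, x ^ k * y * (x ^ k)⁻¹ = c ^ k * y := by
      intro k
      induction k with
      | zero => simp
      | succ k ih =>
        calc x ^ (k + 1) * y * (x ^ (k + 1))⁻¹ = x * (x ^ k * y * (x ^ k)⁻¹) * x⁻¹ := by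
              rw [pow_succ']; group
          _ = x * (c ^ k * y) * x⁻¹ := by rw [ih]
          _ = (x * c ^ k) * y * x⁻¹ := by group
          _ = c ^ k * (x * y * x⁻¹) := by rw [hxck]; group
          _ = c ^ (k + 1) * y := by rw [hconj, pow_succ]; group
    obtain ⟨k, hk⟩ := IsPGroup.iff_card.1 P.2
    have hxk : x ^ (p ^ k) = 1 := by
      have h1 : (⟨x, hx⟩ : (P : Subgroup G)) ^ (Nat.card (P : Subgroup G)) = 1 := pow_card_eq_one'
      rw [hk] at h1
      have := congrArg Subtype.val h1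
      simpa using this
    have hck : c ^ (p ^ k) = 1 := by
      have := hpow (p ^ k)
      rw [hxk] at this
      simp at this
      exact this.symm ▸ rfl
    have hc1 : c = 1 := by
      have h1 := orderOf_dvd_of_pow_eq_one hck
      have h2 := orderOf_dvd_of_pow_eq_one hcq
      have hcop : Nat.Coprime (p ^ k) q := Nat.Coprime.pow_left k ((Nat.coprime_primes hp hq).2 hpq)
      exact orderOf_eq_one_iff.1 (Nat.eq_one_of_dvd_coprimes hcop h1 h2)
    rw [hc1] at hcdef
    have h3 : x * y * x⁻¹ = y := mul_inv_eq_one.1 hcdef.symm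
    exact mul_inv_eq_iff_eq_mul.1 h3
  apply hPn
  have hQN : (Q : Subgroup G) ≤ Subgroup.normalizer ((P : Subgroup G) : Set G) := by
    intro y hy
    apply Cfsg.Agent.Lib.Helper1.mem_normalizer_of_finite
    intro x hx
    have : y * x * y⁻¹ = x := by
      rw [← hcent x hx y hy]; group
    rw [this]
    exact hx
  have htop : Subgroup.normalizer ((P : Subgroup G) : Set G) = ⊤ := by
    rw [eq_top_iff, ← hsup]
    exact sup_le Subgroup.le_normalizer hQN
  exact Subgroup.normalizer_eq_top_iff.1 htop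

/-- A finite non-abelian group in which every proper subgroup is abelian is either of prime-power order, or is generated by a cyclic Sylow p-subgroup and a normal Sylow q-subgroup that is elementary abelian, for distinct primes p and q. -/
theorem result {G : Type*} [Group G] [Finite G] (hna : ¬ IsMulCommutative G) (h : ∀ H : Subgroup G, H ≠ ⊤ → IsMulCommutative H) : (∃ p : ℕ, p.Prime ∧ IsPGroup p G) ∨ ∃ p q : ℕ, p.Prime ∧ q.Prime ∧ p ≠ q ∧ ∃ (P : Sylow p G) (Q : Sylow q G), IsCyclic P ∧ (Q : Subgroup G).Normal ∧ Cfsg.IsElementaryAbelian q (Q : Subgroup G) ∧ (P : Subgroup G) ⊔ Q = ⊤ := by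
  by_cases hnil : Group.IsNilpotent G
  · left
    by_contra hno
    push_neg at hno
    apply hna
    obtain ⟨e⟩ := ((Group.isNilpotent_of_finite_tfae (G := G)).out 0 4).1 hnil
    refine ⟨⟨fun x y => ?_⟩⟩
    apply e.symm.injective
    rw [map_mul, map_mul]
    funext s S
    have hs : (s : ℕ).Prime := Nat.prime_of_mem_primeFactors s.2
    have hSne : (S : Subgroup G) ≠ ⊤ := fun hS => hno s hs (isPGroup_of_sylow_eq_top S hS)
    haveI := h _ hSne
    exact mul_comm' _ _
  · right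
    have hG : Cfsg.IsMinimalNonNilpotent G := ⟨hnil, fun H hH => nilpotent_of_comm (h H hH)⟩
    obtain ⟨p, q, hp, hq, hpq, P, Q, hcyc, hQn, hsup, hPn⟩ :=
      Cfsg.Agent.Lib.Helper1.schmidt_structure hG
    haveI : Fact p.Prime := ⟨hp⟩
    haveI : Fact q.Prime := ⟨hq⟩
    have hQtop : (Q : Subgroup G) ≠ ⊤ := by
      intro hQ
      exact hnil (isPGroup_of_sylow_eq_top Q hQ).isNilpotent
    have hQc := h _ hQtop
    exact ⟨p, q, hp, hq, hpq, P, Q, hcyc, hQn,
      ⟨hQc, exponent_aux h p q hpq P Q hQn hQc hsup hPn⟩, hsup⟩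
end Cfsg.Agent.S0537
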