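import Cfsg.Statements.S0539
import Mathlib
import Cfsg.Agent.Lib.Helper1.Subn
import Cfsg.Agent.Lib.Helper1.Basic

set_option autoImplicit false
open Pointwise
open Cfsg

namespace Cfsg.Agent.S0539

/-- Let S be a family of subnormal subgroups of a finite group that is closed under conjugation, and S₀ a proper subfamily. Then some member of S not in S₀ normalizes the join of S₀. -/
theorem result {G : Type*} [Group G] [Finite G] (S S₀ : Set (Subgroup G)) (hS : ∀ U ∈ S, U.IsSubnormal) (hconj : ∀ U ∈ S, ∀ g : G, MulAut.conj g • U ∈ S) (h₀ : S₀ ⊂ S) : ∃ X ∈ S, X ∉ S₀ ∧ X ≤ Subgroup.normalizer ((sSup S₀ : Subgroup G) : Set G) := by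
  classical
  obtain ⟨H, hHdef⟩ : ∃ H, H = sSup S₀ := ⟨_, rfl⟩
  rw [← hHdef]
  have hHsn : H.IsSubnormal := by
    rw [hHdef]
    exact Cfsg.Agent.Lib.Helper1.subnormal_sSup S₀ (fun U hU => hS U (h₀.subset hU))
  obtain ⟨n, f, hmono, hnorm, hf0, hfn⟩ := Subgroup.IsSubnormal.isSubnormal_iff.1 hHsn
  have hex : ∃ k, ∃ X ∈ S, X ∉ S₀ ∧ X ≤ f k := by
    obtain ⟨X, hXS, hXS₀⟩ := Set.exists_of_ssubset h₀
    exact ⟨n, X, hXS, hXS₀, by rw [hfn]; exact le_top⟩
  obtain ⟨X, hXS, hXS₀, hXk⟩ := Nat.find_spec hex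
  refine ⟨X, hXS, hXS₀, ?_⟩
  rcases Nat.eq_zero_or_pos (Nat.find hex) with hk | hk
  · rw [hk, hf0] at hXk
    exact hXk.trans Subgroup.le_normalizer
  · obtain ⟨k', hk'⟩ : ∃ k', Nat.find hex = k' + 1 := ⟨Nat.find hex - 1, by omega⟩
    rw [hk'] at hXk
    have hmin : ∀ Y ∈ S, Y ≤ f k' → Y ∈ S₀ := by
      intro Y hY hYk
      by_contra hYS₀
      have := Nat.find_min hex (m := k') (by omega)
      exact this ⟨Y, hY, hYS₀, hYk⟩
    have hnk : f (k' + 1) ≤ Subgroup.normalizer ((f k' : Subgroup G) : Set G) :=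
      (Subgroup.normal_subgroupOf_iff_le_normalizer (hmono (Nat.le_succ k'))).1 (hnorm k')
    have hHk : H ≤ f k' := by rw [← hf0]; exact hmono (Nat.zero_le k')
    intro x hx
    apply Cfsg.Agent.Lib.Helper1.mem_normalizer_of_finite
    intro h hh
    have hxn := hnk (hXk hx)
    have hle : H ≤ MulAut.conj x⁻¹ • H := by
      rw [hHdef]
      apply sSup_le
      intro Y hY y hy
      rw [Cfsg.Agent.Lib.Helper1.mem_conj_smul, inv_inv]
      have hYS₀ : MulAut.conj x • Y ∈ S₀ := by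
        apply hmin _ (hconj Y (h₀.subset hY) x)
        intro z hz
        rw [Cfsg.Agent.Lib.Helper1.mem_conj_smul] at hz
        have hz' : x⁻¹ * z * x ∈ f k' := hHk (by rw [hHdef]; exact le_sSup hY hz)
        have h1 := (Subgroup.mem_normalizer_iff.1 hxn (x⁻¹ * z * x)).1 hz'
        have e : x * (x⁻¹ * z * x) * x⁻¹ = z := by group
        rw [e] at h1
        exact h1
      exact le_sSup hYS₀ (Cfsg.Agent.Lib.Helper1.conj_mem_conj_smul x hy)
    have h2 := hle hh
    rw [Cfsg.Agent.Lib.Helper1.mem_conj_smul, inv_inv] at h2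
    exact h2
end Cfsg.Agent.S0539
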