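import Cfsg.Statements.S0540
import Mathlib
import Cfsg.Agent.S0539
import Cfsg.Agent.Lib.Helper1.Basic
import Cfsg.Agent.Lib.Helper1.HallSys

set_option autoImplicit false
open Pointwise
open Cfsg

namespace Cfsg.Agent.S0540

theorem zip_aux {G : Type*} [Group G] [Finite G] (V : Subgroup G) (SV T : Set (Subgroup G))
    (hle : ∀ B ∈ SV, B ≤ V) (hsn : ∀ B ∈ SV, (B.subgroupOf V).IsSubnormal)
    (hconj : ∀ B ∈ SV, ∀ v ∈ V, MulAut.conj v • B ∈ SV) (hT : T ⊂ SV) :
    ∃ B ∈ SV, B ∉ T ∧ B ≤ Subgroup.normalizer ((sSup T : Subgroup G) : Set G) := by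
  have hmap : (sSup ((fun B : Subgroup G => B.subgroupOf V) '' T)).map V.subtype = sSup T := by
    apply le_antisymm
    · rw [Subgroup.map_le_iff_le_comap]
      apply sSup_le
      rintro _ ⟨C, hC, rfl⟩
      intro y hy
      exact le_sSup hC hy
    · apply sSup_le
      intro C hC
      have hCV : C ≤ V := hle C (hT.subset hC)
      rw [← Subgroup.map_subgroupOf_eq_of_le hCV]
      exact Subgroup.map_mono (le_sSup ⟨C, hC, rfl⟩)
  have hA1 : ∀ U ∈ (fun B : Subgroup G => B.subgroupOf V) '' SV, U.IsSubnormal := by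
    rintro _ ⟨B, hB, rfl⟩
    exact hsn B hB
  have hA2 : ∀ U ∈ (fun B : Subgroup G => B.subgroupOf V) '' SV, ∀ g : V,
      MulAut.conj g • U ∈ (fun B : Subgroup G => B.subgroupOf V) '' SV := by
    rintro _ ⟨B, hB, rfl⟩ v
    refine ⟨MulAut.conj (v : G) • B, hconj B hB v v.2, ?_⟩
    ext y
    show y ∈ (MulAut.conj (v : G) • B).subgroupOf V ↔ y ∈ MulAut.conj v • B.subgroupOf V
    rw [Subgroup.mem_subgroupOf, Cfsg.Agent.Lib.Helper1.mem_conj_smul B (v : G),
      Cfsg.Agent.Lib.Helper1.mem_conj_smul (B.subgroupOf V) v, Subgroup.mem_subgroupOf]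
    rfl
  have hA3 : (fun B : Subgroup G => B.subgroupOf V) '' T ⊂
      (fun B : Subgroup G => B.subgroupOf V) '' SV := by
    constructor
    · exact Set.image_mono hT.subset
    · intro hsub
      obtain ⟨B, hB, hBT⟩ := Set.exists_of_ssubset hT
      obtain ⟨B', hB', heq⟩ := hsub ⟨B, hB, rfl⟩
      have : B' = B := by
        have h1 := congrArg (Subgroup.map V.subtype) heq
        rwa [Subgroup.map_subgroupOf_eq_of_le (hle B' (hT.subset hB')),
          Subgroup.map_subgroupOf_eq_of_le (hle B hB)] at h1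
      exact hBT (this ▸ hB')
  obtain ⟨X, hX, hX0, hXn⟩ := Cfsg.Agent.S0539.result (G := V) _ _ hA1 hA2 hA3
  obtain ⟨B, hB, rfl⟩ := hX
  refine ⟨B, hB, fun hBT => hX0 ⟨B, hBT, rfl⟩, ?_⟩
  intro b hb
  apply Cfsg.Agent.Lib.Helper1.mem_normalizer_of_finite
  intro h hh
  rw [← hmap] at hh ⊢
  obtain ⟨h', hh', rfl⟩ := hh
  have hbV : b ∈ V := hle B hB hb
  have h1 := (Subgroup.mem_normalizer_iff.1
    (hXn (show (⟨b, hbV⟩ : V) ∈ B.subgroupOf V from hb)) h').1 hh'
  exact ⟨_, h1, rfl⟩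

/-- A uniqueness lemma of zipper type. Let A be a subgroup of a finite group G and U a nonempty family of subgroups. For V in U write S(V) for the set of conjugates of A that lie in V and are subnormal in V. Assume: A belongs to S(V) for every V in U; a member of some S(W) that lies in V belongs to S(V); and for all V, W in U the normalizer of the join of S(V) ∩ S(W) lies in some member of U. Then U has a greatest element. -/
theorem result {G : Type*} [Group G] [Finite G] (A : Subgroup G) (U : Set (Subgroup G)) (hU : U.Nonempty) (S : Subgroup G → Set (Subgroup G)) (hS : ∀ V B : Subgroup G, B ∈ S V ↔ (∃ g : G, B = MulAut.conj g • A) ∧ B ≤ V ∧ (B.subgroupOf V).IsSubnormal) (h1 : ∀ V ∈ U, A ∈ S V) (h2 : ∀ V ∈ U, ∀ W ∈ U, ∀ B ∈ S W, B ≤ V → B ∈ S V) (h3 : ∀ V ∈ U, ∀ W ∈ U, ∃ X ∈ U, Subgroup.normalizer ((sSup (S V ∩ S W) : Subgroup G) : Set G) ≤ X) : ∃ M ∈ U, ∀ V ∈ U, V ≤ M := by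
  classical
  by_contra hno
  push_neg at hno
  have hUfin : U.Finite := Set.toFinite U
  have hSle : ∀ V B, B ∈ S V → B ≤ V := fun V B hB => ((hS V B).1 hB).2.1
  have hSsn : ∀ V B, B ∈ S V → (B.subgroupOf V).IsSubnormal := fun V B hB => ((hS V B).1 hB).2.2
  have hSconj : ∀ V B, B ∈ S V → ∀ v ∈ V, MulAut.conj v • B ∈ S V := by
    intro V B hB v hv
    obtain ⟨⟨g, rfl⟩, hBV, hsn⟩ := (hS V B).1 hB
    rw [hS]
    refine ⟨⟨v * g, by rw [Cfsg.Agent.Lib.Helper1.conj_mul_smul]⟩, ?_, ?_⟩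
    · intro y hy
      rw [Cfsg.Agent.Lib.Helper1.mem_conj_smul] at hy
      have := V.mul_mem (V.mul_mem hv (hBV hy)) (V.inv_mem hv)
      have e : v * (v⁻¹ * y * v) * v⁻¹ = y := by group
      rw [e] at this
      exact this
    · have e : (MulAut.conj v • (MulAut.conj g • A)).subgroupOf V =
          MulAut.conj (⟨v, hv⟩ : V) • ((MulAut.conj g • A).subgroupOf V) := by
        ext y
        rw [Subgroup.mem_subgroupOf, Cfsg.Agent.Lib.Helper1.mem_conj_smul (MulAut.conj g • A) v,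
          Cfsg.Agent.Lib.Helper1.mem_conj_smul ((MulAut.conj g • A).subgroupOf V) ⟨v, hv⟩,
          Subgroup.mem_subgroupOf]
        rfl
      rw [e]
      exact hsn.smul _
  have hnorm_all : ∀ V, V ≤ Subgroup.normalizer ((sSup (S V) : Subgroup G) : Set G) := by
    intro V v hv
    apply Cfsg.Agent.Lib.Helper1.mem_normalizer_of_finite
    intro h hh
    have hle : sSup (S V) ≤ MulAut.conj v⁻¹ • sSup (S V) := by
      apply sSup_le
      intro Y hY y hy
      rw [Cfsg.Agent.Lib.Helper1.mem_conj_smul, inv_inv]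
      exact le_sSup (hSconj V Y hY v hv) (Cfsg.Agent.Lib.Helper1.conj_mem_conj_smul v hy)
    have h2 := hle hh
    rw [Cfsg.Agent.Lib.Helper1.mem_conj_smul, inv_inv] at h2
    exact h2
  have hmaxex : ∀ V ∈ U, ∃ M, V ≤ M ∧ Maximal (· ∈ U) M :=
    fun V hV => hUfin.exists_le_maximal hV
  have hmaxeq : ∀ M, Maximal (· ∈ U) M → ∀ X ∈ U, M ≤ X → X = M :=
    fun M hM X hX hle => le_antisymm (hM.2 hX hle) hle
  obtain ⟨V0, hV0⟩ := hU
  obtain ⟨M1, -, hM1⟩ := hmaxex V0 hV0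
  obtain ⟨V1, hV1, hV1M1⟩ := hno M1 hM1.1
  obtain ⟨M2, hV1M2, hM2⟩ := hmaxex V1 hV1
  have hne12 : M1 ≠ M2 := by rintro rfl; exact hV1M1 hV1M2
  haveI : Nonempty {p : Subgroup G × Subgroup G //
      Maximal (· ∈ U) p.1 ∧ Maximal (· ∈ U) p.2 ∧ p.1 ≠ p.2} := ⟨⟨(M1, M2), hM1, hM2, hne12⟩⟩
  obtain ⟨⟨⟨V, W⟩, hVmax, hWmax, hVW⟩, hopt⟩ := Finite.exists_max
    (fun p : {p : Subgroup G × Subgroup G //
      Maximal (· ∈ U) p.1 ∧ Maximal (· ∈ U) p.2 ∧ p.1 ≠ p.2} => (S p.1.1 ∩ S p.1.2).ncard)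
  have hopt' : ∀ V' W', Maximal (· ∈ U) V' → Maximal (· ∈ U) W' → V' ≠ W' →
      (S V' ∩ S W').ncard ≤ (S V ∩ S W).ncard :=
    fun V' W' h1 h2 h3 => hopt ⟨(V', W'), h1, h2, h3⟩
  have Z1 : ∀ V W, Maximal (· ∈ U) V → Maximal (· ∈ U) W → V ≠ W →
      (∀ V' W', Maximal (· ∈ U) V' → Maximal (· ∈ U) W' → V' ≠ W' →
        (S V' ∩ S W').ncard ≤ (S V ∩ S W).ncard) →
      Subgroup.normalizer ((sSup (S V ∩ S W) : Subgroup G) : Set G) ≤ V := by
    intro V W hVmax hWmax hVW hopt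
    obtain ⟨X, hXU, hNX⟩ := h3 V hVmax.1 W hWmax.1
    obtain ⟨X', hXX', hX'max⟩ := hmaxex X hXU
    by_cases hT : S V ∩ S W = S V
    · have hVX : V ≤ X' := by
        have := hnorm_all V
        rw [← hT] at this
        exact this.trans (hNX.trans hXX')
      have hVX' : X' = V := hmaxeq V hVmax X' hX'max.1 hVX
      have hfin := hNX.trans hXX'
      rw [hVX'] at hfin
      exact hfin
    · have hTss : S V ∩ S W ⊂ S V :=
        ⟨Set.inter_subset_left, fun h => hT (Set.Subset.antisymm Set.inter_subset_left h)⟩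
      obtain ⟨B, hB, hBT, hBn⟩ := zip_aux V (S V) (S V ∩ S W) (hSle V) (hSsn V) (hSconj V) hTss
      by_cases hVX' : X' = V
      · have hfin := hNX.trans hXX'
        rw [hVX'] at hfin
        exact hfin
      · exfalso
        have hBX' : B ∈ S X' := h2 X' hX'max.1 V hVmax.1 B hB (hBn.trans (hNX.trans hXX'))
        have hTX' : S V ∩ S W ⊆ S V ∩ S X' := by
          intro C hC
          refine ⟨hC.1, h2 X' hX'max.1 V hVmax.1 C hC.1 ?_⟩
          exact (le_sSup hC).trans (Subgroup.le_normalizer.trans (hNX.trans hXX'))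
        have hss : S V ∩ S W ⊂ S V ∩ S X' := ⟨hTX', fun h => hBT (h ⟨hB, hBX'⟩)⟩
        have hlt := Set.ncard_lt_ncard hss (Set.toFinite _)
        have hle := hopt V X' hVmax hX'max (fun h => hVX' h.symm)
        omega
  have hN1 := Z1 V W hVmax hWmax hVW hopt'
  have hN2 : Subgroup.normalizer ((sSup (S V ∩ S W) : Subgroup G) : Set G) ≤ W := by
    have := Z1 W V hWmax hVmax (fun h => hVW h.symm)
      (by intro V' W' a b c; rw [Set.inter_comm (S W) (S V)]; exact hopt' V' W' a b c)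
    rw [Set.inter_comm] at this
    exact this
  have hT : S V ∩ S W = S V := by
    by_contra hT
    have hTss : S V ∩ S W ⊂ S V :=
      ⟨Set.inter_subset_left, fun h => hT (Set.Subset.antisymm Set.inter_subset_left h)⟩
    obtain ⟨B, hB, hBT, hBn⟩ := zip_aux V (S V) (S V ∩ S W) (hSle V) (hSsn V) (hSconj V) hTss
    exact hBT ⟨hB, h2 W hWmax.1 V hVmax.1 B hB (hBn.trans hN2)⟩
  have hVW' : V ≤ W := by
    have := hnorm_all V
    rw [← hT] at this
    exact this.trans hN2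
  exact hVW (hmaxeq V hVmax W hWmax.1 hVW').symm
end Cfsg.Agent.S0540
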