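import Cfsg.Statements.S0541
import Mathlib
import Cfsg.Agent.S0540
import Cfsg.Agent.Lib.Helper7.Subnormal
import Cfsg.Agent.Lib.Helper1.Basic
import Cfsg.Agent.Lib.Helper1.HallSys
import Cfsg.Agent.Lib.Helper1.HallSys2

set_option autoImplicit false
open Pointwise
open Cfsg

namespace Cfsg.Agent.S0541

/-- Let Z and Y be subgroups of a finite group G and p a prime. Suppose that for every g in G the subgroup generated by the conjugates of g Z g⁻¹ under Y is a p-group. Then there is a Sylow p-subgroup P of G such that Y normalizes the subgroup generated by all conjugates of Z contained in P. -/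
theorem result {G : Type*} [Group G] [Finite G] (p : ℕ) [Fact p.Prime] (Z Y : Subgroup G) (h : ∀ g : G, IsPGroup p ↥(⨆ y ∈ Y, MulAut.conj (y * g) • Z)) : ∃ P : Sylow p G, Y ≤ Subgroup.normalizer ((⨆ g ∈ {g : G | MulAut.conj g • Z ≤ (P : Subgroup G)}, MulAut.conj g • Z : Subgroup G) : Set G) := by
  classical
  obtain ⟨C, hC⟩ : ∃ C : Subgroup G → Set (Subgroup G),
      ∀ Q B, B ∈ C Q ↔ (∃ g : G, B = MulAut.conj g • Z) ∧ B ≤ Q :=
    ⟨fun Q => {B | (∃ g : G, B = MulAut.conj g • Z) ∧ B ≤ Q}, fun Q B => Iff.rfl⟩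
  obtain ⟨QQ, hQQ⟩ : ∃ QQ : Set (Subgroup G), ∀ Q, Q ∈ QQ ↔
      (IsPGroup p Q ∧ Y ≤ Subgroup.normalizer (Q : Set G) ∧ Q = sSup (C Q)) :=
    ⟨{Q | IsPGroup p Q ∧ Y ≤ Subgroup.normalizer (Q : Set G) ∧ Q = sSup (C Q)}, fun Q => Iff.rfl⟩
  have hTle : ∀ g, ∀ y ∈ Y, MulAut.conj (y * g) • Z ≤ ⨆ y ∈ Y, MulAut.conj (y * g) • Z :=
    fun g y hy => le_iSup₂ (f := fun y (_ : y ∈ Y) => MulAut.conj (y * g) • Z) y hy
  have hTnorm : ∀ g, Y ≤ Subgroup.normalizer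
      ((⨆ y ∈ Y, MulAut.conj (y * g) • Z : Subgroup G) : Set G) := by
    intro g y' hy'
    apply Cfsg.Agent.Lib.Helper1.mem_normalizer_of_finite
    intro x hx
    have hle : (⨆ y ∈ Y, MulAut.conj (y * g) • Z) ≤
        MulAut.conj y'⁻¹ • (⨆ y ∈ Y, MulAut.conj (y * g) • Z) := by
      apply iSup₂_le
      intro y hy z hz
      rw [Cfsg.Agent.Lib.Helper1.mem_conj_smul, inv_inv]
      have h1 : y' * z * y'⁻¹ ∈ MulAut.conj (y' * y * g) • Z := by
        rw [mul_assoc, Cfsg.Agent.Lib.Helper1.conj_mul_smul]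
        exact Cfsg.Agent.Lib.Helper1.conj_mem_conj_smul y' hz
      exact hTle g (y' * y) (Y.mul_mem hy' hy) h1
    have := hle hx
    rwa [Cfsg.Agent.Lib.Helper1.mem_conj_smul, inv_inv] at this
  have hTgen : ∀ g, ∀ Q, (⨆ y ∈ Y, MulAut.conj (y * g) • Z) ≤ Q →
      (⨆ y ∈ Y, MulAut.conj (y * g) • Z) ≤ sSup (C Q) := by
    intro g Q hQ
    apply iSup₂_le
    intro y hy
    exact le_sSup ((hC _ _).2 ⟨⟨y * g, rfl⟩, (hTle g y hy).trans hQ⟩)
  have hCle : ∀ Q, sSup (C Q) ≤ Q := fun Q => sSup_le (fun B hB => ((hC _ _).1 hB).2)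
  have hT1 : (⨆ y ∈ Y, MulAut.conj (y * 1) • Z) ∈ QQ :=
    (hQQ _).2 ⟨h 1, hTnorm 1, le_antisymm (hTgen 1 _ le_rfl) (hCle _)⟩
  obtain ⟨Q, -, hQmax⟩ := (Set.toFinite QQ).exists_le_maximal hT1
  obtain ⟨hQp, hQY, hQgen⟩ := (hQQ _).1 hQmax.1
  obtain ⟨P, hQP⟩ := hQp.exists_le_sylow
  refine ⟨P, ?_⟩
  have hW : (⨆ g ∈ {g : G | MulAut.conj g • Z ≤ (P : Subgroup G)}, MulAut.conj g • Z : Subgroup G)
      = sSup (C (P : Subgroup G)) := by
    apply le_antisymm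
    · apply iSup₂_le
      intro g hg
      exact le_sSup ((hC _ _).2 ⟨⟨g, rfl⟩, hg⟩)
    · apply sSup_le
      intro B hB
      obtain ⟨⟨g, rfl⟩, hB'⟩ := (hC _ _).1 hB
      exact le_iSup₂ (f := fun g (_ : g ∈ {g : G | MulAut.conj g • Z ≤ (P : Subgroup G)}) =>
        MulAut.conj g • Z) g hB'
  rw [hW]
  suffices hWQ : sSup (C (P : Subgroup G)) = Q by rw [hWQ]; exact hQY
  by_contra hne
  obtain ⟨W, hWdef⟩ : ∃ W, W = sSup (C (P : Subgroup G)) := ⟨_, rfl⟩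
  rw [← hWdef] at hne
  have hWP : W ≤ P := by rw [hWdef]; exact hCle _
  have hQW : Q ≤ W := by
    rw [hQgen, hWdef]
    apply sSup_le
    intro B hB
    exact le_sSup ((hC _ _).2 ⟨((hC _ _).1 hB).1, ((hC _ _).1 hB).2.trans hQP⟩)
  haveI : Group.IsNilpotent W := (P.2.to_le hWP).isNilpotent
  have hss : C Q ⊂ C (P : Subgroup G) := by
    constructor
    · intro B hB
      exact (hC _ _).2 ⟨((hC _ _).1 hB).1, ((hC _ _).1 hB).2.trans hQP⟩
    · intro hsub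
      apply hne
      apply le_antisymm _ hQW
      rw [hWdef]
      apply sSup_le
      intro B hB
      exact ((hC _ _).1 (hsub hB)).2
  have hconj : ∀ B ∈ C (P : Subgroup G), ∀ v ∈ W, MulAut.conj v • B ∈ C (P : Subgroup G) := by
    intro B hB v hv
    obtain ⟨⟨g, rfl⟩, hB'⟩ := (hC _ _).1 hB
    refine (hC _ _).2 ⟨⟨v * g, by rw [Cfsg.Agent.Lib.Helper1.conj_mul_smul]⟩, ?_⟩
    intro y hy
    rw [Cfsg.Agent.Lib.Helper1.mem_conj_smul] at hy
    have hvP : v ∈ (P : Subgroup G) := hWP hv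
    have := mul_mem (mul_mem hvP (hB' hy)) (inv_mem hvP)
    have e : v * (v⁻¹ * y * v) * v⁻¹ = y := by group
    rw [e] at this
    exact this
  obtain ⟨X, hXP, hXQ, hXn⟩ := Cfsg.Agent.S0540.zip_aux W (C (P : Subgroup G)) (C Q)
    (fun B hB => by rw [hWdef]; exact le_sSup hB)
    (fun B hB => Cfsg.Agent.Lib.Helper7.isSubnormal_of_isNilpotent _) hconj hss
  rw [← hQgen] at hXn
  obtain ⟨⟨g, rfl⟩, hXP'⟩ := (hC _ _).1 hXP
  have hXQ' : ¬ MulAut.conj g • Z ≤ Q := fun hle => hXQ ((hC _ _).2 ⟨⟨g, rfl⟩, hle⟩)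
  obtain ⟨T, hT⟩ : ∃ T, T = ⨆ y ∈ Y, MulAut.conj (y * g) • Z := ⟨_, rfl⟩
  have hTN : T ≤ Subgroup.normalizer (Q : Set G) := by
    rw [hT]
    apply iSup₂_le
    intro y hy z hz
    rw [Cfsg.Agent.Lib.Helper1.conj_mul_smul, Cfsg.Agent.Lib.Helper1.mem_conj_smul] at hz
    have h1 := hXn hz
    have h2 := hQY hy
    have e : z = y * (y⁻¹ * z * y) * y⁻¹ := by group
    rw [e]
    exact mul_mem (mul_mem h2 h1) (inv_mem h2)
  have hQ'p : IsPGroup p (T ⊔ Q : Subgroup G) :=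
    IsPGroup.to_sup_of_normal_right' (by rw [hT]; exact h g) hQp hTN
  have hQ'mem : T ⊔ Q ∈ QQ := by
    refine (hQQ _).2 ⟨hQ'p, ?_, ?_⟩
    · intro y hy
      apply Cfsg.Agent.Lib.Helper1.mem_normalizer_of_conj_smul_eq
      rw [Subgroup.smul_sup, Cfsg.Agent.Lib.Helper1.conj_smul_eq_self_of_mem_normalizer (hQY hy),
        Cfsg.Agent.Lib.Helper1.conj_smul_eq_self_of_mem_normalizer
          (by rw [hT]; exact hTnorm g hy)]
    · apply le_antisymm _ (hCle _)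
      apply sup_le
      · rw [hT]; apply hTgen; rw [← hT]; exact le_sup_left
      · conv_lhs => rw [hQgen]
        apply sSup_le
        intro B hB
        exact le_sSup ((hC _ _).2 ⟨((hC _ _).1 hB).1, ((hC _ _).1 hB).2.trans le_sup_right⟩)
  have hle := hQmax.2 hQ'mem le_sup_right
  apply hXQ'
  have hXT : MulAut.conj g • Z ≤ T := by
    rw [hT]
    have := hTle g 1 Y.one_mem
    rwa [one_mul] at this
  exact hXT.trans (le_sup_left.trans hle)
end Cfsg.Agent.S0541
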