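import Cfsg.Statements.S0542
import Mathlib

set_option autoImplicit false
open Cfsg

namespace Cfsg.Agent.S0542

theorem relIndex_dvd_index_of_normal_right {K : Type*} [Group K] [Finite K] (P H : Subgroup K)
    [H.Normal] : P.relIndex H ∣ P.index := by
  have h1 : H.relIndex (P ⊔ H) = H.relIndex P := Subgroup.relIndex_sup_right P H
  have e1 := Subgroup.relIndex_mul_relIndex ⊥ (P ⊓ H) P bot_le inf_le_left
  have e2 := Subgroup.relIndex_mul_relIndex ⊥ (P ⊓ H) H bot_le inf_le_right
  have e3 := Subgroup.relIndex_mul_relIndex ⊥ H (P ⊔ H) bot_le le_sup_right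
  have e4 := Subgroup.relIndex_mul_relIndex ⊥ P (P ⊔ H) bot_le le_sup_left
  have e5 := Subgroup.relIndex_mul_index (le_sup_left : P ≤ P ⊔ H)
  rw [Subgroup.inf_relIndex_left] at e1
  rw [Subgroup.inf_relIndex_right] at e2
  rw [h1] at e3
  have hpos1 : 0 < (⊥ : Subgroup K).relIndex (P ⊓ H) := by
    rw [Subgroup.relIndex_bot_left]; exact Nat.card_pos
  have hpos2 : 0 < H.relIndex P := by
    apply Nat.pos_of_ne_zero
    intro h0
    rw [h0, mul_zero] at e1
    rw [Subgroup.relIndex_bot_left] at e1
    exact Nat.card_pos.ne e1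
  have key : P.relIndex H = P.relIndex (P ⊔ H) := by
    have : (⊥ : Subgroup K).relIndex (P ⊓ H) * H.relIndex P * P.relIndex H =
        (⊥ : Subgroup K).relIndex (P ⊓ H) * H.relIndex P * P.relIndex (P ⊔ H) := by
      calc (⊥ : Subgroup K).relIndex (P ⊓ H) * H.relIndex P * P.relIndex H
          = ((⊥ : Subgroup K).relIndex (P ⊓ H) * P.relIndex H) * H.relIndex P := by ring
        _ = (⊥ : Subgroup K).relIndex (P ⊔ H) := by rw [e2, e3]
        _ = ((⊥ : Subgroup K).relIndex (P ⊓ H) * H.relIndex P) * P.relIndex (P ⊔ H) := by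
            rw [e1, e4]
    exact Nat.eq_of_mul_eq_mul_left (Nat.mul_pos hpos1 hpos2) this
  rw [key]
  exact Dvd.intro _ e5

/-- A Sylow p-subgroup of a finite group meets every subnormal subgroup H in a Sylow p-subgroup of H. -/
theorem result {G : Type*} [Group G] [Finite G] (p : ℕ) [Fact p.Prime] (H : Subgroup G) (hH : H.IsSubnormal) (S : Sylow p G) : ∃ Q : Sylow p H, (Q : Subgroup H) = (S : Subgroup G).subgroupOf H := by
  have key : ¬ p ∣ (S : Subgroup G).relIndex H := by
    induction hH with
    | top => rw [Subgroup.relIndex_top_right]; exact S.not_dvd_index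
    | step H K hHK hK hn ih =>
      intro hdvd
      apply ih
      haveI := hn
      have h1 := relIndex_dvd_index_of_normal_right ((S : Subgroup G).subgroupOf K) (H.subgroupOf K)
      rw [Subgroup.relIndex_subgroupOf hHK] at h1
      exact dvd_trans hdvd h1
  have hp : IsPGroup p ((S : Subgroup G).subgroupOf H) := S.isPGroup'.comap_subtype
  exact ⟨hp.toSylow key, hp.toSylow_coe key⟩
end Cfsg.Agent.S0542
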