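import Cfsg.Statements.S0544
import Mathlib
import Cfsg.Agent.Lib.Helper1.HallSys
import Cfsg.Agent.Lib.Helper1.MinNormal
import Cfsg.Agent.Lib.Helper1.Basic

set_option autoImplicit false
open Cfsg

namespace Cfsg.Agent.S0544

/-- In a finite solvable group the intersection of the normalizers of the members of a Hall complement system is a nilpotent subgroup. -/
theorem result {G : Type*} [Group G] [Finite G] [Group.IsSolvable G] (K : Nat.Primes → Subgroup G) (hK : Cfsg.IsComplementSystem K) : Group.IsNilpotent (Cfsg.systemNormalizer K) := by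
  classical
  obtain ⟨D, hD⟩ : ∃ D, D = Cfsg.systemNormalizer K := ⟨_, rfl⟩
  rw [← hD]
  apply ((Group.isNilpotent_of_finite_tfae (G := D)).out 0 3).2
  intro p hpF P
  obtain ⟨pp, hpp⟩ : ∃ pp : Nat.Primes, (pp : ℕ) = p := ⟨⟨p, hpF.out⟩, rfl⟩
  obtain ⟨Qp, hQp⟩ : ∃ Q, Q = ⨅ r ∈ (Cfsg.Agent.Lib.Helper1.primesOf G).erase pp, K r := ⟨_, rfl⟩
  have hidx : ¬ p ∣ Qp.index := by
    rw [hQp, ← hpp]
    exact Cfsg.Agent.Lib.Helper1.compl_iInf_index hK _ pp (Finset.notMem_erase _ _)
  have hpg : IsPGroup p Qp := by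
    have hc : ∀ r : ℕ, r.Prime → r ∣ Nat.card Qp → r = p := by
      intro r hr hrd
      by_contra hne
      obtain ⟨rr, hrr⟩ : ∃ rr : Nat.Primes, (rr : ℕ) = r := ⟨⟨r, hr⟩, rfl⟩
      have hrG : r ∣ Nat.card G := hrd.trans (Subgroup.card_subgroup_dvd_card _)
      have hmem : rr ∈ (Cfsg.Agent.Lib.Helper1.primesOf G).erase pp := by
        rw [Finset.mem_erase]
        refine ⟨fun h => hne ?_, (Cfsg.Agent.Lib.Helper1.mem_primesOf rr).2 (by rw [hrr]; exact hrG)⟩
        rw [← hrr, ← hpp, h]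
      have hle : Qp ≤ K rr := by
        rw [hQp]
        exact iInf₂_le rr hmem
      apply Cfsg.Agent.Lib.Helper1.compl_not_dvd_card hK rr
      rw [hrr]
      exact hrd.trans (Subgroup.card_dvd_of_le hle)
    have := Nat.eq_prime_pow_of_unique_prime_dvd (Nat.card_pos (α := Qp)).ne'
      (fun {d} hd hdd => hc d hd hdd)
    exact IsPGroup.of_card this
  have hDn : D ≤ Subgroup.normalizer (Qp : Set G) := by
    intro d hd
    apply Cfsg.Agent.Lib.Helper1.mem_normalizer_of_finite
    intro x hx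
    rw [hQp] at hx ⊢
    rw [Subgroup.mem_iInf] at hx ⊢
    intro r
    have hxr := hx r
    rw [Subgroup.mem_iInf] at hxr ⊢
    intro hr
    have hd' : d ∈ Subgroup.normalizer ((K r : Subgroup G) : Set G) := by
      rw [hD] at hd
      unfold Cfsg.systemNormalizer at hd
      exact (Subgroup.mem_iInf.1 hd) r
    exact (Subgroup.mem_normalizer_iff.1 hd' x).1 (hxr hr)
  haveI hNn : (Qp.subgroupOf D).Normal := Subgroup.normal_subgroupOf_of_le_normalizer hDn
  have hNp : IsPGroup p (Qp.subgroupOf D) := hpg.comap_subtype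
  have hnd : ¬ p ∣ (Qp.subgroupOf D).index := by
    intro h
    exact hidx (h.trans (Cfsg.Agent.Lib.Helper1.relIndex_dvd_index_of_le_normalizer Qp D hDn))
  exact Cfsg.Agent.Lib.Helper1.sylow_normal_of_normal_pgroup _ hNp hnd P
end Cfsg.Agent.S0544
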