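import Cfsg.Statements.S0546
import Mathlib
import Cfsg.Agent.Lib.Helper1.HallSys2
import Cfsg.Agent.Lib.Helper1.SchmidtStr

set_option autoImplicit false
open Cfsg

namespace Cfsg.Agent.S0546

/-- The normal closure of a system normalizer of a finite solvable group is the whole group. -/
theorem result {G : Type*} [Group G] [Finite G] [Group.IsSolvable G] (K : Nat.Primes → Subgroup G) (hK : Cfsg.IsComplementSystem K) : Subgroup.normalClosure ((Cfsg.systemNormalizer K : Subgroup G) : Set G) = ⊤ := by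
  by_contra hne
  obtain ⟨M, hM⟩ : ∃ M, M = Subgroup.normalClosure ((Cfsg.systemNormalizer K : Subgroup G) : Set G) :=
    ⟨_, rfl⟩
  rw [← hM] at hne
  haveI hMn : M.Normal := by rw [hM]; exact Subgroup.normalClosure_normal
  have hDM : Cfsg.systemNormalizer K ≤ M := by rw [hM]; exact Subgroup.le_normalClosure
  haveI : Nontrivial (G ⧸ M) := by
    rw [← Finite.one_lt_card_iff_nontrivial, ← Subgroup.index_eq_card]
    have h1 : M.index ≠ 1 := fun h => hne (Subgroup.index_eq_one.1 h)
    have h0 : M.index ≠ 0 := Subgroup.index_ne_zero_of_finite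
    omega
  obtain ⟨M1', hM1n, hM1i⟩ := Cfsg.Agent.Lib.Helper1.exists_normal_prime_index (G := G ⧸ M)
  obtain ⟨M1, hM1⟩ : ∃ M1, M1 = M1'.comap (QuotientGroup.mk' M) := ⟨_, rfl⟩
  haveI hM1n' : M1.Normal := by rw [hM1]; exact hM1n.comap _
  have hidx : M1.index = M1'.index := by
    rw [hM1]; exact Subgroup.index_comap_of_surjective M1' (QuotientGroup.mk'_surjective M)
  have hMM1 : M ≤ M1 := by
    intro x hx
    rw [hM1, Subgroup.mem_comap]
    have : QuotientGroup.mk' M x = 1 := (QuotientGroup.eq_one_iff x).2 hx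
    rw [this]
    exact M1'.one_mem
  have hpr : (Nat.card (G ⧸ M1)).Prime := by
    rw [← Subgroup.index_eq_card, hidx]; exact hM1i
  haveI : Fact (Nat.card (G ⧸ M1)).Prime := ⟨hpr⟩
  haveI : IsCyclic (G ⧸ M1) := isCyclic_of_prime_card rfl
  have h1 := Cfsg.Agent.Lib.Helper1.sysNorm_map hK M1
  have h2 : (Cfsg.systemNormalizer K).map (QuotientGroup.mk' M1) = ⊥ := by
    rw [Subgroup.map_eq_bot_iff, QuotientGroup.ker_mk']
    exact hDM.trans hMM1
  have h3 : Cfsg.systemNormalizer (fun p => (K p).map (QuotientGroup.mk' M1)) = ⊤ := by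
    unfold Cfsg.systemNormalizer
    rw [eq_top_iff]
    intro x _
    rw [Subgroup.mem_iInf]
    intro p
    rw [Subgroup.mem_normalizer_iff]
    intro h
    rw [mul_comm' x h, mul_inv_cancel_right]
  rw [h2, h3] at h1
  have h4 : Nat.card (⊤ : Subgroup (G ⧸ M1)) = Nat.card (⊥ : Subgroup (G ⧸ M1)) := by rw [h1]
  rw [Subgroup.card_top, Subgroup.card_bot] at h4
  rw [h4] at hpr
  exact Nat.not_prime_one hpr
end Cfsg.Agent.S0546
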