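import Cfsg.Statements.S0547
import Mathlib
import Cfsg.Agent.Lib.Helper1.PrimSolv

set_option autoImplicit false
open Cfsg

namespace Cfsg.Agent.S0547

/-- Let a finite solvable group G act faithfully and primitively on a set, and let M be a minimal normal subgroup of G. Then M is transitive with trivial point stabilizers, and the number of points equals the order of M, which is a prime power p ^ d with d ≥ 1. -/
theorem result {G : Type*} [Group G] [Finite G] [Group.IsSolvable G] {Ω : Type*} [Nonempty Ω] [MulAction G Ω] [FaithfulSMul G Ω] (hprim : MulAction.IsPreprimitive G Ω) (M : Subgroup G) [M.Normal] (hM : M ≠ ⊥) (hmin : ∀ K : Subgroup G, K.Normal → K ≤ M → K = ⊥ ∨ K = M) : MulAction.IsPretransitive M Ω ∧ (∀ ω : Ω, MulAction.stabilizer M ω = ⊥) ∧ ∃ p d : ℕ, p.Prime ∧ 0 < d ∧ Nat.card Ω = p ^ d ∧ Nat.card M = p ^ d := by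
  open Cfsg.Agent.Lib.Helper1 in
  obtain ⟨htr, hreg⟩ := prim_solv_regular hprim M hM hmin
  haveI := htr
  have hstab : ∀ ω : Ω, MulAction.stabilizer M ω = ⊥ := by
    intro ω
    rw [eq_bot_iff]
    intro m hm
    rw [Subgroup.mem_bot]
    apply Subtype.ext
    exact hreg ω m m.2 hm
  refine ⟨htr, hstab, ?_⟩
  open Cfsg.Agent.Lib.Helper1 in
  obtain ⟨p, hp, hMp, -⟩ := minNormal_isPGroup M hM hmin
  haveI : Fact p.Prime := ⟨hp⟩
  obtain ⟨d, hd⟩ := IsPGroup.iff_card.1 hMp
  have hd0 : 0 < d := by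
    rcases Nat.eq_zero_or_pos d with h0 | h0
    · rw [h0, pow_zero] at hd
      exact absurd (Subgroup.card_eq_one.1 hd) hM
    · exact h0
  obtain ⟨ω⟩ := ‹Nonempty Ω›
  refine ⟨p, d, hp, hd0, ?_, hd⟩
  rw [← MulAction.index_stabilizer_of_transitive M ω, hstab ω, Subgroup.index_bot, hd]
end Cfsg.Agent.S0547
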