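import Cfsg.Statements.S0548
import Mathlib
import Cfsg.Agent.Lib.Helper1.PrimSolv

set_option autoImplicit false
open Cfsg

namespace Cfsg.Agent.S0548

/-- Let a finite solvable group G act faithfully and primitively on a set, let M be a minimal normal subgroup and H the stabilizer of a point. Then H is a complement to M, no non-identity element of H centralizes M, and the only subgroups of M normalized by H are the trivial subgroup and M. -/
theorem result {G : Type*} [Group G] [Finite G] [Group.IsSolvable G] {Ω : Type*} [MulAction G Ω] [FaithfulSMul G Ω] (hprim : MulAction.IsPreprimitive G Ω) (M : Subgroup G) [M.Normal] (hM : M ≠ ⊥) (hmin : ∀ K : Subgroup G, K.Normal → K ≤ M → K = ⊥ ∨ K = M) (ω : Ω) : Subgroup.IsComplement' M (MulAction.stabilizer G ω) ∧ MulAction.stabilizer G ω ⊓ Subgroup.centralizer (M : Set G) = ⊥ ∧ ∀ K : Subgroup G, K ≤ M → MulAction.stabilizer G ω ≤ Subgroup.normalizer (K : Set G) → K = ⊥ ∨ K = M := by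
  open Cfsg.Agent.Lib.Helper1 in
  obtain ⟨htr, hreg⟩ := prim_solv_regular hprim M hM hmin
  haveI := htr
  open Cfsg.Agent.Lib.Helper1 in
  have hcomm := minNormal_comm M hM hmin
  have hdisj : Disjoint M (MulAction.stabilizer G ω) := by
    rw [disjoint_iff, eq_bot_iff]
    intro m hm
    rw [Subgroup.mem_bot]
    exact hreg ω m hm.1 hm.2
  have hprod : ∀ g : G, ∃ m ∈ M, ∃ h ∈ MulAction.stabilizer G ω, m * h = g := by
    intro g
    obtain ⟨x, hx⟩ := MulAction.exists_smul_eq M ω (g • ω)
    have hx' : (x : G) • ω = g • ω := hx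
    refine ⟨x, x.2, (x : G)⁻¹ * g, ?_, by group⟩
    rw [MulAction.mem_stabilizer_iff, mul_smul, ← hx', inv_smul_smul]
  have hsup : M ⊔ MulAction.stabilizer G ω = ⊤ := by
    rw [eq_top_iff]
    intro g _
    obtain ⟨m, hm, h, hh, rfl⟩ := hprod g
    exact Subgroup.mul_mem _ (Subgroup.mem_sup_left hm) (Subgroup.mem_sup_right hh)
  refine ⟨?_, ?_, ?_⟩
  · apply Subgroup.isComplement'_of_disjoint_and_mul_eq_univ hdisj
    rw [Set.eq_univ_iff_forall]
    intro g
    obtain ⟨m, hm, h, hh, e⟩ := hprod g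
    exact ⟨m, hm, h, hh, e⟩
  · rw [eq_bot_iff]
    intro c hc
    rw [Subgroup.mem_bot]
    apply FaithfulSMul.eq_of_smul_eq_smul (α := Ω)
    intro a
    obtain ⟨x, hx⟩ := MulAction.exists_smul_eq M ω a
    have hx' : (x : G) • ω = a := hx
    have h1 : (x : G) * c = c * x := Subgroup.mem_centralizer_iff.1 hc.2 x x.2
    have h2 : c • ω = ω := hc.1
    rw [one_smul, ← hx', ← mul_smul, ← h1, mul_smul, h2]
  · intro K hKM hK
    apply hmin K _ hKM
    open Cfsg.Agent.Lib.Helper1 in
    apply normal_of_sup_eq_top hsup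
    · intro x hx d hd
      rw [hcomm x hx d (hKM hd), mul_inv_cancel_right]
      exact hd
    · intro y hy d hd
      exact (Subgroup.mem_normalizer_iff.1 (hK hy) d).1 hd
end Cfsg.Agent.S0548
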