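import Cfsg.Statements.S0549
import Mathlib

set_option autoImplicit false
open Cfsg

namespace Cfsg.Agent.S0549

/-- Let U be a maximal subgroup of a finite group G whose normal core is trivial, and N a nontrivial normal subgroup with centralizer C. Then C ∩ U = 1, and either C = 1 or C is a minimal normal subgroup of G. -/
theorem result {G : Type*} [Group G] [Finite G] (U : Subgroup G) (hU : IsCoatom U) (hcore : U.normalCore = ⊥) (N : Subgroup G) [N.Normal] (hN : N ≠ ⊥) : Subgroup.centralizer (N : Set G) ⊓ U = ⊥ ∧ (Subgroup.centralizer (N : Set G) = ⊥ ∨ (Subgroup.centralizer (N : Set G) ≠ ⊥ ∧ ∀ K : Subgroup G, K.Normal → K ≤ Subgroup.centralizer (N : Set G) → K = ⊥ ∨ K = Subgroup.centralizer (N : Set G))) := by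
  have hcl : ∀ K : Subgroup G, K.Normal → K ≤ U → K = ⊥ := by
    intro K hK hKU
    haveI := hK
    have h1 : K ≤ U.normalCore := Subgroup.normal_le_normalCore.2 hKU
    rw [hcore] at h1
    exact le_bot_iff.1 h1
  have htop : ∀ K : Subgroup G, K.Normal → K ≠ ⊥ → K ⊔ U = ⊤ := by
    intro K hK hKne
    apply hU.2
    apply lt_of_le_of_ne le_sup_right
    intro h
    apply hKne
    apply hcl K hK
    rw [h]
    exact le_sup_left
  have hCn : (Subgroup.centralizer (N : Set G)).Normal := inferInstance
  have hD : Subgroup.centralizer (N : Set G) ⊓ U = ⊥ := by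
    apply hcl _ _ inf_le_right
    -- normality of C ⊓ U
    have hnorm : Subgroup.normalizer ((Subgroup.centralizer (N : Set G) ⊓ U : Subgroup G) : Set G) = ⊤ := by
      rw [eq_top_iff, ← htop N inferInstance hN]
      apply sup_le
      · intro n hn
        rw [Subgroup.mem_normalizer_iff]
        intro d
        have key : ∀ d ∈ Subgroup.centralizer (N : Set G), n * d * n⁻¹ = d := by
          intro d hd
          have h1 := Subgroup.mem_centralizer_iff.1 hd n hn
          rw [h1]; group
        constructor
        · intro hd
          rw [key d hd.1]; exact hd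
        · intro hd
          have h2 : d = n⁻¹ * (n * d * n⁻¹) * n := by group
          have h3 : n * d * n⁻¹ ∈ Subgroup.centralizer (N : Set G) := hd.1
          have h4 : d ∈ Subgroup.centralizer (N : Set G) := by
            rw [h2]
            exact hCn.conj_mem' _ h3 n
          rw [key d h4] at hd
          exact hd
      · intro u hu
        rw [Subgroup.mem_normalizer_iff]
        intro d
        constructor
        · rintro ⟨hd1, hd2⟩
          exact ⟨hCn.conj_mem _ hd1 u, U.mul_mem (U.mul_mem hu hd2) (U.inv_mem hu)⟩
        · rintro ⟨hd1, hd2⟩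
          have h2 : d = u⁻¹ * (u * d * u⁻¹) * u := by group
          rw [h2]
          exact ⟨hCn.conj_mem' _ hd1 u, U.mul_mem (U.mul_mem (U.inv_mem hu) hd2) hu⟩
    exact Subgroup.normalizer_eq_top_iff.1 hnorm
  refine ⟨hD, ?_⟩
  by_cases hC : Subgroup.centralizer (N : Set G) = ⊥
  · left; exact hC
  · right
    refine ⟨hC, ?_⟩
    intro K hK hKC
    by_cases hKb : K = ⊥
    · left; exact hKb
    · right
      apply le_antisymm hKC
      intro c hc
      haveI := hK
      have h1 : c ∈ K ⊔ U := by rw [htop K hK hKb]; trivial
      rw [← SetLike.mem_coe, Subgroup.normal_mul] at h1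
      obtain ⟨k, hk, u, hu, e⟩ := h1
      have e : k * u = c := e
      have hu' : u ∈ Subgroup.centralizer (N : Set G) ⊓ U := by
        rw [Subgroup.mem_inf]
        refine ⟨?_, hu⟩
        have h2 : u = k⁻¹ * c := by rw [← e]; group
        rw [h2]
        exact mul_mem (inv_mem (hKC hk)) hc
      rw [hD, Subgroup.mem_bot] at hu'
      rw [← e, hu', mul_one]
      exact hk
end Cfsg.Agent.S0549
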