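import Cfsg.Statements.S0550
import Mathlib
import Cfsg.Agent.S0549
import Cfsg.Agent.Lib.Helper1.Basic

set_option autoImplicit false
open Cfsg

namespace Cfsg.Agent.S0550

open Cfsg.Agent.Lib.Helper1

theorem equiv_of_map_eq {G Q : Type*} [Group G] [Group Q] (f : G →* Q) (X Y : Subgroup G)
    (hX : X ⊓ f.ker = ⊥) (hY : Y ⊓ f.ker = ⊥) (h : X.map f = Y.map f) : Nonempty (X ≃* Y) := by
  have hinj : ∀ Z : Subgroup G, Z ⊓ f.ker = ⊥ → Function.Injective (f.comp Z.subtype) := by
    intro Z hZ
    rw [← MonoidHom.ker_eq_bot_iff, eq_bot_iff]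
    intro x hx
    have h1 : (x : G) ∈ Z ⊓ f.ker := ⟨x.2, hx⟩
    rw [hZ, Subgroup.mem_bot] at h1
    exact Subtype.ext h1
  have e : ∀ Z : Subgroup G, (f.comp Z.subtype).range = Z.map f := by
    intro Z
    rw [MonoidHom.range_comp, Subgroup.range_subtype]
  have e2 : (f.comp X.subtype).range = (f.comp Y.subtype).range := by rw [e, e, h]
  exact ⟨(MonoidHom.ofInjective (hinj X hX)).trans
    ((MulEquiv.subgroupCongr e2).trans (MonoidHom.ofInjective (hinj Y hY)).symm)⟩

/-- the projection argument: if `A` is normal with `A ⊔ U = ⊤`, then `B` and `(A ⊔ B) ⊓ U` have the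
same image modulo `A` -/
theorem map_mk_eq {G : Type*} [Group G] (A B U : Subgroup G) [A.Normal] (hAU : A ⊔ U = ⊤) :
    B.map (QuotientGroup.mk' A) = ((A ⊔ B) ⊓ U).map (QuotientGroup.mk' A) := by
  apply le_antisymm
  · rintro _ ⟨b, hb, rfl⟩
    obtain ⟨a, ha, u, hu, e⟩ := exists_mul_of_normal_sup_eq_top hAU b
    have hu2 : u = a⁻¹ * b := by rw [← e]; group
    refine ⟨u, ⟨?_, hu⟩, ?_⟩
    · rw [hu2]
      exact Subgroup.mul_mem _ (Subgroup.mem_sup_left (A.inv_mem ha)) (Subgroup.mem_sup_right hb)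
    · have h1 : QuotientGroup.mk' A a = 1 := (QuotientGroup.eq_one_iff a).2 ha
      rw [← e, map_mul, h1, one_mul]
  · rintro _ ⟨w, hw, rfl⟩
    obtain ⟨a, ha, b, hb, e⟩ := Subgroup.mem_sup_of_normal_left.1 hw.1
    refine ⟨b, hb, ?_⟩
    have h1 : QuotientGroup.mk' A a = 1 := (QuotientGroup.eq_one_iff a).2 ha
    rw [← e, map_mul, h1, one_mul]

/-- Let U be a maximal subgroup with trivial normal core in a finite group G, and A ≠ B two minimal normal subgroups. Then A is the centralizer of B and B that of A, U complements each of them, A and B are non-abelian, and A, B and (A ⊔ B) ∩ U are pairwise isomorphic. -/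
theorem result {G : Type*} [Group G] [Finite G] (U : Subgroup G) (hU : IsCoatom U) (hcore : U.normalCore = ⊥) (A B : Subgroup G) [A.Normal] [B.Normal] (hA : A ≠ ⊥) (hB : B ≠ ⊥) (hAmin : ∀ K : Subgroup G, K.Normal → K ≤ A → K = ⊥ ∨ K = A) (hBmin : ∀ K : Subgroup G, K.Normal → K ≤ B → K = ⊥ ∨ K = B) (hAB : A ≠ B) : Subgroup.centralizer (B : Set G) = A ∧ Subgroup.centralizer (A : Set G) = B ∧ Subgroup.IsComplement' A U ∧ Subgroup.IsComplement' B U ∧ ¬ IsMulCommutative A ∧ Nonempty (A ≃* B) ∧ Nonempty (A ≃* ↥((A ⊔ B) ⊓ U)) := by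
  have hcl : ∀ K : Subgroup G, K.Normal → K ≤ U → K = ⊥ := by
    intro K hK hKU
    haveI := hK
    have h1 : K ≤ U.normalCore := Subgroup.normal_le_normalCore.2 hKU
    rw [hcore] at h1
    exact le_bot_iff.1 h1
  have htop : ∀ K : Subgroup G, K.Normal → K ≠ ⊥ → K ⊔ U = ⊤ := by
    intro K hK hKne
    apply hU.2
    apply lt_of_le_of_ne le_sup_right
    intro h
    apply hKne
    apply hcl K hK
    rw [h]
    exact le_sup_left
  have hinf : A ⊓ B = ⊥ := by
    rcases hAmin (A ⊓ B) inferInstance inf_le_left with h | h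
    · exact h
    · exfalso
      have hle : A ≤ B := by rw [← h]; exact inf_le_right
      rcases hBmin A inferInstance hle with h1 | h1
      · exact hA h1
      · exact hAB h1
  have hcomm : ∀ a ∈ A, ∀ b ∈ B, a * b = b * a := fun a ha b hb =>
    Subgroup.commute_of_normal_of_disjoint A B inferInstance inferInstance
      (disjoint_iff.2 hinf) a b ha hb
  have hAC : A ≤ Subgroup.centralizer (B : Set G) := by
    intro a ha
    rw [Subgroup.mem_centralizer_iff]
    intro b hb
    exact (hcomm a ha b hb).symm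
  have hBC : B ≤ Subgroup.centralizer (A : Set G) := by
    intro b hb
    rw [Subgroup.mem_centralizer_iff]
    intro a ha
    exact hcomm a ha b hb
  obtain ⟨hB1, hB2⟩ := Cfsg.Agent.S0549.result U hU hcore B hB
  obtain ⟨hA1, hA2⟩ := Cfsg.Agent.S0549.result U hU hcore A hA
  have hCB : Subgroup.centralizer (B : Set G) = A := by
    rcases hB2 with h | ⟨-, h⟩
    · exact absurd (le_bot_iff.1 (h ▸ hAC)) hA
    · rcases h A inferInstance hAC with h1 | h1
      · exact absurd h1 hA
      · exact h1.symm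
  have hCA : Subgroup.centralizer (A : Set G) = B := by
    rcases hA2 with h | ⟨-, h⟩
    · exact absurd (le_bot_iff.1 (h ▸ hBC)) hB
    · rcases h B inferInstance hBC with h1 | h1
      · exact absurd h1 hB
      · exact h1.symm
  rw [hCB] at hB1
  rw [hCA] at hA1
  have hAU := htop A inferInstance hA
  have hBU := htop B inferInstance hB
  have hcompl : ∀ K : Subgroup G, K.Normal → K ⊓ U = ⊥ → K ⊔ U = ⊤ → Subgroup.IsComplement' K U := by
    intro K hK h1 h2
    haveI := hK
    apply Subgroup.isComplement'_of_disjoint_and_mul_eq_univ (disjoint_iff.2 h1)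
    rw [Set.eq_univ_iff_forall]
    intro g
    obtain ⟨k, hk, u, hu, e⟩ := exists_mul_of_normal_sup_eq_top h2 g
    exact ⟨k, hk, u, hu, e⟩
  have hAW : Nonempty (A ≃* ↥((A ⊔ B) ⊓ U)) := by
    apply equiv_of_map_eq (QuotientGroup.mk' B)
    · rw [QuotientGroup.ker_mk', hinf]
    · rw [QuotientGroup.ker_mk', eq_bot_iff, ← hA1]
      exact inf_le_inf_right _ inf_le_right |>.trans (by rw [inf_comm])
    · have := map_mk_eq B A U hBU
      rw [sup_comm B A] at this
      exact this
  have hBW : Nonempty (B ≃* ↥((A ⊔ B) ⊓ U)) := by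
    apply equiv_of_map_eq (QuotientGroup.mk' A)
    · rw [QuotientGroup.ker_mk', inf_comm, hinf]
    · rw [QuotientGroup.ker_mk', eq_bot_iff, ← hB1]
      exact inf_le_inf_right _ inf_le_right |>.trans (by rw [inf_comm])
    · exact map_mk_eq A B U hAU
  refine ⟨hCB, hCA, hcompl A inferInstance hB1 hAU, hcompl B inferInstance hA1 hBU, ?_, ?_, hAW⟩
  · intro hc
    have hle : A ≤ B := by
      rw [← hCA]
      intro a ha
      rw [Subgroup.mem_centralizer_iff]
      intro a' ha'
      exact comm_of_isMulCommutative ha' ha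
    rcases hBmin A inferInstance hle with h1 | h1
    · exact hA h1
    · exact hAB h1
  · obtain ⟨e1⟩ := hAW
    obtain ⟨e2⟩ := hBW
    exact ⟨e1.trans e2.symm⟩
end Cfsg.Agent.S0550
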