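import Cfsg.Statements.S0551
import Mathlib
import Cfsg.Agent.S0549
import Cfsg.Agent.Lib.Helper1.MinNormal
import Cfsg.Agent.Lib.Lead.SZ2

set_option autoImplicit false
open Pointwise
open Cfsg

namespace Cfsg.Agent.S0551

open Cfsg.Agent.Lib.Helper1

theorem normalizer_conj_smul {G : Type*} [Group G] (n : G) (X : Subgroup G) :
    MulAut.conj n • Subgroup.normalizer (X : Set G) =
      Subgroup.normalizer ((MulAut.conj n • X : Subgroup G) : Set G) := by
  ext x
  rw [mem_conj_smul, Subgroup.mem_normalizer_iff, Subgroup.mem_normalizer_iff]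
  constructor
  · intro h z
    rw [mem_conj_smul, mem_conj_smul, h (n⁻¹ * z * n)]
    have e : n⁻¹ * x * n * (n⁻¹ * z * n) * (n⁻¹ * x * n)⁻¹ = n⁻¹ * (x * z * x⁻¹) * n := by group
    rw [e]
  · intro h y
    have h1 := h (n * y * n⁻¹)
    rw [mem_conj_smul, mem_conj_smul] at h1
    have e1 : n⁻¹ * (n * y * n⁻¹) * n = y := by group
    have e2 : n⁻¹ * (x * (n * y * n⁻¹) * x⁻¹) * n = n⁻¹ * x * n * y * (n⁻¹ * x * n)⁻¹ := by group
    rw [e1, e2] at h1
    exact h1

/-- In a finite solvable group all core-free maximal subgroups are conjugate. -/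
theorem result {G : Type*} [Group G] [Finite G] [Group.IsSolvable G] (U V : Subgroup G) (hU : IsCoatom U) (hV : IsCoatom V) (hUc : U.normalCore = ⊥) (hVc : V.normalCore = ⊥) : ∃ g : G, MulAut.conj g • U = V := by
  haveI : Nontrivial G := by
    by_contra hnt
    rw [not_nontrivial_iff_subsingleton] at hnt
    exact hU.1 (Subsingleton.elim _ _)
  obtain ⟨M, hMn, -, hMne, hmin⟩ :=
    exists_minimal_normal_le (⊤ : Subgroup G) inferInstance top_ne_bot
  haveI := hMn
  have hcomm := minNormal_comm M hMne hmin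
  obtain ⟨p, hp, hMp, -⟩ := minNormal_isPGroup M hMne hmin
  haveI : Fact p.Prime := ⟨hp⟩
  have hMC : M ≤ Subgroup.centralizer (M : Set G) := by
    intro x hx
    rw [Subgroup.mem_centralizer_iff]
    intro y hy
    exact hcomm y hy x hx
  have key : ∀ W : Subgroup G, IsCoatom W → W.normalCore = ⊥ →
      Subgroup.centralizer (M : Set G) = M ∧ M ⊓ W = ⊥ ∧ M ⊔ W = ⊤ := by
    intro W hW hWc
    obtain ⟨h1, h2⟩ := Cfsg.Agent.S0549.result W hW hWc M hMne
    have hC : Subgroup.centralizer (M : Set G) = M := by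
      rcases h2 with h | ⟨-, h⟩
      · exact absurd (le_bot_iff.1 (h ▸ hMC)) hMne
      · rcases h M inferInstance hMC with h3 | h3
        · exact absurd h3 hMne
        · exact h3.symm
    rw [hC] at h1
    refine ⟨hC, h1, ?_⟩
    apply sup_coatom_eq_top hW
    intro hle
    have h4 : M ≤ W.normalCore := Subgroup.normal_le_normalCore.2 hle
    rw [hWc] at h4
    exact hMne (le_bot_iff.1 h4)
  obtain ⟨hC, hMU, hMUtop⟩ := key U hU hUc
  obtain ⟨-, hMV, hMVtop⟩ := key V hV hVc
  by_cases hQ : Nontrivial (G ⧸ M)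
  · haveI := hQ
    obtain ⟨L', hL'n, -, hL'ne, hL'min⟩ :=
      exists_minimal_normal_le (⊤ : Subgroup (G ⧸ M)) inferInstance top_ne_bot
    haveI := hL'n
    obtain ⟨q, hq, hL'q, -⟩ := minNormal_isPGroup L' hL'ne hL'min
    haveI : Fact q.Prime := ⟨hq⟩
    obtain ⟨L, hLdef⟩ : ∃ L : Subgroup G, L = L'.comap (QuotientGroup.mk' M) := ⟨_, rfl⟩
    have hLn : L.Normal := hLdef ▸ hL'n.comap _
    have hML : M ≤ L := by
      rw [hLdef]
      intro x hx
      show QuotientGroup.mk' M x ∈ L'
      have h1 : QuotientGroup.mk' M x = 1 := (QuotientGroup.eq_one_iff x).2 hx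
      rw [h1]
      exact one_mem _
    have hLc : Nat.card L = Nat.card L' * Nat.card M := by
      rw [hLdef]
      exact card_comap_mk' M L'
    obtain ⟨j, hj⟩ := IsPGroup.iff_card.1 hL'q
    obtain ⟨k, hk⟩ := IsPGroup.iff_card.1 hMp
    have hj0 : j ≠ 0 := by
      rintro rfl
      rw [pow_zero] at hj
      exact hL'ne (Subgroup.card_eq_one.1 hj)
    have hqp : q ≠ p := by
      rintro rfl
      have hLp : IsPGroup q L := IsPGroup.of_card (n := j + k) (by rw [hLc, hj, hk, pow_add])
      obtain ⟨b, hb, hb1, hbc⟩ := exists_central_of_normal_pgroup L M hLp hML hMne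
      haveI := hLn
      have hZ : M ⊓ Subgroup.centralizer (L : Set G) = M := by
        rcases hmin (M ⊓ Subgroup.centralizer (L : Set G)) inferInstance inf_le_left with h | h
        · exfalso
          have h5 : b ∈ M ⊓ Subgroup.centralizer (L : Set G) := ⟨hb, fun x hx => hbc x hx⟩
          rw [h, Subgroup.mem_bot] at h5
          exact hb1 h5
        · exact h
      have hLM : L ≤ M := by
        rw [← hC]
        intro x hx
        rw [Subgroup.mem_centralizer_iff]
        intro m hm
        have hm' : m ∈ M ⊓ Subgroup.centralizer (L : Set G) := by rw [hZ]; exact hm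
        exact ((Subgroup.mem_centralizer_iff.1 hm'.2) x hx).symm
      have h6 := Subgroup.card_le_of_le hLM
      rw [hLc, hj] at h6
      have h7 : 1 < q ^ j := Nat.one_lt_pow hj0 hq.one_lt
      have h8 : 0 < Nat.card M := Nat.card_pos
      nlinarith
    have hdede : ∀ W : Subgroup G, M ⊓ W = ⊥ → M ⊔ W = ⊤ →
        (L ⊓ W) ⊔ M = L ∧ Nat.card (L ⊓ W : Subgroup G) = Nat.card L' := by
      intro W h1 h2
      have e1 : (L ⊓ W) ⊔ M = L := by
        apply le_antisymm (sup_le inf_le_left hML)
        intro x hx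
        obtain ⟨m, hm, w, hw, e⟩ := exists_mul_of_normal_sup_eq_top h2 x
        have hwL : w ∈ L := by
          have e' : w = m⁻¹ * x := by rw [← e]; group
          rw [e']
          exact L.mul_mem (L.inv_mem (hML hm)) hx
        rw [← e]
        exact Subgroup.mul_mem _ (Subgroup.mem_sup_right hm) (Subgroup.mem_sup_left ⟨hwL, hw⟩)
      refine ⟨e1, ?_⟩
      have e2 : (L ⊓ W).map (QuotientGroup.mk' M) = L' := by
        have e3 : (L ⊓ W).map (QuotientGroup.mk' M) =
            ((L ⊓ W) ⊔ M).map (QuotientGroup.mk' M) := by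
          rw [Subgroup.map_sup, (Subgroup.map_eq_bot_iff (f := QuotientGroup.mk' M) M).2
            (by rw [QuotientGroup.ker_mk']), sup_bot_eq]
        rw [e3, e1, hLdef,
          Subgroup.map_comap_eq_self_of_surjective (QuotientGroup.mk'_surjective M)]
      rw [← e2]
      exact (card_map_of_disjoint_ker (QuotientGroup.mk' M) (L ⊓ W) (by
        rw [QuotientGroup.ker_mk', eq_bot_iff, ← h1]
        exact le_inf inf_le_right (inf_le_left.trans inf_le_right))).symm
    obtain ⟨eU, cU⟩ := hdede U hMU hMUtop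
    obtain ⟨eV, cV⟩ := hdede V hMV hMVtop
    obtain ⟨n, hn, hconj⟩ := Cfsg.Agent.Lib.Lead.szc M (L ⊓ U) (L ⊓ V)
      (fun x _ => by rw [Subgroup.normalizer_eq_top_iff.2 hMn]; trivial)
      (by rw [eU]; exact inf_le_left) (by rw [cU, cV])
      (by
        rw [cU, hj, hk]
        exact Nat.Coprime.pow _ _ ((Nat.coprime_primes hp hq).2 (Ne.symm hqp)))
      (Or.inl inferInstance)
    have hnorm : ∀ W : Subgroup G, IsCoatom W → W.normalCore = ⊥ →
        Nat.card (L ⊓ W : Subgroup G) = Nat.card L' →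
        Subgroup.normalizer ((L ⊓ W : Subgroup G) : Set G) = W := by
      intro W hW hWc hc
      have hle : W ≤ Subgroup.normalizer ((L ⊓ W : Subgroup G) : Set G) := by
        intro w hw
        apply mem_normalizer_of_finite
        intro x hx
        exact ⟨hLn.conj_mem x hx.1 w, W.mul_mem (W.mul_mem hw hx.2) (W.inv_mem hw)⟩
      rcases eq_or_lt_of_le hle with h | h
      · exact h.symm
      · exfalso
        have htop := hW.2 _ h
        haveI hnn : (L ⊓ W).Normal := Subgroup.normalizer_eq_top_iff.1 htop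
        have h9 : L ⊓ W ≤ W.normalCore := Subgroup.normal_le_normalCore.2 inf_le_right
        rw [hWc] at h9
        have h0 : L ⊓ W = ⊥ := le_bot_iff.1 h9
        rw [h0, Subgroup.card_bot] at hc
        exact hL'ne (Subgroup.card_eq_one.1 hc.symm)
    refine ⟨n, ?_⟩
    rw [← hnorm U hU hUc cU, ← hnorm V hV hVc cV, ← hconj]
    exact normalizer_conj_smul n _
  · rw [not_nontrivial_iff_subsingleton] at hQ
    have hMtop : M = ⊤ := by
      rw [eq_top_iff]
      intro g _
      have h1 : QuotientGroup.mk' M g = 1 := Subsingleton.elim _ _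
      exact (QuotientGroup.eq_one_iff g).1 h1
    rw [hMtop, top_inf_eq] at hMU hMV
    refine ⟨1, ?_⟩
    rw [hMU, hMV]
    simp
end Cfsg.Agent.S0551
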