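import Cfsg.Statements.S0552
import Mathlib
import Cfsg.Agent.S0044
import Cfsg.Agent.Lib.Helper2.Fit
-- import your own Cfsg.Agent.* helpers here

set_option autoImplicit false
open Cfsg

namespace Cfsg.Agent.S0552



/-- Let σ be an automorphism of a finite solvable group G fixing every element of the Fitting subgroup. If σ is not the identity then the order of σ and the order of G have a common prime factor. -/
theorem result {G : Type*} [Group G] [Finite G] [Group.IsSolvable G] (σ : G ≃* G) (hσ : ∀ x ∈ Cfsg.fittingSubgroup G, σ x = x) (hne : σ ≠ MulEquiv.refl G) : ¬ (orderOf σ).Coprime (Nat.card G) := by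
  classical
  intro hcop
  apply hne
  apply MulEquiv.ext
  intro g
  haveI hF := Cfsg.Agent.Lib.Helper2.fitting_normal G
  obtain ⟨c, hcdef⟩ : ∃ c : G, c = g⁻¹ * σ g := ⟨_, rfl⟩
  have hσg : σ g = g * c := by rw [hcdef, mul_inv_cancel_left]
  have hc : c ∈ Subgroup.centralizer (Cfsg.fittingSubgroup G : Set G) := by
    rw [Subgroup.mem_centralizer_iff]
    intro f hf
    have h1 : g * f * g⁻¹ ∈ Cfsg.fittingSubgroup G := hF.conj_mem f hf g
    have h2 := hσ _ h1
    rw [map_mul, map_mul, map_inv, hσ f hf, hσg] at h2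
    -- h2 : g * c * f * (g * c)⁻¹ = g * f * g⁻¹
    have h3 : c * f * c⁻¹ = f := by
      have : g * (c * f * c⁻¹) * g⁻¹ = g * f * g⁻¹ := by
        rw [← h2]; group
      have h4 := mul_right_cancel this
      exact mul_left_cancel h4
    exact (mul_inv_eq_iff_eq_mul.mp h3).symm
  have hcF : c ∈ Cfsg.fittingSubgroup G := Cfsg.Agent.S0044.result hc
  have hσc : σ c = c := hσ c hcF
  have hk : ∀ k : ℕ, (σ ^ k) g = g * c ^ k := by
    intro k
    induction k with
    | zero => simp
    | succ k ih =>
      rw [pow_succ' σ k, MulAut.mul_apply, ih, map_mul, map_pow, hσc, hσg, pow_succ' c k, mul_assoc]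
  have h1 : c ^ orderOf σ = 1 := by
    have := hk (orderOf σ)
    rw [pow_orderOf_eq_one, MulAut.one_apply] at this
    have h2 : g * c ^ orderOf σ = g * 1 := by rw [mul_one]; exact this.symm
    exact mul_left_cancel h2
  have h2 : c ^ Nat.card G = 1 := pow_card_eq_one'
  have hc1 : orderOf c = 1 :=
    Nat.eq_one_of_dvd_coprimes hcop (orderOf_dvd_of_pow_eq_one h1) (orderOf_dvd_of_pow_eq_one h2)
  rw [orderOf_eq_one_iff] at hc1
  rw [hσg, hc1, mul_one]
  rfl

end Cfsg.Agent.S0552
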