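import Cfsg.Statements.S0553
import Mathlib
import Cfsg.Agent.Lib.Helper1.MinNormal

set_option autoImplicit false
open Cfsg

namespace Cfsg.Agent.S0553

universe u

open Cfsg.Agent.Lib.Helper1

theorem aux : ∀ n : ℕ, ∀ (G : Type u) [Group G] [Finite G] [Group.IsSolvable G] [Nontrivial G],
    Nat.card G = n → (∀ M : Subgroup G, IsCoatom M → (Nat.card M).Coprime M.index) →
    ∃ p : ℕ, p.Prime ∧ p ∣ Nat.card G ∧ ∀ P : Sylow p G, (P : Subgroup G).Normal := by
  intro n
  induction n using Nat.strong_induction_on with
  | _ n ih =>
    intro G _ _ _ _ hn h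
    obtain ⟨N, hNn, -, hNne, hmin⟩ :=
      exists_minimal_normal_le (⊤ : Subgroup G) inferInstance top_ne_bot
    haveI := hNn
    obtain ⟨p, hp, hNp, -⟩ := minNormal_isPGroup N hNne hmin
    haveI : Fact p.Prime := ⟨hp⟩
    have hpN : p ∣ Nat.card N := by
      rcases hNp.card_eq_or_dvd with h1 | h1
      · exact absurd (Subgroup.card_eq_one.1 h1) hNne
      · exact h1
    have hpG : p ∣ Nat.card G := hpN.trans (Subgroup.card_subgroup_dvd_card N)
    by_cases hall : ∀ M : Subgroup G, IsCoatom M → N ≤ M
    · have hfr : N ≤ frattini G := by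
        unfold frattini Order.radical
        exact le_iInf fun M => le_iInf fun hM => hall M hM
      by_cases hQnt : Nontrivial (G ⧸ N)
      · haveI := hQnt
        have hf := QuotientGroup.mk'_surjective N
        have hlt : Nat.card (G ⧸ N) < n := by
          have h1 := card_quotient_mul N
          have h3 := Nat.le_of_dvd Nat.card_pos hpN
          have h4 := hp.two_le
          have h5 : 0 < Nat.card (G ⧸ N) := Nat.card_pos
          rw [← hn, ← h1]
          nlinarith
        obtain ⟨q, hq, hqd, hQ⟩ := ih _ hlt (G ⧸ N) rfl (by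
          intro M' hM'
          have hc := Subgroup.isCoatom_comap_of_surjective hf hM'
          have h1 := h _ hc
          rw [Subgroup.index_comap_of_surjective _ hf, card_comap_mk'] at h1
          exact Nat.Coprime.coprime_mul_right h1)
        haveI : Fact q.Prime := ⟨hq⟩
        refine ⟨q, hq, hqd.trans (Dvd.intro _ (card_quotient_mul N)), fun Q => ?_⟩
        have h1 : ((Q.mapSurjective hf : Sylow q (G ⧸ N)) : Subgroup (G ⧸ N)).Normal := hQ _
        rw [Sylow.coe_mapSurjective] at h1
        have h2 : ((Q : Subgroup G) ⊔ N).Normal := by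
          have h6 := h1.comap (QuotientGroup.mk' N)
          rwa [Subgroup.comap_map_eq, QuotientGroup.ker_mk'] at h6
        haveI := h2
        have h3 := Sylow.normalizer_sup_eq_top' (N := (Q : Subgroup G) ⊔ N) Q le_sup_left
        have h4 : Subgroup.normalizer ((Q : Subgroup G) : Set G) ⊔ frattini G = ⊤ := by
          rw [eq_top_iff, ← h3]
          apply sup_le le_sup_left
          exact sup_le (Subgroup.le_normalizer.trans le_sup_left) (hfr.trans le_sup_right)
        rw [← Subgroup.normalizer_eq_top_iff]
        exact frattini_nongenerating h4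
      · rw [not_nontrivial_iff_subsingleton] at hQnt
        have hNtop : N = ⊤ := by
          rw [eq_top_iff]
          intro g _
          have h1 : QuotientGroup.mk' N g = 1 := Subsingleton.elim _ _
          exact (QuotientGroup.eq_one_iff g).1 h1
        refine ⟨p, hp, hpG, fun P => ?_⟩
        have h2 : (P : Subgroup G) = ⊤ :=
          top_le_iff.1 (hNtop ▸ normal_pgroup_le_sylow N hNp P)
        rw [h2]
        exact Subgroup.normal_top
    · push_neg at hall
      obtain ⟨M, hM, hNM⟩ := hall
      have hsup : M ⊔ N = ⊤ := by rw [sup_comm]; exact sup_coatom_eq_top hM hNM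
      have hcop := h M hM
      have hrel := relIndex_of_sup_eq_top M N hsup
      obtain ⟨k, hk⟩ := IsPGroup.iff_card.1 hNp
      have hdiv : M.index ∣ p ^ k := by
        rw [← hk, ← hrel]
        exact Subgroup.relIndex_dvd_card M N
      obtain ⟨j, -, hj⟩ := (Nat.dvd_prime_pow hp).1 hdiv
      have hj0 : j ≠ 0 := by
        rintro rfl
        rw [pow_zero, Subgroup.index_eq_one] at hj
        exact hM.1 hj
      have hpM : ¬ p ∣ Nat.card M := by
        intro hd
        rw [hj] at hcop
        have h1 : p ∣ Nat.gcd (Nat.card M) (p ^ j) := Nat.dvd_gcd hd (dvd_pow_self p hj0)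
        rw [hcop] at h1
        exact hp.one_lt.ne' (Nat.dvd_one.1 h1)
      have hinf : M ⊓ N = ⊥ := by
        rw [← Subgroup.card_eq_one]
        have h1 : Nat.card (M ⊓ N : Subgroup G) ∣ p ^ k := by
          rw [← hk]; exact Subgroup.card_dvd_of_le inf_le_right
        obtain ⟨i, -, hi⟩ := (Nat.dvd_prime_pow hp).1 h1
        have hi0 : i = 0 := by
          by_contra hi0
          apply hpM
          have h2 : Nat.card (M ⊓ N : Subgroup G) ∣ Nat.card M := Subgroup.card_dvd_of_le inf_le_left
          rw [hi] at h2
          exact (dvd_pow_self p hi0).trans h2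
        rw [hi, hi0, pow_zero]
      have hcN : Nat.card N = M.index := by
        rw [← hrel, ← Subgroup.inf_relIndex_right, hinf, Subgroup.relIndex_bot_left]
      have hnd : ¬ p ∣ N.index := by
        have e1 := Subgroup.card_mul_index N
        have e2 := Subgroup.card_mul_index M
        rw [hcN, ← e2, mul_comm] at e1
        have hpos : 0 < M.index := Nat.pos_of_ne_zero Subgroup.index_ne_zero_of_finite
        have e3 : N.index = Nat.card M := Nat.eq_of_mul_eq_mul_right hpos e1
        rw [e3]
        exact hpM
      exact ⟨p, hp, hpG, fun P => sylow_normal_of_normal_pgroup N hNp hnd P⟩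

/-- Let G be a nontrivial finite solvable group in which every maximal subgroup has order coprime to its index. Then for some prime p dividing the order of G the Sylow p-subgroups of G are normal. -/
theorem result {G : Type*} [Group G] [Finite G] [Group.IsSolvable G] [Nontrivial G] (h : ∀ M : Subgroup G, IsCoatom M → (Nat.card M).Coprime M.index) : ∃ p : ℕ, p.Prime ∧ p ∣ Nat.card G ∧ ∀ P : Sylow p G, (P : Subgroup G).Normal := by
  exact aux _ G rfl h
end Cfsg.Agent.S0553
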