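import Cfsg.Statements.S0554
import Mathlib
import Cfsg.Agent.Lib.Lead.SZ
-- import your own Cfsg.Agent.* helpers here

set_option autoImplicit false
open Cfsg

namespace Cfsg.Agent.S0554


universe u

theorem list_prod_absorb {G : Type*} [Group G] (N : Subgroup G) [hN : N.Normal] :
    ∀ (t : ℕ) (s : Fin t → G) (j : Fin t) (n : G), n ∈ N →
      ∃ n' ∈ N, (List.ofFn s).prod * n = (List.ofFn (Function.update s j (s j * n'))).prod := by
  intro t
  induction t with
  | zero => intro s j; exact j.elim0
  | succ t ih =>
    intro s j n hn
    refine Fin.cases ?_ (fun k => ?_) j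
    · obtain ⟨T, hT⟩ : ∃ T, T = (List.ofFn (fun i : Fin t => s i.succ)).prod := ⟨_, rfl⟩
      refine ⟨T * n * T⁻¹, hN.conj_mem n hn _, ?_⟩
      rw [List.ofFn_succ, List.ofFn_succ, List.prod_cons, List.prod_cons]
      have h1 : (fun i : Fin t => Function.update s 0 (s 0 * (T * n * T⁻¹)) i.succ)
          = fun i => s i.succ := by
        funext i; exact Function.update_of_ne (Fin.succ_ne_zero i) _ _
      rw [h1, Function.update_self, ← hT]; group
    · obtain ⟨n', hn', h⟩ := ih (fun i => s i.succ) k n hn
      refine ⟨n', hn', ?_⟩
      rw [List.ofFn_succ, List.ofFn_succ, List.prod_cons, List.prod_cons, mul_assoc, h]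
      have h0 : Function.update s k.succ (s k.succ * n') 0 = s 0 :=
        Function.update_of_ne (Fin.succ_ne_zero k).symm _ _
      have h1 : (fun i : Fin t => Function.update s k.succ (s k.succ * n') i.succ)
          = Function.update (fun i => s i.succ) k (s k.succ * n') := by
        funext i
        by_cases hik : i = k
        · subst hik; simp
        · rw [Function.update_of_ne hik,
            Function.update_of_ne (fun h => hik (Fin.succ_injective _ h))]
      rw [h0, h1]

theorem main : ∀ (n : ℕ) (G : Type u) [Group G] [Finite G] [Group.IsSolvable G], Nat.card G = n →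
    ∀ (t : ℕ) (p : Fin t → ℕ) (hp : ∀ i, (p i).Prime)
      (_ : ∀ q : ℕ, q.Prime → q ∣ Nat.card G → ∃ i, p i = q)
      (S : (i : Fin t) → Sylow (p i) G), ∀ g : G, ∃ s : (i : Fin t) → G,
        (∀ i, s i ∈ (S i : Subgroup G)) ∧ g = (List.ofFn s).prod := by
  intro n
  induction n using Nat.strong_induction_on with
  | _ n ih =>
    intro G _ _ _ hn t p hp hall S g
    by_cases htriv : Subsingleton G
    · refine ⟨fun _ => 1, fun i => one_mem _, ?_⟩
      rw [Subsingleton.elim g 1]
      simp
    · rw [not_subsingleton_iff_nontrivial] at htriv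
      obtain ⟨q, hq, N, hNn, hNp, hNne⟩ := Cfsg.Agent.Lib.Lead.exists_normal_pSubgroup_of_solvable G
      haveI := hNn
      have hqd : q ∣ Nat.card G := by
        haveI := Fact.mk hq
        obtain ⟨k, hk⟩ := IsPGroup.iff_card.mp hNp
        have hk0 : k ≠ 0 := by
          rintro rfl
          apply hNne
          rw [pow_zero] at hk
          exact Subgroup.card_eq_one.mp hk
        have : q ∣ Nat.card N := by rw [hk]; exact dvd_pow_self q hk0
        exact this.trans (Subgroup.card_subgroup_dvd_card N)
      obtain ⟨j, hj⟩ := hall q hq hqd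
      haveI : ∀ i, Fact (p i).Prime := fun i => ⟨hp i⟩
      have hNS : N ≤ (S j : Subgroup G) := by
        have hNp' : IsPGroup (p j) N := by rw [hj]; exact hNp
        exact hNp'.le_sylow_of_normal (S j)
      have hsurj : Function.Surjective (QuotientGroup.mk' N) := QuotientGroup.mk'_surjective N
      have hlt : Nat.card (G ⧸ N) < n := by
        rw [← hn]; exact Cfsg.Agent.Lib.Lead.card_quotient_lt N hNne
      have hall' : ∀ q : ℕ, q.Prime → q ∣ Nat.card (G ⧸ N) → ∃ i, p i = q := by
        intro q' hq' hd
        apply hall q' hq'
        exact hd.trans ⟨Nat.card N, Subgroup.card_eq_card_quotient_mul_card_subgroup N⟩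
      obtain ⟨s', hs', hg'⟩ := ih _ hlt (G ⧸ N) rfl t p hp hall'
        (fun i => (S i).mapSurjective hsurj) (QuotientGroup.mk' N g)
      have hlift : ∀ i, ∃ x ∈ (S i : Subgroup G), QuotientGroup.mk' N x = s' i := by
        intro i
        have := hs' i
        exact Subgroup.mem_map.mp this
      choose s hs hss using hlift
      have hprod : QuotientGroup.mk' N ((List.ofFn s).prod) = QuotientGroup.mk' N g := by
        rw [hg', map_list_prod, List.map_ofFn]
        congr 2
        funext i; exact hss i
      have hmem : ((List.ofFn s).prod)⁻¹ * g ∈ N := by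
        have := hprod
        rw [QuotientGroup.mk'_apply, QuotientGroup.mk'_apply, QuotientGroup.eq] at this
        exact this
      obtain ⟨n', hn', h⟩ := list_prod_absorb N t s j _ hmem
      refine ⟨Function.update s j (s j * n'), ?_, ?_⟩
      · intro i
        by_cases hij : i = j
        · subst hij; rw [Function.update_self]; exact mul_mem (hs i) (hNS hn')
        · rw [Function.update_of_ne hij]; exact hs i
      · rw [← h]; group

/-- Let G be a finite solvable group and let S assign to each of t distinct primes, including every prime divisor of the order of G, a Sylow subgroup of G. Then every element of G is a product s_0 s_1 ⋯ s_(t-1) with s_i in S i, the factors taken in the given order. -/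
theorem result {G : Type*} [Group G] [Finite G] [Group.IsSolvable G] (t : ℕ) (p : Fin t → ℕ) (hp : ∀ i, (p i).Prime) (hinj : Function.Injective p) (hall : ∀ q : ℕ, q.Prime → q ∣ Nat.card G → ∃ i, p i = q) (S : (i : Fin t) → Sylow (p i) G) : ∀ g : G, ∃ s : (i : Fin t) → G, (∀ i, s i ∈ (S i : Subgroup G)) ∧ g = (List.ofFn s).prod := by
  exact main (Nat.card G) G rfl t p hp hall S

end Cfsg.Agent.S0554
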