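import Cfsg.Statements.S0555
import Mathlib
import Cfsg.Agent.Lib.Helper1.Cyc

set_option autoImplicit false
open Cfsg

namespace Cfsg.Agent.S0555

open scoped commutatorElement

/-- Let i ≥ 1. If in the derived series of a group the quotient of the i-th term by the (i+1)-st and the quotient of the (i+1)-st by the (i+2)-nd are both cyclic, then the (i+1)-st and (i+2)-nd terms coincide. -/
theorem result {G : Type*} [Group G] (i : ℕ) (hi : 1 ≤ i) (h₁ : IsCyclic (↥(derivedSeries G i) ⧸ (derivedSeries G (i + 1)).subgroupOf (derivedSeries G i))) (h₂ : IsCyclic (↥(derivedSeries G (i + 1)) ⧸ (derivedSeries G (i + 2)).subgroupOf (derivedSeries G (i + 1)))) : derivedSeries G (i + 1) = derivedSeries G (i + 2) := by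
  have f1 : derivedSeries G (i + 1) = ⁅derivedSeries G i, derivedSeries G i⁆ := derivedSeries_succ G i
  have f2 : derivedSeries G (i + 2) ≤ derivedSeries G (i + 1) := derivedSeries_antitone G (by omega)
  have f3 : derivedSeries G i ≤ commutator G := by
    rw [← derivedSeries_one]; exact derivedSeries_antitone G hi
  have n1 : (derivedSeries G (i + 1)).Normal := inferInstance
  have n2 : (derivedSeries G (i + 2)).Normal := inferInstance
  apply le_antisymm _ f2
  obtain ⟨g', hg'⟩ := h₂.exists_generator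
  obtain ⟨g, rfl⟩ := QuotientGroup.mk_surjective g'
  obtain ⟨t', ht'⟩ := h₁.exists_generator
  obtain ⟨t, rfl⟩ := QuotientGroup.mk_surjective t'
  have hC : ∀ u ∈ (derivedSeries G (i + 1)), ((u : G) : G ⧸ (derivedSeries G (i + 2))) ∈ Subgroup.zpowers (((g : G) : G) : G ⧸ (derivedSeries G (i + 2))) := by
    intro u hu
    obtain ⟨k, hk⟩ := Subgroup.mem_zpowers_iff.1 (hg' (QuotientGroup.mk ⟨u, hu⟩))
    rw [← QuotientGroup.mk_zpow, QuotientGroup.eq, Subgroup.mem_subgroupOf] at hk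
    refine Subgroup.mem_zpowers_iff.2 ⟨k, ?_⟩
    rw [← QuotientGroup.mk_zpow, QuotientGroup.eq]
    exact hk
  have hCeq : Subgroup.zpowers (((g : G) : G) : G ⧸ (derivedSeries G (i + 2))) = (derivedSeries G (i + 1)).map (QuotientGroup.mk' (derivedSeries G (i + 2))) := by
    apply le_antisymm
    · rw [Subgroup.zpowers_le]
      exact ⟨g, g.2, rfl⟩
    · rintro _ ⟨u, hu, rfl⟩
      exact hC u hu
  have hCn : (Subgroup.zpowers (((g : G) : G) : G ⧸ (derivedSeries G (i + 2)))).Normal := by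
    rw [hCeq]
    exact Subgroup.Normal.map n1 _ (QuotientGroup.mk'_surjective (derivedSeries G (i + 2)))
  have hcent := Lib.Helper1.comm_le_centralizer_zpowers _ hCn
  have hπD0 : ∀ u ∈ (derivedSeries G i), ((u : G) : G ⧸ (derivedSeries G (i + 2))) ∈
      Subgroup.centralizer (Subgroup.zpowers (((g : G) : G) : G ⧸ (derivedSeries G (i + 2))) : Set (G ⧸ (derivedSeries G (i + 2)))) := by
    intro u hu
    apply hcent
    exact Lib.Helper1.map_commutator_le (QuotientGroup.mk' (derivedSeries G (i + 2))) (f3 hu)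
  rw [f1, Subgroup.commutator_le]
  intro u hu v hv
  rw [← QuotientGroup.eq_one_iff (N := (derivedSeries G (i + 2)))]
  obtain ⟨k, hk⟩ := Subgroup.mem_zpowers_iff.1 (ht' (QuotientGroup.mk ⟨u, hu⟩))
  obtain ⟨l, hl⟩ := Subgroup.mem_zpowers_iff.1 (ht' (QuotientGroup.mk ⟨v, hv⟩))
  rw [← QuotientGroup.mk_zpow, QuotientGroup.eq, Subgroup.mem_subgroupOf] at hk hl
  have hk' : ((t : G) ^ k)⁻¹ * u ∈ (derivedSeries G (i + 1)) := hk
  have hl' : ((t : G) ^ l)⁻¹ * v ∈ (derivedSeries G (i + 1)) := hl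
  have hu' : ((u : G) : G ⧸ (derivedSeries G (i + 2))) = ((t : G) : G ⧸ (derivedSeries G (i + 2))) ^ k * ((((t : G) ^ k)⁻¹ * u : G) : G ⧸ (derivedSeries G (i + 2))) := by
    rw [← QuotientGroup.mk_zpow, ← QuotientGroup.mk_mul]
    congr 1
    group
  have hv' : ((v : G) : G ⧸ (derivedSeries G (i + 2))) = ((t : G) : G ⧸ (derivedSeries G (i + 2))) ^ l * ((((t : G) ^ l)⁻¹ * v : G) : G ⧸ (derivedSeries G (i + 2))) := by
    rw [← QuotientGroup.mk_zpow, ← QuotientGroup.mk_mul]
    congr 1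
    group
  have c1 : Commute (((t : G) : G) : G ⧸ (derivedSeries G (i + 2))) ((((t : G) ^ k)⁻¹ * u : G) : G ⧸ (derivedSeries G (i + 2))) :=
    (Subgroup.mem_centralizer_iff.1 (hπD0 (t : G) t.2) _ (hC _ hk')).symm
  have c2 : Commute (((t : G) : G) : G ⧸ (derivedSeries G (i + 2))) ((((t : G) ^ l)⁻¹ * v : G) : G ⧸ (derivedSeries G (i + 2))) :=
    (Subgroup.mem_centralizer_iff.1 (hπD0 (t : G) t.2) _ (hC _ hl')).symm
  have c3 : Commute ((((t : G) ^ k)⁻¹ * u : G) : G ⧸ (derivedSeries G (i + 2))) ((((t : G) ^ l)⁻¹ * v : G) : G ⧸ (derivedSeries G (i + 2))) := by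
    obtain ⟨m, hm⟩ := Subgroup.mem_zpowers_iff.1 (hC _ hk')
    obtain ⟨n, hn⟩ := Subgroup.mem_zpowers_iff.1 (hC _ hl')
    rw [← hm, ← hn]
    exact Commute.zpow_zpow_self _ m n
  have hcomm : Commute ((u : G) : G ⧸ (derivedSeries G (i + 2))) ((v : G) : G ⧸ (derivedSeries G (i + 2))) := by
    rw [hu', hv']
    have e1 := (Commute.zpow_zpow_self (((t : G) : G) : G ⧸ (derivedSeries G (i + 2))) k l).mul_right (c2.zpow_left k)
    have e2 := (c1.symm.zpow_right l).mul_right c3
    exact e1.mul_left e2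
  have h5 : ((⁅u, v⁆ : G) : G ⧸ (derivedSeries G (i + 2))) = ⁅((u : G) : G ⧸ (derivedSeries G (i + 2))), ((v : G) : G ⧸ (derivedSeries G (i + 2)))⁆ :=
    map_commutatorElement (QuotientGroup.mk' (derivedSeries G (i + 2))) u v
  rw [h5, commutatorElement_eq_one_iff_commute]
  exact hcomm
end Cfsg.Agent.S0555
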