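import Cfsg.Statements.S0556
import Mathlib
import Cfsg.Agent.Lib.Lead.SylowAux2
import Cfsg.Agent.Lib.Lead.CoatomAb

set_option autoImplicit false
open Cfsg Cfsg.Agent.Lib.Lead

namespace Cfsg.Agent.S0556

open scoped Pointwise commutatorElement

/-- If a finite group has a maximal subgroup that is abelian, then the third term of its derived series is trivial (so the group is solvable of derived length at most three). -/
theorem result {G : Type*} [Group G] [Finite G] (A : Subgroup G) (hA : IsCoatom A) [IsMulCommutative A] : derivedSeries G 3 = ⊥ := by
  exact derived_three_of_abelian_coatom A hA (fun x hx y hy =>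
    congrArg Subtype.val ((inferInstance : IsMulCommutative A).is_comm.comm ⟨x, hx⟩ ⟨y, hy⟩))

end Cfsg.Agent.S0556
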