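import Cfsg.Statements.S0557
import Mathlib
import Cfsg.Agent.Lib.Lead.Transfer
import Cfsg.Agent.Lib.Helper1.ThompsonJ
-- import your own Cfsg.Agent.* helpers here

set_option autoImplicit false
open Cfsg

namespace Cfsg.Agent.S0557


open scoped commutatorElement

universe u

theorem focal_mono {G : Type*} [Group G] {A B : Subgroup G} (h : A ≤ B) :
    A.focalSubgroup ≤ B.focalSubgroup := by
  rw [Subgroup.focalSubgroup_def, Subgroup.focalSubgroup_def]
  apply Subgroup.closure_mono
  rintro g ⟨hg, x, hx, u, rfl⟩
  exact ⟨h hg, x, h hx, u, rfl⟩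

theorem focal_map_subtype {G : Type*} [Group G] (K : Subgroup G) (L : Subgroup K) :
    (L.focalSubgroup).map K.subtype ≤ (L.map K.subtype).focalSubgroup := by
  rw [Subgroup.focalSubgroup_def, MonoidHom.map_closure, Subgroup.focalSubgroup_def]
  apply Subgroup.closure_mono
  rintro _ ⟨g, ⟨hg, x, hx, u, rfl⟩, rfl⟩
  exact ⟨Subgroup.mem_map_of_mem _ hg, (x : G), Subgroup.mem_map_of_mem _ hx, (u : G),
    map_commutatorElement K.subtype x u⟩

theorem focal_iter_map {G : Type*} [Group G] (K : Subgroup G) (L : Subgroup K) (M : Subgroup G)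
    (h : L.map K.subtype ≤ M) :
    ∀ j : ℕ, ((fun X : Subgroup K => Subgroup.focalSubgroup X)^[j] L).map K.subtype ≤
      (fun X : Subgroup G => Subgroup.focalSubgroup X)^[j] M := by
  intro j
  induction j with
  | zero => exact h
  | succ j ih =>
    rw [Function.iterate_succ_apply', Function.iterate_succ_apply']
    exact (focal_map_subtype K _).trans (focal_mono ih)

theorem mem_of_order_dvd {G : Type*} [Group G] [Finite G] (N : Subgroup G) [N.Normal]
    (hc : (Nat.card N).Coprime N.index) (x : G) (hx : orderOf x ∣ Nat.card N) : x ∈ N := by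
  rw [← QuotientGroup.eq_one_iff]
  have h1 : orderOf (x : G ⧸ N) ∣ orderOf x := by
    apply orderOf_dvd_of_pow_eq_one
    rw [← QuotientGroup.mk_pow, pow_orderOf_eq_one]; rfl
  have h2 : orderOf (x : G ⧸ N) ∣ N.index := by
    rw [Subgroup.index_eq_card]; exact orderOf_dvd_natCard _
  have h3 : orderOf (x : G ⧸ N) = 1 := Nat.eq_one_of_dvd_coprimes hc (h1.trans hx) h2
  exact orderOf_eq_one_iff.mp h3

theorem main : ∀ (n : ℕ) (G : Type u) [Group G] [Finite G] (H : Subgroup G),
    (Nat.card H).Coprime H.index →
    (fun K : Subgroup G => Subgroup.focalSubgroup K)^[n] H = ⊥ →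
    ∃ N : Subgroup G, N.Normal ∧ Subgroup.IsComplement' N H := by
  intro n
  induction n with
  | zero =>
    intro G _ _ H _ h
    rw [Function.iterate_zero, id] at h
    rw [h]
    exact ⟨⊤, inferInstance, Subgroup.isComplement'_top_bot⟩
  | succ n ih =>
    intro G _ _ H hHall h
    rw [Function.iterate_succ_apply] at h
    have hcop : Nat.Coprime H.index (H.focalSubgroup.relIndex H) :=
      (Nat.Coprime.coprime_dvd_right (Subgroup.relIndex_dvd_card _ _) hHall.symm)
    obtain ⟨-, h2, h3⟩ := Cfsg.Agent.Lib.Lead.focal_coprime H hcop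
    obtain ⟨K, hK⟩ : ∃ K : Subgroup G, K = H.transferFocal.ker := ⟨_, rfl⟩
    rw [← hK] at h2 h3
    haveI hKn : K.Normal := by rw [hK]; exact MonoidHom.normal_ker _
    have hc1 := Cfsg.Agent.Lib.Helper1.card_sup_mul_card_inf H K
      (by rw [Subgroup.normalizer_eq_top]; exact le_top)
    have hsup : H ⊔ K = ⊤ := by rw [sup_comm]; exact h3
    rw [hsup, Subgroup.card_top] at hc1
    have hc2 : Nat.card (H.subgroupOf K) = Nat.card ↥(H ⊓ K) := by
      rw [← Subgroup.subgroupOf_map_subtype]
      exact (Nat.card_congr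
        ((H.subgroupOf K).equivMapOfInjective K.subtype K.subtype_injective).toEquiv)
    have hc3 := (H.subgroupOf K).card_mul_index
    have hc4 := H.card_mul_index
    have hpos : 0 < Nat.card ↥(H ⊓ K) := Nat.card_pos
    have hidx : (H.subgroupOf K).index = H.index := by
      rw [hc2] at hc3
      have h5 : Nat.card H * H.index * Nat.card ↥(H ⊓ K) =
          Nat.card H * (H.subgroupOf K).index * Nat.card ↥(H ⊓ K) := by
        rw [hc4, hc1, ← hc3]; ring
      have hposH : 0 < Nat.card H := Nat.card_pos
      have h6 := Nat.eq_of_mul_eq_mul_right hpos h5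
      exact (Nat.eq_of_mul_eq_mul_left hposH h6).symm
    have hHall' : (Nat.card (H.subgroupOf K)).Coprime (H.subgroupOf K).index := by
      rw [hidx, hc2]
      exact Nat.Coprime.coprime_dvd_left (Subgroup.card_dvd_of_le inf_le_left) hHall
    have hbase : (H.subgroupOf K).map K.subtype ≤ H.focalSubgroup := by
      rw [Subgroup.subgroupOf_map_subtype, ← h2, inf_comm]
    have hiter := focal_iter_map K (H.subgroupOf K) H.focalSubgroup hbase n
    rw [h, le_bot_iff] at hiter
    have hiter' : (fun X : Subgroup K => Subgroup.focalSubgroup X)^[n] (H.subgroupOf K) = ⊥ :=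
      (Subgroup.map_eq_bot_iff_of_injective _ K.subtype_injective).mp hiter
    obtain ⟨N', hN'n, hN'c⟩ := ih K (H.subgroupOf K) hHall' hiter'
    haveI := hN'n
    have hN'Hall : (Nat.card N').Coprime N'.index := by
      rw [hN'c.symm.index_eq_card, ← hN'c.index_eq_card]
      exact hHall'.symm
    refine ⟨N'.map K.subtype, ⟨?_⟩, ?_⟩
    · intro x hx g
      obtain ⟨n', hn', rfl⟩ := Subgroup.mem_map.mp hx
      have hmemK : g * (n' : G) * g⁻¹ ∈ K := hKn.conj_mem _ n'.2 g
      have hord : orderOf (⟨g * (n' : G) * g⁻¹, hmemK⟩ : K) ∣ Nat.card N' := by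
        have e1 : orderOf (g * (n' : G) * g⁻¹) = orderOf (n' : G) :=
          (MulAut.conj g).orderOf_eq (n' : G)
        rw [Subgroup.orderOf_mk, e1, Subgroup.orderOf_coe]
        exact Subgroup.orderOf_dvd_natCard N' hn'
      have hy := mem_of_order_dvd N' hN'Hall ⟨g * (n' : G) * g⁻¹, hmemK⟩ hord
      exact Subgroup.mem_map.mpr ⟨_, hy, rfl⟩
    · apply Subgroup.isComplement'_of_card_mul_and_disjoint
      · have e1 : Nat.card (N'.map K.subtype) = Nat.card N' :=
          (Nat.card_congr (N'.equivMapOfInjective K.subtype K.subtype_injective).toEquiv).symm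
        have e2 := hN'c.card_mul_card
        rw [hc2] at e2
        rw [e1]
        have h7 : Nat.card N' * Nat.card H * Nat.card ↥(H ⊓ K) =
            Nat.card G * Nat.card ↥(H ⊓ K) := by
          rw [hc1, ← e2]; ring
        exact Nat.eq_of_mul_eq_mul_right hpos h7
      · rw [Subgroup.disjoint_def]
        intro x hx hxH
        obtain ⟨n', hn', rfl⟩ := Subgroup.mem_map.mp hx
        have hmem : n' ∈ N' ⊓ H.subgroupOf K := ⟨hn', Subgroup.mem_subgroupOf.mpr hxH⟩
        rw [hN'c.disjoint.eq_bot, Subgroup.mem_bot] at hmem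
        rw [hmem]; rfl

/-- Let H be a subgroup of a finite group G with order coprime to its index. If iterating the focal-subgroup construction starting from H reaches the trivial subgroup after finitely many steps, then H has a normal complement in G. -/
theorem result {G : Type*} [Group G] [Finite G] (H : Subgroup G) (hHall : (Nat.card H).Coprime H.index) (n : ℕ) (hfoc : (fun K : Subgroup G => Subgroup.focalSubgroup K)^[n] H = ⊥) : ∃ N : Subgroup G, N.Normal ∧ Subgroup.IsComplement' N H := by
  exact main n G H hHall hfoc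

end Cfsg.Agent.S0557
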