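import Cfsg.Statements.S0558
import Mathlib
import Cfsg.Agent.Lib.Lead.NilpHall
import Cfsg.Agent.Lib.Helper1.Basic
import Cfsg.Agent.Lib.Helper1.HallSys
import Cfsg.Agent.Lib.Helper1.HallSys2

set_option autoImplicit false
open Cfsg

namespace Cfsg.Agent.S0558

universe u

open Cfsg.Agent.Lib.Helper1
open scoped Pointwise

theorem sylow_conj_in {G : Type*} [Group G] [Finite G] {q : ℕ} [Fact q.Prime] (C A B : Subgroup G)
    (hA : A ≤ C) (hB : B ≤ C) (hAq : IsPGroup q A) (hBq : IsPGroup q B) (hAi : ¬ q ∣ A.index)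
    (hBi : ¬ q ∣ B.index) : ∃ c ∈ C, MulAut.conj c • A = B := by
  have hA' : IsPGroup q (A.subgroupOf C) := hAq.comap_subtype
  have hB' : IsPGroup q (B.subgroupOf C) := hBq.comap_subtype
  have hAi' : ¬ q ∣ (A.subgroupOf C).index :=
    fun h => hAi (h.trans (Subgroup.relIndex_dvd_index_of_le hA))
  have hBi' : ¬ q ∣ (B.subgroupOf C).index :=
    fun h => hBi (h.trans (Subgroup.relIndex_dvd_index_of_le hB))
  obtain ⟨c, hc⟩ := MulAction.exists_smul_eq C (hA'.toSylow hAi') (hB'.toSylow hBi')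
  have hc' : MulAut.conj c • A.subgroupOf C = B.subgroupOf C := by
    have h2 := congrArg (fun S : Sylow q C => (S : Subgroup C)) hc
    simp only [Sylow.coe_subgroup_smul, IsPGroup.toSylow_coe] at h2
    exact h2
  refine ⟨c, c.2, ?_⟩
  have hle : MulAut.conj (c : G) • A ≤ B := by
    intro y hy
    rw [mem_conj_smul] at hy
    have hyC : y ∈ C := by
      have e : y = c * ((c : G)⁻¹ * y * c) * (c : G)⁻¹ := by group
      rw [e]; exact C.mul_mem (C.mul_mem c.2 (hA hy)) (C.inv_mem c.2)
    have h6 : (⟨y, hyC⟩ : C) ∈ MulAut.conj c • A.subgroupOf C := by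
      rw [mem_conj_smul]; exact hy
    rw [hc'] at h6
    exact h6
  have hcard : Nat.card A = Nat.card B := by
    have h1 : Nat.card A = q ^ (Nat.card G).factorization q :=
      (hAq.toSylow hAi).card_eq_multiplicity
    have h2 : Nat.card B = q ^ (Nat.card G).factorization q :=
      (hBq.toSylow hBi).card_eq_multiplicity
    rw [h1, h2]
  exact Subgroup.eq_of_le_of_card_ge hle (by rw [card_conj_smul, hcard])

/-- Let H be a subgroup of a finite group G that is not a Sylow subgroup of G for any prime, and suppose that for every prime p dividing the order of H and every Sylow p-subgroup P of H the normalizer of P in G is exactly H. Then some normal subgroup of G is a complement to H. -/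
theorem result {G : Type*} [Group G] [Finite G] (H : Subgroup G) (hnot : ∀ p : ℕ, p.Prime → ∀ P : Sylow p G, (P : Subgroup G) ≠ H) (hnorm : ∀ p : ℕ, p.Prime → p ∣ Nat.card H → ∀ P : Sylow p H, Subgroup.normalizer (((P : Subgroup H).map H.subtype : Subgroup G) : Set G) = H) : ∃ N : Subgroup G, N.Normal ∧ Subgroup.IsComplement' N H := by
  classical
  have hPn : ∀ p : ℕ, p.Prime → p ∣ Nat.card H → ∀ P : Sylow p H, (P : Subgroup H).Normal := by
    intro p hp hpd P
    have h1 := hnorm p hp hpd P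
    have hle : (P : Subgroup H).map H.subtype ≤ H := Subgroup.map_subtype_le _
    have h2 : H ≤ Subgroup.normalizer ((((P : Subgroup H).map H.subtype : Subgroup G)) : Set G) := by
      rw [h1]
    have h3 := (Subgroup.normal_subgroupOf_iff_le_normalizer hle).2 h2
    rwa [show ((P : Subgroup H).map H.subtype).subgroupOf H = P from
      Subgroup.comap_map_eq_self_of_injective H.subtype_injective _] at h3
  have hHnil : Group.IsNilpotent H := by
    apply ((Group.isNilpotent_of_finite_tfae (G := H)).out 0 3).2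
    intro p hpF P
    by_cases hpd : p ∣ Nat.card H
    · exact hPn p hpF.out hpd P
    · have hb : (P : Subgroup H) = ⊥ := by
        rw [← Subgroup.card_eq_one, P.card_eq_multiplicity,
          Nat.factorization_eq_zero_of_not_dvd hpd, pow_zero]
      rw [hb]; infer_instance
  have hSyl : ∀ p : ℕ, p.Prime → p ∣ Nat.card H → ∀ P : Sylow p H,
      ¬ p ∣ ((P : Subgroup H).map H.subtype).index := by
    intro p hp hpd P
    haveI : Fact p.Prime := ⟨hp⟩
    obtain ⟨P0, hP0⟩ : ∃ P0, P0 = (P : Subgroup H).map H.subtype := ⟨_, rfl⟩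
    rw [← hP0]
    have hP0p : IsPGroup p P0 := by rw [hP0]; exact P.2.map _
    have hP0H : P0 ≤ H := by rw [hP0]; exact Subgroup.map_subtype_le _
    have hN : Subgroup.normalizer (P0 : Set G) = H := by rw [hP0]; exact hnorm p hp hpd P
    obtain ⟨S, hS⟩ := hP0p.exists_le_sylow
    have hPS : P0 = S := by
      by_contra hne
      haveI : Group.IsNilpotent (S : Subgroup G) := S.2.isNilpotent
      have hlt : P0.subgroupOf S < ⊤ := by
        rw [lt_top_iff_ne_top]
        intro h
        rw [Subgroup.subgroupOf_eq_top] at h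
        exact hne (le_antisymm hS h)
      have hnc := Group.normalizerCondition_of_isNilpotent (G := (S : Subgroup G)) _ hlt
      obtain ⟨x, hxn, hxP⟩ := SetLike.exists_of_lt hnc
      have hxN : (x : G) ∈ Subgroup.normalizer (P0 : Set G) := by
        apply mem_normalizer_of_finite
        intro h hh
        exact (Subgroup.mem_normalizer_iff.1 hxn ⟨h, hS hh⟩).1 hh
      rw [hN] at hxN
      have hz : IsPGroup p (Subgroup.zpowers (x : G)) :=
        S.2.to_le (by rw [Subgroup.zpowers_le]; exact x.2)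
      have hzn : Subgroup.zpowers (x : G) ≤ Subgroup.normalizer (P0 : Set G) := by
        rw [Subgroup.zpowers_le, hN]; exact hxN
      have hT : IsPGroup p (P0 ⊔ Subgroup.zpowers (x : G) : Subgroup G) :=
        IsPGroup.to_sup_of_normal_left' hP0p hz hzn
      have hmax := P.is_maximal' (Q := (P0 ⊔ Subgroup.zpowers (x : G)).subgroupOf H)
        hT.comap_subtype (by
          intro y hy
          rw [Subgroup.mem_subgroupOf]
          apply Subgroup.mem_sup_left
          rw [hP0]; exact ⟨y, hy, rfl⟩)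
      apply hxP
      rw [Subgroup.mem_subgroupOf]
      have hx1 : (⟨(x : G), hxN⟩ : H) ∈ (P0 ⊔ Subgroup.zpowers (x : G)).subgroupOf H := by
        rw [Subgroup.mem_subgroupOf]; exact Subgroup.mem_sup_right (Subgroup.mem_zpowers _)
      rw [hmax] at hx1
      rw [hP0]; exact ⟨_, hx1, rfl⟩
    rw [hPS]; exact S.not_dvd_index
  have hHall : (Nat.card H).Coprime H.index := by
    apply Nat.coprime_of_dvd
    intro p hp hpd hpi
    haveI : Fact p.Prime := ⟨hp⟩
    obtain P : Sylow p H := default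
    apply hSyl p hp hpd P
    rw [Subgroup.index_map_subtype]
    exact Dvd.dvd.mul_left hpi _
  have hother : ∀ p : ℕ, p.Prime → p ∣ Nat.card H → ∃ q : ℕ, q.Prime ∧ q ≠ p ∧ q ∣ Nat.card H := by
    intro p hp hpd
    by_contra hcon
    push_neg at hcon
    haveI : Fact p.Prime := ⟨hp⟩
    obtain P : Sylow p H := default
    have hHp : IsPGroup p H := by
      apply IsPGroup.of_card (n := (Nat.card H).primeFactorsList.length)
      apply Nat.eq_prime_pow_of_unique_prime_dvd Nat.card_pos.ne'
      intro d hd hdd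
      by_contra hne
      exact hcon d hd hne hdd
    have hPtop : (P : Subgroup H) = ⊤ :=
      (P.is_maximal' (Q := ⊤) (hHp.to_subgroup ⊤) le_top).symm
    have hmap : (P : Subgroup H).map H.subtype = H := by
      rw [hPtop, ← MonoidHom.range_eq_map, Subgroup.range_subtype]
    have hi := hSyl p hp hpd P
    rw [hmap] at hi
    exact hnot p hp (hHp.toSylow hi) rfl
  have hcf : ∀ p : ℕ, p.Prime → p ∣ Nat.card H → ∀ P : Sylow p H,
      Cfsg.Agent.Lib.Lead.ControlsOwnFusion ((P : Subgroup H).map H.subtype) := by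
    intro p hp hpd P
    haveI : Fact p.Prime := ⟨hp⟩
    obtain ⟨q, hq, hqp, hqd⟩ := hother p hp hpd
    haveI : Fact q.Prime := ⟨hq⟩
    obtain Q : Sylow q H := default
    obtain ⟨Q0, hQ0⟩ : ∃ Q0, Q0 = (Q : Subgroup H).map H.subtype := ⟨_, rfl⟩
    have hQ0q : IsPGroup q Q0 := by rw [hQ0]; exact Q.2.map _
    have hQ0i : ¬ q ∣ Q0.index := by rw [hQ0]; exact hSyl q hq hqd Q
    have hQ0N : Subgroup.normalizer (Q0 : Set G) = H := by rw [hQ0]; exact hnorm q hq hqd Q
    have hcomm : ∀ x ∈ (P : Subgroup H), ∀ z ∈ (Q : Subgroup H), x * z = z * x := by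
      intro x hx z hz
      have hd : Disjoint (P : Subgroup H) (Q : Subgroup H) :=
        IsPGroup.disjoint_of_ne p q (Ne.symm hqp) _ _ P.2 Q.2
      exact (Subgroup.commute_of_normal_of_disjoint _ _ (hPn p hp hpd P) (hPn q hq hqd Q) hd
        x z hx hz).eq
    rintro _ ⟨x, hx, rfl⟩ g hgx
    obtain ⟨y, hy, hyx⟩ := hgx
    have hyx' : (y : G) = g * (x : G) * g⁻¹ := hyx
    obtain ⟨C, hC⟩ : ∃ C, C = Subgroup.centralizer ({(x : G)} : Set G) := ⟨_, rfl⟩
    have hmemC : ∀ c : G, c ∈ C ↔ (x : G) * c = c * x := by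
      intro c
      rw [hC, Subgroup.mem_centralizer_iff]
      constructor
      · intro h; exact h x (Set.mem_singleton _)
      · intro h z hz; rw [Set.mem_singleton_iff.1 hz]; exact h
    have hQ0C : Q0 ≤ C := by
      rw [hQ0]
      rintro _ ⟨z, hz, rfl⟩
      rw [hmemC]
      exact congrArg Subtype.val (hcomm x hx z hz)
    have hQ1C : MulAut.conj g⁻¹ • Q0 ≤ C := by
      intro w hw
      rw [mem_conj_smul, inv_inv] at hw
      rw [hQ0] at hw
      obtain ⟨z, hz, hzw⟩ := hw
      have hzw' : (z : G) = g * w * g⁻¹ := hzw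
      rw [hmemC]
      have h1 : (y : G) * (z : G) = (z : G) * (y : G) := congrArg Subtype.val (hcomm y hy z hz)
      rw [hyx', hzw'] at h1
      have h2 : g * ((x : G) * w) * g⁻¹ = g * (w * (x : G)) * g⁻¹ := by
        calc g * ((x : G) * w) * g⁻¹ = g * x * g⁻¹ * (g * w * g⁻¹) := by group
          _ = g * w * g⁻¹ * (g * x * g⁻¹) := h1
          _ = g * (w * (x : G)) * g⁻¹ := by group
      exact mul_left_cancel (mul_right_cancel h2)
    have hQ1q : IsPGroup q (MulAut.conj g⁻¹ • Q0 : Subgroup G) := by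
      obtain ⟨k, hk⟩ := IsPGroup.iff_card.1 hQ0q
      exact IsPGroup.of_card (n := k) (by rw [card_conj_smul, hk])
    obtain ⟨c, hcC, hc⟩ := sylow_conj_in C (MulAut.conj g⁻¹ • Q0) Q0 hQ1C hQ0C hQ1q hQ0q
      (by rw [index_conj_smul]; exact hQ0i) hQ0i
    have hh : c * g⁻¹ ∈ H := by
      rw [← hQ0N]
      apply mem_normalizer_of_conj_smul_eq
      rw [conj_mul_smul]; exact hc
    have hh' : g * c⁻¹ ∈ H := by
      have := H.inv_mem hh
      rwa [mul_inv_rev, inv_inv] at this
    have hconj : (g * c⁻¹) * (x : G) * (g * c⁻¹)⁻¹ = g * (x : G) * g⁻¹ := by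
      have h1 := (hmemC c).1 hcC
      have h2 : c⁻¹ * (x : G) * c = x := by
        rw [mul_assoc, h1, ← mul_assoc, inv_mul_cancel, one_mul]
      calc (g * c⁻¹) * (x : G) * (g * c⁻¹)⁻¹ = g * (c⁻¹ * (x : G) * c) * g⁻¹ := by group
        _ = g * (x : G) * g⁻¹ := by rw [h2]
    haveI := hHnil
    obtain ⟨v, hv, c', hc', hvc⟩ :=
      Cfsg.Agent.Lib.Lead.nilpotent_sylow_mul_centralizer P ⟨g * c⁻¹, hh'⟩
    refine ⟨(v : G), ⟨v, hv, rfl⟩, ?_⟩
    have h1 : g * c⁻¹ = (v : G) * (c' : G) := congrArg Subtype.val hvc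
    rw [Subgroup.mem_centralizer_iff] at hc'
    have h2 : (x : G) * (c' : G) = (c' : G) * (x : G) := congrArg Subtype.val (hc' x hx)
    show (v : G) * (x : G) * (v : G)⁻¹ = g * (x : G) * g⁻¹
    rw [← hconj, h1]
    calc (v : G) * x * (v : G)⁻¹ = v * (x * c') * (c' : G)⁻¹ * (v : G)⁻¹ := by group
      _ = v * (c' * x) * (c' : G)⁻¹ * (v : G)⁻¹ := by rw [h2]
      _ = v * c' * x * (v * c' : G)⁻¹ := by group
  have key : ∀ p : ℕ, p.Prime → p ∣ Nat.card H → ∃ K : Subgroup G, K.Normal ∧
      (Nat.card K).Coprime p ∧ K.index = p ^ (Nat.card H).factorization p := by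
    intro p hp hpd
    haveI : Fact p.Prime := ⟨hp⟩
    obtain S : Sylow p H := default
    have hPp : IsPGroup p ((S : Subgroup H).map H.subtype) := S.2.map _
    have hPidx := hSyl p hp hpd S
    obtain ⟨K, hKn, hKc⟩ :=
      Cfsg.Agent.Lib.Lead.complement_of_cf _ G p _ rfl hPp hPidx (hcf p hp hpd S)
    refine ⟨K, hKn, ?_, ?_⟩
    · rw [← hKc.index_eq_card]
      exact ((Nat.Prime.coprime_iff_not_dvd hp).mpr hPidx).symm
    · rw [hKc.symm.index_eq_card, Subgroup.card_map_of_injective (Subgroup.subtype_injective H)]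
      exact S.card_eq_multiplicity
  choose! K hKn hKcop hKidx using key
  have hmem : ∀ i : ↥(Nat.card H).primeFactors, i.1.Prime ∧ i.1 ∣ Nat.card H :=
    fun i => ⟨Nat.prime_of_mem_primeFactors i.2, Nat.dvd_of_mem_primeFactors i.2⟩
  have hNn : (⨅ i : ↥(Nat.card H).primeFactors, K i.1).Normal :=
    Subgroup.normal_iInf_normal (fun i => hKn i.1 (hmem i).1 (hmem i).2)
  have hdisj : (⨅ i : ↥(Nat.card H).primeFactors, K i.1) ⊓ H = ⊥ := by
    rw [eq_bot_iff]
    rintro x ⟨hxN, hxH⟩
    rw [Subgroup.mem_bot]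
    by_contra hx1
    have ho : orderOf x ≠ 1 := fun h => hx1 (orderOf_eq_one_iff.mp h)
    obtain ⟨p, hp, hpd⟩ := Nat.exists_prime_and_dvd ho
    have hpH : p ∣ Nat.card H := hpd.trans (Subgroup.orderOf_dvd_natCard H hxH)
    have hpm : p ∈ (Nat.card H).primeFactors :=
      Nat.mem_primeFactors.mpr ⟨hp, hpH, Nat.card_pos.ne'⟩
    have hxK : x ∈ K p := (Subgroup.mem_iInf.mp hxN) ⟨p, hpm⟩
    have h1 : p ∣ Nat.card (K p) := hpd.trans (Subgroup.orderOf_dvd_natCard _ hxK)
    exact (Nat.Prime.coprime_iff_not_dvd hp).mp (hKcop p hp hpH).symm h1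
  have hidx_le : (⨅ i : ↥(Nat.card H).primeFactors, K i.1).index ≤ Nat.card H := by
    calc (⨅ i : ↥(Nat.card H).primeFactors, K i.1).index
        ≤ ∏ i : ↥(Nat.card H).primeFactors, (K i.1).index := Subgroup.index_iInf_le _
      _ = ∏ i : ↥(Nat.card H).primeFactors, i.1 ^ (Nat.card H).factorization i.1 :=
          Finset.prod_congr rfl (fun i _ => hKidx i.1 (hmem i).1 (hmem i).2)
      _ = ∏ p ∈ (Nat.card H).primeFactors, p ^ (Nat.card H).factorization p :=
          Finset.prod_coe_sort _ (fun p => p ^ (Nat.card H).factorization p)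
      _ = Nat.card H := (Nat.prod_primeFactors_pow_factorization Nat.card_pos.ne').symm
  generalize (⨅ i : ↥(Nat.card H).primeFactors, K i.1) = N at hNn hdisj hidx_le
  have hdvd : Nat.card H ∣ N.index := by
    have h1 : N.relIndex H = Nat.card H := by
      rw [← Subgroup.inf_relIndex_right, hdisj, Subgroup.relIndex_bot_left]
    rw [← h1]; exact Subgroup.relIndex_dvd_index_of_normal N H
  have hpos : 0 < N.index := Nat.pos_of_ne_zero Subgroup.index_ne_zero_of_finite
  have heq : N.index = Nat.card H := le_antisymm hidx_le (Nat.le_of_dvd hpos hdvd)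
  refine ⟨N, hNn, ?_⟩
  apply Subgroup.isComplement'_of_card_mul_and_disjoint
  · rw [← heq]; exact Subgroup.card_mul_index N
  · rw [disjoint_iff]; exact hdisj
end Cfsg.Agent.S0558
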