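import Cfsg.Statements.S0560
import Mathlib
import Cfsg.Agent.Lib.Helper1.Basic
import Cfsg.Agent.Lib.Helper6.SetMul
-- import your own Cfsg.Agent.* helpers here

set_option autoImplicit false
open Pointwise
open Cfsg

namespace Cfsg.Agent.S0560


open scoped Pointwise

/-- Let the finite group G be the product HK of two subgroups and p a prime. Then there are Sylow p-subgroups P of H and Q of K and a Sylow p-subgroup R of G whose underlying set is the product set of P and Q. -/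
theorem result {G : Type*} [Group G] [Finite G] (H K : Subgroup G) (hHK : ∀ g : G, ∃ h ∈ H, ∃ k ∈ K, g = h * k) (p : ℕ) [Fact p.Prime] : ∃ (P : Sylow p H) (Q : Sylow p K) (R : Sylow p G), ((R : Subgroup G) : Set G) = (((P : Subgroup H).map H.subtype : Subgroup G) : Set G) * (((Q : Subgroup K).map K.subtype : Subgroup G) : Set G) := by
  classical
  obtain ⟨P₀⟩ : Nonempty (Sylow p H) := inferInstance
  obtain ⟨Q₀⟩ : Nonempty (Sylow p K) := inferInstance
  have hP₀' : IsPGroup p ((P₀ : Subgroup H).map H.subtype) := P₀.2.map _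
  have hQ₀' : IsPGroup p ((Q₀ : Subgroup K).map K.subtype) := Q₀.2.map _
  obtain ⟨R, hR⟩ := hP₀'.exists_le_sylow
  obtain ⟨R', hR'⟩ := hQ₀'.exists_le_sylow
  obtain ⟨g, hg⟩ := MulAction.exists_smul_eq G R' R
  obtain ⟨h, hh, k, hk, rfl⟩ := hHK g
  refine ⟨(⟨h, hh⟩ : H)⁻¹ • P₀, (⟨k, hk⟩ : K) • Q₀, h⁻¹ • R, ?_⟩
  obtain ⟨A, hA⟩ : ∃ A : Subgroup G,
      A = (((⟨h, hh⟩ : H)⁻¹ • P₀ : Sylow p H) : Subgroup H).map H.subtype := ⟨_, rfl⟩
  obtain ⟨B, hB⟩ : ∃ B : Subgroup G,
      B = (((⟨k, hk⟩ : K) • Q₀ : Sylow p K) : Subgroup K).map K.subtype := ⟨_, rfl⟩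
  obtain ⟨R₁, hR₁⟩ : ∃ R₁ : Sylow p G, R₁ = h⁻¹ • R := ⟨_, rfl⟩
  rw [← hA, ← hB, ← hR₁]
  have hAR : A ≤ (R₁ : Subgroup G) := by
    intro z hz
    rw [hA] at hz
    obtain ⟨w, hw, rfl⟩ := Subgroup.mem_map.mp hz
    have hw' : ((⟨h, hh⟩ : H)⁻¹)⁻¹ * w * (⟨h, hh⟩ : H)⁻¹ ∈ (P₀ : Subgroup H) :=
      (Cfsg.Agent.Lib.Helper1.mem_conj_smul _ _ _).mp hw
    rw [hR₁]
    apply (Cfsg.Agent.Lib.Helper1.mem_conj_smul _ _ _).mpr
    apply hR
    refine Subgroup.mem_map.mpr ⟨_, hw', ?_⟩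
    simp
  have hBR : B ≤ (R₁ : Subgroup G) := by
    intro z hz
    rw [hB] at hz
    obtain ⟨w, hw, rfl⟩ := Subgroup.mem_map.mp hz
    have hw' : (⟨k, hk⟩ : K)⁻¹ * w * (⟨k, hk⟩ : K) ∈ (Q₀ : Subgroup K) :=
      (Cfsg.Agent.Lib.Helper1.mem_conj_smul _ _ _).mp hw
    have h1 : k⁻¹ * (w : G) * k ∈ (R' : Subgroup G) := by
      apply hR'
      refine Subgroup.mem_map.mpr ⟨_, hw', ?_⟩
      simp
    rw [hR₁]
    apply (Cfsg.Agent.Lib.Helper1.mem_conj_smul _ _ _).mpr
    rw [← hg]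
    apply (Cfsg.Agent.Lib.Helper1.mem_conj_smul _ _ _).mpr
    have e : (h * k)⁻¹ * ((h⁻¹)⁻¹ * K.subtype w * h⁻¹) * (h * k) = k⁻¹ * (w : G) * k := by
      simp only [Subgroup.coe_subtype]; group
    rw [e]; exact h1
  have hsub : (A : Set G) * (B : Set G) ⊆ ((R₁ : Subgroup G) : Set G) := by
    rintro x ⟨a, ha, b, hb, rfl⟩
    exact mul_mem (hAR ha) (hBR hb)
  have hcA : Nat.card A = p ^ (Nat.card H).factorization p := by
    rw [hA, ← Sylow.card_eq_multiplicity ((⟨h, hh⟩ : H)⁻¹ • P₀)]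
    exact (Nat.card_congr
      (Subgroup.equivMapOfInjective _ H.subtype H.subtype_injective).toEquiv).symm
  have hcB : Nat.card B = p ^ (Nat.card K).factorization p := by
    rw [hB, ← Sylow.card_eq_multiplicity ((⟨k, hk⟩ : K) • Q₀)]
    exact (Nat.card_congr
      (Subgroup.equivMapOfInjective _ K.subtype K.subtype_injective).toEquiv).symm
  have hcR : Nat.card (R₁ : Subgroup G) = p ^ (Nat.card G).factorization p :=
    Sylow.card_eq_multiplicity R₁
  have hABp : IsPGroup p ↥(A ⊓ B) := R₁.2.to_le (inf_le_left.trans hAR)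
  obtain ⟨j, hj⟩ := IsPGroup.iff_card.mp hABp
  have hAH : A ≤ H := by rw [hA]; exact Subgroup.map_subtype_le _
  have hBK : B ≤ K := by rw [hB]; exact Subgroup.map_subtype_le _
  have hjle : j ≤ (Nat.card ↥(H ⊓ K)).factorization p := by
    have hd : p ^ j ∣ Nat.card ↥(H ⊓ K) := by
      rw [← hj]; exact Subgroup.card_dvd_of_le (inf_le_inf hAH hBK)
    exact (Nat.Prime.pow_dvd_iff_le_factorization (Fact.out) (Nat.card_pos.ne')).mp hd
  have hHKuniv : (H : Set G) * (K : Set G) = Set.univ := by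
    ext x; simp only [Set.mem_univ, iff_true]
    obtain ⟨h', hh', k', hk', rfl⟩ := hHK x
    exact ⟨h', hh', k', hk', rfl⟩
  have hprod := Cfsg.Agent.Lib.Helper6.card_setMul_mul_card_inf H K
  rw [hHKuniv, Set.ncard_univ] at hprod
  have hfact : (Nat.card G).factorization p + (Nat.card ↥(H ⊓ K)).factorization p =
      (Nat.card H).factorization p + (Nat.card K).factorization p := by
    have h5 := congrArg (fun n => n.factorization p) hprod
    have h5 : (Nat.card G * Nat.card ↥(H ⊓ K)).factorization p =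
        (Nat.card H * Nat.card K).factorization p := h5
    rw [Nat.factorization_mul Nat.card_pos.ne' Nat.card_pos.ne',
      Nat.factorization_mul Nat.card_pos.ne' Nat.card_pos.ne'] at h5
    simpa using h5
  have hAB := Cfsg.Agent.Lib.Helper6.card_setMul_mul_card_inf A B
  rw [hj, hcA, hcB, ← pow_add] at hAB
  have hge : Nat.card (R₁ : Subgroup G) ≤ ((A : Set G) * (B : Set G)).ncard := by
    rw [hcR]
    have h1 : p ^ (Nat.card G).factorization p * p ^ j ≤
        ((A : Set G) * (B : Set G)).ncard * p ^ j := by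
      rw [hAB, ← pow_add]
      apply Nat.pow_le_pow_right (Fact.out : p.Prime).pos
      omega
    exact Nat.le_of_mul_le_mul_right h1 (pow_pos (Fact.out : p.Prime).pos j)
  have hRn : ((R₁ : Subgroup G) : Set G).ncard = Nat.card (R₁ : Subgroup G) :=
    (Nat.card_coe_set_eq _).symm
  exact (Set.eq_of_subset_of_ncard_le hsub (by rw [hRn]; exact hge) (Set.toFinite _)).symm

end Cfsg.Agent.S0560
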