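import Cfsg.Statements.S0562
import Mathlib
import Cfsg.Agent.Lib.Helper1.Basic

set_option autoImplicit false
open Cfsg

namespace Cfsg.Agent.S0562

/-- Let the finite group G be the product HK of subgroups, A normal in H, B normal in K, and L the normalizer of the subgroup generated by A and B. Then every element of L is a product of an element of L ∩ H and an element of L ∩ K. -/
theorem result {G : Type*} [Group G] [Finite G] (H K A B : Subgroup G) (hHK : ∀ g : G, ∃ h ∈ H, ∃ k ∈ K, g = h * k) (hA : A ≤ H) (hAn : (A.subgroupOf H).Normal) (hB : B ≤ K) (hBn : (B.subgroupOf K).Normal) : ∀ g ∈ Subgroup.normalizer ((A ⊔ B : Subgroup G) : Set G), ∃ h ∈ Subgroup.normalizer ((A ⊔ B : Subgroup G) : Set G) ⊓ H, ∃ k ∈ Subgroup.normalizer ((A ⊔ B : Subgroup G) : Set G) ⊓ K, g = h * k := by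
  intro g hg
  rw [Subgroup.mem_normalizer_iff] at hg
  obtain ⟨h, hh, k, hk, e⟩ := hHK g
  -- the subgroup E = {x | h x h⁻¹ ∈ D} = {x | k⁻¹ x k ∈ D}
  have key : ∀ x : G, k⁻¹ * x * k ∈ A ⊔ B ↔ h * x * h⁻¹ ∈ A ⊔ B := by
    intro x
    rw [hg (k⁻¹ * x * k)]
    have : g * (k⁻¹ * x * k) * g⁻¹ = h * x * h⁻¹ := by rw [e]; group
    rw [this]
  have hAh : ∀ a ∈ A, h * a * h⁻¹ ∈ A := by
    intro a ha
    have := hAn.conj_mem ⟨a, hA ha⟩ (Subgroup.mem_subgroupOf.2 ha) ⟨h, hh⟩
    exact Subgroup.mem_subgroupOf.1 this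
  have hBk : ∀ b ∈ B, k⁻¹ * b * k ∈ B := by
    intro b hb
    have := hBn.conj_mem ⟨b, hB hb⟩ (Subgroup.mem_subgroupOf.2 hb) ⟨k⁻¹, K.inv_mem hk⟩
    have h2 := Subgroup.mem_subgroupOf.1 this
    simpa using h2
  let E : Subgroup G := (A ⊔ B).comap (MulAut.conj h).toMonoidHom
  have hE : ∀ x, x ∈ E ↔ h * x * h⁻¹ ∈ A ⊔ B := by
    intro x
    show (MulAut.conj h).toMonoidHom x ∈ A ⊔ B ↔ _
    simp
  have hle : A ⊔ B ≤ E := by
    apply sup_le
    · intro a ha
      rw [hE]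
      exact Subgroup.mem_sup_left (hAh a ha)
    · intro b hb
      rw [hE, ← key]
      exact Subgroup.mem_sup_right (hBk b hb)
  have hh' : h ∈ Subgroup.normalizer ((A ⊔ B : Subgroup G) : Set G) := by
    apply Lib.Helper1.mem_normalizer_of_finite
    intro n hn
    exact (hE n).1 (hle hn)
  have hk' : k ∈ Subgroup.normalizer ((A ⊔ B : Subgroup G) : Set G) := by
    have h1 : k⁻¹ ∈ Subgroup.normalizer ((A ⊔ B : Subgroup G) : Set G) := by
      apply Lib.Helper1.mem_normalizer_of_finite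
      intro n hn
      have := (key n).2 ((hE n).1 (hle hn))
      simpa using this
    have := inv_mem h1
    simpa using this
  exact ⟨h, ⟨hh', hh⟩, k, ⟨hk', hk⟩, e⟩
end Cfsg.Agent.S0562
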