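import Cfsg.Statements.S0567
import Mathlib

set_option autoImplicit false
open Cfsg

namespace Cfsg.Agent.S0567

open scoped commutatorElement

theorem conj_mem_of_mem_sup {G : Type*} [Group G] {D X Y : Subgroup G}
    (hX : ∀ x ∈ X, ∀ d ∈ D, x * d * x⁻¹ ∈ D) (hY : ∀ y ∈ Y, ∀ d ∈ D, y * d * y⁻¹ ∈ D) :
    ∀ g ∈ X ⊔ Y, ∀ d ∈ D, g * d * g⁻¹ ∈ D := by
  let S : Subgroup G :=
    { carrier := {g | ∀ d ∈ D, g * d * g⁻¹ ∈ D ∧ g⁻¹ * d * g ∈ D}
      mul_mem' := by
        intro a b ha hb d hd
        refine ⟨?_, ?_⟩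
        · have h1 := (ha _ (hb d hd).1).1
          have e : a * b * d * (a * b)⁻¹ = a * (b * d * b⁻¹) * a⁻¹ := by group
          rw [e]; exact h1
        · have h1 := (hb _ (ha d hd).2).2
          have e : (a * b)⁻¹ * d * (a * b) = b⁻¹ * (a⁻¹ * d * a) * b := by group
          rw [e]; exact h1
      one_mem' := by
        intro d hd
        simpa using hd
      inv_mem' := by
        intro a ha d hd
        rw [inv_inv]
        exact ⟨(ha d hd).2, (ha d hd).1⟩ }
  have hXS : X ≤ S := by
    intro x hx d hd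
    refine ⟨hX x hx d hd, ?_⟩
    have := hX x⁻¹ (X.inv_mem hx) d hd
    rw [inv_inv] at this
    exact this
  have hYS : Y ≤ S := by
    intro y hy d hd
    refine ⟨hY y hy d hd, ?_⟩
    have := hY y⁻¹ (Y.inv_mem hy) d hd
    rw [inv_inv] at this
    exact this
  intro g hg d hd
  exact ((sup_le hXS hYS) hg d hd).1

theorem conj_closure {G : Type*} [Group G] {s : Set G} {D : Subgroup G} (g : G)
    (h : ∀ x ∈ s, g * x * g⁻¹ ∈ D) : ∀ x ∈ Subgroup.closure s, g * x * g⁻¹ ∈ D := by
  have hle : Subgroup.closure s ≤ D.comap (MulAut.conj g).toMonoidHom := by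
    rw [Subgroup.closure_le]
    intro x hx
    show (MulAut.conj g).toMonoidHom x ∈ D
    simp only [MulEquiv.coe_toMonoidHom, MulAut.conj_apply]
    exact h x hx
  intro x hx
  have := hle hx
  simpa using this

/-- `[X, Y]` is normalized by `X` and by `Y` -/
theorem commutator_conj_mem {G : Type*} [Group G] (X Y : Subgroup G) :
    ∀ g ∈ X ⊔ Y, ∀ c ∈ ⁅X, Y⁆, g * c * g⁻¹ ∈ ⁅X, Y⁆ := by
  apply conj_mem_of_mem_sup
  · intro x hx
    rw [Subgroup.commutator_def]
    apply conj_closure
    rintro c ⟨a, ha, b, hb, rfl⟩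
    rw [← Subgroup.commutator_def]
    have e : x * ⁅a, b⁆ * x⁻¹ = ⁅x * a, b⁆ * ⁅x, b⁆⁻¹ := by
      simp only [commutatorElement_def]; group
    rw [e]
    exact mul_mem (Subgroup.commutator_mem_commutator (X.mul_mem hx ha) hb)
      (inv_mem (Subgroup.commutator_mem_commutator hx hb))
  · intro y hy
    rw [Subgroup.commutator_def]
    apply conj_closure
    rintro c ⟨a, ha, b, hb, rfl⟩
    rw [← Subgroup.commutator_def]
    have e : y * ⁅a, b⁆ * y⁻¹ = ⁅a, y⁆⁻¹ * ⁅a, y * b⁆ := by
      simp only [commutatorElement_def]; group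
    rw [e]
    exact mul_mem (inv_mem (Subgroup.commutator_mem_commutator ha hy))
      (Subgroup.commutator_mem_commutator ha (Y.mul_mem hy hb))

theorem commutator_le_sup' {G : Type*} [Group G] (X Y : Subgroup G) : ⁅X, Y⁆ ≤ X ⊔ Y := by
  rw [Subgroup.commutator_le]
  intro a ha b hb
  rw [commutatorElement_def]
  exact mul_mem (mul_mem (mul_mem (Subgroup.mem_sup_left ha) (Subgroup.mem_sup_right hb))
    (inv_mem (Subgroup.mem_sup_left ha))) (inv_mem (Subgroup.mem_sup_right hb))

/-- `H ⊔ [K, H]` is normal in `H ⊔ K`. -/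
theorem step_normal {G : Type*} [Group G] (H K : Subgroup G) :
    ∀ g ∈ H ⊔ K, ∀ d ∈ H ⊔ ⁅K, H⁆, g * d * g⁻¹ ∈ H ⊔ ⁅K, H⁆ := by
  apply conj_mem_of_mem_sup
  · intro h hh d hd
    have hle : H ⊔ ⁅K, H⁆ ≤ (H ⊔ ⁅K, H⁆).comap (MulAut.conj h).toMonoidHom := by
      apply sup_le
      · intro x hx
        show (MulAut.conj h).toMonoidHom x ∈ H ⊔ ⁅K, H⁆
        simp only [MulEquiv.coe_toMonoidHom, MulAut.conj_apply]
        exact Subgroup.mem_sup_left (H.mul_mem (H.mul_mem hh hx) (H.inv_mem hh))
      · intro x hx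
        show (MulAut.conj h).toMonoidHom x ∈ H ⊔ ⁅K, H⁆
        simp only [MulEquiv.coe_toMonoidHom, MulAut.conj_apply]
        exact Subgroup.mem_sup_right (commutator_conj_mem K H h (Subgroup.mem_sup_right hh) x hx)
    have := hle hd
    simpa using this
  · intro k hk d hd
    have hle : H ⊔ ⁅K, H⁆ ≤ (H ⊔ ⁅K, H⁆).comap (MulAut.conj k).toMonoidHom := by
      apply sup_le
      · intro x hx
        show (MulAut.conj k).toMonoidHom x ∈ H ⊔ ⁅K, H⁆
        simp only [MulEquiv.coe_toMonoidHom, MulAut.conj_apply]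
        have e : k * x * k⁻¹ = ⁅k, x⁆ * x := by
          simp only [commutatorElement_def]; group
        rw [e]
        exact mul_mem (Subgroup.mem_sup_right (Subgroup.commutator_mem_commutator hk hx))
          (Subgroup.mem_sup_left hx)
      · intro x hx
        show (MulAut.conj k).toMonoidHom x ∈ H ⊔ ⁅K, H⁆
        simp only [MulEquiv.coe_toMonoidHom, MulAut.conj_apply]
        exact Subgroup.mem_sup_right (commutator_conj_mem K H k (Subgroup.mem_sup_left hk) x hx)
    have := hle hd
    simpa using this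

/-- A subgroup H of a group G is subnormal exactly when, for some m, the subgroup obtained from G by taking the commutator with H m times in succession is contained in H. -/
theorem result {G : Type*} [Group G] (H : Subgroup G) : H.IsSubnormal ↔ ∃ m : ℕ, (fun K : Subgroup G => ⁅K, H⁆)^[m] ⊤ ≤ H := by
  constructor
  · intro hH
    induction hH with
    | top => exact ⟨0, le_rfl⟩
    | step H K hHK hK hn ih =>
      obtain ⟨m, hm⟩ := ih
      refine ⟨m + 1, ?_⟩
      have hmono : ∀ i : ℕ, (fun L : Subgroup G => ⁅L, H⁆)^[i] ⊤ ≤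
          (fun L : Subgroup G => ⁅L, K⁆)^[i] ⊤ := by
        intro i
        induction i with
        | zero => exact le_rfl
        | succ i ih2 =>
          rw [Function.iterate_succ_apply', Function.iterate_succ_apply']
          exact Subgroup.commutator_mono ih2 hHK
      rw [Function.iterate_succ_apply']
      have h1 : ⁅(fun L : Subgroup G => ⁅L, H⁆)^[m] ⊤, H⁆ ≤ ⁅K, H⁆ :=
        Subgroup.commutator_mono ((hmono m).trans hm) le_rfl
      refine h1.trans ?_
      rw [Subgroup.commutator_le]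
      intro k hk h hh
      have h2 := hn.conj_mem ⟨h, hHK hh⟩ (Subgroup.mem_subgroupOf.2 hh) ⟨k, hk⟩
      have h3 : k * h * k⁻¹ ∈ H := Subgroup.mem_subgroupOf.1 h2
      rw [commutatorElement_def]
      exact H.mul_mem h3 (H.inv_mem hh)
  · rintro ⟨m, hm⟩
    have hsub : ∀ i : ℕ, (H ⊔ (fun K : Subgroup G => ⁅K, H⁆)^[i] ⊤).IsSubnormal := by
      intro i
      induction i with
      | zero =>
        have : H ⊔ (fun K : Subgroup G => ⁅K, H⁆)^[0] ⊤ = ⊤ := by simp
        rw [this]
        exact Subgroup.IsSubnormal.top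
      | succ i ih =>
        rw [Function.iterate_succ_apply']
        have hle : H ⊔ ⁅(fun K : Subgroup G => ⁅K, H⁆)^[i] ⊤, H⁆ ≤
            H ⊔ (fun K : Subgroup G => ⁅K, H⁆)^[i] ⊤ := by
          apply sup_le le_sup_left
          refine (commutator_le_sup' _ _).trans ?_
          rw [sup_comm]
        refine Subgroup.IsSubnormal.step _ _ hle ih ?_
        refine ⟨fun x hx g => ?_⟩
        rw [Subgroup.mem_subgroupOf] at hx ⊢
        exact step_normal H _ g g.2 x hx
    have h1 := hsub m
    rw [sup_eq_left.2 hm] at h1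
    exact h1
end Cfsg.Agent.S0567
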