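import Cfsg.Statements.S0568
import Mathlib
import Cfsg.Agent.Lib.Helper1.HallSys3

set_option autoImplicit false
open Cfsg

namespace Cfsg.Agent.S0568

open scoped commutatorElement

/-- Let D be the system normalizer of a Hall complement system of a finite solvable group G, and let A < B be normal subgroups with no normal subgroup of G strictly between them (a chief factor). If G centralizes B modulo A then B ≤ A ⊔ D (D covers the factor); otherwise B ∩ D ≤ A (D avoids it). -/
theorem result {G : Type*} [Group G] [Finite G] [Group.IsSolvable G] (K : Nat.Primes → Subgroup G) (hK : Cfsg.IsComplementSystem K) (A B : Subgroup G) [A.Normal] [B.Normal] (hAB : A < B) (hchief : ∀ N : Subgroup G, N.Normal → A ≤ N → N ≤ B → N = A ∨ N = B) : (⁅B, (⊤ : Subgroup G)⁆ ≤ A → B ≤ A ⊔ Cfsg.systemNormalizer K) ∧ (¬ ⁅B, (⊤ : Subgroup G)⁆ ≤ A → B ⊓ Cfsg.systemNormalizer K ≤ A) := by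
  obtain ⟨f, hf⟩ : ∃ f : G →* G ⧸ A, f = QuotientGroup.mk' A := ⟨_, rfl⟩
  have hfs : Function.Surjective f := by rw [hf]; exact QuotientGroup.mk'_surjective A
  have hker : f.ker = A := by rw [hf]; exact QuotientGroup.ker_mk' A
  have hKb := Cfsg.Agent.Lib.Helper1.compl_map hK A
  have hDb := Cfsg.Agent.Lib.Helper1.sysNorm_map hK A
  rw [← hf] at hKb hDb
  have hcen : ⁅B, (⊤ : Subgroup G)⁆ ≤ A ↔ B.map f ≤ Subgroup.center (G ⧸ A) := by
    constructor
    · intro h
      rintro _ ⟨b, hb, rfl⟩
      rw [Subgroup.mem_center_iff]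
      intro gb
      obtain ⟨g, rfl⟩ := hfs gb
      have h1 : ⁅b, g⁆ ∈ A := h (Subgroup.commutator_mem_commutator hb (Subgroup.mem_top g))
      have h2 : f ⁅b, g⁆ = 1 := by rw [← MonoidHom.mem_ker, hker]; exact h1
      rw [commutatorElement_def, map_mul, map_mul, map_mul, map_inv, map_inv] at h2
      have h3 := mul_inv_eq_one.1 h2
      have h4 := mul_inv_eq_iff_eq_mul.1 h3
      exact h4.symm
    · intro h
      rw [Subgroup.commutator_le]
      intro b hb g _
      have h1 := Subgroup.mem_center_iff.1 (h (Subgroup.mem_map_of_mem f hb)) (f g)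
      rw [← hker, MonoidHom.mem_ker, commutatorElement_def, map_mul, map_mul, map_mul, map_inv,
        map_inv, ← h1]
      group
  constructor
  · intro h
    have h1 := (hcen.1 h).trans
      (Cfsg.Agent.Lib.Helper1.center_le_sysNorm (fun p => (K p).map f))
    rw [hDb] at h1
    intro b hb
    obtain ⟨d, hd, hdb⟩ := h1 (Subgroup.mem_map_of_mem f hb)
    have h2 : d⁻¹ * b ∈ A := by
      rw [← hker, MonoidHom.mem_ker, map_mul, map_inv, hdb]; exact inv_mul_cancel _
    have h3 : b = d * (d⁻¹ * b) := by group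
    rw [h3]
    exact mul_mem (Subgroup.mem_sup_right hd) (Subgroup.mem_sup_left h2)
  · intro h
    have hBb : B.map f ≠ ⊥ := by
      intro hb
      rw [Subgroup.map_eq_bot_iff, hker] at hb
      exact (not_le_of_gt hAB) hb
    haveI : (B.map f).Normal := Subgroup.Normal.map inferInstance f hfs
    have hmin : ∀ Nb : Subgroup (G ⧸ A), Nb.Normal → Nb ≤ B.map f → Nb = ⊥ ∨ Nb = B.map f := by
      intro Nb hNb hle
      have e : (Nb.comap f).map f = Nb := Subgroup.map_comap_eq_self_of_surjective hfs Nb
      have h1 : A ≤ Nb.comap f := by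
        intro a ha
        rw [Subgroup.mem_comap]
        have : f a = 1 := by rw [← MonoidHom.mem_ker, hker]; exact ha
        rw [this]
        exact Nb.one_mem
      have h2 : Nb.comap f ≤ B := by
        have := Subgroup.comap_mono (f := f) hle
        rw [Subgroup.comap_map_eq, hker, sup_of_le_left hAB.le] at this
        exact this
      rcases hchief _ (hNb.comap f) h1 h2 with h3 | h3
      · left
        rw [← e, h3, Subgroup.map_eq_bot_iff, hker]
      · right
        rw [← e, h3]
    have h1 := Cfsg.Agent.Lib.Helper1.sysNorm_avoid hKb (B.map f) hBb hmin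
      (fun hc => h (hcen.2 hc))
    rw [hDb] at h1
    intro x hx
    have h2 : f x ∈ B.map f ⊓ (Cfsg.systemNormalizer K).map f :=
      Subgroup.mem_inf.2 ⟨Subgroup.mem_map_of_mem f (Subgroup.mem_inf.1 hx).1,
        Subgroup.mem_map_of_mem f (Subgroup.mem_inf.1 hx).2⟩
    rw [h1, Subgroup.mem_bot] at h2
    rw [← hker, MonoidHom.mem_ker]
    exact h2
end Cfsg.Agent.S0568
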