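import Cfsg.Statements.S0572
import Mathlib
import Cfsg.Agent.Lib.Helper1.Basic

set_option autoImplicit false
open Cfsg

namespace Cfsg.Agent.S0572

theorem conjA {G : Type*} [Group G] (a a1 a2 b b2 : G) (h1 : a1 * a = a * a1) (h2 : a2 * a = a * a2)
    (e : a1 * b * a1⁻¹ = b2 * a2) :
    a1 * (a * b * a⁻¹ * b⁻¹) * a1⁻¹ = a * b2 * a⁻¹ * b2⁻¹ := by
  have e1 : a1 * (a * b * a⁻¹ * b⁻¹) * a1⁻¹ =
      (a1 * a * a1⁻¹) * (a1 * b * a1⁻¹) * (a1 * a * a1⁻¹)⁻¹ * (a1 * b * a1⁻¹)⁻¹ := by group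
  have e2 : a1 * a * a1⁻¹ = a := by rw [h1]; group
  have e3 : a2 * a⁻¹ * a2⁻¹ = a⁻¹ := by
    have : a2 * a⁻¹ = a⁻¹ * a2 := by
      have h3 : a⁻¹ * (a2 * a) * a⁻¹ = a⁻¹ * (a * a2) * a⁻¹ := by rw [h2]
      have h4 : a⁻¹ * (a2 * a) * a⁻¹ = a⁻¹ * a2 := by group
      have h5 : a⁻¹ * (a * a2) * a⁻¹ = a2 * a⁻¹ := by group
      rw [← h5, ← h3, h4]
    rw [this]; group
  rw [e1, e2, e]
  calc a * (b2 * a2) * a⁻¹ * (b2 * a2)⁻¹ = a * b2 * (a2 * a⁻¹ * a2⁻¹) * b2⁻¹ := by group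
    _ = a * b2 * a⁻¹ * b2⁻¹ := by rw [e3]

theorem conjB {G : Type*} [Group G] (a a3 b b1 b3 : G) (h1 : b1 * b = b * b1) (h2 : b3 * b = b * b3)
    (e : b1 * a * b1⁻¹ = a3 * b3) :
    b1 * (a * b * a⁻¹ * b⁻¹) * b1⁻¹ = a3 * b * a3⁻¹ * b⁻¹ := by
  have e1 : b1 * (a * b * a⁻¹ * b⁻¹) * b1⁻¹ =
      (b1 * a * b1⁻¹) * (b1 * b * b1⁻¹) * (b1 * a * b1⁻¹)⁻¹ * (b1 * b * b1⁻¹)⁻¹ := by group
  have e2 : b1 * b * b1⁻¹ = b := by rw [h1]; group
  have e3 : b3 * b * b3⁻¹ = b := by rw [h2]; group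
  rw [e1, e2, e]
  calc a3 * b3 * b * (a3 * b3)⁻¹ * b⁻¹ = a3 * (b3 * b * b3⁻¹) * a3⁻¹ * b⁻¹ := by group
    _ = a3 * b * a3⁻¹ * b⁻¹ := by rw [e3]

/-- Itô's Theorem: if a group G is the product AB of two abelian subgroups, then the commutator subgroup of G is abelian, i.e. the second term of the derived series is trivial. -/
theorem result {G : Type*} [Group G] (A B : Subgroup G) [IsMulCommutative A] [IsMulCommutative B] (hAB : ∀ g : G, ∃ a ∈ A, ∃ b ∈ B, g = a * b) : derivedSeries G 2 = ⊥ := by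
  have hBA : ∀ g : G, ∃ b ∈ B, ∃ a ∈ A, g = b * a := by
    intro g
    obtain ⟨a, ha, b, hb, e⟩ := hAB g⁻¹
    exact ⟨b⁻¹, B.inv_mem hb, a⁻¹, A.inv_mem ha, by rw [← mul_inv_rev, ← e, inv_inv]⟩
  have cA : ∀ x ∈ A, ∀ y ∈ A, x * y = y * x :=
    fun x hx y hy => Lib.Helper1.comm_of_isMulCommutative hx hy
  have cB : ∀ x ∈ B, ∀ y ∈ B, x * y = y * x :=
    fun x hx y hy => Lib.Helper1.comm_of_isMulCommutative hx hy
  let S : Set G := {c | ∃ a ∈ A, ∃ b ∈ B, c = a * b * a⁻¹ * b⁻¹}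
  have hSA : ∀ a1 ∈ A, ∀ c ∈ S, a1 * c * a1⁻¹ ∈ S := by
    rintro a1 ha1 c ⟨a, ha, b, hb, rfl⟩
    obtain ⟨b2, hb2, a2, ha2, e⟩ := hBA (a1 * b * a1⁻¹)
    exact ⟨a, ha, b2, hb2, conjA a a1 a2 b b2 (cA a1 ha1 a ha) (cA a2 ha2 a ha) e⟩
  have hSB : ∀ b1 ∈ B, ∀ c ∈ S, b1 * c * b1⁻¹ ∈ S := by
    rintro b1 hb1 c ⟨a, ha, b, hb, rfl⟩
    obtain ⟨a3, ha3, b3, hb3, e⟩ := hAB (b1 * a * b1⁻¹)
    exact ⟨a3, ha3, b, hb, conjB a a3 b b1 b3 (cB b1 hb1 b hb) (cB b3 hb3 b hb) e⟩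
  have hcomm : ∀ c ∈ S, ∀ d ∈ S, c * d = d * c := by
    rintro c ⟨a, ha, b, hb, rfl⟩ d ⟨a1', ha1', b1', hb1', rfl⟩
    have ha1 : a1'⁻¹ ∈ A := A.inv_mem ha1'
    have hb1 : b1'⁻¹ ∈ B := B.inv_mem hb1'
    obtain ⟨b2, hb2, a2, ha2, e⟩ := hBA (a1'⁻¹ * b * a1'⁻¹⁻¹)
    obtain ⟨a3, ha3, b3, hb3, e'⟩ := hAB (b1'⁻¹ * a * b1'⁻¹⁻¹)
    have E1 : b1'⁻¹ * (a1'⁻¹ * (a * b * a⁻¹ * b⁻¹) * a1'⁻¹⁻¹) * b1'⁻¹⁻¹ = a3 * b2 * a3⁻¹ * b2⁻¹ := by
      rw [conjA a a1'⁻¹ a2 b b2 (cA _ ha1 a ha) (cA a2 ha2 a ha) e]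
      exact conjB a a3 b2 b1'⁻¹ b3 (cB _ hb1 b2 hb2) (cB b3 hb3 b2 hb2) e'
    have E2 : a1'⁻¹ * (b1'⁻¹ * (a * b * a⁻¹ * b⁻¹) * b1'⁻¹⁻¹) * a1'⁻¹⁻¹ = a3 * b2 * a3⁻¹ * b2⁻¹ := by
      rw [conjB a a3 b b1'⁻¹ b3 (cB _ hb1 b hb) (cB b3 hb3 b hb) e']
      exact conjA a3 a1'⁻¹ a2 b b2 (cA _ ha1 a3 ha3) (cA a2 ha2 a3 ha3) e
    have E3 := E1.trans E2.symm
    simp only [inv_inv] at E3
    generalize a * b * a⁻¹ * b⁻¹ = c at E3 ⊢
    calc c * (a1' * b1' * a1'⁻¹ * b1'⁻¹)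
        = (a1' * b1') * (b1'⁻¹ * (a1'⁻¹ * c * a1') * b1') * (a1'⁻¹ * b1'⁻¹) := by group
      _ = (a1' * b1') * (a1'⁻¹ * (b1'⁻¹ * c * b1') * a1') * (a1'⁻¹ * b1'⁻¹) := by rw [E3]
      _ = a1' * b1' * a1'⁻¹ * b1'⁻¹ * c := by group
  have hCA : ∀ a ∈ A, ∀ x ∈ Subgroup.closure S, a * x * a⁻¹ ∈ Subgroup.closure S := by
    intro a ha
    have hle : Subgroup.closure S ≤ (Subgroup.closure S).comap (MulAut.conj a).toMonoidHom := by
      rw [Subgroup.closure_le]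
      intro s hs
      show (MulAut.conj a).toMonoidHom s ∈ Subgroup.closure S
      simp only [MulEquiv.coe_toMonoidHom, MulAut.conj_apply]
      exact Subgroup.subset_closure (hSA a ha s hs)
    intro x hx
    have := hle hx
    simpa using this
  have hCB : ∀ b ∈ B, ∀ x ∈ Subgroup.closure S, b * x * b⁻¹ ∈ Subgroup.closure S := by
    intro b hb
    have hle : Subgroup.closure S ≤ (Subgroup.closure S).comap (MulAut.conj b).toMonoidHom := by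
      rw [Subgroup.closure_le]
      intro s hs
      show (MulAut.conj b).toMonoidHom s ∈ Subgroup.closure S
      simp only [MulEquiv.coe_toMonoidHom, MulAut.conj_apply]
      exact Subgroup.subset_closure (hSB b hb s hs)
    intro x hx
    have := hle hx
    simpa using this
  haveI hCn : (Subgroup.closure S).Normal := by
    refine ⟨fun x hx g => ?_⟩
    obtain ⟨a, ha, b, hb, rfl⟩ := hAB g
    have h1 := hCA a ha _ (hCB b hb x hx)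
    have e : a * b * x * (a * b)⁻¹ = a * (b * x * b⁻¹) * a⁻¹ := by group
    rw [e]; exact h1
  have hCab : ⁅Subgroup.closure S, Subgroup.closure S⁆ = ⊥ := by
    rw [Subgroup.commutator_eq_bot_iff_le_centralizer]
    have h1 : Subgroup.closure S ≤ Subgroup.centralizer S := by
      rw [Subgroup.closure_le]
      intro s hs
      rw [SetLike.mem_coe, Subgroup.mem_centralizer_iff]
      intro t ht
      exact hcomm t ht s hs
    exact (Subgroup.closure_le_centralizer_centralizer S).trans (Subgroup.centralizer_le h1)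
  -- the quotient is abelian
  have hq : ∀ a ∈ A, ∀ b ∈ B, ((a : G) : G ⧸ Subgroup.closure S) * (b : G) = (b : G) * (a : G) := by
    intro a ha b hb
    rw [← QuotientGroup.mk_mul, ← QuotientGroup.mk_mul, QuotientGroup.eq]
    have e : (a * b)⁻¹ * (b * a) = (a⁻¹ * b⁻¹ * a⁻¹⁻¹ * b⁻¹⁻¹)⁻¹ := by group
    rw [e]
    exact inv_mem (Subgroup.subset_closure ⟨a⁻¹, A.inv_mem ha, b⁻¹, B.inv_mem hb, rfl⟩)
  have hqc : ∀ g h : G, ((g : G) : G ⧸ Subgroup.closure S) * (h : G) = (h : G) * (g : G) := by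
    intro g h
    obtain ⟨a, ha, b, hb, rfl⟩ := hAB g
    obtain ⟨a', ha', b', hb', rfl⟩ := hAB h
    have c1 : Commute ((a : G) : G ⧸ Subgroup.closure S) (a' : G) := by
      show ((a : G) : G ⧸ Subgroup.closure S) * (a' : G) = (a' : G) * (a : G)
      rw [← QuotientGroup.mk_mul, ← QuotientGroup.mk_mul, cA a ha a' ha']
    have c2 : Commute ((b : G) : G ⧸ Subgroup.closure S) (b' : G) := by
      show ((b : G) : G ⧸ Subgroup.closure S) * (b' : G) = (b' : G) * (b : G)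
      rw [← QuotientGroup.mk_mul, ← QuotientGroup.mk_mul, cB b hb b' hb']
    have c3 : Commute ((a : G) : G ⧸ Subgroup.closure S) (b' : G) := hq a ha b' hb'
    have c4 : Commute ((b : G) : G ⧸ Subgroup.closure S) (a' : G) := (hq a' ha' b hb).symm
    rw [QuotientGroup.mk_mul, QuotientGroup.mk_mul]
    exact ((c1.mul_right c3).mul_left (c4.mul_right c2)).eq
  have hder : commutator G ≤ Subgroup.closure S := by
    rw [commutator_def, Subgroup.commutator_le]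
    intro g _ h _
    rw [← QuotientGroup.eq_one_iff, commutatorElement_def]
    simp only [QuotientGroup.mk_mul, QuotientGroup.mk_inv]
    rw [hqc g h]
    group
  rw [show (2 : ℕ) = 1 + 1 from rfl, derivedSeries_succ, derivedSeries_one, eq_bot_iff, ← hCab]
  exact Subgroup.commutator_mono hder hder
end Cfsg.Agent.S0572
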