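import Cfsg.Statements.S0575
import Mathlib

set_option autoImplicit false
open Cfsg

namespace Cfsg.Agent.S0575

/-- If H is a normal subgroup of a finite group G, then the Frattini subgroup of H, viewed in G, lies in the Frattini subgroup of G. -/
theorem result {G : Type*} [Group G] [Finite G] (H : Subgroup G) [H.Normal] : (frattini ↥H).map H.subtype ≤ frattini G := by
  haveI : (frattini ↥H).Characteristic := frattini_characteristic
  haveI hFn : ((frattini ↥H).map H.subtype).Normal := inferInstance
  unfold frattini
  rw [Order.radical]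
  apply le_iInf
  intro M
  apply le_iInf
  intro hM
  by_contra hcon
  have htop : (frattini ↥H).map H.subtype ⊔ M = ⊤ := by
    apply hM.2
    apply lt_of_le_of_ne le_sup_right
    intro h
    apply hcon
    rw [h]
    exact le_sup_left
  have h1 : (M.subgroupOf H) ⊔ frattini ↥H = ⊤ := by
    rw [eq_top_iff]
    intro x _
    have hx : (x : G) ∈ (frattini ↥H).map H.subtype ⊔ M := by rw [htop]; trivial
    rw [← SetLike.mem_coe, Subgroup.normal_mul] at hx
    obtain ⟨f, hf, m, hm, e⟩ := hx
    obtain ⟨f', hf', rfl⟩ := hf
    have e : (H.subtype f') * m = (x : G) := e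
    have hmH : m ∈ H := by
      have h2 : m = (H.subtype f')⁻¹ * (x : G) := by rw [← e]; group
      rw [h2]
      exact H.mul_mem (H.inv_mem f'.2) x.2
    have h3 : x = f' * ⟨m, hmH⟩ := by
      apply Subtype.ext
      rw [← e]
      rfl
    rw [h3]
    exact mul_mem (Subgroup.mem_sup_right hf') (Subgroup.mem_sup_left (Subgroup.mem_subgroupOf.2 hm))
  have h2 := frattini_nongenerating h1
  apply hcon
  intro y hy
  obtain ⟨y', _, rfl⟩ := hy
  have h3 : y' ∈ M.subgroupOf H := by rw [h2]; trivial
  exact Subgroup.mem_subgroupOf.1 h3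
end Cfsg.Agent.S0575
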