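import Cfsg.Statements.S0576
import Mathlib


set_option autoImplicit false
open Cfsg

namespace Cfsg.Agent.S0576

theorem inn_normal {H : Type*} [Group H] : ((MulAut.conj : H →* MulAut H).range).Normal := by
  constructor
  rintro _ ⟨h, rfl⟩ φ
  refine ⟨φ h, ?_⟩
  ext x
  simp [MulAut.conj_apply]

/-- Let H be a normal subgroup of a finite group G with H contained in the Frattini subgroup of G. Then the group of inner automorphisms of H is contained in the Frattini subgroup of the automorphism group of H. -/
theorem result {G : Type*} [Group G] [Finite G] (H : Subgroup G) [H.Normal] (hH : H ≤ frattini G) : (MulAut.conj : ↥H →* MulAut ↥H).range ≤ frattini (MulAut ↥H) := by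
  unfold frattini Order.radical
  refine le_iInf fun M => le_iInf fun hM => ?_
  by_contra hnot
  haveI hInn : ((MulAut.conj : ↥H →* MulAut ↥H).range).Normal := inn_normal
  have hsup : M ⊔ (MulAut.conj : ↥H →* MulAut ↥H).range = ⊤ :=
    hM.2 _ (lt_of_le_of_ne le_sup_left (fun h => hnot (h ▸ le_sup_right)))
  have hL : M.comap (MulAut.conjNormal (H := H)) ⊔ frattini G = ⊤ := by
    rw [eq_top_iff]
    intro g _
    have h1 : MulAut.conjNormal (H := H) g ∈ M ⊔ (MulAut.conj : ↥H →* MulAut ↥H).range := by
      rw [hsup]; trivial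
    obtain ⟨m, hm, c, ⟨h, rfl⟩, e⟩ := Subgroup.mem_sup_of_normal_right.1 h1
    have h2 : g * (h : G)⁻¹ ∈ M.comap (MulAut.conjNormal (H := H)) := by
      show MulAut.conjNormal (H := H) (g * (h : G)⁻¹) ∈ M
      rw [map_mul, map_inv, MulAut.conjNormal_val, ← e, mul_inv_cancel_right]
      exact hm
    have h3 : g = (g * (h : G)⁻¹) * h := by group
    rw [h3]
    exact Subgroup.mul_mem _ (Subgroup.mem_sup_left h2) (Subgroup.mem_sup_right (hH h.2))
  have hLtop := frattini_nongenerating hL
  apply hnot
  rintro _ ⟨h, rfl⟩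
  have h4 : (h : G) ∈ M.comap (MulAut.conjNormal (H := H)) := by rw [hLtop]; trivial
  have h5 : MulAut.conjNormal (H := H) (h : G) ∈ M := h4
  rwa [MulAut.conjNormal_val] at h5
end Cfsg.Agent.S0576
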