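import Cfsg.Statements.S0577
import Mathlib
import Cfsg.Agent.Lib.Helper1.SchmidtStr
import Cfsg.Agent.Lib.Helper1.SchmidtStr2
import Cfsg.Agent.Lib.Helper1.MinNormal

set_option autoImplicit false
open Cfsg

namespace Cfsg.Agent.S0577

/-- Let G be a finite minimal non-nilpotent group and Q a normal Sylow q-subgroup of G, and let D be the commutator subgroup of Q regarded in G (a normal subgroup). Then G modulo D is non-abelian and all its proper subgroups are abelian. -/
theorem result {G : Type*} [Group G] [Finite G] (hG : Cfsg.IsMinimalNonNilpotent G) (q : ℕ) [Fact q.Prime] (hq : q ∣ Nat.card G) (Q : Sylow q G) (hQ : (Q : Subgroup G).Normal) (D : Subgroup G) [D.Normal] (hD : D = (commutator ↥(Q : Subgroup G)).map (Q : Subgroup G).subtype) : ¬ IsMulCommutative (G ⧸ D) ∧ ∀ K : Subgroup (G ⧸ D), K ≠ ⊤ → IsMulCommutative K := by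
  classical
  obtain ⟨p0, q0, hp0, hq0, hne, P0, Q0, hcyc, hQ0n, hsup, hPn⟩ :=
    Cfsg.Agent.Lib.Helper1.schmidt_structure hG
  haveI : Fact p0.Prime := ⟨hp0⟩
  haveI : Fact q0.Prime := ⟨hq0⟩
  have hqpr : q.Prime := Fact.out
  have hdisj : (P0 : Subgroup G) ⊓ Q0 = ⊥ :=
    disjoint_iff.1 (IsPGroup.disjoint_of_ne p0 q0 hne _ _ P0.2 Q0.2)
  haveI := hQ0n
  have hcardG : Nat.card G = Nat.card (P0 : Subgroup G) * Nat.card (Q0 : Subgroup G) := by
    rw [← Cfsg.Agent.Lib.Helper1.card_sup_of_disjoint _ _ hdisj, hsup, Subgroup.card_top]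
  have hq0q : q = q0 := by
    obtain ⟨k1, hk1⟩ := IsPGroup.iff_card.1 P0.2
    obtain ⟨k2, hk2⟩ := IsPGroup.iff_card.1 Q0.2
    rw [hcardG, hk1, hk2] at hq
    rcases (Nat.Prime.dvd_mul hqpr).1 hq with h | h
    · exfalso
      have : q = p0 := (Nat.prime_dvd_prime_iff_eq hqpr hp0).1 (hqpr.dvd_of_dvd_pow h)
      subst this
      haveI := hQ
      exact hPn (Cfsg.Agent.Lib.Helper1.sylow_normal_of_normal_pgroup (Q : Subgroup G) Q.2
        Q.not_dvd_index P0)
    · exact (Nat.prime_dvd_prime_iff_eq hqpr hq0).1 (hqpr.dvd_of_dvd_pow h)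
  subst hq0q
  have hsup' : (P0 : Subgroup G) ⊔ Q = ⊤ := by
    rw [eq_top_iff, ← hsup]
    exact sup_le le_sup_left
      ((Cfsg.Agent.Lib.Helper1.pgroup_le_normal_sylow Q hQ _ Q0.2).trans le_sup_right)
  constructor
  · intro hc
    apply Cfsg.Agent.Lib.Helper1.schmidt_not_comm p0 q P0 Q hsup' hPn
    rw [← hD]
    apply Cfsg.Agent.Lib.Helper1.commutator_le_of_quotient_comm
    intro a b
    exact mul_comm' a b
  · intro K hK
    have hK' : K.comap (QuotientGroup.mk' D) ≠ ⊤ := by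
      intro h
      apply hK
      rw [← Subgroup.map_comap_eq_self_of_surjective (QuotientGroup.mk'_surjective D) K, h]
      exact Subgroup.map_top_of_surjective _ (QuotientGroup.mk'_surjective D)
    have key := Cfsg.Agent.Lib.Helper1.schmidt_proper_comm hG p0 q hne P0 Q hcyc hQ hsup' _ hK'
    refine ⟨⟨?_⟩⟩
    rintro ⟨a, ha⟩ ⟨b, hb⟩
    apply Subtype.ext
    obtain ⟨a', rfl⟩ := QuotientGroup.mk'_surjective D a
    obtain ⟨b', rfl⟩ := QuotientGroup.mk'_surjective D b
    have h1 := key a' ha b' hb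
    rw [← hD] at h1
    have h2 : QuotientGroup.mk' D (a' * b' * a'⁻¹ * b'⁻¹) = 1 := (QuotientGroup.eq_one_iff _).2 h1
    rw [map_mul, map_mul, map_mul, map_inv, map_inv] at h2
    show QuotientGroup.mk' D a' * QuotientGroup.mk' D b' =
      QuotientGroup.mk' D b' * QuotientGroup.mk' D a'
    have h3 := mul_inv_eq_one.1 h2
    exact mul_inv_eq_iff_eq_mul.1 h3
end Cfsg.Agent.S0577
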