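import Cfsg.Statements.S0578
import Mathlib

set_option autoImplicit false
open Cfsg

namespace Cfsg.Agent.S0578

open scoped commutatorElement

theorem z2 {G : Type*} [Group G]
    (h : ∀ A : Subgroup G, IsMulCommutative A →
      Subgroup.normalizer (A : Set G) = Subgroup.centralizer (A : Set G))
    (x : G) (hx : ∀ g : G, x * g * x⁻¹ * g⁻¹ ∈ Subgroup.center G) : x ∈ Subgroup.center G := by
  let S : Set G := (Subgroup.center G : Set G) ∪ {x}
  have hcomm : ∀ s ∈ S, ∀ t ∈ S, s * t = t * s := by
    rintro s (hs | hs) t (ht | ht)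
    · exact (Subgroup.mem_center_iff.1 hs t).symm
    · exact (Subgroup.mem_center_iff.1 hs t).symm
    · exact Subgroup.mem_center_iff.1 ht s
    · rw [Set.mem_singleton_iff] at hs ht
      rw [hs, ht]
  have hAc : Subgroup.closure S ≤ Subgroup.centralizer (Subgroup.closure S : Set G) := by
    have h1 : Subgroup.closure S ≤ Subgroup.centralizer S := by
      rw [Subgroup.closure_le]
      intro s hs
      rw [SetLike.mem_coe, Subgroup.mem_centralizer_iff]
      intro t ht
      exact hcomm t ht s hs
    exact (Subgroup.closure_le_centralizer_centralizer S).trans (Subgroup.centralizer_le h1)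
  haveI : IsMulCommutative (Subgroup.closure S) :=
    ⟨⟨fun a b => Subtype.ext ((Subgroup.mem_centralizer_iff.1 (hAc b.2) a a.2))⟩⟩
  have hN : Subgroup.normalizer (Subgroup.closure S : Set G) = ⊤ := by
    rw [Subgroup.normalizer_eq_top_iff]
    refine ⟨fun y hy g => ?_⟩
    have hle : Subgroup.closure S ≤ (Subgroup.closure S).comap (MulAut.conj g).toMonoidHom := by
      rw [Subgroup.closure_le]
      rintro s (hs | hs)
      · show (MulAut.conj g).toMonoidHom s ∈ Subgroup.closure S
        simp only [MulEquiv.coe_toMonoidHom, MulAut.conj_apply]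
        have e : g * s * g⁻¹ = s := by
          rw [Subgroup.mem_center_iff.1 hs g]; group
        rw [e]
        exact Subgroup.subset_closure (Or.inl hs)
      · rw [Set.mem_singleton_iff] at hs
        subst hs
        show (MulAut.conj g).toMonoidHom s ∈ Subgroup.closure S
        simp only [MulEquiv.coe_toMonoidHom, MulAut.conj_apply]
        have e : g * s * g⁻¹ = (s * g * s⁻¹ * g⁻¹)⁻¹ * s := by group
        rw [e]
        exact mul_mem (inv_mem (Subgroup.subset_closure (Or.inl (hx g))))
          (Subgroup.subset_closure (Or.inr rfl))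
    have := hle hy
    simpa using this
  rw [h _ inferInstance] at hN
  rw [Subgroup.mem_center_iff]
  intro g
  have hg : g ∈ Subgroup.centralizer (Subgroup.closure S : Set G) := by rw [hN]; trivial
  exact (Subgroup.mem_centralizer_iff.1 hg x (Subgroup.subset_closure (Or.inr rfl))).symm

theorem comm_of_nilpotent {G : Type*} [Group G] [Group.IsNilpotent G]
    (h : ∀ A : Subgroup G, IsMulCommutative A →
      Subgroup.normalizer (A : Set G) = Subgroup.centralizer (A : Set G)) :
    ∀ a b : G, a * b = b * a := by
  have hstep : ∀ n : ℕ, Subgroup.upperCentralSeries G (n + 1) ≤ Subgroup.center G := by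
    intro n
    induction n with
    | zero => rw [zero_add, Subgroup.upperCentralSeries_one]
    | succ n ih =>
      intro x hx
      rw [Subgroup.mem_upperCentralSeries_succ_iff] at hx
      exact z2 h x (fun g => ih (hx g))
  obtain ⟨c, hc⟩ := Group.IsNilpotent.nilpotent G
  have htop : Subgroup.center G = ⊤ := by
    rw [eq_top_iff, ← hc]
    cases c with
    | zero => rw [Subgroup.upperCentralSeries_zero]; exact bot_le
    | succ c => exact hstep c
  intro a b
  have hb : b ∈ Subgroup.center G := by rw [htop]; trivial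
  exact (Subgroup.mem_center_iff.1 hb a)

theorem hyp_subgroup {G : Type*} [Group G]
    (h : ∀ A : Subgroup G, IsMulCommutative A →
      Subgroup.normalizer (A : Set G) = Subgroup.centralizer (A : Set G)) (P : Subgroup G) :
    ∀ A : Subgroup P, IsMulCommutative A →
      Subgroup.normalizer (A : Set P) = Subgroup.centralizer (A : Set P) := by
  intro A hA
  apply le_antisymm _ (Subgroup.centralizer_le_normalizer _)
  intro x hx
  haveI : IsMulCommutative (A.map P.subtype) := ⟨⟨by
    rintro ⟨_, a, ha, rfl⟩ ⟨_, b, hb, rfl⟩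
    apply Subtype.ext
    have h2 := mul_comm' (⟨a, ha⟩ : A) ⟨b, hb⟩
    exact congrArg (fun t : A => ((t : P) : G)) h2⟩⟩
  have h1 := h (A.map P.subtype) inferInstance
  have hxN : (x : G) ∈ Subgroup.normalizer ((A.map P.subtype : Subgroup G) : Set G) := by
    rw [Subgroup.mem_normalizer_iff] at hx ⊢
    intro g
    constructor
    · rintro ⟨a, ha, rfl⟩
      exact ⟨x * a * x⁻¹, (hx a).1 ha, rfl⟩
    · rintro ⟨a, ha, e⟩
      have e' : (a : G) = (x : G) * g * (x : G)⁻¹ := e
      have hg : g = P.subtype (x⁻¹ * a * x) := by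
        show g = (x : G)⁻¹ * (a : G) * (x : G)
        rw [e']; group
      rw [hg]
      refine ⟨x⁻¹ * a * x, (hx _).2 ?_, rfl⟩
      have e3 : x * (x⁻¹ * a * x) * x⁻¹ = a := by group
      rw [e3]; exact ha
  rw [h1] at hxN
  rw [Subgroup.mem_centralizer_iff] at hxN ⊢
  intro a ha
  apply Subtype.ext
  exact hxN a ⟨a, ha, rfl⟩

/-- If in a finite group the normalizer of each abelian subgroup coincides with its centralizer, then the group is abelian. -/
theorem result {G : Type*} [Group G] [Finite G] (h : ∀ A : Subgroup G, IsMulCommutative A → Subgroup.normalizer (A : Set G) = Subgroup.centralizer (A : Set G)) : IsMulCommutative G := by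
  classical
  have hsyl : ∀ (p : ℕ) [Fact p.Prime] (P : Sylow p G), ∀ a ∈ (P : Subgroup G),
      ∀ b ∈ (P : Subgroup G), a * b = b * a := by
    intro p _ P a ha b hb
    haveI : Group.IsNilpotent (P : Subgroup G) := P.isPGroup'.isNilpotent
    have h1 := comm_of_nilpotent (hyp_subgroup h (P : Subgroup G)) ⟨a, ha⟩ ⟨b, hb⟩
    exact congrArg Subtype.val h1
  have hcomm : commutator G = ⊥ := by
    rw [eq_bot_iff]
    intro g hg
    rw [Subgroup.mem_bot]
    by_contra hg1
    have hord : orderOf g ≠ 1 := by rwa [Ne, orderOf_eq_one_iff]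
    obtain ⟨p, hp, hpd⟩ := Nat.exists_prime_and_dvd hord
    haveI : Fact p.Prime := ⟨hp⟩
    obtain ⟨P⟩ : Nonempty (Sylow p G) := inferInstance
    haveI : IsMulCommutative (P : Subgroup G) :=
      ⟨⟨fun a b => Subtype.ext (hsyl p P a a.2 b b.2)⟩⟩
    have hP : Subgroup.normalizer ((P : Subgroup G) : Set G) ≤
        Subgroup.centralizer ((P : Subgroup G) : Set G) := (h (P : Subgroup G) inferInstance).le
    have hker : g ∈ (MonoidHom.transferSylow P hP).ker := by
      have hle : commutator G ≤ (MonoidHom.transferSylow P hP).ker := by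
        rw [commutator_def, Subgroup.commutator_le]
        intro a _ b _
        rw [MonoidHom.mem_ker, commutatorElement_def, map_mul, map_mul, map_mul, map_inv, map_inv]
        have h2 := mul_comm' (MonoidHom.transferSylow P hP a) (MonoidHom.transferSylow P hP b)
        rw [h2]; group
      exact hle hg
    have h1 : orderOf g ∣ Nat.card (MonoidHom.transferSylow P hP).ker := by
      have h3 := orderOf_dvd_natCard (⟨g, hker⟩ : (MonoidHom.transferSylow P hP).ker)
      rwa [Subgroup.orderOf_mk] at h3
    exact MonoidHom.not_dvd_card_ker_transferSylow P hP (dvd_trans hpd h1)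
  refine ⟨⟨fun a b => ?_⟩⟩
  have h1 : ⁅a, b⁆ ∈ commutator G := by
    rw [commutator_def]
    exact Subgroup.commutator_mem_commutator (Subgroup.mem_top a) (Subgroup.mem_top b)
  rw [hcomm, Subgroup.mem_bot, commutatorElement_def] at h1
  calc a * b = (a * b * a⁻¹ * b⁻¹) * (b * a) := by group
    _ = b * a := by rw [h1, one_mul]
end Cfsg.Agent.S0578
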