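import Cfsg.Statements.S0581
import Mathlib
import Cfsg.Agent.Lib.Lead.Hall
import Cfsg.Agent.Lib.Helper6.SylowSub
import Cfsg.Agent.Lib.Helper1.Basic
import Cfsg.Agent.Lib.Helper1.HallSys
import Cfsg.Agent.Lib.Helper1.HallSys2
import Cfsg.Agent.Lib.Helper1.Subn
import Cfsg.Agent.Lib.Helper1.SchmidtStr

set_option autoImplicit false
open Pointwise
open Cfsg

namespace Cfsg.Agent.S0581

universe u

open Cfsg.Agent.Lib.Helper1

theorem nilp_of_le {G : Type*} [Group G] {A B : Subgroup G} (hB : Group.IsNilpotent B)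
    (h : A ≤ B) : Group.IsNilpotent A := by
  haveI := hB
  exact Group.nilpotent_of_mulEquiv (Subgroup.subgroupOfEquivOfLe h)

theorem nilp_conj {G : Type*} [Group G] {H : Subgroup G} (hH : Group.IsNilpotent H) (g : G) :
    Group.IsNilpotent (MulAut.conj g • H : Subgroup G) := by
  haveI := hH
  exact Group.nilpotent_of_mulEquiv (Subgroup.equivSMul (MulAut.conj g) H)

theorem nilp_subgroupOf {G : Type*} [Group G] {H : Subgroup G} (hH : Group.IsNilpotent H)
    (N : Subgroup G) : Group.IsNilpotent (H.subgroupOf N) := by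
  have h1 : Group.IsNilpotent (H ⊓ N : Subgroup G) := nilp_of_le hH inf_le_left
  haveI := h1
  have e : (H ⊓ N).subgroupOf N ≃* (H ⊓ N : Subgroup G) := Subgroup.subgroupOfEquivOfLe inf_le_right
  have h2 : Group.IsNilpotent ((H ⊓ N).subgroupOf N) := Group.nilpotent_of_mulEquiv e.symm
  rw [Subgroup.inf_subgroupOf_right] at h2
  exact h2

theorem nilp_map {G G' : Type*} [Group G] [Group G'] {H : Subgroup G} (hH : Group.IsNilpotent H)
    (f : G →* G') : Group.IsNilpotent (H.map f) := by
  haveI := hH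
  exact Group.nilpotent_of_surjective (f.subgroupMap H) (f.subgroupMap_surjective H)

theorem dvd_card_of_pgroup_ne_bot {G : Type*} [Group G] [Finite G] {q : ℕ} [Fact q.Prime]
    {Q : Subgroup G} (hQ : IsPGroup q Q) (hne : Q ≠ ⊥) : q ∣ Nat.card Q := by
  obtain ⟨j, hj⟩ := IsPGroup.iff_card.1 hQ
  rcases Nat.eq_zero_or_pos j with h0 | h0
  · exfalso
    rw [h0, pow_zero, Subgroup.card_eq_one] at hj
    exact hne hj
  · rw [hj]; exact dvd_pow_self q h0.ne'

theorem quot_step {X : Type u} [Group X] [Finite X]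
    (ih : ∀ m < Nat.card X, ∀ (Y : Type u) [Group Y] [Finite Y], Nat.card Y = m →
      ∀ H K : Subgroup Y, Group.IsNilpotent H → (Nat.card H).Coprime H.index →
      (∀ p : ℕ, p.Prime → p ∣ Nat.card K → p ∣ Nat.card H) → ∃ x : Y, K ≤ MulAut.conj x • H)
    (q : ℕ) [Fact q.Prime] (H K D : Subgroup X) [D.Normal] (hDne : D ≠ ⊥) (hDH : D ≤ H)
    (hDK : D ≤ K) (hDq : IsPGroup q D) (hDsyl : ¬ q ∣ D.relIndex K)
    (hH : Group.IsNilpotent H) (hHall : (Nat.card H).Coprime H.index)
    (hK : ∀ p : ℕ, p.Prime → p ∣ Nat.card K → p ∣ Nat.card H) :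
    ∃ x : X, K ≤ MulAut.conj x • H := by
  have hq : q.Prime := Fact.out
  have hcardlt : Nat.card (X ⧸ D) < Nat.card X := card_quotient_lt_of_ne_bot D hDne
  have hcH : Nat.card (H.map (QuotientGroup.mk' D)) * Nat.card D = Nat.card H := by
    have := Cfsg.Agent.Lib.Lead.card_comap_mk' D (H.map (QuotientGroup.mk' D))
    rw [Subgroup.comap_map_eq, QuotientGroup.ker_mk', sup_of_le_left hDH] at this
    exact this.symm
  have hcK : Nat.card (K.map (QuotientGroup.mk' D)) * Nat.card D = Nat.card K := by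
    have := Cfsg.Agent.Lib.Lead.card_comap_mk' D (K.map (QuotientGroup.mk' D))
    rw [Subgroup.comap_map_eq, QuotientGroup.ker_mk', sup_of_le_left hDK] at this
    exact this.symm
  have hHall' : (Nat.card (H.map (QuotientGroup.mk' D))).Coprime
      (H.map (QuotientGroup.mk' D)).index :=
    Nat.Coprime.coprime_dvd_left (Subgroup.card_map_dvd H _)
      (Nat.Coprime.coprime_dvd_right (Subgroup.index_map_dvd H (QuotientGroup.mk'_surjective D))
        hHall)
  have hK' : ∀ p : ℕ, p.Prime → p ∣ Nat.card (K.map (QuotientGroup.mk' D)) →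
      p ∣ Nat.card (H.map (QuotientGroup.mk' D)) := by
    intro r hr hrd
    have hrq : r ≠ q := by
      intro hrq
      rw [hrq] at hrd
      apply hDsyl
      have e : Nat.card D * D.relIndex K = Nat.card K :=
        Cfsg.Agent.Lib.Helper6.card_mul_relIndex_of_le hDK
      have e2 : D.relIndex K = Nat.card (K.map (QuotientGroup.mk' D)) := by
        rw [← hcK, mul_comm] at e
        exact Nat.eq_of_mul_eq_mul_right Nat.card_pos e
      rw [e2]; exact hrd
    have h1 : r ∣ Nat.card H := hK r hr (hrd.trans (Subgroup.card_map_dvd K _))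
    rw [← hcH] at h1
    rcases (Nat.Prime.dvd_mul hr).1 h1 with h | h
    · exact h
    · exfalso
      obtain ⟨j, hj⟩ := IsPGroup.iff_card.1 hDq
      rw [hj] at h
      exact hrq ((Nat.prime_dvd_prime_iff_eq hr hq).1 (hr.dvd_of_dvd_pow h))
  obtain ⟨xb, hxb⟩ := ih _ hcardlt (X ⧸ D) rfl _ _ (nilp_map hH _) hHall' hK'
  obtain ⟨x, rfl⟩ := QuotientGroup.mk'_surjective D xb
  refine ⟨x, ?_⟩
  intro k hk
  have h1 := hxb (Subgroup.mem_map_of_mem (QuotientGroup.mk' D) hk)
  rw [mem_conj_smul] at h1 ⊢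
  have h2 : QuotientGroup.mk' D (x⁻¹ * k * x) ∈ H.map (QuotientGroup.mk' D) := by
    rw [map_mul, map_mul, map_inv]; exact h1
  have h3 : x⁻¹ * k * x ∈ (H.map (QuotientGroup.mk' D)).comap (QuotientGroup.mk' D) := h2
  rw [Subgroup.comap_map_eq, QuotientGroup.ker_mk', sup_of_le_left hDH] at h3
  exact h3

theorem aux : ∀ n : ℕ, ∀ (G : Type u) [Group G] [Finite G], Nat.card G = n →
    ∀ H K : Subgroup G, Group.IsNilpotent H → (Nat.card H).Coprime H.index →
    (∀ p : ℕ, p.Prime → p ∣ Nat.card K → p ∣ Nat.card H) → ∃ x : G, K ≤ MulAut.conj x • H := by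
  intro n
  induction n using Nat.strong_induction_on with
  | _ n ih =>
  intro G _ _ hn H K hH hHall hK
  have inner : ∀ k : ℕ, ∀ K : Subgroup G, Nat.card K = k →
      (∀ p : ℕ, p.Prime → p ∣ Nat.card K → p ∣ Nat.card H) → ∃ x : G, K ≤ MulAut.conj x • H := by
    intro k
    induction k using Nat.strong_induction_on with
    | _ k ihk =>
    intro K hk hK
    by_cases hK1 : K = ⊥
    · exact ⟨1, by rw [hK1]; exact bot_le⟩
    have hprop : ∀ L : Subgroup K, L ≠ ⊤ → Group.IsNilpotent L := by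
      intro L hL
      have hlt : Nat.card (L.map K.subtype) < k := by
        rw [← hk, Subgroup.card_map_of_injective K.subtype_injective]
        exact card_lt_of_lt_top (lt_top_iff_ne_top.2 hL)
      have hπ : ∀ p : ℕ, p.Prime → p ∣ Nat.card (L.map K.subtype) → p ∣ Nat.card H := by
        intro p hp hpd
        exact hK p hp (hpd.trans (Subgroup.card_dvd_of_le (Subgroup.map_subtype_le L)))
      obtain ⟨x, hx⟩ := ihk _ hlt (L.map K.subtype) rfl hπ
      have h1 : Group.IsNilpotent (L.map K.subtype) := nilp_of_le (nilp_conj hH x) hx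
      haveI := h1
      exact Group.nilpotent_of_mulEquiv
        (Subgroup.equivMapOfInjective L K.subtype K.subtype_injective).symm
    have hex : ∃ (q : ℕ) (_ : Fact q.Prime) (Q : Sylow q K),
        (Q : Subgroup K).Normal ∧ (Q : Subgroup K) ≠ ⊥ := by
      by_cases hKn : Group.IsNilpotent K
      · haveI := hKn
        have hc1 : Nat.card K ≠ 1 := fun h => hK1 (Subgroup.card_eq_one.1 h)
        obtain ⟨q, hq, hqd⟩ := Nat.exists_prime_and_dvd hc1
        haveI : Fact q.Prime := ⟨hq⟩
        obtain Q : Sylow q K := default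
        exact ⟨q, ⟨hq⟩, Q, inferInstance, Q.ne_bot_of_dvd_card hqd⟩
      · obtain ⟨p, q, hp, hq, hpq, P, Q, hcyc, hQn, hsup, hPn⟩ :=
          schmidt_structure (G := K) ⟨hKn, hprop⟩
        refine ⟨q, ⟨hq⟩, Q, hQn, ?_⟩
        intro hQb
        apply hPn
        rw [hQb, sup_bot_eq] at hsup
        rw [hsup]
        infer_instance
    obtain ⟨q, hqF, Q, hQn, hQne⟩ := hex
    haveI := hqF
    have hq : q.Prime := hqF.out
    obtain ⟨Q0, hQ0⟩ : ∃ Q0, Q0 = (Q : Subgroup K).map K.subtype := ⟨_, rfl⟩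
    have hQ0q : IsPGroup q Q0 := by rw [hQ0]; exact Q.2.map _
    have hQ0K : Q0 ≤ K := by rw [hQ0]; exact Subgroup.map_subtype_le _
    have hQ0ne : Q0 ≠ ⊥ := by
      rw [hQ0]; intro h
      rw [Subgroup.map_eq_bot_iff_of_injective _ K.subtype_injective] at h
      exact hQne h
    have hsub : Q0.subgroupOf K = Q := by
      rw [hQ0]; exact Subgroup.comap_map_eq_self_of_injective K.subtype_injective _
    have hKN : K ≤ Subgroup.normalizer (Q0 : Set G) := by
      apply (Subgroup.normal_subgroupOf_iff_le_normalizer hQ0K).1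
      rw [hsub]; exact hQn
    have hQ0syl : ¬ q ∣ Q0.relIndex K := by
      show ¬ q ∣ (Q0.subgroupOf K).index
      rw [hsub]; exact Q.not_dvd_index
    have hqK : q ∣ Nat.card K :=
      (dvd_card_of_pgroup_ne_bot hQ0q hQ0ne).trans (Subgroup.card_dvd_of_le hQ0K)
    have hqH : q ∣ Nat.card H := hK q hq hqK
    obtain ⟨N, hN⟩ : ∃ N, N = Subgroup.normalizer (Q0 : Set G) := ⟨_, rfl⟩
    rw [← hN] at hKN
    have hQ0N : Q0 ≤ N := by rw [hN]; exact Subgroup.le_normalizer
    obtain ⟨S', hS'⟩ := (hQ0q.comap_subtype (K := N)).exists_le_sylow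
    obtain ⟨S, hSdef⟩ : ∃ S, S = (S' : Subgroup N).map N.subtype := ⟨_, rfl⟩
    have hSq : IsPGroup q S := by rw [hSdef]; exact S'.2.map _
    have hSN : S ≤ N := by rw [hSdef]; exact Subgroup.map_subtype_le _
    obtain Hq' : Sylow q H := default
    obtain ⟨Hq, hHqdef⟩ : ∃ Hq, Hq = (Hq' : Subgroup H).map H.subtype := ⟨_, rfl⟩
    have hHqq : IsPGroup q Hq := by rw [hHqdef]; exact Hq'.2.map _
    have hHqH : Hq ≤ H := by rw [hHqdef]; exact Subgroup.map_subtype_le _
    have hqHidx : ¬ q ∣ H.index :=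
      fun hd => hq.one_lt.ne' (Nat.eq_one_of_dvd_coprimes hHall hqH hd)
    have hHqidx : ¬ q ∣ Hq.index := by
      rw [hHqdef, Subgroup.index_map_subtype]
      intro hd
      rcases (Nat.Prime.dvd_mul hq).1 hd with h | h
      · exact Hq'.not_dvd_index h
      · exact hqHidx h
    obtain ⟨R, hSR⟩ := hSq.exists_le_sylow
    obtain ⟨g, hg⟩ := MulAction.exists_smul_eq G (hHqq.toSylow hHqidx) R
    have hgR : MulAut.conj g • Hq = (R : Subgroup G) := by
      have h2 := congrArg (fun S : Sylow q G => (S : Subgroup G)) hg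
      simp only [Sylow.coe_subgroup_smul, IsPGroup.toSylow_coe] at h2
      exact h2
    obtain ⟨H1, hH1def⟩ : ∃ H1, H1 = MulAut.conj g • H := ⟨_, rfl⟩
    have hH1nil : Group.IsNilpotent H1 := by rw [hH1def]; exact nilp_conj hH g
    have hcH1 : Nat.card H1 = Nat.card H := by rw [hH1def]; exact card_conj_smul g H
    have hiH1 : H1.index = H.index := by rw [hH1def]; exact index_conj_smul g H
    have hSH1 : S ≤ H1 := by
      intro y hy
      have h1 : y ∈ MulAut.conj g • Hq := by rw [hgR]; exact hSR hy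
      rw [hH1def]
      rw [mem_conj_smul] at h1 ⊢
      exact hHqH h1
    have hS'S : ∀ y : N, y ∈ (S' : Subgroup N) → (y : G) ∈ S := by
      intro y hy
      rw [hSdef]; exact ⟨y, hy, rfl⟩
    have hQ0S : Q0 ≤ S := by
      intro y hy
      exact hS'S ⟨y, hQ0N hy⟩ (hS' (show (⟨y, hQ0N hy⟩ : N) ∈ Q0.subgroupOf N from hy))
    have hQ0H1 : Q0 ≤ H1 := hQ0S.trans hSH1
    have hr_sub : ∀ r : ℕ, r.Prime → r ≠ q → r ∣ Nat.card H →
        ∃ Rr : Subgroup G, Rr ≤ H1 ∧ Rr ≤ N ∧ ¬ r ∣ Rr.index ∧ r ∣ Nat.card Rr := by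
      intro r hr hrq hrd
      haveI : Fact r.Prime := ⟨hr⟩
      haveI := hH1nil
      obtain Rr' : Sylow r H1 := default
      refine ⟨(Rr' : Subgroup H1).map H1.subtype, Subgroup.map_subtype_le _, ?_, ?_, ?_⟩
      · rintro _ ⟨y, hy, rfl⟩
        rw [hN]
        apply mem_normalizer_of_finite
        intro z hz
        have hzH1 : z ∈ H1 := hQ0H1 hz
        obtain ⟨Sq', hSq'⟩ := (hQ0q.comap_subtype (K := H1)).exists_le_sylow
        have hn1 : (Rr' : Subgroup H1).Normal := inferInstance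
        have hn2 : (Sq' : Subgroup H1).Normal := inferInstance
        have hdisj : Disjoint (Rr' : Subgroup H1) (Sq' : Subgroup H1) :=
          IsPGroup.disjoint_of_ne r q hrq _ _ Rr'.2 Sq'.2
        have hc := Subgroup.commute_of_normal_of_disjoint _ _ hn1 hn2 hdisj y ⟨z, hzH1⟩ hy
          (hSq' (show (⟨z, hzH1⟩ : H1) ∈ Q0.subgroupOf H1 from hz))
        have hc' : (y : G) * z = z * (y : G) := congrArg Subtype.val hc.eq
        show (y : G) * z * (y : G)⁻¹ ∈ Q0
        rw [hc', mul_inv_cancel_right]; exact hz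
      · rw [Subgroup.index_map_subtype]
        intro hd
        rcases (Nat.Prime.dvd_mul hr).1 hd with h | h
        · exact Rr'.not_dvd_index h
        · rw [hiH1] at h
          exact hr.one_lt.ne' (Nat.eq_one_of_dvd_coprimes hHall hrd h)
      · rw [Subgroup.card_map_of_injective H1.subtype_injective]
        exact dvd_card_of_pgroup_ne_bot Rr'.2 (Rr'.ne_bot_of_dvd_card (by rw [hcH1]; exact hrd))
    obtain ⟨H2, hH2⟩ : ∃ H2, H2 = H1.subgroupOf N := ⟨_, rfl⟩
    obtain ⟨K2, hK2⟩ : ∃ K2, K2 = K.subgroupOf N := ⟨_, rfl⟩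
    obtain ⟨D, hD⟩ : ∃ D, D = Q0.subgroupOf N := ⟨_, rfl⟩
    have hDn0 : (Q0.subgroupOf N).Normal := by rw [hN]; exact Subgroup.normal_in_normalizer
    rw [← hD] at hDn0
    haveI hDn := hDn0
    have hDne : D ≠ ⊥ := by
      intro h
      apply hQ0ne
      rw [eq_bot_iff]
      intro x hx
      have : (⟨x, hQ0N hx⟩ : N) ∈ D := by rw [hD]; exact hx
      rw [h, Subgroup.mem_bot] at this
      rw [Subgroup.mem_bot]; exact congrArg Subtype.val this
    have hDH2 : D ≤ H2 := by rw [hD, hH2]; exact Subgroup.comap_mono hQ0H1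
    have hDK2 : D ≤ K2 := by rw [hD, hK2]; exact Subgroup.comap_mono hQ0K
    have hDq : IsPGroup q D := by rw [hD]; exact hQ0q.comap_subtype
    have hDsyl : ¬ q ∣ D.relIndex K2 := by
      rw [hD, hK2, Subgroup.relIndex_subgroupOf hKN]; exact hQ0syl
    have hH2nil : Group.IsNilpotent H2 := by rw [hH2]; exact nilp_subgroupOf hH1nil N
    have hcK2 : Nat.card K2 = Nat.card K := by
      rw [hK2]; exact Nat.card_congr (Subgroup.subgroupOfEquivOfLe hKN).toEquiv
    have hcH2 : Nat.card H2 ∣ Nat.card H := by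
      rw [← hcH1, hH2]
      have e : Nat.card (H1.subgroupOf N) = Nat.card (H1 ⊓ N : Subgroup G) := by
        rw [← Subgroup.inf_subgroupOf_right]
        exact Nat.card_congr (Subgroup.subgroupOfEquivOfLe inf_le_right).toEquiv
      rw [e]; exact Subgroup.card_dvd_of_le inf_le_left
    have hkey : ∀ r : ℕ, r.Prime → r ∣ Nat.card H → ¬ r ∣ H2.index ∧ r ∣ Nat.card H2 := by
      intro r hr hrd
      by_cases hrq : r = q
      · rw [hrq]
        constructor
        · intro hd
          have hS'H2 : (S' : Subgroup N) ≤ H2 := by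
            intro y hy
            rw [hH2]
            exact hSH1 (hS'S y hy)
          exact S'.not_dvd_index (hd.trans (Subgroup.index_dvd_of_le hS'H2))
        · exact (dvd_card_of_pgroup_ne_bot hDq hDne).trans (Subgroup.card_dvd_of_le hDH2)
      · obtain ⟨Rr, hRH1, hRN, hRidx, hRcard⟩ := hr_sub r hr hrq hrd
        have hRH2 : Rr.subgroupOf N ≤ H2 := by rw [hH2]; exact Subgroup.comap_mono hRH1
        constructor
        · intro hd
          apply hRidx
          have h1 : (Rr.subgroupOf N).index ∣ Rr.index := Subgroup.relIndex_dvd_index_of_le hRN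
          exact (hd.trans (Subgroup.index_dvd_of_le hRH2)).trans h1
        · have e : Nat.card (Rr.subgroupOf N) = Nat.card Rr :=
            Nat.card_congr (Subgroup.subgroupOfEquivOfLe hRN).toEquiv
          rw [← e] at hRcard
          exact hRcard.trans (Subgroup.card_dvd_of_le hRH2)
    have hHall2 : (Nat.card H2).Coprime H2.index := by
      apply Nat.coprime_of_dvd
      intro r hr hrd
      exact (hkey r hr (hrd.trans hcH2)).1
    have hK2π : ∀ p : ℕ, p.Prime → p ∣ Nat.card K2 → p ∣ Nat.card H2 := by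
      intro r hr hrd
      rw [hcK2] at hrd
      exact (hkey r hr (hK r hr hrd)).2
    obtain ⟨x, hx⟩ := quot_step
      (fun m hm => ih m (lt_of_lt_of_le hm (hn ▸ Subgroup.card_le_card_group N)))
      q H2 K2 D hDne hDH2 hDK2 hDq hDsyl hH2nil hHall2 hK2π
    refine ⟨x * g, ?_⟩
    rw [conj_mul_smul, ← hH1def]
    intro y hy
    have hyN : y ∈ N := hKN hy
    have h1 : (⟨y, hyN⟩ : N) ∈ MulAut.conj x • H2 := hx (by rw [hK2]; exact hy)
    rw [mem_conj_smul, hH2] at h1
    rw [mem_conj_smul]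
    exact h1
  exact inner _ K rfl hK

/-- Let H be a nilpotent subgroup of a finite group G whose order is coprime to its index, and K a subgroup every prime divisor of whose order divides the order of H. Then K lies in some conjugate of H. -/
theorem result {G : Type*} [Group G] [Finite G] (H K : Subgroup G) (hH : Group.IsNilpotent H) (hHall : (Nat.card H).Coprime H.index) (hK : ∀ p : ℕ, p.Prime → p ∣ Nat.card K → p ∣ Nat.card H) : ∃ x : G, K ≤ MulAut.conj x • H := by
  exact aux _ G rfl H K hH hHall hK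
end Cfsg.Agent.S0581
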