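import Cfsg.Statements.S0582
import Mathlib
import Cfsg.Agent.S0531
import Cfsg.Agent.Lib.Lead.Hall
import Cfsg.Agent.Lib.Helper1.Basic
import Cfsg.Agent.Lib.Helper1.SS
import Cfsg.Agent.Lib.Helper1.CLT
import Cfsg.Agent.Lib.Helper1.MaxPrime
import Cfsg.Agent.Lib.Helper1.HallSys
import Cfsg.Agent.Lib.Helper1.HallSys2
import Cfsg.Agent.Lib.Helper1.Subn

set_option autoImplicit false
open Pointwise
open Cfsg

namespace Cfsg.Agent.S0582

universe u

open Cfsg.Agent.Lib.Helper1 in
theorem step {G : Type u} [Group G] [Finite G]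
    (ih : ∀ m < Nat.card G, ∀ (X : Type u) [Group X] [Finite X], Nat.card X = m →
      ∀ H K : Subgroup X, Cfsg.IsSupersolvable H → Cfsg.IsSupersolvable K →
      Nat.card H = Nat.card K → (Nat.card H).Coprime H.index → ∃ x : X, MulAut.conj x • H = K)
    (H K Q : Subgroup G) (hH : Cfsg.IsSupersolvable H) (hK : Cfsg.IsSupersolvable K)
    (hcard : Nat.card H = Nat.card K) (hHall : (Nat.card H).Coprime H.index)
    (hQne : Q ≠ ⊥) (hQH : Q ≤ H) (hQK : Q ≤ K) (hHN : H ≤ Subgroup.normalizer (Q : Set G))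
    (hKN : K ≤ Subgroup.normalizer (Q : Set G)) : ∃ x : G, MulAut.conj x • H = K := by
  obtain ⟨N, hN⟩ : ∃ N, N = Subgroup.normalizer (Q : Set G) := ⟨_, rfl⟩
  rw [← hN] at hHN hKN
  have hQN : Q ≤ N := by rw [hN]; exact Subgroup.le_normalizer
  have hDn0 : (Q.subgroupOf N).Normal := by rw [hN]; exact Subgroup.normal_in_normalizer
  obtain ⟨D, hD⟩ : ∃ D, D = Q.subgroupOf N := ⟨_, rfl⟩
  rw [← hD] at hDn0
  haveI hDn := hDn0
  have hDne : D ≠ ⊥ := by
    intro h
    apply hQne
    rw [eq_bot_iff]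
    intro x hx
    have : (⟨x, hQN hx⟩ : N) ∈ D := by rw [hD]; exact hx
    rw [h, Subgroup.mem_bot] at this
    rw [Subgroup.mem_bot]; exact congrArg Subtype.val this
  have hcardlt : Nat.card (N ⧸ D) < Nat.card G :=
    lt_of_lt_of_le (card_quotient_lt_of_ne_bot D hDne) (Subgroup.card_le_card_group N)
  obtain ⟨H', hH'⟩ : ∃ H', H' = H.subgroupOf N := ⟨_, rfl⟩
  obtain ⟨K', hK'⟩ : ∃ K', K' = K.subgroupOf N := ⟨_, rfl⟩
  have hDH' : D ≤ H' := by rw [hD, hH']; exact Subgroup.comap_mono hQH
  have hDK' : D ≤ K' := by rw [hD, hK']; exact Subgroup.comap_mono hQK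
  have hssH' : Cfsg.IsSupersolvable H' := by
    rw [hH']
    exact ss_of_surjective (Subgroup.subgroupOfEquivOfLe hHN).symm.toMonoidHom
      (Subgroup.subgroupOfEquivOfLe hHN).symm.surjective hH
  have hssK' : Cfsg.IsSupersolvable K' := by
    rw [hK']
    exact ss_of_surjective (Subgroup.subgroupOfEquivOfLe hKN).symm.toMonoidHom
      (Subgroup.subgroupOfEquivOfLe hKN).symm.surjective hK
  have hssH'' : Cfsg.IsSupersolvable (H'.map (QuotientGroup.mk' D)) :=
    ss_of_surjective ((QuotientGroup.mk' D).subgroupMap H')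
      ((QuotientGroup.mk' D).subgroupMap_surjective H') hssH'
  have hssK'' : Cfsg.IsSupersolvable (K'.map (QuotientGroup.mk' D)) :=
    ss_of_surjective ((QuotientGroup.mk' D).subgroupMap K')
      ((QuotientGroup.mk' D).subgroupMap_surjective K') hssK'
  have hcH' : Nat.card H' = Nat.card H := by
    rw [hH']; exact Nat.card_congr (Subgroup.subgroupOfEquivOfLe hHN).toEquiv
  have hcK' : Nat.card K' = Nat.card K := by
    rw [hK']; exact Nat.card_congr (Subgroup.subgroupOfEquivOfLe hKN).toEquiv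
  have hcH'' : Nat.card (H'.map (QuotientGroup.mk' D)) * Nat.card D = Nat.card H' := by
    have := Cfsg.Agent.Lib.Lead.card_comap_mk' D (H'.map (QuotientGroup.mk' D))
    rw [Subgroup.comap_map_eq, QuotientGroup.ker_mk', sup_of_le_left hDH'] at this
    exact this.symm
  have hcK'' : Nat.card (K'.map (QuotientGroup.mk' D)) * Nat.card D = Nat.card K' := by
    have := Cfsg.Agent.Lib.Lead.card_comap_mk' D (K'.map (QuotientGroup.mk' D))
    rw [Subgroup.comap_map_eq, QuotientGroup.ker_mk', sup_of_le_left hDK'] at this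
    exact this.symm
  have hcard'' : Nat.card (H'.map (QuotientGroup.mk' D)) =
      Nat.card (K'.map (QuotientGroup.mk' D)) := by
    have : Nat.card (H'.map (QuotientGroup.mk' D)) * Nat.card D =
        Nat.card (K'.map (QuotientGroup.mk' D)) * Nat.card D := by
      rw [hcH'', hcK'', hcH', hcK', hcard]
    exact Nat.eq_of_mul_eq_mul_right Nat.card_pos this
  have hcop'' : (Nat.card (H'.map (QuotientGroup.mk' D))).Coprime
      (H'.map (QuotientGroup.mk' D)).index := by
    have h1 : Nat.card (H'.map (QuotientGroup.mk' D)) ∣ Nat.card H := by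
      rw [← hcH']; exact Subgroup.card_map_dvd H' _
    have h2 : (H'.map (QuotientGroup.mk' D)).index ∣ H.index := by
      have h3 := Subgroup.index_map_dvd H' (QuotientGroup.mk'_surjective D)
      have h4 : H'.index ∣ H.index := by
        rw [hH']; exact Subgroup.relIndex_dvd_index_of_le hHN
      exact h3.trans h4
    exact Nat.Coprime.coprime_dvd_left h1 (Nat.Coprime.coprime_dvd_right h2 hHall)
  obtain ⟨xb, hxb⟩ := ih _ hcardlt (N ⧸ D) rfl _ _ hssH'' hssK'' hcard'' hcop''
  obtain ⟨x, rfl⟩ := QuotientGroup.mk'_surjective D xb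
  have h5 := Cfsg.Agent.Lib.Lead.conj_sup_eq_of_map_eq D H' K' x hxb
  rw [sup_of_le_left hDK'] at h5
  have hDconj : D ≤ MulAut.conj x • H' := by
    intro d hd
    rw [mem_conj_smul]
    have := hDn.conj_mem d hd x⁻¹
    rw [inv_inv] at this
    exact hDH' this
  rw [sup_of_le_left hDconj] at h5
  refine ⟨(x : G), ?_⟩
  have hle : MulAut.conj (x : G) • H ≤ K := by
    intro y hy
    rw [mem_conj_smul] at hy
    have hyN : y ∈ N := by
      have e : y = x * ((x : G)⁻¹ * y * x) * (x : G)⁻¹ := by group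
      rw [e]; exact N.mul_mem (N.mul_mem x.2 (hHN hy)) (N.inv_mem x.2)
    have h6 : (⟨y, hyN⟩ : N) ∈ MulAut.conj x • H' := by
      rw [mem_conj_smul, hH']
      exact hy
    rw [h5, hK'] at h6
    exact h6
  exact Subgroup.eq_of_le_of_card_ge hle (by rw [card_conj_smul, hcard])

open Cfsg.Agent.Lib.Helper1 in
theorem aux : ∀ n : ℕ, ∀ (G : Type u) [Group G] [Finite G], Nat.card G = n →
    ∀ H K : Subgroup G, Cfsg.IsSupersolvable H → Cfsg.IsSupersolvable K →
    Nat.card H = Nat.card K → (Nat.card H).Coprime H.index → ∃ x : G, MulAut.conj x • H = K := by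
  intro n
  induction n using Nat.strong_induction_on with
  | _ n ih =>
  intro G _ _ hn H K hH hK hcard hHall
  by_cases h1 : Nat.card H = 1
  · refine ⟨1, ?_⟩
    have hHb : H = ⊥ := Subgroup.card_eq_one.1 h1
    have hKb : K = ⊥ := Subgroup.card_eq_one.1 (hcard ▸ h1)
    rw [hHb, hKb, map_one, one_smul]
  have hH1 : 1 < Nat.card H := by have := Nat.card_pos (α := H); omega
  obtain ⟨p, hp, hpd, hpmax⟩ := exists_max_prime hH1
  haveI : Fact p.Prime := ⟨hp⟩
  obtain PH : Sylow p H := default
  obtain QK : Sylow p K := default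
  have hPHn : (PH : Subgroup H).Normal :=
    clt_sylow_normal _ H rfl (fun L => Cfsg.Agent.S0531.result (ss_subgroup hH L)) p hpd hpmax PH
  have hQKn : (QK : Subgroup K).Normal :=
    clt_sylow_normal _ K rfl (fun L => Cfsg.Agent.S0531.result (ss_subgroup hK L)) p
      (hcard ▸ hpd) (fun q hq hqd => hpmax q hq (hcard ▸ hqd)) QK
  obtain ⟨P, hPdef⟩ : ∃ P, P = (PH : Subgroup H).map H.subtype := ⟨_, rfl⟩
  obtain ⟨Q, hQdef⟩ : ∃ Q, Q = (QK : Subgroup K).map K.subtype := ⟨_, rfl⟩
  have hPp : IsPGroup p P := by rw [hPdef]; exact PH.2.map _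
  have hQp : IsPGroup p Q := by rw [hQdef]; exact QK.2.map _
  have hPH : P ≤ H := by rw [hPdef]; exact Subgroup.map_subtype_le _
  have hQK : Q ≤ K := by rw [hQdef]; exact Subgroup.map_subtype_le _
  have hidxK : K.index = H.index := by
    have e1 := Subgroup.card_mul_index H
    have e2 := Subgroup.card_mul_index K
    rw [← hcard, ← e1] at e2
    exact Nat.eq_of_mul_eq_mul_left Nat.card_pos e2
  have hpH : ¬ p ∣ H.index := by
    intro hd
    exact hp.one_lt.ne' (Nat.eq_one_of_dvd_coprimes hHall hpd hd)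
  have hPidx : ¬ p ∣ P.index := by
    rw [hPdef, Subgroup.index_map_subtype]
    intro hd
    rcases (Nat.Prime.dvd_mul hp).1 hd with h | h
    · exact PH.not_dvd_index h
    · exact hpH h
  have hQidx : ¬ p ∣ Q.index := by
    rw [hQdef, Subgroup.index_map_subtype, hidxK]
    intro hd
    rcases (Nat.Prime.dvd_mul hp).1 hd with h | h
    · exact QK.not_dvd_index h
    · exact hpH h
  obtain ⟨g, hg⟩ := MulAction.exists_smul_eq G (hPp.toSylow hPidx) (hQp.toSylow hQidx)
  have hgPQ : MulAut.conj g • P = Q := by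
    have h2 := congrArg (fun S : Sylow p G => (S : Subgroup G)) hg
    simp only [Sylow.coe_subgroup_smul, IsPGroup.toSylow_coe] at h2
    exact h2
  have hHNP : H ≤ Subgroup.normalizer (P : Set G) := by
    apply (Subgroup.normal_subgroupOf_iff_le_normalizer hPH).1
    have : P.subgroupOf H = PH := by
      rw [hPdef]; exact Subgroup.comap_map_eq_self_of_injective H.subtype_injective _
    rw [this]; exact hPHn
  have hKNQ : K ≤ Subgroup.normalizer (Q : Set G) := by
    apply (Subgroup.normal_subgroupOf_iff_le_normalizer hQK).1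
    have : Q.subgroupOf K = QK := by
      rw [hQdef]; exact Subgroup.comap_map_eq_self_of_injective K.subtype_injective _
    rw [this]; exact hQKn
  obtain ⟨H1, hH1def⟩ : ∃ H1, H1 = MulAut.conj g • H := ⟨_, rfl⟩
  have hssH1 : Cfsg.IsSupersolvable H1 := by
    rw [hH1def]
    exact ss_of_surjective (Subgroup.equivSMul (MulAut.conj g) H).toMonoidHom
      (Subgroup.equivSMul (MulAut.conj g) H).surjective hH
  have hcH1 : Nat.card H1 = Nat.card H := by rw [hH1def]; exact card_conj_smul g H
  have hiH1 : H1.index = H.index := by rw [hH1def]; exact index_conj_smul g H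
  have hQH1 : Q ≤ H1 := by
    rw [← hgPQ, hH1def]
    intro y hy
    rw [mem_conj_smul] at hy ⊢
    exact hPH hy
  have hH1N : H1 ≤ Subgroup.normalizer (Q : Set G) := by
    intro y hy
    rw [hH1def, mem_conj_smul] at hy
    apply mem_normalizer_of_conj_smul_eq
    have e : y = g * (g⁻¹ * y * g) * g⁻¹ := by group
    rw [e, ← hgPQ, conj_mul_smul, conj_mul_smul, ← conj_mul_smul g⁻¹ g, inv_mul_cancel, map_one,
      one_smul, conj_smul_eq_self_of_mem_normalizer (hHNP hy)]
  have hQne : Q ≠ ⊥ := by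
    rw [hQdef]
    intro h
    rw [Subgroup.map_eq_bot_iff_of_injective _ K.subtype_injective] at h
    exact QK.ne_bot_of_dvd_card (hcard ▸ hpd) h
  obtain ⟨x, hx⟩ := step (fun m hm => ih m (hn ▸ hm)) H1 K Q hssH1 hK (hcH1.trans hcard)
    (by rw [hcH1, hiH1]; exact hHall) hQne hQH1 hQK hH1N hKNQ
  refine ⟨x * g, ?_⟩
  rw [conj_mul_smul, ← hH1def]; exact hx

/-- Let H and K be supersolvable subgroups of a finite group G of the same order, that order being coprime to their index. Then H and K are conjugate in G. -/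
theorem result {G : Type*} [Group G] [Finite G] (H K : Subgroup G) (hH : Cfsg.IsSupersolvable H) (hK : Cfsg.IsSupersolvable K) (hcard : Nat.card H = Nat.card K) (hHall : (Nat.card H).Coprime H.index) : ∃ x : G, MulAut.conj x • H = K := by
  exact aux _ G rfl H K hH hK hcard hHall
end Cfsg.Agent.S0582
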