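import Cfsg.Statements.S0583
import Mathlib

set_option autoImplicit false
open Cfsg

namespace Cfsg.Agent.S0583

/-- In a finite group the Fitting subgroup is contained in the centralizer of each minimal normal subgroup. -/
theorem result {G : Type*} [Group G] [Finite G] (M : Subgroup G) [M.Normal] (hM : M ≠ ⊥) (hmin : ∀ K : Subgroup G, K.Normal → K ≤ M → K = ⊥ ∨ K = M) : Cfsg.fittingSubgroup G ≤ Subgroup.centralizer (M : Set G) := by
  unfold Cfsg.fittingSubgroup
  apply sSup_le
  rintro N ⟨hNn, hNnil⟩
  haveI := hNn
  have hcn : (⁅M, N⁆ : Subgroup G).Normal := inferInstance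
  have hle : ⁅M, N⁆ ≤ M := Subgroup.commutator_le_left M N
  rcases hmin _ hcn hle with h0 | h1
  · rw [Subgroup.commutator_eq_bot_iff_le_centralizer] at h0
    exact Subgroup.le_centralizer_iff.1 h0
  · exfalso
    have hiter : ∀ k : ℕ, M ≤ N.lowerCentralSeries k := by
      intro k
      induction k with
      | zero =>
        rw [Subgroup.lowerCentralSeries_zero]
        have h2 := Subgroup.commutator_le_right M N
        rw [h1] at h2
        exact h2
      | succ k ih =>
        rw [Subgroup.lowerCentralSeries_succ]
        calc M = ⁅M, N⁆ := h1.symm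
          _ ≤ ⁅N.lowerCentralSeries k, N⁆ := Subgroup.commutator_mono ih le_rfl
    obtain ⟨c, hc⟩ := (Subgroup.isNilpotent_iff_lowerCentralSeries N).1 hNnil
    have h3 := hiter c
    rw [hc] at h3
    exact hM (le_bot_iff.1 h3)
end Cfsg.Agent.S0583
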