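import Cfsg.Statements.S0584
import Mathlib

set_option autoImplicit false
open Cfsg

namespace Cfsg.Agent.S0584

/-- Let B ≤ A be normal subgroups of a finite group G with B contained in the Frattini subgroup of G. If A modulo B is nilpotent then A is nilpotent. -/
theorem result {G : Type*} [Group G] [Finite G] (A B : Subgroup G) [A.Normal] [B.Normal] (hBA : B ≤ A) (hB : B ≤ frattini G) (h : Group.IsNilpotent (↥A ⧸ B.subgroupOf A)) : Group.IsNilpotent A := by
  have tfae := Group.isNilpotent_of_finite_tfae (G := A)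
  apply (tfae.out 0 3).2
  intro p hp P
  haveI := hp
  have hπ : Function.Surjective (QuotientGroup.mk' (B.subgroupOf A)) :=
    QuotientGroup.mk'_surjective _
  have tfae' := Group.isNilpotent_of_finite_tfae (G := ↥A ⧸ B.subgroupOf A)
  have hall : ∀ (p : ℕ), Fact (Nat.Prime p) → ∀ (P : Sylow p (↥A ⧸ B.subgroupOf A)),
      (P : Subgroup (↥A ⧸ B.subgroupOf A)).Normal := (tfae'.out 0 3).1 h
  have hQn := hall p hp (P.mapSurjective hπ)
  rw [Sylow.coe_mapSurjective] at hQn
  have hL : ((P : Subgroup A) ⊔ B.subgroupOf A) =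
      ((P : Subgroup A).map (QuotientGroup.mk' (B.subgroupOf A))).comap
        (QuotientGroup.mk' (B.subgroupOf A)) := by
    rw [Subgroup.comap_map_eq, QuotientGroup.ker_mk']
  haveI hLn : ((P : Subgroup A) ⊔ B.subgroupOf A).Normal := by
    rw [hL]; exact hQn.comap _
  have hF1 := Sylow.normalizer_sup_eq_top
    (P.subtype (le_sup_left : (P : Subgroup A) ≤ (P : Subgroup A) ⊔ B.subgroupOf A))
  have hmap : Subgroup.map ((P : Subgroup A) ⊔ B.subgroupOf A).subtype
      ((P.subtype (le_sup_left : (P : Subgroup A) ≤ (P : Subgroup A) ⊔ B.subgroupOf A) :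
        Sylow p _) : Subgroup _) = (P : Subgroup A) := by
    rw [Sylow.coe_subtype, Subgroup.subgroupOf_map_subtype]
    exact inf_eq_left.2 le_sup_left
  rw [hmap] at hF1
  have hF2 : Subgroup.normalizer ((P : Subgroup A) : Set A) ⊔ B.subgroupOf A = ⊤ := by
    rw [eq_top_iff, ← hF1]
    apply sup_le le_sup_left
    exact sup_le (le_sup_of_le_left Subgroup.le_normalizer) le_sup_right
  have hF3 := Sylow.normalizer_sup_eq_top P
  have hF4 : Subgroup.normalizer (((P : Subgroup A).map A.subtype : Subgroup G) : Set G) ⊔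
      frattini G = ⊤ := by
    rw [eq_top_iff, ← hF3]
    apply sup_le le_sup_left
    intro a ha
    have ha' : (⟨a, ha⟩ : A) ∈ Subgroup.normalizer ((P : Subgroup A) : Set A) ⊔ B.subgroupOf A := by
      rw [hF2]; trivial
    rw [← SetLike.mem_coe, Subgroup.mul_normal] at ha'
    obtain ⟨n, hn, b, hb, e⟩ := ha'
    have e' : (n : G) * (b : G) = a := congrArg Subtype.val e
    rw [← e']
    refine mul_mem (Subgroup.mem_sup_left ?_)
      (Subgroup.mem_sup_right (hB (Subgroup.mem_subgroupOf.1 hb)))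
    have hn' := Subgroup.mem_normalizer_iff.1 hn
    rw [Subgroup.mem_normalizer_iff]
    intro x
    constructor
    · rintro ⟨y, hy, rfl⟩
      exact ⟨n * y * n⁻¹, (hn' y).1 hy, rfl⟩
    · rintro ⟨y, hy, hxy⟩
      have hxy' : (y : G) = (n : G) * x * (n : G)⁻¹ := hxy
      have hx : x = A.subtype (n⁻¹ * y * n) := by
        show x = (n : G)⁻¹ * (y : G) * (n : G)
        rw [hxy']; group
      rw [hx]
      refine ⟨n⁻¹ * y * n, ?_, rfl⟩
      apply (hn' _).2
      have h3 : n * (n⁻¹ * y * n) * n⁻¹ = y := by group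
      rw [h3]; exact hy
  have hN := frattini_nongenerating hF4
  have hPn : ((P : Subgroup A).map A.subtype).Normal := Subgroup.normalizer_eq_top_iff.1 hN
  refine ⟨fun x hx a => ?_⟩
  have h1 : (a : G) * (x : G) * (a : G)⁻¹ ∈ (P : Subgroup A).map A.subtype :=
    hPn.conj_mem _ ⟨x, hx, rfl⟩ a
  obtain ⟨y, hy, e⟩ := h1
  have h2 : y = a * x * a⁻¹ := Subtype.ext e
  rw [← h2]; exact hy
end Cfsg.Agent.S0584
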