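import Cfsg.Statements.S0585
import Mathlib
import Cfsg.Agent.Lib.Helper1.Basic

set_option autoImplicit false
open Cfsg

namespace Cfsg.Agent.S0585

/-- If the Frattini subgroup of a finite group G is trivial, then every abelian normal subgroup of G has a complement in G. -/
theorem result {G : Type*} [Group G] [Finite G] (hΦ : frattini G = ⊥) (A : Subgroup G) [A.Normal] [IsMulCommutative A] : ∃ H : Subgroup G, Subgroup.IsComplement' A H := by
  obtain ⟨H, hH, hmin⟩ := wellFounded_lt.has_min {H : Subgroup G | A ⊔ H = ⊤} ⟨⊤, by simp⟩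
  have hH : A ⊔ H = ⊤ := hH
  refine ⟨H, ?_⟩
  have hAn : ∀ g : G, ∀ a ∈ A, g * a * g⁻¹ ∈ A := fun g a ha =>
    Subgroup.Normal.conj_mem inferInstance a ha g
  have hDn : (A ⊓ H).Normal := by
    apply Lib.Helper1.normal_of_sup_eq_top hH
    · intro a ha d hd
      have h1 : a * d = d * a := Lib.Helper1.comm_of_isMulCommutative ha hd.1
      have h2 : a * d * a⁻¹ = d := by rw [h1]; group
      rw [h2]; exact hd
    · intro y hy d hd
      exact ⟨hAn y d hd.1, H.mul_mem (H.mul_mem hy hd.2) (H.inv_mem hy)⟩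
  have hD : A ⊓ H = ⊥ := by
    rw [eq_bot_iff, ← hΦ]
    unfold frattini
    rw [Order.radical]
    apply le_iInf
    intro M
    apply le_iInf
    intro hM
    by_contra hcon
    have htop : (A ⊓ H) ⊔ M = ⊤ := Lib.Helper1.sup_coatom_eq_top hM hcon
    have h1 : A ⊔ (H ⊓ M) = ⊤ := by
      rw [eq_top_iff, ← hH]
      apply sup_le le_sup_left
      intro h hh
      obtain ⟨d, hd, m, hm, e⟩ := Lib.Helper1.exists_mul_of_normal_sup_eq_top htop h
      have hmH : m ∈ H := by
        have h2 : m = d⁻¹ * h := by rw [← e]; group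
        rw [h2]
        exact H.mul_mem (H.inv_mem hd.2) hh
      rw [← e]
      exact mul_mem (Subgroup.mem_sup_left hd.1) (Subgroup.mem_sup_right ⟨hmH, hm⟩)
    have h2 : ¬ (H ⊓ M < H) := hmin (H ⊓ M) h1
    have h3 : H ⊓ M = H := by
      by_contra hne
      exact h2 (lt_of_le_of_ne inf_le_left hne)
    apply hcon
    exact inf_le_right.trans (inf_eq_left.1 h3)
  apply Subgroup.isComplement'_of_disjoint_and_mul_eq_univ
  · rw [disjoint_iff]; exact hD
  · rw [← Subgroup.normal_mul, hH]; rfl
end Cfsg.Agent.S0585
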