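import Cfsg.Statements.S0586
import Mathlib
import Cfsg.Agent.Lib.Helper2.Nilp
import Cfsg.Agent.Lib.Helper2.Fit
import Cfsg.Agent.Lib.Helper1.Basic
import Cfsg.Agent.Lib.Helper1.MinNormal

set_option autoImplicit false
open Cfsg

namespace Cfsg.Agent.S0586

open scoped commutatorElement

theorem comm_ne_self {G : Type*} [Group G] (T U A : Subgroup G)
    (hT : Group.IsNilpotent T) (hU : U ≤ T) (hA : A ≤ T) (hne : U ≠ ⊥) : ⁅U, A⁆ ≠ U := by
  intro heq
  obtain ⟨n, hn⟩ := (Subgroup.isNilpotent_iff_lowerCentralSeries _).mp hT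
  have h3 : ∀ k, U ≤ T.lowerCentralSeries k := by
    intro k
    induction k with
    | zero => exact hU
    | succ k ih =>
      rw [Subgroup.lowerCentralSeries_succ]
      calc U = ⁅U, A⁆ := heq.symm
        _ ≤ ⁅T.lowerCentralSeries k, T⁆ := Subgroup.commutator_mono ih hA
  have h4 := h3 n
  rw [hn, le_bot_iff] at h4
  exact hne h4

theorem nilpotent_of_comm {H : Type*} [Group H] (h : IsMulCommutative H) : Group.IsNilpotent H := by
  letI : CommGroup H := { (inferInstance : Group H) with mul_comm := fun a b => mul_comm' a b }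
  exact CommGroup.isNilpotent

/-- If the Frattini subgroup of a finite group G is trivial, then the Fitting subgroup of G equals the join of all abelian minimal normal subgroups of G. -/
theorem result {G : Type*} [Group G] [Finite G] (hΦ : frattini G = ⊥) : Cfsg.fittingSubgroup G = sSup {N : Subgroup G | N.Normal ∧ N ≠ ⊥ ∧ IsMulCommutative N ∧ ∀ K : Subgroup G, K.Normal → K ≤ N → K = ⊥ ∨ K = N} := by
  classical
  obtain ⟨F, hFdef⟩ : ∃ F, F = Cfsg.fittingSubgroup G := ⟨_, rfl⟩
  obtain ⟨fam, hfam⟩ : ∃ fam : Set (Subgroup G), fam = {N : Subgroup G | N.Normal ∧ N ≠ ⊥ ∧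
      IsMulCommutative N ∧ ∀ K : Subgroup G, K.Normal → K ≤ N → K = ⊥ ∨ K = N} := ⟨_, rfl⟩
  rw [← hFdef, ← hfam]
  haveI hFn : F.Normal := by rw [hFdef]; exact Cfsg.Agent.Lib.Helper2.fitting_normal G
  have hFnil : Group.IsNilpotent F := by
    rw [hFdef]; exact Cfsg.Agent.Lib.Helper2.fitting_isNilpotent G
  have hcent : ∀ N : Subgroup G, N.Normal → N ≠ ⊥ →
      (∀ K : Subgroup G, K.Normal → K ≤ N → K = ⊥ ∨ K = N) → N ≤ F →
      ∀ n ∈ N, ∀ f ∈ F, n * f = f * n := by
    intro N hNn hNne hNmin hNF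
    haveI := hNn
    have h1 : ⁅N, F⁆ ≠ N := comm_ne_self F N F hFnil hNF le_rfl hNne
    have h2 : ⁅N, F⁆ ≤ N := Subgroup.commutator_le_left N F
    have h3 : ⁅N, F⁆ = ⊥ := by
      rcases hNmin ⁅N, F⁆ inferInstance h2 with h | h
      · exact h
      · exact absurd h h1
    intro n hn f hf
    have h4 : ⁅n, f⁆ ∈ ⁅N, F⁆ := Subgroup.commutator_mem_commutator hn hf
    rw [h3, Subgroup.mem_bot, commutatorElement_eq_one_iff_mul_comm] at h4
    exact h4
  have hle_fam : ∀ N ∈ fam, N ≤ F := by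
    intro N hN
    rw [hfam] at hN
    obtain ⟨hNn, hNne, hNc, hNmin⟩ := hN
    rw [hFdef]
    apply le_sSup
    exact ⟨hNn, nilpotent_of_comm hNc⟩
  obtain ⟨S, hSdef⟩ : ∃ S, S = sSup fam := ⟨_, rfl⟩
  rw [← hSdef]
  have hSF : S ≤ F := by rw [hSdef]; exact sSup_le hle_fam
  haveI hSn : S.Normal := by
    rw [hSdef]
    exact Subgroup.sSup_normal _ (fun N hN => by rw [hfam] at hN; exact hN.1)
  have hScent : ∀ s ∈ S, ∀ f ∈ F, s * f = f * s := by
    have hle : S ≤ Subgroup.centralizer (F : Set G) := by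
      rw [hSdef]
      apply sSup_le
      intro N hN
      have hN' := hN
      rw [hfam] at hN'
      obtain ⟨hNn, hNne, hNc, hNmin⟩ := hN'
      intro n hn
      rw [Subgroup.mem_centralizer_iff]
      intro f hf
      exact (hcent N hNn hNne hNmin (hle_fam N hN) n hn f hf).symm
    intro s hs f hf
    exact ((Subgroup.mem_centralizer_iff.1 (hle hs)) f hf).symm
  apply le_antisymm _ hSF
  obtain ⟨H, hHS, hHmin⟩ : ∃ H : Subgroup G, H ⊔ S = ⊤ ∧
      ∀ H' : Subgroup G, H' ⊔ S = ⊤ → H' ≤ H → H' = H := by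
    obtain ⟨H, hH, hmin⟩ := (wellFounded_lt (α := Subgroup G)).has_min
      {H : Subgroup G | H ⊔ S = ⊤} ⟨⊤, by simp⟩
    refine ⟨H, hH, fun H' hH' hle => ?_⟩
    by_contra hne
    exact hmin H' hH' (lt_of_le_of_ne hle hne)
  have hHSbot : H ⊓ S = ⊥ := by
    by_contra hD
    obtain ⟨D, hDdef⟩ : ∃ D, D = H ⊓ S := ⟨_, rfl⟩
    rw [← hDdef] at hD
    have hDH : D ≤ H := by rw [hDdef]; exact inf_le_left
    have hDS : D ≤ S := by rw [hDdef]; exact inf_le_right
    haveI hDn : D.Normal := by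
      have hN : Subgroup.normalizer (D : Set G) = ⊤ := by
        rw [eq_top_iff, ← hHS]
        apply sup_le
        · intro h hh
          apply Cfsg.Agent.Lib.Helper1.mem_normalizer_of_finite
          intro d hd
          rw [hDdef] at hd ⊢
          exact Subgroup.mem_inf.2 ⟨H.mul_mem (H.mul_mem hh (Subgroup.mem_inf.1 hd).1)
            (H.inv_mem hh), hSn.conj_mem d (Subgroup.mem_inf.1 hd).2 h⟩
        · intro s hs
          apply Cfsg.Agent.Lib.Helper1.mem_normalizer_of_finite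
          intro d hd
          have := hScent s hs d (hSF (hDS hd))
          rw [this, mul_inv_cancel_right]; exact hd
      exact Subgroup.normalizer_eq_top_iff.1 hN
    have hex : ∃ M : Subgroup G, IsCoatom M ∧ ¬ D ≤ M := by
      by_contra hcon
      push_neg at hcon
      apply hD
      rw [eq_bot_iff, ← hΦ]
      unfold frattini Order.radical
      exact le_iInf (fun M => le_iInf (fun hM => hcon M hM))
    obtain ⟨M, hM, hDM⟩ := hex
    have hMD : M ⊔ D = ⊤ :=
      hM.2 _ (lt_of_le_of_ne le_sup_left (fun h => hDM (by rw [h]; exact le_sup_right)))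
    have hH1 : (H ⊓ M) ⊔ S = ⊤ := by
      rw [eq_top_iff, ← hHS]
      apply sup_le _ le_sup_right
      intro h hh
      have hmem : h ∈ M ⊔ D := by rw [hMD]; trivial
      obtain ⟨m, hm, d, hd, rfl⟩ := (Subgroup.mem_sup_of_normal_right (t := D)).1 hmem
      have hmH : m ∈ H := by
        have : m = m * d * d⁻¹ := by group
        rw [this]; exact H.mul_mem hh (H.inv_mem (hDH hd))
      exact mul_mem (Subgroup.mem_sup_left (Subgroup.mem_inf.2 ⟨hmH, hm⟩))
        (Subgroup.mem_sup_right (hDS hd))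
    have hHM := hHmin _ hH1 inf_le_left
    apply hDM
    calc D ≤ H := hDH
      _ = H ⊓ M := hHM.symm
      _ ≤ M := inf_le_right
  have hFH : F ⊓ H = ⊥ := by
    by_contra hne
    haveI hFHn : (F ⊓ H).Normal := by
      have hN : Subgroup.normalizer ((F ⊓ H : Subgroup G) : Set G) = ⊤ := by
        rw [eq_top_iff, ← hHS]
        apply sup_le
        · intro h hh
          apply Cfsg.Agent.Lib.Helper1.mem_normalizer_of_finite
          intro x hx
          exact Subgroup.mem_inf.2 ⟨hFn.conj_mem x (Subgroup.mem_inf.1 hx).1 h,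
            H.mul_mem (H.mul_mem hh (Subgroup.mem_inf.1 hx).2) (H.inv_mem hh)⟩
        · intro s hs
          apply Cfsg.Agent.Lib.Helper1.mem_normalizer_of_finite
          intro x hx
          have := hScent s hs x (Subgroup.mem_inf.1 hx).1
          rw [this, mul_inv_cancel_right]; exact hx
      exact Subgroup.normalizer_eq_top_iff.1 hN
    obtain ⟨N0, hN0n, hN0le, hN0ne, hN0min⟩ :=
      Cfsg.Agent.Lib.Helper1.exists_minimal_normal_le (F ⊓ H) hFHn hne
    have hN0F : N0 ≤ F := hN0le.trans inf_le_left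
    have hN0c := hcent N0 hN0n hN0ne hN0min hN0F
    have hN0fam : N0 ∈ fam := by
      rw [hfam]
      refine ⟨hN0n, hN0ne, ⟨⟨fun a b => ?_⟩⟩, hN0min⟩
      exact Subtype.ext (hN0c a a.2 b (hN0F b.2))
    have hN0S : N0 ≤ S := by rw [hSdef]; exact le_sSup hN0fam
    apply hN0ne
    rw [eq_bot_iff, ← hHSbot]
    exact le_inf (hN0le.trans inf_le_right) hN0S
  intro f hf
  have hmem : f ∈ H ⊔ S := by rw [hHS]; trivial
  obtain ⟨h, hh, s, hs, rfl⟩ := (Subgroup.mem_sup_of_normal_right (t := S)).1 hmem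
  have hhF : h ∈ F := by
    have : h = h * s * s⁻¹ := by group
    rw [this]; exact F.mul_mem hf (F.inv_mem (hSF hs))
  have hh1 : h ∈ F ⊓ H := Subgroup.mem_inf.2 ⟨hhF, hh⟩
  rw [hFH, Subgroup.mem_bot] at hh1
  rw [hh1, one_mul]; exact hs
end Cfsg.Agent.S0586
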