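import Cfsg.Statements.S0587
import Mathlib
import Cfsg.Agent.S0549
import Cfsg.Agent.Lib.Helper1.MinNormal

set_option autoImplicit false
open Cfsg

namespace Cfsg.Agent.S0587

/-- Let G be a finite group whose largest normal p-subgroup L is nontrivial, and M a maximal subgroup of G with trivial normal core. Then L is elementary abelian, M is a complement to L, L is a minimal normal subgroup of G, the centralizer of L is L, and for every prime q such that the largest normal q-subgroup of M is nontrivial, the order of L is congruent to 1 modulo q and q ≠ p. -/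
theorem result {G : Type*} [Group G] [Finite G] (p : ℕ) [Fact p.Prime] (hL : Cfsg.pCore p G ≠ ⊥) (M : Subgroup G) (hM : IsCoatom M) (hcore : M.normalCore = ⊥) : Cfsg.IsElementaryAbelian p (Cfsg.pCore p G) ∧ Subgroup.IsComplement' (Cfsg.pCore p G) M ∧ (∀ K : Subgroup G, K.Normal → K ≤ Cfsg.pCore p G → K = ⊥ ∨ K = Cfsg.pCore p G) ∧ Subgroup.centralizer ((Cfsg.pCore p G : Subgroup G) : Set G) = Cfsg.pCore p G ∧ ∀ (q : ℕ) [Fact q.Prime], Cfsg.pCore q ↥M ≠ ⊥ → Nat.card (Cfsg.pCore p G) % q = 1 % q ∧ q ≠ p := by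
  open Cfsg.Agent.Lib.Helper1 in
  have hLp0 : IsPGroup p (Cfsg.pCore p G) := pCore_isPGroup p G
  have hLn0 : (Cfsg.pCore p G).Normal := Cfsg.pCore_normal p G
  have hLmax0 : ∀ N : Subgroup G, N.Normal → IsPGroup p N → N ≤ Cfsg.pCore p G :=
    fun N h1 h2 => le_sSup ⟨h1, h2⟩
  obtain ⟨L, hLdef⟩ : ∃ L : Subgroup G, L = Cfsg.pCore p G := ⟨_, rfl⟩
  rw [← hLdef] at hL hLp0 hLn0 hLmax0 ⊢
  haveI := hLn0
  have hp := Fact.out (p := p.Prime)
  open Cfsg.Agent.Lib.Helper1 in
  obtain ⟨b, hb, hb1, hbc⟩ := exists_central_of_normal_pgroup L L hLp0 le_rfl hL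
  have hZne : L ⊓ Subgroup.centralizer (L : Set G) ≠ ⊥ := by
    intro h
    have h5 : b ∈ L ⊓ Subgroup.centralizer (L : Set G) := ⟨hb, fun x hx => hbc x hx⟩
    rw [h, Subgroup.mem_bot] at h5
    exact hb1 h5
  have hZn : (L ⊓ Subgroup.centralizer (L : Set G)).Normal := inferInstance
  obtain ⟨h1, h2⟩ := Cfsg.Agent.S0549.result M hM hcore L hL
  have hCne : Subgroup.centralizer (L : Set G) ≠ ⊥ :=
    fun h => hZne (le_bot_iff.1 (h ▸ inf_le_right))
  have hCmin := (h2.resolve_left hCne).2
  have hZC : L ⊓ Subgroup.centralizer (L : Set G) = Subgroup.centralizer (L : Set G) :=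
    (hCmin _ hZn inf_le_right).resolve_left hZne
  have hCL : Subgroup.centralizer (L : Set G) ≤ L := hZC ▸ inf_le_left
  obtain ⟨h3, h4⟩ := Cfsg.Agent.S0549.result M hM hcore (Subgroup.centralizer (L : Set G)) hCne
  have hAA : Subgroup.centralizer (L : Set G) ≤
      Subgroup.centralizer ((Subgroup.centralizer (L : Set G) : Subgroup G) : Set G) := by
    intro x hx
    rw [Subgroup.mem_centralizer_iff]
    intro y hy
    exact ((Subgroup.mem_centralizer_iff.1 hy) x (hCL hx)).symm
  have hCCne : Subgroup.centralizer ((Subgroup.centralizer (L : Set G) : Subgroup G) : Set G) ≠ ⊥ :=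
    fun h => hCne (le_bot_iff.1 (h ▸ hAA))
  have hCCmin := (h4.resolve_left hCCne).2
  have hCC : Subgroup.centralizer (L : Set G) =
      Subgroup.centralizer ((Subgroup.centralizer (L : Set G) : Subgroup G) : Set G) :=
    (hCCmin _ inferInstance hAA).resolve_left hCne
  have hLCC : L ≤ Subgroup.centralizer ((Subgroup.centralizer (L : Set G) : Subgroup G) : Set G) := by
    intro x hx
    rw [Subgroup.mem_centralizer_iff]
    intro y hy
    exact ((Subgroup.mem_centralizer_iff.1 hy) x hx).symm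
  have hLC : Subgroup.centralizer (L : Set G) = L := le_antisymm hCL (hCC ▸ hLCC)
  rw [hLC] at h1 hCmin
  have hcomm : ∀ x ∈ L, ∀ y ∈ L, x * y = y * x := by
    intro x hx y hy
    have hy' : y ∈ Subgroup.centralizer (L : Set G) := by rw [hLC]; exact hy
    exact (Subgroup.mem_centralizer_iff.1 hy') x hx
  have hpd : p ∣ Nat.card L := by
    rcases hLp0.card_eq_or_dvd with h | h
    · exact absurd (Subgroup.card_eq_one.1 h) hL
    · exact h
  have hsup : L ⊔ M = ⊤ := by
    open Cfsg.Agent.Lib.Helper1 in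
    apply sup_coatom_eq_top hM
    intro hle
    have h9 : L ≤ M.normalCore := Subgroup.normal_le_normalCore.2 hle
    rw [hcore] at h9
    exact hL (le_bot_iff.1 h9)
  refine ⟨⟨⟨⟨fun a b => Subtype.ext (hcomm a a.2 b b.2)⟩⟩, ?_⟩, ?_, hCmin, hLC, ?_⟩
  · open Cfsg.Agent.Lib.Helper1 in
    exact minNormal_exponent L hCmin hcomm p hpd
  · apply Subgroup.isComplement'_of_disjoint_and_mul_eq_univ (disjoint_iff.2 h1)
    rw [Set.eq_univ_iff_forall]
    intro g
    open Cfsg.Agent.Lib.Helper1 in
    obtain ⟨k, hk, u, hu, e⟩ := exists_mul_of_normal_sup_eq_top hsup g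
    exact ⟨k, hk, u, hu, e⟩
  · intro q _ hQ
    have hq := Fact.out (p := q.Prime)
    open Cfsg.Agent.Lib.Helper1 in
    have hQq : IsPGroup q (Cfsg.pCore q ↥M) := pCore_isPGroup q ↥M
    have hQn : (Cfsg.pCore q ↥M).Normal := Cfsg.pCore_normal q ↥M
    -- M normalizes the image of Q
    have hMQ : ∀ m ∈ M, ∀ y ∈ (Cfsg.pCore q ↥M).map M.subtype,
        m * y * m⁻¹ ∈ (Cfsg.pCore q ↥M).map M.subtype := by
      rintro m hm _ ⟨y, hy, rfl⟩
      exact ⟨⟨m, hm⟩ * y * ⟨m, hm⟩⁻¹, hQn.conj_mem y hy ⟨m, hm⟩, rfl⟩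
    have hQM : (Cfsg.pCore q ↥M).map M.subtype ≤ M := by
      rintro _ ⟨y, -, rfl⟩
      exact y.2
    have hQne : (Cfsg.pCore q ↥M).map M.subtype ≠ ⊥ := by
      intro h
      rw [Subgroup.map_eq_bot_iff_of_injective _ M.subtype_injective] at h
      exact hQ h
    have hQL : ¬ (Cfsg.pCore q ↥M).map M.subtype ≤ L := by
      intro hle
      apply hQne
      rw [eq_bot_iff, ← h1]
      exact le_inf hle hQM
    have hqp : q ≠ p := by
      rintro rfl
      apply hQL
      have hpg : IsPGroup q (L ⊔ (Cfsg.pCore q ↥M).map M.subtype : Subgroup G) :=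
        IsPGroup.to_sup_of_normal_left hLp0 (hQq.map M.subtype)
      have hnorm : (L ⊔ (Cfsg.pCore q ↥M).map M.subtype : Subgroup G).Normal := by
        open Cfsg.Agent.Lib.Helper1 in
        apply normal_of_sup_eq_top hsup
        · intro x hx d hd
          exact Subgroup.mul_mem _ (Subgroup.mul_mem _ (Subgroup.mem_sup_left hx) hd)
            (Subgroup.inv_mem _ (Subgroup.mem_sup_left hx))
        · intro m hm d hd
          obtain ⟨l, hl, y, hy, e⟩ := Subgroup.mem_sup_of_normal_left.1 hd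
          have e2 : m * d * m⁻¹ = (m * l * m⁻¹) * (m * y * m⁻¹) := by rw [← e]; group
          rw [e2]
          exact Subgroup.mul_mem _ (Subgroup.mem_sup_left (hLn0.conj_mem l hl m))
            (Subgroup.mem_sup_right (hMQ m hm y hy))
      exact le_sup_right.trans (hLmax0 _ hnorm hpg)
    refine ⟨?_, hqp⟩
    -- fixed points
    have hFn : (L ⊓ Subgroup.centralizer
        (((Cfsg.pCore q ↥M).map M.subtype : Subgroup G) : Set G)).Normal := by
      open Cfsg.Agent.Lib.Helper1 in
      apply normal_of_sup_eq_top hsup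
      · intro x hx d hd
        rw [hcomm x hx d hd.1, mul_inv_cancel_right]
        exact hd
      · intro m hm d hd
        refine Subgroup.mem_inf.2 ⟨hLn0.conj_mem d hd.1 m, ?_⟩
        rw [Subgroup.mem_centralizer_iff]
        intro y hy
        have hy' := hMQ m⁻¹ (M.inv_mem hm) y hy
        rw [inv_inv] at hy'
        have h7 := (Subgroup.mem_centralizer_iff.1 hd.2) _ hy'
        have e1 : y * (m * d * m⁻¹) = m * ((m⁻¹ * y * m) * d) * m⁻¹ := by group
        have e2 : m * d * m⁻¹ * y = m * (d * (m⁻¹ * y * m)) * m⁻¹ := by group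
        rw [e1, e2, h7]
    have hF : L ⊓ Subgroup.centralizer
        (((Cfsg.pCore q ↥M).map M.subtype : Subgroup G) : Set G) = ⊥ := by
      rcases hCmin _ hFn inf_le_left with h | h
      · exact h
      · exfalso
        apply hQL
        rw [← hLC]
        intro y hy
        rw [Subgroup.mem_centralizer_iff]
        intro l hl
        have hl' : l ∈ L ⊓ Subgroup.centralizer
            (((Cfsg.pCore q ↥M).map M.subtype : Subgroup G) : Set G) := by rw [h]; exact hl
        exact ((Subgroup.mem_centralizer_iff.1 hl'.2) y hy).symm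
    letI : MulAction (Cfsg.pCore q ↥M) L := MulAction.compHom L
      ((MulAut.conjNormal (H := L)).comp (M.subtype.comp (Cfsg.pCore q ↥M).subtype))
    have hmod := hQq.card_modEq_card_fixedPoints L
    have hfix : ∀ l ∈ MulAction.fixedPoints (Cfsg.pCore q ↥M) L, l = 1 := by
      intro l hl
      apply Subtype.ext
      have hlF : (l : G) ∈ L ⊓ Subgroup.centralizer
          (((Cfsg.pCore q ↥M).map M.subtype : Subgroup G) : Set G) := by
        refine Subgroup.mem_inf.2 ⟨l.2, ?_⟩
        rw [Subgroup.mem_centralizer_iff]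
        rintro _ ⟨y, hy, rfl⟩
        have h8 := hl ⟨y, hy⟩
        have h9 : ((MulAut.conjNormal (H := L) ((y : ↥M) : G) l : L) : G) = l :=
          congrArg Subtype.val h8
        rw [MulAut.conjNormal_apply] at h9
        show ((y : ↥M) : G) * (l : G) = (l : G) * ((y : ↥M) : G)
        calc ((y : ↥M) : G) * (l : G) = ((y : ↥M) : G) * (l : G) * ((y : ↥M) : G)⁻¹ * ((y : ↥M) : G) := by group
          _ = (l : G) * ((y : ↥M) : G) := by rw [h9]
      rw [hF, Subgroup.mem_bot] at hlF
      exact hlF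
    have hone : (1 : L) ∈ MulAction.fixedPoints (Cfsg.pCore q ↥M) L := by
      intro x
      apply Subtype.ext
      show ((MulAut.conjNormal (H := L) (((x : ↥(Cfsg.pCore q ↥M)) : ↥M) : G) (1 : L) : L) : G) = 1
      rw [MulAut.conjNormal_apply]
      simp
    have hcard : Nat.card (MulAction.fixedPoints (Cfsg.pCore q ↥M) L) = 1 := by
      rw [Nat.card_eq_one_iff_unique]
      exact ⟨⟨fun a b => Subtype.ext (by rw [hfix a.1 a.2, hfix b.1 b.2])⟩, ⟨⟨1, hone⟩⟩⟩
    rw [hcard] at hmod
    exact hmod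
end Cfsg.Agent.S0587
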