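import Cfsg.Statements.S0589
import Mathlib
import Cfsg.Agent.Lib.Lead.CharFrob
import Cfsg.Agent.Lib.Lead.FrobConj

set_option autoImplicit false
open Pointwise
open Cfsg

namespace Cfsg.Agent.S0589

/-- Let H be a Frobenius complement in a finite group G and L a subgroup of G whose order divides the order of H. Then L is contained in some conjugate of H. -/
theorem result {G : Type*} [Group G] [Finite G] (H : Subgroup G) (hH : Cfsg.IsFrobeniusComplement H) (L : Subgroup G) (hL : Nat.card L ∣ Nat.card H) : ∃ x : G, L ≤ MulAut.conj x • H := by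
  classical
  by_cases hL1 : L = ⊥
  · exact ⟨1, by rw [hL1]; exact bot_le⟩
  obtain ⟨N, hNK, hNn, hNc⟩ := Cfsg.Agent.Lib.Lead.frobenius_kernel H hH
  have hcop : (Nat.card N).Coprime (Nat.card H) := by
    have h1 : Nat.card N = H.index := by
      rw [← Cfsg.Agent.Lib.Lead.frob_card_kernel H hH, ← hNK]; rfl
    have h2 := Cfsg.Agent.Lib.Lead.frob_index_mod H hH
    rw [h1]
    rw [Nat.Coprime, Nat.gcd_comm, Nat.gcd_rec, h2, ← Nat.gcd_rec, Nat.gcd_one_right]
  apply Cfsg.Agent.Lib.Lead.frob_le_conj H hH L hL1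
  intro x hxL hxK
  have hxN : x ∈ N := by
    have : x ∈ (N : Set G) := by rw [hNK]; exact hxK
    exact this
  have h1 : orderOf x ∣ Nat.card L := Subgroup.orderOf_dvd_natCard L hxL
  have h2 : orderOf x ∣ Nat.card N := Subgroup.orderOf_dvd_natCard N hxN
  have h3 : orderOf x = 1 := Nat.eq_one_of_dvd_coprimes hcop h2 (h1.trans hL)
  exact orderOf_eq_one_iff.1 h3

end Cfsg.Agent.S0589
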