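import Cfsg.Statements.S0590
import Mathlib
import Cfsg.Agent.Lib.Helper1.ThompsonJ

set_option autoImplicit false
open Cfsg

namespace Cfsg.Agent.S0590

open scoped commutatorElement

/-- Quadratic action on an elementary abelian p-group forces the acting group modulo the kernel of the action to be elementary abelian. -/
theorem result {G : Type*} [Group G] [Finite G] {p : ℕ} [Fact p.Prime] (V H : Subgroup G) (hV : Cfsg.IsElementaryAbelian p V) (hHV : H ≤ Subgroup.normalizer (V : Set G)) (hq : ⁅⁅V, H⁆, H⁆ = ⊥) : ⁅H, H⁆ ≤ Subgroup.centralizer (V : Set G) ∧ ∀ a ∈ H, a ^ p ∈ Subgroup.centralizer (V : Set G) := by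
  have hcV : ∀ v ∈ V, ∀ a ∈ H, ⁅v, a⁆ ∈ V := by
    intro v hv a ha
    have h1 : a * v⁻¹ * a⁻¹ ∈ V := (Subgroup.mem_normalizer_iff.1 (hHV ha) v⁻¹).1 (V.inv_mem hv)
    have : ⁅v, a⁆ = v * (a * v⁻¹ * a⁻¹) := by rw [commutatorElement_def]; group
    rw [this]; exact V.mul_mem hv h1
  have hcc : ∀ v ∈ V, ∀ a ∈ H, ∀ b ∈ H, Commute b ⁅v, a⁆ := by
    intro v hv a ha b hb
    have h1 : ⁅⁅v, a⁆, b⁆ ∈ ⁅⁅V, H⁆, H⁆ :=
      Subgroup.commutator_mem_commutator (Subgroup.commutator_mem_commutator hv ha) hb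
    rw [hq, Subgroup.mem_bot, commutatorElement_eq_one_iff_commute] at h1
    exact h1.symm
  have hconj : ∀ v a : G, a * v * a⁻¹ = ⁅v, a⁆⁻¹ * v := by
    intro v a; rw [commutatorElement_def]; group
  have e : ∀ v ∈ V, ∀ a ∈ H, ∀ b ∈ H, b * (a * v * a⁻¹) * b⁻¹ = ⁅v, a⁆⁻¹ * (⁅v, b⁆⁻¹ * v) := by
    intro v hv a ha b hb
    rw [hconj v a]
    have h1 : b * (⁅v, a⁆⁻¹ * v) * b⁻¹ = (b * ⁅v, a⁆⁻¹ * b⁻¹) * (b * v * b⁻¹) := by group
    rw [h1, hconj v b]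
    have h2 : b * ⁅v, a⁆⁻¹ * b⁻¹ = ⁅v, a⁆⁻¹ := by
      rw [((hcc v hv a ha b hb).inv_right).eq, mul_inv_cancel_right]
    rw [h2]
  have hsym : ∀ v ∈ V, ∀ a ∈ H, ∀ b ∈ H,
      b * (a * v * a⁻¹) * b⁻¹ = a * (b * v * b⁻¹) * a⁻¹ := by
    intro v hv a ha b hb
    rw [e v hv a ha b hb, e v hv b hb a ha]
    have := Cfsg.Agent.Lib.Helper1.ea_comm hV (V.inv_mem (hcV v hv a ha))
      (V.inv_mem (hcV v hv b hb))
    rw [← mul_assoc, ← mul_assoc, this]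
  constructor
  · rw [Subgroup.commutator_le]
    intro a ha b hb
    rw [Subgroup.mem_centralizer_iff]
    intro v hv
    have key : a⁻¹ * (b⁻¹ * v * b) * a = b⁻¹ * (a⁻¹ * v * a) * b := by
      have := hsym v hv b⁻¹ (inv_mem hb) a⁻¹ (inv_mem ha)
      simpa using this
    symm
    calc ⁅a, b⁆ * v = a * b * (a⁻¹ * (b⁻¹ * v * b) * a) * b⁻¹ * a⁻¹ * ⁅a, b⁆ := by
          rw [commutatorElement_def]; group
      _ = a * b * (b⁻¹ * (a⁻¹ * v * a) * b) * b⁻¹ * a⁻¹ * ⁅a, b⁆ := by rw [key]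
      _ = v * ⁅a, b⁆ := by group
  · intro a ha
    rw [Subgroup.mem_centralizer_iff]
    intro v hv
    have hpow : ∀ k : ℕ, a ^ k * v * (a ^ k)⁻¹ = (⁅v, a⁆⁻¹) ^ k * v := by
      intro k
      induction k with
      | zero => simp
      | succ k ih =>
        have h1 : a ^ (k + 1) * v * (a ^ (k + 1))⁻¹ = a * (a ^ k * v * (a ^ k)⁻¹) * a⁻¹ := by
          rw [pow_succ']; group
        rw [h1, ih]
        have h2 : a * (⁅v, a⁆⁻¹ ^ k * v) * a⁻¹ = (a * ⁅v, a⁆⁻¹ ^ k * a⁻¹) * (a * v * a⁻¹) := by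
          group
        rw [h2, (((hcc v hv a ha a ha).inv_right).pow_right k).eq, mul_inv_cancel_right, hconj,
          ← mul_assoc, ← pow_succ]
    have h3 := hpow p
    rw [inv_pow, hV.2 _ (hcV v hv a ha), inv_one, one_mul] at h3
    have h4 : a ^ p * v = v * a ^ p := by
      calc a ^ p * v = a ^ p * v * (a ^ p)⁻¹ * a ^ p := by group
        _ = v * a ^ p := by rw [h3]
    exact h4.symm

end Cfsg.Agent.S0590
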