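import Cfsg.Statements.S0591
import Mathlib
import Cfsg.Agent.Lib.Helper1.ThompsonJ

set_option autoImplicit false
open Cfsg

namespace Cfsg.Agent.S0591

open scoped commutatorElement

/-- For a quadratically acting element a on an elementary abelian p-group V, the fixed points C_V(a) have order at least the square root of the order of V. -/
theorem result {G : Type*} [Group G] [Finite G] {p : ℕ} [Fact p.Prime] (V : Subgroup G) (hV : Cfsg.IsElementaryAbelian p V) (a : G) (ha : a ∈ Subgroup.normalizer (V : Set G)) (hq : ⁅⁅V, Subgroup.zpowers a⁆, Subgroup.zpowers a⁆ = ⊥) : Nat.card V ≤ Nat.card ↥(V ⊓ Subgroup.centralizer (Subgroup.zpowers a : Set G)) ^ 2 := by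
  have hcV : ∀ v ∈ V, ⁅v, a⁆ ∈ V := by
    intro v hv
    have h1 : a * v⁻¹ * a⁻¹ ∈ V := (Subgroup.mem_normalizer_iff.1 ha v⁻¹).1 (V.inv_mem hv)
    have : ⁅v, a⁆ = v * (a * v⁻¹ * a⁻¹) := by rw [commutatorElement_def]; group
    rw [this]; exact V.mul_mem hv h1
  have hcc : ∀ v ∈ V, Commute a ⁅v, a⁆ := by
    intro v hv
    have h1 : ⁅⁅v, a⁆, a⁆ ∈ ⁅⁅V, Subgroup.zpowers a⁆, Subgroup.zpowers a⁆ :=
      Subgroup.commutator_mem_commutator
        (Subgroup.commutator_mem_commutator hv (Subgroup.mem_zpowers a)) (Subgroup.mem_zpowers a)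
    rw [hq, Subgroup.mem_bot, commutatorElement_eq_one_iff_commute] at h1
    exact h1.symm
  have hmul : ∀ v ∈ V, ∀ w ∈ V, ⁅v * w, a⁆ = ⁅v, a⁆ * ⁅w, a⁆ := by
    intro v hv w hw
    have h1 : a * v⁻¹ * a⁻¹ ∈ V := (Subgroup.mem_normalizer_iff.1 ha v⁻¹).1 (V.inv_mem hv)
    have h2 := Cfsg.Agent.Lib.Helper1.ea_comm hV (hcV w hw) h1
    calc ⁅v * w, a⁆ = v * (⁅w, a⁆ * (a * v⁻¹ * a⁻¹)) := by
          simp only [commutatorElement_def]; group
      _ = v * ((a * v⁻¹ * a⁻¹) * ⁅w, a⁆) := by rw [h2]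
      _ = ⁅v, a⁆ * ⁅w, a⁆ := by simp only [commutatorElement_def]; group
  let φ : V →* V :=
    { toFun := fun v => ⟨⁅(v : G), a⁆, hcV v v.2⟩
      map_one' := by ext; simp [commutatorElement_def]
      map_mul' := fun v w => Subtype.ext (hmul v v.2 w w.2) }
  have hφ : ∀ v : V, ((φ v : V) : G) = ⁅(v : G), a⁆ := fun v => rfl
  have hcent : ∀ x : G, Commute a x → x ∈ Subgroup.centralizer (Subgroup.zpowers a : Set G) := by
    intro x hx
    rw [Subgroup.mem_centralizer_iff]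
    rintro _ ⟨k, rfl⟩
    exact (hx.zpow_left k).eq
  have h1 : Nat.card φ.ker * Nat.card φ.range = Nat.card V := by
    rw [← Subgroup.index_ker]; exact Subgroup.card_mul_index φ.ker
  have h2 : Nat.card φ.ker ≤ Nat.card ↥(V ⊓ Subgroup.centralizer (Subgroup.zpowers a : Set G)) := by
    rw [← Subgroup.card_map_of_injective (K := φ.ker) V.subtype_injective]
    apply Subgroup.card_le_of_le
    rintro _ ⟨v, hv, rfl⟩
    refine Subgroup.mem_inf.2 ⟨v.2, hcent _ ?_⟩
    have hv' : φ v = 1 := MonoidHom.mem_ker.1 hv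
    have h3 : ⁅(v : G), a⁆ = 1 := by rw [← hφ, hv']; rfl
    rw [commutatorElement_eq_one_iff_commute] at h3
    exact h3.symm
  have h3 : Nat.card φ.range ≤ Nat.card ↥(V ⊓ Subgroup.centralizer (Subgroup.zpowers a : Set G)) := by
    rw [← Subgroup.card_map_of_injective (K := φ.range) V.subtype_injective]
    apply Subgroup.card_le_of_le
    rintro _ ⟨_, ⟨v, rfl⟩, rfl⟩
    refine Subgroup.mem_inf.2 ⟨(φ v).2, hcent _ ?_⟩
    exact hcc v v.2
  rw [← h1, sq]
  exact Nat.mul_le_mul h2 h3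

end Cfsg.Agent.S0591
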