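import Cfsg.Statements.S0599
import Mathlib
import Cfsg.Agent.Lib.Helper1.Replace2

set_option autoImplicit false
open Cfsg

namespace Cfsg.Agent.S0599

/-- The Timmesfeld replacement Theorem: replacing a best offender A by C_A([U, A]) gives a best offender with fixed points [U, A]C_V(A), still nontrivial on V if A was. -/
theorem result {G : Type*} [Group G] [Finite G] {p : ℕ} [Fact p.Prime] (V A : Subgroup G) (hV : Cfsg.IsElementaryAbelian p V) (hAV : A ≤ Subgroup.normalizer (V : Set G)) (hA : Cfsg.IsBestOffenderOn p V A) (U : Subgroup G) (hU : U ≤ V) : Cfsg.IsBestOffenderOn p V (A ⊓ Subgroup.centralizer ((⁅U, A⁆ : Subgroup G) : Set G)) ∧ V ⊓ Subgroup.centralizer ((A ⊓ Subgroup.centralizer ((⁅U, A⁆ : Subgroup G) : Set G) : Subgroup G) : Set G) = ⁅U, A⁆ ⊔ (V ⊓ Subgroup.centralizer (A : Set G)) ∧ (⁅V, A⁆ ≠ ⊥ → ⁅V, A ⊓ Subgroup.centralizer ((⁅U, A⁆ : Subgroup G) : Set G)⁆ ≠ ⊥) := by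
  obtain ⟨hmax, hab, hpw⟩ := hA
  have hm := Cfsg.Agent.Lib.Helper1.repl_main hV hAV hab hmax U hU
  obtain ⟨B₀, hB₀⟩ : ∃ B₀, B₀ = A ⊓ Subgroup.centralizer ((⁅U, A⁆ : Subgroup G) : Set G) :=
    ⟨_, rfl⟩
  rw [← hB₀] at hm ⊢
  have hBA : B₀ ≤ A := hB₀ ▸ inf_le_left
  refine ⟨⟨?_, ?_, ?_⟩, hm.1, ?_⟩
  · intro B hB
    rw [← hm.2]
    exact hmax B (hB.trans hBA)
  · exact (Subgroup.commutator_mono hBA hBA).trans hab
  · exact fun a ha => hpw a (hBA ha)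
  · intro hne
    exact Cfsg.Agent.Lib.Helper1.repl_nontrivial hV hAV hpw U hU hm.1 hne

end Cfsg.Agent.S0599
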