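import Cfsg.Statements.S0600
import Mathlib
import Cfsg.Agent.Lib.Helper4.PCore
import Cfsg.Agent.Lib.Lead.Hall
import Cfsg.Agent.Lib.Helper1.PLocalMisc

set_option autoImplicit false
open Cfsg

namespace Cfsg.Agent.S0600

/-- A normal elementary abelian p-subgroup generated by the fixed points of the Sylow p-subgroups admits no nontrivial normal p-subgroup of G modulo its centralizer. -/
theorem result {G : Type*} [Group G] [Finite G] {p : ℕ} [Fact p.Prime] (V : Subgroup G) [V.Normal] (hV : Cfsg.IsElementaryAbelian p V) (hgen : V = ⨆ S : Sylow p G, V ⊓ Subgroup.centralizer ((S : Subgroup G) : Set G)) : Cfsg.pCore p (G ⧸ Subgroup.centralizer (V : Set G)) = ⊥ := by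
  have hPn := Cfsg.Agent.Lib.Helper4.pCore_normal p (G ⧸ Subgroup.centralizer (V : Set G))
  have hPp := Cfsg.Agent.Lib.Helper4.pCore_isPGroup p (G ⧸ Subgroup.centralizer (V : Set G))
  obtain ⟨k, hk⟩ := IsPGroup.iff_card.1 hPp
  obtain ⟨P, hP⟩ : ∃ P, P = Cfsg.pCore p (G ⧸ Subgroup.centralizer (V : Set G)) := ⟨_, rfl⟩
  rw [← hP] at hPn hk ⊢
  obtain ⟨D, hD⟩ : ∃ D, D = P.comap (QuotientGroup.mk' (Subgroup.centralizer (V : Set G))) :=
    ⟨_, rfl⟩
  have hDn : D.Normal := hD ▸ hPn.comap _
  have hCD : Subgroup.centralizer (V : Set G) ≤ D := by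
    intro c hc
    rw [hD, Subgroup.mem_comap]
    have : QuotientGroup.mk' (Subgroup.centralizer (V : Set G)) c = 1 :=
      (QuotientGroup.eq_one_iff c).2 hc
    rw [this]
    exact P.one_mem
  have hcard : Nat.card D = Nat.card P * Nat.card (Subgroup.centralizer (V : Set G)) := by
    rw [hD]; exact Cfsg.Agent.Lib.Lead.card_comap_mk' _ P
  have hrel : (Subgroup.centralizer (V : Set G)).relIndex D = p ^ k := by
    have h1 := Subgroup.relIndex_mul_relIndex ⊥ (Subgroup.centralizer (V : Set G)) D bot_le hCD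
    rw [Subgroup.relIndex_bot_left, Subgroup.relIndex_bot_left, hcard, hk] at h1
    have hpos : 0 < Nat.card (Subgroup.centralizer (V : Set G)) := Nat.card_pos
    apply Nat.eq_of_mul_eq_mul_left hpos
    rw [h1]; ring
  have hDc : D ≤ Subgroup.centralizer ((⨆ S : Sylow p G,
      V ⊓ Subgroup.centralizer ((S : Subgroup G) : Set G) : Subgroup G) : Set G) :=
    Cfsg.Agent.Lib.Helper1.le_centralizer_iSup_of_sylow
      (fun S : Sylow p G => V ⊓ Subgroup.centralizer ((S : Subgroup G) : Set G))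
      (fun S => by rw [Subgroup.le_centralizer_iff]; exact inf_le_right) _ D hrel
      (by rw [← hgen])
  rw [← hgen] at hDc
  rw [eq_bot_iff]
  intro x hx
  obtain ⟨g, rfl⟩ := QuotientGroup.mk_surjective x
  have hg : g ∈ D := by rw [hD]; exact hx
  rw [Subgroup.mem_bot, QuotientGroup.eq_one_iff]
  exact hDc hg

end Cfsg.Agent.S0600
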