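import Cfsg.Statements.S0601
import Mathlib
import Cfsg.Agent.Lib.Helper4.PCore
import Cfsg.Agent.Lib.Helper1.PLocalMisc
import Cfsg.Agent.Lib.Helper1.Basic

set_option autoImplicit false
open Cfsg

namespace Cfsg.Agent.S0601

open scoped Pointwise

/-- When O_p(G) contains its centralizer, the normal closure of Ω₁(Z(S)) is elementary abelian and G has no nontrivial normal p-subgroup modulo its centralizer. -/
theorem result {G : Type*} [Group G] [Finite G] {p : ℕ} [Fact p.Prime] (hc : Subgroup.centralizer (Cfsg.pCore p G : Set G) ≤ Cfsg.pCore p G) : (⨆ S : Sylow p G, Cfsg.omegaOne p (((S : Subgroup G)) ⊓ Subgroup.centralizer ((S : Subgroup G) : Set G))).Normal ∧ Cfsg.IsElementaryAbelian p (⨆ S : Sylow p G, Cfsg.omegaOne p (((S : Subgroup G)) ⊓ Subgroup.centralizer ((S : Subgroup G) : Set G))) ∧ ∀ D : Subgroup G, D.Normal → Subgroup.centralizer ((⨆ S : Sylow p G, Cfsg.omegaOne p (((S : Subgroup G)) ⊓ Subgroup.centralizer ((S : Subgroup G) : Set G)) : Subgroup G) : Set G) ≤ D → (∃ k : ℕ, (Subgroup.centralizer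 ((⨆ S : Sylow p G, Cfsg.omegaOne p (((S : Subgroup G)) ⊓ Subgroup.centralizer ((S : Subgroup G) : Set G)) : Subgroup G) : Set G)).relIndex D = p ^ k) → D = Subgroup.centralizer ((⨆ S : Sylow p G, Cfsg.omegaOne p (((S : Subgroup G)) ⊓ Subgroup.centralizer ((S : Subgroup G) : Set G)) : Subgroup G) : Set G) := by
  obtain ⟨W, hW⟩ : ∃ W, W = ⨆ S : Sylow p G, Cfsg.omegaOne p (((S : Subgroup G)) ⊓
      Subgroup.centralizer ((S : Subgroup G) : Set G)) := ⟨_, rfl⟩
  rw [← hW]
  refine ⟨?_, ?_, ?_⟩
  · constructor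
    intro w hw g
    rw [hW] at hw
    refine Subgroup.iSup_induction (C := fun x => g * x * g⁻¹ ∈ W) _ hw ?_ ?_ ?_
    · intro S x hx
      unfold Cfsg.omegaOne at hx
      induction hx using Subgroup.closure_induction with
      | mem y hy =>
        obtain ⟨hy1, hy2⟩ := hy
        obtain ⟨hyS, hyC⟩ := Subgroup.mem_inf.1 hy1
        have h1 : g * y * g⁻¹ ∈ Cfsg.omegaOne p ((((g • S : Sylow p G) : Subgroup G)) ⊓
            Subgroup.centralizer (((g • S : Sylow p G) : Subgroup G) : Set G)) := by
          apply Subgroup.subset_closure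
          refine ⟨Subgroup.mem_inf.2 ⟨?_, ?_⟩, ?_⟩
          · rw [Sylow.coe_subgroup_smul]
            exact Cfsg.Agent.Lib.Helper1.conj_mem_conj_smul g hyS
          · rw [Subgroup.mem_centralizer_iff]
            intro h hh
            rw [SetLike.mem_coe, Sylow.coe_subgroup_smul,
              Cfsg.Agent.Lib.Helper1.mem_conj_smul] at hh
            rw [Subgroup.mem_centralizer_iff] at hyC
            have h2 := hyC _ hh
            calc h * (g * y * g⁻¹) = g * ((g⁻¹ * h * g) * y) * g⁻¹ := by group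
              _ = g * (y * (g⁻¹ * h * g)) * g⁻¹ := by rw [h2]
              _ = g * y * g⁻¹ * h := by group
          · rw [conj_pow, hy2]; group
        rw [hW]
        exact (le_iSup (fun S : Sylow p G => Cfsg.omegaOne p (((S : Subgroup G)) ⊓
          Subgroup.centralizer ((S : Subgroup G) : Set G))) (g • S)) h1
      | one => simpa using W.one_mem
      | mul y z _ _ ihy ihz =>
        have := W.mul_mem ihy ihz
        have e : g * y * g⁻¹ * (g * z * g⁻¹) = g * (y * z) * g⁻¹ := by group
        rwa [e] at this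
      | inv y _ ihy =>
        have := W.inv_mem ihy
        have e : (g * y * g⁻¹)⁻¹ = g * y⁻¹ * g⁻¹ := by group
        rwa [e] at this
    · simpa using W.one_mem
    · intro x y hx hy
      have := W.mul_mem hx hy
      have e : g * x * g⁻¹ * (g * y * g⁻¹) = g * (x * y) * g⁻¹ := by group
      rwa [e] at this
  · have h1 : Cfsg.IsElementaryAbelian p (Subgroup.closure {x : G | x ∈ Cfsg.pCore p G ⊓
        Subgroup.centralizer (Cfsg.pCore p G : Set G) ∧ x ^ p = 1}) := by
      apply Cfsg.Agent.Lib.Helper1.ea_closure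
      · rintro a ⟨ha, -⟩ b ⟨hb, -⟩
        have h2 := (Subgroup.mem_inf.1 hb).2
        rw [Subgroup.mem_centralizer_iff] at h2
        exact h2 a (Subgroup.mem_inf.1 ha).1
      · rintro a ⟨-, ha⟩
        exact ha
    refine Cfsg.Agent.Lib.Helper1.ea_mono h1 ?_
    rw [hW]
    apply iSup_le
    intro S
    unfold Cfsg.omegaOne
    apply Subgroup.closure_mono
    rintro x ⟨hx1, hx2⟩
    refine ⟨?_, hx2⟩
    have hxC : x ∈ Subgroup.centralizer (Cfsg.pCore p G : Set G) :=
      Subgroup.centralizer_le (Cfsg.Agent.Lib.Helper4.pCore_le_sylow S) (Subgroup.mem_inf.1 hx1).2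
    exact Subgroup.mem_inf.2 ⟨hc hxC, hxC⟩
  · intro D hDn hCD hk
    obtain ⟨k, hk⟩ := hk
    have hX : ∀ S : Sylow p G, (S : Subgroup G) ≤ Subgroup.centralizer
        ((Cfsg.omegaOne p (((S : Subgroup G)) ⊓
          Subgroup.centralizer ((S : Subgroup G) : Set G)) : Subgroup G) : Set G) := by
      intro S
      rw [Subgroup.le_centralizer_iff]
      unfold Cfsg.omegaOne
      rw [Subgroup.closure_le]
      rintro x ⟨hx1, -⟩
      exact (Subgroup.mem_inf.1 hx1).2
    have h1 := Cfsg.Agent.Lib.Helper1.le_centralizer_iSup_of_sylow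
      (fun S : Sylow p G => Cfsg.omegaOne p (((S : Subgroup G)) ⊓
        Subgroup.centralizer ((S : Subgroup G) : Set G))) hX
      (Subgroup.centralizer (W : Set G)) D (by rw [hk]) (by rw [← hW])
    rw [← hW] at h1
    exact le_antisymm h1 hCD

end Cfsg.Agent.S0601
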