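import Cfsg.Statements.S0603
import Mathlib
import Cfsg.Agent.Lib.Helper1.ThompsonJ

set_option autoImplicit false
open Cfsg

namespace Cfsg.Agent.S0603

/-- The Thompson subgroup of any subgroup containing J(G) is J(G) itself. -/
theorem result {G : Type*} [Group G] [Finite G] {p : ℕ} [Fact p.Prime] (U : Subgroup G) (hU : Cfsg.thompsonSubgroup p G ≤ U) : Cfsg.thompsonSubgroupOf p U = Cfsg.thompsonSubgroup p G := by
  obtain ⟨A, hA⟩ := Cfsg.Agent.Lib.Helper1.maxEA_nonempty (p := p) (G := G)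
  rw [Cfsg.Agent.Lib.Helper1.thompsonOf_eq U hA
    ((Cfsg.Agent.Lib.Helper1.maxEA_le_thompson hA).trans hU)]
  unfold Cfsg.thompsonSubgroup
  congr 1
  ext B
  constructor
  · exact fun h => h.1
  · exact fun h => ⟨h, (Cfsg.Agent.Lib.Helper1.maxEA_le_thompson h).trans hU⟩

end Cfsg.Agent.S0603
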