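import Cfsg.Statements.S0604
import Mathlib
import Cfsg.Agent.Lib.Helper1.ThompsonJ

set_option autoImplicit false
open Cfsg

namespace Cfsg.Agent.S0604

/-- The Thompson subgroup of G is the join of the Thompson subgroups of its Sylow p-subgroups. -/
theorem result {G : Type*} [Group G] [Finite G] {p : ℕ} [Fact p.Prime] : Cfsg.thompsonSubgroup p G = ⨆ S : Sylow p G, Cfsg.thompsonSubgroupOf p (S : Subgroup G) := by
  have key : ∀ S : Sylow p G, ∃ A₀ ∈ Cfsg.maxElementaryAbelianSubgroups p G,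
      A₀ ≤ (S : Subgroup G) := by
    intro S
    obtain ⟨A, hA⟩ := Cfsg.Agent.Lib.Helper1.maxEA_nonempty (p := p) (G := G)
    obtain ⟨S', hS'⟩ := (Cfsg.Agent.Lib.Helper1.ea_isPGroup hA.1).exists_le_sylow
    obtain ⟨g, hg⟩ := MulAction.exists_smul_eq G S' S
    refine ⟨A.map (MulAut.conj g).toMonoidHom, Cfsg.Agent.Lib.Helper1.maxEA_map_equiv _ hA, ?_⟩
    rw [← hg]
    rintro _ ⟨a, ha, rfl⟩
    rw [Sylow.coe_subgroup_smul]
    exact Subgroup.smul_mem_pointwise_smul _ _ _ (hS' ha)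
  apply le_antisymm
  · apply sSup_le
    intro A hA
    obtain ⟨S, hS⟩ := (Cfsg.Agent.Lib.Helper1.ea_isPGroup hA.1).exists_le_sylow
    refine le_trans ?_ (le_iSup _ S)
    rw [Cfsg.Agent.Lib.Helper1.thompsonOf_eq _ hA hS]
    exact le_sSup ⟨hA, hS⟩
  · apply iSup_le
    intro S
    obtain ⟨A₀, hA₀, hle⟩ := key S
    rw [Cfsg.Agent.Lib.Helper1.thompsonOf_eq _ hA₀ hle]
    exact sSup_le_sSup (fun A hA => hA.1)

end Cfsg.Agent.S0604
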