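import Cfsg.Statements.S0605
import Mathlib
import Cfsg.Agent.Lib.Helper1.ThompsonJ

set_option autoImplicit false
open Cfsg

namespace Cfsg.Agent.S0605

/-- Elements of order p in the centralizer of the Thompson subgroup belong to the Thompson subgroup (so to its centre). -/
theorem result {G : Type*} [Group G] [Finite G] {p : ℕ} [Fact p.Prime] (x : G) (hx : x ∈ Subgroup.centralizer (Cfsg.thompsonSubgroup p G : Set G)) (ho : orderOf x = p) : x ∈ Cfsg.thompsonSubgroup p G := by
  obtain ⟨A, hA⟩ := Cfsg.Agent.Lib.Helper1.maxEA_nonempty (p := p) (G := G)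
  have h1 : Cfsg.IsElementaryAbelian p (Subgroup.zpowers x) :=
    Cfsg.Agent.Lib.Helper1.ea_zpowers x (by rw [← ho]; exact pow_orderOf_eq_one x)
  have h2 : Cfsg.IsElementaryAbelian p (A ⊔ Subgroup.zpowers x) := by
    refine Cfsg.Agent.Lib.Helper1.ea_sup hA.1 h1 ?_
    rintro a ha _ ⟨k, rfl⟩
    have hxa : a * x = x * a := by
      rw [Subgroup.mem_centralizer_iff] at hx
      exact hx a (Cfsg.Agent.Lib.Helper1.maxEA_le_thompson hA ha)
    exact ((Commute.zpow_right (show Commute a x from hxa) k)).eq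
  have h3 := hA.2 _ h2
  have h4 : A = A ⊔ Subgroup.zpowers x := Subgroup.eq_of_le_of_card_ge le_sup_left h3
  apply Cfsg.Agent.Lib.Helper1.maxEA_le_thompson hA
  rw [h4]
  exact (le_sup_right : Subgroup.zpowers x ≤ _) (Subgroup.mem_zpowers x)

end Cfsg.Agent.S0605
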