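import Cfsg.Statements.S0606
import Mathlib
import Cfsg.Agent.Lib.Helper1.ThompsonJ

set_option autoImplicit false
open Cfsg

namespace Cfsg.Agent.S0606

/-- Elementary abelian p-subgroups of maximal order are best offenders on any normal elementary abelian p-subgroup. -/
theorem result {G : Type*} [Group G] [Finite G] {p : ℕ} [Fact p.Prime] (V : Subgroup G) [V.Normal] (hV : Cfsg.IsElementaryAbelian p V) (A : Subgroup G) (hA : A ∈ Cfsg.maxElementaryAbelianSubgroups p G) : Cfsg.IsBestOffenderOn p V A := by
  refine ⟨?_, ?_, ?_⟩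
  · intro B hB
    obtain ⟨C, hC⟩ : ∃ C, C = V ⊓ Subgroup.centralizer (B : Set G) := ⟨_, rfl⟩
    rw [← hC]
    have hBea : Cfsg.IsElementaryAbelian p B := Cfsg.Agent.Lib.Helper1.ea_mono hA.1 hB
    have hCea : Cfsg.IsElementaryAbelian p C :=
      Cfsg.Agent.Lib.Helper1.ea_mono hV (hC ▸ inf_le_left)
    have hcomm : ∀ b ∈ B, ∀ c ∈ C, b * c = c * b := by
      intro b hb c hc
      rw [hC] at hc
      have := (Subgroup.mem_inf.1 hc).2
      rw [Subgroup.mem_centralizer_iff] at this
      exact this b hb
    have h1 : Cfsg.IsElementaryAbelian p (B ⊔ C) :=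
      Cfsg.Agent.Lib.Helper1.ea_sup hBea hCea hcomm
    have h2 := hA.2 _ h1
    have h3 : B ≤ Subgroup.normalizer (C : Set G) := by
      intro b hb
      rw [Subgroup.mem_normalizer_iff]
      intro c
      constructor
      · intro hc
        rw [hcomm b hb c hc]
        simpa using hc
      · intro hc
        have h5 : b * c * b⁻¹ = c := by
          have h6 := hcomm b hb _ hc
          have h7 : b * (b * c * b⁻¹) = b * c := by rw [h6]; group
          exact mul_left_cancel h7
        rw [← h5]; exact hc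
    have h4 := Cfsg.Agent.Lib.Helper1.card_sup_mul_card_inf B C h3
    have h5 : B ⊓ C ≤ V ⊓ Subgroup.centralizer (A : Set G) := by
      intro x hx
      have hxV : x ∈ V := by
        have := (Subgroup.mem_inf.1 hx).2
        rw [hC] at this
        exact (Subgroup.mem_inf.1 this).1
      refine Subgroup.mem_inf.2 ⟨hxV, ?_⟩
      rw [Subgroup.mem_centralizer_iff]
      intro a ha
      exact Cfsg.Agent.Lib.Helper1.ea_comm hA.1 ha (hB (Subgroup.mem_inf.1 hx).1)
    have h6 := Subgroup.card_le_of_le h5
    calc Nat.card B * Nat.card C = Nat.card ↥(B ⊔ C) * Nat.card ↥(B ⊓ C) := h4.symm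
      _ ≤ Nat.card A * Nat.card ↥(V ⊓ Subgroup.centralizer (A : Set G)) := Nat.mul_le_mul h2 h6
  · have : ⁅A, A⁆ = ⊥ := by
      rw [Subgroup.commutator_eq_bot_iff_le_centralizer]
      intro a ha
      rw [Subgroup.mem_centralizer_iff]
      intro b hb
      exact Cfsg.Agent.Lib.Helper1.ea_comm hA.1 hb ha
    rw [this]; exact bot_le
  · intro a ha
    rw [hA.1.2 a ha]; exact Subgroup.one_mem _

end Cfsg.Agent.S0606
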