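import Cfsg.Statements.S0607
import Mathlib
import Cfsg.Agent.S0606
import Cfsg.Agent.Lib.Helper1.Replace2

set_option autoImplicit false
open Cfsg

namespace Cfsg.Agent.S0607

open scoped commutatorElement
open Cfsg.Agent.Lib.Helper1

/-- The replacement Theorem for the Thompson subgroup: from A of maximal order among elementary abelian p-subgroups one obtains A₀ = [V, A] C_A([V, A]) of the same kind, quadratic on V and nontrivial on V when A is. -/
theorem result {G : Type*} [Group G] [Finite G] {p : ℕ} [Fact p.Prime] (V : Subgroup G) [V.Normal] (hV : Cfsg.IsElementaryAbelian p V) (A : Subgroup G) (hA : A ∈ Cfsg.maxElementaryAbelianSubgroups p G) : (⁅V, A⁆ ⊔ (A ⊓ Subgroup.centralizer ((⁅V, A⁆ : Subgroup G) : Set G))) ∈ Cfsg.maxElementaryAbelianSubgroups p G ∧ ⁅⁅V, ⁅V, A⁆ ⊔ (A ⊓ Subgroup.centralizer ((⁅V, A⁆ : Subgroup G) : Set G))⁆, ⁅V, A⁆ ⊔ (A ⊓ Subgroup.centralizer ((⁅V, A⁆ : Subgroup G) : Set G))⁆ = ⊥ ∧ (⁅V, A⁆ ≠ ⊥ → ⁅V,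 ⁅V, A⁆ ⊔ (A ⊓ Subgroup.centralizer ((⁅V, A⁆ : Subgroup G) : Set G))⁆ ≠ ⊥) := by
  have hAea := hA.1
  have hAV : A ≤ Subgroup.normalizer (V : Set G) := fun a _ =>
    (Subgroup.normalizer_eq_top (H := V)) ▸ Subgroup.mem_top a
  have hab : ⁅A, A⁆ ≤ Subgroup.centralizer (V : Set G) := by
    have : ⁅A, A⁆ = ⊥ := by
      rw [Subgroup.commutator_eq_bot_iff_le_centralizer]
      intro a ha
      rw [Subgroup.mem_centralizer_iff]
      intro b hb
      exact ea_comm hAea hb ha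
    rw [this]; exact bot_le
  have hpw : ∀ a ∈ A, a ^ p ∈ Subgroup.centralizer (V : Set G) := fun a ha => by
    rw [hAea.2 a ha]; exact Subgroup.one_mem _
  have hmax := (Cfsg.Agent.S0606.result V hV A hA).1
  have hm := repl_main hV hAV hab hmax V le_rfl
  have hnt : ⁅V, A⁆ ≠ ⊥ → ⁅V, A ⊓ Subgroup.centralizer ((⁅V, A⁆ : Subgroup G) : Set G)⁆ ≠ ⊥ :=
    fun hne => repl_nontrivial hV hAV hpw V le_rfl hm.1 hne
  obtain ⟨X, hX⟩ : ∃ X, X = ⁅V, A⁆ := ⟨_, rfl⟩
  rw [← hX] at hm hnt ⊢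
  obtain ⟨B₀, hB₀⟩ : ∃ B₀, B₀ = A ⊓ Subgroup.centralizer (X : Set G) := ⟨_, rfl⟩
  rw [← hB₀] at hm hnt ⊢
  have hBA : B₀ ≤ A := hB₀ ▸ inf_le_left
  have hBX : B₀ ≤ Subgroup.centralizer (X : Set G) := hB₀ ▸ inf_le_right
  have hXV : X ≤ V := hX ▸ commutator_le_of_normalizer hAV
  have hXea : Cfsg.IsElementaryAbelian p X := ea_mono hV hXV
  have hBea : Cfsg.IsElementaryAbelian p B₀ := ea_mono hAea hBA
  have hcomm : ∀ x ∈ X, ∀ b ∈ B₀, x * b = b * x := by
    intro x hx b hb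
    have := hBX hb
    rw [Subgroup.mem_centralizer_iff] at this
    exact this x hx
  have hA₀ea : Cfsg.IsElementaryAbelian p (X ⊔ B₀) := ea_sup hXea hBea hcomm
  have hXn : X ≤ Subgroup.normalizer (B₀ : Set G) := by
    intro x hx
    rw [Subgroup.mem_normalizer_iff]
    intro b
    constructor
    · intro hb
      have : x * b * x⁻¹ = b := by rw [hcomm x hx b hb]; group
      rw [this]; exact hb
    · intro hb
      have h1 := hcomm x hx _ hb
      have : x * b * x⁻¹ = b := by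
        have h2 : x * (x * b * x⁻¹) = x * b := by rw [h1]; group
        exact mul_left_cancel h2
      rwa [this] at hb
  have h1 := card_sup_mul_card_inf X B₀ hXn
  have hCn : X ≤ Subgroup.normalizer
      ((V ⊓ Subgroup.centralizer (A : Set G) : Subgroup G) : Set G) :=
    le_normalizer_of_ea hV hXV inf_le_left
  have h2 := card_sup_mul_card_inf X (V ⊓ Subgroup.centralizer (A : Set G)) hCn
  have h3 : X ⊓ B₀ ≤ X ⊓ (V ⊓ Subgroup.centralizer (A : Set G)) := by
    intro x hx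
    obtain ⟨hxX, hxB⟩ := Subgroup.mem_inf.1 hx
    refine Subgroup.mem_inf.2 ⟨hxX, Subgroup.mem_inf.2 ⟨hXV hxX, ?_⟩⟩
    rw [Subgroup.mem_centralizer_iff]
    intro a ha
    exact ea_comm hAea ha (hBA hxB)
  have h4 := Subgroup.card_le_of_le h3
  have h5 : Nat.card A * Nat.card ↥(X ⊓ B₀) ≤ Nat.card ↥(X ⊔ B₀) * Nat.card ↥(X ⊓ B₀) := by
    have e1 : Nat.card A * Nat.card ↥(X ⊓ (V ⊓ Subgroup.centralizer (A : Set G)))
        = Nat.card B₀ * Nat.card X := by
      have hpos : 0 < Nat.card ↥(V ⊓ Subgroup.centralizer (A : Set G)) := Nat.card_pos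
      apply Nat.eq_of_mul_eq_mul_right hpos
      calc Nat.card A * Nat.card ↥(X ⊓ (V ⊓ Subgroup.centralizer (A : Set G))) *
            Nat.card ↥(V ⊓ Subgroup.centralizer (A : Set G))
          = (Nat.card A * Nat.card ↥(V ⊓ Subgroup.centralizer (A : Set G))) *
            Nat.card ↥(X ⊓ (V ⊓ Subgroup.centralizer (A : Set G))) := by ring
        _ = (Nat.card B₀ * Nat.card ↥(X ⊔ (V ⊓ Subgroup.centralizer (A : Set G)))) *
            Nat.card ↥(X ⊓ (V ⊓ Subgroup.centralizer (A : Set G))) := by rw [hm.2, hm.1]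
        _ = Nat.card B₀ * (Nat.card ↥(X ⊔ (V ⊓ Subgroup.centralizer (A : Set G))) *
            Nat.card ↥(X ⊓ (V ⊓ Subgroup.centralizer (A : Set G)))) := by ring
        _ = Nat.card B₀ * (Nat.card X * Nat.card ↥(V ⊓ Subgroup.centralizer (A : Set G))) := by
            rw [h2]
        _ = Nat.card B₀ * Nat.card X * Nat.card ↥(V ⊓ Subgroup.centralizer (A : Set G)) := by
            ring
    calc Nat.card A * Nat.card ↥(X ⊓ B₀)
        ≤ Nat.card A * Nat.card ↥(X ⊓ (V ⊓ Subgroup.centralizer (A : Set G))) :=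
          Nat.mul_le_mul_left _ h4
      _ = Nat.card B₀ * Nat.card X := e1
      _ = Nat.card ↥(X ⊔ B₀) * Nat.card ↥(X ⊓ B₀) := by rw [h1]; ring
  have h6 : Nat.card A ≤ Nat.card ↥(X ⊔ B₀) := Nat.le_of_mul_le_mul_right h5 Nat.card_pos
  refine ⟨⟨hA₀ea, fun B hB => (hA.2 B hB).trans h6⟩, ?_, ?_⟩
  · have hVA₀ : ⁅V, X ⊔ B₀⁆ ≤ X := by
      rw [Subgroup.commutator_le]
      intro v hv a₀ ha₀
      have := Subgroup.coe_mul_of_left_le_normalizer_right X B₀ hXn
      rw [← SetLike.mem_coe, this, Set.mem_mul] at ha₀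
      obtain ⟨x, hx, b, hb, rfl⟩ := ha₀
      have hxV := hXV hx
      have hvb : ⁅v, b⁆ ∈ V := comm_mem_of_normalizer (hAV (hBA hb)) hv
      have e : ⁅v, x * b⁆ = ⁅v, b⁆ := by
        calc ⁅v, x * b⁆ = x * (v * b * v⁻¹ * b⁻¹) * x⁻¹ := by
              simp only [commutatorElement_def]
              calc v * (x * b) * v⁻¹ * (x * b)⁻¹ = (v * x) * b * v⁻¹ * b⁻¹ * x⁻¹ := by group
                _ = (x * v) * b * v⁻¹ * b⁻¹ * x⁻¹ := by rw [ea_comm hV hv hxV]
                _ = _ := by group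
          _ = x * ⁅v, b⁆ * x⁻¹ := rfl
          _ = ⁅v, b⁆ := by rw [ea_comm hV hxV hvb]; group
      rw [e, hX]
      exact Subgroup.commutator_mem_commutator hv (hBA hb)
    have hXc : X ≤ Subgroup.centralizer ((X ⊔ B₀ : Subgroup G) : Set G) := by
      rw [Subgroup.le_centralizer_iff]
      refine sup_le ?_ hBX
      intro x hx
      rw [Subgroup.mem_centralizer_iff]
      intro y hy
      exact ea_comm hXea hy hx
    have : ⁅X, X ⊔ B₀⁆ = ⊥ := Subgroup.commutator_eq_bot_iff_le_centralizer.2 hXc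
    exact le_bot_iff.1 (this ▸ Subgroup.commutator_mono hVA₀ le_rfl)
  · intro hne hbot
    apply hnt hne
    exact le_bot_iff.1 (hbot ▸ Subgroup.commutator_mono le_rfl le_sup_right)

end Cfsg.Agent.S0607
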