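import Cfsg.Statements.S0622
import Mathlib
import Cfsg.Agent.Lib.Helper3.StableNC

set_option autoImplicit false
universe u
open Cfsg

namespace Cfsg.Agent.S0622

open Cfsg.Agent.Lib.Helper3

/-- Basic properties of the stable normal closure W(S) of Ω₁(Z(S)) in a finite p-group: characteristic, squeezed between Ω₁(Z(S)) and Ω₁(Z(J(S))), nontrivial for S ≠ 1, and transported by group isomorphisms. -/
theorem result {S : Type u} [Group S] [Finite S] {p : ℕ} [Fact p.Prime] (hS : IsPGroup p S) : (Cfsg.stableNormalClosure p S).Characteristic ∧ Cfsg.omegaOne p (Subgroup.center S) ≤ Cfsg.stableNormalClosure p S ∧ Cfsg.stableNormalClosure p S ≤ Cfsg.omegaCenterThompson p S ∧ (Nontrivial S → Cfsg.stableNormalClosure p S ≠ ⊥) ∧ ∀ (S' : Type u) [Group S'] (η : S ≃* S'), (Cfsg.stableNormalClosure p S).map η.toMonoidHom = Cfsg.stableNormalClosure p S' := by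
  have hmap := snc_map_equiv_eq_of_le
    (F := fun (S : Type u) [Group S] => Cfsg.stableNormalClosure p S)
    (fun (S S' : Type u) [Group S] [Group S'] (η : S ≃* S') => snc_map_le p S S' η)
  have hle : Cfsg.omegaOne p (Subgroup.center S) ≤ Cfsg.stableNormalClosure p S := by
    unfold Cfsg.stableNormalClosure
    exact le_sInf (fun W hW => hW.1)
  refine ⟨?_, hle, ?_, ?_, fun S' _ η => hmap S S' η⟩
  · rw [Subgroup.characteristic_iff_map_eq]
    intro φ
    exact hmap S S φ
  · unfold Cfsg.stableNormalClosure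
    exact sInf_le (snc_zj_mem p S)
  · intro hnt hbot
    have h1 := snc_omegaOne_center_ne_bot S hS
    rw [hbot, le_bot_iff] at hle
    exact h1 hle

end Cfsg.Agent.S0622
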