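import Cfsg.Statements.S0630
import Mathlib
import Cfsg.Agent.Lib.Helper2.PConstr

set_option autoImplicit false
open Cfsg

namespace Cfsg.Agent.S0630


open Cfsg.Agent.Lib.Helper2 in
theorem pLayer_bot_iff {X : Type*} [Group X] [Finite X] (p : ℕ) [Fact p.Prime] :
    Cfsg.pLayer p X = ⊥ ↔ ∀ Kb : Subgroup (X ⧸ Cfsg.pPrimeCore p X), ¬ Cfsg.IsComponent Kb := by
  constructor
  · intro hL Kb hKb
    apply component_not_le_centralizer_self Kb hKb
    have h1 : Kb ≤ Cfsg.layer (X ⧸ Cfsg.pPrimeCore p X) := component_le_layer Kb hKb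
    rw [← pLayer_map_eq, hL, Subgroup.map_bot] at h1
    exact h1.trans bot_le
  · intro hno
    rw [eq_bot_iff]
    refine sSup_le ?_
    intro K hK
    exact absurd hK.2.1 (hno _)

/-- p-constraint passes to and from the quotient by the largest normal subgroup of order prime to p. -/
theorem result {G : Type*} [Group G] [Finite G] {p : ℕ} [Fact p.Prime] : Cfsg.IsPConstrained p G ↔ Cfsg.IsPConstrained p (G ⧸ Cfsg.pPrimeCore p G) := by
  rw [Cfsg.Agent.Lib.Helper2.pConstrained_iff, Cfsg.Agent.Lib.Helper2.pConstrained_iff,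
    pLayer_bot_iff, pLayer_bot_iff]
  have hQ1 := Cfsg.Agent.Lib.Helper2.pPrimeCore_quotient_eq_bot p G
  have e : (G ⧸ Cfsg.pPrimeCore p G) ≃*
      ((G ⧸ Cfsg.pPrimeCore p G) ⧸ Cfsg.pPrimeCore p (G ⧸ Cfsg.pPrimeCore p G)) :=
    (QuotientGroup.quotientBot).symm.trans (QuotientGroup.quotientMulEquivOfEq hQ1.symm)
  exact ⟨Cfsg.Agent.Lib.Helper2.no_comp_of_mulEquiv e,
    Cfsg.Agent.Lib.Helper2.no_comp_of_mulEquiv e.symm⟩

end Cfsg.Agent.S0630
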