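import Cfsg.Statements.S0636
import Mathlib
import Cfsg.Agent.Lib.Lead.OmegaOdd
import Cfsg.Agent.Lib.Lead.NormalChain
import Cfsg.Agent.Lib.Helper6.SylowSub
-- import your own Cfsg.Agent.* helpers here

set_option autoImplicit false
open Cfsg

namespace Cfsg.Agent.S0636


theorem main {R : Type*} [Group R] [Finite R] {p : ℕ} [Fact p.Prime] (hp : p ≠ 2)
    (hR : IsPGroup p R) :
    ∀ (n : ℕ) (S : Subgroup R), S.Normal → Nat.card S = n → ¬ IsCyclic S →
      ∃ A : Subgroup R, A ≤ S ∧ A.Normal ∧ Cfsg.IsElementaryAbelian p A ∧ Nat.card A = p ^ 2 := by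
  intro n
  induction n using Nat.strong_induction_on with
  | _ n ih =>
    intro S hSn hSc hS
    haveI := hSn
    have hpp : p.Prime := Fact.out
    obtain ⟨m, hm⟩ := IsPGroup.iff_card.mp (hR.to_subgroup S)
    have hm1 : 1 ≤ m := by
      rcases Nat.eq_zero_or_pos m with h | h
      · exfalso; apply hS
        rw [h, pow_zero] at hm
        haveI : Subsingleton S := (Nat.card_eq_one_iff_unique.mp hm).1
        infer_instance
      · exact h
    obtain ⟨M, hMn, hMS, hMc⟩ := Cfsg.Agent.Lib.Lead.exists_normal_le_card_pow hR S (m - 1)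
      (by rw [hm]; exact Nat.pow_le_pow_right hpp.pos (by omega))
    haveI := hMn
    by_cases hMcyc : IsCyclic M
    · have hidx : (M.subgroupOf S).index = p := by
        have h1 := Cfsg.Agent.Lib.Helper6.card_mul_relIndex_of_le hMS
        rw [hMc, hm] at h1
        have h2 : p ^ (m - 1) * p = p ^ m := by rw [← pow_succ]; congr 1; omega
        rw [← h2] at h1
        exact Nat.eq_of_mul_eq_mul_left (pow_pos hpp.pos _) h1
      haveI hcyc' : IsCyclic (M.subgroupOf S) := by
        haveI := hMcyc
        exact isCyclic_of_surjective (Subgroup.subgroupOfEquivOfLe hMS).symm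
          (Subgroup.subgroupOfEquivOfLe hMS).symm.surjective
      obtain ⟨hΩ, hΩc⟩ := Cfsg.Agent.Lib.Lead.omega_cyclic_index_p hp (hR.to_subgroup S) hS
        (M.subgroupOf S) hcyc' hidx
      obtain ⟨Ω, hΩdef⟩ : ∃ Ω : Subgroup S, Ω = Subgroup.closure {x : S | x ^ p = 1} :=
        ⟨_, rfl⟩
      rw [← hΩdef] at hΩ hΩc
      have hcA : Nat.card (Ω.map S.subtype) = p ^ 2 := by
        rw [← hΩc]
        exact (Nat.card_congr (Ω.equivMapOfInjective S.subtype S.subtype_injective).toEquiv).symm
      refine ⟨Ω.map S.subtype, Subgroup.map_subtype_le _, ?_, ⟨?_, ?_⟩, hcA⟩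
      · have e : Ω.map S.subtype = Subgroup.closure {g : R | g ∈ S ∧ g ^ p = 1} := by
          rw [hΩdef, MonoidHom.map_closure]
          congr 1
          ext g
          constructor
          · rintro ⟨x, hx, rfl⟩
            exact ⟨x.2, by have := congrArg Subtype.val (hx : x ^ p = 1); simpa using this⟩
          · rintro ⟨hg, hgp⟩
            exact ⟨⟨g, hg⟩, Subtype.ext (by simpa using hgp), rfl⟩
        rw [e]
        apply Cfsg.Agent.Lib.Lead.closure_normal_of_conj_invariant
        rintro g x ⟨hx, hxp⟩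
        refine ⟨hSn.conj_mem x hx g, ?_⟩
        rw [conj_pow, hxp]; group
      · exact IsPGroup.isMulCommutative_of_card_eq_prime_sq hcA
      · intro a ha
        obtain ⟨x, hx, rfl⟩ := Subgroup.mem_map.mp ha
        have h1 := hΩ x hx
        have h2 := congrArg Subtype.val h1
        simpa using h2
    · have hlt : Nat.card M < n := by
        rw [hMc, ← hSc, hm]; exact Nat.pow_lt_pow_right hpp.one_lt (by omega)
      obtain ⟨A, hAM, hAn, hAe, hAc⟩ := ih _ hlt M hMn rfl hMcyc
      exact ⟨A, hAM.trans hMS, hAn, hAe, hAc⟩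

/-- For odd p, every non-cyclic normal subgroup of a p-group contains a normal elementary abelian subgroup of the whole group of order p². -/
theorem result {R : Type*} [Group R] [Finite R] {p : ℕ} [Fact p.Prime] (hp : p ≠ 2) (hR : IsPGroup p R) (S : Subgroup R) [S.Normal] (hS : ¬ IsCyclic S) : ∃ A : Subgroup R, A ≤ S ∧ A.Normal ∧ Cfsg.IsElementaryAbelian p A ∧ Nat.card A = p ^ 2 := by
  exact main hp hR _ S inferInstance rfl hS

end Cfsg.Agent.S0636
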