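import Cfsg.Statements.S0638
import Mathlib
import Cfsg.Agent.Lib.Lead.OmegaOdd
import Cfsg.Agent.Lib.Lead.Class2
import Cfsg.Agent.Lib.Helper1.ThompsonJ
-- import your own Cfsg.Agent.* helpers here

set_option autoImplicit false
open Cfsg

namespace Cfsg.Agent.S0638


open scoped commutatorElement Pointwise

theorem cyclic_exp_card {H : Type*} [Group H] [Finite H] [IsCyclic H] (p : ℕ)
    (h : ∀ g : H, g ^ p = 1) : Nat.card H ∣ p := by
  obtain ⟨g, hg⟩ := IsCyclic.exists_generator (α := H)
  rw [← orderOf_eq_card_of_forall_mem_zpowers hg]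
  exact orderOf_dvd_of_pow_eq_one (h g)

theorem class2_of_card_cube {B : Type*} [Group B] [Finite B] {p : ℕ} [Fact p.Prime]
    (hB : Nat.card B = p ^ 3) : ⁅commutator B, (⊤ : Subgroup B)⁆ = ⊥ := by
  have hpp : p.Prime := Fact.out
  have hPG : IsPGroup p B := IsPGroup.of_card hB
  haveI : Nontrivial B := by
    rw [← Finite.one_lt_card_iff_nontrivial, hB]; exact Nat.one_lt_pow (by norm_num) hpp.one_lt
  haveI hZnt := hPG.center_nontrivial
  obtain ⟨j, hj⟩ := IsPGroup.iff_card.mp (hPG.to_subgroup (Subgroup.center B))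
  have hj1 : 1 ≤ j := by
    rcases Nat.eq_zero_or_pos j with h | h
    · rw [h, pow_zero] at hj
      exact absurd (Subgroup.card_eq_one.mp hj) ((Subgroup.nontrivial_iff_ne_bot _).mp hZnt)
    · exact h
  have hidx : Nat.card (B ⧸ Subgroup.center B) * p ^ j = p ^ 3 := by
    rw [← hj, ← hB]; exact (Subgroup.card_eq_card_quotient_mul_card_subgroup _).symm
  have hj3 : j ≤ 3 := by
    by_contra hcon; push_neg at hcon
    have h1 : p ^ 3 < p ^ j := Nat.pow_lt_pow_right hpp.one_lt hcon
    have hpos : 0 < Nat.card (B ⧸ Subgroup.center B) := Nat.card_pos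
    nlinarith
  have hq : Nat.card (B ⧸ Subgroup.center B) = p ^ (3 - j) := by
    have h1 : p ^ (3 - j) * p ^ j = p ^ 3 := by rw [← pow_add]; congr 1; omega
    rw [← h1] at hidx
    exact Nat.eq_of_mul_eq_mul_right (pow_pos hpp.pos j) hidx
  have hqc : ∀ a b : B ⧸ Subgroup.center B, a * b = b * a := by
    have h012 : 3 - j = 0 ∨ 3 - j = 1 ∨ 3 - j = 2 := by omega
    rcases h012 with h | h | h
    · rw [h, pow_zero] at hq
      haveI : Subsingleton (B ⧸ Subgroup.center B) := (Nat.card_eq_one_iff_unique.mp hq).1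
      intro a b; exact Subsingleton.elim _ _
    · rw [h, pow_one] at hq
      haveI : IsCyclic (B ⧸ Subgroup.center B) := isCyclic_of_prime_card hq
      intro a b
      obtain ⟨g, hg⟩ := IsCyclic.exists_generator (α := B ⧸ Subgroup.center B)
      obtain ⟨i, rfl⟩ := Subgroup.mem_zpowers_iff.mp (hg a)
      obtain ⟨k, rfl⟩ := Subgroup.mem_zpowers_iff.mp (hg b)
      rw [← zpow_add, ← zpow_add, add_comm]
    · rw [h] at hq
      haveI := IsPGroup.isMulCommutative_of_card_eq_prime_sq hq
      intro a b; exact mul_comm' a b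
  rw [Subgroup.commutator_eq_bot_iff_le_centralizer, commutator_def, Subgroup.commutator_le]
  intro g₁ _ g₂ _
  have hc : ⁅g₁, g₂⁆ ∈ Subgroup.center B := by
    rw [← QuotientGroup.eq_one_iff, ← QuotientGroup.mk'_apply, map_commutatorElement,
      commutatorElement_eq_one_iff_commute]
    exact hqc _ _
  rw [Subgroup.mem_centralizer_iff]
  intro h _
  exact (Subgroup.mem_center_iff.mp hc h)

/-- For odd p, in a non-cyclic metacyclic p-group the elements of order dividing p generate an elementary abelian subgroup of order p². -/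
theorem result {R : Type*} [Group R] [Finite R] {p : ℕ} [Fact p.Prime] (hp : p ≠ 2) (hR : IsPGroup p R) (hm : Cfsg.IsMetacyclic R) (hnc : ¬ IsCyclic R) : Cfsg.IsElementaryAbelian p (Cfsg.omegaOne p (⊤ : Subgroup R)) ∧ Nat.card ↥(Cfsg.omegaOne p (⊤ : Subgroup R)) = p ^ 2 := by
  classical
  have hpp : p.Prime := Fact.out
  obtain ⟨A, hAn, hAe, hAc⟩ := Cfsg.Agent.Lib.Lead.exists_normal_elemAb_sq hp hR hnc
  haveI := hAn
  obtain ⟨hAcomm, hAexp⟩ := hAe
  obtain ⟨N, hNn, hNc, hQc⟩ := hm
  haveI := hNn
  have hmem : ∀ x : R, x ^ p = 1 → x ∈ A := by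
    intro x hx
    by_contra hxA
    have hx1 : x ≠ 1 := fun h => hxA (h ▸ one_mem A)
    have hox : orderOf x = p := orderOf_eq_prime hx hx1
    obtain ⟨B, hB⟩ : ∃ B : Subgroup R, B = A ⊔ Subgroup.zpowers x := ⟨_, rfl⟩
    have hinf : Subgroup.zpowers x ⊓ A = ⊥ := by
      have hd : Nat.card ↥(Subgroup.zpowers x ⊓ A) ∣ p := by
        have := Subgroup.card_dvd_of_le (inf_le_left : Subgroup.zpowers x ⊓ A ≤ Subgroup.zpowers x)
        rwa [Nat.card_zpowers, hox] at this
      rcases (Nat.dvd_prime hpp).mp hd with h | h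
      · exact Subgroup.card_eq_one.mp h
      · exfalso
        have heq : Subgroup.zpowers x ⊓ A = Subgroup.zpowers x :=
          Subgroup.eq_of_le_of_card_ge inf_le_left (by rw [h, Nat.card_zpowers, hox])
        apply hxA
        have : x ∈ Subgroup.zpowers x ⊓ A := by rw [heq]; exact Subgroup.mem_zpowers x
        exact this.2
    have hBcard : Nat.card B = p ^ 3 := by
      have key := Cfsg.Agent.Lib.Helper1.card_sup_mul_card_inf (Subgroup.zpowers x) A
        (by rw [Subgroup.normalizer_eq_top]; exact le_top)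
      rw [hinf, Subgroup.card_bot, mul_one, Nat.card_zpowers, hox, hAc, sup_comm, ← hB] at key
      rw [key]; ring
    have hclass := class2_of_card_cube (B := B) hBcard
    have hBexp : ∀ b : B, b ^ p = 1 := by
      intro b
      apply Cfsg.Agent.Lib.Lead.pow_p_eq_one_of_class2 hpp hp hclass
      have hb : (b : R) ∈ ((A ⊔ Subgroup.zpowers x : Subgroup R) : Set R) := by
        rw [← hB]; exact b.2
      rw [Subgroup.normal_mul] at hb
      obtain ⟨a, ha, y, hy, hay⟩ := hb
      have haB : a ∈ B := by rw [hB]; exact Subgroup.mem_sup_left ha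
      have hyB : y ∈ B := by rw [hB]; exact Subgroup.mem_sup_right hy
      have hbe : b = ⟨a, haB⟩ * ⟨y, hyB⟩ := Subtype.ext hay.symm
      rw [hbe]
      apply mul_mem
      · apply Subgroup.subset_closure
        exact Subtype.ext (hAexp a ha)
      · apply Subgroup.subset_closure
        apply Subtype.ext
        show y ^ p = 1
        obtain ⟨i, rfl⟩ := Subgroup.mem_zpowers_iff.mp hy
        rw [← zpow_natCast, ← zpow_mul, mul_comm, zpow_mul, zpow_natCast, hx, one_zpow]
    let f : B →* R ⧸ N := (QuotientGroup.mk' N).comp B.subtype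
    have h1 := Subgroup.card_eq_card_quotient_mul_card_subgroup f.ker
    have h2 : Nat.card (B ⧸ f.ker) = Nat.card f.range :=
      Nat.card_congr (QuotientGroup.quotientKerEquivRange f).toEquiv
    have h3 : Nat.card f.range ∣ p := by
      haveI := hQc
      haveI : IsCyclic f.range := inferInstance
      apply cyclic_exp_card
      rintro ⟨_, b, rfl⟩
      apply Subtype.ext
      show f b ^ p = 1
      rw [← map_pow, hBexp, map_one]
    have h4 : Nat.card f.ker ∣ p := by
      haveI := hNc
      let ι : f.ker →* N :=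
        { toFun := fun b => ⟨((b : B) : R), by
              have h := b.2
              rw [MonoidHom.mem_ker] at h
              exact (QuotientGroup.eq_one_iff _).mp h⟩
          map_one' := rfl
          map_mul' := fun _ _ => rfl }
      have hι : Function.Injective ι := by
        intro b₁ b₂ h
        apply Subtype.ext; apply Subtype.ext
        exact congrArg (fun n : N => (n : R)) h
      haveI : IsCyclic f.ker := isCyclic_of_injective ι hι
      apply cyclic_exp_card
      intro b
      apply Subtype.ext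
      exact hBexp b
    have h5 : p ^ 3 ≤ p * p := by
      rw [← hBcard, h1, h2]
      exact Nat.mul_le_mul (Nat.le_of_dvd hpp.pos h3) (Nat.le_of_dvd hpp.pos h4)
    have h6 : p * p * p ≤ p * p * 1 := by
      rw [mul_one]
      calc p * p * p = p ^ 3 := by ring
        _ ≤ p * p := h5
    have h7 := Nat.le_of_mul_le_mul_left h6 (Nat.mul_pos hpp.pos hpp.pos)
    have h8 := hpp.two_le
    omega
  have hΩ : Cfsg.omegaOne p (⊤ : Subgroup R) = A := by
    unfold Cfsg.omegaOne
    apply le_antisymm
    · rw [Subgroup.closure_le]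
      rintro x ⟨-, hx⟩
      exact hmem x hx
    · intro a ha
      exact Subgroup.subset_closure ⟨Subgroup.mem_top a, hAexp a ha⟩
  rw [hΩ]
  exact ⟨⟨hAcomm, hAexp⟩, hAc⟩

end Cfsg.Agent.S0638
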