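import Cfsg.Statements.S0642
import Mathlib

set_option autoImplicit false
open Cfsg

namespace Cfsg.Agent.S0642

open scoped commutatorElement

/-- Among finite 2-groups the regular ones are exactly the abelian ones. -/
theorem result {G : Type*} [Group G] [Finite G] (hG : IsPGroup 2 G) : Cfsg.IsRegularPGroup 2 G ↔ ∀ a b : G, a * b = b * a := by
  constructor
  · intro hreg
    have hKn : Subgroup.Normal (⁅(⊤ : Subgroup G), (⊤ : Subgroup G)⁆ : Subgroup G) :=
      Subgroup.commutator_normal ⊤ ⊤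
    obtain ⟨P, hP⟩ : ∃ P : Subgroup G, P = Cfsg.powerClosure 2 1 ⁅(⊤ : Subgroup G), (⊤ : Subgroup G)⁆ := ⟨_, rfl⟩
    have hPn : ∀ g n : G, n ∈ P → g * n * g⁻¹ ∈ P := by
      intro g n hn
      rw [hP] at hn ⊢
      unfold Cfsg.powerClosure at hn ⊢
      induction hn using Subgroup.closure_induction with
      | mem y hy =>
        obtain ⟨x, hx, rfl⟩ := hy
        apply Subgroup.subset_closure
        refine ⟨g * x * g⁻¹, hKn.conj_mem x hx g, ?_⟩
        rw [conj_pow]
      | one => simp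
      | mul a b _ _ iha ihb =>
        have : g * (a * b) * g⁻¹ = (g * a * g⁻¹) * (g * b * g⁻¹) := by group
        rw [this]; exact Subgroup.mul_mem _ iha ihb
      | inv a _ iha =>
        have : g * a⁻¹ * g⁻¹ = (g * a * g⁻¹)⁻¹ := by group
        rw [this]; exact Subgroup.inv_mem _ iha
    have hKP : ⁅(⊤ : Subgroup G), (⊤ : Subgroup G)⁆ ≤ P := by
      rw [Subgroup.commutator_le]
      intro x _ y _
      obtain ⟨c, hc, hcab⟩ := hreg.2 y⁻¹ x⁻¹ 1
      have hcP : c ∈ P := by
        rw [hP]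
        unfold Cfsg.powerClosure at hc ⊢
        refine (Subgroup.closure_mono ?_) hc
        rintro _ ⟨z, hz, rfl⟩
        exact ⟨z, Subgroup.commutator_mono le_top le_top hz, rfl⟩
      have h1 : c = (y⁻¹ ^ (2 ^ 1) * x⁻¹ ^ (2 ^ 1))⁻¹ * (y⁻¹ * x⁻¹) ^ (2 ^ 1) :=
        eq_inv_mul_of_mul_eq hcab.symm
      have h2 : ⁅x, y⁆ = x⁻¹ * c * x⁻¹⁻¹ := by
        rw [h1, commutatorElement_def]
        simp only [pow_one, pow_two]
        group
      rw [h2]
      exact hPn _ _ hcP
    have hK1 : ⁅(⊤ : Subgroup G), (⊤ : Subgroup G)⁆ = ⊥ := by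
      by_contra hne
      obtain ⟨K, hK⟩ : ∃ K : Subgroup G, K = ⁅(⊤ : Subgroup G), (⊤ : Subgroup G)⁆ := ⟨_, rfl⟩
      rw [← hK] at hne hKP hP
      have hKp : IsPGroup 2 K := hG.to_subgroup K
      obtain ⟨k, hk⟩ := (IsPGroup.iff_card).1 hKp
      have hk0 : k ≠ 0 := by
        rintro rfl
        rw [pow_zero] at hk
        exact hne ((Subgroup.card_eq_one).1 hk)
      obtain ⟨M, hM⟩ := Sylow.exists_subgroup_card_pow_prime_of_le_card (n := k - 1) Nat.prime_two hKp
        (by rw [hk]; exact Nat.pow_le_pow_right (by norm_num) (Nat.sub_le k 1))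
      have hMi : M.index = 2 := by
        have h1 := M.card_mul_index
        rw [hM, hk] at h1
        have h2 : (2 : ℕ) ^ k = 2 ^ (k - 1) * 2 := by
          rw [← pow_succ]; congr 1; omega
        rw [h2] at h1
        exact Nat.eq_of_mul_eq_mul_left (by positivity) h1
      have hPM : P ≤ M.map K.subtype := by
        rw [hP]
        unfold Cfsg.powerClosure
        rw [Subgroup.closure_le]
        rintro _ ⟨x, hx, rfl⟩
        refine ⟨(⟨x, hx⟩ : K) ^ 2, Subgroup.sq_mem_of_index_two hMi _, ?_⟩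
        simp
      have hMtop : M = ⊤ := by
        rw [eq_top_iff]
        intro x _
        obtain ⟨m, hm, hmx⟩ := hPM (hKP x.2)
        have : m = x := Subtype.ext hmx
        rw [← this]; exact hm
      rw [hMtop, Subgroup.index_top] at hMi
      omega
    intro a b
    have h1 : ⁅a, b⁆ ∈ ⁅(⊤ : Subgroup G), (⊤ : Subgroup G)⁆ :=
      Subgroup.commutator_mem_commutator (Subgroup.mem_top a) (Subgroup.mem_top b)
    rw [hK1, Subgroup.mem_bot] at h1
    exact commutatorElement_eq_one_iff_mul_comm.1 h1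
  · intro hab
    refine ⟨hG, fun a b n => ⟨1, Subgroup.one_mem _, ?_⟩⟩
    rw [mul_one]
    exact Commute.mul_pow (hab a b) _

end Cfsg.Agent.S0642
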