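import Cfsg.Statements.S0645
import Mathlib
import Cfsg.Agent.Lib.Lead.SylowAux2
import Cfsg.Agent.Lib.Lead.OmegaOdd

set_option autoImplicit false
open Cfsg Cfsg.Agent.Lib.Lead

namespace Cfsg.Agent.S0645

open scoped Pointwise commutatorElement

/-- Classification of p-groups with a cyclic maximal subgroup, odd p: a non-abelian one of order p^n has generators a of order p^(n-1) and b of order p, b outside the cyclic subgroup generated by a, with b a b⁻¹ = a^(1 + p^(n-2)). -/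
theorem result {G : Type*} [Group G] [Finite G] {p : ℕ} [Fact p.Prime] (hp : p ≠ 2) (n : ℕ) (hn : 3 ≤ n) (hG : Nat.card G = p ^ n) (C : Subgroup G) (hC : IsCyclic C) (hCi : C.index = p) (hna : ∃ x y : G, x * y ≠ y * x) : ∃ a b : G, orderOf a = p ^ (n - 1) ∧ orderOf b = p ∧ b ∉ Subgroup.zpowers a ∧ b * a * b⁻¹ = a ^ (1 + p ^ (n - 2)) := by
  classical
  have hpp : p.Prime := Fact.out
  obtain ⟨m, rfl⟩ : ∃ m, n = m + 3 := ⟨n - 3, by omega⟩
  have e1 : m + 3 - 1 = m + 2 := by omega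
  have e2 : m + 3 - 2 = m + 1 := by omega
  rw [e1, e2]
  have hR : IsPGroup p G := IsPGroup.of_card hG
  have hnc : ¬ IsCyclic G := by
    intro hcyc
    haveI := hcyc
    obtain ⟨x, y, hxy⟩ := hna
    exact hxy ((IsCyclic.isMulCommutative (α := G)).is_comm.comm x y)
  obtain ⟨a, ha⟩ := (Subgroup.isCyclic_iff_exists_zpowers_eq_top C).1 hC
  have hcardC : Nat.card C * p = p ^ (m + 3) := by
    rw [← hG, ← hCi]; exact C.card_mul_index
  have hcardC' : Nat.card C = p ^ (m + 2) := by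
    have e : p ^ (m + 3) = p ^ (m + 2) * p := by ring
    rw [e] at hcardC
    exact Nat.eq_of_mul_eq_mul_right hpp.pos hcardC
  have hao : orderOf a = p ^ (m + 2) := by
    rw [← Nat.card_zpowers, ha]; exact hcardC'
  haveI hCn : C.Normal := by
    apply Subgroup.normal_of_index_eq_minFac_card
    rw [hCi, hG, hpp.pow_minFac (by omega)]
  have haC : a ∈ C := by rw [← ha]; exact Subgroup.mem_zpowers a
  obtain ⟨hΩ, hΩcard⟩ := omega_cyclic_index_p hp hR hnc C hC hCi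
  obtain ⟨Ω, hΩdef⟩ : ∃ Ω : Subgroup G, Ω = Subgroup.closure {x : G | x ^ p = 1} := ⟨_, rfl⟩
  rw [← hΩdef] at hΩ hΩcard
  obtain ⟨b₀, hb₀p, hb₀C⟩ : ∃ b₀ : G, b₀ ^ p = 1 ∧ b₀ ∉ C := by
    by_contra hcon
    push Not at hcon
    have hle : Ω ≤ C := by
      rw [hΩdef]; exact (Subgroup.closure_le C).2 (fun x hx => hcon x hx)
    haveI : IsCyclic C := hC
    haveI : IsCyclic Ω := Subgroup.isCyclic_of_le hle
    obtain ⟨c, hc⟩ := (Subgroup.isCyclic_iff_exists_zpowers_eq_top Ω).1 inferInstance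
    have hcΩ : c ∈ Ω := by rw [← hc]; exact Subgroup.mem_zpowers c
    have h1 : Nat.card Ω ≤ p := by
      rw [← hc, Nat.card_zpowers]
      exact Nat.le_of_dvd hpp.pos (orderOf_dvd_of_pow_eq_one (hΩ c hcΩ))
    rw [hΩcard, pow_two] at h1
    have h3 : 2 * p ≤ p * p := Nat.mul_le_mul_right p hpp.two_le
    have := hpp.pos
    omega
  have hcardQ : Nat.card (G ⧸ C) = p := by rw [← Subgroup.index_eq_card]; exact hCi
  have hCpow : ∀ c ∈ C, ∃ k : ℕ, a ^ k = c := by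
    intro c hc
    rw [← ha] at hc
    exact (Submonoid.mem_powers_iff _ _).1 (mem_powers_iff_mem_zpowers.2 hc)
  have hb1 : (QuotientGroup.mk b₀ : G ⧸ C) ≠ 1 := by
    rw [Ne, QuotientGroup.eq_one_iff]; exact hb₀C
  have htop := zpowers_eq_top_of_prime_card hcardQ hb1
  have hdec : ∀ v : G, ∃ (j : ℤ) (k : ℕ), v = b₀ ^ j * a ^ k := by
    intro v
    have hvm : (QuotientGroup.mk v : G ⧸ C)
        ∈ Subgroup.zpowers (QuotientGroup.mk b₀ : G ⧸ C) := by
      rw [htop]; exact Subgroup.mem_top _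
    obtain ⟨j, hj⟩ := Subgroup.mem_zpowers_iff.1 hvm
    have hjC : (b₀ ^ j)⁻¹ * v ∈ C := by
      rw [← QuotientGroup.eq, QuotientGroup.mk_zpow]; exact hj
    obtain ⟨k, hk⟩ := hCpow _ hjC
    exact ⟨j, k, by rw [hk]; group⟩
  have hba : b₀ * a ≠ a * b₀ := by
    intro hcomm
    obtain ⟨x, y, hxy⟩ := hna
    apply hxy
    obtain ⟨j₁, k₁, rfl⟩ := hdec x
    obtain ⟨j₂, k₂, rfl⟩ := hdec y
    have hc : Commute b₀ a := hcomm
    have h1 : Commute (b₀ ^ j₁ * a ^ k₁) (b₀ ^ j₂ * a ^ k₂) := by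
      apply Commute.mul_left
      · apply Commute.mul_right
        · exact (Commute.refl b₀).zpow_zpow j₁ j₂
        · exact (hc.zpow_left j₁).pow_right k₂
      · apply Commute.mul_right
        · exact (hc.symm.pow_left k₁).zpow_right j₂
        · exact (Commute.refl a).pow_pow k₁ k₂
    exact h1.eq
  obtain ⟨s, hs⟩ := hCpow _ (hCn.conj_mem a haC b₀)
  have hs' : (b₀⁻¹)⁻¹ * a * b₀⁻¹ = a ^ s := by rw [inv_inv]; exact hs.symm
  have h1 := conj_pow_iter hs' p
  have hg : (b₀⁻¹) ^ p = 1 := by rw [inv_pow, hb₀p, inv_one]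
  rw [hg] at h1
  have h2 : a ^ (s ^ p) = a ^ 1 := by rw [← h1]; simp
  have h3 : s ^ p ≡ 1 [MOD orderOf a] := pow_eq_pow_iff_modEq.1 h2
  have hpa : p ∣ orderOf a := by rw [hao]; exact dvd_pow_self p (by omega)
  have h3' : s ^ p ≡ 1 [MOD p] := h3.of_dvd hpa
  have hs1 : s ≡ 1 [MOD p] := by
    have hf : s ^ p ≡ s [MOD p] := by
      rw [← ZMod.natCast_eq_natCast_iff]
      push_cast; exact ZMod.pow_card _
    exact hf.symm.trans h3'
  obtain ⟨x, hx⟩ : ∃ x, s = 1 + p * x := by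
    refine ⟨s / p, ?_⟩
    have h := Nat.div_add_mod s p
    have h1p : 1 % p = 1 := Nat.mod_eq_of_lt hpp.one_lt
    have h' : s % p = 1 := by rw [← h1p]; exact hs1
    omega
  obtain ⟨u, hu, hsum⟩ := geom_sum_odd p hpp hp x
  have hgeo := geom_sum_mul_add (p * x) p
  rw [add_comm (p * x) 1, hsum, ← hx] at hgeo
  have hdvd : p ^ (m + 2) ∣ p * u * (p * x) := by
    have h1le : 1 ≤ s ^ p := by rw [← hgeo]; exact Nat.le_add_left _ _
    have h4 := (Nat.modEq_iff_dvd' h1le).1 h3.symm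
    rw [hao] at h4
    have e : s ^ p - 1 = p * u * (p * x) := by rw [← hgeo]; exact Nat.add_sub_cancel _ _
    rwa [e] at h4
  have hdvd2 : p ^ (m + 1) ∣ p * x := by
    have e : p * u * (p * x) = p * (u * (p * x)) := by ring
    have e' : p ^ (m + 2) = p * p ^ (m + 1) := by ring
    rw [e, e'] at hdvd
    have h5 : p ^ (m + 1) ∣ u * (p * x) := Nat.dvd_of_mul_dvd_mul_left hpp.pos hdvd
    have hc : Nat.Coprime (p ^ (m + 1)) u := Nat.Coprime.pow_left _ hu.symm
    exact hc.dvd_of_dvd_mul_left h5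
  obtain ⟨k, hk⟩ := hdvd2
  have hsk : s = 1 + p ^ (m + 1) * k := by rw [hx, hk]
  have hkp : ¬ p ∣ k := by
    rintro ⟨k', rfl⟩
    apply hba
    have e : a ^ s = a := by
      have e3 : 1 + p ^ (m + 1) * (p * k') = 1 + p ^ (m + 2) * k' := by ring
      rw [hsk, e3, pow_add, pow_one, pow_mul, ← hao, pow_orderOf_eq_one, one_pow, mul_one]
    rw [e] at hs
    calc b₀ * a = (b₀ * a * b₀⁻¹) * b₀ := by group
      _ = a * b₀ := by rw [← hs]
  have hcop : Nat.Coprime k p := by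
    rw [Nat.coprime_comm, hpp.coprime_iff_not_dvd]; exact hkp
  obtain ⟨j, -, hj⟩ := Nat.exists_mul_mod_eq_one_of_coprime hcop hpp.one_lt
  obtain ⟨t, ht⟩ : ∃ t, k * j = p * t + 1 := by
    refine ⟨k * j / p, ?_⟩
    have h := Nat.div_add_mod (k * j) p
    rw [hj] at h
    exact h.symm
  have hpow : ∀ i : ℕ, ∃ c, (1 + p ^ (m + 1) * k) ^ i
      = 1 + i * (p ^ (m + 1) * k) + (p ^ (m + 1) * k) ^ 2 * c := by
    intro i
    induction i with
    | zero => exact ⟨0, by simp⟩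
    | succ i ih =>
      obtain ⟨c, hc⟩ := ih
      exact ⟨i + c + c * (p ^ (m + 1) * k), by rw [pow_succ, hc]; ring⟩
  obtain ⟨c, hc⟩ := hpow j
  have hsj : s ^ j = (1 + p ^ (m + 1)) + p ^ (m + 2) * (t + p ^ m * k ^ 2 * c) := by
    have e : j * (p ^ (m + 1) * k) = p ^ (m + 1) * (k * j) := by ring
    rw [hsk, hc, e, ht]
    ring
  have hb₀j : (b₀ ^ j) ^ p = 1 := by rw [← pow_mul, mul_comm, pow_mul, hb₀p, one_pow]
  have hbC : b₀ ^ j ∉ C := by
    intro hmem
    apply hb₀C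
    have h6 : (b₀ ^ j) ^ k ∈ C := Subgroup.pow_mem C hmem k
    have e : (b₀ ^ j) ^ k = b₀ := by
      rw [← pow_mul, mul_comm, ht, pow_add, pow_one, pow_mul, hb₀p, one_pow, one_mul]
    rwa [e] at h6
  refine ⟨a, b₀ ^ j, hao, ?_, ?_, ?_⟩
  · apply orderOf_eq_prime hb₀j
    intro h1'
    apply hbC
    rw [h1']; exact Subgroup.one_mem C
  · rw [ha]; exact hbC
  · have h5 := conj_pow_iter hs' j
    rw [inv_pow, inv_inv] at h5
    rw [h5, hsj, pow_add, pow_mul, ← hao, pow_orderOf_eq_one, one_pow, mul_one]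

end Cfsg.Agent.S0645
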