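import Cfsg.Statements.S0646
import Mathlib
import Cfsg.Agent.Lib.Lead.SylowAux2
import Cfsg.Agent.Lib.Lead.UniqueNT
import Cfsg.Agent.Lib.Lead.UniqueSub

set_option autoImplicit false
open Cfsg Cfsg.Agent.Lib.Lead

namespace Cfsg.Agent.S0646

open scoped Pointwise commutatorElement

theorem sq_one_mod_two_pow (l s : ℕ) (h : s * s ≡ 1 [MOD 2 ^ (l + 2)])
    (h1 : ¬ s ≡ 1 [MOD 2 ^ (l + 2)]) (h2 : ¬ 2 ^ (l + 2) ∣ s + 1) :
    1 ≤ l ∧ (s ≡ 1 + 2 ^ (l + 1) [MOD 2 ^ (l + 2)] ∨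
      s ≡ 2 ^ (l + 1) - 1 [MOD 2 ^ (l + 2)]) := by
  have hN : 2 ^ (l + 2) = 4 * 2 ^ l := by ring
  have hM : 2 ^ (l + 1) = 2 * 2 ^ l := by ring
  rw [hN] at h h1 h2
  rw [hN, hM]
  obtain ⟨L, hL⟩ : ∃ L, 2 ^ l = L := ⟨_, rfl⟩
  rw [hL] at h h1 h2 ⊢
  have hLpos : 0 < L := by rw [← hL]; positivity
  obtain ⟨q, hq⟩ : ∃ q, s * s = 4 * L * q + 1 := by
    refine ⟨s * s / (4 * L), ?_⟩
    have h3 := Nat.div_add_mod (s * s) (4 * L)
    have h4 : s * s % (4 * L) = 1 := by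
      have h5 : 1 % (4 * L) = 1 := Nat.mod_eq_of_lt (by omega)
      rw [← h5]; exact h
    rw [h4] at h3; exact h3.symm
  obtain ⟨u, rfl | rfl⟩ : ∃ u, s = 2 * u ∨ s = 2 * u + 1 := ⟨s / 2, by omega⟩
  · exfalso
    have e1 : 2 * u * (2 * u) = 4 * (u * u) := by ring
    have e2 : 4 * L * q = 4 * (L * q) := by ring
    rw [e1, e2] at hq
    omega
  · have hdiv : L ∣ u * (u + 1) := by
      refine ⟨q, ?_⟩
      have e1 : (2 * u + 1) * (2 * u + 1) = 4 * (u * (u + 1)) + 1 := by ring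
      have e2 : 4 * L * q = 4 * (L * q) := by ring
      rw [e1, e2] at hq
      omega
    have hcases : L ∣ u ∨ L ∣ u + 1 := by
      rcases Nat.even_or_odd u with hu | hu
      · left
        have hc : Nat.Coprime L (u + 1) := by
          rw [← hL]; apply Nat.Coprime.pow_left
          rw [Nat.coprime_two_left]; exact hu.add_one
        exact hc.dvd_of_dvd_mul_right hdiv
      · right
        have hc : Nat.Coprime L u := by
          rw [← hL]; apply Nat.Coprime.pow_left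
          rw [Nat.coprime_two_left]; exact hu
        exact hc.dvd_of_dvd_mul_left hdiv
    rcases hcases with ⟨w, hw⟩ | ⟨w, hw⟩
    · obtain ⟨w', rfl | rfl⟩ : ∃ w', w = 2 * w' ∨ w = 2 * w' + 1 := ⟨w / 2, by omega⟩
      · exfalso; apply h1
        show (2 * u + 1) % (4 * L) = 1 % (4 * L)
        have e : 2 * u + 1 = 4 * L * w' + 1 := by rw [hw]; ring
        rw [e, Nat.mul_add_mod]
      · have hl : 1 ≤ l := by
          by_contra hl0
          have hl0' : l = 0 := by omega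
          have hL1 : L = 1 := by rw [← hL, hl0', pow_zero]
          apply h2
          refine ⟨w' + 1, ?_⟩
          rw [hw, hL1]; ring
        refine ⟨hl, Or.inl ?_⟩
        show (2 * u + 1) % (4 * L) = (1 + 2 * L) % (4 * L)
        have e : 2 * u + 1 = 4 * L * w' + (1 + 2 * L) := by rw [hw]; ring
        rw [e, Nat.mul_add_mod]
    · obtain ⟨w', rfl | rfl⟩ : ∃ w', w = 2 * w' ∨ w = 2 * w' + 1 := ⟨w / 2, by omega⟩
      · exfalso; apply h2
        refine ⟨w', ?_⟩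
        have e : 2 * u + 1 + 1 = 2 * (u + 1) := by ring
        rw [e, hw]; ring
      · have hl : 1 ≤ l := by
          by_contra hl0
          have hl0' : l = 0 := by omega
          have hL1 : L = 1 := by rw [← hL, hl0', pow_zero]
          apply h1
          show (2 * u + 1) % (4 * L) = 1 % (4 * L)
          have e : 2 * u + 1 = 4 * L * w' + 1 := by rw [hL1] at hw ⊢; omega
          rw [e, Nat.mul_add_mod]
        refine ⟨hl, Or.inr ?_⟩
        show (2 * u + 1) % (4 * L) = (2 * L - 1) % (4 * L)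
        have e : 2 * u + 1 = 4 * L * w' + (2 * L - 1) := by
          have e3 : L * (2 * w' + 1) = 2 * (L * w') + L := by ring
          have e4 : 4 * L * w' = 4 * (L * w') := by ring
          rw [e3] at hw; rw [e4]
          omega
        rw [e, Nat.mul_add_mod]

/-- Classification of non-abelian 2-groups with a cyclic maximal subgroup: dihedral, generalized quaternion, and for order at least 16 the modular group and the semidihedral group, each given by generators a (of index 2) and b with the stated relations. -/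
theorem result {G : Type*} [Group G] [Finite G] (n : ℕ) (hn : 3 ≤ n) (hG : Nat.card G = 2 ^ n) (C : Subgroup G) (hC : IsCyclic C) (hCi : C.index = 2) (hna : ∃ x y : G, x * y ≠ y * x) : ∃ a b : G, orderOf a = 2 ^ (n - 1) ∧ b ∉ Subgroup.zpowers a ∧ ((b ^ 2 = 1 ∧ b * a * b⁻¹ = a⁻¹) ∨ (b ^ 2 = a ^ (2 ^ (n - 2)) ∧ b * a * b⁻¹ = a⁻¹) ∨ (4 ≤ n ∧ b ^ 2 = 1 ∧ b * a * b⁻¹ = a ^ (1 + 2 ^ (n - 2))) ∨ (4 ≤ n ∧ b ^ 2 = 1 ∧ b * a * b⁻¹ = a ^ (2 ^ (n - 2) - 1))) := by
  classical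
  obtain ⟨l, rfl⟩ : ∃ l, n = l + 3 := ⟨n - 3, by omega⟩
  have e1 : l + 3 - 1 = l + 2 := by omega
  have e2 : l + 3 - 2 = l + 1 := by omega
  rw [e1, e2]
  haveI : Fact (Nat.Prime 2) := ⟨Nat.prime_two⟩
  obtain ⟨a, ha⟩ := (Subgroup.isCyclic_iff_exists_zpowers_eq_top C).1 hC
  have hcardC : Nat.card C * 2 = 2 ^ (l + 3) := by
    rw [← hG, ← hCi]; exact C.card_mul_index
  have hcardC' : Nat.card C = 2 ^ (l + 2) := by
    have e : 2 ^ (l + 3) = 2 ^ (l + 2) * 2 := by ring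
    rw [e] at hcardC
    exact Nat.eq_of_mul_eq_mul_right (by norm_num) hcardC
  have hao : orderOf a = 2 ^ (l + 2) := by
    rw [← Nat.card_zpowers, ha]; exact hcardC'
  haveI hCn : C.Normal := Subgroup.normal_of_index_eq_two hCi
  have haC : a ∈ C := by rw [← ha]; exact Subgroup.mem_zpowers a
  have hCpow : ∀ c ∈ C, ∃ k : ℕ, a ^ k = c := by
    intro c hc
    rw [← ha] at hc
    exact (Submonoid.mem_powers_iff _ _).1 (mem_powers_iff_mem_zpowers.2 hc)
  obtain ⟨b₀, hb₀C⟩ : ∃ b₀ : G, b₀ ∉ C := by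
    by_contra hcon
    push Not at hcon
    have htop' : C = ⊤ := eq_top_iff.2 (fun x _ => hcon x)
    rw [htop', Subgroup.index_top] at hCi
    omega
  have hcardQ : Nat.card (G ⧸ C) = 2 := by rw [← Subgroup.index_eq_card]; exact hCi
  have hb1 : (QuotientGroup.mk b₀ : G ⧸ C) ≠ 1 := by
    rw [Ne, QuotientGroup.eq_one_iff]; exact hb₀C
  have htop := zpowers_eq_top_of_prime_card hcardQ hb1
  have hdec : ∀ v : G, ∃ (j : ℤ) (k : ℕ), v = b₀ ^ j * a ^ k := by
    intro v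
    have hvm : (QuotientGroup.mk v : G ⧸ C)
        ∈ Subgroup.zpowers (QuotientGroup.mk b₀ : G ⧸ C) := by
      rw [htop]; exact Subgroup.mem_top _
    obtain ⟨j, hj⟩ := Subgroup.mem_zpowers_iff.1 hvm
    have hjC : (b₀ ^ j)⁻¹ * v ∈ C := by
      rw [← QuotientGroup.eq, QuotientGroup.mk_zpow]; exact hj
    obtain ⟨k, hk⟩ := hCpow _ hjC
    exact ⟨j, k, by rw [hk]; group⟩
  have hba : b₀ * a ≠ a * b₀ := by
    intro hcomm
    obtain ⟨x, y, hxy⟩ := hna
    apply hxy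
    obtain ⟨j₁, k₁, rfl⟩ := hdec x
    obtain ⟨j₂, k₂, rfl⟩ := hdec y
    have hc : Commute b₀ a := hcomm
    have h1 : Commute (b₀ ^ j₁ * a ^ k₁) (b₀ ^ j₂ * a ^ k₂) := by
      apply Commute.mul_left
      · apply Commute.mul_right
        · exact (Commute.refl b₀).zpow_zpow j₁ j₂
        · exact (hc.zpow_left j₁).pow_right k₂
      · apply Commute.mul_right
        · exact (hc.symm.pow_left k₁).zpow_right j₂
        · exact (Commute.refl a).pow_pow k₁ k₂
    exact h1.eq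
  obtain ⟨s, hs⟩ := hCpow _ (hCn.conj_mem a haC b₀⁻¹)
  have hs' : b₀⁻¹ * a * b₀ = a ^ s := by rw [hs, inv_inv]
  have hb2C : b₀ ^ 2 ∈ C := by
    rw [← QuotientGroup.eq_one_iff, QuotientGroup.mk_pow]
    have h := pow_card_eq_one' (G := G ⧸ C) (x := (b₀ : G ⧸ C))
    rwa [hcardQ] at h
  obtain ⟨t, ht⟩ := hCpow _ hb2C
  have h1 := conj_pow_iter hs' 2
  rw [← ht] at h1
  have h2 : a ^ (s ^ 2) = a ^ 1 := by
    rw [← h1, pow_one, mul_assoc, ← pow_succ', pow_succ, inv_mul_cancel_left]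
  have h3 : s * s ≡ 1 [MOD 2 ^ (l + 2)] := by
    have h3' : s ^ 2 ≡ 1 [MOD orderOf a] := pow_eq_pow_iff_modEq.1 h2
    rwa [hao, pow_two] at h3'
  have hs1 : ¬ s ≡ 1 [MOD 2 ^ (l + 2)] := by
    intro hmod
    rw [← hao] at hmod
    have e : a ^ s = a ^ 1 := pow_eq_pow_iff_modEq.2 hmod
    rw [pow_one] at e
    rw [e] at hs'
    apply hba
    calc b₀ * a = b₀ * (b₀⁻¹ * a * b₀) := by rw [hs']
      _ = a * b₀ := by group
  have hst : s * t ≡ t [MOD 2 ^ (l + 2)] := by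
    rw [← hao]
    apply pow_eq_pow_iff_modEq.1
    rw [← conj_pow_nat hs' t, ht]
    group
  have hsc : b₀ * a * b₀⁻¹ = a ^ s := by
    have h4 := conj_pow_nat hs' s
    have h5 : a ^ (s * s) = a := by
      have h6 := pow_eq_pow_iff_modEq.2 (by rw [hao]; exact h3 : s * s ≡ 1 [MOD orderOf a])
      rwa [pow_one] at h6
    rw [h5] at h4
    calc b₀ * a * b₀⁻¹ = b₀ * (b₀⁻¹ * a ^ s * b₀) * b₀⁻¹ := by rw [h4]
      _ = a ^ s := by group
  have hsum2 : ∑ i ∈ Finset.range 2, s ^ i = 1 + s := by simp [Finset.sum_range_succ]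
  have hsq : ∀ k : ℕ, 2 ^ (l + 2) ∣ t + k * (1 + s) → (b₀ * a ^ k) ^ 2 = 1 := by
    intro k hk
    rw [mul_pow_formula hs' k 2, hsum2, ← ht, ← pow_add]
    rw [← hao] at hk
    exact orderOf_dvd_iff_pow_eq_one.1 hk
  have hbk : ∀ k : ℕ, b₀ * a ^ k ∉ C := by
    intro k hmem
    apply hb₀C
    have h6 : b₀ * a ^ k * (a ^ k)⁻¹ ∈ C := C.mul_mem hmem (C.inv_mem (C.pow_mem haC k))
    rwa [mul_inv_cancel_right] at h6
  have hconjk : ∀ k : ℕ, (b₀ * a ^ k) * a * (b₀ * a ^ k)⁻¹ = a ^ s := by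
    intro k
    rw [← hsc]
    have hc : a ^ k * a * (a ^ k)⁻¹ = a := by
      rw [← pow_succ, pow_succ', mul_inv_cancel_right]
    calc (b₀ * a ^ k) * a * (b₀ * a ^ k)⁻¹ = b₀ * (a ^ k * a * (a ^ k)⁻¹) * b₀⁻¹ := by group
      _ = b₀ * a * b₀⁻¹ := by rw [hc]
  by_cases hneg : 2 ^ (l + 2) ∣ s + 1
  · have hinv : a ^ s = a⁻¹ := by
      rw [eq_inv_iff_mul_eq_one, ← pow_succ]
      rw [← hao] at hneg
      exact orderOf_dvd_iff_pow_eq_one.1 hneg
    rcases nt_two (l + 2) (by omega) s t hs1 hst with ⟨k, hk⟩ | ⟨_, htM⟩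
    · refine ⟨a, b₀ * a ^ k, hao, ?_, Or.inl ⟨hsq k hk, ?_⟩⟩
      · rw [ha]; exact hbk k
      · rw [hconjk k, hinv]
    · refine ⟨a, b₀, hao, ?_, Or.inr (Or.inl ⟨?_, ?_⟩)⟩
      · rw [ha]; exact hb₀C
      · rw [← ht]
        have e : l + 2 - 1 = l + 1 := by omega
        rw [e, ← hao] at htM
        exact pow_eq_pow_iff_modEq.2 htM
      · rw [hsc, hinv]
  · rcases nt_two (l + 2) (by omega) s t hs1 hst with ⟨k, hk⟩ | ⟨h', _⟩
    · obtain ⟨hl, hcase⟩ := sq_one_mod_two_pow l s h3 hs1 hneg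
      rcases hcase with hc | hc
      · refine ⟨a, b₀ * a ^ k, hao, ?_, Or.inr (Or.inr (Or.inl ⟨by omega, hsq k hk, ?_⟩))⟩
        · rw [ha]; exact hbk k
        · rw [hconjk k]
          rw [← hao] at hc
          exact pow_eq_pow_iff_modEq.2 hc
      · refine ⟨a, b₀ * a ^ k, hao, ?_, Or.inr (Or.inr (Or.inr ⟨by omega, hsq k hk, ?_⟩))⟩
        · rw [ha]; exact hbk k
        · rw [hconjk k]
          rw [← hao] at hc
          exact pow_eq_pow_iff_modEq.2 hc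
    · exact absurd h' hneg

end Cfsg.Agent.S0646
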