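import Cfsg.Statements.S0658
import Mathlib
import Cfsg.Agent.Lib.Helper3.ZJQuot

set_option autoImplicit false
open Cfsg

namespace Cfsg.Agent.S0658

open Cfsg.Agent.Lib.Helper3

/-- In a group of characteristic p type all of whose p-locals are p-stable (p odd), the normalizer of Z(J(P)) contains the normalizer of every nontrivial subgroup of the Sylow p-subgroup P. -/
theorem result {G : Type*} [Group G] [Finite G] {p : ℕ} [Fact p.Prime] (hp : p ≠ 2) (hloc : ∀ Q : Subgroup G, IsPGroup p Q → Q ≠ ⊥ → Cfsg.pPrimeCore p ↥(Subgroup.normalizer (Q : Set G)) = ⊥ ∧ Cfsg.IsPConstrained p ↥(Subgroup.normalizer (Q : Set G)) ∧ Cfsg.IsPStable p ↥(Subgroup.normalizer (Q : Set G))) (P : Sylow p G) (Q : Subgroup G) (hQP : Q ≤ (P : Subgroup G)) (hQ1 : Q ≠ ⊥) : Subgroup.normalizer (Q : Set G) ≤ Subgroup.normalizer (Cfsg.centerThompsonAOf ((P : Subgroup G)) : Set G) := by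
  rw [← zjE_zero_eq]
  have hcP := Subgroup.card_le_of_le
    (inf_le_left : (P : Subgroup G) ⊓ Subgroup.normalizer (Q : Set G) ≤ P)
  exact normalizer_le_normalizer_zj hp hloc P (Nat.card ↥(P : Subgroup G) + 1) Q hQP hQ1 (by omega)

end Cfsg.Agent.S0658
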