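import Cfsg.Statements.S0660
import Mathlib
import Cfsg.Agent.Lib.Lead.CoprimeAction2
import Cfsg.Agent.Lib.Lead.SZ
import Cfsg.Agent.Lib.Helper3.PiCore
import Cfsg.Agent.Lib.Helper1.Basic
-- import your own Cfsg.Agent.* helpers here

set_option autoImplicit false
open Cfsg

namespace Cfsg.Agent.S0660


open scoped Pointwise commutatorElement

/-- Under a coprime action on an abelian group, an invariant subgroup that is complemented admits an invariant complement. -/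
theorem result {G : Type*} [Group G] [Finite G] (V A U : Subgroup G) (hVab : IsMulCommutative V) (hAV : A ≤ Subgroup.normalizer (V : Set G)) (hcop : (Nat.card A).Coprime (Nat.card V)) (hUV : U ≤ V) (hAU : A ≤ Subgroup.normalizer (U : Set G)) (W : Subgroup G) (hWV : W ≤ V) (hUW : U ⊓ W = ⊥) (hUWV : U ⊔ W = V) : ∃ W' : Subgroup G, W' ≤ V ∧ A ≤ Subgroup.normalizer (W' : Set G) ∧ U ⊓ W' = ⊥ ∧ U ⊔ W' = V := by
  classical
  haveI := hVab
  haveI : Fintype A := Fintype.ofFinite A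
  letI : CommGroup ↥V := { (inferInstance : Group ↥V) with mul_comm := fun a b => hVab.is_comm.comm a b }
  have hVc : ∀ x ∈ V, ∀ y ∈ V, x * y = y * x := fun x hx y hy =>
    congrArg Subtype.val (hVab.is_comm.comm (⟨x, hx⟩ : V) ⟨y, hy⟩)
  have hUN : U ≤ Subgroup.normalizer (W : Set G) := by
    intro u hu
    apply Cfsg.Agent.Lib.Helper1.mem_normalizer_of_finite
    intro w hw
    rw [hVc u (hUV hu) w (hWV hw), mul_inv_cancel_right]
    exact hw
  have hdec : ∀ v ∈ V, ∃ u ∈ U, ∃ w ∈ W, v = u * w := by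
    intro v hv
    rw [← hUWV] at hv
    exact Cfsg.Agent.Lib.Helper3.exists_mul_of_mem_sup_of_le_normalizer U W hUN hv
  have huniq : ∀ u ∈ U, ∀ w ∈ W, ∀ u' ∈ U, ∀ w' ∈ W, u * w = u' * w' → u = u' := by
    intro u hu w hw u' hu' w' hw' h
    have e : u'⁻¹ * u = w' * w⁻¹ := by
      rw [inv_mul_eq_iff_eq_mul, ← mul_assoc, ← h, mul_assoc, mul_inv_cancel, mul_one]
    have hmem : u'⁻¹ * u ∈ U ⊓ W :=
      Subgroup.mem_inf.mpr ⟨U.mul_mem (U.inv_mem hu') hu, by rw [e]; exact W.mul_mem hw' (W.inv_mem hw)⟩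
    rw [hUW, Subgroup.mem_bot, inv_mul_eq_one] at hmem
    exact hmem.symm
  choose pu hpuU pw hpwW hpuw using hdec
  have hpmul : ∀ (v v' : ↥V), pu (v * v' : ↥V) (v * v' : ↥V).2 = pu v v.2 * pu v' v'.2 := by
    intro v v'
    apply huniq _ (hpuU _ _) (pw _ (v * v' : ↥V).2) (hpwW _ _) _ (U.mul_mem (hpuU _ _) (hpuU _ _))
      (pw v v.2 * pw v' v'.2) (W.mul_mem (hpwW _ _) (hpwW _ _))
    rw [← hpuw]
    have e1 := hpuw v v.2
    have e2 := hpuw v' v'.2
    have e3 : pu v v.2 * pu v' v'.2 * (pw v v.2 * pw v' v'.2) = (pu v v.2 * pw v v.2) * (pu v' v'.2 * pw v' v'.2) := by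
      rw [mul_assoc, ← mul_assoc (pu v' v'.2), hVc (pu v' v'.2) (hUV (hpuU _ _)) (pw v v.2) (hWV (hpwW _ _))]
      simp only [mul_assoc]
    rw [e3, ← e1, ← e2]
    rfl
  let π : ↥V →* ↥V := MonoidHom.mk' (fun v => ⟨pu v v.2, hUV (hpuU v v.2)⟩) (fun v v' => Subtype.ext (hpmul v v'))
  have hπU : ∀ v : ↥V, ((π v : ↥V) : G) ∈ U := fun v => hpuU v v.2
  have hπfix : ∀ v : ↥V, (v : G) ∈ U → π v = v := by
    intro v hv
    apply Subtype.ext
    show pu v v.2 = v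
    apply huniq _ (hpuU _ _) (pw v v.2) (hpwW _ _) _ hv 1 W.one_mem
    rw [← hpuw, mul_one]
  let c : A → (↥V →* ↥V) := fun a =>
    { toFun := fun v => ⟨(a : G) * v * (a : G)⁻¹, Cfsg.Agent.Lib.Lead.conj_mem_of_mem_normalizer (hAV a.2) v.2⟩
      map_one' := by apply Subtype.ext; simp
      map_mul' := by intro v w; apply Subtype.ext; simp [mul_assoc] }
  have hc : ∀ (a : A) (v : ↥V), ((c a v : ↥V) : G) = (a : G) * v * (a : G)⁻¹ := fun a v => rfl
  have hcc : ∀ (a b : A) (v : ↥V), c a (c b v) = c (a * b) v := by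
    intro a b v
    apply Subtype.ext
    rw [hc, hc, hc]
    simp [mul_assoc]
  have hcU : ∀ (a : A) (v : ↥V), (v : G) ∈ U → ((c a v : ↥V) : G) ∈ U := by
    intro a v hv
    rw [hc]
    exact Cfsg.Agent.Lib.Lead.conj_mem_of_mem_normalizer (hAU a.2) hv
  obtain ⟨θ, hθ⟩ : ∃ θ : ↥V →* ↥V, ∀ v, θ v = ∏ a : A, c a (π (c a⁻¹ v)) :=
    ⟨∏ a : A, (c a).comp (π.comp (c a⁻¹)), fun v => MonoidHom.finsetProd_apply _ _ _⟩
  have hθU : ∀ v : ↥V, ((θ v : ↥V) : G) ∈ U := by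
    intro v
    have h1 : θ v ∈ U.subgroupOf V := by
      rw [hθ]
      apply Subgroup.prod_mem
      intro a _
      rw [Subgroup.mem_subgroupOf]
      exact hcU a _ (hπU _)
    exact Subgroup.mem_subgroupOf.mp h1
  have hθfix : ∀ v : ↥V, (v : G) ∈ U → θ v = v ^ Nat.card A := by
    intro v hv
    rw [hθ]
    have h2 : ∀ a : A, c a (π (c a⁻¹ v)) = v := by
      intro a
      rw [hπfix _ (hcU a⁻¹ v hv), hcc, mul_inv_cancel]
      apply Subtype.ext
      rw [hc]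
      simp
    simp_rw [h2]
    rw [Finset.prod_const, Finset.card_univ, Nat.card_eq_fintype_card]
  have hθeq : ∀ (b : A) (v : ↥V), θ (c b v) = c b (θ v) := by
    intro b v
    rw [hθ, hθ, map_prod]
    have h1 : ∀ a : A, c b (c a (π (c a⁻¹ v))) = c (b * a) (π (c (b * a)⁻¹ (c b v))) := by
      intro a
      rw [hcc, hcc]
      congr 3
      group
    simp_rw [h1]
    exact (Equiv.prod_comp (Equiv.mulLeft b) (fun a => c a (π (c a⁻¹ (c b v))))).symm
  refine ⟨(θ.ker).map V.subtype, Subgroup.map_subtype_le _, ?_, ?_, ?_⟩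
  · intro a ha
    apply Cfsg.Agent.Lib.Helper1.mem_normalizer_of_finite
    rintro _ ⟨y, hy, rfl⟩
    refine ⟨c ⟨a, ha⟩ y, ?_, rfl⟩
    rw [SetLike.mem_coe, MonoidHom.mem_ker] at hy ⊢
    rw [hθeq, hy, map_one]
  · rw [eq_bot_iff]
    intro x hx
    obtain ⟨hxU, hxW⟩ := Subgroup.mem_inf.mp hx
    obtain ⟨y, hy, rfl⟩ := hxW
    rw [Subgroup.mem_bot]
    have hy1 : θ y = 1 := hy
    rw [hθfix y hxU] at hy1
    have h5 : orderOf y ∣ Nat.card A := orderOf_dvd_of_pow_eq_one hy1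
    have h6 : orderOf y ∣ Nat.card V := orderOf_dvd_natCard y
    have h7 : orderOf y = 1 := Nat.eq_one_of_dvd_coprimes hcop h5 h6
    have h8 : y = 1 := orderOf_eq_one_iff.mp h7
    rw [h8]; rfl
  · apply le_antisymm
    · exact sup_le hUV (Subgroup.map_subtype_le _)
    · intro v hv
      obtain ⟨t, htdef⟩ : ∃ t : ↥V, t = θ ⟨v, hv⟩ := ⟨_, rfl⟩
      have htU : (t : G) ∈ U := by rw [htdef]; exact hθU _
      have hcop2 : (Nat.card A).Coprime (orderOf t) :=
        Nat.Coprime.coprime_dvd_right (orderOf_dvd_natCard t) hcop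
      obtain ⟨m, hm⟩ := exists_pow_eq_self_of_coprime hcop2
      have huU : ((t ^ m : ↥V) : G) ∈ U := by
        rw [Subgroup.coe_pow]; exact U.pow_mem htU m
      have hθu : θ (t ^ m) = t := by
        rw [hθfix _ huU, ← pow_mul, mul_comm, pow_mul]; exact hm
      have hker : (⟨v, hv⟩ : ↥V) * (t ^ m)⁻¹ ∈ θ.ker := by
        rw [MonoidHom.mem_ker, map_mul, map_inv, hθu, ← htdef, mul_inv_cancel]
      have e : v = ((t ^ m : ↥V) : G) * (((⟨v, hv⟩ : ↥V) * (t ^ m)⁻¹ : ↥V) : G) := by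
        have : (⟨v, hv⟩ : ↥V) = (t ^ m) * ((⟨v, hv⟩ : ↥V) * (t ^ m)⁻¹) := by
          rw [mul_comm (⟨v, hv⟩ : ↥V), mul_inv_cancel_left]
        exact congrArg Subtype.val this
      rw [e]
      exact Subgroup.mul_mem _ (Subgroup.mem_sup_left huU) (Subgroup.mem_sup_right ⟨_, hker, rfl⟩)

end Cfsg.Agent.S0660
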