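import Cfsg.Statements.S0661
import Mathlib
import Cfsg.Agent.Lib.Helper5.CoprimeAB
import Cfsg.Agent.Lib.Helper2.PLocal
import Cfsg.Agent.Lib.Helper3.PPrimeCore
import Cfsg.Agent.Lib.Helper4.PCore

set_option autoImplicit false
open Cfsg

namespace Cfsg.Agent.S0661


theorem eq_one_of_coprime_pow {M : Type*} [Monoid M] {p : ℕ} (x : M) (k : ℕ)
    (h1 : (orderOf x).Coprime p) (h2 : x ^ (p ^ k) = 1) : x = 1 := by
  have h3 : orderOf x ∣ p ^ k := orderOf_dvd_of_pow_eq_one h2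
  have h4 : (orderOf x).Coprime (p ^ k) := Nat.Coprime.pow_right k h1
  have h5 : orderOf x = 1 := Nat.Coprime.eq_one_of_dvd h4 h3
  exact orderOf_eq_one_iff.1 h5

/-- If, modulo the largest normal subgroup of order prime to p, the largest normal p-subgroup contains its centralizer, then for every p-subgroup P the p'-core of N_G(P) is just O_p'(G) ∩ N_G(P). -/
theorem result {G : Type*} [Group G] [Finite G] {p : ℕ} [Fact p.Prime] (hc : Subgroup.centralizer (Cfsg.pCore p (G ⧸ Cfsg.pPrimeCore p G) : Set (G ⧸ Cfsg.pPrimeCore p G)) ≤ Cfsg.pCore p (G ⧸ Cfsg.pPrimeCore p G)) (P : Subgroup G) (hP : IsPGroup p P) : (Cfsg.pPrimeCore p ↥(Subgroup.normalizer (P : Set G))).map (Subgroup.normalizer (P : Set G)).subtype = Cfsg.pPrimeCore p G ⊓ Subgroup.normalizer (P : Set G) := by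
  classical
  have hp : p.Prime := Fact.out
  obtain ⟨H, hH⟩ : ∃ H : Subgroup G, H = Subgroup.normalizer (P : Set G) := ⟨_, rfl⟩
  rw [← hH]
  have hXcop : (Nat.card ↥(Cfsg.pPrimeCore p ↥H)).Coprime p :=
    Cfsg.Agent.Lib.Helper3.pPrimeCore_coprime hp _
  have hXn : (Cfsg.pPrimeCore p ↥H).Normal := inferInstance
  have hNcop : (Nat.card ↥(Cfsg.pPrimeCore p G)).Coprime p :=
    Cfsg.Agent.Lib.Helper3.pPrimeCore_coprime hp G
  have hord : ∀ w : ↥H, w ∈ Cfsg.pPrimeCore p ↥H → (orderOf (w : G)).Coprime p := by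
    intro w hw
    have h1 : orderOf (⟨w, hw⟩ : ↥(Cfsg.pPrimeCore p ↥H)) ∣ Nat.card ↥(Cfsg.pPrimeCore p ↥H) :=
      orderOf_dvd_natCard _
    have h2 : orderOf (w : G) = orderOf (⟨w, hw⟩ : ↥(Cfsg.pPrimeCore p ↥H)) := by
      rw [Subgroup.orderOf_coe]
      exact (Subgroup.orderOf_mk w hw).symm
    rw [h2]; exact Nat.Coprime.coprime_dvd_left h1 hXcop
  have hPH : P ≤ H := by rw [hH]; exact Subgroup.le_normalizer
  have hcommX : ∀ y' e' : ↥H, y' ∈ Cfsg.pPrimeCore p ↥H →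
      y' * e' * y'⁻¹ * e'⁻¹ ∈ Cfsg.pPrimeCore p ↥H := by
    intro y' e' hy'
    have : y' * e' * y'⁻¹ * e'⁻¹ = y' * (e' * y'⁻¹ * e'⁻¹) := by group
    rw [this]
    exact Subgroup.mul_mem _ hy' (hXn.conj_mem _ (Subgroup.inv_mem _ hy') _)
  apply le_antisymm
  · rintro _ ⟨y', hy', rfl⟩
    refine Subgroup.mem_inf.2 ⟨?_, y'.2⟩
    have hcomm : ∀ b ∈ P, (y' : G) * b = b * (y' : G) := by
      intro b hb
      have hw1 := hcommX y' ⟨b, hPH hb⟩ hy'
      have hw2 : (y' : G) * b * (y' : G)⁻¹ * b⁻¹ ∈ P := by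
        have : (y' : G) * b * (y' : G)⁻¹ ∈ P :=
          (Subgroup.mem_normalizer_iff.1 (hH ▸ y'.2) b).1 hb
        exact P.mul_mem this (P.inv_mem hb)
      have hw3 : (orderOf ((y' : G) * b * (y' : G)⁻¹ * b⁻¹)).Coprime p := hord _ hw1
      obtain ⟨k, hk⟩ := hP ⟨_, hw2⟩
      have hk' : ((y' : G) * b * (y' : G)⁻¹ * b⁻¹) ^ (p ^ k) = 1 := congrArg Subtype.val hk
      have h5 := eq_one_of_coprime_pow _ k hw3 hk'
      calc (y' : G) * b = ((y' : G) * b * (y' : G)⁻¹ * b⁻¹) * (b * (y' : G)) := by group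
        _ = b * (y' : G) := by rw [h5, one_mul]
    have hQn : (Cfsg.pCore p (G ⧸ Cfsg.pPrimeCore p G)).Normal := inferInstance
    have hQp : IsPGroup p (Cfsg.pCore p (G ⧸ Cfsg.pPrimeCore p G)) :=
      Cfsg.Agent.Lib.Helper4.pCore_isPGroup p _
    have hyord : (orderOf (QuotientGroup.mk' (Cfsg.pPrimeCore p G) (y' : G))).Coprime p :=
      Nat.Coprime.coprime_dvd_left (orderOf_map_dvd _ _) (hord y' hy')
    have hAB := Cfsg.Agent.Lib.Helper5.thompson_AB5 (Cfsg.pCore p (G ⧸ Cfsg.pPrimeCore p G))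
      (P.map (QuotientGroup.mk' (Cfsg.pPrimeCore p G))) hQp
      (hP.map (QuotientGroup.mk' (Cfsg.pPrimeCore p G)))
      (by rw [Subgroup.normalizer_eq_top]; exact le_top)
      (QuotientGroup.mk' (Cfsg.pPrimeCore p G) (y' : G))
      (by rw [Subgroup.normalizer_eq_top]; exact Subgroup.mem_top _)
      (by
        rintro _ ⟨b, hb, rfl⟩
        rw [← map_mul, ← map_mul, hcomm b hb])
      hyord
      (by
        intro e he hbe
        obtain ⟨e0, rfl⟩ := QuotientGroup.mk'_surjective _ e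
        have heN : QuotientGroup.mk' (Cfsg.pPrimeCore p G) e0 ∈ Subgroup.normalizer
            ((P.map (QuotientGroup.mk' (Cfsg.pPrimeCore p G)) : Subgroup _) : Set _) := by
          apply Subgroup.centralizer_le_normalizer
          rw [Subgroup.mem_centralizer_iff]
          intro b hb
          exact hbe b hb
        obtain ⟨n, hn, hne⟩ := Cfsg.Agent.Lib.Helper2.exists_mem_normalizer_of_quotient p
          (Cfsg.pPrimeCore p G) hNcop P hP e0 heN
        have hn1 : QuotientGroup.mk' (Cfsg.pPrimeCore p G) n = 1 :=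
          (QuotientGroup.eq_one_iff n).mpr hn
        have he' : QuotientGroup.mk' (Cfsg.pPrimeCore p G) (n⁻¹ * e0)
            = QuotientGroup.mk' (Cfsg.pPrimeCore p G) e0 := by
          rw [map_mul, map_inv, hn1, inv_one, one_mul]
        have hw1 := hcommX y' ⟨n⁻¹ * e0, hH ▸ hne⟩ hy'
        have hw3 : (orderOf ((y' : G) * (n⁻¹ * e0) * (y' : G)⁻¹ * (n⁻¹ * e0)⁻¹)).Coprime p :=
          hord _ hw1
        have hw4 : (orderOf (QuotientGroup.mk' (Cfsg.pPrimeCore p G)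
            ((y' : G) * (n⁻¹ * e0) * (y' : G)⁻¹ * (n⁻¹ * e0)⁻¹))).Coprime p :=
          Nat.Coprime.coprime_dvd_left (orderOf_map_dvd _ _) hw3
        have hw5 : QuotientGroup.mk' (Cfsg.pPrimeCore p G)
            ((y' : G) * (n⁻¹ * e0) * (y' : G)⁻¹ * (n⁻¹ * e0)⁻¹)
            = QuotientGroup.mk' (Cfsg.pPrimeCore p G) (y' : G)
              * QuotientGroup.mk' (Cfsg.pPrimeCore p G) e0
              * (QuotientGroup.mk' (Cfsg.pPrimeCore p G) (y' : G))⁻¹
              * (QuotientGroup.mk' (Cfsg.pPrimeCore p G) e0)⁻¹ := by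
          rw [map_mul, map_mul, map_mul, map_inv, map_inv, he']
        have hw6 : QuotientGroup.mk' (Cfsg.pPrimeCore p G)
            ((y' : G) * (n⁻¹ * e0) * (y' : G)⁻¹ * (n⁻¹ * e0)⁻¹)
            ∈ Cfsg.pCore p (G ⧸ Cfsg.pPrimeCore p G) := by
          rw [hw5]
          exact Subgroup.mul_mem _ (hQn.conj_mem _ he _) (Subgroup.inv_mem _ he)
        obtain ⟨k, hk⟩ := hQp ⟨_, hw6⟩
        have hk' : (QuotientGroup.mk' (Cfsg.pPrimeCore p G)
            ((y' : G) * (n⁻¹ * e0) * (y' : G)⁻¹ * (n⁻¹ * e0)⁻¹)) ^ (p ^ k) = 1 :=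
          congrArg Subtype.val hk
        have h5 := eq_one_of_coprime_pow _ k hw4 hk'
        rw [hw5] at h5
        exact mul_inv_eq_one.1 h5)
    have hyC : QuotientGroup.mk' (Cfsg.pPrimeCore p G) (y' : G) ∈ Subgroup.centralizer
        (Cfsg.pCore p (G ⧸ Cfsg.pPrimeCore p G) : Set (G ⧸ Cfsg.pPrimeCore p G)) := by
      rw [Subgroup.mem_centralizer_iff]
      intro e he
      have h1 := hAB e he
      calc e * QuotientGroup.mk' (Cfsg.pPrimeCore p G) (y' : G)
          = (QuotientGroup.mk' (Cfsg.pPrimeCore p G) (y' : G) * e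
              * (QuotientGroup.mk' (Cfsg.pPrimeCore p G) (y' : G))⁻¹)
              * QuotientGroup.mk' (Cfsg.pPrimeCore p G) (y' : G) := by rw [h1]
        _ = QuotientGroup.mk' (Cfsg.pPrimeCore p G) (y' : G) * e := by group
    have hyQ := hc hyC
    obtain ⟨k, hk⟩ := hQp ⟨_, hyQ⟩
    have hk' : (QuotientGroup.mk' (Cfsg.pPrimeCore p G) (y' : G)) ^ (p ^ k) = 1 :=
      congrArg Subtype.val hk
    have h1 := eq_one_of_coprime_pow _ k hyord hk'
    exact (QuotientGroup.eq_one_iff _).1 h1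
  · intro x hx
    obtain ⟨hxN, hxH⟩ := Subgroup.mem_inf.1 hx
    have h1 : (Cfsg.pPrimeCore p G).subgroupOf H ≤ Cfsg.pPrimeCore p ↥H := by
      apply Cfsg.Agent.Lib.Helper3.le_pPrimeCore
      · infer_instance
      · have h2 : Nat.card ↥((Cfsg.pPrimeCore p G).subgroupOf H)
            = Nat.card ↥(Cfsg.pPrimeCore p G ⊓ H : Subgroup G) := by
          rw [← Subgroup.subgroupOf_map_subtype,
            Subgroup.card_map_of_injective (Subgroup.subtype_injective H)]
        rw [h2]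
        exact Nat.Coprime.coprime_dvd_left (Subgroup.card_dvd_of_le inf_le_left) hNcop
    exact ⟨⟨x, hxH⟩, h1 (Subgroup.mem_subgroupOf.2 hxN), rfl⟩

end Cfsg.Agent.S0661
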