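import Cfsg.Statements.S0662
import Mathlib
import Cfsg.Agent.Lib.Helper3.MaxClass

set_option autoImplicit false
open Cfsg

namespace Cfsg.Agent.S0662

open Cfsg.Agent.Lib.Helper3
open scoped commutatorElement

/-- In a p-group of maximal class of order at least p³ the normal subgroups of index at least p² are exactly the terms of the lower central series, and there are exactly p + 1 normal subgroups of index p. -/
theorem result {G : Type*} [Group G] [Finite G] {p : ℕ} [Fact p.Prime] (n : ℕ) (hG : Nat.card G = p ^ n) (hcl : Group.nilpotencyClass G = n - 1) (hn : 3 ≤ n) : (∀ (N : Subgroup G) [N.Normal] (r : ℕ), 2 ≤ r → N.index = p ^ r → N = (⊤ : Subgroup G).lowerCentralSeries (r - 1)) ∧ Nat.card {N : Subgroup G // N.Normal ∧ N.index = p} = p + 1 := by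
  classical
  have hp : p.Prime := Fact.out
  have hPG : IsPGroup p G := IsPGroup.of_card hG
  haveI hnil : Group.IsNilpotent G := hPG.isNilpotent
  have hne : ∀ i, i < n - 1 → (⊤ : Subgroup G).lowerCentralSeries i ≠ ⊥ := by
    intro i hi h
    have h1 := Subgroup.lowerCentralSeries_eq_bot_iff_nilpotencyClass_le.mp h
    omega
  have hlow : ∀ j, j ≤ n - 1 →
      p ^ j ≤ Nat.card ((⊤ : Subgroup G).lowerCentralSeries (n - 1 - j)) := by
    intro j
    induction j with
    | zero => intro _; rw [pow_zero]; exact Nat.card_pos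
    | succ j ih =>
      intro hj
      have h1 := ih (by omega)
      have hi : n - 1 - (j + 1) < n - 1 := by omega
      have h2 := pgroup_card_lt_step hPG (lcs_top_lt hPG (n - 1 - (j + 1)) (hne _ hi))
      have h3 : n - 1 - (j + 1) + 1 = n - 1 - j := by omega
      rw [h3] at h2
      calc p ^ (j + 1) = p * p ^ j := by ring
        _ ≤ p * Nat.card ((⊤ : Subgroup G).lowerCentralSeries (n - 1 - j)) :=
            Nat.mul_le_mul_left _ h1
        _ ≤ _ := h2
  have hidx : ∀ i, i + 2 ≤ n →
      ((⊤ : Subgroup G).lowerCentralSeries (i + 1)).index = p ^ (i + 2) := by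
    intro i hi
    have h1 := lcs_card_le n hG (by omega) i hi
    have h2 := hlow (n - 1 - (i + 1)) (by omega)
    have h3 : n - 1 - (n - 1 - (i + 1)) = i + 1 := by omega
    rw [h3] at h2
    have h4 : p ^ n = p ^ (i + 2) * p ^ (n - 1 - (i + 1)) := by
      rw [← pow_add]; congr 1; omega
    have h5 : Nat.card ((⊤ : Subgroup G).lowerCentralSeries (i + 1))
        = p ^ (n - 1 - (i + 1)) := by
      refine le_antisymm ?_ h2
      rw [h4] at h1
      exact Nat.le_of_mul_le_mul_left h1 (pow_pos hp.pos _)
    have h6 := Subgroup.card_mul_index ((⊤ : Subgroup G).lowerCentralSeries (i + 1))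
    rw [h5, hG, h4, mul_comm (p ^ (n - 1 - (i + 1))) _] at h6
    exact Nat.eq_of_mul_eq_mul_right (pow_pos hp.pos _) h6
  constructor
  · intro N _ r hr hNi
    have hrn : r ≤ n := by
      have h1 : N.index ∣ Nat.card G := Subgroup.index_dvd_card N
      rw [hNi, hG] at h1
      exact (Nat.pow_dvd_pow_iff_le_right hp.one_lt).mp h1
    have hQ : Nat.card (G ⧸ N) = p ^ r := by rw [← Subgroup.index_eq_card, hNi]
    have hQbot := lcs_eq_bot_of_card (G := G ⧸ N) r hQ hr
    have hle : (⊤ : Subgroup G).lowerCentralSeries (r - 1) ≤ N := by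
      have h1 := Subgroup.map_lowerCentralSeries (⊤ : Subgroup G) (QuotientGroup.mk' N) (r - 1)
      rw [Subgroup.map_top_of_surjective _ (QuotientGroup.mk'_surjective N), hQbot] at h1
      have h2 := (Subgroup.map_eq_bot_iff _).mp h1
      rwa [QuotientGroup.ker_mk'] at h2
    obtain ⟨i, rfl⟩ : ∃ i, r = i + 2 := ⟨r - 2, by omega⟩
    have h3 : i + 2 - 1 = i + 1 := by omega
    rw [h3] at hle ⊢
    exact (idxp_eq_of_le hle (by rw [hidx i hrn, hNi])).symm
  · have hL1i : ((⊤ : Subgroup G).lowerCentralSeries 1).index = p ^ 2 := hidx 0 (by omega)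
    have hL1ne : (⊤ : Subgroup G).lowerCentralSeries 1 ≠ ⊥ := hne 1 (by omega)
    have hH : ∀ g : G, g ∉ (⊤ : Subgroup G).lowerCentralSeries 1 →
        ((⊤ : Subgroup G).lowerCentralSeries 1 ⊔ Subgroup.zpowers g).index = p := by
      intro g hg
      have hZD : (⊤ : Subgroup G).lowerCentralSeries 1
          ≤ (⊤ : Subgroup G).lowerCentralSeries 1 ⊔ Subgroup.zpowers g := le_sup_left
      have h1 := Subgroup.relIndex_mul_index hZD
      rw [hL1i] at h1
      have hdvd : ((⊤ : Subgroup G).lowerCentralSeries 1 ⊔ Subgroup.zpowers g).index ∣ p ^ 2 :=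
        Dvd.intro_left _ h1
      obtain ⟨j, hj, hDj⟩ := (Nat.dvd_prime_pow hp).mp hdvd
      have hj0 : j ≠ 0 := by
        rintro rfl
        rw [pow_zero] at hDj
        have htop := Subgroup.index_eq_one.mp hDj
        have hle : commutator G ≤ (⊤ : Subgroup G).lowerCentralSeries 2 :=
          gen_commutator_le htop _ (fun a ha g => by
            show ⁅a, g⁆ ∈ ⁅(⊤ : Subgroup G).lowerCentralSeries 1, ⊤⁆
            exact Subgroup.commutator_mem_commutator ha (Subgroup.mem_top g))
        rw [← Subgroup.top_lowerCentralSeries_one] at hle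
        exact (not_le_of_gt (lcs_top_lt hPG 1 hL1ne)) hle
      have hj2 : j ≠ 2 := by
        rintro rfl
        rw [hDj] at h1
        have h2 : ((⊤ : Subgroup G).lowerCentralSeries 1).relIndex
            ((⊤ : Subgroup G).lowerCentralSeries 1 ⊔ Subgroup.zpowers g) = 1 :=
          Nat.eq_of_mul_eq_mul_right (pow_pos hp.pos 2) (by rw [h1, one_mul])
        exact hg (Subgroup.relIndex_eq_one.mp h2
          (Subgroup.mem_sup_right (Subgroup.mem_zpowers g)))
      have hj1 : j = 1 := by omega
      rw [hDj, hj1, pow_one]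
    have hfam : ∀ B : Subgroup G, (B.Normal ∧ B.index = p) ↔
        ((⊤ : Subgroup G).lowerCentralSeries 1 ≤ B ∧ B.index = p) := by
      intro B
      constructor
      · rintro ⟨hBn, hBi⟩
        refine ⟨?_, hBi⟩
        have hBtop : B ≠ ⊤ := by
          intro h
          rw [h, Subgroup.index_top] at hBi
          exact hp.one_lt.ne hBi
        obtain ⟨x, hx⟩ : ∃ x, x ∉ B := by
          by_contra hcon
          push_neg at hcon
          exact hBtop (eq_top_iff.mpr (fun g _ => hcon g))
        have hsup : B ⊔ Subgroup.zpowers x = ⊤ := idxp_eq_top hp hBi le_sup_left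
          (fun h => hx (h (Subgroup.mem_sup_right (Subgroup.mem_zpowers x))))
        rw [Subgroup.top_lowerCentralSeries_one]
        haveI := hBn
        exact gen_commutator_le hsup B (fun a ha g => by
          rw [commutatorElement_def]
          have h4 : a * g * a⁻¹ * g⁻¹ = a * (g * a⁻¹ * g⁻¹) := by group
          rw [h4]
          exact B.mul_mem ha (hBn.conj_mem _ (B.inv_mem ha) g))
      · rintro ⟨hLB, hBi⟩
        refine ⟨⟨fun b hb g => ?_⟩, hBi⟩
        have h1 : ⁅g, b⁆ ∈ (⊤ : Subgroup G).lowerCentralSeries 1 := by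
          rw [Subgroup.top_lowerCentralSeries_one, commutator_def]
          exact Subgroup.commutator_mem_commutator (Subgroup.mem_top _) (Subgroup.mem_top _)
        have h2 : g * b * g⁻¹ = ⁅g, b⁆ * b := by rw [commutatorElement_def]; group
        rw [h2]; exact B.mul_mem (hLB h1) hb
    rw [show Nat.card {N : Subgroup G // N.Normal ∧ N.index = p}
        = Nat.card {B : Subgroup G // (⊤ : Subgroup G).lowerCentralSeries 1 ≤ B ∧ B.index = p} from
      Nat.card_congr (Equiv.subtypeEquivRight hfam)]
    exact idxp_card_subgroups p hp _ hL1i hH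

end Cfsg.Agent.S0662
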