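import Cfsg.Statements.S0663
import Mathlib
import Cfsg.Agent.Lib.Helper3.Uniserial

set_option autoImplicit false
open Cfsg

namespace Cfsg.Agent.S0663

open Cfsg.Agent.Lib.Helper3

/-- A p-group acts uniserially on a p-group N of order p^n exactly when the iterated commutator chain from N has length n; in that case the chain terms are all the invariant subgroups of N and they are normal in N. -/
theorem result {L : Type*} [Group L] [Finite L] {p : ℕ} [Fact p.Prime] (N G : Subgroup L) (hN : IsPGroup p N) (hG : IsPGroup p G) (hGN : G ≤ Subgroup.normalizer (N : Set L)) (n : ℕ) (hn : Nat.card N = p ^ n) : ((∀ H : Subgroup L, H ≤ N → G ≤ Subgroup.normalizer (H : Set L) → H ≠ ⊥ → (⁅H, G⁆).relIndex H = p) ↔ Cfsg.iterCommutator N G (n - 1) ≠ ⊥ ∨ n = 0) ∧ ((∀ H : Subgroup L, H ≤ N → G ≤ Subgroup.normalizer (H : Set L) → H ≠ ⊥ → (⁅H, G⁆).relIndex H = p) → ∀ H : Subgroup L, H ≤ N → G ≤ Subgroup.normalizer (H : Set L) → (∃ i ≤ n, H = Cfsg.iterCommutator N G i) ∧ N ≤ Subgroup.normalizer (H : Set L)) := by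
  have hp := (Fact.out : p.Prime)
  have key : (∀ i ≤ n, Nat.card (Cfsg.iterCommutator N G i) = p ^ (n - i)) →
      (∀ H : Subgroup L, H ≤ N → G ≤ Subgroup.normalizer (H : Set L) →
        (∃ i ≤ n, H = Cfsg.iterCommutator N G i) ∧ N ≤ Subgroup.normalizer (H : Set L)) := by
    intro hC H hHN hGH
    have hnorm := uni_normal_of_chain N G hN hG hGN n hn hC
    obtain ⟨i, hi, rfl⟩ := uni_exists_eq N G hN hGN n hC hnorm H hHN hGH
    exact ⟨⟨i, hi, rfl⟩, hnorm i⟩
  refine ⟨⟨fun hU => ?_, fun h => ?_⟩, fun hU => key (uni_chain_of_uniserial N G hGN n hn hU)⟩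
  · by_cases hn0 : n = 0
    · exact Or.inr hn0
    · left
      have hC := uni_chain_of_uniserial N G hGN n hn hU
      intro h0
      have h2 := hC (n - 1) (by omega)
      rw [h0, Subgroup.card_bot] at h2
      have h1 : 1 < p ^ (n - (n - 1)) := Nat.one_lt_pow (by omega) hp.one_lt
      omega
  · intro H hHN hGH hH
    by_cases hn0 : n = 0
    · exfalso
      apply hH
      have h1 : N = ⊥ := Subgroup.eq_bot_of_card_eq _ (by rw [hn, hn0, pow_zero])
      exact eq_bot_iff.mpr (h1 ▸ hHN)
    · have hne : Cfsg.iterCommutator N G (n - 1) ≠ ⊥ := by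
        rcases h with h | h
        · exact h
        · exact absurd h hn0
      have hC := uni_chain_of_ne_bot N G hN hG hGN n hn hn0 hne
      obtain ⟨⟨i, hi, rfl⟩, -⟩ := key hC H hHN hGH
      have hin : i ≠ n := by
        intro h1
        apply hH
        apply Subgroup.eq_bot_of_card_eq
        rw [hC i hi, h1]; simp
      have hle : Cfsg.iterCommutator N G (i + 1) ≤ Cfsg.iterCommutator N G i :=
        iterCommutator_succ_le N G hGN i
      have hcm := card_mul_relIndex_eq _ _ hle
      rw [hC i hi, hC (i + 1) (by omega)] at hcm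
      have e : p ^ (n - i) = p ^ (n - (i + 1)) * p := by rw [← pow_succ]; congr 1; omega
      rw [e] at hcm
      exact Nat.eq_of_mul_eq_mul_left (pow_pos hp.pos _) hcm

end Cfsg.Agent.S0663
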