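import Cfsg.Statements.S0666
import Mathlib
import Cfsg.Agent.Lib.Lead.CharFrob


set_option autoImplicit false
open Cfsg

namespace Cfsg.Agent.S0666


theorem frob_act {F V : Type*} [Group F] [Finite F] [CommGroup V] (act : F → V →* V)
    (hact : ∀ f g v, act (f * g) v = act f (act g v)) (hact1 : ∀ v, act 1 v = v)
    (N H : Subgroup F) [hNn : N.Normal]
    (hfix : ∀ n ∈ N, ∀ h ∈ H, h ≠ 1 → n * h * n⁻¹ = h → n = 1)
    (hCN : ∀ v : V, (∀ n ∈ N, act n v = v) → v = 1)
    (hCH : ∀ v : V, (∀ h ∈ H, act h v = v) → v = 1) (v : V) : v ^ Nat.card N = 1 := by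
  classical
  haveI : Fintype N := Fintype.ofFinite N
  haveI : Fintype H := Fintype.ofFinite H
  have hTrN : ∀ w : V, ∏ n : N, act (n : F) w = 1 := by
    intro w
    apply hCN
    intro m hm
    rw [map_prod]
    have h1 : ∀ n : N, act m (act (n : F) w) = act (((⟨m, hm⟩ : N) * n : N) : F) w :=
      fun n => (hact m n w).symm
    simp_rw [h1]
    exact Fintype.prod_equiv (Equiv.mulLeft (⟨m, hm⟩ : N)) _ _ (fun n => rfl)
  have hTrH : ∀ w : V, ∏ h : H, act (h : F) w = 1 := by
    intro w
    apply hCH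
    intro m hm
    rw [map_prod]
    have h1 : ∀ n : H, act m (act (n : F) w) = act (((⟨m, hm⟩ : H) * n : H) : F) w :=
      fun n => (hact m n w).symm
    simp_rw [h1]
    exact Fintype.prod_equiv (Equiv.mulLeft (⟨m, hm⟩ : H)) _ _ (fun n => rfl)
  have hP1 : ∏ n : N, ∏ h : H, act ((n : F) * h * (n : F)⁻¹) v = 1 := by
    have h1 : ∀ n : N, ∏ h : H, act ((n : F) * h * (n : F)⁻¹) v
        = act (n : F) (∏ h : H, act (h : F) (act (n : F)⁻¹ v)) := by
      intro n
      rw [map_prod]
      refine Finset.prod_congr rfl (fun h _ => ?_)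
      rw [hact, hact]
    simp_rw [h1, hTrH, map_one]
    simp
  have hP2 : ∏ h : H, ∏ n : N, act ((n : F) * h * (n : F)⁻¹) v = v ^ Nat.card N := by
    rw [Fintype.prod_eq_single (1 : H)]
    · simp [hact1, Nat.card_eq_fintype_card]
    · intro h hh
      have hh1 : (h : F) ≠ 1 := fun h0 => hh (Subtype.ext h0)
      have hmem : ∀ n : N, (n : F) * h * (n : F)⁻¹ * (h : F)⁻¹ ∈ N := by
        intro n
        have h2 : (h : F) * (n : F)⁻¹ * (h : F)⁻¹ ∈ N := hNn.conj_mem _ (N.inv_mem n.2) _
        have h3 : (n : F) * h * (n : F)⁻¹ * (h : F)⁻¹ = (n : F) * ((h : F) * (n : F)⁻¹ * (h : F)⁻¹) := by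
          group
        rw [h3]; exact N.mul_mem n.2 h2
      have hinj : Function.Injective (fun n : N => (⟨(n : F) * h * (n : F)⁻¹ * (h : F)⁻¹, hmem n⟩ : N)) := by
        intro n m hnm
        have h2 : (n : F) * h * (n : F)⁻¹ * (h : F)⁻¹ = (m : F) * h * (m : F)⁻¹ * (h : F)⁻¹ :=
          congrArg Subtype.val hnm
        have h3 : (n : F) * h * (n : F)⁻¹ = (m : F) * h * (m : F)⁻¹ := mul_right_cancel h2
        have h4 : ((m : F)⁻¹ * n) * h * ((m : F)⁻¹ * n)⁻¹ = h := by
          have : ((m : F)⁻¹ * n) * h * ((m : F)⁻¹ * n)⁻¹ = (m : F)⁻¹ * ((n : F) * h * (n : F)⁻¹) * m := by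
            group
          rw [this, h3]; group
        have h5 := hfix _ (N.mul_mem (N.inv_mem m.2) n.2) h h.2 hh1 h4
        apply Subtype.ext
        exact (inv_mul_eq_one.1 h5).symm
      have hbij := Finite.injective_iff_bijective.1 hinj
      have h6 : ∀ n : N, act ((n : F) * h * (n : F)⁻¹) v
          = act (((⟨(n : F) * h * (n : F)⁻¹ * (h : F)⁻¹, hmem n⟩ : N)) : F) (act (h : F) v) := by
        intro n
        rw [← hact]
        have h7 : (n : F) * h * (n : F)⁻¹ = (n : F) * h * (n : F)⁻¹ * (h : F)⁻¹ * h := by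
          group
        exact congrArg (fun f => act f v) h7
      simp_rw [h6]
      rw [hbij.prod_comp (fun m : N => act (m : F) (act (h : F) v))]
      exact hTrN _
  rw [← hP2, Finset.prod_comm]; exact hP1

/-- A Frobenius group acting on a nontrivial abelian group of order prime to that of its kernel, with the kernel acting without nontrivial fixed points, has a complement with a nontrivial fixed point. -/
theorem result {G : Type*} [Group G] [Finite G] (V F : Subgroup G) (hVab : IsMulCommutative V) (hV1 : V ≠ ⊥) (hFV : F ≤ Subgroup.normalizer (V : Set G)) (H : Subgroup ↥F) (hH : Cfsg.IsFrobeniusComplement H) (hcop : (Nat.card V).Coprime (Nat.card (Cfsg.frobeniusKernel H))) (hCK : V ⊓ Subgroup.centralizer (Subtype.val '' Cfsg.frobeniusKernel H : Set G) = ⊥) : V ⊓ Subgroup.centralizer ((H.map F.subtype : Subgroup G) : Set G) ≠ ⊥ := by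
  classical
  intro hbot
  obtain ⟨N, hNK, hNn, hNc⟩ := Cfsg.Agent.Lib.Lead.frobenius_kernel H hH
  haveI := hNn
  letI : CommGroup V := { (inferInstance : Group V) with mul_comm := hVab.is_comm.comm }
  let act : F → V →* V := fun f =>
    { toFun := fun v => ⟨(f : G) * v * (f : G)⁻¹,
        (Subgroup.mem_normalizer_iff.1 (hFV f.2) v).1 v.2⟩
      map_one' := by
        apply Subtype.ext
        show (f : G) * ((1 : V) : G) * (f : G)⁻¹ = ((1 : V) : G)
        simp
      map_mul' := by
        intro a b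
        apply Subtype.ext
        show (f : G) * ((a * b : V) : G) * (f : G)⁻¹
          = ((f : G) * a * (f : G)⁻¹) * ((f : G) * b * (f : G)⁻¹)
        simp [mul_assoc] }
  have hactv : ∀ (f : F) (v : V), ((act f v : V) : G) = (f : G) * v * (f : G)⁻¹ := fun f v => rfl
  have key : ∀ v : V, v ^ Nat.card N = 1 := by
    intro v
    refine frob_act act ?_ ?_ N H ?_ ?_ ?_ v
    · intro f g v
      apply Subtype.ext
      rw [hactv, hactv, hactv]
      show ((f : G) * (g : G)) * v * ((f : G) * (g : G))⁻¹ = _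
      group
    · intro v
      apply Subtype.ext
      rw [hactv]
      show ((1 : G)) * v * (1 : G)⁻¹ = _
      group
    · intro n hn h hh hh1 hnh
      have h1 : n ∈ H := Cfsg.Agent.Lib.Lead.frob_mem_of_conj_mem H hH n h hh hh1 (by rw [hnh]; exact hh)
      have h2 : n ∈ N ⊓ H := Subgroup.mem_inf.2 ⟨hn, h1⟩
      rw [hNc.disjoint.eq_bot] at h2
      exact Subgroup.mem_bot.1 h2
    · intro v hv
      have h1 : (v : G) ∈ V ⊓ Subgroup.centralizer (Subtype.val '' Cfsg.frobeniusKernel H : Set G) := by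
        refine Subgroup.mem_inf.2 ⟨v.2, ?_⟩
        rw [Subgroup.mem_centralizer_iff]
        rintro _ ⟨k, hk, rfl⟩
        have hkN : k ∈ N := by
          have : k ∈ (N : Set F) := by rw [hNK]; exact hk
          exact this
        have h2 := congrArg Subtype.val (hv k hkN)
        rw [hactv] at h2
        calc (k : G) * (v : G) = ((k : G) * v * (k : G)⁻¹) * k := by group
          _ = (v : G) * k := by rw [h2]
      rw [hCK] at h1
      exact Subtype.ext (Subgroup.mem_bot.1 h1)
    · intro v hv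
      have h1 : (v : G) ∈ V ⊓ Subgroup.centralizer ((H.map F.subtype : Subgroup G) : Set G) := by
        refine Subgroup.mem_inf.2 ⟨v.2, ?_⟩
        rw [Subgroup.mem_centralizer_iff]
        rintro _ ⟨k, hk, rfl⟩
        have h2 := congrArg Subtype.val (hv k hk)
        rw [hactv] at h2
        show (k : G) * (v : G) = (v : G) * (k : G)
        calc (k : G) * (v : G) = ((k : G) * v * (k : G)⁻¹) * k := by group
          _ = (v : G) * k := by rw [h2]
      rw [hbot] at h1
      exact Subtype.ext (Subgroup.mem_bot.1 h1)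
  have hcard : Nat.card (Cfsg.frobeniusKernel H) = Nat.card N := by
    rw [← hNK]; rfl
  rw [hcard] at hcop
  apply hV1
  rw [Subgroup.eq_bot_iff_forall]
  intro x hx
  have h1 := key ⟨x, hx⟩
  have h2 : orderOf (⟨x, hx⟩ : V) ∣ Nat.card N := orderOf_dvd_of_pow_eq_one h1
  have h3 : orderOf (⟨x, hx⟩ : V) ∣ Nat.card V := orderOf_dvd_natCard _
  have h4 : orderOf (⟨x, hx⟩ : V) = 1 := Nat.eq_one_of_dvd_coprimes hcop h3 h2
  rw [orderOf_eq_one_iff] at h4
  exact congrArg Subtype.val h4

end Cfsg.Agent.S0666
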