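import Cfsg.Statements.S0668
import Mathlib
-- import your own Cfsg.Agent.* helpers here

set_option autoImplicit false
open Cfsg

namespace Cfsg.Agent.S0668


open MulAction

theorem main {G : Type*} [Group G] {K : Type*} [Field K] {Ω₁ Ω₂ : Type*} [Fintype Ω₁]
    [Fintype Ω₂] [MulAction G Ω₁] [MulAction G Ω₂] :
    Module.finrank K ((Cfsg.permRep K G Ω₁).linHom (Cfsg.permRep K G Ω₂)).invariants =
      Nat.card (MulAction.orbitRel.Quotient G (Ω₁ × Ω₂)) := by
  classical
  haveI : Finite (orbitRel.Quotient G (Ω₁ × Ω₂)) := Quotient.finite _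
  haveI : Fintype (orbitRel.Quotient G (Ω₁ × Ω₂)) := Fintype.ofFinite _
  let q : Ω₁ × Ω₂ → orbitRel.Quotient G (Ω₁ × Ω₂) := Quotient.mk''
  have hq : ∀ (g : G) (x : Ω₁) (y : Ω₂), q (g • x, g • y) = q (x, y) := by
    intro g x y
    apply Quotient.sound
    show (orbitRel G (Ω₁ × Ω₂)) (g • x, g • y) (x, y)
    rw [orbitRel_apply]
    exact ⟨g, rfl⟩
  let Φ : (orbitRel.Quotient G (Ω₁ × Ω₂) → K) →ₗ[K] ((Ω₁ → K) →ₗ[K] (Ω₂ → K)) :=
    { toFun := fun c =>
        { toFun := fun f y => ∑ x, c (q (x, y)) * f x
          map_add' := fun f f' => by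
            funext y
            simp [mul_add, Finset.sum_add_distrib]
          map_smul' := fun a f => by
            funext y
            simp [Finset.mul_sum, mul_left_comm] }
      map_add' := fun c c' => by
        apply LinearMap.ext
        intro f
        funext y
        simp [add_mul, Finset.sum_add_distrib]
      map_smul' := fun a c => by
        apply LinearMap.ext
        intro f
        funext y
        simp [Finset.mul_sum, mul_assoc] }
  have hΦ : ∀ c f y, Φ c f y = ∑ x, c (q (x, y)) * f x := fun c f y => rfl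
  have hinj : Function.Injective Φ := by
    rw [← LinearMap.ker_eq_bot, LinearMap.ker_eq_bot']
    intro c hc
    funext z
    induction z using Quotient.inductionOn with | h z =>
    obtain ⟨x0, y⟩ := z
    have h1 := congrFun (LinearMap.congr_fun hc (Pi.single x0 1)) y
    rw [hΦ] at h1
    simp [Pi.single_apply] at h1
    exact h1
  have hrange : LinearMap.range Φ =
      ((Cfsg.permRep K G Ω₁).linHom (Cfsg.permRep K G Ω₂)).invariants := by
    ext T
    rw [Representation.mem_invariants]
    constructor
    · rintro ⟨c, rfl⟩ g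
      apply LinearMap.ext
      intro f
      funext y
      show Φ c (fun x => f ((g⁻¹)⁻¹ • x)) (g⁻¹ • y) = Φ c f y
      rw [hΦ, hΦ, inv_inv]
      rw [← Equiv.sum_comp (MulAction.toPerm g) (fun x => c (q (x, y)) * f x)]
      refine Finset.sum_congr rfl fun x _ => ?_
      show c (q (x, g⁻¹ • y)) * f (g • x) = c (q (g • x, y)) * f (g • x)
      rw [← hq g x (g⁻¹ • y), smul_inv_smul]
    · intro hT
      have hm : ∀ (g : G) (x : Ω₁) (y : Ω₂),
          T (Pi.single (g • x) 1) (g • y) = T (Pi.single x 1) y := by
        intro g x y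
        have h1 := congrFun (LinearMap.congr_fun (hT g) (Pi.single (g • x) 1)) (g • y)
        have h2 : T (fun z => (Pi.single (g • x) (1:K) : Ω₁ → K) ((g⁻¹)⁻¹ • z))
            (g⁻¹ • (g • y)) = T (Pi.single (g • x) 1) (g • y) := h1
        rw [inv_smul_smul] at h2
        have h3 : (fun z => (Pi.single (g • x) (1:K) : Ω₁ → K) ((g⁻¹)⁻¹ • z)) =
            Pi.single x 1 := by
          funext z
          rw [inv_inv]
          by_cases hz : z = x
          · subst hz
            simp
          · rw [Pi.single_eq_of_ne hz, Pi.single_eq_of_ne]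
            exact fun h => hz (MulAction.injective g h)
        rw [h3] at h2
        exact h2.symm
      let c : orbitRel.Quotient G (Ω₁ × Ω₂) → K :=
        Quotient.lift (fun z : Ω₁ × Ω₂ => T (Pi.single z.1 1) z.2) (by
          rintro ⟨x, y⟩ ⟨x', y'⟩ h
          obtain ⟨g, hg⟩ := orbitRel_apply.mp h
          have h1 : g • x' = x := congrArg Prod.fst hg
          have h2 : g • y' = y := congrArg Prod.snd hg
          show T (Pi.single x 1) y = T (Pi.single x' 1) y'
          rw [← h1, ← h2, hm])
      have hc : ∀ x y, c (q (x, y)) = T (Pi.single x 1) y := fun x y => rfl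
      refine ⟨c, ?_⟩
      apply LinearMap.ext
      intro f
      funext y
      rw [hΦ, LinearMap.pi_apply_eq_sum_univ T f, Finset.sum_apply]
      refine Finset.sum_congr rfl fun x _ => ?_
      rw [hc, Pi.smul_apply, smul_eq_mul, mul_comm]
      have e : (Pi.single x (1:K) : Ω₁ → K) = fun j => if x = j then 1 else 0 := by
        funext j
        simp [Pi.single_apply, eq_comm]
      rw [e]
  rw [← hrange, LinearMap.finrank_range_of_inj hinj, Module.finrank_fintype_fun_eq_card,
    Nat.card_eq_fintype_card]

/-- The equivariant linear maps between the permutation modules of two finite `G`-sets form a space whose dimension is the number of `G`-orbits on the product of the two sets. -/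
theorem result {G : Type*} [Group G] {K : Type*} [Field K] {Ω₁ Ω₂ : Type*} [Fintype Ω₁] [Fintype Ω₂] [MulAction G Ω₁] [MulAction G Ω₂] : Module.finrank K ((Cfsg.permRep K G Ω₁).linHom (Cfsg.permRep K G Ω₂)).invariants = Nat.card (MulAction.orbitRel.Quotient G (Ω₁ × Ω₂)) := by
  exact main

end Cfsg.Agent.S0668
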