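import Cfsg.Statements.S0669
import Mathlib

set_option autoImplicit false
open Cfsg

namespace Cfsg.Agent.S0669

/-- The rank of a transitive action: orbits on ordered pairs correspond to orbits of a point stabiliser. -/
theorem result {G : Type*} [Group G] {Ω : Type*} [Finite Ω] [MulAction G Ω] [MulAction.IsPretransitive G Ω] (a : Ω) : Nat.card (MulAction.orbitRel.Quotient G (Ω × Ω)) = Nat.card (MulAction.orbitRel.Quotient (MulAction.stabilizer G a) Ω) := by
  let f : MulAction.orbitRel.Quotient (MulAction.stabilizer G a) Ω →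
      MulAction.orbitRel.Quotient G (Ω × Ω) :=
    Quotient.map' (fun y => (a, y)) (by
      intro y1 y2 h
      rw [MulAction.orbitRel_apply] at h ⊢
      obtain ⟨s, hs⟩ := h
      refine ⟨(s : G), ?_⟩
      have hs' : (s : G) • y2 = y1 := hs
      have hsa : (s : G) • a = a := s.2
      show ((s : G) • a, (s : G) • y2) = (a, y1)
      rw [hsa, hs'])
  have hinj : Function.Injective f := by
    intro q1 q2
    induction q1 using Quotient.inductionOn' with
    | h y1 =>
      induction q2 using Quotient.inductionOn' with
      | h y2 =>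
        intro h
        have h1 : (Quotient.mk'' (a, y1) : MulAction.orbitRel.Quotient G (Ω × Ω)) =
            Quotient.mk'' (a, y2) := h
        rw [Quotient.eq''] at h1 ⊢
        rw [MulAction.orbitRel_apply] at h1 ⊢
        obtain ⟨g, hg⟩ := h1
        have hg' : (g • a, g • y2) = (a, y1) := hg
        have h2 : g • a = a := congrArg Prod.fst hg'
        have h3 : g • y2 = y1 := congrArg Prod.snd hg'
        exact ⟨⟨g, h2⟩, h3⟩
  have hsurj : Function.Surjective f := by
    intro q
    induction q using Quotient.inductionOn' with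
    | h xy =>
      obtain ⟨x, y⟩ := xy
      obtain ⟨g, hg⟩ := MulAction.exists_smul_eq G a x
      refine ⟨Quotient.mk'' (g⁻¹ • y), ?_⟩
      show (Quotient.mk'' (a, g⁻¹ • y) : MulAction.orbitRel.Quotient G (Ω × Ω)) = Quotient.mk'' (x, y)
      rw [Quotient.eq'', MulAction.orbitRel_apply]
      refine ⟨g⁻¹, ?_⟩
      show (g⁻¹ • x, g⁻¹ • y) = (a, g⁻¹ • y)
      rw [← hg, inv_smul_smul]
  exact (Nat.card_congr (Equiv.ofBijective f ⟨hinj, hsurj⟩)).symm
end Cfsg.Agent.S0669
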