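import Cfsg.Statements.S0670
import Mathlib
-- import your own Cfsg.Agent.* helpers here

set_option autoImplicit false
open Cfsg

namespace Cfsg.Agent.S0670


theorem sylow_trans {G : Type*} [Group G] [Finite G] {p f : ℕ} [Fact p.Prime] {Ω : Type*}
    [Fintype Ω] [MulAction G Ω] [MulAction.IsPretransitive G Ω]
    (hcard : Fintype.card Ω = p ^ f) (P : Sylow p G) (a x : Ω) :
    ∃ g : (P : Subgroup G), g • a = x := by
  classical
  have hp : p.Prime := Fact.out
  have h1 : Nat.card (MulAction.orbit G a) * Nat.card (MulAction.stabilizer G a) =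
      Nat.card G := by
    rw [Nat.card_coe_set_eq, ← MulAction.index_stabilizer, mul_comm]
    exact Subgroup.card_mul_index _
  have h2 : Nat.card (MulAction.orbit G a) = p ^ f := by
    rw [MulAction.orbit_eq_univ, Nat.card_coe_set_eq, Set.ncard_univ, Nat.card_eq_fintype_card,
      hcard]
  have h3 : Nat.card (MulAction.orbit (P : Subgroup G) a) *
      Nat.card (MulAction.stabilizer (P : Subgroup G) a) = Nat.card (P : Subgroup G) := by
    rw [Nat.card_coe_set_eq, ← MulAction.index_stabilizer, mul_comm]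
    exact Subgroup.card_mul_index _
  obtain ⟨k, hk⟩ := IsPGroup.iff_card.mp
    (P.isPGroup'.to_subgroup (MulAction.stabilizer (P : Subgroup G) a))
  have h4 : Nat.card (MulAction.stabilizer (P : Subgroup G) a) ∣
      Nat.card (MulAction.stabilizer G a) := by
    let φ : MulAction.stabilizer (P : Subgroup G) a →* MulAction.stabilizer G a :=
      { toFun := fun g => ⟨g.1.1, g.2⟩
        map_one' := rfl
        map_mul' := fun _ _ => rfl }
    exact Subgroup.card_dvd_of_injective φ
      (fun g h e => Subtype.ext (Subtype.ext (congrArg (fun z => z.1) e)))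
  have h5 : p ^ (k + f) ∣ Nat.card G := by
    rw [pow_add, ← hk, ← h1, h2, mul_comm]
    exact Nat.mul_dvd_mul_left _ h4
  have h6 : k + f ≤ (Nat.card G).factorization p :=
    (hp.pow_dvd_iff_le_factorization Nat.card_pos.ne').mp h5
  have h7 : Nat.card (P : Subgroup G) = p ^ (Nat.card G).factorization p :=
    P.card_eq_multiplicity
  have h8 : p ^ f ≤ Nat.card (MulAction.orbit (P : Subgroup G) a) := by
    rw [hk, h7] at h3
    have : Nat.card (MulAction.orbit (P : Subgroup G) a) =
        p ^ ((Nat.card G).factorization p - k) := by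
      apply Nat.eq_of_mul_eq_mul_right (pow_pos hp.pos k)
      rw [h3, ← pow_add]
      congr 1
      omega
    rw [this]
    exact Nat.pow_le_pow_right hp.pos (by omega)
  have h9 : MulAction.orbit (P : Subgroup G) a = Set.univ := by
    apply Set.eq_of_subset_of_ncard_le (Set.subset_univ _)
    rw [Set.ncard_univ, Nat.card_eq_fintype_card, hcard, ← Nat.card_coe_set_eq]
    exact h8
  have hx : x ∈ MulAction.orbit (P : Subgroup G) a := by
    rw [h9]
    trivial
  exact hx

theorem main {G : Type*} [Group G] [Finite G] {K : Type*} [Field K] {p f : ℕ} [Fact p.Prime]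
    [CharP K p] {Ω : Type*} [Fintype Ω] [MulAction G Ω] [MulAction.IsPretransitive G Ω]
    (hcard : Fintype.card Ω = p ^ f)
    (W : Subrepresentation (Cfsg.permRep K G Ω)) (hW : W.toSubmodule ≠ ⊥) :
    (Cfsg.permConstants K G Ω).toSubmodule ≤ W.toSubmodule := by
  classical
  have hp : p.Prime := Fact.out
  letI : Algebra (ZMod p) K := ZMod.algebra K p
  obtain ⟨w, hwW, hw0⟩ := (Submodule.ne_bot_iff _).mp hW
  obtain ⟨P⟩ : Nonempty (Sylow p G) := inferInstance
  let L : ↥(P : Subgroup G) → ((Ω → K) →ₗ[ZMod p] (Ω → K)) := fun g =>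
    LinearMap.funLeft (ZMod p) K (fun x => (g⁻¹ : (P : Subgroup G)) • x)
  have hL : ∀ g v x, L g v x = v (g⁻¹ • x) := fun g v x => rfl
  let S : Set (Ω → K) := Set.range (fun g : (P : Subgroup G) => L g w)
  let V : Submodule (ZMod p) (Ω → K) := Submodule.span (ZMod p) S
  have hVinv : ∀ (g : (P : Subgroup G)) (v : Ω → K), v ∈ V → L g v ∈ V := by
    intro g v hv
    have : V.map (L g) ≤ V := by
      rw [Submodule.map_span, Submodule.span_le]
      rintro _ ⟨_, ⟨h, rfl⟩, rfl⟩
      apply Submodule.subset_span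
      refine ⟨g * h, ?_⟩
      funext x
      show w ((g * h)⁻¹ • x) = w (h⁻¹ • (g⁻¹ • x))
      rw [mul_inv_rev, mul_smul]
    exact this (Submodule.mem_map_of_mem hv)
  letI : MulAction (P : Subgroup G) V :=
    { smul := fun g v => ⟨L g v.1, hVinv g v.1 v.2⟩
      one_smul := fun v => Subtype.ext (funext fun x => by
        show v.1 ((1 : (P : Subgroup G))⁻¹ • x) = v.1 x
        rw [inv_one, one_smul])
      mul_smul := fun g h v => Subtype.ext (funext fun x => by
        show v.1 ((g * h)⁻¹ • x) = v.1 (h⁻¹ • (g⁻¹ • x))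
        rw [mul_inv_rev, mul_smul]) }
  have hsmul : ∀ (g : (P : Subgroup G)) (v : V) x, (g • v).1 x = v.1 (g⁻¹ • x) :=
    fun g v x => rfl
  haveI : Module.Finite (ZMod p) V := Module.Finite.span_of_finite (ZMod p) (Set.finite_range _)
  haveI : Finite V := Module.finite_of_finite (ZMod p)
  have hwV : w ∈ V := Submodule.subset_span ⟨1, by
    funext x
    show w ((1 : (P : Subgroup G))⁻¹ • x) = w x
    rw [inv_one, one_smul]⟩
  have hdvd : p ∣ Nat.card V := by
    rw [Module.natCard_eq_pow_finrank (K := ZMod p) (V := V)]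
    have hpos : 0 < Module.finrank (ZMod p) V := by
      rw [Module.finrank_pos_iff]
      exact ⟨⟨⟨w, hwV⟩, 0, fun h => hw0 (congrArg Subtype.val h)⟩⟩
    rw [Nat.card_zmod]
    exact dvd_pow_self p hpos.ne'
  obtain ⟨v, hvfix, hv0⟩ := P.isPGroup'.exists_fixed_point_of_prime_dvd_card_of_fixed_point V hdvd
    (a := 0) (by
      intro g
      apply Subtype.ext
      funext x
      rfl)
  have hVW : V ≤ W.toSubmodule.restrictScalars (ZMod p) := by
    rw [Submodule.span_le]
    rintro _ ⟨g, rfl⟩
    exact W.apply_mem_toSubmodule g.1 hwW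
  have hvW : v.1 ∈ W.toSubmodule := hVW v.2
  obtain ⟨a⟩ : Nonempty Ω := by
    have : 0 < Fintype.card Ω := by
      rw [hcard]
      exact pow_pos hp.pos f
    exact Fintype.card_pos_iff.mp this
  have hconst : ∀ x, v.1 x = v.1 a := by
    intro x
    obtain ⟨g, hg⟩ := sylow_trans hcard P a x
    have h1 := congrArg (fun u : V => u.1 x) (hvfix g)
    have h2 : v.1 (g⁻¹ • x) = v.1 x := h1
    rw [← h2, ← hg, inv_smul_smul]
  have hva : v.1 a ≠ 0 := by
    intro h
    apply hv0
    apply Subtype.ext
    funext x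
    show (0 : Ω → K) x = v.1 x
    rw [hconst x, h]
    rfl
  have h1 : (fun _ : Ω => (1 : K)) ∈ W.toSubmodule := by
    have : (fun _ : Ω => (1 : K)) = (v.1 a)⁻¹ • v.1 := by
      funext x
      show (1 : K) = (v.1 a)⁻¹ * v.1 x
      rw [hconst x, inv_mul_cancel₀ hva]
    rw [this]
    exact W.toSubmodule.smul_mem _ hvW
  show Submodule.span K {fun _ => 1} ≤ W.toSubmodule
  rw [Submodule.span_le]
  rintro _ ⟨rfl⟩
  exact h1

/-- In characteristic `p`, the permutation module of a transitive action of degree `p ^ f` has the line of constant functions as its only irreducible submodule: every non-zero subrepresentation contains it. -/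
theorem result {G : Type*} [Group G] [Finite G] {K : Type*} [Field K] {p f : ℕ} [Fact p.Prime] [CharP K p] {Ω : Type*} [Fintype Ω] [MulAction G Ω] [MulAction.IsPretransitive G Ω] (hf : 1 ≤ f) (hcard : Fintype.card Ω = p ^ f) (W : Subrepresentation (Cfsg.permRep K G Ω)) (hW : W.toSubmodule ≠ ⊥) : (Cfsg.permConstants K G Ω).toSubmodule ≤ W.toSubmodule := by
  exact main hcard W hW

end Cfsg.Agent.S0670
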