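import Cfsg.Statements.S0673
import Mathlib
-- import your own Cfsg.Agent.* helpers here

set_option autoImplicit false
open Cfsg

namespace Cfsg.Agent.S0673

open Polynomial

/-- In characteristic `p`, the translation-invariant subspaces of the space of functions on `ZMod p` are exactly the spaces of polynomial functions of degree less than `r`, one for each `r ≤ p`, of dimension `r`. -/
theorem result {p : ℕ} [Fact p.Prime] {K : Type*} [Field K] [CharP K p] (W : Submodule K (ZMod p → K)) (hW : ∀ f ∈ W, (fun j => f (j - 1)) ∈ W) : ∃ r : ℕ, r ≤ p ∧ Module.finrank K W = r ∧ ∀ f : ZMod p → K, f ∈ W ↔ ∃ P : Polynomial K, P.degree < r ∧ ∀ j : ZMod p, f j = P.eval (ZMod.cast j : K) := by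
  classical
  haveI : NeZero p := ⟨(Fact.out : p.Prime).ne_zero⟩
  let c : ZMod p →+* K := ZMod.castHom (dvd_refl p) K
  have hc : ∀ j : ZMod p, c j = (ZMod.cast j : K) := fun j => rfl
  have cinj : Function.Injective c := c.injective
  let ev : K[X] →ₗ[K] (ZMod p → K) :=
    { toFun := fun P j => P.eval (c j)
      map_add' := by intro P Q; funext j; simp [eval_add]
      map_smul' := by intro a P; funext j; simp [eval_smul] }
  have hev : ∀ P j, ev P j = P.eval (c j) := fun P j => rfl
  let Vr : ℕ → Submodule K (ZMod p → K) := fun r => (degreeLT K r).map ev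
  have memV : ∀ r f, f ∈ Vr r ↔
      ∃ P : K[X], P.degree < r ∧ ∀ j, f j = P.eval (ZMod.cast j : K) := by
    intro r f
    constructor
    · rintro ⟨P, hP, rfl⟩
      exact ⟨P, mem_degreeLT.mp hP, fun j => rfl⟩
    · rintro ⟨P, hP, hf⟩
      exact ⟨P, mem_degreeLT.mpr hP, funext fun j => (hf j).symm⟩
  have F1 : ∀ P : K[X], P.degree < p → ev P = 0 → P = 0 := by
    intro P hP h0
    apply eq_zero_of_natDegree_lt_card_of_eval_eq_zero P cinj
    · intro j; exact congrFun h0 j
    · rw [ZMod.card]
      by_cases hP0 : P = 0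
      · rw [hP0, natDegree_zero]; exact (Fact.out : p.Prime).pos
      · exact (natDegree_lt_iff_degree_lt hP0).mpr hP
  have F2 : ∀ r, r ≤ p → Module.finrank K (Vr r) = r := by
    intro r hr
    have hinj : Function.Injective (ev.domRestrict (degreeLT K r)) := by
      rw [← LinearMap.ker_eq_bot, LinearMap.ker_eq_bot']
      intro x hx
      apply Subtype.ext
      apply F1 x.1 (lt_of_lt_of_le (mem_degreeLT.mp x.2) (by exact_mod_cast hr))
      exact hx
    have := LinearMap.finrank_range_of_inj hinj
    rw [LinearMap.range_domRestrict] at this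
    show Module.finrank K ((degreeLT K r).map ev) = r
    rw [this, (degreeLTEquiv K r).finrank_eq, Module.finrank_fin_fun]
  have hfinV : Module.finrank K (ZMod p → K) = p := by
    rw [Module.finrank_pi, ZMod.card]
  have F3 : Vr p = ⊤ := by
    apply Submodule.eq_top_of_finrank_eq
    rw [F2 p le_rfl, hfinV]
  let T : (ZMod p → K) →ₗ[K] (ZMod p → K) := LinearMap.funLeft K K (fun j : ZMod p => j - 1)
  let D : Module.End K (ZMod p → K) := T - 1
  have hD : ∀ f j, D f j = f (j - 1) - f j := fun f j => rfl
  have F4 : ∀ r f, f ∈ Vr (r + 1) → D f ∈ Vr r := by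
    rintro r _ ⟨P, hP, rfl⟩
    refine ⟨taylor (-1) P - P, ?_, ?_⟩
    · rw [SetLike.mem_coe, mem_degreeLT] at hP ⊢
      by_cases hP0 : P = 0
      · rw [hP0, map_zero, sub_zero, degree_zero]
        exact WithBot.bot_lt_coe r
      · have h1 : (taylor (-1) P - P).degree < (taylor (-1) P).degree :=
          degree_sub_lt (degree_taylor P (-1)) (fun h0 => hP0 (leadingCoeff_eq_zero.mp (by
            rw [← leadingCoeff_taylor (-1) P, h0, leadingCoeff_zero])))
            (leadingCoeff_taylor (-1) P)
        rw [degree_taylor] at h1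
        rw [degree_eq_natDegree hP0] at hP h1
        have h2 : P.natDegree ≤ r := Nat.lt_succ_iff.mp (by exact_mod_cast hP)
        exact lt_of_lt_of_le h1 (by exact_mod_cast h2)
    · funext j
      rw [hD, hev, hev, hev, eval_sub, taylor_eval]
      congr 2
      rw [map_sub, map_one]; ring
  have F5 : ∀ f, D f = 0 → f ∈ Vr 1 := by
    intro f hf
    have h1 : ∀ j, f (j - 1) = f j := fun j => by
      have := congrFun hf j
      rw [hD] at this
      exact sub_eq_zero.mp this
    have h2 : ∀ n : ℕ, f (n : ZMod p) = f 0 := by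
      intro n
      induction n with
      | zero => simp
      | succ n ih =>
        rw [← ih, ← h1 ((n + 1 : ℕ) : ZMod p)]
        congr 1
        push_cast
        ring
    refine ⟨C (f 0), ?_, ?_⟩
    · rw [SetLike.mem_coe, mem_degreeLT]
      exact lt_of_le_of_lt degree_C_le (by norm_num)
    · funext j
      rw [hev, eval_C, ← ZMod.natCast_zmod_val j, h2]
  have F6 : ∀ r, r < p → ∀ f, D f ∈ Vr r → f ∈ Vr (r + 1) := by
    intro r hr f hf
    have hrange : LinearMap.range (D.domRestrict (Vr (r + 1))) ≤ Vr r := by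
      rintro _ ⟨x, rfl⟩
      exact F4 r x.1 x.2
    have hker : Module.finrank K (LinearMap.ker (D.domRestrict (Vr (r + 1)))) ≤ 1 := by
      have h1 : (LinearMap.ker (D.domRestrict (Vr (r + 1)))).map (Vr (r + 1)).subtype ≤ Vr 1 := by
        rintro _ ⟨x, hx, rfl⟩
        exact F5 x.1 (LinearMap.mem_ker.mp hx)
      have h2 := Submodule.finrank_mono h1
      rw [Submodule.finrank_map_subtype_eq, F2 1 (Fact.out : p.Prime).one_lt.le] at h2
      exact h2
    have hrn := LinearMap.finrank_range_add_finrank_ker (D.domRestrict (Vr (r + 1)))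
    rw [F2 (r + 1) hr] at hrn
    have heq : LinearMap.range (D.domRestrict (Vr (r + 1))) = Vr r := by
      apply Submodule.eq_of_le_of_finrank_le hrange
      rw [F2 r hr.le]
      omega
    rw [← heq] at hf
    obtain ⟨s, hs⟩ := hf
    have hs' : D s.1 = D f := hs
    have h3 : f - s.1 ∈ Vr 1 := F5 _ (by rw [map_sub, hs', sub_self])
    have h4 : Vr 1 ≤ Vr (r + 1) := Submodule.map_mono (degreeLT_mono (by omega))
    have := Submodule.add_mem _ (h4 h3) s.2
    rwa [sub_add_cancel] at this
  have F7 : ∀ r, r ≤ p → LinearMap.ker (D ^ r) ≤ Vr r := by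
    intro r
    induction r with
    | zero =>
      intro _ f hf
      rw [pow_zero, LinearMap.mem_ker, Module.End.one_apply] at hf
      rw [hf]
      exact Submodule.zero_mem _
    | succ r ih =>
      intro hr f hf
      apply F6 r hr
      apply ih (by omega)
      rw [LinearMap.mem_ker] at hf ⊢
      rw [pow_succ, Module.End.mul_apply] at hf
      exact hf
  have F8 : ∀ k, Vr k ≤ LinearMap.ker (D ^ k) := by
    intro k
    induction k with
    | zero =>
      rintro _ ⟨P, hP, rfl⟩
      rw [SetLike.mem_coe, mem_degreeLT] at hP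
      have hP0 : P = 0 := degree_eq_bot.mp (Nat.WithBot.lt_zero_iff.mp (by simpa using hP))
      rw [hP0, map_zero]
      exact Submodule.zero_mem _
    | succ k ih =>
      intro f hf
      rw [LinearMap.mem_ker, pow_succ, Module.End.mul_apply]
      exact LinearMap.mem_ker.mp (ih (F4 k f hf))
  have hDp : D ^ p = 0 := by
    apply LinearMap.ext
    intro f
    have : f ∈ Vr p := by rw [F3]; trivial
    exact LinearMap.mem_ker.mp (F8 p this)
  have hDW : ∀ f ∈ W, D f ∈ W := by
    intro f hf
    have : D f = (fun j => f (j - 1)) - f := by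
      funext j
      rw [hD]
      rfl
    rw [this]
    exact W.sub_mem (hW f hf) hf
  have hrp : Module.finrank K W ≤ p :=
    le_trans (Submodule.finrank_le W) (le_of_eq hfinV)
  have hWker : W ≤ LinearMap.ker (D ^ Module.finrank K W) := by
    intro f hf
    have h1 := Module.End.ker_pow_eq_ker_pow_finrank_of_le (f := D.restrict hDW) (m := p) hrp
    have h2 : (D.restrict hDW) ^ p = 0 := by
      rw [Module.End.pow_restrict p hDW]
      ext x
      simp [hDp]
    rw [h2, LinearMap.ker_zero] at h1
    have h3 : (⟨f, hf⟩ : W) ∈ LinearMap.ker ((D.restrict hDW) ^ Module.finrank K W) := by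
      rw [← h1]; trivial
    rw [LinearMap.mem_ker, Module.End.pow_restrict _ hDW] at h3
    have h4 := congrArg Subtype.val h3
    rw [LinearMap.mem_ker]
    exact h4
  have hWV : W = Vr (Module.finrank K W) := by
    apply Submodule.eq_of_le_of_finrank_le (le_trans hWker (F7 _ hrp))
    rw [F2 _ hrp]
  refine ⟨Module.finrank K W, hrp, rfl, ?_⟩
  intro f
  rw [← memV (Module.finrank K W) f]
  exact ⟨fun h => hWV.le h, fun h => hWV.ge h⟩

end Cfsg.Agent.S0673
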