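import Cfsg.Statements.S0680
import Mathlib
import Cfsg.Agent.Lib.Helper6.Sharp2
-- import your own Cfsg.Agent.* helpers here

set_option autoImplicit false
open Cfsg

namespace Cfsg.Agent.S0680



/-- A finite sharply doubly transitive permutation group has degree a prime power `p ^ j`; a Sylow `p`-subgroup is normal, elementary abelian and regular, and consists of the identity together with the elements without fixed points. (Frobenius' Theorem is not needed.) -/
theorem result {α : Type*} [Fintype α] [DecidableEq α] (G : Subgroup (Equiv.Perm α)) [MulAction.IsMultiplyPretransitive G α 2] (hsharp : ∀ x : Fin 2 ↪ α, MulAction.stabilizer G x = ⊥) (h2 : 2 ≤ Fintype.card α) : ∃ p j : ℕ, p.Prime ∧ 1 ≤ j ∧ Fintype.card α = p ^ j ∧ ∀ (hp : Fact p.Prime) (P : Sylow p G), (P : Subgroup G).Normal ∧ IsMulCommutative (P : Subgroup G) ∧ (∀ x ∈ (P : Subgroup G), x ^ p = 1) ∧ MulAction.IsPretransitive (P : Subgroup G) α ∧ (∀ a : α, MulAction.stabilizer (P : Subgroup G) a = ⊥) ∧ ∀ g : G, g ∈ (P : Subgroup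 G) ↔ g = 1 ∨ ∀ a : α, g • a ≠ a := by
  classical
  haveI : Fintype ↥G := Fintype.ofFinite _
  have h2t : ∀ {a b c d : α}, a ≠ b → c ≠ d → ∃ g : G, g • a = c ∧ g • b = d :=
    fun h h' => (MulAction.is_two_pretransitive_iff (G := G) (α := α)).mp inferInstance h h'
  have hsh : ∀ (g : G) (a b : α), a ≠ b → g • a = a → g • b = b → g = 1 := by
    intro g a b hab hga hgb
    let x : Fin 2 ↪ α := ⟨![a, b], by
      intro i j hij
      fin_cases i <;> fin_cases j <;> simp_all⟩
    have hmem : g ∈ MulAction.stabilizer G x := by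
      rw [MulAction.mem_stabilizer_iff]
      ext i
      fin_cases i
      · exact hga
      · exact hgb
    rw [hsharp x] at hmem
    exact Subgroup.mem_bot.mp hmem
  obtain ⟨K, p, j, hp, hj1, hcard, hKcard, hKn, hcomm, hexp, hKmem, hGcard⟩ :=
    Cfsg.Agent.Lib.Helper6.sharp2_main h2t hsh h2
  refine ⟨p, j, hp, hj1, hcard, ?_⟩
  intro hpF P
  haveI := hpF
  have hPK : IsPGroup p K := by
    intro g
    refine ⟨1, ?_⟩
    rw [pow_one]
    exact Subtype.ext (by rw [Subgroup.coe_pow]; exact hexp g g.2)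
  obtain ⟨Q, hQ⟩ := hPK.exists_le_sylow
  have hQK : (Q : Subgroup G) = K := by
    symm
    apply Subgroup.eq_of_le_of_card_ge hQ
    obtain ⟨k, hk⟩ := IsPGroup.iff_card.mp Q.isPGroup'
    have hdvd : Nat.card (Q : Subgroup G) ∣ Nat.card G := Subgroup.card_subgroup_dvd_card _
    rw [hk, Nat.card_eq_fintype_card, hGcard] at hdvd
    have hcop : Nat.Coprime (p ^ k) (p ^ j - 1) := by
      apply Nat.Coprime.pow_left
      rw [Nat.Prime.coprime_iff_not_dvd hp]
      intro h
      have h1 : p ∣ p ^ j := dvd_pow_self p (by omega)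
      have hpos : 1 ≤ p ^ j := Nat.one_le_pow _ _ hp.pos
      have h3 : p ∣ 1 := (Nat.dvd_add_right h).mp (by rw [Nat.sub_add_cancel hpos]; exact h1)
      exact hp.one_lt.ne' (Nat.dvd_one.mp h3)
    have h5 : p ^ k ∣ p ^ j := Nat.Coprime.dvd_of_dvd_mul_right hcop hdvd
    rw [hk, hKcard]
    exact Nat.le_of_dvd (pow_pos hp.pos j) h5
  have hPQ : (P : Subgroup G) = K := by
    haveI : (Q : Subgroup G).Normal := by rw [hQK]; exact hKn
    obtain ⟨g, hg⟩ := MulAction.exists_smul_eq G Q P
    rw [Sylow.smul_eq_of_normal] at hg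
    rw [← hg]; exact hQK
  rw [hPQ]
  refine ⟨hKn, ⟨⟨fun x y => Subtype.ext (hcomm x x.2 y y.2)⟩⟩, hexp, ?_, ?_, hKmem⟩
  · have hinj : ∀ a : α, Function.Injective (fun k : K => (k : G) • a) := by
      intro a k k' hkk
      have hkk' : (k : G) • a = (k' : G) • a := hkk
      have hx : (k : G)⁻¹ * (k' : G) ∈ K := K.mul_mem (K.inv_mem k.2) k'.2
      have hfix : ((k : G)⁻¹ * (k' : G)) • a = a := by rw [mul_smul, ← hkk', inv_smul_smul]
      rcases (hKmem _).mp hx with h | h
      · exact Subtype.ext (inv_mul_eq_one.mp h)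
      · exact absurd hfix (h a)
    constructor
    intro a b
    have hbij := (hinj a).bijective_of_nat_card_le
      (by rw [hKcard, Nat.card_eq_fintype_card, hcard])
    obtain ⟨k, hk⟩ := hbij.2 b
    exact ⟨k, hk⟩
  · intro a
    rw [Subgroup.eq_bot_iff_forall]
    intro k hk
    rw [MulAction.mem_stabilizer_iff] at hk
    have hk' : ((k : G)) • a = a := hk
    rcases (hKmem _).mp k.2 with h | h
    · exact Subtype.ext h
    · exact absurd hk' (h a)

end Cfsg.Agent.S0680
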