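import Cfsg.Statements.S0681
import Mathlib
-- import your own Cfsg.Agent.* helpers here

set_option autoImplicit false
open Cfsg

namespace Cfsg.Agent.S0681


theorem nf_zero_mul {F : Type*} [Cfsg.NearField F] (a : F) : (0 : F) * a = 0 := by
  have h := Cfsg.NearField.right_distrib (0 : F) 0 a
  rw [add_zero] at h
  have : (0 : F) * a + 0 * a = 0 * a + 0 := by rw [add_zero]; exact h.symm
  exact add_left_cancel this

theorem nf_neg_mul {F : Type*} [Cfsg.NearField F] (x a : F) : (-x) * a = -(x * a) := by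
  have h := Cfsg.NearField.right_distrib x (-x) a
  rw [add_neg_cancel, nf_zero_mul] at h
  exact (eq_neg_of_add_eq_zero_right h.symm)

theorem nf_sub_mul {F : Type*} [Cfsg.NearField F] (x y a : F) : (x - y) * a = x * a - y * a := by
  rw [sub_eq_add_neg, Cfsg.NearField.right_distrib, nf_neg_mul, ← sub_eq_add_neg]

theorem nf_mul_ne_zero {F : Type*} [Cfsg.NearField F] {c a : F} (hc : c ≠ 0) (ha : a ≠ 0) :
    c * a ≠ 0 := by
  intro h
  obtain ⟨ai, h1, -⟩ := Cfsg.NearField.exists_inv a ha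
  apply hc
  calc c = c * (a * ai) := by rw [h1, mul_one]
    _ = (c * a) * ai := (mul_assoc _ _ _).symm
    _ = 0 := by rw [h, nf_zero_mul]

/-- The affine maps of a near-field as a subgroup of the permutation group. -/
def nfAffSub (F : Type*) [Cfsg.NearField F] : Subgroup (Equiv.Perm F) where
  carrier := {σ | ∃ a b : F, a ≠ 0 ∧ ∀ x : F, σ x = x * a + b}
  one_mem' := ⟨1, 0, fun h => Cfsg.NearField.zero_ne_one h.symm, fun x => by
    rw [Equiv.Perm.one_apply, mul_one, add_zero]⟩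
  mul_mem' := by
    rintro σ τ ⟨a, b, ha, hσ⟩ ⟨c, d, hc, hτ⟩
    refine ⟨c * a, d * a + b, nf_mul_ne_zero hc ha, fun x => ?_⟩
    rw [Equiv.Perm.mul_apply, hτ, hσ, Cfsg.NearField.right_distrib, mul_assoc, add_assoc]
  inv_mem' := by
    rintro σ ⟨a, b, ha, hσ⟩
    obtain ⟨ai, h1, h2⟩ := Cfsg.NearField.exists_inv a ha
    have hai : ai ≠ 0 := by
      intro h; rw [h, Cfsg.NearField.mul_zero] at h1; exact Cfsg.NearField.zero_ne_one h1
    refine ⟨ai, (-b) * ai, hai, fun x => ?_⟩
    apply σ.injective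
    rw [Equiv.Perm.inv_def, Equiv.apply_symm_apply, hσ, Cfsg.NearField.right_distrib, mul_assoc, mul_assoc, h2,
      mul_one, mul_one, add_assoc, neg_add_cancel, add_zero]

/-- The affine maps `x ↦ x * a + b`, `a ≠ 0`, of a near-field form a sharply doubly transitive permutation group. -/
theorem result {F : Type*} [Cfsg.NearField F] : ∃ H : Subgroup (Equiv.Perm F), (∀ σ : Equiv.Perm F, σ ∈ H ↔ ∃ a b : F, a ≠ 0 ∧ ∀ x : F, σ x = x * a + b) ∧ MulAction.IsMultiplyPretransitive H F 2 ∧ ∀ x : Fin 2 ↪ F, MulAction.stabilizer H x = ⊥ := by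
  classical
  refine ⟨nfAffSub F, fun σ => Iff.rfl, ?_, ?_⟩
  · rw [MulAction.is_two_pretransitive_iff]
    intro x₁ x₂ y₁ y₂ hx hy
    have hx' : x₁ - x₂ ≠ 0 := sub_ne_zero.mpr hx
    have hy' : y₁ - y₂ ≠ 0 := sub_ne_zero.mpr hy
    obtain ⟨xi, hxi1, hxi2⟩ := Cfsg.NearField.exists_inv _ hx'
    obtain ⟨a, ha⟩ : ∃ a : F, a = xi * (y₁ - y₂) := ⟨_, rfl⟩
    have hxa : (x₁ - x₂) * a = y₁ - y₂ := by rw [ha, ← mul_assoc, hxi1, one_mul]
    have ha0 : a ≠ 0 := by
      intro h; rw [h, Cfsg.NearField.mul_zero] at hxa; exact hy' hxa.symm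
    obtain ⟨ai, hai1, hai2⟩ := Cfsg.NearField.exists_inv a ha0
    obtain ⟨b, hb⟩ : ∃ b : F, b = -(x₁ * a) + y₁ := ⟨_, rfl⟩
    let σ : Equiv.Perm F :=
      { toFun := fun x => x * a + b
        invFun := fun y => (y - b) * ai
        left_inv := fun x => by
          show (x * a + b - b) * ai = x
          rw [add_sub_cancel_right, mul_assoc, hai1, mul_one]
        right_inv := fun y => by
          show (y - b) * ai * a + b = y
          rw [mul_assoc, hai2, mul_one, sub_add_cancel] }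
    have hσ : σ ∈ nfAffSub F := ⟨a, b, ha0, fun x => rfl⟩
    refine ⟨⟨σ, hσ⟩, ?_, ?_⟩
    · show x₁ * a + b = y₁
      rw [hb, ← add_assoc, add_neg_cancel, zero_add]
    · show x₂ * a + b = y₂
      rw [nf_sub_mul] at hxa
      have h2 : x₂ * a + -(x₁ * a) = -(y₁ - y₂) := by
        rw [← hxa, neg_sub, sub_eq_add_neg]
      rw [hb, ← add_assoc, h2, neg_sub, sub_add_cancel]
  · intro x
    rw [Subgroup.eq_bot_iff_forall]
    rintro ⟨σ, hσm⟩ hmem
    obtain ⟨a, b, ha, hσ⟩ := hσm
    rw [MulAction.mem_stabilizer_iff] at hmem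
    have h0 : σ (x 0) = x 0 := by
      have := congrArg (fun e : Fin 2 ↪ F => e 0) hmem
      exact this
    have h1 : σ (x 1) = x 1 := by
      have := congrArg (fun e : Fin 2 ↪ F => e 1) hmem
      exact this
    rw [hσ] at h0 h1
    have hne : x 0 - x 1 ≠ 0 := sub_ne_zero.mpr (x.injective.ne (by decide))
    have hsub : (x 0 - x 1) * a = x 0 - x 1 := by
      rw [nf_sub_mul]
      have : x 0 * a - x 1 * a = (x 0 * a + b) - (x 1 * a + b) := by
        rw [add_sub_add_right_eq_sub]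
      rw [this, h0, h1]
    have ha1 : a = 1 := by
      obtain ⟨di, hdi1, hdi2⟩ := Cfsg.NearField.exists_inv _ hne
      calc a = (di * (x 0 - x 1)) * a := by rw [hdi2, one_mul]
        _ = di * ((x 0 - x 1) * a) := mul_assoc _ _ _
        _ = 1 := by rw [hsub, hdi2]
    have hb0 : b = 0 := by
      rw [ha1, mul_one] at h0
      exact add_left_cancel (a := x 0) (by rw [add_zero]; exact h0)
    apply Subtype.ext
    apply Equiv.ext
    intro y
    show σ y = y
    rw [hσ, ha1, hb0, mul_one, add_zero]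

end Cfsg.Agent.S0681
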