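import Cfsg.Statements.S0682
import Mathlib
-- import your own Cfsg.Agent.* helpers here

set_option autoImplicit false
open Cfsg

namespace Cfsg.Agent.S0682


theorem nf_zero_mul {F : Type*} [Cfsg.NearField F] (a : F) : (0 : F) * a = 0 := by
  have h := Cfsg.NearField.right_distrib (0 : F) 0 a
  rw [add_zero] at h
  have : (0 : F) * a + 0 * a = 0 * a + 0 := by rw [add_zero]; exact h.symm
  exact add_left_cancel this

theorem nf_nsmul_mul {F : Type*} [Cfsg.NearField F] (k : ℕ) (y a : F) :
    (k • y) * a = k • (y * a) := by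
  induction k with
  | zero => rw [zero_nsmul, zero_nsmul]; exact nf_zero_mul a
  | succ k ih => rw [succ_nsmul, succ_nsmul, Cfsg.NearField.right_distrib, ih]

/-- A finite near-field has prime-power order; its additive group is commutative of prime exponent. -/
theorem result {F : Type*} [Cfsg.NearField F] [Finite F] : ∃ p j : ℕ, p.Prime ∧ 1 ≤ j ∧ Nat.card F = p ^ j ∧ (∀ x y : F, x + y = y + x) ∧ ∀ x : F, p • x = 0 := by
  classical
  have h01 : (0 : F) ≠ 1 := Cfsg.NearField.zero_ne_one
  have hnpos : 0 < addOrderOf (1 : F) := addOrderOf_pos (1 : F)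
  have hn1 : addOrderOf (1 : F) ≠ 1 := by
    intro h
    rw [AddMonoid.addOrderOf_eq_one_iff] at h
    exact h01 h.symm
  obtain ⟨p, hp, hpn⟩ := Nat.exists_prime_and_dvd hn1
  obtain ⟨m, hm⟩ := hpn
  have hmpos : 0 < m := by
    rcases Nat.eq_zero_or_pos m with h | h
    · rw [h, mul_zero] at hm; omega
    · exact h
  have hmlt : m < addOrderOf (1 : F) := by
    rw [hm]; have := hp.two_le; nlinarith
  obtain ⟨u, hu⟩ : ∃ u : F, u = m • (1 : F) := ⟨_, rfl⟩
  have hu0 : u ≠ 0 := by
    intro h
    rw [hu] at h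
    have h1 := addOrderOf_dvd_of_nsmul_eq_zero h
    have h2 := Nat.le_of_dvd hmpos h1
    omega
  have hpu : p • u = 0 := by
    rw [hu, ← mul_nsmul', ← hm]; exact addOrderOf_nsmul_eq_zero 1
  have hpall : ∀ x : F, p • x = 0 := by
    intro x
    obtain ⟨ui, hui, -⟩ := Cfsg.NearField.exists_inv u hu0
    have hx : x = u * (ui * x) := by rw [← mul_assoc, hui, one_mul]
    rw [hx, ← nf_nsmul_mul, hpu, nf_zero_mul]
  haveI := Fact.mk hp
  have hPG : IsPGroup p (Multiplicative F) := by
    intro g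
    refine ⟨1, ?_⟩
    apply Multiplicative.toAdd.injective
    rw [toAdd_pow, pow_one]
    exact hpall _
  obtain ⟨j, hj⟩ := IsPGroup.iff_card.mp hPG
  have hj' : Nat.card F = p ^ j := hj
  haveI : Nontrivial F := ⟨⟨0, 1, h01⟩⟩
  have hcard2 : 1 < Nat.card F := Finite.one_lt_card_iff_nontrivial.mpr inferInstance
  have hj1 : 1 ≤ j := by
    rcases Nat.eq_zero_or_pos j with h | h
    · rw [h, pow_zero] at hj'; omega
    · exact h
  refine ⟨p, j, hp, hj1, hj', ?_, hpall⟩
  haveI : Nontrivial (Multiplicative F) :=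
    ⟨⟨Multiplicative.ofAdd 0, Multiplicative.ofAdd 1,
      fun h => h01 (Multiplicative.ofAdd.injective h)⟩⟩
  haveI := hPG.center_nontrivial
  obtain ⟨z, hz⟩ := exists_ne (1 : Subgroup.center (Multiplicative F))
  obtain ⟨z', hz'⟩ : ∃ z' : F, z' = Multiplicative.toAdd (z : Multiplicative F) := ⟨_, rfl⟩
  have hz0 : z' ≠ 0 := by
    intro h
    apply hz
    apply Subtype.ext
    rw [hz'] at h
    exact Multiplicative.toAdd.injective h
  have hzc : ∀ x : F, x + z' = z' + x := by
    intro x
    have := Subgroup.mem_center_iff.mp z.2 (Multiplicative.ofAdd x)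
    rw [hz']
    exact congrArg Multiplicative.toAdd this
  intro x y
  by_cases hy : y = 0
  · rw [hy, add_zero, zero_add]
  · obtain ⟨zi, hzi, -⟩ := Cfsg.NearField.exists_inv z' hz0
    obtain ⟨a, ha⟩ : ∃ a : F, a = zi * y := ⟨_, rfl⟩
    have hza : z' * a = y := by rw [ha, ← mul_assoc, hzi, one_mul]
    have ha0 : a ≠ 0 := by
      intro h; apply hy; rw [← hza, h]; exact Cfsg.NearField.mul_zero z'
    obtain ⟨ai, hai1, hai2⟩ := Cfsg.NearField.exists_inv a ha0
    have hx : x = (x * ai) * a := by rw [mul_assoc, hai2, mul_one]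
    calc x + y = (x * ai) * a + z' * a := by rw [← hx, hza]
      _ = (x * ai + z') * a := (Cfsg.NearField.right_distrib _ _ _).symm
      _ = (z' + x * ai) * a := by rw [hzc]
      _ = z' * a + (x * ai) * a := Cfsg.NearField.right_distrib _ _ _
      _ = y + x := by rw [← hx, hza]

end Cfsg.Agent.S0682
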