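import Cfsg.Statements.S0683
import Mathlib
import Cfsg.Agent.Lib.Helper6.Sharp2
-- import your own Cfsg.Agent.* helpers here

set_option autoImplicit false
open Cfsg

namespace Cfsg.Agent.S0683



/-- A finite sharply doubly transitive permutation group is the affine group of a near-field: the permuted set carries a near-field structure for which the group consists exactly of the maps `x ↦ x * a + b` with `a ≠ 0`. -/
theorem result {α : Type*} [Fintype α] [DecidableEq α] (H : Subgroup (Equiv.Perm α)) [MulAction.IsMultiplyPretransitive H α 2] (hsharp : ∀ x : Fin 2 ↪ α, MulAction.stabilizer H x = ⊥) (h2 : 2 ≤ Fintype.card α) : ∃ _ : Cfsg.NearField α, ∀ σ : Equiv.Perm α, σ ∈ H ↔ ∃ a b : α, a ≠ 0 ∧ ∀ x : α, σ x = x * a + b := by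
  classical
  haveI : Fintype ↥H := Fintype.ofFinite _
  have h2t : ∀ {a b c d : α}, a ≠ b → c ≠ d → ∃ g : H, g • a = c ∧ g • b = d :=
    fun h h' => (MulAction.is_two_pretransitive_iff (G := H) (α := α)).mp inferInstance h h'
  have hsh : ∀ (g : H) (a b : α), a ≠ b → g • a = a → g • b = b → g = 1 := by
    intro g a b hab hga hgb
    let x : Fin 2 ↪ α := ⟨![a, b], by
      intro i j hij
      fin_cases i <;> fin_cases j <;> simp_all⟩
    have hmem : g ∈ MulAction.stabilizer H x := by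
      rw [MulAction.mem_stabilizer_iff]
      ext i
      fin_cases i
      · exact hga
      · exact hgb
    rw [hsharp x] at hmem
    exact Subgroup.mem_bot.mp hmem
  obtain ⟨K, p, j, hp, hj1, hcard, hKcard, hKn, hcomm, hexp, hKmem, hGcard⟩ :=
    Cfsg.Agent.Lib.Helper6.sharp2_main h2t hsh h2
  obtain ⟨a₀, b₀, hab₀⟩ := Fintype.exists_pair_of_one_lt_card (show 1 < Fintype.card α by omega)
  have hKinj : ∀ k ∈ K, ∀ k' ∈ K, k • a₀ = k' • a₀ → k = k' := by
    intro k hk k' hk' h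
    have hx : k⁻¹ * k' ∈ K := K.mul_mem (K.inv_mem hk) hk'
    have hfix : (k⁻¹ * k') • a₀ = a₀ := by rw [mul_smul, ← h, inv_smul_smul]
    rcases (hKmem _).mp hx with h' | h'
    · exact inv_mul_eq_one.mp h'
    · exact absurd hfix (h' a₀)
  have hKsurj : ∀ x : α, ∃ k : H, k ∈ K ∧ k • a₀ = x := by
    intro x
    have hinj : Function.Injective (fun k : K => (k : H) • a₀) :=
      fun k k' h => Subtype.ext (hKinj k k.2 k' k'.2 h)
    have hbij := hinj.bijective_of_nat_card_le
      (by rw [hKcard, Nat.card_eq_fintype_card, hcard])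
    obtain ⟨k, hk⟩ := hbij.2 x
    exact ⟨k, k.2, hk⟩
  choose τ hτK hτ using hKsurj
  have hτuniq : ∀ k ∈ K, τ (k • a₀) = k := fun k hk => hKinj _ (hτK _) k hk (hτ _)
  have hτ0 : τ a₀ = 1 := by
    have h5 := hτuniq 1 K.one_mem
    rwa [one_smul] at h5
  have hτmul : ∀ y z : α, τ (τ z • y) = τ z * τ y := by
    intro y z
    have h5 := hτuniq (τ z * τ y) (K.mul_mem (hτK z) (hτK y))
    rwa [mul_smul, hτ y] at h5
  have hμex : ∀ a : α, ∃ m : H, a ≠ a₀ → (m • a₀ = a₀ ∧ m • b₀ = a) := by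
    intro a
    by_cases ha : a = a₀
    · exact ⟨1, fun h => absurd ha h⟩
    · obtain ⟨m, hm1, hm2⟩ := h2t hab₀ (Ne.symm ha)
      exact ⟨m, fun _ => ⟨hm1, hm2⟩⟩
  choose μ hμ using hμex
  have hμuniq : ∀ m : H, m • a₀ = a₀ → m • b₀ ≠ a₀ → μ (m • b₀) = m := by
    intro m hm0 hmb
    obtain ⟨h1, h2'⟩ := hμ (m • b₀) hmb
    have h5 : (μ (m • b₀))⁻¹ * m = 1 := by
      apply hsh _ a₀ b₀ hab₀
      · rw [mul_smul, hm0, inv_smul_eq_iff, h1]
      · rw [mul_smul, inv_smul_eq_iff, h2']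
    exact inv_mul_eq_one.mp h5
  have hμ1 : μ b₀ = 1 := by
    have h5 := hμuniq 1 (one_smul _ _) (by rw [one_smul]; exact Ne.symm hab₀)
    rwa [one_smul] at h5
  have hμne : ∀ a x : α, a ≠ a₀ → x ≠ a₀ → μ a • x ≠ a₀ := by
    intro a x ha hx h
    apply hx
    have h5 : μ a • x = μ a • a₀ := by rw [h, (hμ a ha).1]
    exact MulAction.injective (μ a) h5
  have hμmul : ∀ a b : α, a ≠ a₀ → b ≠ a₀ → μ (μ b • a) = μ b * μ a := by
    intro a b ha hb
    have h5 := hμuniq (μ b * μ a) (by rw [mul_smul, (hμ a ha).1, (hμ b hb).1])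
      (by rw [mul_smul, (hμ a ha).2]; exact hμne b a hb ha)
    rwa [mul_smul, (hμ a ha).2] at h5
  letI iAdd : Add α := ⟨fun x y => τ y • x⟩
  letI iZero : Zero α := ⟨a₀⟩
  letI iNeg : Neg α := ⟨fun x => (τ x)⁻¹ • a₀⟩
  letI addG : AddGroup α := AddGroup.ofLeftAxioms
    (by
      intro x y z
      show τ z • (τ y • x) = τ (τ z • y) • x
      rw [hτmul, mul_smul])
    (by
      intro x
      show τ x • a₀ = x
      exact hτ x)
    (by
      intro x
      show τ x • ((τ x)⁻¹ • a₀) = a₀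
      exact smul_inv_smul _ _)
  letI mon : Monoid α :=
    { mul := fun x a => if a = a₀ then a₀ else μ a • x
      mul_assoc := by
        intro x a b
        show (if b = a₀ then a₀ else μ b • (if a = a₀ then a₀ else μ a • x)) =
          (if (if b = a₀ then a₀ else μ b • a) = a₀ then a₀
            else μ (if b = a₀ then a₀ else μ b • a) • x)
        by_cases hb : b = a₀
        · simp [hb]
        · by_cases ha : a = a₀
          · simp [hb, ha, (hμ b hb).1]
          · rw [if_neg hb, if_neg ha, if_neg hb, if_neg (hμne b a hb ha), hμmul a b ha hb, mul_smul]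
      one := b₀
      one_mul := by
        intro a
        show (if a = a₀ then a₀ else μ a • b₀) = a
        by_cases ha : a = a₀
        · rw [if_pos ha, ha]
        · rw [if_neg ha, (hμ a ha).2]
      mul_one := by
        intro x
        show (if b₀ = a₀ then a₀ else μ b₀ • x) = x
        rw [if_neg (Ne.symm hab₀), hμ1, one_smul] }
  have hτconj : ∀ c y : α, c ≠ a₀ → τ (μ c • y) = μ c * τ y * (μ c)⁻¹ := by
    intro c y hc
    have h5 := hτuniq (μ c * τ y * (μ c)⁻¹) (hKn.conj_mem _ (hτK y) _)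
    rwa [mul_smul, mul_smul, inv_smul_eq_iff.mpr (hμ c hc).1.symm, hτ y] at h5
  letI nf : Cfsg.NearField α :=
    { toAddGroup := addG
      toMonoid := mon
      right_distrib := by
        intro x y c
        show (if c = a₀ then a₀ else μ c • (τ y • x)) =
          τ (if c = a₀ then a₀ else μ c • y) • (if c = a₀ then a₀ else μ c • x)
        by_cases hc : c = a₀
        · rw [if_pos hc, if_pos hc, if_pos hc, hτ0, one_smul]
        · rw [if_neg hc, if_neg hc, if_neg hc, hτconj c y hc, mul_smul, mul_smul, inv_smul_smul]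
      mul_zero := by
        intro x
        show (if a₀ = a₀ then a₀ else μ a₀ • x) = a₀
        rw [if_pos rfl]
      zero_ne_one := hab₀
      exists_inv := by
        intro a ha
        have ha' : a ≠ a₀ := ha
        have hb : (μ a)⁻¹ • b₀ ≠ a₀ := by
          intro h
          rw [inv_smul_eq_iff, (hμ a ha').1] at h
          exact hab₀ h.symm
        have hμb : μ ((μ a)⁻¹ • b₀) = (μ a)⁻¹ :=
          hμuniq _ (inv_smul_eq_iff.mpr (hμ a ha').1.symm) hb
        refine ⟨(μ a)⁻¹ • b₀, ?_, ?_⟩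
        · show (if (μ a)⁻¹ • b₀ = a₀ then a₀ else μ ((μ a)⁻¹ • b₀) • a) = b₀
          rw [if_neg hb, hμb, inv_smul_eq_iff, (hμ a ha').2]
        · show (if a = a₀ then a₀ else μ a • ((μ a)⁻¹ • b₀)) = b₀
          rw [if_neg ha', smul_inv_smul] }
  refine ⟨nf, ?_⟩
  have key : ∀ x a b : α, x * a + b = τ b • (if a = a₀ then a₀ else μ a • x) := fun _ _ _ => rfl
  intro σ
  constructor
  · intro hσ
    have hg : ∀ x : α, (⟨σ, hσ⟩ : H) • x = σ x := fun x => rfl
    have hm0 : ((τ (σ a₀))⁻¹ * (⟨σ, hσ⟩ : H)) • a₀ = a₀ := by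
      rw [mul_smul, hg, inv_smul_eq_iff, hτ]
    have hmb : ((τ (σ a₀))⁻¹ * (⟨σ, hσ⟩ : H)) • b₀ ≠ a₀ := by
      intro h
      have h5 : ((τ (σ a₀))⁻¹ * (⟨σ, hσ⟩ : H)) • b₀ = ((τ (σ a₀))⁻¹ * (⟨σ, hσ⟩ : H)) • a₀ := by
        rw [h, hm0]
      exact hab₀ (MulAction.injective _ h5).symm
    refine ⟨((τ (σ a₀))⁻¹ * (⟨σ, hσ⟩ : H)) • b₀, σ a₀, hmb, ?_⟩
    intro x
    rw [key, if_neg hmb, hμuniq _ hm0 hmb, mul_smul, smul_inv_smul, hg]
  · rintro ⟨a, b, ha, hx⟩
    have ha' : a ≠ a₀ := ha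
    have h5 : σ = ((τ b * μ a : H) : Equiv.Perm α) := by
      ext x
      rw [hx x, key, if_neg ha']
      rfl
    rw [h5]
    exact (τ b * μ a).2

end Cfsg.Agent.S0683
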