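import Cfsg.Statements.S0691
import Mathlib
import Cfsg.Agent.Lib.Helper1.GL2Reg

set_option autoImplicit false
open Cfsg

namespace Cfsg.Agent.S0691


/-- The table of the group: under the key of a first column, the second column. -/
def tabT : ℕ := 0x12ba1a58d8ec1d32a792784b84682ea0

/-- Parent pointers towards the identity. -/
def tabP : ℕ := 0x29e8721170d9a529e17e9bc4620773196ba4cd71a0e85cff001316cdfe39800

/-- The generators and their inverses. -/
def gens : List (ℕ × ℕ × ℕ × ℕ) := [(2, 0, 0, 3), (0, 4, 1, 0), (1, 2, 1, 3), (3, 0, 0, 2), (0, 1, 4, 0), (3, 3, 4, 1)]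

set_option maxRecDepth 1000000 in
theorem cert : Cfsg.Agent.Lib.Helper1.regOK 5 tabT 5 tabP 10 gens = true := by
  decide +kernel

/-- An exceptional sharply doubly transitive group of degree 5^2: the listed matrices generate a subgroup of GL(2,5) of order 24 acting regularly on the non-zero vectors. -/
theorem result (A : Matrix.GeneralLinearGroup (Fin 2) (ZMod 5)) (B : Matrix.GeneralLinearGroup (Fin 2) (ZMod 5)) (C : Matrix.GeneralLinearGroup (Fin 2) (ZMod 5)) (hA : (A : Matrix (Fin 2) (Fin 2) (ZMod 5)) = !![2, 0; 0, -2]) (hB : (B : Matrix (Fin 2) (Fin 2) (ZMod 5)) = !![0, -1; 1, 0]) (hC : (C : Matrix (Fin 2) (Fin 2) (ZMod 5)) = !![1, 2; 1, -2]) : Nat.card (Subgroup.closure ({A, B, C} : Set (Matrix.GeneralLinearGroup (Fin 2) (ZMod 5)))) = 24 ∧ ∀ v w : Fin 2 → ZMod 5, v ≠ 0 → w ≠ 0 → ∃! h : Subgroup.closure ({A, B, C} : Set (Matrix.GeneralLinearGroup (Fin 2) (ZMod 5))), Matrix.mulVec ((h : Matrix.GeneralLinearGroup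 (Fin 2) (ZMod 5)) : Matrix (Fin 2) (Fin 2) (ZMod 5)) v = w := by
  have hset : ({A, B, C} : Set (Matrix.GeneralLinearGroup (Fin 2) (ZMod 5)))
      = {g | g ∈ [A, B, C]} := by
    ext g
    simp
  rw [hset]
  have hAi : ((A⁻¹ : GL (Fin 2) (ZMod 5)) : Matrix (Fin 2) (Fin 2) (ZMod 5)) = !![3, 0; 0, 2] :=
    Units.inv_eq_of_mul_eq_one_right (by rw [hA]; decide)
  have hBi : ((B⁻¹ : GL (Fin 2) (ZMod 5)) : Matrix (Fin 2) (Fin 2) (ZMod 5)) = !![0, 1; 4, 0] :=
    Units.inv_eq_of_mul_eq_one_right (by rw [hB]; decide)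
  have hCi : ((C⁻¹ : GL (Fin 2) (ZMod 5)) : Matrix (Fin 2) (Fin 2) (ZMod 5)) = !![3, 3; 4, 1] :=
    Units.inv_eq_of_mul_eq_one_right (by rw [hC]; decide)
  have hgl : [A, B, C].map (fun g : GL (Fin 2) (ZMod 5) => Cfsg.Agent.Lib.Helper1.tupM (g : Matrix (Fin 2) (Fin 2) (ZMod 5)))
      ++ [A, B, C].map (fun g : GL (Fin 2) (ZMod 5) =>
        Cfsg.Agent.Lib.Helper1.tupM ((g⁻¹ : GL (Fin 2) (ZMod 5)) : Matrix (Fin 2) (Fin 2) (ZMod 5))) = gens := by
    simp only [List.map_cons, List.map_nil, List.cons_append, List.nil_append, hA, hB, hC, hAi, hBi, hCi]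
    decide
  haveI : Fact (Nat.Prime 5) := ⟨by norm_num⟩
  exact Cfsg.Agent.Lib.Helper1.gl2_regular tabT 5 tabP 10 gens [A, B, C] hgl cert

end Cfsg.Agent.S0691
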