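import Cfsg.Statements.S0694
import Mathlib

set_option autoImplicit false
open Cfsg

namespace Cfsg.Agent.S0694

/-- The geometric sum `1 + q + ... + q^(i-1)`. -/
def gs (q i : ℕ) : ℕ := ∑ j ∈ Finset.range i, q ^ j

theorem gs_zero (q : ℕ) : gs q 0 = 0 := by
  simp [gs]

theorem gs_succ (q i : ℕ) : gs q (i + 1) = gs q i + q ^ i := by
  simp [gs, Finset.sum_range_succ]

theorem gs_mul (q i : ℕ) (hq : 1 ≤ q) : q ^ i = (q - 1) * gs q i + 1 := by
  obtain ⟨m, rfl⟩ : ∃ m, q = m + 1 := ⟨q - 1, by omega⟩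
  rw [Nat.add_sub_cancel]
  induction i with
  | zero => simp [gs_zero]
  | succ i ih =>
    rw [gs_succ, mul_add, pow_succ]
    have h3 : (m + 1) ^ i * (m + 1) = m * (m + 1) ^ i + (m + 1) ^ i := by ring
    rw [h3]
    linarith

theorem gs_add (q a b : ℕ) : gs q (a + b) = gs q a + q ^ a * gs q b := by
  induction b with
  | zero => simp [gs_zero]
  | succ b ih =>
    rw [← add_assoc, gs_succ, gs_succ, ih, pow_add]
    ring

theorem gs_mul_index (q i k : ℕ) : gs q (i * k) = gs q i * gs (q ^ i) k := by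
  induction k with
  | zero => simp [gs_zero]
  | succ k ih =>
    rw [Nat.mul_succ, gs_add, ih, gs_succ, pow_mul]
    ring

theorem gs_modEq (Q t k : ℕ) (h : Q ≡ 1 [MOD t]) : gs Q k ≡ k [MOD t] := by
  induction k with
  | zero =>
    show gs Q 0 % t = 0 % t
    rw [gs_zero]
  | succ k ih =>
    rw [gs_succ]
    have h2 : Q ^ k ≡ 1 [MOD t] := by
      have := h.pow k
      rwa [one_pow] at this
    exact ih.add h2

theorem one_modEq (q t : ℕ) (hq : 1 ≤ q) (h : t ∣ q - 1) : q ≡ 1 [MOD t] :=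
  ((Nat.modEq_iff_dvd' hq).2 h).symm

theorem dvd_gs (q t : ℕ) (hq : 1 ≤ q) (h : t ∣ q - 1) (a : ℕ) :
    ∀ i : ℕ, t ^ a ∣ i → t ^ a ∣ gs q i := by
  induction a with
  | zero =>
    intro i _
    simp
  | succ a ih =>
    intro i hi
    obtain ⟨c, rfl⟩ := hi
    have h1 : t ^ (a + 1) * c = (t ^ a * c) * t := by ring
    rw [h1, gs_mul_index, pow_succ]
    apply Nat.mul_dvd_mul (ih _ (dvd_mul_right _ _))
    have h2 : q ^ (t ^ a * c) ≡ 1 [MOD t] := by
      have := (one_modEq q t hq h).pow (t ^ a * c)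
      rwa [one_pow] at this
    have h3 := gs_modEq _ t t h2
    exact (Nat.modEq_zero_iff_dvd).1 (h3.trans ((Nat.modEq_zero_iff_dvd).2 (dvd_refl t)))

theorem gs_ne_zero (q i : ℕ) (hq : 2 ≤ q) (hi : i ≠ 0) : gs q i ≠ 0 := by
  intro h
  have h1 := gs_mul q i (by omega)
  rw [h, mul_zero, zero_add] at h1
  have h2 : 1 < q ^ i := Nat.one_lt_pow hi (by omega)
  omega

theorem dvd_of_dvd_gs (q t : ℕ) (ht : t.Prime) (hq : 2 ≤ q) (h : t ∣ q - 1)
    (h4 : t ≠ 2 ∨ 4 ∣ q - 1) (i : ℕ) (hi : i ≠ 0) (a : ℕ) (ha : t ^ a ∣ gs q i) :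
    t ^ a ∣ i := by
  haveI : Fact t.Prime := ⟨ht⟩
  have hG : gs q i ≠ 0 := gs_ne_zero q i hq hi
  have hq1 : q - 1 ≠ 0 := by omega
  have hmul := gs_mul q i (by omega)
  have hsub : q ^ i - 1 = (q - 1) * gs q i := by omega
  have hval : padicValNat t (gs q i) = padicValNat t i := by
    have hv := padicValNat.mul (p := t) hq1 hG
    rw [← hsub] at hv
    by_cases ht2 : t = 2
    · subst ht2
      have h4' : 4 ∣ q - 1 := by
        rcases h4 with h4 | h4
        · exact absurd rfl h4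
        · exact h4
      have hq2 : ¬ 2 ∣ q := by omega
      rcases Nat.even_or_odd i with hev | hodd
      · have h5 := padicValNat.pow_two_sub_one (by omega : 1 < q) hq2 hi hev
        have h6 : padicValNat 2 (q + 1) = 1 := by
          have h7 : 1 ≤ padicValNat 2 (q + 1) :=
            (padicValNat_dvd_iff_le (p := 2) (n := 1) (by omega)).1 (by rw [pow_one]; omega)
          have h8 : ¬ 2 ≤ padicValNat 2 (q + 1) := by
            intro h9
            have h10 := (padicValNat_dvd_iff_le (p := 2) (n := 2) (a := q + 1) (by omega)).2 h9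
            have e22 : (2 : ℕ) ^ 2 = 4 := by norm_num
            rw [e22] at h10
            omega
          omega
        omega
      · have h5 := gs_modEq q 2 i (one_modEq q 2 (by omega) h)
        have h6 : ¬ 2 ∣ i := by
          rcases hodd with ⟨c, rfl⟩
          omega
        have h7 : ¬ 2 ∣ gs q i := fun h8 => h6 ((h5.dvd_iff (dvd_refl 2)).1 h8)
        rw [padicValNat.eq_zero_of_not_dvd h7, padicValNat.eq_zero_of_not_dvd h6]
    · have hodd : Odd t := ht.odd_of_ne_two ht2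
      have hx : ¬ t ∣ q := by
        intro h9
        have h10 : t ∣ q - (q - 1) := Nat.dvd_sub h9 h
        have e : q - (q - 1) = 1 := by omega
        rw [e] at h10
        exact ht.one_lt.ne' (Nat.dvd_one.1 h10)
      have h5 := padicValNat.pow_sub_pow hodd (by omega : 1 < q) (by simpa using h) hx hi
      rw [one_pow] at h5
      omega
  rw [padicValNat_dvd_iff_le hG] at ha
  rw [padicValNat_dvd_iff_le hi]
  omega

theorem modEq_iff (q n i : ℕ) (hq : 2 ≤ q) : q ^ i ≡ 1 [MOD n * (q - 1)] ↔ n ∣ gs q i := by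
  have h1 : 1 ≤ q ^ i := Nat.one_le_pow _ _ (by omega)
  have h2 : q ^ i - 1 = gs q i * (q - 1) := by
    have := gs_mul q i (by omega)
    rw [this, Nat.add_sub_cancel, mul_comm]
  rw [Nat.ModEq.comm, Nat.modEq_iff_dvd' h1, h2]
  exact Nat.mul_dvd_mul_iff_right (by omega)

theorem forward (q n : ℕ) (hq : 2 ≤ q) (hn : 1 < n)
    (h1 : ∀ r : ℕ, r.Prime → r ∣ n → r ∣ q - 1) (h2 : 4 ∣ n → 4 ∣ q - 1) :
    n ∣ gs q n ∧ ∀ i : ℕ, 0 < i → i < n → ¬ n ∣ gs q i := by
  constructor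
  · rw [Nat.dvd_iff_prime_pow_dvd_dvd]
    intro p k hp hpk
    rcases Nat.eq_zero_or_pos k with hk | hk
    · subst hk
      simp
    · have hpn : p ∣ n := dvd_trans (dvd_pow_self p (by omega)) hpk
      exact dvd_gs q p (by omega) (h1 p hp hpn) k n hpk
  · intro i hi0 hin hdvd
    have hni : n ∣ i := by
      rw [Nat.dvd_iff_prime_pow_dvd_dvd]
      intro p k hp hpk
      rcases Nat.eq_zero_or_pos k with hk | hk
      · subst hk
        simp
      · have hpn : p ∣ n := dvd_trans (dvd_pow_self p (by omega)) hpk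
        have hpq := h1 p hp hpn
        have hpg : p ^ k ∣ gs q i := dvd_trans hpk hdvd
        by_cases h4 : p ≠ 2 ∨ 4 ∣ q - 1
        · exact dvd_of_dvd_gs q p hp hq hpq h4 i (by omega) k hpg
        · push_neg at h4
          obtain ⟨hp2, h4⟩ := h4
          subst hp2
          have h4n : ¬ 4 ∣ n := fun h => h4 (h2 h)
          have hk1 : k = 1 := by
            by_contra hk1
            have h5 : (2 : ℕ) ^ 2 ∣ 2 ^ k := pow_dvd_pow 2 (by omega)
            have e22 : (2 : ℕ) ^ 2 = 4 := by norm_num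
            rw [e22] at h5
            exact h4n (dvd_trans h5 hpk)
          subst hk1
          rw [pow_one] at hpg ⊢
          have h5 := gs_modEq q 2 i (one_modEq q 2 (by omega) hpq)
          exact (h5.dvd_iff (dvd_refl 2)).1 hpg
    have := Nat.le_of_dvd hi0 hni
    omega

theorem bad_prime (q t s n' k : ℕ) (ht : t.Prime) (hs : s.Prime) (hq : 2 ≤ q) (hn' : 0 < n')
    (htq : ¬ t ∣ q - 1) (hts : t ≤ s) (hk : 0 < k) (htk : t ^ k ∣ s * n')
    (h1 : s * n' ∣ gs q (s * n')) : t ^ k ∣ gs q n' := by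
  haveI : Fact t.Prime := ⟨ht⟩
  have hq1 : 1 ≤ q := by omega
  have htn : t ∣ s * n' := dvd_trans (dvd_pow_self t (by omega)) htk
  have htg : t ∣ gs q (s * n') := dvd_trans htn h1
  have hmulN := gs_mul q (s * n') hq1
  have hpowN : ((q : ℕ) : ZMod t) ^ (s * n') = 1 := by
    have h3 : ((q ^ (s * n') : ℕ) : ZMod t) = (((q - 1) * gs q (s * n') + 1 : ℕ) : ZMod t) := by
      rw [← hmulN]
    rw [Nat.cast_pow] at h3
    rw [h3, Nat.cast_add, Nat.cast_mul, (ZMod.natCast_eq_zero_iff _ _).2 htg, mul_zero, zero_add,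
      Nat.cast_one]
  obtain ⟨d, hd⟩ : ∃ d, d = orderOf ((q : ℕ) : ZMod t) := ⟨_, rfl⟩
  have hdN : d ∣ s * n' := by
    rw [hd]
    exact orderOf_dvd_of_pow_eq_one hpowN
  have hq0 : ((q : ℕ) : ZMod t) ≠ 0 := by
    intro h0
    rw [h0, zero_pow (Nat.mul_pos hs.pos hn').ne'] at hpowN
    exact zero_ne_one hpowN
  have hdt : d ∣ t - 1 := by
    rw [hd]
    exact orderOf_dvd_of_pow_eq_one (ZMod.pow_card_sub_one_eq_one hq0)
  have hdpos : 0 < d := Nat.pos_of_dvd_of_pos hdN (Nat.mul_pos hs.pos hn')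
  have ht2 := ht.two_le
  have hdlt : d < t := by
    have := Nat.le_of_dvd (by omega) hdt
    omega
  have hcop_ds : Nat.Coprime d s :=
    Nat.Coprime.symm ((Nat.Prime.coprime_iff_not_dvd hs).2
      (Nat.not_dvd_of_pos_of_lt hdpos (by omega)))
  have hdn' : d ∣ n' := hcop_ds.dvd_of_dvd_mul_left hdN
  obtain ⟨j, rfl⟩ := hdn'
  have hcop_td : Nat.Coprime t d :=
    (Nat.Prime.coprime_iff_not_dvd ht).2 (Nat.not_dvd_of_pos_of_lt hdpos hdlt)
  have e : t ^ k = t * t ^ (k - 1) := by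
    rw [← pow_succ']
    congr 1
    omega
  have hk1 : t ^ (k - 1) ∣ d * j := by
    by_cases hts' : t = s
    · rw [← hts', e] at htk
      exact (Nat.mul_dvd_mul_iff_left ht.pos).1 htk
    · have hcop : Nat.Coprime (t ^ k) s :=
        Nat.Coprime.pow_left k ((Nat.coprime_primes ht hs).2 hts')
      exact dvd_trans (pow_dvd_pow t (by omega)) (hcop.dvd_of_dvd_mul_left htk)
  have hk2 : t ^ (k - 1) ∣ j :=
    (Nat.Coprime.pow_left (k - 1) hcop_td).dvd_of_dvd_mul_left hk1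
  have hQ1 : 1 ≤ q ^ d := Nat.one_le_pow _ _ (by omega)
  have hQ : t ∣ q ^ d - 1 := by
    have h3 : ((q : ℕ) : ZMod t) ^ d = 1 := by
      rw [hd]
      exact pow_orderOf_eq_one _
    have h4 : ((q ^ d : ℕ) : ZMod t) = ((1 : ℕ) : ZMod t) := by
      rw [Nat.cast_pow, h3, Nat.cast_one]
    have h5 := (ZMod.natCast_eq_natCast_iff _ _ _).1 h4
    exact (Nat.modEq_iff_dvd' hQ1).1 h5.symm
  have h6 := dvd_gs (q ^ d) t hQ1 hQ (k - 1) j hk2
  have h7 := gs_mul (q ^ d) j hQ1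
  have h8 := gs_mul q (d * j) hq1
  rw [← pow_mul] at h7
  have h9 : (q ^ d - 1) * gs (q ^ d) j = (q - 1) * gs q (d * j) := by omega
  have h10 : t ^ k ∣ (q - 1) * gs q (d * j) := by
    rw [← h9, e]
    exact Nat.mul_dvd_mul hQ h6
  have hcop : Nat.Coprime (t ^ k) (q - 1) :=
    Nat.Coprime.pow_left k ((Nat.Prime.coprime_iff_not_dvd ht).2 htq)
  exact hcop.dvd_of_dvd_mul_left h10

theorem backward (q n : ℕ) (hq : 2 ≤ q) (hn : 1 < n)
    (h1 : n ∣ gs q n) (h2 : ∀ i : ℕ, 0 < i → i < n → ¬ n ∣ gs q i) :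
    (∀ r : ℕ, r.Prime → r ∣ n → r ∣ q - 1) ∧ (4 ∣ n → 4 ∣ q - 1) := by
  classical
  have hq1 : 1 ≤ q := by omega
  have part1 : ∀ r : ℕ, r.Prime → r ∣ n → r ∣ q - 1 := by
    by_contra hcon
    push_neg at hcon
    obtain ⟨r, hr, hrn, hrq⟩ := hcon
    obtain ⟨P, hP⟩ : ∃ P : ℕ → Prop, P = fun r => r.Prime ∧ r ∣ n ∧ ¬ r ∣ q - 1 := ⟨_, rfl⟩
    have hPr : P r := by
      rw [hP]
      exact ⟨hr, hrn, hrq⟩
    have hrle : r ≤ n := Nat.le_of_dvd (by omega) hrn
    have hs := Nat.findGreatest_spec hrle hPr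
    obtain ⟨s, hsdef⟩ : ∃ s, s = Nat.findGreatest P n := ⟨_, rfl⟩
    rw [← hsdef] at hs
    have hmax : ∀ t, P t → t ≤ s := by
      intro t ht
      rw [hsdef]
      have htn : t ∣ n := by
        rw [hP] at ht
        exact ht.2.1
      exact Nat.le_findGreatest (Nat.le_of_dvd (by omega) htn) ht
    rw [hP] at hs
    obtain ⟨hsp, hsn, hsq⟩ := hs
    obtain ⟨n', rfl⟩ := hsn
    have hn'0 : 0 < n' := by
      rcases Nat.eq_zero_or_pos n' with h | h
      · subst h
        omega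
      · exact h
    have hn'lt : n' < s * n' := by
      have := hsp.two_le
      nlinarith
    apply h2 n' hn'0 hn'lt
    rw [Nat.dvd_iff_prime_pow_dvd_dvd]
    intro t k ht htk
    rcases Nat.eq_zero_or_pos k with hk | hk
    · subst hk
      simp
    have htn : t ∣ s * n' := dvd_trans (dvd_pow_self t (by omega)) htk
    by_cases htq : t ∣ q - 1
    · have hts : t ≠ s := fun h => hsq (h ▸ htq)
      have hcop : Nat.Coprime (t ^ k) s :=
        Nat.Coprime.pow_left k ((Nat.coprime_primes ht hsp).2 hts)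
      have htk' : t ^ k ∣ n' := hcop.dvd_of_dvd_mul_left htk
      exact dvd_gs q t hq1 htq k n' htk'
    · have hts : t ≤ s := hmax t (by rw [hP]; exact ⟨ht, htn, htq⟩)
      exact bad_prime q t s n' k ht hsp hq hn'0 htq hts hk htk h1
  refine ⟨part1, ?_⟩
  intro h4n
  by_contra h4q
  have h2q : 2 ∣ q - 1 := part1 2 Nat.prime_two (dvd_trans (by norm_num) h4n)
  obtain ⟨j, rfl⟩ := h4n
  have hj0 : 0 < j := by omega
  apply h2 (2 * j) (by omega) (by omega)
  rw [Nat.dvd_iff_prime_pow_dvd_dvd]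
  intro t k ht htk
  rcases Nat.eq_zero_or_pos k with hk | hk
  · subst hk
    simp
  have htn : t ∣ 4 * j := dvd_trans (dvd_pow_self t (by omega)) htk
  by_cases ht2 : t = 2
  · subst ht2
    have hgs : gs q (2 * j) = (1 + q) * gs (q ^ 2) j := by
      rw [gs_mul_index]
      congr 1
      simp [gs, Finset.sum_range_succ]
    rw [hgs]
    have h4q1 : 4 ∣ 1 + q := by omega
    have hq2 : 2 ∣ q ^ 2 - 1 := by
      have h3 := (one_modEq q 2 hq1 h2q).pow 2
      rw [one_pow] at h3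
      exact (Nat.modEq_iff_dvd' (Nat.one_le_pow _ _ (by omega))).1 h3.symm
    rcases Nat.lt_or_ge k 2 with hk2 | hk2
    · have hk1 : k = 1 := by omega
      subst hk1
      rw [pow_one]
      exact dvd_mul_of_dvd_left (dvd_trans (by norm_num) h4q1) _
    · obtain ⟨k', rfl⟩ : ∃ k', k = k' + 2 := ⟨k - 2, by omega⟩
      have e : (2 : ℕ) ^ (k' + 2) = 4 * 2 ^ k' := by ring
      rw [e] at htk ⊢
      have h5 : 2 ^ k' ∣ j := (Nat.mul_dvd_mul_iff_left (by norm_num)).1 htk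
      exact Nat.mul_dvd_mul h4q1
        (dvd_gs (q ^ 2) 2 (Nat.one_le_pow _ _ (by omega)) hq2 k' j h5)
  · have htq : t ∣ q - 1 := part1 t ht htn
    have hcop : Nat.Coprime (t ^ k) 4 := by
      have h22 : Nat.Coprime t 2 := (Nat.coprime_primes ht Nat.prime_two).2 ht2
      have e : (4 : ℕ) = 2 ^ 2 := by norm_num
      rw [e]
      exact Nat.Coprime.pow _ _ h22
    have htj : t ^ k ∣ j := hcop.dvd_of_dvd_mul_left htk
    exact dvd_gs q t hq1 htq k (2 * j) (dvd_mul_of_dvd_right htj 2)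

/-- The Dickson pair condition: for a prime power `q` and `n > 1`, (every prime factor of `n` divides `q - 1`, and `4 ∣ n → 4 ∣ q - 1`) holds exactly when `q ^ n ≡ 1` modulo `n * (q - 1)` but `q ^ i` is not, for `0 < i < n`. -/
theorem result (q n : ℕ) (hq : IsPrimePow q) (hn : 1 < n) : ((∀ r : ℕ, r.Prime → r ∣ n → r ∣ q - 1) ∧ (4 ∣ n → 4 ∣ q - 1)) ↔ (q ^ n ≡ 1 [MOD n * (q - 1)] ∧ ∀ i : ℕ, 0 < i → i < n → ¬ q ^ i ≡ 1 [MOD n * (q - 1)]) := by
  have hq2 : 2 ≤ q := hq.two_le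
  rw [modEq_iff q n n hq2]
  have hrw : (∀ i : ℕ, 0 < i → i < n → ¬ q ^ i ≡ 1 [MOD n * (q - 1)]) ↔
      (∀ i : ℕ, 0 < i → i < n → ¬ n ∣ gs q i) := by
    constructor
    · intro h i h1 h2 h3
      exact h i h1 h2 ((modEq_iff q n i hq2).2 h3)
    · intro h i h1 h2 h3
      exact h i h1 h2 ((modEq_iff q n i hq2).1 h3)
  rw [hrw]
  constructor
  · rintro ⟨h1, h2⟩
    exact forward q n hq2 hn h1 h2
  · rintro ⟨h1, h2⟩
    exact backward q n hq2 hn h1 h2

end Cfsg.Agent.S0694
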