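import Cfsg.Statements.S0695
import Mathlib
import Cfsg.Agent.Lib.Helper6.RegNormal
-- import your own Cfsg.Agent.* helpers here

set_option autoImplicit false
open Cfsg

namespace Cfsg.Agent.S0695



/-- A regular normal subgroup of a doubly primitive group of finite degree at least 2 is an elementary abelian 2-group (and the degree is a power of 2), unless the degree is 3. -/
theorem result {G : Type*} [Group G] {X : Type*} [Fintype X] [MulAction G X] (hX : 2 ≤ Fintype.card X) (h2 : MulAction.IsMultiplyPreprimitive G X 2) (N : Subgroup G) [N.Normal] (htrans : MulAction.IsPretransitive N X) (hreg : ∀ x : X, MulAction.stabilizer N x = ⊥) : Fintype.card X = 3 ∨ (IsMulCommutative N ∧ (∀ n ∈ N, n ^ 2 = 1) ∧ ∃ m : ℕ, Fintype.card X = 2 ^ m) := by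
  classical
  have hpos : 0 < Fintype.card X := by omega
  obtain ⟨x⟩ : Nonempty X := Fintype.card_pos_iff.mp hpos
  have hreg' : ∀ a ∈ N, a • x = x → a = 1 := by
    intro a ha hax
    have h1 : (⟨a, ha⟩ : N) ∈ MulAction.stabilizer N x := hax
    rw [hreg x] at h1
    exact congrArg Subtype.val (Subgroup.mem_bot.mp h1)
  by_cases hall : ∀ n ∈ N, n ^ 2 = 1
  · right
    have hinj : Function.Injective (fun n : N => n • x) := by
      intro n n' h
      have h1 : ((n' : G)⁻¹ * (n : G)) • x = x := by
        rw [mul_smul]
        have h2 : (n : G) • x = (n' : G) • x := h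
        rw [h2, inv_smul_smul]
      have h3 := hreg' _ (N.mul_mem (N.inv_mem n'.2) n.2) h1
      exact Subtype.ext (inv_mul_eq_one.mp h3).symm
    have hsurj : Function.Surjective (fun n : N => n • x) := fun ω =>
      MulAction.exists_smul_eq N x ω
    haveI : Finite N := Finite.of_injective _ hinj
    have hNcard : Nat.card N = Fintype.card X := by
      rw [Nat.card_congr (Equiv.ofBijective _ ⟨hinj, hsurj⟩), Nat.card_eq_fintype_card]
    refine ⟨⟨⟨fun a b => ?_⟩⟩, hall, ?_⟩
    · have hsq : ∀ c : N, c * c = 1 := fun c => Subtype.ext (by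
        have := hall c c.2
        rw [pow_two] at this
        exact this)
      have h1 : a * b = (a * b)⁻¹ := eq_inv_of_mul_eq_one_left (hsq (a * b))
      have h2 : a⁻¹ = a := inv_eq_of_mul_eq_one_left (hsq a)
      have h3 : b⁻¹ = b := inv_eq_of_mul_eq_one_left (hsq b)
      rw [h1, mul_inv_rev, h2, h3]
    · haveI : Fact (Nat.Prime 2) := ⟨Nat.prime_two⟩
      have hp : IsPGroup 2 N := by
        intro g
        refine ⟨1, Subtype.ext ?_⟩
        rw [pow_one]
        exact hall g g.2
      obtain ⟨m, hm⟩ := IsPGroup.iff_card.mp hp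
      exact ⟨m, by rw [← hNcard, hm]⟩
  · left
    push_neg at hall
    obtain ⟨n, hn, hn2⟩ := hall
    have hn1 : n ≠ 1 := by
      rintro rfl
      exact hn2 (one_pow 2)
    have hnx : n • x ≠ x := fun h => hn1 (hreg' n hn h)
    have hnx' : n⁻¹ • x ≠ x := fun h => hn1 (inv_eq_one.mp (hreg' n⁻¹ (N.inv_mem hn) h))
    have hne : n • x ≠ n⁻¹ • x := by
      intro h
      apply hn2
      have h1 : (n * n) • x = x := by
        rw [mul_smul, h, smul_inv_smul]
      rw [pow_two]
      exact hreg' _ (N.mul_mem hn hn) h1
    have hprim : MulAction.IsPreprimitive (fixingSubgroup G ({x} : Set X))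
        (SubMulAction.ofFixingSubgroup G ({x} : Set X)) :=
      h2.isPreprimitive_ofFixingSubgroup (s := {x}) (by
        rw [Set.encard_singleton]
        rfl)
    have hkey := Cfsg.Agent.Lib.Helper6.pairBlock_trivial N x hreg' ({x} : Set X)
      (Set.mem_singleton x) (fun a => a⁻¹) (fun a _ => inv_inv a)
      (fun k _ a _ => by group) n hn (N.inv_mem hn) hnx hnx' hprim
    rcases hkey with h | h
    · exact absurd h hne
    · have hall3 : ∀ z : X, z ∈ ({x, n • x, n⁻¹ • x} : Finset X) := by
        intro z
        by_cases hz : z = x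
        · simp [hz]
        · rcases h z hz with h1 | h1
          · simp [h1]
          · simp [h1]
      have huniv : (Finset.univ : Finset X) = {x, n • x, n⁻¹ • x} :=
        (Finset.eq_univ_of_forall hall3).symm
      rw [← Finset.card_univ]
      exact Finset.card_eq_three.mpr ⟨x, n • x, n⁻¹ • x, Ne.symm hnx, Ne.symm hnx', hne, huniv⟩

end Cfsg.Agent.S0695
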