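import Cfsg.Statements.S0696
import Mathlib
import Cfsg.Agent.Lib.Helper6.RegNormal
import Cfsg.Agent.S0695
-- import your own Cfsg.Agent.* helpers here

set_option autoImplicit false
open Cfsg

namespace Cfsg.Agent.S0696



/-- A triply primitive group of degree at least 3 having a regular normal subgroup has degree 3 or 4. -/
theorem result {G : Type*} [Group G] {X : Type*} [Fintype X] [MulAction G X] (hX : 3 ≤ Fintype.card X) (h3 : MulAction.IsMultiplyPreprimitive G X 3) (N : Subgroup G) [N.Normal] (htrans : MulAction.IsPretransitive N X) (hreg : ∀ x : X, MulAction.stabilizer N x = ⊥) : Fintype.card X = 3 ∨ Fintype.card X = 4 := by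
  classical
  have hpos : 0 < Fintype.card X := by omega
  obtain ⟨x⟩ : Nonempty X := Fintype.card_pos_iff.mp hpos
  have hreg' : ∀ a ∈ N, a • x = x → a = 1 := by
    intro a ha hax
    have h1 : (⟨a, ha⟩ : N) ∈ MulAction.stabilizer N x := hax
    rw [hreg x] at h1
    exact congrArg Subtype.val (Subgroup.mem_bot.mp h1)
  have hinj : ∀ u ∈ N, ∀ v ∈ N, u • x = v • x → u = v := by
    intro u hu v hv h
    have h1 : (v⁻¹ * u) • x = x := by
      rw [mul_smul, h, inv_smul_smul]
    have h2 := hreg' _ (N.mul_mem (N.inv_mem hv) hu) h1
    exact (inv_mul_eq_one.mp h2).symm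
  have hsurj : ∀ z : X, ∃ a ∈ N, a • x = z := by
    intro z
    obtain ⟨a, ha⟩ := MulAction.exists_smul_eq N x z
    exact ⟨a, a.2, ha⟩
  have h2' : MulAction.IsMultiplyPreprimitive G X 2 :=
    MulAction.isMultiplyPreprimitive_of_le G X h3 (by norm_num) (by
      rw [ENat.card_eq_coe_fintype_card]
      exact_mod_cast hX)
  rcases Cfsg.Agent.S0695.result (by omega) h2' N htrans hreg with h | ⟨_, hexp, m, hm⟩
  · left
    exact h
  · right
    obtain ⟨y, hy⟩ : ∃ y : X, y ≠ x := by
      by_contra hcon
      push_neg at hcon
      have : Fintype.card X ≤ 1 := Fintype.card_le_one_iff.mpr (fun a b => by rw [hcon a, hcon b])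
      omega
    obtain ⟨n, hn, rfl⟩ := hsurj y
    have hn1 : n ≠ 1 := by
      rintro rfl
      exact hy (one_smul _ _)
    have hnn : n * n = 1 := by
      have := hexp n hn
      rwa [pow_two] at this
    by_cases hex : ∃ a ∈ N, a ≠ 1 ∧ a ≠ n
    · obtain ⟨a, ha, ha1, han⟩ := hex
      have hprim : MulAction.IsPreprimitive (fixingSubgroup G ({x, n • x} : Set X))
          (SubMulAction.ofFixingSubgroup G ({x, n • x} : Set X)) :=
        h3.isPreprimitive_ofFixingSubgroup (s := {x, n • x}) (by
          rw [Set.encard_pair (Ne.symm hy)]
          rfl)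
      have hm1 : a • x ∉ ({x, n • x} : Set X) := by
        intro h
        rcases h with h | h
        · exact ha1 (hreg' a ha h)
        · exact han (hinj a ha n hn h)
      have hm2 : (a * n) • x ∉ ({x, n • x} : Set X) := by
        intro h
        rcases h with h | h
        · have h1 := hreg' _ (N.mul_mem ha hn) h
          apply han
          have h2 : a = a * (n * n) := by rw [hnn, mul_one]
          rw [h2, ← mul_assoc, h1, one_mul]
        · have h1 := hinj _ (N.mul_mem ha hn) n hn h
          exact ha1 (mul_eq_right.mp h1)
      have hkey := Cfsg.Agent.Lib.Helper6.pairBlock_trivial N x hreg' ({x, n • x} : Set X)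
        (Set.mem_insert _ _) (fun a => a * n)
        (fun a _ => by
          show a * n * n = a
          rw [mul_assoc, hnn, mul_one])
        (fun k hk a _ => by
          have hk1 : k • x = x := ((mem_fixingSubgroup_iff (M := G)).mp hk) x (Set.mem_insert _ _)
          have hk2 : k • (n • x) = n • x := ((mem_fixingSubgroup_iff (M := G)).mp hk) (n • x)
            (Set.mem_insert_of_mem _ (Set.mem_singleton _))
          have hk1' : k⁻¹ • x = x := by rw [inv_smul_eq_iff, hk1]
          have hkn : k * n * k⁻¹ = n := by
            apply hinj _ (‹N.Normal›.conj_mem n hn k) n hn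
            rw [mul_smul, mul_smul, hk1', hk2]
          show k * a * k⁻¹ * n = k * (a * n) * k⁻¹
          have e1 : k * (a * n) * k⁻¹ = k * a * k⁻¹ * (k * n * k⁻¹) := by group
          rw [e1, hkn])
        a ha (N.mul_mem ha hn) hm1 hm2 hprim
      rcases hkey with h | h
      · exfalso
        have h1 := hinj a ha _ (N.mul_mem ha hn) h
        exact hn1 (by
          have h2 : a * 1 = a * n := by rw [mul_one]; exact h1
          exact (mul_left_cancel h2).symm)
      · have hall4 : ∀ z : X, z ∈ ({x, n • x, a • x, (a * n) • x} : Finset X) := by
          intro z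
          by_cases hz : z ∈ ({x, n • x} : Set X)
          · rcases hz with hz | hz
            · simp [hz]
            · have hz' : z = n • x := hz
              simp [hz']
          · rcases h z hz with h1 | h1
            · simp [h1]
            · have h1' : z = (a * n) • x := h1
              simp [h1']
        have hle : Fintype.card X ≤ 4 := by
          rw [← Finset.card_univ, Finset.eq_univ_of_forall hall4 |>.symm]
          exact Finset.card_le_four
        have hm2' : m ≤ 2 := by
          by_contra hcon
          push_neg at hcon
          have : 2 ^ 3 ≤ 2 ^ m := Nat.pow_le_pow_right (by norm_num) hcon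
          omega
        have hm1' : 2 ≤ m := by
          by_contra hcon
          push_neg at hcon
          have : 2 ^ m ≤ 2 ^ 1 := Nat.pow_le_pow_right (by norm_num) (by omega)
          omega
        have : m = 2 := by omega
        rw [hm, this]
        norm_num
    · exfalso
      push_neg at hex
      have hall2 : ∀ z : X, z ∈ ({x, n • x} : Finset X) := by
        intro z
        obtain ⟨a, ha, rfl⟩ := hsurj z
        by_cases ha1 : a = 1
        · simp [ha1]
        · have := hex a ha ha1
          simp [this]
      have hle : Fintype.card X ≤ 2 := by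
        rw [← Finset.card_univ, Finset.eq_univ_of_forall hall2 |>.symm]
        exact Finset.card_le_two
      omega

end Cfsg.Agent.S0696
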