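import Cfsg.Statements.S0701
import Mathlib
import Cfsg.Agent.Lib.Helper1.PermCent

set_option autoImplicit false
open Cfsg

namespace Cfsg.Agent.S0701

/-- The centraliser in the full symmetric group of a transitive permutation group `G` is semiregular, and it is transitive if and only if `G` is regular. -/
theorem result {α : Type*} (G : Subgroup (Equiv.Perm α)) [MulAction.IsPretransitive G α] : (∀ c ∈ Subgroup.centralizer (G : Set (Equiv.Perm α)), ∀ a : α, c a = a → c = 1) ∧ (MulAction.IsPretransitive (Subgroup.centralizer (G : Set (Equiv.Perm α))) α ↔ ∀ a : α, MulAction.stabilizer G a = ⊥) := by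
  have hT : ∀ a b : α, ∃ t ∈ G, t a = b := by
    intro a b
    obtain ⟨h, hh⟩ := MulAction.exists_smul_eq G a b
    exact ⟨h, h.2, hh⟩
  have hsemi : ∀ c ∈ Subgroup.centralizer (G : Set (Equiv.Perm α)), ∀ a : α, c a = a → c = 1 := by
    intro c hc a hca
    open Cfsg.Agent.Lib.Helper1 in
    exact perm_eq_one_of_centralizes G hT c (fun t ht => Subgroup.mem_centralizer_iff.1 hc t ht) a hca
  refine ⟨hsemi, ?_, ?_⟩
  · intro hCt a
    have hCT : ∀ a b : α, ∃ t ∈ Subgroup.centralizer (G : Set (Equiv.Perm α)), t a = b := by
      intro a b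
      obtain ⟨h, hh⟩ := MulAction.exists_smul_eq (Subgroup.centralizer (G : Set (Equiv.Perm α))) a b
      exact ⟨h, h.2, hh⟩
    rw [eq_bot_iff]
    intro g hg
    rw [Subgroup.mem_bot]
    have hga : (g : Equiv.Perm α) a = a := hg
    open Cfsg.Agent.Lib.Helper1 in
    have h1 := perm_eq_one_of_centralizes (Subgroup.centralizer (G : Set (Equiv.Perm α))) hCT
      (g : Equiv.Perm α) (fun t ht => (Subgroup.mem_centralizer_iff.1 ht (g : Equiv.Perm α) g.2).symm) a hga
    exact Subtype.ext h1
  · intro hreg
    -- uniqueness of the group element moving a base point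
    have huniq : ∀ (a : α) (g h : G), g • a = h • a → g = h := by
      intro a g h e
      have h1 : g⁻¹ * h ∈ MulAction.stabilizer G a := by
        rw [MulAction.mem_stabilizer_iff, mul_smul, ← e, inv_smul_smul]
      rw [hreg a, Subgroup.mem_bot] at h1
      exact inv_mul_eq_one.1 h1
    constructor
    intro a b
    have hex : ∀ x : α, ∃ g : G, g • a = x := fun x => MulAction.exists_smul_eq G a x
    choose γ hγ using hex
    have hex' : ∀ x : α, ∃ g : G, g • b = x := fun x => MulAction.exists_smul_eq G b x
    choose δ hδ using hex'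
    have hγ' : ∀ g : G, γ (g • a) = g := fun g => huniq a _ _ (hγ (g • a))
    have hδ' : ∀ g : G, δ (g • b) = g := fun g => huniq b _ _ (hδ (g • b))
    let c : Equiv.Perm α :=
      { toFun := fun x => γ x • b
        invFun := fun y => δ y • a
        left_inv := by
          intro x
          show δ (γ x • b) • a = x
          rw [hδ', hγ]
        right_inv := by
          intro y
          show γ (δ y • a) • b = y
          rw [hγ', hδ] }
    have hc : c ∈ Subgroup.centralizer (G : Set (Equiv.Perm α)) := by
      rw [Subgroup.mem_centralizer_iff]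
      intro h hh
      ext x
      show h (γ x • b) = γ (h x) • b
      have e1 : h x = ((⟨h, hh⟩ : G) * γ x) • a := by
        rw [mul_smul, hγ]
        rfl
      rw [e1, hγ', mul_smul]
      rfl
    refine ⟨⟨c, hc⟩, ?_⟩
    show γ a • b = b
    have h1 : γ a = 1 := huniq a _ _ (by rw [hγ, one_smul])
    rw [h1, one_smul]
end Cfsg.Agent.S0701
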