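import Cfsg.Statements.S0702
import Mathlib
-- import your own Cfsg.Agent.* helpers here

set_option autoImplicit false
open Cfsg

namespace Cfsg.Agent.S0702


theorem norm_of_conj {G : Type*} [Group G] (H : Subgroup G) [Finite H] (h : G)
    (hh : ∀ s ∈ H, h * s * h⁻¹ ∈ H) : h ∈ Subgroup.normalizer (H : Set G) := by
  rw [Subgroup.mem_normalizer_iff]
  intro s
  refine ⟨hh s, fun hs => ?_⟩
  let ψ : H → H := fun s => ⟨h * s.1 * h⁻¹, hh s.1 s.2⟩
  have hinj : Function.Injective ψ := by
    intro s s' e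
    have : h * s.1 * h⁻¹ = h * s'.1 * h⁻¹ := congrArg Subtype.val e
    exact Subtype.ext (mul_left_cancel (mul_right_cancel this))
  obtain ⟨s', hs'⟩ := (Finite.injective_iff_surjective.mp hinj) ⟨h * s * h⁻¹, hs⟩
  have : h * s'.1 * h⁻¹ = h * s * h⁻¹ := congrArg Subtype.val hs'
  have e : s'.1 = s := mul_left_cancel (mul_right_cancel this)
  rw [← e]
  exact s'.2

theorem main {α : Type*} [Finite α] (G : Subgroup (Equiv.Perm α))
    [MulAction.IsPretransitive G α] (a : α) :
    ∃ φ : Subgroup.normalizer ((MulAction.stabilizer G a : Subgroup G) : Set G) →*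
        Subgroup.centralizer (G : Set (Equiv.Perm α)),
      Function.Surjective φ ∧
      φ.ker = (MulAction.stabilizer G a).subgroupOf
        (Subgroup.normalizer ((MulAction.stabilizer G a : Subgroup G) : Set G)) ∧
      ∀ x ∈ MulAction.fixedPoints (MulAction.stabilizer G a) α, ∃ n, (φ n).1 a = x := by
  classical
  haveI : Finite G := Finite.of_injective (fun g : G => g.1) Subtype.val_injective
  have hex : ∀ x : α, ∃ g : G, g • a = x := fun x => MulAction.exists_smul_eq G a x
  choose gg hgg using hex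
  have hN : ∀ n : G, n ∈ Subgroup.normalizer ((MulAction.stabilizer G a : Subgroup G) : Set G) →
      ∀ g : G, gg (g • a) • (n⁻¹ • a) = g • (n⁻¹ • a) := by
    intro n hn g
    have h1 : g⁻¹ * gg (g • a) ∈ MulAction.stabilizer G a := by
      rw [MulAction.mem_stabilizer_iff, mul_smul, hgg, inv_smul_smul]
    have h2 := (Subgroup.mem_normalizer_iff.mp hn _).mp h1
    rw [MulAction.mem_stabilizer_iff] at h2
    have h3 : (g * n⁻¹) • ((n * (g⁻¹ * gg (g • a)) * n⁻¹) • a) = (g * n⁻¹) • a := by rw [h2]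
    rw [← mul_smul] at h3
    have e : g * n⁻¹ * (n * (g⁻¹ * gg (g • a)) * n⁻¹) = gg (g • a) * n⁻¹ := by group
    rw [e, mul_smul] at h3
    rw [h3, mul_smul]
  have hcomp : ∀ n m : G,
      n ∈ Subgroup.normalizer ((MulAction.stabilizer G a : Subgroup G) : Set G) →
      ∀ x : α, gg (gg x • (m⁻¹ • a)) • (n⁻¹ • a) = gg x • ((n * m)⁻¹ • a) := by
    intro n m hn x
    have := hN n hn (gg x * m⁻¹)
    rw [mul_smul] at this
    rw [this, mul_inv_rev, mul_smul, mul_smul]
  have hone : ∀ x : α, gg x • ((1 : G)⁻¹ • a) = x := by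
    intro x
    rw [inv_one, one_smul, hgg]
  let φ0 : Subgroup.normalizer ((MulAction.stabilizer G a : Subgroup G) : Set G) →*
      Equiv.Perm α :=
    { toFun := fun n =>
        { toFun := fun x => gg x • ((n.1)⁻¹ • a)
          invFun := fun x => gg x • (((n.1)⁻¹)⁻¹ • a)
          left_inv := fun x => by
            show gg (gg x • ((n.1)⁻¹ • a)) • (((n.1)⁻¹)⁻¹ • a) = x
            rw [hcomp _ _ (inv_mem n.2), inv_mul_cancel]
            exact hone x
          right_inv := fun x => by
            show gg (gg x • (((n.1)⁻¹)⁻¹ • a)) • ((n.1)⁻¹ • a) = x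
            rw [hcomp _ _ n.2, mul_inv_cancel]
            exact hone x }
      map_one' := by
        ext x
        exact hone x
      map_mul' := fun n m => by
        ext x
        show gg x • (((n * m : Subgroup.normalizer _) : G)⁻¹ • a) =
          gg (gg x • ((m.1)⁻¹ • a)) • ((n.1)⁻¹ • a)
        rw [hcomp _ _ n.2]
        rfl }
  have hφ0 : ∀ n x, φ0 n x = gg x • ((n.1)⁻¹ • a) := fun n x => rfl
  have hφ0' : ∀ (n : Subgroup.normalizer ((MulAction.stabilizer G a : Subgroup G) : Set G))
      (g : G), φ0 n (g • a) = g • ((n.1)⁻¹ • a) := by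
    intro n g
    rw [hφ0]
    exact hN n.1 n.2 g
  have hmem : ∀ n, φ0 n ∈ Subgroup.centralizer (G : Set (Equiv.Perm α)) := by
    intro n
    rw [Subgroup.mem_centralizer_iff]
    intro h hh
    ext x
    show h (φ0 n x) = φ0 n (h x)
    have e1 : h x = ((⟨h, hh⟩ : G) * gg x) • a := by
      rw [mul_smul, hgg]
      rfl
    rw [e1, hφ0', hφ0, mul_smul]
    rfl
  let φ : Subgroup.normalizer ((MulAction.stabilizer G a : Subgroup G) : Set G) →*
      Subgroup.centralizer (G : Set (Equiv.Perm α)) := φ0.codRestrict _ hmem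
  have hφ : ∀ n, (φ n).1 = φ0 n := fun n => rfl
  have hcent : ∀ c ∈ Subgroup.centralizer (G : Set (Equiv.Perm α)), ∀ (g : G) (y : α),
      c (g • y) = g • c y := by
    intro c hc g y
    have := Subgroup.mem_centralizer_iff.mp hc g.1 g.2
    have h2 := congrArg (fun f : Equiv.Perm α => f y) this
    exact h2.symm
  have hfixN : ∀ h : G, (∀ s ∈ MulAction.stabilizer G a, s • (h • a) = h • a) →
      h⁻¹ ∈ Subgroup.normalizer ((MulAction.stabilizer G a : Subgroup G) : Set G) := by
    intro h hh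
    apply norm_of_conj
    intro s hs
    rw [MulAction.mem_stabilizer_iff, inv_inv, mul_smul, mul_smul, hh s hs, inv_smul_smul]
  refine ⟨φ, ?_, ?_, ?_⟩
  · intro c
    have hfix : ∀ s ∈ MulAction.stabilizer G a, s • (gg (c.1 a) • a) = gg (c.1 a) • a := by
      intro s hs
      rw [hgg, ← hcent c.1 c.2 s a, MulAction.mem_stabilizer_iff.mp hs]
    refine ⟨⟨(gg (c.1 a))⁻¹, hfixN _ hfix⟩, ?_⟩
    apply Subtype.ext
    rw [hφ]
    ext x
    rw [hφ0]
    show gg x • (((gg (c.1 a))⁻¹)⁻¹ • a) = c.1 x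
    rw [inv_inv, hgg, ← hcent c.1 c.2 (gg x) a, hgg]
  · ext n
    rw [MonoidHom.mem_ker, Subgroup.mem_subgroupOf, MulAction.mem_stabilizer_iff]
    constructor
    · intro h
      have h1 : φ0 n ((1 : G) • a) = (1 : G) • a := by
        have : (φ n).1 = 1 := by rw [h]; rfl
        rw [← hφ, this]
        rfl
      rw [hφ0', one_smul, one_smul] at h1
      have h2 : n.1 • ((n.1)⁻¹ • a) = n.1 • a := by rw [h1]
      rw [smul_inv_smul] at h2
      exact h2.symm
    · intro h
      apply Subtype.ext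
      rw [hφ]
      ext x
      rw [hφ0]
      have h1 : (n.1)⁻¹ • a = a := by
        rw [inv_smul_eq_iff, h]
      rw [h1, hgg]
      rfl
  · intro x hx
    have hfix : ∀ s ∈ MulAction.stabilizer G a, s • (gg x • a) = gg x • a := by
      intro s hs
      rw [hgg]
      exact hx ⟨s, hs⟩
    refine ⟨⟨(gg x)⁻¹, hfixN _ hfix⟩, ?_⟩
    rw [hφ]
    have := hφ0' ⟨(gg x)⁻¹, hfixN _ hfix⟩ 1
    rw [one_smul, one_smul] at this
    rw [this]
    show ((gg x)⁻¹)⁻¹ • a = x
    rw [inv_inv, hgg]

/-- For a transitive permutation group `G` on a finite set, the centraliser of `G` in the symmetric group is isomorphic to `N_G(G_ω)/G_ω`, and its orbit of `ω` is the set of fixed points of `G_ω`. -/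
theorem result {α : Type*} [Finite α] (G : Subgroup (Equiv.Perm α)) [MulAction.IsPretransitive G α] (a : α) : Nonempty (Subgroup.centralizer (G : Set (Equiv.Perm α)) ≃* Subgroup.normalizer ((MulAction.stabilizer G a : Subgroup G) : Set G) ⧸ (MulAction.stabilizer G a).subgroupOf (Subgroup.normalizer ((MulAction.stabilizer G a : Subgroup G) : Set G))) ∧ MulAction.orbit (Subgroup.centralizer (G : Set (Equiv.Perm α))) a = MulAction.fixedPoints (MulAction.stabilizer G a) α := by
  classical
  obtain ⟨φ, hsurj, hker, hfix⟩ := main G a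
  refine ⟨⟨((QuotientGroup.quotientMulEquivOfEq hker).symm.trans
    (QuotientGroup.quotientKerEquivOfSurjective φ hsurj)).symm⟩, ?_⟩
  ext x
  constructor
  · rintro ⟨c, rfl⟩
    intro s
    have h1 := Subgroup.mem_centralizer_iff.mp c.2 s.1.1 s.1.2
    have h2 := congrArg (fun f : Equiv.Perm α => f a) h1
    have h3 : s.1.1 (c.1 a) = c.1 (s.1.1 a) := h2
    have h4 : s.1.1 a = a := MulAction.mem_stabilizer_iff.mp s.2
    show s.1.1 (c.1 a) = c.1 a
    rw [h3, h4]
  · intro hx
    obtain ⟨n, hn⟩ := hfix x hx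
    exact ⟨φ n, hn⟩

end Cfsg.Agent.S0702
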