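import Cfsg.Statements.S0703
import Mathlib
import Cfsg.Agent.Lib.Helper1.PermCent
import Cfsg.Agent.Lib.Helper1.MinNormal

set_option autoImplicit false
open Cfsg

namespace Cfsg.Agent.S0703

/-- An abelian transitive minimal normal subgroup `M` of a permutation group on a finite set is self-centralising in the symmetric group, regular, elementary abelian, and is the unique minimal normal subgroup. -/
theorem result {α : Type*} [Finite α] (G : Subgroup (Equiv.Perm α)) (M : Subgroup G) [M.Normal] (hM : M ≠ ⊥) (hmin : ∀ L : Subgroup G, L.Normal → L ≤ M → L = ⊥ ∨ L = M) (hab : IsMulCommutative M) (htrans : MulAction.IsPretransitive M α) : Subgroup.centralizer ((M.map G.subtype : Subgroup (Equiv.Perm α)) : Set (Equiv.Perm α)) = M.map G.subtype ∧ (∀ a : α, MulAction.stabilizer M a = ⊥) ∧ (∃ p : ℕ, p.Prime ∧ ∀ m ∈ M, m ^ p = 1) ∧ ∀ L : Subgroup G, L.Normal → L ≠ ⊥ → (∀ L' : Subgroup G, L'.Normal → L' ≤ L → L' = ⊥ ∨ L' = L) → L = M := by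
  open Cfsg.Agent.Lib.Helper1 in
  have hT := trans_map_subtype G M htrans
  haveI : Nonempty α := by
    by_contra hne
    rw [not_nonempty_iff] at hne
    apply hM
    rw [eq_bot_iff]
    intro m _
    rw [Subgroup.mem_bot]
    apply Subtype.ext
    exact Subsingleton.elim _ _
  have hcomm : ∀ x ∈ M, ∀ y ∈ M, x * y = y * x := by
    intro x hx y hy
    open Cfsg.Agent.Lib.Helper1 in
    exact comm_of_isMulCommutative hx hy
  have hMC : M.map G.subtype ≤
      Subgroup.centralizer ((M.map G.subtype : Subgroup (Equiv.Perm α)) : Set (Equiv.Perm α)) := by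
    rintro _ ⟨x, hx, rfl⟩
    rw [Subgroup.mem_centralizer_iff]
    rintro _ ⟨y, hy, rfl⟩
    have h1 := hcomm y hy x hx
    have h2 := congrArg G.subtype h1
    simpa using h2
  open Cfsg.Agent.Lib.Helper1 in
  have hC := centralizer_eq_of_transitive (M.map G.subtype) (M.map G.subtype) hT hT hMC
  have hsemi : ∀ c ∈ Subgroup.centralizer
      ((M.map G.subtype : Subgroup (Equiv.Perm α)) : Set (Equiv.Perm α)), ∀ a : α, c a = a → c = 1 := by
    intro c hc a hca
    open Cfsg.Agent.Lib.Helper1 in
    exact perm_eq_one_of_centralizes (M.map G.subtype) hT c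
      (fun t ht => Subgroup.mem_centralizer_iff.1 hc t ht) a hca
  refine ⟨hC, ?_, ?_, ?_⟩
  · intro a
    rw [eq_bot_iff]
    intro m hm
    rw [Subgroup.mem_bot]
    have h1 : (((m : G) : Equiv.Perm α)) a = a := hm
    have h2 := hsemi _ (hMC ⟨(m : G), m.2, rfl⟩) a h1
    apply Subtype.ext
    apply Subtype.ext
    exact h2
  · haveI : Nontrivial M := (Subgroup.nontrivial_iff_ne_bot M).2 hM
    obtain ⟨p, hp, hpd⟩ := Nat.exists_prime_and_dvd (n := Nat.card M) Finite.one_lt_card.ne'
    haveI : Fact p.Prime := ⟨hp⟩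
    open Cfsg.Agent.Lib.Helper1 in
    exact ⟨p, hp, minNormal_exponent M hmin hcomm p hpd⟩
  · intro L hLn hLne hLmin
    haveI := hLn
    rcases hLmin (L ⊓ M) inferInstance inf_le_left with h | h
    · exfalso
      apply hLne
      have hle : L.map G.subtype ≤ M.map G.subtype := by
        rw [← hC]
        rintro _ ⟨x, hx, rfl⟩
        rw [Subgroup.mem_centralizer_iff]
        rintro _ ⟨y, hy, rfl⟩
        have h1 := Subgroup.commute_of_normal_of_disjoint L M inferInstance inferInstance
          (disjoint_iff.2 h) x y hx hy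
        have h2 := congrArg G.subtype h1.eq
        simpa using h2.symm
      have hLM : L ≤ M := by
        intro x hx
        obtain ⟨y, hy, e⟩ := hle ⟨x, hx, rfl⟩
        have : y = x := Subtype.ext e
        rw [← this]
        exact hy
      rw [eq_bot_iff, ← h]
      exact le_inf le_rfl hLM
    · have hLM : L ≤ M := by rw [← h]; exact inf_le_right
      rcases hmin L hLn hLM with h1 | h1
      · exact absurd h1 hLne
      · exact h1
end Cfsg.Agent.S0703
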