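import Cfsg.Statements.S0704
import Mathlib
import Cfsg.Agent.Lib.Helper1.PermCent

set_option autoImplicit false
open Cfsg

namespace Cfsg.Agent.S0704

/-- Two distinct transitive minimal normal subgroups `M`, `N` of a permutation group are regular, non-abelian, isomorphic, each other's centraliser in the symmetric group, and the only minimal normal subgroups. -/
theorem result {α : Type*} (G : Subgroup (Equiv.Perm α)) (M N : Subgroup G) [M.Normal] [N.Normal] (hM : M ≠ ⊥) (hN : N ≠ ⊥) (hMmin : ∀ L : Subgroup G, L.Normal → L ≤ M → L = ⊥ ∨ L = M) (hNmin : ∀ L : Subgroup G, L.Normal → L ≤ N → L = ⊥ ∨ L = N) (hMN : M ≠ N) (hMt : MulAction.IsPretransitive M α) (hNt : MulAction.IsPretransitive N α) : (∀ a : α, MulAction.stabilizer M a = ⊥) ∧ (∀ a : α, MulAction.stabilizer N a = ⊥) ∧ ¬ IsMulCommutative M ∧ Nonempty (M ≃* N) ∧ Subgroup.centralizer ((M.map G.subtype : Subgroup (Equiv.Perm α)) : Set (Equiv.Perm α)) = N.map G.subtype ∧ Subgroup.centralizer ((N.map G.subtype : Subgroup (Equiv.Perm α)) : Set (Equiv.Perm α))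 = M.map G.subtype ∧ ∀ L : Subgroup G, L.Normal → L ≠ ⊥ → (∀ L' : Subgroup G, L'.Normal → L' ≤ L → L' = ⊥ ∨ L' = L) → L = M ∨ L = N := by
  open Cfsg.Agent.Lib.Helper1 in
  have hTM := trans_map_subtype G M hMt
  open Cfsg.Agent.Lib.Helper1 in
  have hTN := trans_map_subtype G N hNt
  haveI : Nonempty α := by
    by_contra hne
    rw [not_nonempty_iff] at hne
    apply hM
    rw [eq_bot_iff]
    intro m _
    rw [Subgroup.mem_bot]
    apply Subtype.ext
    exact Subsingleton.elim _ _
  have hinf : M ⊓ N = ⊥ := by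
    rcases hMmin (M ⊓ N) inferInstance inf_le_left with h | h
    · exact h
    · exfalso
      have hle : M ≤ N := by rw [← h]; exact inf_le_right
      rcases hNmin M inferInstance hle with h1 | h1
      · exact hM h1
      · exact hMN h1
  have hcomm : ∀ x ∈ M, ∀ y ∈ N, x * y = y * x := fun x hx y hy =>
    (Subgroup.commute_of_normal_of_disjoint M N inferInstance inferInstance
      (disjoint_iff.2 hinf) x y hx hy).eq
  have hNC : N.map G.subtype ≤
      Subgroup.centralizer ((M.map G.subtype : Subgroup (Equiv.Perm α)) : Set (Equiv.Perm α)) := by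
    rintro _ ⟨y, hy, rfl⟩
    rw [Subgroup.mem_centralizer_iff]
    rintro _ ⟨x, hx, rfl⟩
    have h2 := congrArg G.subtype (hcomm x hx y hy)
    simpa using h2
  have hMC : M.map G.subtype ≤
      Subgroup.centralizer ((N.map G.subtype : Subgroup (Equiv.Perm α)) : Set (Equiv.Perm α)) := by
    rintro _ ⟨x, hx, rfl⟩
    rw [Subgroup.mem_centralizer_iff]
    rintro _ ⟨y, hy, rfl⟩
    have h2 := congrArg G.subtype (hcomm x hx y hy)
    simpa using h2.symm
  open Cfsg.Agent.Lib.Helper1 in
  have hCM := centralizer_eq_of_transitive (M.map G.subtype) (N.map G.subtype) hTM hTN hNC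
  open Cfsg.Agent.Lib.Helper1 in
  have hCN := centralizer_eq_of_transitive (N.map G.subtype) (M.map G.subtype) hTN hTM hMC
  have hstabM : ∀ a : α, MulAction.stabilizer M a = ⊥ := by
    intro a
    rw [eq_bot_iff]
    intro m hm
    rw [Subgroup.mem_bot]
    have h1 : (((m : G) : Equiv.Perm α)) a = a := hm
    have hc := hMC ⟨(m : G), m.2, rfl⟩
    open Cfsg.Agent.Lib.Helper1 in
    have h2 := perm_eq_one_of_centralizes (N.map G.subtype) hTN _
      (fun t ht => Subgroup.mem_centralizer_iff.1 hc t ht) a h1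
    apply Subtype.ext
    apply Subtype.ext
    exact h2
  have hstabN : ∀ a : α, MulAction.stabilizer N a = ⊥ := by
    intro a
    rw [eq_bot_iff]
    intro m hm
    rw [Subgroup.mem_bot]
    have h1 : (((m : G) : Equiv.Perm α)) a = a := hm
    have hc := hNC ⟨(m : G), m.2, rfl⟩
    open Cfsg.Agent.Lib.Helper1 in
    have h2 := perm_eq_one_of_centralizes (M.map G.subtype) hTM _
      (fun t ht => Subgroup.mem_centralizer_iff.1 hc t ht) a h1
    apply Subtype.ext
    apply Subtype.ext
    exact h2
  have hle_of_map : ∀ X Y : Subgroup G, X.map G.subtype ≤ Y.map G.subtype → X ≤ Y := by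
    intro X Y hle x hx
    obtain ⟨y, hy, e⟩ := hle ⟨x, hx, rfl⟩
    have : y = x := Subtype.ext e
    rw [← this]
    exact hy
  refine ⟨hstabM, hstabN, ?_, ?_, hCM, hCN, ?_⟩
  · intro hab
    apply hM
    have hMM : M.map G.subtype ≤ N.map G.subtype := by
      rw [← hCM]
      rintro _ ⟨x, hx, rfl⟩
      rw [Subgroup.mem_centralizer_iff]
      rintro _ ⟨y, hy, rfl⟩
      open Cfsg.Agent.Lib.Helper1 in
      have h1 : y * x = x * y := comm_of_isMulCommutative hy hx
      have h2 := congrArg G.subtype h1
      simpa using h2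
    rw [eq_bot_iff, ← hinf]
    exact le_inf le_rfl (hle_of_map M N hMM)
  · obtain ⟨a⟩ := ‹Nonempty α›
    have hsmul : ∀ (m : M) (n : N) (b : α), m • n • b = n • m • b := by
      intro m n b
      have h1 := congrArg (fun g : G => (g : Equiv.Perm α) b) (hcomm m m.2 n n.2)
      exact h1
    have hex : ∀ m : M, ∃ n : N, n • a = m⁻¹ • a := fun m => MulAction.exists_smul_eq N a (m⁻¹ • a)
    choose f hf using hex
    have huniqN : ∀ n1 n2 : N, n1 • a = n2 • a → n1 = n2 := by
      intro n1 n2 h
      have h1 : n1⁻¹ * n2 ∈ MulAction.stabilizer N a := by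
        rw [MulAction.mem_stabilizer_iff, mul_smul, ← h, inv_smul_smul]
      rw [hstabN a, Subgroup.mem_bot] at h1
      exact inv_mul_eq_one.1 h1
    have huniqM : ∀ n1 n2 : M, n1 • a = n2 • a → n1 = n2 := by
      intro n1 n2 h
      have h1 : n1⁻¹ * n2 ∈ MulAction.stabilizer M a := by
        rw [MulAction.mem_stabilizer_iff, mul_smul, ← h, inv_smul_smul]
      rw [hstabM a, Subgroup.mem_bot] at h1
      exact inv_mul_eq_one.1 h1
    have hmul : ∀ m1 m2 : M, f (m1 * m2) = f m1 * f m2 := by
      intro m1 m2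
      apply huniqN
      rw [hf, mul_smul, hf m2, mul_inv_rev, mul_smul, ← hf m1, hsmul]
    refine ⟨MulEquiv.ofBijective (MonoidHom.mk' f hmul) ⟨?_, ?_⟩⟩
    · intro m1 m2 h
      have h1 : f m1 = f m2 := h
      have h2 : m1⁻¹ • a = m2⁻¹ • a := by rw [← hf m1, ← hf m2, h1]
      exact inv_injective (huniqM _ _ h2)
    · intro n
      obtain ⟨m', hm'⟩ := MulAction.exists_smul_eq M a (n • a)
      refine ⟨m'⁻¹, ?_⟩
      show f m'⁻¹ = n
      apply huniqN
      rw [hf, inv_inv, hm']
  · intro L hLn hLne hLmin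
    haveI := hLn
    by_cases hLM : L = M
    · exact Or.inl hLM
    · right
      have hLinf : L ⊓ M = ⊥ := by
        rcases hLmin (L ⊓ M) inferInstance inf_le_left with h | h
        · exact h
        · exfalso
          have hle : L ≤ M := by rw [← h]; exact inf_le_right
          rcases hMmin L hLn hle with h1 | h1
          · exact hLne h1
          · exact hLM h1
      have hle : L.map G.subtype ≤ N.map G.subtype := by
        rw [← hCM]
        rintro _ ⟨x, hx, rfl⟩
        rw [Subgroup.mem_centralizer_iff]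
        rintro _ ⟨y, hy, rfl⟩
        have h1 := Subgroup.commute_of_normal_of_disjoint L M inferInstance inferInstance
          (disjoint_iff.2 hLinf) x y hx hy
        have h2 := congrArg G.subtype h1.eq
        simpa using h2.symm
      rcases hNmin L hLn (hle_of_map L N hle) with h1 | h1
      · exact absurd h1 hLne
      · exact h1
end Cfsg.Agent.S0704
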