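import Cfsg.Statements.S0705
import Mathlib
-- import your own Cfsg.Agent.* helpers here

set_option autoImplicit false
open scoped Pointwise
open Cfsg

namespace Cfsg.Agent.S0705


open scoped Pointwise

/-- A generously `k`-transitive permutation group (every `(k+1)`-subset has its full symmetric group induced by the setwise stabiliser) of degree greater than `k` is `k`-transitive, and for a `k`-subset the setwise and pointwise stabilisers have the same orbits outside it. -/
theorem result {α : Type*} [Fintype α] [DecidableEq α] (G : Subgroup (Equiv.Perm α)) {k : ℕ} (hk : k < Fintype.card α) (hgen : ∀ s : Finset α, s.card = k + 1 → ∀ σ : Equiv.Perm ↥s, ∃ g ∈ G, ∀ x : ↥s, g (x : α) = σ x) : MulAction.IsMultiplyPretransitive G α k ∧ ∀ s : Finset α, s.card = k → ∀ a b : α, a ∉ s → b ∉ s → (∃ g ∈ G, g • s = s ∧ g a = b) → ∃ g ∈ G, (∀ x ∈ s, g x = x) ∧ g a = b := by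
  classical
  constructor
  · refine ⟨fun x y => ?_⟩
    have step : ∀ (d : ℕ) (x : Fin k ↪ α),
        (Finset.univ.filter (fun l => x l ≠ y l)).card = d → ∃ g : G, g • x = y := by
      intro d
      induction d using Nat.strong_induction_on with
      | _ d ih =>
        intro x hd
        rcases Nat.eq_zero_or_pos d with rfl | hpos
        · refine ⟨1, ?_⟩
          ext l
          show x l = y l
          by_contra hl
          have : l ∈ Finset.univ.filter (fun l => x l ≠ y l) := by
            simp [hl]
          rw [Finset.card_eq_zero.mp hd] at this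
          simp at this
        · obtain ⟨i, hi⟩ : ∃ i, i ∈ Finset.univ.filter (fun l => x l ≠ y l) := by
            rw [← hd] at hpos
            exact Finset.card_pos.mp hpos
          have hi' : x i ≠ y i := (Finset.mem_filter.mp hi).2
          set R : Finset α := Finset.univ.map x with hR
          have hRcard : R.card = k := by
            rw [hR, Finset.card_map, Finset.card_univ, Fintype.card_fin]
          have hxR : ∀ l, x l ∈ R := fun l => Finset.mem_map_of_mem x (Finset.mem_univ l)
          obtain ⟨s, hscard, hxs, hyi⟩ : ∃ s : Finset α, s.card = k + 1 ∧ (∀ l, x l ∈ s) ∧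
              y i ∈ s := by
            by_cases hy : y i ∈ R
            · obtain ⟨z, hz⟩ : ∃ z, z ∉ R := by
                by_contra hcon
                push_neg at hcon
                have : R = Finset.univ := Finset.eq_univ_of_forall hcon
                rw [this, Finset.card_univ] at hRcard
                omega
              exact ⟨insert z R, by rw [Finset.card_insert_of_notMem hz, hRcard],
                fun l => Finset.mem_insert_of_mem (hxR l), Finset.mem_insert_of_mem hy⟩
            · exact ⟨insert (y i) R, by rw [Finset.card_insert_of_notMem hy, hRcard],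
                fun l => Finset.mem_insert_of_mem (hxR l), Finset.mem_insert_self _ _⟩
          have hτ : ∀ p, Equiv.swap (x i) (y i) p ∈ s ↔ p ∈ s := by
            intro p
            by_cases h1 : p = x i
            · rw [h1, Equiv.swap_apply_left]
              exact ⟨fun _ => hxs i, fun _ => hyi⟩
            · by_cases h2 : p = y i
              · rw [h2, Equiv.swap_apply_right]
                exact ⟨fun _ => hyi, fun _ => hxs i⟩
              · rw [Equiv.swap_apply_of_ne_of_ne h1 h2]
          obtain ⟨g, hg, hgs⟩ := hgen s hscard ((Equiv.swap (x i) (y i)).subtypePerm hτ)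
          have hgx : ∀ l, g (x l) = Equiv.swap (x i) (y i) (x l) := fun l => hgs ⟨x l, hxs l⟩
          have hx' : ∀ l, ((⟨g, hg⟩ : G) • x) l = Equiv.swap (x i) (y i) (x l) := fun l => hgx l
          have hsub : Finset.univ.filter (fun l => ((⟨g, hg⟩ : G) • x) l ≠ y l) ⊂
              Finset.univ.filter (fun l => x l ≠ y l) := by
            rw [Finset.ssubset_iff_of_subset]
            · refine ⟨i, hi, ?_⟩
              rw [Finset.mem_filter, hx', Equiv.swap_apply_left]
              simp
            · intro l hl
              rw [Finset.mem_filter] at hl ⊢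
              refine ⟨Finset.mem_univ _, fun hxl => hl.2 ?_⟩
              have hli : l ≠ i := by
                rintro rfl
                exact hi' hxl
              have h1 : x l ≠ x i := fun h => hli (x.injective h)
              have h2 : x l ≠ y i := by
                rw [hxl]
                exact fun h => hli (y.injective h)
              rw [hx', Equiv.swap_apply_of_ne_of_ne h1 h2, hxl]
          obtain ⟨g', hg'⟩ := ih _ (by rw [← hd]; exact Finset.card_lt_card hsub)
            ((⟨g, hg⟩ : G) • x) rfl
          refine ⟨g' * ⟨g, hg⟩, ?_⟩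
          ext l
          exact DFunLike.congr_fun hg' l
    exact step _ x rfl
  · intro s hs a b ha hb ⟨g, hg, hgs, hgab⟩
    have hs1 : ∀ x, g x ∈ s ↔ x ∈ s := by
      intro x
      constructor
      · intro h
        rw [← hgs] at h
        obtain ⟨y, hy, hyx⟩ := Finset.mem_smul_finset.mp h
        have : y = x := g.injective hyx
        rw [← this]
        exact hy
      · intro h
        have h1 : g • x ∈ g • s := Finset.smul_mem_smul_finset h
        rw [hgs] at h1
        exact h1
    have hs2 : ∀ x, g⁻¹ x ∈ s ↔ x ∈ s := by
      intro x
      have e1 : g (g⁻¹ x) = x := Equiv.apply_symm_apply g x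
      rw [← hs1 (g⁻¹ x), e1]
    set f : Equiv.Perm α := Equiv.Perm.ofSubtype ((g⁻¹).subtypePerm hs2) with hf
    have hf1 : ∀ x, x ∈ s → f x = g⁻¹ x := by
      intro x hx
      rw [hf, Equiv.Perm.ofSubtype_apply_of_mem _ hx]
      rfl
    have hf2 : ∀ x, x ∉ s → f x = x := by
      intro x hx
      rw [hf, Equiv.Perm.ofSubtype_apply_of_not_mem _ hx]
    have ht : ∀ x, f x ∈ insert b s ↔ x ∈ insert b s := by
      intro x
      by_cases hx : x ∈ s
      · rw [hf1 x hx]
        exact ⟨fun _ => Finset.mem_insert_of_mem hx,
          fun _ => Finset.mem_insert_of_mem ((hs2 x).mpr hx)⟩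
      · rw [hf2 x hx]
    obtain ⟨h, hh, hht⟩ := hgen (insert b s) (by rw [Finset.card_insert_of_notMem hb, hs])
      (f.subtypePerm ht)
    refine ⟨h * g, G.mul_mem hh hg, ?_, ?_⟩
    · intro x hx
      have hgx : g x ∈ s := (hs1 x).mpr hx
      have h1 : h (g x) = f (g x) := hht ⟨g x, Finset.mem_insert_of_mem hgx⟩
      have e1 : g⁻¹ (g x) = x := Equiv.symm_apply_apply g x
      rw [Equiv.Perm.mul_apply, h1, hf1 _ hgx, e1]
    · have h1 : h b = f b := hht ⟨b, Finset.mem_insert_self _ _⟩
      rw [Equiv.Perm.mul_apply, hgab, h1, hf2 b hb]

end Cfsg.Agent.S0705
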