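import Cfsg.Statements.S0707
import Mathlib
import Cfsg.Agent.Lib.Helper1.Misc

set_option autoImplicit false
open Cfsg

namespace Cfsg.Agent.S0707

/-- In a primitive permutation group, distinct points have distinct stabilisers unless the group is regular of prime degree. -/
theorem result {α : Type*} (G : Subgroup (Equiv.Perm α)) [MulAction.IsPreprimitive G α] (h : ¬ (Nat.card α).Prime ∨ ∃ a : α, MulAction.stabilizer G a ≠ ⊥) {a b : α} (hab : a ≠ b) : MulAction.stabilizer G a ≠ MulAction.stabilizer G b := by
  intro heq
  haveI : Nontrivial α := ⟨⟨a, b, hab⟩⟩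
  have hK := MulAction.IsPreprimitive.isCoatom_stabilizer_of_isPreprimitive (G := G) a
  obtain ⟨g, hg⟩ := MulAction.exists_smul_eq G a b
  have hgn : g ∈ Subgroup.normalizer ((MulAction.stabilizer G a : Subgroup G) : Set G) := by
    rw [Subgroup.mem_normalizer_iff]
    intro x
    constructor
    · intro hx
      have hx' : x • a = a := hx
      have h1 : g * x * g⁻¹ ∈ MulAction.stabilizer G b := by
        rw [MulAction.mem_stabilizer_iff, ← hg, mul_smul, mul_smul, inv_smul_smul, hx']
      rw [heq]
      exact h1
    · intro hx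
      rw [heq] at hx
      have hx' : (g * x * g⁻¹) • b = b := hx
      rw [← hg, mul_smul, mul_smul, inv_smul_smul] at hx'
      rw [MulAction.mem_stabilizer_iff]
      exact smul_left_cancel g hx'
  have hgna : g ∉ MulAction.stabilizer G a := by
    intro h1
    have h2 : g • a = a := h1
    rw [hg] at h2
    exact hab h2.symm
  have hlt : MulAction.stabilizer G a <
      Subgroup.normalizer ((MulAction.stabilizer G a : Subgroup G) : Set G) :=
    lt_of_le_of_ne Subgroup.le_normalizer (fun h => hgna (h ▸ hgn))
  have hnormal : (MulAction.stabilizer G a).Normal :=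
    Subgroup.normalizer_eq_top_iff.1 (hK.2 _ hlt)
  have hfix : ∀ x ∈ MulAction.stabilizer G a, ∀ c : α, x • c = c := by
    intro x hx c
    obtain ⟨k, rfl⟩ := MulAction.exists_smul_eq G a c
    have h1 : k⁻¹ * x * k ∈ MulAction.stabilizer G a := by
      have := hnormal.conj_mem x hx k⁻¹
      simpa using this
    have h2 : (k⁻¹ * x * k) • a = a := h1
    rw [mul_smul, mul_smul] at h2
    have h3 := congrArg (fun y => k • y) h2
    simpa using h3
  have hbot : MulAction.stabilizer G a = ⊥ := by
    rw [eq_bot_iff]
    intro x hx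
    rw [Subgroup.mem_bot]
    apply Subtype.ext
    ext c
    exact hfix x hx c
  rw [hbot] at hK
  open Cfsg.Agent.Lib.Helper1 in
  have hprime := card_prime_of_bot_coatom hK
  have hcard : Nat.card α = Nat.card G := by
    rw [← MulAction.index_stabilizer_of_transitive G a, hbot, Subgroup.index_bot]
  rcases h with h | ⟨c, hc⟩
  · rw [hcard] at h
    exact h hprime
  · apply hc
    rw [eq_bot_iff]
    intro x hx
    rw [Subgroup.mem_bot]
    obtain ⟨k, rfl⟩ := MulAction.exists_smul_eq G a c
    have hx' : x • k • a = k • a := hx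
    have h1 : k⁻¹ * x * k ∈ MulAction.stabilizer G a := by
      rw [MulAction.mem_stabilizer_iff, mul_smul, mul_smul, hx', inv_smul_smul]
    rw [hbot, Subgroup.mem_bot] at h1
    have h2 : x = k * (k⁻¹ * x * k) * k⁻¹ := by group
    rw [h2, h1]
    group
end Cfsg.Agent.S0707
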