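import Cfsg.Statements.S0710
import Mathlib

set_option autoImplicit false
open Cfsg

namespace Cfsg.Agent.S0710

/-- No transitive permutation group on 13 points has order `13 * 12 * 11 * 10 * 9 * 8`. -/
theorem result {α : Type*} [Fintype α] [DecidableEq α] (hα : Fintype.card α = 13) (G : Subgroup (Equiv.Perm α)) [MulAction.IsPretransitive G α] : Nat.card G ≠ 13 * 12 * 11 * 10 * 9 * 8 := by
  intro hG
  haveI : Fact (Nat.Prime 13) := ⟨by norm_num⟩
  obtain ⟨P⟩ : Nonempty (Sylow 13 G) := inferInstance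
  have hPcard : Nat.card (P : Subgroup G) = 13 := by
    obtain ⟨k, hk⟩ := P.2.exists_card_eq
    have h1 : (P : Subgroup G).index * 13 ^ k = 13 * 12 * 11 * 10 * 9 * 8 := by
      rw [← hG, ← (P : Subgroup G).index_mul_card]
      congr 1
      exact hk.symm
    have h2 : ¬ 13 ∣ (P : Subgroup G).index := P.not_dvd_index
    have hk1 : k = 1 := by
      rcases Nat.lt_trichotomy k 1 with h | h | h
      · have h0 : k = 0 := by omega
        subst h0
        exfalso; apply h2
        rw [pow_zero, mul_one] at h1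
        rw [h1]; norm_num
      · exact h
      · exfalso
        have h3 : 13 ^ 2 ∣ 13 ^ k := pow_dvd_pow 13 h
        have h4 : 13 ^ 2 ∣ 13 * 12 * 11 * 10 * 9 * 8 := by
          rw [← h1]; exact Dvd.dvd.mul_left h3 _
        norm_num at h4
    have : Nat.card (P : Subgroup G) = 13 ^ k := hk
    rw [this, hk1, pow_one]
  have hcyc : IsCyclic (P : Subgroup G) := isCyclic_of_prime_card hPcard
  obtain ⟨g, hg⟩ := hcyc.exists_generator
  obtain ⟨s, hs⟩ : ∃ s : Equiv.Perm α, s = ((g : G) : Equiv.Perm α) := ⟨_, rfl⟩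
  have hs13 : orderOf s = 13 := by
    rw [hs, Subgroup.orderOf_coe, Subgroup.orderOf_coe, orderOf_eq_card_of_forall_mem_zpowers hg,
      hPcard]
  have hsupp : ∀ a : α, s a ≠ a := by
    obtain ⟨n, hn⟩ := Equiv.Perm.cycleType_prime_order (σ := s) (by rw [hs13]; norm_num)
    have h1 : s.support.card = (n + 1) * 13 := by
      rw [← Equiv.Perm.sum_cycleType, hn, hs13, Multiset.sum_replicate, smul_eq_mul]
    have h2 : s.support.card ≤ 13 := by rw [← hα]; exact Finset.card_le_univ _
    have h3 : s.support = Finset.univ := by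
      apply Finset.eq_univ_of_card
      rw [hα]; nlinarith
    intro a
    have : a ∈ s.support := by rw [h3]; exact Finset.mem_univ a
    exact Equiv.Perm.mem_support.1 this
  have hfix : ∀ a : α, ∀ k : ℕ, 0 < k → k < 13 → (s ^ k) a ≠ a := by
    intro a k hk0 hk13 hka
    have hcop : Nat.Coprime k 13 :=
      Nat.Coprime.symm ((Nat.Prime.coprime_iff_not_dvd (by norm_num)).2
        (Nat.not_dvd_of_pos_of_lt hk0 hk13))
    obtain ⟨m, -, hm⟩ := Nat.exists_mul_mod_eq_one_of_coprime hcop (by norm_num)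
    have h1 : (s ^ (k * m)) a = a := by
      rw [pow_mul]
      exact Equiv.Perm.pow_apply_eq_self_of_apply_eq_self hka m
    have h2 : s ^ (k * m) = s := by
      rw [← pow_mod_orderOf, hs13, hm, pow_one]
    rw [h2] at h1
    exact hsupp a h1
  have htrans : ∀ a b : α, ∃ i : ℕ, (s ^ i) a = b := by
    intro a b
    have hinj : Function.Injective (fun i : Fin 13 => (s ^ (i : ℕ)) a) := by
      have key : ∀ i j : Fin 13, (i : ℕ) < (j : ℕ) → (s ^ (i : ℕ)) a ≠ (s ^ (j : ℕ)) a := by
        intro i j hlt hij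
        have hd : (s ^ ((j : ℕ) - (i : ℕ))) a = a := by
          have h1 : s ^ (j : ℕ) = s ^ (i : ℕ) * s ^ ((j : ℕ) - (i : ℕ)) := by
            rw [← pow_add]; congr 1; omega
          have h2 : (s ^ (i : ℕ)) ((s ^ ((j : ℕ) - (i : ℕ))) a) = (s ^ (i : ℕ)) a := by
            rw [← Equiv.Perm.mul_apply, ← h1]; exact hij.symm
          exact (s ^ (i : ℕ)).injective h2
        exact hfix a _ (by omega) (by omega) hd
      intro i j hij
      by_contra hne
      have hne' : (i : ℕ) ≠ (j : ℕ) := fun h => hne (Fin.ext h)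
      rcases Nat.lt_or_gt_of_ne hne' with h | h
      · exact key i j h hij
      · exact key j i h hij.symm
    have hbij : Function.Bijective (fun i : Fin 13 => (s ^ (i : ℕ)) a) := by
      rw [Fintype.bijective_iff_injective_and_card]
      exact ⟨hinj, by rw [Fintype.card_fin, hα]⟩
    obtain ⟨i, hi⟩ := hbij.2 b
    exact ⟨i, hi⟩
  obtain ⟨C, hC⟩ : ∃ C : Subgroup G, C = Subgroup.centralizer ((P : Subgroup G) : Set G) :=
    ⟨_, rfl⟩
  have hPC : (P : Subgroup G) ≤ C := by
    rw [hC]
    intro x hx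
    rw [Subgroup.mem_centralizer_iff]
    intro h hh
    obtain ⟨i, hi⟩ := Subgroup.mem_zpowers_iff.1 (hg ⟨x, hx⟩)
    obtain ⟨j, hj⟩ := Subgroup.mem_zpowers_iff.1 (hg ⟨h, hh⟩)
    have hx' : x = (g : G) ^ i := by rw [← Subgroup.coe_zpow, hi]
    have hh' : h = (g : G) ^ j := by rw [← Subgroup.coe_zpow, hj]
    rw [hx', hh']; exact zpow_mul_comm _ _ _
  have hCcard : Nat.card C = 13 := by
    have h1 : 13 ∣ Nat.card C := by rw [← hPcard]; exact Subgroup.card_dvd_of_le hPC
    have h2 : Nat.card C ≤ 13 := by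
      obtain ⟨a⟩ : Nonempty α := by
        rw [← Fintype.card_pos_iff, hα]; norm_num
      have hcomm : ∀ (c : C) (i : ℕ), ((c : G) : Equiv.Perm α) * s ^ i
          = s ^ i * ((c : G) : Equiv.Perm α) := by
        intro c i
        have h3 : (g : G) * (c : G) = (c : G) * (g : G) := by
          have hc2 : (c : G) ∈ Subgroup.centralizer ((P : Subgroup G) : Set G) := hC ▸ c.2
          rw [Subgroup.mem_centralizer_iff] at hc2
          exact hc2 (g : G) g.2
        have h4 : s * ((c : G) : Equiv.Perm α) = ((c : G) : Equiv.Perm α) * s := by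
          rw [hs]; exact congrArg Subtype.val h3
        exact ((Commute.pow_right (show Commute ((c : G) : Equiv.Perm α) s from h4.symm) i)).eq
      have hinj : Function.Injective (fun c : C => ((c : G) : Equiv.Perm α) a) := by
        intro c c' hcc
        apply Subtype.ext; apply Subtype.ext
        ext b
        obtain ⟨i, rfl⟩ := htrans a b
        have e1 : ((c : G) : Equiv.Perm α) ((s ^ i) a) = (s ^ i) (((c : G) : Equiv.Perm α) a) := by
          rw [← Equiv.Perm.mul_apply, hcomm c, Equiv.Perm.mul_apply]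
        have e2 : ((c' : G) : Equiv.Perm α) ((s ^ i) a)
            = (s ^ i) (((c' : G) : Equiv.Perm α) a) := by
          rw [← Equiv.Perm.mul_apply, hcomm c', Equiv.Perm.mul_apply]
        rw [e1, e2]; exact congrArg _ hcc
      have := Nat.card_le_card_of_injective _ hinj
      rwa [Nat.card_eq_fintype_card (α := α), hα] at this
    obtain ⟨m, hm⟩ := h1
    have hpos : 0 < Nat.card C := Nat.card_pos
    rw [hm] at h2 hpos ⊢
    have : m = 1 := by nlinarith
    rw [this]
  have hmod : Nat.card (Sylow 13 G) ≡ 1 [MOD 13] := card_sylow_modEq_one 13 G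
  rw [Sylow.card_eq_index_normalizer P] at hmod
  have hmod' : (Subgroup.normalizer ((P : Subgroup G) : Set G)).index ≡ 1 [MOD 13] := hmod
  clear hmod
  have key := Subgroup.card_dvd_of_injective _
    (QuotientGroup.kerLift_injective (P : Subgroup G).normalizerMonoidHom)
  rw [Subgroup.normalizerMonoidHom_ker, ← Subgroup.index, ← Subgroup.relIndex] at key
  rw [hcyc.card_mulAut, hPcard, Nat.totient_prime (by norm_num)] at key
  have hCN : C ≤ Subgroup.normalizer ((P : Subgroup G) : Set G) := by
    rw [hC]; exact Subgroup.centralizer_le_normalizer _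
  have e1 := Subgroup.relIndex_mul_index hCN
  have e2 := C.index_mul_card
  rw [hCcard, hG, ← e1] at e2
  rw [← hC] at key
  obtain ⟨d, hd⟩ : ∃ d, d = C.relIndex (Subgroup.normalizer ((P : Subgroup G) : Set G)) :=
    ⟨_, rfl⟩
  obtain ⟨n, hn⟩ : ∃ n, n = (Subgroup.normalizer ((P : Subgroup G) : Set G)).index := ⟨_, rfl⟩
  rw [← hd] at key e2
  rw [← hn] at e2 hmod'
  have key' : d ∣ 12 := key
  have hd12 : d ≤ 12 := Nat.le_of_dvd (by norm_num) key'
  have hd0 : 0 < d := Nat.pos_of_dvd_of_pos key' (by norm_num)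
  unfold Nat.ModEq at hmod'
  clear key
  interval_cases d <;> omega

end Cfsg.Agent.S0710
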