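import Cfsg.Statements.S0712
import Mathlib
-- import your own Cfsg.Agent.* helpers here

set_option autoImplicit false
open Cfsg

namespace Cfsg.Agent.S0712



/-- Jordan: a primitive group in which the pointwise stabiliser of a set `s` is doubly transitive on the complement of `s` (which has at least 2 points) is `(|s| + 2)`-transitive. -/
theorem result {α : Type*} [Fintype α] [DecidableEq α] (G : Subgroup (Equiv.Perm α)) (hG : MulAction.IsPreprimitive G α) (s : Set α) {m : ℕ} (hsm : s.ncard = m) (hm : m + 2 ≤ Fintype.card α) (h2 : MulAction.IsMultiplyPretransitive (fixingSubgroup G s) (SubMulAction.ofFixingSubgroup G s) 2) : MulAction.IsMultiplyPretransitive G α (m + 2) := by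
  classical
  -- G is m-transitive
  haveI hmt : MulAction.IsMultiplyPretransitive G α m := by
    rcases Nat.eq_zero_or_pos m with rfl | hpos
    · exact MulAction.is_zero_pretransitive'
    · obtain ⟨n, rfl⟩ : ∃ n, m = n + 1 := ⟨m - 1, by omega⟩
      have hprim := MulAction.isPreprimitive_of_is_two_pretransitive h2
      have h3 := MulAction.IsPreprimitive.isMultiplyPreprimitive hG hsm
        (by rw [Nat.card_eq_fintype_card]; omega) hprim
      haveI := h3.isMultiplyPretransitive
      exact MulAction.isMultiplyPretransitive_of_le (m := n + 1) (n := n + 2) (by omega)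
        (by rw [Nat.card_eq_fintype_card]; omega)
  -- an enumeration of s
  have hsf : s.toFinset.card = m := by
    rw [← hsm, Set.ncard_eq_toFinset_card']
  let eq : {x // x ∈ s.toFinset} ≃ Fin m := s.toFinset.equivFinOfCardEq hsf
  let e : Fin m ↪ α := ⟨fun i => (eq.symm i).1, fun i j h => eq.symm.injective (Subtype.ext h)⟩
  have he : ∀ i, e i ∈ s := fun i => Set.mem_toFinset.mp (eq.symm i).2
  have hes : ∀ a ∈ s, ∃ i, e i = a := by
    intro a ha
    refine ⟨eq ⟨a, Set.mem_toFinset.mpr ha⟩, ?_⟩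
    show (eq.symm (eq ⟨a, Set.mem_toFinset.mpr ha⟩)).1 = a
    rw [Equiv.symm_apply_apply]
  have key : ∀ x : Fin (m + 2) ↪ α, ∃ g : G, (∀ i : Fin m, g • x (Fin.castAdd 2 i) = e i) ∧
      ∀ j : Fin 2, g • x (Fin.natAdd m j) ∉ s := by
    intro x
    obtain ⟨g, hg⟩ := MulAction.exists_smul_eq G ((Fin.castAddEmb 2).trans x) e
    have hg' : ∀ i : Fin m, g • x (Fin.castAdd 2 i) = e i := fun i => DFunLike.congr_fun hg i
    refine ⟨g, hg', ?_⟩
    intro j hj
    obtain ⟨i, hi⟩ := hes _ hj
    rw [← hg' i] at hi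
    have h1 : x (Fin.castAdd 2 i) = x (Fin.natAdd m j) := MulAction.injective g hi
    have h2' := x.injective h1
    have h3 : (Fin.castAdd 2 i).val = (Fin.natAdd m j).val := congrArg Fin.val h2'
    simp at h3
    omega
  refine ⟨fun x y => ?_⟩
  obtain ⟨g₁, hg₁, hu⟩ := key x
  obtain ⟨g₂, hg₂, hv⟩ := key y
  let u : Fin 2 ↪ SubMulAction.ofFixingSubgroup G s :=
    ⟨fun j => ⟨g₁ • x (Fin.natAdd m j), hu j⟩, fun j j' h => by
      have h1 : g₁ • x (Fin.natAdd m j) = g₁ • x (Fin.natAdd m j') := congrArg Subtype.val h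
      have h2' := x.injective (MulAction.injective g₁ h1)
      have h3 : (Fin.natAdd m j).val = (Fin.natAdd m j').val := congrArg Fin.val h2'
      simp at h3
      exact Fin.ext h3⟩
  let v : Fin 2 ↪ SubMulAction.ofFixingSubgroup G s :=
    ⟨fun j => ⟨g₂ • y (Fin.natAdd m j), hv j⟩, fun j j' h => by
      have h1 : g₂ • y (Fin.natAdd m j) = g₂ • y (Fin.natAdd m j') := congrArg Subtype.val h
      have h2' := y.injective (MulAction.injective g₂ h1)
      have h3 : (Fin.natAdd m j).val = (Fin.natAdd m j').val := congrArg Fin.val h2'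
      simp at h3
      exact Fin.ext h3⟩
  obtain ⟨h, hh⟩ := MulAction.exists_smul_eq (fixingSubgroup G s) u v
  have hh' : ∀ j : Fin 2, (h : G) • (g₁ • x (Fin.natAdd m j)) = g₂ • y (Fin.natAdd m j) :=
    fun j => congrArg Subtype.val (DFunLike.congr_fun hh j)
  refine ⟨g₂⁻¹ * (h : G) * g₁, ?_⟩
  ext i
  show (g₂⁻¹ * (h : G) * g₁) • x i = y i
  rw [mul_smul, mul_smul]
  induction i using Fin.addCases with
  | left i =>
    rw [hg₁ i, ((mem_fixingSubgroup_iff (M := G)).mp h.2) (e i) (he i), inv_smul_eq_iff, hg₂ i]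
  | right j =>
    rw [hh' j, inv_smul_smul]

end Cfsg.Agent.S0712
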