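import Cfsg.Statements.S0714
import Mathlib
-- import your own Cfsg.Agent.* helpers here

set_option autoImplicit false
open Cfsg

namespace Cfsg.Agent.S0714


theorem lemX {α : Type*} [Fintype α] [DecidableEq α] {K : Type*} [Field K]
    (W : Subrepresentation (Cfsg.permRep K (alternatingGroup α) α)) (v : α → K)
    (hv : v ∈ W.toSubmodule) (a b l m : α) (hab : a ≠ b) (hlm : l ≠ m) (hla : l ≠ a)
    (hlb : l ≠ b) (hma : m ≠ a) (hmb : m ≠ b) (hvlm : v l = v m) :
    (v a - v b) • (Pi.single a (1:K) - Pi.single b (1:K) : α → K) ∈ W.toSubmodule := by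
  have hτ : Equiv.swap a b * Equiv.swap l m ∈ alternatingGroup α := by
    rw [Equiv.Perm.mem_alternatingGroup, map_mul, Equiv.Perm.sign_swap hab,
      Equiv.Perm.sign_swap hlm]
    rfl
  have h1 := W.apply_mem_toSubmodule ⟨_, hτ⟩ hv
  have h2 := W.toSubmodule.sub_mem hv h1
  convert h2 using 1
  funext x
  show (v a - v b) * ((Pi.single a (1:K) : α → K) x - (Pi.single b (1:K) : α → K) x) =
    v x - v ((Equiv.swap a b * Equiv.swap l m)⁻¹ x)
  rw [mul_inv_rev, Equiv.swap_inv, Equiv.swap_inv, Equiv.Perm.mul_apply]
  by_cases hxa : x = a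
  · subst hxa
    rw [Equiv.swap_apply_left, Equiv.swap_apply_of_ne_of_ne hlb.symm hmb.symm]
    simp [hab]
  · by_cases hxb : x = b
    · subst hxb
      rw [Equiv.swap_apply_right, Equiv.swap_apply_of_ne_of_ne hla.symm hma.symm]
      simp [Ne.symm hab]
    · rw [Equiv.swap_apply_of_ne_of_ne hxa hxb, Pi.single_eq_of_ne hxa, Pi.single_eq_of_ne hxb,
        sub_zero, mul_zero]
      by_cases hxl : x = l
      · subst hxl
        rw [Equiv.swap_apply_left]
        exact (sub_eq_zero.mpr hvlm).symm
      · by_cases hxm : x = m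
        · subst hxm
          rw [Equiv.swap_apply_right]
          exact (sub_eq_zero.mpr hvlm.symm).symm
        · rw [Equiv.swap_apply_of_ne_of_ne hxl hxm, sub_self]

theorem stepA {α : Type*} [Fintype α] [DecidableEq α] (hα : 5 ≤ Fintype.card α) {K : Type*}
    [Field K] (W : Subrepresentation (Cfsg.permRep K (alternatingGroup α) α)) (w : α → K)
    (hw : w ∈ W.toSubmodule) (i j : α) (hij : w i ≠ w j) :
    ∃ a b : α, a ≠ b ∧ (Pi.single a (1:K) - Pi.single b (1:K) : α → K) ∈ W.toSubmodule := by
  classical
  have hne : i ≠ j := by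
    rintro rfl
    exact hij rfl
  obtain ⟨k, hk⟩ : ∃ k, k ∉ ({i, j} : Finset α) := by
    by_contra hcon
    push_neg at hcon
    have : ({i, j} : Finset α) = Finset.univ := Finset.eq_univ_of_forall hcon
    have h1 := Finset.card_le_two (a := i) (b := j)
    rw [this, Finset.card_univ] at h1
    omega
  obtain ⟨l, hl⟩ : ∃ l, l ∉ ({i, j, k} : Finset α) := by
    by_contra hcon
    push_neg at hcon
    have : ({i, j, k} : Finset α) = Finset.univ := Finset.eq_univ_of_forall hcon
    have h1 := Finset.card_le_three (a := i) (b := j) (c := k)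
    rw [this, Finset.card_univ] at h1
    omega
  obtain ⟨m, hm⟩ : ∃ m, m ∉ ({i, j, k, l} : Finset α) := by
    by_contra hcon
    push_neg at hcon
    have : ({i, j, k, l} : Finset α) = Finset.univ := Finset.eq_univ_of_forall hcon
    have h1 := Finset.card_le_four (a := i) (b := j) (c := k) (d := l)
    rw [this, Finset.card_univ] at h1
    omega
  simp only [Finset.mem_insert, Finset.mem_singleton, not_or] at hk hl hm
  obtain ⟨hki, hkj⟩ := hk
  obtain ⟨hli, hlj, hlk⟩ := hl
  obtain ⟨hmi, hmj, hmk, hml⟩ := hm
  have hσ : Equiv.swap i j * Equiv.swap j k ∈ alternatingGroup α := by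
    rw [Equiv.Perm.mem_alternatingGroup, map_mul, Equiv.Perm.sign_swap hne,
      Equiv.Perm.sign_swap (Ne.symm hkj)]
    rfl
  have h1 := W.apply_mem_toSubmodule ⟨_, hσ⟩ hw
  have hvW := W.toSubmodule.sub_mem hw h1
  set v : α → K := w - (Cfsg.permRep K (alternatingGroup α) α)
    ⟨Equiv.swap i j * Equiv.swap j k, hσ⟩ w with hvdef
  have hv : ∀ x, v x = w x - w (Equiv.swap j k (Equiv.swap i j x)) := by
    intro x
    show w x - w ((Equiv.swap i j * Equiv.swap j k)⁻¹ x) = _
    rw [mul_inv_rev, Equiv.swap_inv, Equiv.swap_inv, Equiv.Perm.mul_apply]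
  have hvi : v i = w i - w k := by
    rw [hv, Equiv.swap_apply_left, Equiv.swap_apply_left]
  have hvj : v j = w j - w i := by
    rw [hv, Equiv.swap_apply_right, Equiv.swap_apply_of_ne_of_ne hne (Ne.symm hki)]
  have hvk : v k = w k - w j := by
    rw [hv, Equiv.swap_apply_of_ne_of_ne hki hkj, Equiv.swap_apply_right]
  have hvl : v l = 0 := by
    rw [hv, Equiv.swap_apply_of_ne_of_ne hli hlj, Equiv.swap_apply_of_ne_of_ne hlj hlk, sub_self]
  have hvm : v m = 0 := by
    rw [hv, Equiv.swap_apply_of_ne_of_ne hmi hmj, Equiv.swap_apply_of_ne_of_ne hmj hmk, sub_self]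
  have hvj0 : v j ≠ 0 := by
    rw [hvj]
    exact sub_ne_zero.mpr (Ne.symm hij)
  have fin : ∀ (a b : α) (c : K), a ≠ b → c ≠ 0 →
      c • (Pi.single a (1:K) - Pi.single b (1:K) : α → K) ∈ W.toSubmodule →
      ∃ a b : α, a ≠ b ∧ (Pi.single a (1:K) - Pi.single b (1:K) : α → K) ∈ W.toSubmodule := by
    intro a b c hab hc h
    refine ⟨a, b, hab, ?_⟩
    have := W.toSubmodule.smul_mem c⁻¹ h
    rwa [smul_smul, inv_mul_cancel₀ hc, one_smul] at this
  by_cases h1 : v i = v j
  · by_cases h2 : v j = v k
    · have := lemX W v hvW i l j k (Ne.symm hli) (Ne.symm hkj) (Ne.symm hne) (Ne.symm hlj) hki (Ne.symm hlk) h2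
      rw [hvl, sub_zero] at this
      exact fin i l (v i) (Ne.symm hli) (h1 ▸ hvj0) this
    · have := lemX W v hvW j k l m (Ne.symm hkj) (Ne.symm hml) hlj hlk hmj hmk (hvl.trans hvm.symm)
      exact fin j k _ (Ne.symm hkj) (sub_ne_zero.mpr h2) this
  · have := lemX W v hvW i j l m hne (Ne.symm hml) hli hlj hmi hmj (hvl.trans hvm.symm)
    exact fin i j _ hne (sub_ne_zero.mpr h1) this

theorem main {α : Type*} [Fintype α] [DecidableEq α] (hα : 5 ≤ Fintype.card α) {K : Type*}
    [Field K] (W : Subrepresentation (Cfsg.permRep K (alternatingGroup α) α)) :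
    W.toSubmodule = ⊥ ∨ W = Cfsg.permConstants K (alternatingGroup α) α ∨
      W = Cfsg.permSumZero K (alternatingGroup α) α ∨ W.toSubmodule = ⊤ := by
  classical
  obtain ⟨x0⟩ : Nonempty α := Fintype.card_pos_iff.mp (by omega)
  by_cases hconst : ∀ w ∈ W.toSubmodule, ∀ i j, w i = w j
  · by_cases hbot : W.toSubmodule = ⊥
    · exact Or.inl hbot
    · right
      left
      apply Subrepresentation.toSubmodule_injective
      show W.toSubmodule = Submodule.span K {fun _ => 1}
      obtain ⟨w, hwW, hw0⟩ := (Submodule.ne_bot_iff _).mp hbot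
      have hw : w = w x0 • (fun _ : α => (1:K)) := by
        funext x
        show w x = w x0 * 1
        rw [mul_one, hconst w hwW x x0]
      have hwx0 : w x0 ≠ 0 := by
        intro h
        apply hw0
        rw [hw, h, zero_smul]
      apply le_antisymm
      · intro u hu
        rw [Submodule.mem_span_singleton]
        refine ⟨u x0, ?_⟩
        funext x
        show u x0 * 1 = u x
        rw [mul_one, hconst u hu x x0]
      · rw [Submodule.span_le]
        rintro _ ⟨rfl⟩
        have := W.toSubmodule.smul_mem (w x0)⁻¹ hwW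
        have h3 : (w x0)⁻¹ • w = fun _ => 1 := by
          funext x
          show (w x0)⁻¹ * w x = 1
          rw [hconst w hwW x x0, inv_mul_cancel₀ hwx0]
        rw [h3] at this
        exact this
  · right
    right
    push_neg at hconst
    obtain ⟨w, hwW, i, j, hij⟩ := hconst
    obtain ⟨a, b, hab, habW⟩ := stepA hα W w hwW i j hij
    haveI : MulAction.IsMultiplyPretransitive (alternatingGroup α) α 2 := by
      haveI := alternatingGroup.isMultiplyPretransitive α
      refine MulAction.isMultiplyPretransitive_of_le (n := Nat.card α - 2) ?_ ?_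
      · rw [Nat.card_eq_fintype_card]
        omega
      · exact Nat.sub_le _ _
    have hall : ∀ x y : α, x ≠ y →
        (Pi.single x (1:K) - Pi.single y (1:K) : α → K) ∈ W.toSubmodule := by
      intro x y hxy
      obtain ⟨g, hgx, hgy⟩ := (MulAction.is_two_pretransitive_iff (G := alternatingGroup α)).mp
        inferInstance hab hxy
      have h1 := W.apply_mem_toSubmodule g habW
      convert h1 using 1
      funext z
      show (Pi.single x (1:K) : α → K) z - (Pi.single y (1:K) : α → K) z =
        (Pi.single a (1:K) : α → K) (g⁻¹ • z) - (Pi.single b (1:K) : α → K) (g⁻¹ • z)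
      have e1 : ∀ (c d : α), g • c = d →
          (Pi.single d (1:K) : α → K) z = (Pi.single c (1:K) : α → K) (g⁻¹ • z) := by
        intro c d hcd
        by_cases hz : z = d
        · subst hz
          rw [← hcd, inv_smul_smul]
          simp
        · rw [Pi.single_eq_of_ne hz, Pi.single_eq_of_ne]
          intro h
          apply hz
          rw [← hcd, ← h, smul_inv_smul]
      rw [e1 a x hgx, e1 b y hgy]
    have hsz : (Cfsg.permSumZero K (alternatingGroup α) α).toSubmodule ≤ W.toSubmodule := by
      intro f hf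
      have hf0 : ∑ x, f x = 0 := hf
      have e : f = ∑ x, f x • (Pi.single x (1:K) - Pi.single x0 (1:K) : α → K) := by
        funext z
        rw [Finset.sum_apply]
        simp only [Pi.smul_apply, Pi.sub_apply, smul_eq_mul, mul_sub, Finset.sum_sub_distrib,
          Pi.single_apply, mul_ite, mul_one, mul_zero, Finset.sum_ite_eq, Finset.mem_univ,
          if_true]
        by_cases hz : z = x0
        · simp [hz, hf0]
        · simp [hz]
      rw [e]
      refine Submodule.sum_mem _ fun x _ => ?_
      by_cases hx : x = x0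
      · rw [hx, sub_self, smul_zero]
        exact Submodule.zero_mem _
      · exact W.toSubmodule.smul_mem _ (hall x x0 hx)
    by_cases hall0 : ∀ u ∈ W.toSubmodule, ∑ x, u x = 0
    · left
      apply Subrepresentation.toSubmodule_injective
      exact le_antisymm (fun u hu => hall0 u hu) hsz
    · right
      push_neg at hall0
      obtain ⟨u, huW, hu0⟩ := hall0
      rw [eq_top_iff]
      intro f _
      have h1 : f - ((∑ x, f x) / (∑ x, u x)) • u ∈
          (Cfsg.permSumZero K (alternatingGroup α) α).toSubmodule := by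
        show ∑ x, (f - ((∑ x, f x) / (∑ x, u x)) • u) x = 0
        simp only [Pi.sub_apply, Pi.smul_apply, smul_eq_mul, Finset.sum_sub_distrib,
          ← Finset.mul_sum]
        field_simp
        ring
      have h2 := W.toSubmodule.add_mem (hsz h1)
        (W.toSubmodule.smul_mem ((∑ x, f x) / (∑ x, u x)) huW)
      rwa [sub_add_cancel] at h2

/-- Over any field, the permutation module of the alternating group of degree at least 5 has exactly four invariant subspaces: zero, the constant functions, the functions with coordinate sum zero, and everything. -/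
theorem result {α : Type*} [Fintype α] [DecidableEq α] (hα : 5 ≤ Fintype.card α) {K : Type*} [Field K] (W : Subrepresentation (Cfsg.permRep K (alternatingGroup α) α)) : W.toSubmodule = ⊥ ∨ W = Cfsg.permConstants K (alternatingGroup α) α ∨ W = Cfsg.permSumZero K (alternatingGroup α) α ∨ W.toSubmodule = ⊤ := by
  exact main hα W

end Cfsg.Agent.S0714
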