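import Cfsg.Statements.S0722
import Mathlib
import Cfsg.Agent.Lib.Helper1.Misc

set_option autoImplicit false
open Cfsg

namespace Cfsg.Agent.S0722

/-- In a primitive group `H`, with `N` a minimal normal subgroup and `K` a point stabiliser, `K ⊓ N` is maximal among proper `K`-invariant subgroups of `N`. -/
theorem result {α : Type*} [Finite α] (H : Subgroup (Equiv.Perm α)) [MulAction.IsPreprimitive H α] (N : Subgroup H) [N.Normal] (hN : N ≠ ⊥) (hmin : ∀ M : Subgroup H, M.Normal → M ≤ N → M = ⊥ ∨ M = N) (a : α) (X : Subgroup H) (hX : X ≤ N) (hKX : MulAction.stabilizer H a ⊓ N ≤ X) (hinv : MulAction.stabilizer H a ≤ Subgroup.normalizer (X : Set H)) : X = MulAction.stabilizer H a ⊓ N ∨ X = N := by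
  haveI : Nontrivial α := by
    by_contra hnt
    rw [not_nontrivial_iff_subsingleton] at hnt
    apply hN
    rw [eq_bot_iff]
    intro n _
    rw [Subgroup.mem_bot]
    apply Subtype.ext
    exact Subsingleton.elim _ _
  have hK := MulAction.IsPreprimitive.isCoatom_stabilizer_of_isPreprimitive (G := H) a
  rcases eq_or_lt_of_le (le_sup_left : MulAction.stabilizer H a ≤ MulAction.stabilizer H a ⊔ X)
    with h | h
  · left
    apply le_antisymm _ hKX
    exact le_inf (by rw [h]; exact le_sup_right) hX
  · right
    have htop := hK.2 _ h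
    apply le_antisymm hX
    intro n hn
    have hmem : n ∈ MulAction.stabilizer H a ⊔ X := by rw [htop]; trivial
    open Cfsg.Agent.Lib.Helper1 in
    obtain ⟨k, hk, x, hx, e⟩ := exists_mul_of_mem_sup_normalizer hinv hmem
    have hkN : k ∈ N := by
      have e' : k = n * x⁻¹ := by rw [e]; group
      rw [e']
      exact N.mul_mem hn (N.inv_mem (hX hx))
    rw [e]
    exact X.mul_mem (hKX ⟨hk, hkN⟩) hx
end Cfsg.Agent.S0722
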