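import Cfsg.Statements.S0724
import Mathlib


set_option autoImplicit false
open Cfsg

namespace Cfsg.Agent.S0724

theorem sum_pow_fix {α : Type*} [Fintype α] [DecidableEq α] (G : Subgroup (Equiv.Perm α))
    [Fintype G] (k : ℕ) : ∃ m : ℕ, ∑ g : G, (Nat.card (MulAction.fixedBy α (g : Equiv.Perm α))) ^ k =
      m * Nat.card G := by
  classical
  haveI : Fintype (Quotient (MulAction.orbitRel G (Fin k → α))) := Fintype.ofFinite _
  have h := MulAction.sum_card_fixedBy_eq_card_orbits_mul_card_group G (Fin k → α)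
  refine ⟨Fintype.card (Quotient (MulAction.orbitRel G (Fin k → α))), ?_⟩
  rw [Nat.card_eq_fintype_card (α := G)]
  refine Eq.trans ?_ h
  apply Finset.sum_congr rfl
  intro g _
  rw [← Nat.card_eq_fintype_card]
  have e : Nat.card (Fin k → MulAction.fixedBy α (g : Equiv.Perm α)) =
      (Nat.card (MulAction.fixedBy α (g : Equiv.Perm α))) ^ k := by
    rw [Nat.card_fun, Nat.card_fin]
  rw [← e]
  apply Nat.card_congr
  exact
    { toFun := fun f => ⟨fun i => (f i).1, by
        funext i
        exact (f i).2⟩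
      invFun := fun f => fun i => ⟨f.1 i, congrFun f.2 i⟩
      left_inv := fun f => rfl
      right_inv := fun f => rfl }

/-- Blichfeldt's Theorem: if a finite set `L` of natural numbers contains the number of fixed points of every non-identity element of a permutation group `G` of degree `n`, then the order of `G` divides `∏ (n - l)` over `l ∈ L`. -/
theorem result {α : Type*} [Fintype α] [DecidableEq α] (G : Subgroup (Equiv.Perm α)) (L : Finset ℕ) (hL : ∀ g ∈ G, g ≠ 1 → Nat.card (MulAction.fixedBy α g) ∈ L) : Nat.card G ∣ ∏ l ∈ L, (Fintype.card α - l) := by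
  classical
  obtain ⟨P, hP⟩ : ∃ P : Polynomial ℤ, P = ∏ l ∈ L, (Polynomial.X - Polynomial.C (l : ℤ)) :=
    ⟨_, rfl⟩
  have heval : ∀ x : ℤ, P.eval x = ∏ l ∈ L, (x - (l : ℤ)) := by
    intro x
    rw [hP, Polynomial.eval_prod]
    apply Finset.prod_congr rfl
    intro l _
    simp
  have hsum : ((Nat.card G : ℕ) : ℤ) ∣ ∑ g : G,
      P.eval ((Nat.card (MulAction.fixedBy α (g : Equiv.Perm α)) : ℕ) : ℤ) := by
    simp_rw [Polynomial.eval_eq_sum_range]
    rw [Finset.sum_comm]
    apply Finset.dvd_sum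
    intro i _
    rw [← Finset.mul_sum]
    apply Dvd.dvd.mul_left
    obtain ⟨m, hm⟩ := sum_pow_fix G i
    have h1 : ∑ g : G, ((Nat.card (MulAction.fixedBy α (g : Equiv.Perm α)) : ℕ) : ℤ) ^ i =
        ((m * Nat.card G : ℕ) : ℤ) := by
      rw [← hm]; push_cast; rfl
    rw [h1]; push_cast; exact dvd_mul_left _ _
  have hsum2 : ∑ g : G, P.eval ((Nat.card (MulAction.fixedBy α (g : Equiv.Perm α)) : ℕ) : ℤ) =
      ∏ l ∈ L, ((Fintype.card α : ℤ) - (l : ℤ)) := by
    rw [Finset.sum_eq_single (1 : G)]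
    · rw [heval]
      have h1 : Nat.card (MulAction.fixedBy α (((1 : G) : Equiv.Perm α))) = Fintype.card α := by
        rw [Subgroup.coe_one, MulAction.fixedBy_one_eq_univ, Nat.card_congr (Equiv.Set.univ α),
          Nat.card_eq_fintype_card]
      rw [h1]
    · intro g _ hg
      rw [heval]
      have hg' : (g : Equiv.Perm α) ≠ 1 := fun h => hg (Subtype.ext h)
      exact Finset.prod_eq_zero (hL g g.2 hg') (sub_self _)
    · intro h; exact absurd (Finset.mem_univ _) h
  rw [hsum2] at hsum
  by_cases hle : ∀ l ∈ L, l ≤ Fintype.card α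
  · have h3 : ((∏ l ∈ L, (Fintype.card α - l) : ℕ) : ℤ) =
        ∏ l ∈ L, ((Fintype.card α : ℤ) - (l : ℤ)) := by
      rw [Nat.cast_prod]
      apply Finset.prod_congr rfl
      intro l hl
      rw [Nat.cast_sub (hle l hl)]
    rw [← h3] at hsum
    exact Int.natCast_dvd_natCast.1 hsum
  · push Not at hle
    obtain ⟨l, hl, hlt⟩ := hle
    have h4 : ∏ l ∈ L, (Fintype.card α - l) = 0 := Finset.prod_eq_zero hl (by omega)
    rw [h4]; exact dvd_zero _
end Cfsg.Agent.S0724
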