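import Cfsg.Statements.S0726
import Mathlib
import Cfsg.Agent.Lib.Helper1.PermCent

set_option autoImplicit false
open Cfsg

namespace Cfsg.Agent.S0726

/-- The left and right regular permutation representations of a group are each other's centralisers in the symmetric group: the centraliser of the left regular image is the right regular image, and a transitive subgroup centralising the left regular image is the whole right regular image. -/
theorem result {G : Type*} [Group G] : Subgroup.centralizer ((MulAction.toPermHom G G).range : Set (Equiv.Perm G)) = (MulAction.toPermHom Gᵐᵒᵖ G).range ∧ ∀ H : Subgroup (Equiv.Perm G), H ≤ Subgroup.centralizer ((MulAction.toPermHom G G).range : Set (Equiv.Perm G)) → MulAction.IsPretransitive H G → H = (MulAction.toPermHom Gᵐᵒᵖ G).range := by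
  have hL : ∀ a b : G, ∃ t ∈ (MulAction.toPermHom G G).range, t a = b := by
    intro a b
    refine ⟨MulAction.toPermHom G G (b * a⁻¹), ⟨_, rfl⟩, ?_⟩
    simp
  have hR : ∀ a b : G, ∃ t ∈ (MulAction.toPermHom Gᵐᵒᵖ G).range, t a = b := by
    intro a b
    refine ⟨MulAction.toPermHom Gᵐᵒᵖ G (MulOpposite.op (a⁻¹ * b)), ⟨_, rfl⟩, ?_⟩
    simp
  have hRL : (MulAction.toPermHom Gᵐᵒᵖ G).range ≤
      Subgroup.centralizer ((MulAction.toPermHom G G).range : Set (Equiv.Perm G)) := by
    rintro _ ⟨r, rfl⟩
    rw [Subgroup.mem_centralizer_iff]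
    rintro _ ⟨g, rfl⟩
    ext x
    simp [mul_assoc]
  open Cfsg.Agent.Lib.Helper1 in
  have hC := centralizer_eq_of_transitive _ _ hL hR hRL
  refine ⟨hC, ?_⟩
  intro H hH hHt
  have hHt' : ∀ a b : G, ∃ t ∈ H, t a = b := by
    intro a b
    obtain ⟨h, hh⟩ := MulAction.exists_smul_eq H a b
    exact ⟨h, h.2, hh⟩
  open Cfsg.Agent.Lib.Helper1 in
  have hC2 := centralizer_eq_of_transitive _ _ hL hHt' hH
  rw [← hC2, hC]
end Cfsg.Agent.S0726
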