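import Cfsg.Statements.S0728
import Mathlib

set_option autoImplicit false
open Cfsg

namespace Cfsg.Agent.S0728

theorem fin01 : (0 : Fin 3) ≠ 1 := by decide

theorem inj3 {α : Type*} (x y z : α) (hxy : x ≠ y) (hxz : x ≠ z) (hyz : y ≠ z) :
    Function.Injective ![x, y, z] := by
  have key : ∀ (i j : Fin 3), ![x, y, z] i = ![x, y, z] j → i = j := by
    intro i j
    fin_cases i <;> fin_cases j <;> intro h
    · rfl
    · exact absurd h hxy
    · exact absurd h hxz
    · exact absurd h.symm hxy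
    · rfl
    · exact absurd h hyz
    · exact absurd h.symm hxz
    · exact absurd h.symm hyz
    · rfl
  intro i j h
  exact key i j h

theorem emb3 {α : Type*} (x y z : α) (hxy : x ≠ y) (hxz : x ≠ z) (hyz : y ≠ z) :
    ∃ w : Fin 3 ↪ α, w 0 = x ∧ w 1 = y ∧ w 2 = z :=
  ⟨⟨![x, y, z], inj3 x y z hxy hxz hyz⟩, rfl, rfl, rfl⟩

theorem forall3 (P : Fin 3 → Prop) (h0 : P 0) (h1 : P 1) (h2 : P 2) : ∀ i, P i := by
  intro i
  fin_cases i
  · exact h0
  · exact h1
  · exact h2

theorem cube_of_mem {G : Type*} [Group G] (A : Subgroup G) (hA3 : Nat.card A = 3) (x : G)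
    (hx : x ∈ A) : x * x * x = 1 := by
  have h := pow_card_eq_one' (G := ↥A) (x := ⟨x, hx⟩)
  rw [hA3] at h
  have h' := congrArg Subtype.val h
  rw [Subgroup.coe_pow] at h'
  have h'' : x ^ 3 = 1 := h'
  rw [pow_succ, pow_two] at h''
  exact h''

theorem main {α : Type*} [Fintype α] [DecidableEq α] {G : Type*} [Group G] [MulAction G α]
    (hcard : 3 ≤ Fintype.card α)
    (h3 : MulAction.IsMultiplyPretransitive G α 3)
    (hsharp : ∀ x : Fin 3 ↪ α, MulAction.stabilizer G x = ⊥) {a b : α} (hab : a ≠ b)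
    (c : Fin 3 → G) (hc : Function.Injective c)
    (hP : ∀ i, c i ≠ 1 ∧ c i * c i * c i = 1 ∧ c i • a = a ∧ c i • b = b) : False := by
  classical
  haveI := h3
  obtain ⟨c0, hc0a, hc0b⟩ : ∃ c0 : α, c0 ≠ a ∧ c0 ≠ b := by
    by_contra hcon
    push Not at hcon
    have hsub : (Finset.univ : Finset α) ⊆ {a, b} := by
      intro x _
      rw [Finset.mem_insert, Finset.mem_singleton]
      by_cases hx : x = a
      · exact Or.inl hx
      · exact Or.inr (hcon x hx)
    have h1 : Fintype.card α ≤ 2 :=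
      calc Fintype.card α = (Finset.univ : Finset α).card := Finset.card_univ.symm
        _ ≤ ({a, b} : Finset α).card := Finset.card_le_card hsub
        _ ≤ 2 := Finset.card_le_two
    omega
  have Sh : ∀ (g : G) (w : Fin 3 ↪ α), (∀ i, g • w i = w i) → g = 1 := by
    intro g w hw
    have hmem : g ∈ MulAction.stabilizer G w := by
      rw [MulAction.mem_stabilizer_iff]
      apply DFunLike.ext
      intro i
      rw [Function.Embedding.smul_apply]
      exact hw i
    rw [hsharp w] at hmem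
    exact Subgroup.mem_bot.1 hmem
  have Sh2 : ∀ (g : G) (x y z : α), x ≠ y → x ≠ z → y ≠ z → g • x = x → g • y = y →
      g • z = z → g = 1 := by
    intro g x y z hxy hxz hyz hx hy hz
    obtain ⟨w, h0, h1, h2⟩ := emb3 x y z hxy hxz hyz
    apply Sh g w
    refine forall3 (fun i => g • w i = w i) ?_ ?_ ?_
    · show g • w 0 = w 0
      rw [h0]
      exact hx
    · show g • w 1 = w 1
      rw [h1]
      exact hy
    · show g • w 2 = w 2
      rw [h2]
      exact hz
  obtain ⟨s0, hs0, hs1, hs2⟩ := emb3 a b c0 hab hc0a.symm hc0b.symm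
  choose k hk using fun t : Fin 3 ↪ α => MulAction.exists_smul_eq G s0 t
  have hk0 : ∀ t, k t • a = t 0 := by
    intro t
    have h := DFunLike.congr_fun (hk t) 0
    rw [Function.Embedding.smul_apply, hs0] at h
    exact h
  have hk1 : ∀ t, k t • b = t 1 := by
    intro t
    have h := DFunLike.congr_fun (hk t) 1
    rw [Function.Embedding.smul_apply, hs1] at h
    exact h
  have hk2 : ∀ t, k t • c0 = t 2 := by
    intro t
    have h := DFunLike.congr_fun (hk t) 2
    rw [Function.Embedding.smul_apply, hs2] at h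
    exact h
  have hmv : ∀ i, c i • c0 ≠ c0 := by
    intro i h
    exact (hP i).1 (Sh2 (c i) a b c0 hab hc0a.symm hc0b.symm (hP i).2.2.1 (hP i).2.2.2 h)
  have hmv2 : ∀ i, c i • c i • c0 ≠ c0 := by
    intro i h
    have h1 : c i * c i = 1 := by
      apply Sh2 (c i * c i) a b c0 hab hc0a.symm hc0b.symm
      · rw [mul_smul, (hP i).2.2.1, (hP i).2.2.1]
      · rw [mul_smul, (hP i).2.2.2, (hP i).2.2.2]
      · rw [mul_smul]
        exact h
    have h2 := (hP i).2.1
    rw [h1, one_mul] at h2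
    exact (hP i).1 h2
  have hu : ∀ i, ∃ u : Fin 3 ↪ α, u 0 = c0 ∧ u 1 = c i • c0 ∧ u 2 = c i • c i • c0 := by
    intro i
    apply emb3
    · exact (hmv i).symm
    · exact (hmv2 i).symm
    · intro h
      exact hmv i (smul_left_cancel (c i) h).symm
  choose u hu0 hu1 hu2 using hu
  have hc3smul : ∀ (i : Fin 3) (x : α), c i • c i • c i • x = x := by
    intro i x
    rw [smul_smul, smul_smul, (hP i).2.1, one_smul]
  have hconj : ∀ (t : Fin 3 ↪ α) (i : Fin 3) (x : α),
      (k t * c i * (k t)⁻¹) • (k t • x) = k t • c i • x := by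
    intro t i x
    rw [mul_smul, mul_smul, inv_smul_smul]
  have hcyc : ∀ (t : Fin 3 ↪ α) (i : Fin 3),
      (k t * c i * (k t)⁻¹) • (k t • u i) 0 = (k t • u i) 1 ∧
      (k t * c i * (k t)⁻¹) • (k t • u i) 1 = (k t • u i) 2 ∧
      (k t * c i * (k t)⁻¹) • (k t • u i) 2 = (k t • u i) 0 := by
    intro t i
    refine ⟨?_, ?_, ?_⟩
    · rw [Function.Embedding.smul_apply, Function.Embedding.smul_apply, hconj, hu0, hu1]
    · rw [Function.Embedding.smul_apply, Function.Embedding.smul_apply, hconj, hu1, hu2]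
    · rw [Function.Embedding.smul_apply, Function.Embedding.smul_apply, hconj, hu2, hu0,
        hc3smul]
  have hfix0 : ∀ (t : Fin 3 ↪ α) (i : Fin 3), (k t * c i * (k t)⁻¹) • t 0 = t 0 := by
    intro t i
    rw [← hk0 t, hconj, (hP i).2.2.1]
  have hfix1 : ∀ (t : Fin 3 ↪ α) (i : Fin 3), (k t * c i * (k t)⁻¹) • t 1 = t 1 := by
    intro t i
    rw [← hk1 t, hconj, (hP i).2.2.2]
  have hne1 : ∀ (t : Fin 3 ↪ α) (i : Fin 3), k t * c i * (k t)⁻¹ ≠ 1 :=
    fun t i h => (hP i).1 (conj_eq_one_iff.1 h)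
  have L : ∀ d d' : Fin 3 × (Fin 3 ↪ α), k d.2 • u d.1 = k d'.2 • u d'.1 → d ≠ d' →
      d'.2 0 = d.2 1 := by
    rintro ⟨i, t⟩ ⟨j, t'⟩ hw hne
    show t' 0 = t 1
    have hw' : k t • u i = k t' • u j := hw
    obtain ⟨c1, c2, c3⟩ := hcyc t i
    obtain ⟨c1', c2', c3'⟩ := hcyc t' j
    rw [← hw'] at c1' c2' c3'
    have hgg : (k t * c i * (k t)⁻¹)⁻¹ * (k t' * c j * (k t')⁻¹) = 1 := by
      apply Sh _ (k t • u i)
      refine forall3 (fun m => ((k t * c i * (k t)⁻¹)⁻¹ * (k t' * c j * (k t')⁻¹))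
        • (k t • u i) m = (k t • u i) m) ?_ ?_ ?_
      · show ((k t * c i * (k t)⁻¹)⁻¹ * (k t' * c j * (k t')⁻¹)) • (k t • u i) 0
          = (k t • u i) 0
        rw [mul_smul, c1', ← c1, inv_smul_smul]
      · show ((k t * c i * (k t)⁻¹)⁻¹ * (k t' * c j * (k t')⁻¹)) • (k t • u i) 1
          = (k t • u i) 1
        rw [mul_smul, c2', ← c2, inv_smul_smul]
      · show ((k t * c i * (k t)⁻¹)⁻¹ * (k t' * c j * (k t')⁻¹)) • (k t • u i) 2
          = (k t • u i) 2
        rw [mul_smul, c3', ← c3, inv_smul_smul]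
    have hgeq : k t' * c j * (k t')⁻¹ = k t * c i * (k t)⁻¹ := (inv_mul_eq_one.1 hgg).symm
    have f0 := hfix0 t i
    have f1 := hfix1 t i
    have f0' := hfix0 t' j
    have f1' := hfix1 t' j
    rw [hgeq] at f0' f1'
    have hg1 := hne1 t i
    have t01 : t 0 ≠ t 1 := fun h => fin01 (t.injective h)
    have t01' : t' 0 ≠ t' 1 := fun h => fin01 (t'.injective h)
    by_contra hcon
    have e0 : t' 0 = t 0 := by
      by_contra h0
      exact hg1 (Sh2 _ (t 0) (t 1) (t' 0) t01 (fun h => h0 h.symm) (fun h => hcon h.symm)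
        f0 f1 f0')
    have e1 : t' 1 = t 1 := by
      by_contra h1
      have h10 : t 0 ≠ t' 1 := by
        rw [← e0]
        exact t01'
      exact hg1 (Sh2 _ (t 0) (t 1) (t' 1) t01 h10 (fun h => h1 h.symm) f0 f1 f1')
    have e2 : t' 2 = t 2 := by
      have h := DFunLike.congr_fun hw' 0
      rw [Function.Embedding.smul_apply, Function.Embedding.smul_apply, hu0, hu0, hk2, hk2] at h
      exact h.symm
    have ett : t' = t := DFunLike.ext _ _ (forall3 (fun x => t' x = t x) e0 e1 e2)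
    subst ett
    have hij : c j = c i := mul_left_cancel (mul_right_cancel hgeq)
    apply hne
    rw [hc hij]
  have hfib : ∀ w ∈ (Finset.univ : Finset (Fin 3 × (Fin 3 ↪ α))).image
      (fun d => k d.2 • u d.1),
      ((Finset.univ : Finset (Fin 3 × (Fin 3 ↪ α))).filter
        (fun d => k d.2 • u d.1 = w)).card ≤ 2 := by
    intro w _
    by_contra hgt
    push Not at hgt
    obtain ⟨d1, d2, d3, h1, h2, h3', h12, h13, h23⟩ := Finset.two_lt_card_iff.1 hgt
    rw [Finset.mem_filter] at h1 h2 h3'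
    have e12 := L d1 d2 (h1.2.trans h2.2.symm) h12
    have e13 := L d1 d3 (h1.2.trans h3'.2.symm) h13
    have e23 := L d2 d3 (h2.2.trans h3'.2.symm) h23
    have e21 := L d2 d1 (h2.2.trans h1.2.symm) h12.symm
    have hbad : d1.2 0 = d1.2 1 := by rw [e21, ← e23, e13]
    exact fin01 (d1.2.injective hbad)
  have hcount := Finset.card_le_mul_card_image
    (Finset.univ : Finset (Fin 3 × (Fin 3 ↪ α))) 2 hfib
  have himg : ((Finset.univ : Finset (Fin 3 × (Fin 3 ↪ α))).image
      (fun d => k d.2 • u d.1)).card ≤ Fintype.card (Fin 3 ↪ α) := Finset.card_le_univ _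
  rw [Finset.card_univ, Fintype.card_prod, Fintype.card_fin] at hcount
  have hpos : 0 < Fintype.card (Fin 3 ↪ α) := Fintype.card_pos_iff.2 ⟨s0⟩
  omega

/-- In a sharply triply transitive group of even degree at least 6 (degree `q + 1`, `q` odd), a two-point stabiliser has at most one subgroup of order 3. -/
theorem result {α : Type*} [Fintype α] [DecidableEq α] (heven : Even (Fintype.card α)) (h6 : 6 ≤ Fintype.card α) (G : Subgroup (Equiv.Perm α)) (h3 : MulAction.IsMultiplyPretransitive G α 3) (hsharp : ∀ x : Fin 3 ↪ α, MulAction.stabilizer G x = ⊥) {a b : α} (hab : a ≠ b) (A B : Subgroup G) (hA : A ≤ MulAction.stabilizer G a ⊓ MulAction.stabilizer G b) (hB : B ≤ MulAction.stabilizer G a ⊓ MulAction.stabilizer G b) (hA3 : Nat.card A = 3) (hB3 : Nat.card B = 3) : A = B := by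
  by_contra hne
  have hnle : ¬ B ≤ A := fun hle =>
    hne (Subgroup.eq_of_le_of_card_ge hle (by rw [hA3, hB3])).symm
  obtain ⟨h, hhB, hhA⟩ := SetLike.not_le_iff_exists.1 hnle
  have hAne : A ≠ ⊥ := by
    intro h0
    rw [h0, Subgroup.card_bot] at hA3
    omega
  have hex : ¬ ∀ x ∈ A, x = 1 := fun hall => hAne ((Subgroup.eq_bot_iff_forall A).2 hall)
  push Not at hex
  obtain ⟨g, hgA, hg1⟩ := hex
  have hg3 := cube_of_mem A hA3 g hgA
  have hgi3 := cube_of_mem A hA3 g⁻¹ (A.inv_mem hgA)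
  have hh3 := cube_of_mem B hB3 h hhB
  have hh1 : h ≠ 1 := by
    intro h0
    apply hhA
    rw [h0]
    exact A.one_mem
  have hggi : g ≠ g⁻¹ := by
    intro hgi
    have h2 : g * g = 1 := by
      nth_rewrite 2 [hgi]
      exact mul_inv_cancel g
    rw [h2, one_mul] at hg3
    exact hg1 hg3
  have hgh : g ≠ h := by
    intro e
    apply hhA
    rw [← e]
    exact hgA
  have hgih : g⁻¹ ≠ h := by
    intro e
    apply hhA
    rw [← e]
    exact A.inv_mem hgA
  have stA : ∀ x ∈ A, x • a = a ∧ x • b = b := by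
    intro x hx
    have hx' := hA hx
    exact ⟨MulAction.mem_stabilizer_iff.1 hx'.1, MulAction.mem_stabilizer_iff.1 hx'.2⟩
  have stB : ∀ x ∈ B, x • a = a ∧ x • b = b := by
    intro x hx
    have hx' := hB hx
    exact ⟨MulAction.mem_stabilizer_iff.1 hx'.1, MulAction.mem_stabilizer_iff.1 hx'.2⟩
  refine main (G := ↥G) (by omega) h3 hsharp hab ![g, g⁻¹, h] (inj3 g g⁻¹ h hggi hgh hgih) ?_
  refine forall3 (fun i => ![g, g⁻¹, h] i ≠ 1 ∧ ![g, g⁻¹, h] i * ![g, g⁻¹, h] i * ![g, g⁻¹, h] i = 1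
    ∧ ![g, g⁻¹, h] i • a = a ∧ ![g, g⁻¹, h] i • b = b) ?_ ?_ ?_
  · exact ⟨hg1, hg3, (stA g hgA).1, (stA g hgA).2⟩
  · exact ⟨inv_ne_one.2 hg1, hgi3, (stA g⁻¹ (A.inv_mem hgA)).1, (stA g⁻¹ (A.inv_mem hgA)).2⟩
  · exact ⟨hh1, hh3, (stB h hhB).1, (stB h hhB).2⟩

end Cfsg.Agent.S0728
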