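import Cfsg.Statements.S0733
import Mathlib
-- import your own Cfsg.Agent.* helpers here

set_option autoImplicit false
open Cfsg

namespace Cfsg.Agent.S0733


open scoped Pointwise

/-- A permutation group of affine type — generated by the translations of a finite vector space `V` over `ZMod p` together with a group `G₀` of linear automorphisms — is primitive on `V` if and only if `G₀` is irreducible on `V`. -/
theorem result {p : ℕ} [Fact p.Prime] {V : Type*} [AddCommGroup V] [Module (ZMod p) V] [Finite V] [Nontrivial V] (G₀ : Subgroup (V ≃ₗ[ZMod p] V)) (G : Subgroup (Equiv.Perm V)) (hG : ∀ σ : Equiv.Perm V, σ ∈ G ↔ ∃ g ∈ G₀, ∃ b : V, ∀ x : V, σ x = (g : V ≃ₗ[ZMod p] V) x + b) : MulAction.IsPreprimitive G V ↔ ∀ W : Submodule (ZMod p) V, (∀ g ∈ G₀, ∀ v ∈ W, (g : V ≃ₗ[ZMod p] V) v ∈ W) → W = ⊥ ∨ W = ⊤ := by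
  classical
  have htr : ∀ b : V, ∃ σ : G, ∀ x : V, σ • x = x + b := by
    intro b
    refine ⟨⟨Equiv.addRight b, (hG _).mpr ⟨1, G₀.one_mem, b, fun x => rfl⟩⟩, fun x => rfl⟩
  have hlin : ∀ g ∈ G₀, ∃ σ : G, ∀ x : V, σ • x = (g : V ≃ₗ[ZMod p] V) x := by
    intro g hg
    refine ⟨⟨(g : V ≃ₗ[ZMod p] V).toEquiv, (hG _).mpr ⟨g, hg, 0, fun x => by simp⟩⟩, fun x => rfl⟩
  constructor
  · intro hprim W hW
    have hblock : MulAction.IsBlock G (W : Set V) := by
      rw [MulAction.isBlock_iff_smul_eq_of_mem]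
      intro σ a ha hσa
      obtain ⟨g, hg, b, hgb⟩ := (hG σ.1).mp σ.2
      have hb : b ∈ W := by
        have h1 : σ • a = g a + b := hgb a
        rw [h1] at hσa
        have h2 := W.sub_mem hσa (hW g hg a ha)
        simpa using h2
      ext v
      rw [Set.mem_smul_set]
      constructor
      · rintro ⟨u, hu, rfl⟩
        show σ.1 u ∈ W
        rw [hgb u]
        exact W.add_mem (hW g hg u hu) hb
      · intro hv
        refine ⟨g⁻¹ (v - b), hW g⁻¹ (G₀.inv_mem hg) _ (W.sub_mem hv hb), ?_⟩
        show σ.1 (g⁻¹ (v - b)) = v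
        rw [hgb]
        have h3 : g (g⁻¹ (v - b)) = v - b := by
          rw [← LinearEquiv.mul_apply, mul_inv_cancel]
          rfl
        rw [h3]
        abel
    rcases hprim.isTrivialBlock_of_isBlock hblock with h | h
    · left
      rw [eq_bot_iff]
      intro v hv
      rw [Submodule.mem_bot]
      exact h hv W.zero_mem
    · right
      rw [eq_top_iff]
      intro v _
      have h4 : v ∈ (W : Set V) := by
        rw [h]
        trivial
      exact h4
  · intro hirr
    haveI : MulAction.IsPretransitive G V := ⟨fun x y => by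
      obtain ⟨σ, hσ⟩ := htr (y - x)
      exact ⟨σ, by rw [hσ]; abel⟩⟩
    refine ⟨fun {B} hB => ?_⟩
    rcases B.eq_empty_or_nonempty with rfl | ⟨x₀, hx₀⟩
    · left
      exact Set.subsingleton_empty
    obtain ⟨τ, hτ⟩ := htr (-x₀)
    have hB' : MulAction.IsBlock G (τ • B) := hB.translate τ
    rw [← MulAction.IsTrivialBlock.smul_iff τ]
    have h0 : (0 : V) ∈ τ • B := ⟨x₀, hx₀, by
      show τ • x₀ = 0
      rw [hτ]
      abel⟩
    generalize τ • B = B' at hB' h0
    have hadd : ∀ u ∈ B', ∀ v ∈ B', u + v ∈ B' := by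
      intro u hu v hv
      obtain ⟨σ, hσ⟩ := htr v
      have h1 : σ • B' = B' := hB'.smul_eq_of_mem h0 (by rw [hσ]; simpa using hv)
      have h2 : σ • u ∈ σ • B' := Set.smul_mem_smul_set hu
      rw [h1, hσ] at h2
      exact h2
    have hneg : ∀ v ∈ B', -v ∈ B' := by
      intro v hv
      obtain ⟨σ, hσ⟩ := htr (-v)
      have h1 : σ • B' = B' := hB'.smul_eq_of_mem hv (by rw [hσ]; simpa using h0)
      have h2 : σ • (0 : V) ∈ σ • B' := Set.smul_mem_smul_set h0
      rw [h1, hσ] at h2
      simpa using h2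
    let W : Submodule (ZMod p) V := AddSubgroup.toZModSubmodule p
      { carrier := B'
        add_mem' := fun hu hv => hadd _ hu _ hv
        zero_mem' := h0
        neg_mem' := fun hv => hneg _ hv }
    have hWmem : ∀ v : V, v ∈ W ↔ v ∈ B' := fun v => Iff.rfl
    have hWinv : ∀ g ∈ G₀, ∀ v ∈ W, (g : V ≃ₗ[ZMod p] V) v ∈ W := by
      intro g hg v hv
      obtain ⟨σ, hσ⟩ := hlin g hg
      have h1 : σ • B' = B' := hB'.smul_eq_of_mem h0 (by rw [hσ]; simpa using h0)
      have h2 : σ • v ∈ σ • B' := Set.smul_mem_smul_set ((hWmem v).mp hv)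
      rw [h1, hσ] at h2
      exact (hWmem _).mpr h2
    rcases hirr W hWinv with h | h
    · left
      have hz : ∀ v ∈ B', v = 0 := by
        intro v hv
        have h5 : v ∈ W := (hWmem v).mpr hv
        rw [h] at h5
        exact (Submodule.mem_bot _).mp h5
      intro a ha b hb
      rw [hz a ha, hz b hb]
    · right
      apply Set.eq_univ_of_forall
      intro v
      have h5 : v ∈ W := by
        rw [h]
        trivial
      exact (hWmem v).mp h5

end Cfsg.Agent.S0733
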