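import Cfsg.Statements.S0734
import Mathlib
-- import your own Cfsg.Agent.* helpers here

set_option autoImplicit false
open Cfsg

namespace Cfsg.Agent.S0734


open scoped Pointwise

/-- Higman's criterion for primitivity: a transitive action on a finite set is primitive if and only if every non-trivial orbital graph (edges = images of a fixed pair of distinct points) is connected. -/
theorem result {G : Type*} [Group G] {Ω : Type*} [Finite Ω] [MulAction G Ω] [MulAction.IsPretransitive G Ω] [Nontrivial Ω] : MulAction.IsPreprimitive G Ω ↔ ∀ a b : Ω, a ≠ b → (SimpleGraph.fromRel fun x y : Ω => ∃ g : G, g • a = x ∧ g • b = y).Connected := by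
  classical
  constructor
  · intro hprim a b hab
    obtain ⟨Γ, hΓ⟩ : ∃ Γ : SimpleGraph Ω,
        Γ = SimpleGraph.fromRel fun x y : Ω => ∃ g : G, g • a = x ∧ g • b = y := ⟨_, rfl⟩
    rw [← hΓ]
    have hadj : ∀ (g : G) (x y : Ω), Γ.Adj x y → Γ.Adj (g • x) (g • y) := by
      intro g x y h
      rw [hΓ, SimpleGraph.fromRel_adj] at h ⊢
      obtain ⟨hne, h | h⟩ := h
      · obtain ⟨k, rfl, rfl⟩ := h
        exact ⟨fun e => hne (smul_left_cancel g e),
          Or.inl ⟨g * k, mul_smul _ _ _, mul_smul _ _ _⟩⟩
      · obtain ⟨k, rfl, rfl⟩ := h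
        exact ⟨fun e => hne (smul_left_cancel g e),
          Or.inr ⟨g * k, mul_smul _ _ _, mul_smul _ _ _⟩⟩
    have hreach : ∀ (g : G) (x y : Ω), Γ.Reachable x y → Γ.Reachable (g • x) (g • y) := by
      intro g x y h
      let f : Γ →g Γ := ⟨fun z => g • z, fun {u v} huv => hadj g u v huv⟩
      exact h.map f
    obtain ⟨C, hC⟩ : ∃ C : Set Ω, C = {x | Γ.Reachable a x} := ⟨_, rfl⟩
    have hCmem : ∀ x, x ∈ C ↔ Γ.Reachable a x := by intro x; rw [hC]; rfl
    have hblock : MulAction.IsBlock G C := by
      rw [MulAction.isBlock_iff_smul_eq_of_mem]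
      intro g x hx hgx
      rw [hCmem] at hx hgx
      have h1 : Γ.Reachable a (g • a) := hgx.trans (hreach g a x hx).symm
      ext y
      rw [Set.mem_smul_set_iff_inv_smul_mem, hCmem, hCmem]
      constructor
      · intro h
        have := hreach g _ _ h
        rw [smul_inv_smul] at this
        exact h1.trans this
      · intro h
        have h2 : Γ.Reachable (g • a) y := h1.symm.trans h
        have := hreach g⁻¹ _ _ h2
        rw [inv_smul_smul] at this
        exact this
    have htriv := hprim.isTrivialBlock_of_isBlock hblock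
    have haC : a ∈ C := (hCmem a).mpr (SimpleGraph.Reachable.refl a)
    have hbC : b ∈ C := by
      rw [hCmem]
      apply SimpleGraph.Adj.reachable
      rw [hΓ, SimpleGraph.fromRel_adj]
      exact ⟨hab, Or.inl ⟨1, one_smul _ _, one_smul _ _⟩⟩
    have hCuniv : C = Set.univ := by
      rcases htriv with h | h
      · exact absurd (h haC hbC) hab
      · exact h
    rw [SimpleGraph.connected_iff]
    refine ⟨?_, ⟨a⟩⟩
    intro x y
    have hx : Γ.Reachable a x := (hCmem x).mp (by rw [hCuniv]; trivial)
    have hy : Γ.Reachable a y := (hCmem y).mp (by rw [hCuniv]; trivial)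
    exact hx.symm.trans hy
  · intro hconn
    refine { toIsPretransitive := inferInstance, isTrivialBlock_of_isBlock := ?_ }
    intro B hB
    by_cases hsub : B.Subsingleton
    · exact Or.inl hsub
    · right
      rw [Set.not_subsingleton_iff] at hsub
      obtain ⟨a, ha, b, hb, hab⟩ := hsub
      have hc := hconn a b hab
      obtain ⟨Γ, hΓ⟩ : ∃ Γ : SimpleGraph Ω,
          Γ = SimpleGraph.fromRel fun x y : Ω => ∃ g : G, g • a = x ∧ g • b = y := ⟨_, rfl⟩
      rw [← hΓ] at hc
      rw [MulAction.isBlock_iff_smul_eq_of_mem] at hB
      have hadjB : ∀ x y : Ω, Γ.Adj x y → (x ∈ B ↔ y ∈ B) := by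
        intro x y h
        rw [hΓ, SimpleGraph.fromRel_adj] at h
        obtain ⟨-, h | h⟩ := h
        · obtain ⟨g, rfl, rfl⟩ := h
          constructor
          · intro hx
            have := hB ha hx
            rw [← this]; exact Set.smul_mem_smul_set hb
          · intro hy
            have := hB hb hy
            rw [← this]; exact Set.smul_mem_smul_set ha
        · obtain ⟨g, rfl, rfl⟩ := h
          constructor
          · intro hx
            have := hB hb hx
            rw [← this]; exact Set.smul_mem_smul_set ha
          · intro hy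
            have := hB ha hy
            rw [← this]; exact Set.smul_mem_smul_set hb
      have hreachB : ∀ x y : Ω, Γ.Reachable x y → (x ∈ B → y ∈ B) := by
        intro x y ⟨w⟩
        induction w with
        | nil => exact id
        | cons h _ ih => intro hx; exact ih ((hadjB _ _ h).mp hx)
      ext y
      simp only [Set.mem_univ, iff_true]
      exact hreachB a y (hc.preconnected a y) ha

end Cfsg.Agent.S0734
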