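import Cfsg.Statements.S0735
import Mathlib
-- import your own Cfsg.Agent.* helpers here

set_option autoImplicit false
open Cfsg

namespace Cfsg.Agent.S0735


open scoped Pointwise

theorem pair_move {α : Type*} [Fintype α] [DecidableEq α] (G : Subgroup (Equiv.Perm α))
    (h2 : MulAction.IsPretransitive G (Set.powersetCard α 2)) (a b c d : α) (hab : a ≠ b)
    (hcd : c ≠ d) :
    ∃ g : G, (g • a = c ∧ g • b = d) ∨ (g • a = d ∧ g • b = c) := by
  obtain ⟨g, hg⟩ := h2.exists_smul_eq
    (⟨{a, b}, Finset.card_pair hab⟩ : Set.powersetCard α 2) ⟨{c, d}, Finset.card_pair hcd⟩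
  have hg' : g • ({a, b} : Finset α) = {c, d} := by
    have h1 := Set.powersetCard.coe_smul (g := g)
      (s := (⟨{a, b}, Finset.card_pair hab⟩ : Set.powersetCard α 2))
    have h3 := congrArg Subtype.val hg
    exact h1.symm.trans h3
  have ha : g • a ∈ ({c, d} : Finset α) := by
    rw [← hg']; exact Finset.smul_mem_smul_finset (by simp)
  have hb : g • b ∈ ({c, d} : Finset α) := by
    rw [← hg']; exact Finset.smul_mem_smul_finset (by simp)
  have hne : g • a ≠ g • b := fun h => hab (smul_left_cancel g h)
  simp only [Finset.mem_insert, Finset.mem_singleton] at ha hb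
  refine ⟨g, ?_⟩
  rcases ha with ha | ha <;> rcases hb with hb | hb
  · exact absurd (ha.trans hb.symm) hne
  · exact Or.inl ⟨ha, hb⟩
  · exact Or.inr ⟨ha, hb⟩
  · exact absurd (ha.trans hb.symm) hne

/-- A 2-homogeneous permutation group (transitive on 2-subsets) of even order is doubly transitive; a non-trivial 2-homogeneous group is primitive. -/
theorem result {α : Type*} [Fintype α] [DecidableEq α] (G : Subgroup (Equiv.Perm α)) (h2 : MulAction.IsPretransitive G (Set.powersetCard α 2)) (hα : 3 ≤ Fintype.card α) : (Even (Nat.card G) → MulAction.IsMultiplyPretransitive G α 2) ∧ (G ≠ ⊥ → MulAction.IsPreprimitive G α) := by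
  classical
  have hpair := pair_move G h2
  constructor
  · intro heven
    haveI : Fact (Nat.Prime 2) := ⟨Nat.prime_two⟩
    obtain ⟨t, ht⟩ := exists_prime_orderOf_dvd_card' (G := G) 2 heven.two_dvd
    have ht1 : t ≠ 1 := by intro h; rw [h, orderOf_one] at ht; omega
    obtain ⟨x, hx⟩ : ∃ x : α, t • x ≠ x := by
      by_contra hcon
      push_neg at hcon
      apply ht1
      apply Subtype.ext
      apply Equiv.ext
      intro x
      exact hcon x
    have ht2 : t • (t • x) = x := by
      rw [← mul_smul, ← pow_two, ← ht, pow_orderOf_eq_one, one_smul]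
    rw [MulAction.is_two_pretransitive_iff]
    intro a b c d hab hcd
    obtain ⟨s₁, hs₁a, hs₁b⟩ : ∃ s : G, s • a = x ∧ s • b = t • x := by
      obtain ⟨g, hg | hg⟩ := hpair a b x (t • x) hab (Ne.symm hx)
      · exact ⟨g, hg⟩
      · exact ⟨t * g, by rw [mul_smul, hg.1, ht2], by rw [mul_smul, hg.2]⟩
    obtain ⟨s₂, hs₂a, hs₂b⟩ : ∃ s : G, s • x = c ∧ s • (t • x) = d := by
      obtain ⟨g, hg | hg⟩ := hpair x (t • x) c d (Ne.symm hx) hcd
      · exact ⟨g, hg⟩
      · exact ⟨g * t, by rw [mul_smul, hg.2], by rw [mul_smul, ht2, hg.1]⟩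
    exact ⟨s₂ * s₁, by rw [mul_smul, hs₁a, hs₂a], by rw [mul_smul, hs₁b, hs₂b]⟩
  · intro _
    have htrans : MulAction.IsPretransitive G α := by
      constructor
      intro a c
      by_cases hac : a = c
      · exact ⟨1, by rw [one_smul, hac]⟩
      · obtain ⟨e, hea, hec⟩ : ∃ e, e ≠ a ∧ e ≠ c := by
          by_contra hcon
          push_neg at hcon
          have hsub : (Finset.univ : Finset α) ⊆ {a, c} := fun e _ => by
            by_cases h : e = a
            · simp [h]
            · simp [hcon e h]
          have h1 := Finset.card_le_card hsub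
          have h2' := Finset.card_le_two (a := a) (b := c)
          rw [Finset.card_univ] at h1
          omega
        by_contra hcon
        push_neg at hcon
        obtain ⟨g₁, hg₁ | hg₁⟩ := hpair a e a c (Ne.symm hea) hac
        · obtain ⟨g₂, hg₂ | hg₂⟩ := hpair a c c e hac (Ne.symm hec)
          · exact hcon g₂ hg₂.1
          · exact hcon (g₁ * g₂) (by rw [mul_smul, hg₂.1, hg₁.2])
        · exact hcon g₁ hg₁.1
    refine { toIsPretransitive := htrans, isTrivialBlock_of_isBlock := ?_ }
    intro B hB
    by_cases hsub : B.Subsingleton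
    · exact Or.inl hsub
    · right
      rw [Set.not_subsingleton_iff] at hsub
      obtain ⟨a, ha, b, hb, hab⟩ := hsub
      rw [MulAction.isBlock_iff_smul_eq_of_mem] at hB
      ext c
      simp only [Set.mem_univ, iff_true]
      by_cases hca : c = a
      · rw [hca]; exact ha
      · obtain ⟨g, hg | hg⟩ := hpair a b a c hab (Ne.symm hca)
        · have hgB : g • B = B := hB ha (by rw [hg.1]; exact ha)
          rw [← hgB, ← hg.2]; exact Set.smul_mem_smul_set hb
        · have hgB : g • B = B := hB hb (by rw [hg.2]; exact ha)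
          rw [← hgB, ← hg.1]; exact Set.smul_mem_smul_set ha

end Cfsg.Agent.S0735
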