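import Cfsg.Statements.S0738
import Mathlib
import Cfsg.Agent.Lib.Helper6.Frobenius
-- import your own Cfsg.Agent.* helpers here

set_option autoImplicit false
open Cfsg

namespace Cfsg.Agent.S0738


theorem card_subtype_subgroup_aux {G : Type*} [Group G] (F : Subgroup G) (P : G → Prop)
    (s : Finset G) (hs : ∀ g, g ∈ s ↔ g ∈ F ∧ P g) : Nat.card {x : F // P (x : G)} = s.card := by
  rw [← Nat.subtype_card s hs]
  exact Nat.card_congr (Equiv.subtypeSubtypeEquivSubtypeInter (fun g => g ∈ F) P)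

/-- Let a finite Zassenhaus group of degree `n + 1` have two-point stabilisers of order `d` with `2d ≥ n - 1`. Then a normal subgroup of a point stabiliser acting regularly on the remaining points is elementary abelian, and the degree is a prime power plus one. -/
theorem result {G Ω : Type*} [Group G] [Finite G] [MulAction G Ω] [Fintype Ω] (hZ : Cfsg.IsZassenhausGroup G Ω) {a b : Ω} (hab : a ≠ b) (hd : Fintype.card Ω - 2 ≤ 2 * Nat.card ↥(MulAction.stabilizer G a ⊓ MulAction.stabilizer G b)) (F : Subgroup G) (hFle : F ≤ MulAction.stabilizer G a) (hFn : (F.subgroupOf (MulAction.stabilizer G a)).Normal) (hreg : ∀ y z : Ω, y ≠ a → z ≠ a → ∃! u : F, (u : G) • y = z) : IsMulCommutative F ∧ ∃ p f : ℕ, p.Prime ∧ (∀ u ∈ F, u ^ p = 1) ∧ Fintype.card Ω = p ^ f + 1 := by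
  classical
  obtain ⟨hfaith, h2t, h3, hex, hN⟩ := hZ
  haveI : Fintype G := Fintype.ofFinite G
  set E : Subgroup G := MulAction.stabilizer G a ⊓ MulAction.stabilizer G b with hE
  have hmemE : ∀ x : G, x ∈ E ↔ x • a = a ∧ x • b = b := by
    intro x
    rw [hE, Subgroup.mem_inf, MulAction.mem_stabilizer_iff, MulAction.mem_stabilizer_iff]
  set EF := Finset.univ.filter (fun x : G => x ∈ E) with hEF
  have hdE : Nat.card E = EF.card :=
    Nat.subtype_card EF (by intro x; rw [hEF, Finset.mem_filter]; simp)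
  rw [hdE] at hd
  set d := EF.card with hd'
  have hdpos : 0 < d := Finset.card_pos.mpr
    ⟨1, by rw [hEF, Finset.mem_filter]; exact ⟨Finset.mem_univ _, Subgroup.one_mem _⟩⟩
  set FF := Finset.univ.filter (fun x : G => x ∈ F) with hFF
  have hnF : Nat.card F = FF.card :=
    Nat.subtype_card FF (by intro x; rw [hFF, Finset.mem_filter]; simp)
  have hFa : ∀ u ∈ F, u • a = a := fun u hu => MulAction.mem_stabilizer_iff.mp (hFle hu)
  have hba : b ≠ a := hab.symm
  have hFcard : Nat.card F + 1 = Fintype.card Ω := by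
    have hbij : Function.Bijective (fun u : F => (⟨(u : G) • b, fun h => hba
        (MulAction.injective (u : G) (h.trans (hFa u u.2).symm))⟩ : {y : Ω // y ≠ a})) := by
      constructor
      · intro u v huv
        have huv' : (u : G) • b = (v : G) • b := congrArg Subtype.val huv
        obtain ⟨w, hw, hwu⟩ := hreg b ((v : G) • b) hba
          (fun h => hba (MulAction.injective (v : G) (h.trans (hFa v v.2).symm)))
        exact (hwu u huv').trans (hwu v rfl).symm
      · intro ⟨z, hz⟩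
        obtain ⟨w, hw, -⟩ := hreg b z hba hz
        exact ⟨w, Subtype.ext hw⟩
    have h5 : Nat.card F = Nat.card {y : Ω // y ≠ a} := Nat.card_congr (Equiv.ofBijective _ hbij)
    have h6 : Nat.card {y : Ω // y ≠ a} = (Finset.univ.erase a).card :=
      Nat.subtype_card _ (by intro x; simp)
    rw [Finset.card_erase_of_mem (Finset.mem_univ a), Finset.card_univ] at h6
    have h7 : 0 < Fintype.card Ω := Fintype.card_pos_iff.mpr ⟨a⟩
    omega
  set n := FF.card with hn
  have hn1 : n + 1 = Fintype.card Ω := by rw [← hnF]; exact hFcard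
  have hn2d : n - 1 ≤ 2 * d := by omega
  have hn3 : 3 ≤ Fintype.card Ω := by
    obtain ⟨g, hg1, a', b', hab', hga, hgb⟩ := hex
    obtain ⟨c, hc⟩ : ∃ c : Ω, g • c ≠ c := by
      by_contra hcon
      push_neg at hcon
      apply hg1
      haveI := hfaith
      exact FaithfulSMul.eq_of_smul_eq_smul (α := Ω) (fun x => by rw [hcon x, one_smul])
    have h1 : a' ≠ c := by rintro rfl; exact hc hga
    have h2' : b' ≠ c := by rintro rfl; exact hc hgb
    have h4 : 2 < (Finset.univ : Finset Ω).card := Finset.two_lt_card.mpr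
      ⟨a', Finset.mem_univ _, b', Finset.mem_univ _, c, Finset.mem_univ _, hab', h1, h2'⟩
    rw [Finset.card_univ] at h4
    omega
  have hn2 : 2 ≤ n := by omega
  have hEF' : ∀ x ∈ E, ∀ u ∈ F, x * u * x⁻¹ ∈ F := by
    intro x hx u hu
    have hxa : x ∈ MulAction.stabilizer G a := (Subgroup.mem_inf.mp hx).1
    have h5 := hFn.conj_mem ⟨u, hFle hu⟩ (Subgroup.mem_subgroupOf.mpr hu) ⟨x, hxa⟩
    exact Subgroup.mem_subgroupOf.mp h5
  have hD2 : ∀ u ∈ F, u ≠ 1 → ∀ x ∈ E, x * u * x⁻¹ = u → x = 1 := by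
    intro u hu hu1 x hx hxu
    rw [hmemE] at hx
    have hub : u • b ≠ b := by
      intro h
      obtain ⟨w, hw, hwu⟩ := hreg b b hab.symm hab.symm
      have e1 := hwu ⟨u, hu⟩ h
      have e2 := hwu 1 (by simp)
      apply hu1
      have e3 : (⟨u, hu⟩ : F) = 1 := e1.trans e2.symm
      exact congrArg Subtype.val e3
    have hua : u • b ≠ a := fun h => hab.symm (MulAction.injective u (h.trans (hFa u hu).symm))
    have hxu' : x * u = u * x := by
      calc x * u = x * u * x⁻¹ * x := by group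
        _ = u * x := by rw [hxu]
    have hfix : x • (u • b) = u • b := by rw [← mul_smul, hxu', mul_smul, hx.2]
    exact h3 x a b (u • b) hab (Ne.symm hub) (Ne.symm hua) hx.1 hx.2 hfix
  set Cl : G → Finset G := fun u => EF.image (fun x => x * u * x⁻¹) with hCl
  have hClmem : ∀ u g, g ∈ Cl u ↔ ∃ x ∈ E, x * u * x⁻¹ = g := by
    intro u g
    simp only [hCl, Finset.mem_image, hEF, Finset.mem_filter, Finset.mem_univ, true_and]
  have hClcard : ∀ u ∈ F, u ≠ 1 → (Cl u).card = d := by
    intro u hu hu1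
    show (EF.image (fun x => x * u * x⁻¹)).card = d
    apply Finset.card_image_of_injOn
    intro x hx y hy hxy
    have hx' : x ∈ E := by
      have h5 := Finset.mem_coe.mp hx; rw [hEF, Finset.mem_filter] at h5; exact h5.2
    have hy' : y ∈ E := by
      have h5 := Finset.mem_coe.mp hy; rw [hEF, Finset.mem_filter] at h5; exact h5.2
    have hxy' : x * u * x⁻¹ = y * u * y⁻¹ := hxy
    have h5 : (y⁻¹ * x) * u * (y⁻¹ * x)⁻¹ = u := by
      calc (y⁻¹ * x) * u * (y⁻¹ * x)⁻¹ = y⁻¹ * (x * u * x⁻¹) * y := by group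
        _ = y⁻¹ * (y * u * y⁻¹) * y := by rw [hxy']
        _ = u := by group
    have h6 := hD2 u hu hu1 (y⁻¹ * x) (E.mul_mem (E.inv_mem hy') hx') h5
    exact (inv_mul_eq_one.mp h6).symm
  have hClsub : ∀ u ∈ F, u ≠ 1 → Cl u ⊆ FF.erase 1 := by
    intro u hu hu1 g hg
    rw [hClmem] at hg
    obtain ⟨x, hx, rfl⟩ := hg
    rw [Finset.mem_erase, hFF, Finset.mem_filter]
    refine ⟨?_, Finset.mem_univ _, hEF' x hx u hu⟩
    intro h
    apply hu1
    have e3 : u = x⁻¹ * (x * u * x⁻¹) * x := by group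
    rw [e3, h]; group
  have hFFerase : (FF.erase 1).card = n - 1 :=
    Finset.card_erase_of_mem (by rw [hFF, Finset.mem_filter]; exact ⟨Finset.mem_univ _, F.one_mem⟩)
  have hCldisj : ∀ u v : G, (∀ x ∈ E, v ≠ x * u * x⁻¹) → Disjoint (Cl u) (Cl v) := by
    intro u v huv
    rw [Finset.disjoint_left]
    intro g hgu hgv
    rw [hClmem] at hgu hgv
    obtain ⟨x, hx, rfl⟩ := hgu
    obtain ⟨y, hy, hyx⟩ := hgv
    apply huv (y⁻¹ * x) (E.mul_mem (E.inv_mem hy) hx)
    calc v = y⁻¹ * (y * v * y⁻¹) * y := by group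
      _ = y⁻¹ * (x * u * x⁻¹) * y := by rw [hyx]
      _ = (y⁻¹ * x) * u * (y⁻¹ * x)⁻¹ := by group
  have htwo : ∀ u ∈ F, u ≠ 1 → ∀ v ∈ F, v ≠ 1 → (∀ x ∈ E, v ≠ x * u * x⁻¹) → n - 1 = 2 * d := by
    intro u hu hu1 v hv hv1 huv
    have h5 : (Cl u ∪ Cl v).card ≤ (FF.erase 1).card :=
      Finset.card_le_card (Finset.union_subset (hClsub u hu hu1) (hClsub v hv hv1))
    rw [Finset.card_union_of_disjoint (hCldisj u v huv), hClcard u hu hu1, hClcard v hv hv1,
      hFFerase] at h5
    omega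
  have hthree : ∀ u ∈ F, u ≠ 1 → ∀ v ∈ F, v ≠ 1 → ∀ w ∈ F, w ≠ 1 → (∀ x ∈ E, v ≠ x * u * x⁻¹) →
      (∀ x ∈ E, w ≠ x * u * x⁻¹) → (∀ x ∈ E, w ≠ x * v * x⁻¹) → False := by
    intro u hu hu1 v hv hv1 w hw hw1 huv huw hvw
    have h5 : ((Cl u ∪ Cl v) ∪ Cl w).card ≤ (FF.erase 1).card :=
      Finset.card_le_card (Finset.union_subset
        (Finset.union_subset (hClsub u hu hu1) (hClsub v hv hv1)) (hClsub w hw hw1))
    rw [Finset.card_union_of_disjoint
        (Finset.disjoint_union_left.mpr ⟨hCldisj u w huw, hCldisj v w hvw⟩),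
      Finset.card_union_of_disjoint (hCldisj u v huv), hClcard u hu hu1, hClcard v hv hv1,
      hClcard w hw hw1, hFFerase] at h5
    omega
  obtain ⟨p, hp, hpn⟩ := Nat.exists_prime_and_dvd (show n ≠ 1 by omega)
  haveI : Fact p.Prime := ⟨hp⟩
  obtain ⟨u₀', hu₀'⟩ := exists_prime_orderOf_dvd_card' (G := F) p (by rw [hnF]; exact hpn)
  obtain ⟨u₀, hu₀F, hu₀o⟩ : ∃ u₀ : G, u₀ ∈ F ∧ orderOf u₀ = p :=
    ⟨(u₀' : G), u₀'.2, by rw [Subgroup.orderOf_coe]; exact hu₀'⟩
  have hu₀1 : u₀ ≠ 1 := by intro h; rw [h, orderOf_one] at hu₀o; exact hp.one_lt.ne hu₀o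
  have hu₀p : u₀ ^ p = 1 := by rw [← hu₀o]; exact pow_orderOf_eq_one u₀
  have hexp : ∀ v ∈ F, v ^ p = 1 := by
    intro v hv
    by_contra hvp
    have hv1 : v ≠ 1 := by rintro rfl; exact hvp (one_pow p)
    have huv : ∀ x ∈ E, v ≠ x * u₀ * x⁻¹ := by
      intro x hx h
      apply hvp
      rw [h, conj_pow, hu₀p, mul_one, mul_inv_cancel]
    have hnd : n - 1 = 2 * d := htwo u₀ hu₀F hu₀1 v hv hv1 huv
    have hset : ∀ g : G, g ∈ insert 1 (Cl u₀) ↔ g ∈ F ∧ g ^ p = 1 := by
      intro g
      rw [Finset.mem_insert]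
      constructor
      · rintro (h | h)
        · rw [h]; exact ⟨F.one_mem, one_pow p⟩
        · have hgF := hClsub u₀ hu₀F hu₀1 h
          rw [Finset.mem_erase, hFF, Finset.mem_filter] at hgF
          refine ⟨hgF.2.2, ?_⟩
          rw [hClmem] at h
          obtain ⟨x, hx, rfl⟩ := h
          rw [conj_pow, hu₀p, mul_one, mul_inv_cancel]
      · rintro ⟨hgF, hgp⟩
        by_cases hg1 : g = 1
        · left; exact hg1
        · right
          rw [hClmem]
          by_contra hcon
          push_neg at hcon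
          apply hthree u₀ hu₀F hu₀1 v hv hv1 g hgF hg1 huv (fun x hx h => hcon x hx h.symm)
          intro x hx h
          apply hvp
          have e3 : v = x⁻¹ * g * x⁻¹⁻¹ := by rw [h]; group
          rw [e3, conj_pow, hgp, mul_one, mul_inv_cancel]
    have hcount : Nat.card {x : F // (x : G) ^ p = 1} = d + 1 := by
      rw [card_subtype_subgroup_aux F (fun g => g ^ p = 1) (insert 1 (Cl u₀)) hset]
      rw [Finset.card_insert_of_notMem, hClcard u₀ hu₀F hu₀1]
      intro h1
      have h5 := hClsub u₀ hu₀F hu₀1 h1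
      rw [Finset.mem_erase] at h5
      exact h5.1 rfl
    have hfrob := Cfsg.Agent.Lib.Helper6.frobenius_dvd F p (by rw [hnF]; exact hpn)
    have hcongr : Nat.card {g : F // g ^ p = 1} = Nat.card {x : F // (x : G) ^ p = 1} := by
      apply Nat.card_congr
      apply Equiv.subtypeEquivRight
      intro x
      constructor
      · intro h; rw [← Subgroup.coe_pow, h]; rfl
      · intro h; exact Subtype.ext (by rw [Subgroup.coe_pow]; exact h)
    rw [hcongr, hcount] at hfrob
    have h5 : p ∣ n + 1 := by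
      have e4 : n + 1 = 2 * (d + 1) := by omega
      rw [e4]; exact Dvd.dvd.mul_left hfrob 2
    have h6 : p ∣ 1 := (Nat.dvd_add_right hpn).mp h5
    exact hp.one_lt.ne' (Nat.dvd_one.mp h6)
  have hPF : IsPGroup p F := by
    intro g
    refine ⟨1, ?_⟩
    rw [pow_one]
    exact Subtype.ext (by rw [Subgroup.coe_pow]; exact hexp g g.2)
  obtain ⟨f, hf⟩ := IsPGroup.iff_card.mp hPF
  haveI : Nontrivial F := ⟨⟨⟨u₀, hu₀F⟩, 1, fun h => hu₀1 (congrArg Subtype.val h)⟩⟩
  haveI : Nontrivial (Subgroup.center F) := hPF.center_nontrivial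
  obtain ⟨z', hz'⟩ := exists_ne (1 : Subgroup.center F)
  have hcenter : Subgroup.center F = ⊤ := by
    by_contra hne
    set ZF := Finset.univ.filter (fun g : G => g ∈ F ∧ ∀ y ∈ F, y * g = g * y) with hZF
    have hZcard : Nat.card (Subgroup.center F) = ZF.card := by
      have h5 : Nat.card {x : F // ∀ y ∈ F, y * (x : G) = (x : G) * y} = ZF.card :=
        card_subtype_subgroup_aux F (fun g => ∀ y ∈ F, y * g = g * y) ZF
          (by intro g; rw [hZF, Finset.mem_filter]; simp)
      rw [← h5]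
      apply Nat.card_congr
      apply Equiv.subtypeEquivRight
      intro x
      rw [Subgroup.mem_center_iff]
      constructor
      · intro h y hy
        exact congrArg Subtype.val (h ⟨y, hy⟩)
      · intro h y
        exact Subtype.ext (h y y.2)
    obtain ⟨z, hzF, hz1, hzc⟩ : ∃ z : G, z ∈ F ∧ z ≠ 1 ∧ ∀ y ∈ F, y * z = z * y := by
      refine ⟨((z' : F) : G), (z' : F).2, ?_, ?_⟩
      · intro h
        apply hz'
        apply Subtype.ext; apply Subtype.ext
        exact h
      · intro y hy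
        have h5 := Subgroup.mem_center_iff.mp z'.2 ⟨y, hy⟩
        exact congrArg Subtype.val h5
    have hsub : insert 1 (Cl z) ⊆ ZF := by
      intro g hg
      rw [Finset.mem_insert] at hg
      rw [hZF, Finset.mem_filter]
      refine ⟨Finset.mem_univ _, ?_⟩
      rcases hg with h | h
      · rw [h]; exact ⟨F.one_mem, fun y _ => by rw [mul_one, one_mul]⟩
      · rw [hClmem] at h
        obtain ⟨x, hx, rfl⟩ := h
        refine ⟨hEF' x hx z hzF, ?_⟩
        intro y hy
        have hy' : x⁻¹ * y * x⁻¹⁻¹ ∈ F := hEF' x⁻¹ (E.inv_mem hx) y hy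
        have hc := hzc _ hy'
        calc y * (x * z * x⁻¹) = x * ((x⁻¹ * y * x⁻¹⁻¹) * z) * x⁻¹ := by group
          _ = x * (z * (x⁻¹ * y * x⁻¹⁻¹)) * x⁻¹ := by rw [hc]
          _ = x * z * x⁻¹ * y := by group
    have hge : d + 1 ≤ ZF.card := by
      have h5 := Finset.card_le_card hsub
      rwa [Finset.card_insert_of_notMem (by
        intro h1
        have h6 := hClsub z hzF hz1 h1
        rw [Finset.mem_erase] at h6
        exact h6.1 rfl), hClcard z hzF hz1] at h5
    have hdvd : Nat.card (Subgroup.center F) ∣ Nat.card F := Subgroup.card_subgroup_dvd_card _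
    have hlt : Nat.card (Subgroup.center F) ≠ Nat.card F :=
      fun h => hne ((Subgroup.card_eq_iff_eq_top _).mp h)
    obtain ⟨k, hk⟩ := hdvd
    rw [hZcard, hnF] at hk hlt
    have hk2 : 2 ≤ k := by
      by_contra hcon
      have hk01 : k = 0 ∨ k = 1 := by omega
      rcases hk01 with h | h
      · rw [h, mul_zero] at hk; omega
      · rw [h, mul_one] at hk; exact hlt hk.symm
    have h7 : 2 * ZF.card ≤ n := by rw [hk]; nlinarith
    omega
  refine ⟨?_, p, f, hp, hexp, ?_⟩
  · refine ⟨⟨fun x y => ?_⟩⟩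
    have hx : x ∈ Subgroup.center F := by rw [hcenter]; exact Subgroup.mem_top x
    exact (Subgroup.mem_center_iff.mp hx y).symm
  · rw [← hFcard, hf]

end Cfsg.Agent.S0738
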