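import Cfsg.Statements.S0740
import Mathlib
import Cfsg.Agent.Lib.Helper6.Zass
-- import your own Cfsg.Agent.* helpers here

set_option autoImplicit false
open Cfsg

namespace Cfsg.Agent.S0740



/-- In a finite Zassenhaus group any two points `a ≠ b` are swapped by an involution; every such involution has exactly one fixed point when the degree is odd and 0 or 2 fixed points when the degree is even; and if the two-point stabiliser has even order, some such involution has exactly 2 fixed points. -/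
theorem result {G Ω : Type*} [Group G] [Finite G] [MulAction G Ω] [Fintype Ω] (hZ : Cfsg.IsZassenhausGroup G Ω) {a b : Ω} (hab : a ≠ b) : (∃ s : G, orderOf s = 2 ∧ s • a = b ∧ s • b = a) ∧ (∀ s : G, orderOf s = 2 → s • a = b → s • b = a → (Odd (Fintype.card Ω) → Nat.card (MulAction.fixedBy Ω s) = 1) ∧ (Even (Fintype.card Ω) → Nat.card (MulAction.fixedBy Ω s) = 0 ∨ Nat.card (MulAction.fixedBy Ω s) = 2)) ∧ (Even (Fintype.card Ω) → Even (Nat.card ↥(MulAction.stabilizer G a ⊓ MulAction.stabilizer G b)) → ∃ s : G, orderOf s = 2 ∧ s • a = b ∧ s • b = a ∧ Nat.card (MulAction.fixedBy Ω s) = 2) := by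
  classical
  have hZ' := hZ
  obtain ⟨hfaith, h2t, h3, hex, hN⟩ := hZ
  have h2 : ∀ {a b c d : Ω}, a ≠ b → c ≠ d → ∃ g : G, g • a = c ∧ g • b = d :=
    fun h h' => (MulAction.is_two_pretransitive_iff (G := G) (α := Ω)).mp h2t h h'
  have hmoved : ∀ t : G, t ≠ 1 → ∃ c : Ω, t • c ≠ c := by
    intro t ht1
    by_contra hcon
    push_neg at hcon
    apply ht1
    haveI := hfaith
    exact FaithfulSMul.eq_of_smul_eq_smul (α := Ω) (fun x => by rw [hcon x, one_smul])
  have hconj : ∀ t : G, orderOf t = 2 → ∀ c : Ω, t • c ≠ c → ∃ s : G, orderOf s = 2 ∧ s • a = b ∧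
      s • b = a ∧ Nat.card (MulAction.fixedBy Ω s) = Nat.card (MulAction.fixedBy Ω t) := by
    intro t ht c hc
    have ht2 : t ^ 2 = 1 := by rw [← ht]; exact pow_orderOf_eq_one t
    obtain ⟨h, hha, hhb⟩ := h2 (Ne.symm hc) hab
    refine ⟨h * t * h⁻¹, ?_, ?_, ?_, ?_⟩
    · have h5 := (MulAut.conj h).orderOf_eq t
      rw [MulAut.conj_apply] at h5; rw [h5, ht]
    · have h6 : h⁻¹ • a = c := by rw [← hha, inv_smul_smul]
      rw [mul_smul, mul_smul, h6, hhb]
    · have h6 : h⁻¹ • b = t • c := by rw [← hhb, inv_smul_smul]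
      have h7 : t • t • c = c := by rw [smul_smul, ← pow_two, ht2, one_smul]
      rw [mul_smul, mul_smul, h6, h7, hha]
    · exact Cfsg.Agent.Lib.Helper6.zass_card_fixedBy_conj h t
  have hpart2 : ∀ s : G, orderOf s = 2 → (Odd (Fintype.card Ω) → Nat.card (MulAction.fixedBy Ω s) = 1) ∧
      (Even (Fintype.card Ω) → Nat.card (MulAction.fixedBy Ω s) = 0 ∨ Nat.card (MulAction.fixedBy Ω s) = 2) := by
    intro s hs
    have hs2 : s ^ 2 = 1 := by rw [← hs]; exact pow_orderOf_eq_one s
    have hs1 : s ≠ 1 := by intro h; rw [h, orderOf_one] at hs; omega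
    have hle := Cfsg.Agent.Lib.Helper6.zass_card_fixedBy_le_two hZ' s hs1
    have hmod := Cfsg.Agent.Lib.Helper6.zass_card_fixedBy_modEq (Ω := Ω) s hs2
    unfold Nat.ModEq at hmod
    constructor
    · intro hodd
      obtain ⟨k, hk⟩ := hodd
      omega
    · intro hev
      obtain ⟨k, hk⟩ := hev
      omega
  refine ⟨?_, fun s hs _ _ => hpart2 s hs, ?_⟩
  · obtain ⟨g, hga, hgb⟩ := h2 hab hab.symm
    have hdvd : 2 ∣ orderOf g := by
      by_contra hodd
      have hodd' : Odd (orderOf g) := Nat.not_even_iff_odd.mp (by rwa [even_iff_two_dvd])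
      obtain ⟨k, hk⟩ := hodd'
      have hg2 : (g ^ 2) • a = a := by rw [pow_two, mul_smul, hga, hgb]
      have hgk : ∀ j : ℕ, ((g ^ 2) ^ j) • a = a := by
        intro j
        induction j with
        | zero => simp
        | succ j ih => rw [pow_succ, mul_smul, hg2, ih]
      have h7 : (g ^ 2) ^ (k + 1) = g := by
        rw [← pow_mul, show 2 * (k + 1) = orderOf g + 1 by omega, pow_succ, pow_orderOf_eq_one, one_mul]
      have h8 := hgk (k+1)
      rw [h7, hga] at h8
      exact hab h8.symm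
    have hpos : orderOf g ≠ 0 := (orderOf_pos g).ne'
    have hto : orderOf (g ^ (orderOf g / 2)) = 2 := orderOf_pow_orderOf_div hpos hdvd
    have ht1 : g ^ (orderOf g / 2) ≠ 1 := by intro h; rw [h, orderOf_one] at hto; omega
    obtain ⟨c, hc⟩ := hmoved _ ht1
    obtain ⟨s, hs, hsa, hsb, _⟩ := hconj _ hto c hc
    exact ⟨s, hs, hsa, hsb⟩
  · intro hev hE
    obtain ⟨t, ht⟩ := exists_prime_orderOf_dvd_card' 2 (even_iff_two_dvd.mp hE)
    have hto : orderOf (t : G) = 2 := by rw [Subgroup.orderOf_coe]; exact ht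
    have ht1 : (t : G) ≠ 1 := by intro h; rw [h, orderOf_one] at hto; omega
    obtain ⟨c, hc⟩ := hmoved _ ht1
    obtain ⟨s, hs, hsa, hsb, hcard⟩ := hconj _ hto c hc
    refine ⟨s, hs, hsa, hsb, ?_⟩
    rw [hcard]
    have hle := Cfsg.Agent.Lib.Helper6.zass_card_fixedBy_le_two hZ' (t : G) ht1
    have hta : (t : G) • a = a := MulAction.mem_stabilizer_iff.mp (Subgroup.mem_inf.mp t.2).1
    have htb : (t : G) • b = b := MulAction.mem_stabilizer_iff.mp (Subgroup.mem_inf.mp t.2).2
    have hge : 2 ≤ Nat.card (MulAction.fixedBy Ω (t : G)) := by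
      rw [Cfsg.Agent.Lib.Helper6.zass_card_fixedBy_eq]
      have hsub : ({a, b} : Finset Ω) ⊆ Finset.univ.filter (fun x => (t : G) • x = x) := by
        intro x hx
        simp only [Finset.mem_insert, Finset.mem_singleton] at hx
        simp only [Finset.mem_filter, Finset.mem_univ, true_and]
        rcases hx with h | h
        · rw [h]; exact hta
        · rw [h]; exact htb
      have h9 := Finset.card_le_card hsub
      rwa [Finset.card_pair hab] at h9
    omega

end Cfsg.Agent.S0740
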