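import Cfsg.Statements.S0741
import Mathlib
-- import your own Cfsg.Agent.* helpers here

set_option autoImplicit false
open Cfsg

namespace Cfsg.Agent.S0741



/-- If the two-point stabilisers of a finite Zassenhaus group of degree `n + 1` have even order `d`, then `2d ≥ n - 1`. -/
theorem result {G Ω : Type*} [Group G] [Finite G] [MulAction G Ω] [Fintype Ω] (hZ : Cfsg.IsZassenhausGroup G Ω) {a b : Ω} (hab : a ≠ b) (heven : Even (Nat.card ↥(MulAction.stabilizer G a ⊓ MulAction.stabilizer G b))) : Fintype.card Ω - 2 ≤ 2 * Nat.card ↥(MulAction.stabilizer G a ⊓ MulAction.stabilizer G b) := by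
  classical
  obtain ⟨hfaith, h2t, h3, hex, hN⟩ := hZ
  have h2 : ∀ {a b c d : Ω}, a ≠ b → c ≠ d → ∃ g : G, g • a = c ∧ g • b = d :=
    fun h h' => (MulAction.is_two_pretransitive_iff (G := G) (α := Ω)).mp h2t h h'
  haveI : Fintype G := Fintype.ofFinite G
  set E : Subgroup G := MulAction.stabilizer G a ⊓ MulAction.stabilizer G b with hE
  have hmemE : ∀ x : G, x ∈ E ↔ x • a = a ∧ x • b = b := by
    intro x
    rw [hE, Subgroup.mem_inf, MulAction.mem_stabilizer_iff, MulAction.mem_stabilizer_iff]
  set EF := Finset.univ.filter (fun x : G => x • a = a ∧ x • b = b) with hEF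
  have hd : Nat.card E = EF.card :=
    Nat.subtype_card EF (by intro x; rw [hEF, Finset.mem_filter, hmemE]; simp)
  obtain ⟨t', ht'⟩ := exists_prime_orderOf_dvd_card' 2 (even_iff_two_dvd.mp heven)
  obtain ⟨t, htE, hto⟩ : ∃ t : G, t ∈ E ∧ orderOf t = 2 :=
    ⟨(t' : G), t'.2, by rw [Subgroup.orderOf_coe]; exact ht'⟩
  have ht1 : t ≠ 1 := by intro h; rw [h, orderOf_one] at hto; omega
  have ht2 : t * t = 1 := by rw [← pow_two, ← hto]; exact pow_orderOf_eq_one t
  have hta : t • a = a := ((hmemE t).mp htE).1
  have htb : t • b = b := ((hmemE t).mp htE).2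
  have htfix : ∀ c : Ω, t • c = c → c = a ∨ c = b := by
    intro c hc
    by_contra hcon
    push_neg at hcon
    exact ht1 (h3 t a b c hab (Ne.symm hcon.2) (Ne.symm hcon.1) hta htb hc)
  have htt : ∀ c : Ω, t • t • c = c := fun c => by rw [smul_smul, ht2, one_smul]
  set M := Finset.univ.filter (fun g : G => t • (g • a) = g • b) with hM
  set S := Finset.univ.filter (fun s : G => s • a = b ∧ s • b = a) with hS
  set CF := Finset.univ.filter (fun x : G => x * t = t * x) with hCF
  set R := (Finset.univ : Finset Ω) \ {a, b} with hR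
  have hRcard : R.card = Fintype.card Ω - 2 := by
    rw [hR, Finset.card_sdiff_of_subset (Finset.subset_univ _), Finset.card_univ,
      Finset.card_pair hab]
  have h1 : EF.card * R.card ≤ M.card := by
    apply Finset.mul_card_image_le_card_of_maps_to (f := fun g : G => g • a)
    · intro g hg
      rw [hM, Finset.mem_filter] at hg
      rw [hR, Finset.mem_sdiff, Finset.mem_insert, Finset.mem_singleton]
      refine ⟨Finset.mem_univ _, ?_⟩
      rintro (h | h)
      · have h5 := hg.2
        rw [h, hta] at h5
        exact hab (MulAction.injective g (h.trans h5))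
      · have h5 := hg.2
        rw [h, htb] at h5
        exact hab (MulAction.injective g (h.trans h5))
    · intro c hc
      rw [hR, Finset.mem_sdiff, Finset.mem_insert, Finset.mem_singleton] at hc
      have hcne : c ≠ t • c := by
        intro h
        exact hc.2 (htfix c h.symm)
      obtain ⟨gc, hgca, hgcb⟩ := h2 hab hcne
      apply Finset.card_le_card_of_injOn (fun x => gc * x)
      · intro x hx
        have hx' : x ∈ EF := Finset.mem_coe.mp hx
        rw [hEF, Finset.mem_filter] at hx'
        apply Finset.mem_coe.mpr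
        rw [Finset.mem_filter, hM, Finset.mem_filter]
        refine ⟨⟨Finset.mem_univ _, ?_⟩, ?_⟩
        · rw [mul_smul, mul_smul, hx'.2.1, hx'.2.2, hgca, hgcb]
        · rw [mul_smul, hx'.2.1, hgca]
      · intro x _ y _ hxy
        exact mul_left_cancel hxy
  obtain ⟨s₀, hs₀a, hs₀b⟩ := h2 hab hab.symm
  have h2S : S.card ≤ EF.card := by
    apply Finset.card_le_card_of_injOn (fun s => s₀⁻¹ * s)
    · intro s hs
      have hs' : s ∈ S := Finset.mem_coe.mp hs
      rw [hS, Finset.mem_filter] at hs'
      apply Finset.mem_coe.mpr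
      rw [hEF, Finset.mem_filter]
      refine ⟨Finset.mem_univ _, ?_, ?_⟩
      · rw [mul_smul, hs'.2.1, inv_smul_eq_iff, hs₀a]
      · rw [mul_smul, hs'.2.2, inv_smul_eq_iff, hs₀b]
    · intro x _ y _ hxy
      exact mul_left_cancel hxy
  have h3M : M.card ≤ CF.card * S.card := by
    apply Finset.card_le_mul_card_image_of_maps_to (f := fun g : G => g⁻¹ * t * g)
    · intro g hg
      rw [hM, Finset.mem_filter] at hg
      rw [hS, Finset.mem_filter]
      refine ⟨Finset.mem_univ _, ?_, ?_⟩
      · rw [mul_smul, mul_smul, hg.2, inv_smul_smul]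
      · rw [mul_smul, mul_smul, ← hg.2, htt, inv_smul_smul]
    · intro s hs
      rcases Finset.eq_empty_or_nonempty (M.filter (fun g => g⁻¹ * t * g = s)) with hemp | ⟨g₀, hg₀⟩
      · rw [hemp]; simp
      · rw [Finset.mem_filter] at hg₀
        apply Finset.card_le_card_of_injOn (fun g => g * g₀⁻¹)
        · intro g hg
          have hg' := Finset.mem_coe.mp hg
          rw [Finset.mem_filter] at hg'
          apply Finset.mem_coe.mpr
          rw [hCF, Finset.mem_filter]
          refine ⟨Finset.mem_univ _, ?_⟩
          have e1 : g₀⁻¹ * t * g₀ = g⁻¹ * t * g := hg₀.2.trans hg'.2.symm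
          have e2 : t * g = g * (g₀⁻¹ * t * g₀) := by rw [e1]; group
          calc g * g₀⁻¹ * t = g * (g₀⁻¹ * t * g₀) * g₀⁻¹ := by group
            _ = t * g * g₀⁻¹ := by rw [← e2]
            _ = t * (g * g₀⁻¹) := by group
        · intro x _ y _ hxy
          exact mul_right_cancel hxy
  have h4 : CF.card ≤ EF.card + S.card := by
    have hsub : CF ⊆ EF ∪ S := by
      intro x hx
      rw [hCF, Finset.mem_filter] at hx
      have hxa : t • (x • a) = x • a := by rw [← mul_smul, ← hx.2, mul_smul, hta]
      have hxb : t • (x • b) = x • b := by rw [← mul_smul, ← hx.2, mul_smul, htb]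
      have hne : x • a ≠ x • b := fun h => hab (MulAction.injective x h)
      rw [Finset.mem_union, hEF, hS, Finset.mem_filter, Finset.mem_filter]
      rcases htfix _ hxa with h1' | h1' <;> rcases htfix _ hxb with h2' | h2'
      · exact absurd (h1'.trans h2'.symm) hne
      · left; exact ⟨Finset.mem_univ _, h1', h2'⟩
      · right; exact ⟨Finset.mem_univ _, h1', h2'⟩
      · exact absurd (h1'.trans h2'.symm) hne
    exact (Finset.card_le_card hsub).trans (Finset.card_union_le _ _)
  rw [hd]
  have hdpos : 0 < EF.card := Finset.card_pos.mpr ⟨1, by rw [hEF, Finset.mem_filter]; simp⟩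
  rw [← hRcard]
  have h5 : EF.card * R.card ≤ CF.card * EF.card :=
    h1.trans (h3M.trans (Nat.mul_le_mul_left _ h2S))
  have h6 : R.card ≤ CF.card := by
    rw [mul_comm] at h5
    exact Nat.le_of_mul_le_mul_right h5 hdpos
  omega

end Cfsg.Agent.S0741
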