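import Cfsg.Statements.S0743
import Mathlib
-- import your own Cfsg.Agent.* helpers here

set_option autoImplicit false
open Cfsg

namespace Cfsg.Agent.S0743


open scoped Pointwise

theorem fixcount {α : Type*} [Fintype α] [DecidableEq α] (G : Subgroup (Equiv.Perm α))
    (t : Finset α) (a : α) (ha : a ∉ t) (P : Subgroup G) (c : α)
    (hf : MulAction.fixedPoints P α = ((insert c t : Finset α) : Set α)) :
    P ≤ fixingSubgroup G (t : Set α) ∧
    ((c ∈ MulAction.orbit (fixingSubgroup G (t : Set α)) a →
      Nat.card (MulAction.fixedPoints (P.subgroupOf (fixingSubgroup G (t : Set α)))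
        (MulAction.orbit (fixingSubgroup G (t : Set α)) a)) = 1) ∧
    (c ∉ MulAction.orbit (fixingSubgroup G (t : Set α)) a →
      Nat.card (MulAction.fixedPoints (P.subgroupOf (fixingSubgroup G (t : Set α)))
        (MulAction.orbit (fixingSubgroup G (t : Set α)) a)) = 0)) := by
  classical
  set H : Subgroup G := fixingSubgroup G (t : Set α) with hH
  have hmemH : ∀ g : G, g ∈ H ↔ ∀ x ∈ t, g • x = x := by
    intro g
    rw [hH, mem_fixingSubgroup_iff]
    exact Iff.rfl
  have hPH : P ≤ H := by
    intro g hg
    rw [hmemH]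
    intro x hx
    have hx' : x ∈ MulAction.fixedPoints P α := by
      rw [hf]
      exact Finset.mem_coe.mpr (Finset.mem_insert_of_mem hx)
    exact hx' ⟨g, hg⟩
  have hOt : ∀ o ∈ MulAction.orbit H a, o ∉ t := by
    rintro o ⟨g, rfl⟩ hmem
    have h1 : g.1 • (g.1 • a) = g.1 • a := (hmemH g.1).mp g.2 _ hmem
    have h2 : g.1 • a = a := MulAction.injective g.1 h1
    exact ha (h2 ▸ hmem)
  have hfixO : ∀ o : MulAction.orbit H a,
      o ∈ MulAction.fixedPoints (P.subgroupOf H) (MulAction.orbit H a) → o.1 = c := by
    intro o ho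
    have h1 : o.1 ∈ MulAction.fixedPoints P α := by
      intro g
      have h2 := ho ⟨⟨g.1, hPH g.2⟩, Subgroup.mem_subgroupOf.mpr g.2⟩
      exact congrArg Subtype.val h2
    rw [hf] at h1
    rcases Finset.mem_insert.mp (Finset.mem_coe.mp h1) with h3 | h3
    · exact h3
    · exact absurd h3 (hOt o.1 o.2)
  refine ⟨hPH, fun hc => ?_, fun hc => ?_⟩
  · rw [Nat.card_eq_one_iff_unique]
    refine ⟨⟨fun x y => ?_⟩, ⟨⟨⟨c, hc⟩, ?_⟩⟩⟩
    · apply Subtype.ext
      apply Subtype.ext
      rw [hfixO x.1 x.2, hfixO y.1 y.2]
    · intro g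
      apply Subtype.ext
      have hcf : c ∈ MulAction.fixedPoints P α := by
        rw [hf]
        exact Finset.mem_coe.mpr (Finset.mem_insert_self _ _)
      exact hcf ⟨g.1.1, Subgroup.mem_subgroupOf.mp g.2⟩
  · rw [Nat.card_eq_zero]
    left
    refine ⟨fun x => hc ?_⟩
    rw [← hfixO x.1 x.2]
    exact x.1.2

theorem gle {α : Type*} [Fintype α] [DecidableEq α] (G : Subgroup (Equiv.Perm α)) {p k : ℕ}
    (hp : p.Prime)
    (h : ∀ s : Finset α, s.card = k → ∃ P : Subgroup G, IsPGroup p P ∧
      MulAction.fixedPoints P α = (s : Set α))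
    (t : Finset α) (ht : t.card + 1 = k) (a b : α) (ha : a ∉ t) (hb : b ∉ t) :
    ∃ g : G, (∀ x ∈ t, g • x = x) ∧ g • a = b := by
  classical
  haveI : Fact p.Prime := ⟨hp⟩
  obtain ⟨Pa, hPa, hfa⟩ := h (insert a t) (by rw [Finset.card_insert_of_notMem ha, ht])
  obtain ⟨Pb, hPb, hfb⟩ := h (insert b t) (by rw [Finset.card_insert_of_notMem hb, ht])
  obtain ⟨-, ha1, -⟩ := fixcount G t a ha Pa a hfa
  obtain ⟨-, -, hb0⟩ := fixcount G t a ha Pb b hfb
  by_contra hcon
  push_neg at hcon
  have hbO : b ∉ MulAction.orbit (fixingSubgroup G (t : Set α)) a := by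
    rintro ⟨g, hg⟩
    exact hcon g.1 (fun x hx => ((mem_fixingSubgroup_iff (M := G)).mp g.2 x hx)) hg
  have hPa' : IsPGroup p (Pa.subgroupOf (fixingSubgroup G (t : Set α))) := hPa.comap_subtype
  have hPb' : IsPGroup p (Pb.subgroupOf (fixingSubgroup G (t : Set α))) := hPb.comap_subtype
  have h1 := hPa'.card_modEq_card_fixedPoints (MulAction.orbit (fixingSubgroup G (t : Set α)) a)
  have h2 := hPb'.card_modEq_card_fixedPoints (MulAction.orbit (fixingSubgroup G (t : Set α)) a)
  rw [ha1 (MulAction.mem_orbit_self a)] at h1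
  rw [hb0 hbO] at h2
  have h3 : 1 ≡ 0 [MOD p] := h1.symm.trans h2
  have h4 : p ∣ 1 := (Nat.modEq_zero_iff_dvd).mp h3
  exact hp.one_lt.ne' (Nat.dvd_one.mp h4)

/-- Gleason's Lemma: let `p` be a prime and `1 ≤ k < n`; if every `k`-subset of the `n` points is exactly the fixed-point set of some `p`-subgroup of `G`, then `G` is `k`-transitive. -/
theorem result {α : Type*} [Fintype α] [DecidableEq α] (G : Subgroup (Equiv.Perm α)) {p k : ℕ} (hp : p.Prime) (hk : 1 ≤ k) (hkn : k < Fintype.card α) (h : ∀ s : Finset α, s.card = k → ∃ P : Subgroup G, IsPGroup p P ∧ MulAction.fixedPoints P α = (s : Set α)) : MulAction.IsMultiplyPretransitive G α k := by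
  classical
  have gl := gle G hp h
  have move : ∀ (x : Fin k ↪ α) (i : Fin k) (c : α), (∀ l, l ≠ i → x l ≠ c) →
      ∃ g : G, (∀ l, l ≠ i → (g • x) l = x l) ∧ (g • x) i = c := by
    intro x i c hc
    have hcard : ((Finset.univ.erase i).map x).card + 1 = k := by
      rw [Finset.card_map, Finset.card_erase_of_mem (Finset.mem_univ i), Finset.card_univ,
        Fintype.card_fin]
      have := i.pos
      omega
    have h1 : x i ∉ (Finset.univ.erase i).map x := by
      intro hmem
      obtain ⟨l, hl, hxl⟩ := Finset.mem_map.mp hmem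
      exact (Finset.mem_erase.mp hl).1 (x.injective hxl)
    have h2 : c ∉ (Finset.univ.erase i).map x := by
      intro hmem
      obtain ⟨l, hl, hxl⟩ := Finset.mem_map.mp hmem
      exact hc l (Finset.mem_erase.mp hl).1 hxl
    obtain ⟨g, hg1, hg2⟩ := gl ((Finset.univ.erase i).map x) hcard (x i) c h1 h2
    exact ⟨g, fun l hl => hg1 (x l)
      (Finset.mem_map_of_mem x (Finset.mem_erase.mpr ⟨hl, Finset.mem_univ l⟩)), hg2⟩
  refine ⟨fun x y => ?_⟩
  have caseA : ∀ (x : Fin k ↪ α) (i : Fin k), x i ≠ y i → (∀ l, x l ≠ y i) →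
      ∃ g : G, Finset.univ.filter (fun l => (g • x) l ≠ y l) ⊂
        Finset.univ.filter (fun l => x l ≠ y l) := by
    intro x i hi hc
    obtain ⟨g, hg1, hg2⟩ := move x i (y i) (fun l _ => hc l)
    refine ⟨g, ?_⟩
    rw [Finset.ssubset_iff_of_subset]
    · refine ⟨i, by simp [hi], ?_⟩
      rw [Finset.mem_filter, hg2]
      simp
    · intro l hl
      rw [Finset.mem_filter] at hl ⊢
      refine ⟨Finset.mem_univ _, fun hxl => hl.2 ?_⟩
      by_cases hli : l = i
      · subst hli
        exact hg2
      · exact (hg1 l hli).trans hxl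
  have step : ∀ (d : ℕ) (x : Fin k ↪ α),
      (Finset.univ.filter (fun l => x l ≠ y l)).card = d → ∃ g : G, g • x = y := by
    intro d
    induction d using Nat.strong_induction_on with
    | _ d ih =>
      intro x hd
      rcases Nat.eq_zero_or_pos d with rfl | hpos
      · refine ⟨1, ?_⟩
        ext l
        show x l = y l
        by_contra hl
        have : l ∈ Finset.univ.filter (fun l => x l ≠ y l) := by
          simp [hl]
        rw [Finset.card_eq_zero.mp hd] at this
        simp at this
      · obtain ⟨i, hi⟩ : ∃ i, i ∈ Finset.univ.filter (fun l => x l ≠ y l) := by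
          rw [← hd] at hpos
          exact Finset.card_pos.mp hpos
        have hi' : x i ≠ y i := (Finset.mem_filter.mp hi).2
        have key : ∃ g : G, Finset.univ.filter (fun l => (g • x) l ≠ y l) ⊂
            Finset.univ.filter (fun l => x l ≠ y l) := by
          by_cases hy : ∃ j, x j = y i
          · obtain ⟨j, hj⟩ := hy
            have hji : j ≠ i := by
              rintro rfl
              exact hi' hj
            obtain ⟨z, hz⟩ : ∃ z, ∀ l, x l ≠ z := by
              by_contra hcon
              push_neg at hcon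
              have : Fintype.card α ≤ Fintype.card (Fin k) :=
                Fintype.card_le_of_surjective x (fun z => hcon z)
              rw [Fintype.card_fin] at this
              omega
            obtain ⟨g1, hg1, hg2⟩ := move x j z (fun l _ => hz l)
            have hsub1 : Finset.univ.filter (fun l => (g1 • x) l ≠ y l) ⊆
                Finset.univ.filter (fun l => x l ≠ y l) := by
              intro l hl
              rw [Finset.mem_filter] at hl ⊢
              refine ⟨Finset.mem_univ _, fun hxl => hl.2 ?_⟩
              by_cases hlj : l = j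
              · exfalso
                subst hlj
                exact hji (y.injective (hxl.symm.trans hj))
              · exact (hg1 l hlj).trans hxl
            have hi1 : (g1 • x) i ≠ y i := by
              rw [hg1 i (Ne.symm hji)]
              exact hi'
            have hc1 : ∀ l, (g1 • x) l ≠ y i := by
              intro l
              by_cases hlj : l = j
              · subst hlj
                rw [hg2, ← hj]
                exact (hz l).symm
              · rw [hg1 l hlj, ← hj]
                exact fun h => hlj (x.injective h)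
            obtain ⟨g2, hg2'⟩ := caseA (g1 • x) i hi1 hc1
            exact ⟨g2 * g1, Finset.ssubset_of_ssubset_of_subset hg2' hsub1⟩
          · push_neg at hy
            exact caseA x i hi' hy
        obtain ⟨g, hg⟩ := key
        obtain ⟨g', hg'⟩ := ih _ (by rw [← hd]; exact Finset.card_lt_card hg) (g • x) rfl
        refine ⟨g' * g, ?_⟩
        ext l
        exact DFunLike.congr_fun hg' l
  exact step _ x rfl

end Cfsg.Agent.S0743
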