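import Cfsg.Statements.S0744
import Mathlib
-- import your own Cfsg.Agent.* helpers here

set_option autoImplicit false
open Cfsg

namespace Cfsg.Agent.S0744


open scoped Pointwise

theorem div_lemma {α : Type*} [Fintype α] [DecidableEq α] {G : Subgroup (Equiv.Perm α)}
    (L : Subgroup G) (r : ℕ) :
    ∀ (n : ℕ) (S : Finset α), S.card = n → (∀ g : L, ∀ s ∈ S, g • s ∈ S) →
      (∀ s ∈ S, Nat.card (MulAction.orbit L s) = r) → r ∣ S.card := by
  classical
  intro n
  induction n using Nat.strong_induction_on with
  | _ n ih =>
    intro S hS hinv hr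
    rcases S.eq_empty_or_nonempty with rfl | ⟨s, hs⟩
    · simp
    · set O : Finset α := (MulAction.orbit L s).toFinset with hO
      have hOS : O ⊆ S := by
        intro x hx
        rw [hO, Set.mem_toFinset] at hx
        obtain ⟨g, rfl⟩ := hx
        exact hinv g s hs
      have hOcard : O.card = r := by
        rw [← hr s hs, Nat.card_coe_set_eq, Set.ncard_eq_toFinset_card']
      have hS' : (S \ O).card = S.card - r := by
        rw [Finset.card_sdiff_of_subset hOS, hOcard]
      have hrpos : 0 < r := by
        rw [← hOcard]
        exact Finset.card_pos.mpr ⟨s, by rw [hO, Set.mem_toFinset]; exact MulAction.mem_orbit_self s⟩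
      have hle : r ≤ S.card := by
        rw [← hOcard]
        exact Finset.card_le_card hOS
      have h1 : r ∣ (S \ O).card := by
        refine ih (S \ O).card (by rw [hS', ← hS]; omega) (S \ O) rfl ?_ ?_
        · intro g x hx
          rw [Finset.mem_sdiff] at hx ⊢
          refine ⟨hinv g x hx.1, fun hmem => hx.2 ?_⟩
          rw [hO, Set.mem_toFinset] at hmem ⊢
          obtain ⟨h, hh⟩ := hmem
          refine ⟨g⁻¹ * h, ?_⟩
          show (g⁻¹ * h) • s = x
          rw [mul_smul, show h • s = g • x from hh, inv_smul_smul]
        · intro x hx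
          exact hr x (Finset.mem_sdiff.mp hx).1
      rw [hS'] at h1
      have := Nat.dvd_add h1 (dvd_refl r)
      rwa [Nat.sub_add_cancel hle] at this

theorem orbsize {α : Type*} [Fintype α] [DecidableEq α] (G : Subgroup (Equiv.Perm α))
    (u : Finset α) (d : α) :
    Nat.card (MulAction.orbit (fixingSubgroup G (u : Set α)) d) *
      Nat.card (fixingSubgroup G ((insert d u : Finset α) : Set α)) =
      Nat.card (fixingSubgroup G (u : Set α)) := by
  classical
  have e : MulAction.stabilizer (fixingSubgroup G (u : Set α)) d ≃
      fixingSubgroup G ((insert d u : Finset α) : Set α) :=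
    { toFun := fun g => ⟨g.1.1, by
        rw [mem_fixingSubgroup_iff]
        intro x hx
        rcases Finset.mem_insert.mp (Finset.mem_coe.mp hx) with rfl | hx'
        · exact g.2
        · exact (mem_fixingSubgroup_iff (M := G)).mp g.1.2 x (Finset.mem_coe.mpr hx')⟩
      invFun := fun g => ⟨⟨g.1, by
        rw [mem_fixingSubgroup_iff]
        intro x hx
        exact (mem_fixingSubgroup_iff (M := G)).mp g.2 x
          (Finset.mem_coe.mpr (Finset.mem_insert_of_mem (Finset.mem_coe.mp hx)))⟩, by
        rw [MulAction.mem_stabilizer_iff]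
        exact (mem_fixingSubgroup_iff (M := G)).mp g.2 d
          (Finset.mem_coe.mpr (Finset.mem_insert_self _ _))⟩
      left_inv := fun g => rfl
      right_inv := fun g => rfl }
  rw [← Nat.card_congr e, Nat.card_coe_set_eq, ← MulAction.index_stabilizer, mul_comm]
  exact Subgroup.card_mul_index _

theorem gle2 {α : Type*} [Fintype α] [DecidableEq α] (G : Subgroup (Equiv.Perm α)) {k : ℕ}
    (l m : ℕ) (hl : 1 < l)
    (hkm1 : ∀ s : Finset α, s.card = k - 1 → Nat.card (fixingSubgroup G (s : Set α)) = l)
    (hkm : ∀ s : Finset α, s.card = k → Nat.card (fixingSubgroup G (s : Set α)) = m)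
    (t : Finset α) (ht : t.card + 2 = k) (a b : α) (ha : a ∉ t) (hb : b ∉ t) :
    ∃ g : G, (∀ x ∈ t, g • x = x) ∧ g • a = b := by
  classical
  by_cases hab : a = b
  · exact ⟨1, fun x _ => one_smul _ _, by rw [one_smul]; exact hab⟩
  by_contra hcon
  push_neg at hcon
  have hmem : ∀ (u : Finset α) (g : G),
      g ∈ fixingSubgroup G (u : Set α) ↔ ∀ x ∈ u, g • x = x := by
    intro u g
    rw [mem_fixingSubgroup_iff]
    exact Iff.rfl
  have hbO : b ∉ MulAction.orbit (fixingSubgroup G (t : Set α)) a := by
    rintro ⟨g, hg⟩
    exact hcon g.1 ((hmem t g.1).mp g.2) hg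
  have hOt : ∀ o ∈ MulAction.orbit (fixingSubgroup G (t : Set α)) a, o ∉ t := by
    rintro o ⟨g, rfl⟩ hmem'
    have h1 : g.1 • (g.1 • a) = g.1 • a := (hmem t g.1).mp g.2 _ hmem'
    have h2 : g.1 • a = a := MulAction.injective g.1 h1
    exact ha (h2 ▸ hmem')
  have horb : ∀ c d, c ∉ t → d ∉ insert c t →
      Nat.card (MulAction.orbit (fixingSubgroup G ((insert c t : Finset α) : Set α)) d) * m
        = l := by
    intro c d hc hd
    have h1 := orbsize G (insert c t) d
    rw [hkm (insert d (insert c t)) (by
        rw [Finset.card_insert_of_notMem hd, Finset.card_insert_of_notMem hc]; omega),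
      hkm1 (insert c t) (by rw [Finset.card_insert_of_notMem hc]; omega)] at h1
    exact h1
  have hbat : b ∉ insert a t := by
    rw [Finset.mem_insert]
    rintro (h | h)
    · exact hab h.symm
    · exact hb h
  have hm0 : 0 < m := by
    rcases Nat.eq_zero_or_pos m with rfl | h
    · have := horb a b ha hbat
      rw [Nat.mul_zero] at this
      omega
    · exact h
  set r := Nat.card (MulAction.orbit (fixingSubgroup G ((insert a t : Finset α) : Set α)) b)
    with hr
  have hrm : r * m = l := horb a b ha hbat
  have horb' : ∀ c d, c ∉ t → d ∉ insert c t →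
      Nat.card (MulAction.orbit (fixingSubgroup G ((insert c t : Finset α) : Set α)) d)
        = r := by
    intro c d hc hd
    have := horb c d hc hd
    rw [← hrm] at this
    exact Nat.eq_of_mul_eq_mul_right hm0 this
  have hr1 : r ≠ 1 := by
    intro hr1
    have hsub : ∀ g : fixingSubgroup G ((insert a t : Finset α) : Set α), g = 1 := by
      intro g
      apply Subtype.ext
      apply Subtype.ext
      ext x
      show g.1.1 x = x
      by_cases hx : x ∈ insert a t
      · exact (hmem _ g.1).mp g.2 x hx
      · have h1 := horb' a x ha hx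
        rw [hr1, Nat.card_eq_one_iff_unique] at h1
        obtain ⟨hsub, -⟩ := h1
        have := hsub.elim ⟨g • x, MulAction.mem_orbit _ _⟩ ⟨x, MulAction.mem_orbit_self _⟩
        exact congrArg Subtype.val this
    have hcard : Nat.card (fixingSubgroup G ((insert a t : Finset α) : Set α)) = 1 := by
      rw [Nat.card_eq_one_iff_unique]
      exact ⟨⟨fun x y => by rw [hsub x, hsub y]⟩, ⟨1⟩⟩
    rw [hkm1 (insert a t) (by rw [Finset.card_insert_of_notMem ha]; omega)] at hcard
    omega
  set S : Finset α := (MulAction.orbit (fixingSubgroup G (t : Set α)) a).toFinset with hS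
  have hSmem : ∀ x, x ∈ S ↔ x ∈ MulAction.orbit (fixingSubgroup G (t : Set α)) a :=
    fun x => Set.mem_toFinset
  have hle : ∀ c, fixingSubgroup G ((insert c t : Finset α) : Set α) ≤
      fixingSubgroup G (t : Set α) := by
    intro c g hg
    rw [hmem] at hg ⊢
    exact fun x hx => hg x (Finset.mem_insert_of_mem hx)
  have hSinv : ∀ c, ∀ g : fixingSubgroup G ((insert c t : Finset α) : Set α),
      ∀ s ∈ S, g • s ∈ S := by
    intro c g s hs
    rw [hSmem] at hs ⊢
    obtain ⟨h, rfl⟩ := hs
    refine ⟨⟨g.1, hle c g.2⟩ * h, ?_⟩
    show (⟨g.1, hle c g.2⟩ * h) • a = g • (h • a)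
    rw [mul_smul]
    rfl
  have h1 : r ∣ S.card := by
    refine div_lemma (fixingSubgroup G ((insert b t : Finset α) : Set α)) r _ S rfl
      (hSinv b) ?_
    intro s hs
    refine horb' b s hb ?_
    rw [Finset.mem_insert]
    rintro (rfl | h)
    · exact hbO ((hSmem _).mp hs)
    · exact hOt s ((hSmem _).mp hs) h
  have h2 : r ∣ (S.erase a).card := by
    refine div_lemma (fixingSubgroup G ((insert a t : Finset α) : Set α)) r _ (S.erase a) rfl
      ?_ ?_
    · intro g s hs
      rw [Finset.mem_erase] at hs ⊢
      refine ⟨fun hgs => hs.1 ?_, hSinv a g s hs.2⟩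
      have hga : g • a = a := (hmem _ g.1).mp g.2 a (Finset.mem_insert_self _ _)
      exact MulAction.injective g (hgs.trans hga.symm)
    · intro s hs
      rw [Finset.mem_erase] at hs
      refine horb' a s ha ?_
      rw [Finset.mem_insert]
      rintro (h | h)
      · exact hs.1 h
      · exact hOt s ((hSmem _).mp hs.2) h
  have haS : a ∈ S := (hSmem a).mpr (MulAction.mem_orbit_self a)
  rw [Finset.card_erase_of_mem haS] at h2
  have hpos : 0 < S.card := Finset.card_pos.mpr ⟨a, haS⟩
  have h3 : r ∣ 1 := by
    have := (Nat.dvd_sub h1 h2)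
    have e : S.card - (S.card - 1) = 1 := by omega
    rwa [e] at this
  exact hr1 (Nat.dvd_one.mp h3)

/-- If for some `k > 1` the pointwise stabilisers of all `(k-1)`-subsets have the same order `> 1` and those of all `k`-subsets have the same order, then the group is `(k-1)`-transitive. -/
theorem result {α : Type*} [Fintype α] [DecidableEq α] (G : Subgroup (Equiv.Perm α)) {k : ℕ} (hk : 1 < k) (hkn : k ≤ Fintype.card α) (l m : ℕ) (hl : 1 < l) (hkm1 : ∀ s : Finset α, s.card = k - 1 → Nat.card (fixingSubgroup G (s : Set α)) = l) (hkm : ∀ s : Finset α, s.card = k → Nat.card (fixingSubgroup G (s : Set α)) = m) : MulAction.IsMultiplyPretransitive G α (k - 1) := by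
  classical
  have gl := gle2 G l m hl hkm1 hkm
  have move : ∀ (x : Fin (k - 1) ↪ α) (i : Fin (k - 1)) (c : α), (∀ l, l ≠ i → x l ≠ c) →
      ∃ g : G, (∀ l, l ≠ i → (g • x) l = x l) ∧ (g • x) i = c := by
    intro x i c hc
    have hcard : ((Finset.univ.erase i).map x).card + 2 = k := by
      rw [Finset.card_map, Finset.card_erase_of_mem (Finset.mem_univ i), Finset.card_univ,
        Fintype.card_fin]
      have := i.pos
      omega
    have h1 : x i ∉ (Finset.univ.erase i).map x := by
      intro hmem
      obtain ⟨l, hl, hxl⟩ := Finset.mem_map.mp hmem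
      exact (Finset.mem_erase.mp hl).1 (x.injective hxl)
    have h2 : c ∉ (Finset.univ.erase i).map x := by
      intro hmem
      obtain ⟨l, hl, hxl⟩ := Finset.mem_map.mp hmem
      exact hc l (Finset.mem_erase.mp hl).1 hxl
    obtain ⟨g, hg1, hg2⟩ := gl ((Finset.univ.erase i).map x) hcard (x i) c h1 h2
    exact ⟨g, fun l hl => hg1 (x l)
      (Finset.mem_map_of_mem x (Finset.mem_erase.mpr ⟨hl, Finset.mem_univ l⟩)), hg2⟩
  refine ⟨fun x y => ?_⟩
  have caseA : ∀ (x : Fin (k - 1) ↪ α) (i : Fin (k - 1)), x i ≠ y i → (∀ l, x l ≠ y i) →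
      ∃ g : G, Finset.univ.filter (fun l => (g • x) l ≠ y l) ⊂
        Finset.univ.filter (fun l => x l ≠ y l) := by
    intro x i hi hc
    obtain ⟨g, hg1, hg2⟩ := move x i (y i) (fun l _ => hc l)
    refine ⟨g, ?_⟩
    rw [Finset.ssubset_iff_of_subset]
    · refine ⟨i, by simp [hi], ?_⟩
      rw [Finset.mem_filter, hg2]
      simp
    · intro l hl
      rw [Finset.mem_filter] at hl ⊢
      refine ⟨Finset.mem_univ _, fun hxl => hl.2 ?_⟩
      by_cases hli : l = i
      · subst hli
        exact hg2
      · exact (hg1 l hli).trans hxl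
  have step : ∀ (d : ℕ) (x : Fin (k - 1) ↪ α),
      (Finset.univ.filter (fun l => x l ≠ y l)).card = d → ∃ g : G, g • x = y := by
    intro d
    induction d using Nat.strong_induction_on with
    | _ d ih =>
      intro x hd
      rcases Nat.eq_zero_or_pos d with rfl | hpos
      · refine ⟨1, ?_⟩
        ext l
        show x l = y l
        by_contra hl
        have : l ∈ Finset.univ.filter (fun l => x l ≠ y l) := by
          simp [hl]
        rw [Finset.card_eq_zero.mp hd] at this
        simp at this
      · obtain ⟨i, hi⟩ : ∃ i, i ∈ Finset.univ.filter (fun l => x l ≠ y l) := by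
          rw [← hd] at hpos
          exact Finset.card_pos.mp hpos
        have hi' : x i ≠ y i := (Finset.mem_filter.mp hi).2
        have key : ∃ g : G, Finset.univ.filter (fun l => (g • x) l ≠ y l) ⊂
            Finset.univ.filter (fun l => x l ≠ y l) := by
          by_cases hy : ∃ j, x j = y i
          · obtain ⟨j, hj⟩ := hy
            have hji : j ≠ i := by
              rintro rfl
              exact hi' hj
            obtain ⟨z, hz⟩ : ∃ z, ∀ l, x l ≠ z := by
              by_contra hcon
              push_neg at hcon
              have : Fintype.card α ≤ Fintype.card (Fin (k - 1)) :=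
                Fintype.card_le_of_surjective x (fun z => hcon z)
              rw [Fintype.card_fin] at this
              omega
            obtain ⟨g1, hg1, hg2⟩ := move x j z (fun l _ => hz l)
            have hsub1 : Finset.univ.filter (fun l => (g1 • x) l ≠ y l) ⊆
                Finset.univ.filter (fun l => x l ≠ y l) := by
              intro l hl
              rw [Finset.mem_filter] at hl ⊢
              refine ⟨Finset.mem_univ _, fun hxl => hl.2 ?_⟩
              by_cases hlj : l = j
              · exfalso
                subst hlj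
                exact hji (y.injective (hxl.symm.trans hj))
              · exact (hg1 l hlj).trans hxl
            have hi1 : (g1 • x) i ≠ y i := by
              rw [hg1 i (Ne.symm hji)]
              exact hi'
            have hc1 : ∀ l, (g1 • x) l ≠ y i := by
              intro l
              by_cases hlj : l = j
              · subst hlj
                rw [hg2, ← hj]
                exact (hz l).symm
              · rw [hg1 l hlj, ← hj]
                exact fun h => hlj (x.injective h)
            obtain ⟨g2, hg2'⟩ := caseA (g1 • x) i hi1 hc1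
            exact ⟨g2 * g1, Finset.ssubset_of_ssubset_of_subset hg2' hsub1⟩
          · push_neg at hy
            exact caseA x i hi' hy
        obtain ⟨g, hg⟩ := key
        obtain ⟨g', hg'⟩ := ih _ (by rw [← hd]; exact Finset.card_lt_card hg) (g • x) rfl
        refine ⟨g' * g, ?_⟩
        ext l
        exact DFunLike.congr_fun hg' l
  exact step _ x rfl

end Cfsg.Agent.S0744
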