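import Cfsg.Statements.S0754
import Mathlib


set_option autoImplicit false
open Cfsg

namespace Cfsg.Agent.S0754

/-- In a field F with q^2 elements, every non-zero μ with μ^q = μ (that is, μ in the subfield of order q) has exactly q + 1 solutions λ of λ^(q+1) = μ. -/
theorem result {F : Type*} [Field F] [Fintype F] {q : ℕ} (hF : Fintype.card F = q ^ 2) (μ : F) (hμ : μ ≠ 0) (hμq : μ ^ q = μ) : Nat.card {x : F // x ^ (q + 1) = μ} = q + 1 := by
  classical
  have hq2 : 2 ≤ q := by
    have h1 : 1 < Fintype.card F := Fintype.one_lt_card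
    rw [hF] at h1
    by_contra h
    push Not at h
    interval_cases q <;> simp at h1
  have key : (q - 1) * (q + 1) + 1 = q ^ 2 := by
    obtain ⟨k, rfl⟩ : ∃ k, q = k + 1 := ⟨q - 1, by omega⟩
    simp only [Nat.add_sub_cancel]
    ring
  obtain ⟨s, hs⟩ : ∃ s : Finset F, s = Finset.univ.filter (fun x : F => x ≠ 0) := ⟨_, rfl⟩
  obtain ⟨t, ht⟩ : ∃ t : Finset F, t = Finset.univ.filter (fun ν : F => ν ≠ 0 ∧ ν ^ q = ν) :=
    ⟨_, rfl⟩
  have hmaps : (s : Set F).MapsTo (fun x : F => x ^ (q + 1)) t := by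
    intro x hx
    rw [hs, Finset.mem_coe, Finset.mem_filter] at hx
    rw [ht, Finset.mem_coe, Finset.mem_filter]
    refine ⟨Finset.mem_univ _, pow_ne_zero _ hx.2, ?_⟩
    have h1 : x ^ (q ^ 2) = x := by rw [← hF]; exact FiniteField.pow_card x
    calc (x ^ (q + 1)) ^ q = x ^ (q ^ 2) * x ^ q := by rw [← pow_mul, ← pow_add]; congr 1; ring
      _ = x ^ (q + 1) := by rw [h1, pow_succ']
  have hcount := Finset.card_eq_sum_card_fiberwise hmaps
  have hscard : s.card + 1 = q ^ 2 := by
    rw [hs, Finset.filter_ne' Finset.univ (0 : F), Finset.card_erase_of_mem (Finset.mem_univ _),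
      Finset.card_univ, hF]
    have : 1 ≤ q ^ 2 := Nat.one_le_pow _ _ (by omega)
    omega
  have hfib : ∀ ν : F, (s.filter (fun x : F => x ^ (q + 1) = ν)).card ≤ q + 1 := by
    intro ν
    have h1 : s.filter (fun x : F => x ^ (q + 1) = ν) ⊆ Polynomial.nthRootsFinset (q + 1) ν := by
      intro x hx
      rw [Finset.mem_filter] at hx
      rw [Polynomial.mem_nthRootsFinset (Nat.succ_pos q)]
      exact hx.2
    refine (Finset.card_le_card h1).trans ?_
    rw [Polynomial.nthRootsFinset_def]
    exact (Multiset.toFinset_card_le _).trans (Polynomial.card_nthRoots _ _)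
  have htcard : t.card ≤ q - 1 := by
    have h1 : t ⊆ ((Polynomial.X ^ q - Polynomial.X : Polynomial F).roots.toFinset).erase 0 := by
      intro ν hν
      rw [ht, Finset.mem_filter] at hν
      rw [Finset.mem_erase, Multiset.mem_toFinset,
        Polynomial.mem_roots (FiniteField.X_pow_card_sub_X_ne_zero F (by omega))]
      refine ⟨hν.2.1, ?_⟩
      simp [Polynomial.IsRoot, hν.2.2]
    have h0 : (0 : F) ∈ (Polynomial.X ^ q - Polynomial.X : Polynomial F).roots.toFinset := by
      rw [Multiset.mem_toFinset,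
        Polynomial.mem_roots (FiniteField.X_pow_card_sub_X_ne_zero F (by omega))]
      simp [Polynomial.IsRoot, zero_pow (by omega : q ≠ 0)]
    have h2 := Finset.card_le_card h1
    rw [Finset.card_erase_of_mem h0] at h2
    have h3 : (Polynomial.X ^ q - Polynomial.X : Polynomial F).roots.toFinset.card ≤ q := by
      refine (Multiset.toFinset_card_le _).trans ?_
      refine (Polynomial.card_roots' _).trans ?_
      rw [FiniteField.X_pow_card_sub_X_natDegree_eq F (by omega)]
    omega
  have hμt : μ ∈ t := by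
    rw [ht, Finset.mem_filter]; exact ⟨Finset.mem_univ _, hμ, hμq⟩
  have hfibμ : (s.filter (fun x : F => x ^ (q + 1) = μ)).card = q + 1 := by
    by_contra hne
    have hlt : (s.filter (fun x : F => x ^ (q + 1) = μ)).card < q + 1 :=
      lt_of_le_of_ne (hfib μ) hne
    have h1 : ∑ b ∈ t, (s.filter (fun x : F => x ^ (q + 1) = b)).card < ∑ b ∈ t, (q + 1) :=
      Finset.sum_lt_sum (fun b _ => hfib b) ⟨μ, hμt, hlt⟩
    rw [Finset.sum_const, smul_eq_mul, ← hcount] at h1
    have h2 : t.card * (q + 1) ≤ (q - 1) * (q + 1) := Nat.mul_le_mul_right _ htcard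
    omega
  rw [Nat.card_eq_fintype_card, Fintype.card_subtype]
  refine Eq.trans ?_ hfibμ
  congr 1
  ext x
  rw [Finset.mem_filter, Finset.mem_filter, hs, Finset.mem_filter]
  constructor
  · rintro ⟨_, hx⟩
    refine ⟨⟨Finset.mem_univ _, ?_⟩, hx⟩
    rintro rfl
    rw [zero_pow (Nat.succ_ne_zero q)] at hx
    exact hμ hx.symm
  · rintro ⟨_, hx⟩
    exact ⟨Finset.mem_univ _, hx⟩
end Cfsg.Agent.S0754
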