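import Cfsg.Statements.S0757
import Mathlib


set_option autoImplicit false
open Cfsg

namespace Cfsg.Agent.S0757

/-- The two diagonal forms Σ x_i^2 and Σ_(i<n) x_i^2 + α x_n^2 on F^(n+1), with α a non-square and 2 ≠ 0 in F, are inequivalent quadratic forms (so over a finite field of odd order there are exactly two classes of non-singular symmetric bilinear forms in each dimension). -/
theorem result {F : Type*} [Field F] (h2 : (2 : F) ≠ 0) (n : ℕ) (α : F) (hα : ¬ IsSquare α) : ¬ (QuadraticMap.weightedSumSquares F (fun _ : Fin (n + 1) => (1 : F))).Equivalent (QuadraticMap.weightedSumSquares F (fun i : Fin (n + 1) => if i = Fin.last n then α else (1 : F))) := by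
  classical
  rintro ⟨e⟩
  obtain ⟨w, hw⟩ : ∃ w : Fin (n + 1) → F, w = fun i => if i = Fin.last n then α else 1 :=
    ⟨_, rfl⟩
  have he : ∀ x : Fin (n + 1) → F, ∑ i, w i * (e x i * e x i) = ∑ i, x i * x i := by
    intro x
    have h := e.map_app x
    rw [QuadraticMap.weightedSumSquares_apply, QuadraticMap.weightedSumSquares_apply] at h
    simp only [smul_eq_mul, one_mul] at h
    rw [hw]; exact h
  have hpol : ∀ x y : Fin (n + 1) → F, ∑ i, w i * (e x i * e y i) = ∑ i, x i * y i := by
    intro x y
    have h1 := he (x + y)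
    have h2' := he x
    have h3 := he y
    rw [map_add] at h1
    simp only [Pi.add_apply] at h1
    have e1 : ∑ i, w i * ((e x i + e y i) * (e x i + e y i)) =
        ∑ i, w i * (e x i * e x i) + ∑ i, w i * (e y i * e y i) +
          2 * ∑ i, w i * (e x i * e y i) := by
      rw [Finset.mul_sum, ← Finset.sum_add_distrib, ← Finset.sum_add_distrib]
      apply Finset.sum_congr rfl
      intro i _
      ring
    have e2 : ∑ i, (x i + y i) * (x i + y i) =
        ∑ i, x i * x i + ∑ i, y i * y i + 2 * ∑ i, x i * y i := by
      rw [Finset.mul_sum, ← Finset.sum_add_distrib, ← Finset.sum_add_distrib]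
      apply Finset.sum_congr rfl
      intro i _
      ring
    rw [e1, e2, h2', h3] at h1
    have h4 : 2 * ∑ i, w i * (e x i * e y i) = 2 * ∑ i, x i * y i := by
      linear_combination h1
    exact mul_left_cancel₀ h2 h4
  obtain ⟨E, hE⟩ : ∃ E : Matrix (Fin (n + 1)) (Fin (n + 1)) F,
      E = Matrix.of (fun k i => e (Pi.single i 1) k) := ⟨_, rfl⟩
  have hmat : E.transpose * Matrix.diagonal w * E = 1 := by
    ext i j
    rw [Matrix.mul_apply]
    have h5 : ∀ k : Fin (n + 1), (E.transpose * Matrix.diagonal w) i k * E k j =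
        w k * (e (Pi.single i 1) k * e (Pi.single j 1) k) := by
      intro k
      rw [Matrix.mul_diagonal, Matrix.transpose_apply, hE]
      simp only [Matrix.of_apply]
      ring
    rw [Finset.sum_congr rfl (fun k _ => h5 k), hpol, Matrix.one_apply]
    simp [Pi.single_apply, eq_comm]
  have hdet := congrArg Matrix.det hmat
  rw [Matrix.det_mul, Matrix.det_mul, Matrix.det_transpose, Matrix.det_diagonal, Matrix.det_one]
    at hdet
  have hprod : ∏ i, w i = α := by
    rw [hw]
    simp [Finset.prod_ite_eq']
  rw [hprod] at hdet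
  have hE0 : E.det ≠ 0 := by
    rintro h
    rw [h] at hdet
    simp at hdet
  apply hα
  refine ⟨E.det⁻¹, ?_⟩
  field_simp
  linear_combination hdet
end Cfsg.Agent.S0757
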