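import Cfsg.Statements.S0758
import Mathlib


set_option autoImplicit false
open Cfsg

namespace Cfsg.Agent.S0758

/-- For a finite field F of odd order q and a non-square α: the form x² + y² is isotropic iff q ≡ 1 mod 4, and the form x² + α y² is isotropic iff q ≡ 3 mod 4. -/
theorem result {F : Type*} [Field F] [Fintype F] (h2 : (2 : F) ≠ 0) (α : F) (hα : ¬ IsSquare α) : ((∃ x y : F, (x ≠ 0 ∨ y ≠ 0) ∧ x ^ 2 + y ^ 2 = 0) ↔ Fintype.card F % 4 = 1) ∧ ((∃ x y : F, (x ≠ 0 ∨ y ≠ 0) ∧ x ^ 2 + α * y ^ 2 = 0) ↔ Fintype.card F % 4 = 3) := by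
  classical
  have hchar : ringChar F ≠ 2 := by
    intro h
    haveI : CharP F 2 := ringChar.of_eq h
    exact h2 (CharTwo.two_eq_zero)
  have hodd := FiniteField.odd_card_of_char_ne_two hchar
  have hm1 := FiniteField.isSquare_neg_one_iff (F := F)
  have hα0 : α ≠ 0 := by
    rintro rfl
    exact hα ⟨0, by simp⟩
  -- product of nonsquares is a square
  have hprod : ¬ IsSquare (-1 : F) → IsSquare (-α) := by
    intro hn
    have h1 : quadraticChar F (-1) = -1 := quadraticChar_neg_one_iff_not_isSquare.mpr hn
    have h3 : quadraticChar F α = -1 := quadraticChar_neg_one_iff_not_isSquare.mpr hα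
    have h4 : quadraticChar F (-α) = 1 := by
      have : (-α) = (-1) * α := by ring
      rw [this, map_mul, h1, h3]; norm_num
    exact (quadraticChar_one_iff_isSquare (neg_ne_zero.mpr hα0)).mp h4
  constructor
  · constructor
    · rintro ⟨x, y, hxy, h⟩
      have hy : y ≠ 0 := by
        rintro rfl
        simp only [ne_eq, not_true_eq_false, or_false] at hxy
        apply hxy
        simpa using h
      have hsq : IsSquare (-1 : F) := by
        refine ⟨x / y, ?_⟩
        field_simp
        linear_combination -h
      have := hm1.mp hsq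
      omega
    · intro h
      have hsq : IsSquare (-1 : F) := hm1.mpr (by omega)
      obtain ⟨i, hi⟩ := hsq
      refine ⟨i, 1, Or.inr one_ne_zero, ?_⟩
      linear_combination -hi
  · constructor
    · rintro ⟨x, y, hxy, h⟩
      have hy : y ≠ 0 := by
        rintro rfl
        simp only [ne_eq, not_true_eq_false, or_false] at hxy
        apply hxy
        simpa using h
      have hsq : IsSquare (-α) := by
        refine ⟨x / y, ?_⟩
        field_simp
        linear_combination -h
      have hnot : ¬ IsSquare (-1 : F) := by
        rintro ⟨i, hi⟩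
        obtain ⟨s, hs⟩ := hsq
        apply hα
        have hi0 : i ≠ 0 := by
          rintro rfl
          simp at hi
        refine ⟨s / i, ?_⟩
        field_simp
        linear_combination (-α) * hi + hs
      have : ¬ (Fintype.card F % 4 ≠ 3) := fun h' => hnot (hm1.mpr h')
      omega
    · intro h
      have hnot : ¬ IsSquare (-1 : F) := fun hs => (hm1.mp hs) h
      obtain ⟨s, hs⟩ := hprod hnot
      refine ⟨s, 1, Or.inr one_ne_zero, ?_⟩
      linear_combination -hs
end Cfsg.Agent.S0758
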