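import Cfsg.Statements.S0759
import Mathlib
-- import your own Cfsg.Agent.* helpers here

set_option autoImplicit false
open Cfsg

namespace Cfsg.Agent.S0759


open Matrix

theorem det_swapJ {F : Type*} [Field F] (h2 : (2 : F) ≠ 0) (m : ℕ) :
    (fromBlocks (0 : Matrix (Fin m) (Fin m) F) (1 : Matrix (Fin m) (Fin m) F) (1 : Matrix (Fin m) (Fin m) F) (0 : Matrix (Fin m) (Fin m) F)).det = (-1) ^ m := by
  have hS : fromBlocks (0 : Matrix (Fin m) (Fin m) F) (1 : Matrix (Fin m) (Fin m) F) (1 : Matrix (Fin m) (Fin m) F) (0 : Matrix (Fin m) (Fin m) F) *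
      fromBlocks (1 : Matrix (Fin m) (Fin m) F) (1 : Matrix (Fin m) (Fin m) F) (1 : Matrix (Fin m) (Fin m) F) (-1 : Matrix (Fin m) (Fin m) F) =
      fromBlocks (1 : Matrix (Fin m) (Fin m) F) (1 : Matrix (Fin m) (Fin m) F) (1 : Matrix (Fin m) (Fin m) F) (-1 : Matrix (Fin m) (Fin m) F) *
        fromBlocks (1 : Matrix (Fin m) (Fin m) F) (0 : Matrix (Fin m) (Fin m) F) (0 : Matrix (Fin m) (Fin m) F) (-1 : Matrix (Fin m) (Fin m) F) := by
    simp [fromBlocks_multiply]
  have hSS : fromBlocks (1 : Matrix (Fin m) (Fin m) F) (1 : Matrix (Fin m) (Fin m) F) (1 : Matrix (Fin m) (Fin m) F) (-1 : Matrix (Fin m) (Fin m) F) *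
      fromBlocks (1 : Matrix (Fin m) (Fin m) F) (1 : Matrix (Fin m) (Fin m) F) (1 : Matrix (Fin m) (Fin m) F) (-1 : Matrix (Fin m) (Fin m) F) =
      fromBlocks ((2:F) • (1 : Matrix (Fin m) (Fin m) F)) (0 : Matrix (Fin m) (Fin m) F) (0 : Matrix (Fin m) (Fin m) F) ((2:F) • (1 : Matrix (Fin m) (Fin m) F)) := by
    rw [fromBlocks_multiply]
    congr 1 <;> simp [two_smul]
  have hdetS : (fromBlocks (1 : Matrix (Fin m) (Fin m) F) (1 : Matrix (Fin m) (Fin m) F) (1 : Matrix (Fin m) (Fin m) F) (-1 : Matrix (Fin m) (Fin m) F)).det ≠ 0 := by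
    intro h
    have := congrArg det hSS
    rw [det_mul, h, zero_mul, det_fromBlocks_zero₂₁, det_smul, det_one, mul_one,
      Fintype.card_fin] at this
    exact (pow_ne_zero _ h2) (mul_self_eq_zero.mp this.symm)
  have h3 := congrArg det hS
  rw [det_mul, det_mul, det_fromBlocks_zero₂₁, det_one, one_mul, det_neg, det_one, mul_one,
    Fintype.card_fin] at h3
  exact mul_right_cancel₀ hdetS (h3.trans (mul_comm _ _))

theorem dirNec {F : Type*} [Field F] (h2 : (2 : F) ≠ 0) (m : ℕ)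
    (W : Submodule F (Fin (2 * m) → F)) (hdim : Module.finrank F W = m)
    (hW : ∀ w ∈ W, ∑ i, w i ^ 2 = 0) : IsSquare ((-1 : F) ^ m) := by
  classical
  have hB : ∀ x ∈ W, ∀ y ∈ W, ∑ i, x i * y i = 0 := by
    intro x hx y hy
    have h1 := hW (x + y) (W.add_mem hx hy)
    have h2' := hW x hx
    have h3 := hW y hy
    have e : ∑ i, (x + y) i ^ 2 = ∑ i, x i ^ 2 + 2 * ∑ i, x i * y i + ∑ i, y i ^ 2 := by
      rw [Finset.mul_sum, ← Finset.sum_add_distrib, ← Finset.sum_add_distrib]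
      refine Finset.sum_congr rfl fun i _ => ?_
      simp only [Pi.add_apply]
      ring
    rw [e, h2', h3, zero_add, add_zero] at h1
    exact (mul_eq_zero.mp h1).resolve_left h2
  obtain ⟨W', hc⟩ := Submodule.exists_isCompl W
  have hdim' : Module.finrank F W' = m := by
    have := Submodule.finrank_add_eq_of_isCompl hc
    rw [hdim, Module.finrank_fin_fun] at this
    omega
  let b := Module.finBasisOfFinrankEq F W hdim
  let b' := Module.finBasisOfFinrankEq F W' hdim'
  let B₀ : Module.Basis (Fin m ⊕ Fin m) F (Fin (2 * m) → F) :=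
    (b.prod b').map (Submodule.prodEquivOfIsCompl W W' hc)
  have hB₀l : ∀ j, B₀ (Sum.inl j) ∈ W := by
    intro j
    simp [B₀]
  let e : Fin m ⊕ Fin m ≃ Fin (2 * m) := finSumFinEquiv.trans (finCongr (two_mul m).symm)
  let P : Matrix (Fin m ⊕ Fin m) (Fin m ⊕ Fin m) F := fun s t => B₀ s (e t)
  have hPunit : IsUnit P := by
    rw [← Matrix.linearIndependent_rows_iff_isUnit]
    have := B₀.linearIndependent.map' (LinearEquiv.funCongrLeft F F e).toLinearMap
      (LinearEquiv.ker _)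
    exact this
  have hG : ∀ s t, (P * Pᵀ) s t = ∑ i, B₀ s i * B₀ t i := by
    intro s t
    rw [Matrix.mul_apply]
    simp only [Matrix.transpose_apply, P]
    exact Equiv.sum_comp e (fun i => B₀ s i * B₀ t i)
  have hG11 : (P * Pᵀ).toBlocks₁₁ = 0 := by
    ext j j'
    show (P * Pᵀ) (Sum.inl j) (Sum.inl j') = 0
    rw [hG]
    exact hB _ (hB₀l j) _ (hB₀l j')
  have hG21 : (P * Pᵀ).toBlocks₂₁ = ((P * Pᵀ).toBlocks₁₂)ᵀ := by
    ext j j'
    show (P * Pᵀ) (Sum.inr j) (Sum.inl j') = (P * Pᵀ) (Sum.inl j') (Sum.inr j)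
    rw [hG, hG]
    exact Finset.sum_congr rfl fun i _ => mul_comm _ _
  have hGeq : P * Pᵀ = fromBlocks 0 (P * Pᵀ).toBlocks₁₂ ((P * Pᵀ).toBlocks₁₂)ᵀ
      (P * Pᵀ).toBlocks₂₂ := by
    rw [← hG11, ← hG21]
    exact (fromBlocks_toBlocks _).symm
  have h1 : (P * Pᵀ) * fromBlocks 0 1 1 0 = fromBlocks (P * Pᵀ).toBlocks₁₂ 0
      (P * Pᵀ).toBlocks₂₂ ((P * Pᵀ).toBlocks₁₂)ᵀ := by
    conv_lhs => rw [hGeq]
    rw [fromBlocks_multiply]
    simp
  have h2' := congrArg det h1
  rw [det_mul, det_mul, det_transpose, det_swapJ h2, det_fromBlocks_zero₁₂, det_transpose] at h2'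
  have hPdet : P.det ≠ 0 := ((Matrix.isUnit_iff_isUnit_det P).mp hPunit).ne_zero
  refine ⟨(P * Pᵀ).toBlocks₁₂.det / P.det, ?_⟩
  field_simp
  linear_combination h2'

theorem exists_L {F : Type*} [Field F] [Fintype F] (m : ℕ)
    (h : ¬ (Fintype.card F % 4 = 3 ∧ Odd m)) :
    ∃ L : (Fin m → F) →ₗ[F] (Fin m → F), ∀ c, ∑ j, (L c j) ^ 2 = - ∑ j, c j ^ 2 := by
  classical
  by_cases h4 : Fintype.card F % 4 = 3
  · have hm : Even m := by
      rw [← Nat.not_odd_iff_even]
      exact fun ho => h ⟨h4, ho⟩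
    obtain ⟨k, hk⟩ := hm
    subst hk
    obtain ⟨a, b, hab⟩ : ∃ a b : F, a ^ 2 + b ^ 2 = -1 := by
      have hodd : Fintype.card F % 2 = 1 := by omega
      obtain ⟨a, b, hab⟩ := FiniteField.exists_root_sum_quadratic (f := Polynomial.X ^ 2)
        (g := Polynomial.X ^ 2 + 1) (Polynomial.degree_X_pow 2) (by
          rw [Polynomial.degree_add_eq_left_of_degree_lt]
          · exact Polynomial.degree_X_pow 2
          · rw [Polynomial.degree_X_pow, Polynomial.degree_one]
            norm_num) hodd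
      refine ⟨a, b, ?_⟩
      simp at hab
      linear_combination hab
    let e' : Fin k ⊕ Fin k ≃ Fin (k + k) := finSumFinEquiv
    let L : (Fin (k + k) → F) →ₗ[F] (Fin (k + k) → F) :=
      { toFun := fun c i => Sum.elim
          (fun j => a * c (e' (Sum.inl j)) - b * c (e' (Sum.inr j)))
          (fun j => b * c (e' (Sum.inl j)) + a * c (e' (Sum.inr j))) (e'.symm i)
        map_add' := fun c d => by
          funext i
          rcases h : e'.symm i with j | j <;> simp [h] <;> ring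
        map_smul' := fun r c => by
          funext i
          rcases h : e'.symm i with j | j <;> simp [h] <;> ring }
    refine ⟨L, fun c => ?_⟩
    have e1 : ∑ i, (L c i) ^ 2 = ∑ s : Fin k ⊕ Fin k, (L c (e' s)) ^ 2 :=
      (Equiv.sum_comp e' _).symm
    have e2 : ∑ i, c i ^ 2 = ∑ s : Fin k ⊕ Fin k, c (e' s) ^ 2 := (Equiv.sum_comp e' _).symm
    rw [e1, e2, Fintype.sum_sum_type, Fintype.sum_sum_type]
    have hl : ∀ j, L c (e' (Sum.inl j)) =
        a * c (e' (Sum.inl j)) - b * c (e' (Sum.inr j)) := by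
      intro j
      show Sum.elim _ _ (e'.symm (e' (Sum.inl j))) = _
      rw [Equiv.symm_apply_apply]
      rfl
    have hr : ∀ j, L c (e' (Sum.inr j)) =
        b * c (e' (Sum.inl j)) + a * c (e' (Sum.inr j)) := by
      intro j
      show Sum.elim _ _ (e'.symm (e' (Sum.inr j))) = _
      rw [Equiv.symm_apply_apply]
      rfl
    simp only [hl, hr]
    rw [← Finset.sum_add_distrib, ← Finset.sum_add_distrib, ← Finset.sum_neg_distrib]
    refine Finset.sum_congr rfl fun j _ => ?_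
    linear_combination (c (e' (Sum.inl j)) ^ 2 + c (e' (Sum.inr j)) ^ 2) * hab
  · obtain ⟨ι, hι⟩ := FiniteField.isSquare_neg_one_iff.mpr h4
    refine ⟨ι • LinearMap.id, fun c => ?_⟩
    simp only [LinearMap.smul_apply, LinearMap.id_apply, Pi.smul_apply, smul_eq_mul, mul_pow]
    rw [← Finset.mul_sum, pow_two, ← hι]
    ring

theorem dirSuff {F : Type*} [Field F] (m : ℕ) (L : (Fin m → F) →ₗ[F] (Fin m → F))
    (hL : ∀ c, ∑ j, (L c j) ^ 2 = - ∑ j, c j ^ 2) :
    ∃ W : Submodule F (Fin (2 * m) → F), Module.finrank F W = m ∧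
      ∀ w ∈ W, ∑ i, w i ^ 2 = 0 := by
  classical
  let e : Fin m ⊕ Fin m ≃ Fin (2 * m) := finSumFinEquiv.trans (finCongr (two_mul m).symm)
  let T : (Fin m → F) →ₗ[F] (Fin (2 * m) → F) :=
    { toFun := fun c i => Sum.elim c (L c) (e.symm i)
      map_add' := fun c d => by
        funext i
        rcases h : e.symm i with j | j <;> simp [h]
      map_smul' := fun r c => by
        funext i
        rcases h : e.symm i with j | j <;> simp [h] }
  have hTl : ∀ c j, T c (e (Sum.inl j)) = c j := by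
    intro c j
    show Sum.elim c (L c) (e.symm (e (Sum.inl j))) = c j
    rw [Equiv.symm_apply_apply]
    rfl
  have hTr : ∀ c j, T c (e (Sum.inr j)) = L c j := by
    intro c j
    show Sum.elim c (L c) (e.symm (e (Sum.inr j))) = L c j
    rw [Equiv.symm_apply_apply]
    rfl
  have hinj : Function.Injective T := by
    intro c d hcd
    funext j
    rw [← hTl c j, ← hTl d j, hcd]
  refine ⟨LinearMap.range T, ?_, ?_⟩
  · rw [LinearMap.finrank_range_of_inj hinj, Module.finrank_fin_fun]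
  · rintro _ ⟨c, rfl⟩
    rw [← Equiv.sum_comp e, Fintype.sum_sum_type]
    simp only [hTl, hTr]
    rw [hL, add_neg_cancel]

/-- Type of the orthonormal form: over a finite field of odd order q and for m ≥ 1, the quadratic form Σ_(i<2m) x_i² on F^(2m) admits an m-dimensional subspace on which it vanishes identically if and only if it is not the case that q ≡ 3 (mod 4) and m is odd. -/
theorem result {F : Type*} [Field F] [Fintype F] (h2 : (2 : F) ≠ 0) (m : ℕ) (hm : 1 ≤ m) : (∃ W : Submodule F (Fin (2 * m) → F), Module.finrank F W = m ∧ ∀ w ∈ W, ∑ i, w i ^ 2 = 0) ↔ ¬ (Fintype.card F % 4 = 3 ∧ Odd m) := by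
  classical
  constructor
  · rintro ⟨W, hdim, hW⟩ ⟨h4, hodd⟩
    have := dirNec h2 m W hdim hW
    rw [hodd.neg_one_pow] at this
    exact (FiniteField.isSquare_neg_one_iff.mp this) h4
  · intro h
    obtain ⟨L, hL⟩ := exists_L m h
    exact dirSuff m L hL

end Cfsg.Agent.S0759
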