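import Cfsg.Statements.S0761
import Mathlib


set_option autoImplicit false
open Cfsg

namespace Cfsg.Agent.S0761

/-- Hyperbolic partners: let B be a non-degenerate bilinear form on a finite-dimensional space, either alternating, or symmetric with 2 ≠ 0. If Z is a subspace on which B vanishes, x ∉ Z is isotropic and orthogonal to Z, then there is an isotropic y with B x y = 1 which is orthogonal to Z. -/
theorem result {F V : Type*} [Field F] [AddCommGroup V] [Module F V] [FiniteDimensional F V] (B : LinearMap.BilinForm F V) (hB : B.Nondegenerate) (hform : B.IsAlt ∨ (B.IsSymm ∧ (2 : F) ≠ 0)) (x : V) (Z : Submodule F V) (hxZ : x ∉ Z) (hx : B x x = 0) (hxz : ∀ z ∈ Z, B x z = 0) (hZ : ∀ z ∈ Z, ∀ z' ∈ Z, B z z' = 0) : ∃ y : V, B y y = 0 ∧ B x y = 1 ∧ ∀ z ∈ Z, B z y = 0 := by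
  classical
  obtain ⟨f₀, hf₀x, hf₀Z⟩ := Submodule.exists_dual_map_eq_bot_of_notMem hxZ inferInstance
  obtain ⟨f, hf⟩ : ∃ f : Module.Dual F V, f = (f₀ x)⁻¹ • f₀ := ⟨_, rfl⟩
  have hfx : f x = 1 := by
    rw [hf, LinearMap.smul_apply, smul_eq_mul, inv_mul_cancel₀ hf₀x]
  have hfZ : ∀ z ∈ Z, f z = 0 := by
    intro z hz
    have h1 : f₀ z ∈ Z.map f₀ := ⟨z, hz, rfl⟩
    rw [hf₀Z, Submodule.mem_bot] at h1
    rw [hf, LinearMap.smul_apply, h1, smul_zero]
  obtain ⟨y₁, hy₁⟩ : ∃ y₁ : V, ∀ w : V, B y₁ w = f w :=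
    ⟨(B.toDual hB).symm f, fun w => LinearMap.BilinForm.apply_toDual_symm_apply f w⟩
  rcases hform with halt | ⟨hsymm, h2⟩
  · refine ⟨-y₁, ?_, ?_, ?_⟩
    · exact halt (-y₁)
    · have h3 : B x (-y₁) = -B (-y₁) x := by rw [← halt.neg_eq x (-y₁)]; simp
      rw [h3]
      simp only [map_neg, LinearMap.neg_apply, neg_neg]
      rw [hy₁ x, hfx]
    · intro z hz
      have h3 : B z (-y₁) = -B (-y₁) z := by rw [← halt.neg_eq z (-y₁)]; simp
      rw [h3]
      simp only [map_neg, LinearMap.neg_apply, neg_neg]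
      rw [hy₁ z, hfZ z hz]
  · obtain ⟨c, hc⟩ : ∃ c : F, c = B y₁ y₁ / 2 := ⟨_, rfl⟩
    have hyx : B y₁ x = 1 := by rw [hy₁ x, hfx]
    have hxy : B x y₁ = 1 := by rw [hsymm.eq x y₁]; exact hyx
    refine ⟨y₁ - c • x, ?_, ?_, ?_⟩
    · simp only [map_sub, LinearMap.sub_apply, map_smul, LinearMap.smul_apply, smul_eq_mul]
      rw [hyx, hxy, hx, hc]
      field_simp
      ring
    · simp only [map_sub, map_smul, smul_eq_mul]
      rw [hxy, hx]; ring
    · intro z hz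
      simp only [map_sub, map_smul, smul_eq_mul]
      rw [hsymm.eq z y₁, hy₁ z, hfZ z hz, hsymm.eq z x, hxz z hz]; ring
end Cfsg.Agent.S0761
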