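import Cfsg.Statements.S0762
import Mathlib


set_option autoImplicit false
open Cfsg

namespace Cfsg.Agent.S0762

/-- In characteristic two over a finite field, a quadratic form on a space of dimension at least 3 vanishes on some non-zero vector. -/
theorem result {F V : Type*} [Field F] [Finite F] [CharP F 2] [AddCommGroup V] [Module F V] [FiniteDimensional F V] (Q : QuadraticForm F V) (h3 : 3 ≤ Module.finrank F V) : ∃ v : V, v ≠ 0 ∧ Q v = 0 := by
  classical
  haveI : Fintype F := Fintype.ofFinite F
  by_contra hcon
  push Not at hcon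
  -- a nonzero vector
  have hpos : 0 < Module.finrank F V := by omega
  obtain ⟨u, hu⟩ := Module.finrank_pos_iff_exists_ne_zero.mp hpos
  have hQu : Q u ≠ 0 := hcon u hu
  -- the functional
  obtain ⟨φ, hφ⟩ : ∃ φ : V →ₗ[F] F, ∀ x, φ x = QuadraticMap.polar Q u x :=
    ⟨QuadraticMap.polarBilin Q u, fun x => rfl⟩
  have hker : 2 ≤ Module.finrank F (LinearMap.ker φ) := by
    have h1 := LinearMap.finrank_range_add_finrank_ker φ
    have h2 : Module.finrank F (LinearMap.range φ) ≤ 1 := by
      have := Submodule.finrank_le (LinearMap.range φ)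
      rwa [Module.finrank_self] at this
    omega
  have hspan : Module.finrank F (Submodule.span F ({u} : Set V)) ≤ 1 :=
    (finrank_span_le_card ({u} : Set V)).trans (by simp)
  have hnle : ¬ LinearMap.ker φ ≤ Submodule.span F ({u} : Set V) := by
    intro hle
    have := Submodule.finrank_mono hle
    omega
  obtain ⟨x, hxk, hxs⟩ := SetLike.not_le_iff_exists.mp hnle
  have hφx : QuadraticMap.polar Q u x = 0 := by rw [← hφ]; exact LinearMap.mem_ker.mp hxk
  obtain ⟨a, ha⟩ := FiniteField.isSquare_of_char_two (ringChar.eq F 2) (Q x / Q u)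
  apply hcon (a • u + x)
  · intro h0
    apply hxs
    have : x = (-a) • u := by
      have h1 : x = (a • u + x) - a • u := by abel
      rw [h1, h0, zero_sub, neg_smul]
    rw [this]
    exact Submodule.smul_mem _ _ (Submodule.subset_span (Set.mem_singleton u))
  · rw [QuadraticMap.map_add (⇑Q) (a • u) x, QuadraticMap.map_smul, QuadraticMap.polar_smul_left, hφx, smul_zero,
      add_zero, smul_eq_mul, ← ha, div_mul_cancel₀ _ hQu]
    exact CharTwo.add_self_eq_zero (Q x)
end Cfsg.Agent.S0762
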