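import Cfsg.Statements.S0763
import Mathlib

set_option autoImplicit false
open Cfsg

namespace Cfsg.Agent.S0763

/-- Binary quadratic forms in characteristic two over a finite field: if Q is a quadratic form on a 2-dimensional space whose polar form is non-degenerate, then either there are vectors v, w with Q v = Q w = 0 and polar value 1 (Q is xy in these coordinates), or there are v, w and μ with Q v = 1, Q w = μ, polar value 1 and x² + x + μ without roots in F (Q is x² + xy + μy²). -/
theorem result {F V : Type*} [Field F] [Finite F] [CharP F 2] [AddCommGroup V] [Module F V] (Q : QuadraticForm F V) (h2 : Module.finrank F V = 2) (hQ : (QuadraticMap.polarBilin Q).Nondegenerate) : (∃ v w : V, LinearIndependent F ![v, w] ∧ Q v = 0 ∧ Q w = 0 ∧ QuadraticMap.polar Q v w = 1) ∨ (∃ (v w : V) (μ : F), LinearIndependent F ![v, w] ∧ (∀ x : F, x ^ 2 + x + μ ≠ 0) ∧ Q v = 1 ∧ Q w = μ ∧ QuadraticMap.polar Q v w = 1) := by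
  classical
  have h2F : (2 : F) = 0 := CharTwo.two_eq_zero
  have hpolself : ∀ x : V, QuadraticMap.polar Q x x = 0 := by
    intro x
    rw [QuadraticMap.polar_self, two_smul, ← two_mul, h2F, zero_mul]
  have hnd : ∀ v : V, v ≠ 0 → ∃ w, QuadraticMap.polar Q v w = 1 := by
    intro v hv
    have h1 : ∃ w₀, QuadraticMap.polar Q v w₀ ≠ 0 := by
      by_contra hcon
      push Not at hcon
      apply hv
      apply hQ.1 v
      intro y
      rw [QuadraticMap.polarBilin_apply_apply]
      exact hcon y
    obtain ⟨w₀, hw₀⟩ := h1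
    refine ⟨(QuadraticMap.polar Q v w₀)⁻¹ • w₀, ?_⟩
    rw [QuadraticMap.polar_smul_right, smul_eq_mul, inv_mul_cancel₀ hw₀]
  have hLI : ∀ v w : V, v ≠ 0 → QuadraticMap.polar Q v w = 1 → LinearIndependent F ![v, w] := by
    intro v w hv hvw
    rw [LinearIndependent.pair_iff]
    intro s t hst
    have h1 : QuadraticMap.polar Q v (s • v + t • w) = t := by
      rw [QuadraticMap.polar_add_right, QuadraticMap.polar_smul_right,
        QuadraticMap.polar_smul_right, hpolself, hvw]
      simp
    rw [hst, QuadraticMap.polar_zero_right] at h1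
    have ht : t = 0 := h1.symm
    rw [ht, zero_smul, add_zero] at hst
    rcases smul_eq_zero.mp hst with h | h
    · exact ⟨h, ht⟩
    · exact absurd h hv
  haveI : Nontrivial V := Module.nontrivial_of_finrank_pos (R := F) (by rw [h2]; norm_num)
  by_cases hiso : ∃ v : V, v ≠ 0 ∧ Q v = 0
  · left
    obtain ⟨v, hv, hQv⟩ := hiso
    obtain ⟨w₁, hw₁⟩ := hnd v hv
    refine ⟨v, w₁ + (Q w₁) • v, ?_, hQv, ?_, ?_⟩
    · apply hLI v _ hv
      rw [QuadraticMap.polar_add_right, QuadraticMap.polar_smul_right, hpolself, hw₁]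
      simp
    · rw [QuadraticMap.map_add (⇑Q) w₁ ((Q w₁) • v), QuadraticMap.map_smul, hQv,
        QuadraticMap.polar_smul_right, QuadraticMap.polar_comm, hw₁]
      simp only [smul_eq_mul, mul_zero, add_zero, mul_one]
      rw [← two_mul, h2F, zero_mul]
    · rw [QuadraticMap.polar_add_right, QuadraticMap.polar_smul_right, hpolself, hw₁]
      simp
  · right
    push Not at hiso
    obtain ⟨v₀, hv₀⟩ := exists_ne (0 : V)
    have ha : Q v₀ ≠ 0 := hiso v₀ hv₀
    obtain ⟨s, hs⟩ := FiniteField.isSquare_of_char_two (ringChar.eq F 2) (Q v₀)⁻¹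
    have hs0 : s ≠ 0 := by
      rintro rfl
      rw [mul_zero] at hs
      exact inv_ne_zero ha hs
    have hv : s • v₀ ≠ 0 := smul_ne_zero hs0 hv₀
    have hQv : Q (s • v₀) = 1 := by
      rw [QuadraticMap.map_smul, ← hs, smul_eq_mul, inv_mul_cancel₀ ha]
    obtain ⟨w, hw⟩ := hnd (s • v₀) hv
    refine ⟨s • v₀, w, Q w, hLI _ _ hv hw, ?_, hQv, rfl, hw⟩
    intro x hx
    have h1 : Q (x • (s • v₀) + w) = 0 := by
      rw [QuadraticMap.map_add (⇑Q) (x • (s • v₀)) w, QuadraticMap.map_smul, hQv,
        QuadraticMap.polar_smul_left, hw]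
      simp only [smul_eq_mul, mul_one]
      linear_combination hx
    have h2 : x • (s • v₀) + w = 0 := by
      by_contra hne
      exact hiso _ hne h1
    have h3 : QuadraticMap.polar Q (s • v₀) (x • (s • v₀) + w) = 1 := by
      rw [QuadraticMap.polar_add_right, QuadraticMap.polar_smul_right, hpolself, hw]
      simp
    rw [h2, QuadraticMap.polar_zero_right] at h3
    exact zero_ne_one h3

end Cfsg.Agent.S0763
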