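import Cfsg.Statements.S0764
import Mathlib


set_option autoImplicit false
open Cfsg

namespace Cfsg.Agent.S0764

open Matrix

theorem J_mulVec_inl {F : Type*} [CommRing F] (m : ℕ) (v : Fin m ⊕ Fin m → F) (i : Fin m) :
    (J (Fin m) F *ᵥ v) (Sum.inl i) = - v (Sum.inr i) := by
  simp [J, Matrix.fromBlocks_mulVec, Matrix.neg_mulVec]

theorem J_mulVec_inr {F : Type*} [CommRing F] (m : ℕ) (v : Fin m ⊕ Fin m → F) (i : Fin m) :
    (J (Fin m) F *ᵥ v) (Sum.inr i) = v (Sum.inl i) := by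
  simp [J, Matrix.fromBlocks_mulVec]

theorem dot_J_self {F : Type*} [CommRing F] (m : ℕ) (v : Fin m ⊕ Fin m → F) :
    v ⬝ᵥ (J (Fin m) F *ᵥ v) = 0 := by
  rw [dotProduct, Fintype.sum_sum_type]
  simp only [J_mulVec_inl, J_mulVec_inr]
  rw [← Finset.sum_add_distrib]
  apply Finset.sum_eq_zero
  intro i _
  ring

theorem J_dot_self {F : Type*} [CommRing F] (m : ℕ) (v : Fin m ⊕ Fin m → F) :
    (J (Fin m) F *ᵥ v) ⬝ᵥ v = 0 := by
  rw [dotProduct_comm]; exact dot_J_self m v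

theorem J_mulVec_J_mulVec {F : Type*} [CommRing F] (m : ℕ) (v : Fin m ⊕ Fin m → F) :
    J (Fin m) F *ᵥ (J (Fin m) F *ᵥ v) = -v := by
  rw [Matrix.mulVec_mulVec, J_squared, Matrix.neg_mulVec, Matrix.one_mulVec]

theorem J_mulVec_vecMul_J {F : Type*} [CommRing F] (m : ℕ) (v : Fin m ⊕ Fin m → F) :
    (J (Fin m) F *ᵥ v) ᵥ* J (Fin m) F = v := by
  have h1 : J (Fin m) F *ᵥ v = v ᵥ* (-J (Fin m) F) := by
    rw [← J_transpose, Matrix.vecMul_transpose]
  rw [h1, Matrix.vecMul_vecMul, Matrix.neg_mul, J_squared, neg_neg, Matrix.vecMul_one]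

/-- Symplectic transvections are isometries: for every vector v and scalar c the matrix of x ↦ x + c f(x, v) v lies in the symplectic group. -/
theorem result {F : Type*} [Field F] (m : ℕ) (v : Fin m ⊕ Fin m → F) (c : F) : Cfsg.sympTransvection m v c ∈ Matrix.symplecticGroup (Fin m) F := by
  rw [SymplecticGroup.mem_iff]
  unfold Cfsg.sympTransvection
  rw [Matrix.transpose_add, Matrix.transpose_one, Matrix.transpose_smul, Matrix.transpose_vecMulVec]
  simp only [add_mul, mul_add, one_mul, mul_one, Matrix.smul_mul, Matrix.mul_smul]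
  rw [Matrix.vecMulVec_mul, J_mulVec_vecMul_J, Matrix.mul_vecMulVec, J_mulVec_J_mulVec,
    Matrix.vecMulVec_mul_vecMulVec, dot_J_self, zero_smul, Matrix.vecMulVec_zero, smul_zero,
    smul_zero, add_zero, Matrix.neg_vecMulVec, smul_neg]
  abel
end Cfsg.Agent.S0764
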