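import Cfsg.Statements.S0767
import Mathlib
import Cfsg.Agent.S0764


set_option autoImplicit false
open Cfsg

namespace Cfsg.Agent.S0767

/-- The root group of a point: T_v(c) T_v(d) = T_v(c + d), and for A in the symplectic group with A v = a v, the conjugate A T_v(c) A⁻¹ is again some T_v(d). -/
theorem result {F : Type*} [Field F] (m : ℕ) (v : Fin m ⊕ Fin m → F) : (∀ c d : F, Cfsg.sympTransvection m v c * Cfsg.sympTransvection m v d = Cfsg.sympTransvection m v (c + d)) ∧ ∀ (A : Matrix (Fin m ⊕ Fin m) (Fin m ⊕ Fin m) F) (a : F), A ∈ Matrix.symplecticGroup (Fin m) F → A.mulVec v = a • v → ∀ c : F, ∃ d : F, A * Cfsg.sympTransvection m v c * A⁻¹ = Cfsg.sympTransvection m v d := by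
  refine ⟨?_, ?_⟩
  · intro c d
    unfold Cfsg.sympTransvection
    simp only [add_mul, mul_add, one_mul, mul_one, Matrix.smul_mul, Matrix.mul_smul]
    rw [Matrix.vecMulVec_mul_vecMulVec, Cfsg.Agent.S0764.J_dot_self, zero_smul,
      Matrix.vecMulVec_zero, smul_zero, smul_zero, add_zero, add_smul]
    abel
  · intro A a hA hAv c
    refine ⟨c * a * a, ?_⟩
    unfold Cfsg.sympTransvection
    have hdet : IsUnit A.det := SymplecticGroup.symplectic_det hA
    have h1 : A * A⁻¹ = 1 := Matrix.mul_nonsing_inv A hdet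
    have hw : Matrix.vecMul (Matrix.mulVec (Matrix.J (Fin m) F) v) A⁻¹ =
        a • (Matrix.mulVec (Matrix.J (Fin m) F) v) := by
      rw [SymplecticGroup.inv_eq_symplectic_inv A hA, ← Matrix.vecMul_vecMul, ← Matrix.vecMul_vecMul,
        Matrix.vecMul_neg, Cfsg.Agent.S0764.J_mulVec_vecMul_J, Matrix.vecMul_transpose,
        Matrix.mulVec_neg, hAv]
      have h2 : Matrix.vecMul v (Matrix.J (Fin m) F) = -(Matrix.mulVec (Matrix.J (Fin m) F) v) := by
        have : Matrix.mulVec (Matrix.transpose (Matrix.J (Fin m) F)) v =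
            Matrix.vecMul v (Matrix.J (Fin m) F) := Matrix.mulVec_transpose _ _
        rw [← this, Matrix.J_transpose, Matrix.neg_mulVec]
      rw [Matrix.neg_vecMul, Matrix.smul_vecMul, h2, smul_neg, neg_neg]
    rw [mul_add, add_mul, mul_one, h1, Matrix.mul_smul, Matrix.smul_mul, Matrix.mul_vecMulVec,
      Matrix.vecMulVec_mul, hw, hAv, Matrix.smul_vecMulVec, Matrix.vecMulVec_smul, smul_smul, smul_smul]
end Cfsg.Agent.S0767
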