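import Cfsg.Statements.S0769
import Mathlib

set_option autoImplicit false
open Cfsg

namespace Cfsg.Agent.S0769

/-- Order of the Borel subgroup of GL_n(q): the invertible lower-triangular n × n matrices over a field with q elements number q^(n(n-1)/2) (q-1)^n (unitriangular part times the diagonal torus). -/
theorem result {F : Type*} [Field F] [Fintype F] {q : ℕ} (hF : Fintype.card F = q) (n : ℕ) : Nat.card {g : Matrix.GeneralLinearGroup (Fin n) F // ∀ i j : Fin n, i < j → (g : Matrix (Fin n) (Fin n) F) i j = 0} = q ^ (n * (n - 1) / 2) * (q - 1) ^ n := by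
  classical
  subst hF
  -- step 1: pass to matrices
  have hdiag : ∀ M : Matrix (Fin n) (Fin n) F, (∀ i j : Fin n, i < j → M i j = 0) →
      M.det = ∏ i, M i i := by
    intro M hM
    apply Matrix.det_of_isLowerTriangular
    intro i j hij
    exact hM i j (OrderDual.toDual_lt_toDual.mp hij)
  let P : Fin n × Fin n → F → Prop := fun p x => (p.1 < p.2 → x = 0) ∧ (p.1 = p.2 → x ≠ 0)
  let f : {g : Matrix.GeneralLinearGroup (Fin n) F //
      ∀ i j : Fin n, i < j → (g : Matrix (Fin n) (Fin n) F) i j = 0} →
      (∀ p : Fin n × Fin n, {x : F // P p x}) := fun g p =>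
    ⟨(g.1 : Matrix (Fin n) (Fin n) F) p.1 p.2, fun h => g.2 p.1 p.2 h, fun h => by
      have h1 := hdiag _ g.2
      have h2 : (g.1 : Matrix (Fin n) (Fin n) F).det ≠ 0 :=
        ((Matrix.isUnit_iff_isUnit_det _).mp (Units.isUnit g.1)).ne_zero
      rw [h1] at h2
      have h3 := (Finset.prod_ne_zero_iff.mp h2) p.1 (Finset.mem_univ _)
      rw [← h]
      exact h3⟩
  have hf : Function.Bijective f := by
    constructor
    · intro g g' hgg
      apply Subtype.ext
      apply Units.ext
      ext i j
      have := congrArg Subtype.val (congrFun hgg (i, j))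
      exact this
    · intro y
      obtain ⟨M, hM⟩ : ∃ M : Matrix (Fin n) (Fin n) F, M = Matrix.of (fun i j => (y (i, j)).1) :=
        ⟨_, rfl⟩
      have hlow : ∀ i j : Fin n, i < j → M i j = 0 := by
        intro i j hij
        rw [hM]
        exact (y (i, j)).2.1 hij
      have hdet : M.det ≠ 0 := by
        rw [hdiag M hlow, Finset.prod_ne_zero_iff]
        intro i _
        rw [hM]
        exact (y (i, i)).2.2 rfl
      refine ⟨⟨Matrix.GeneralLinearGroup.mkOfDetNeZero M hdet, hlow⟩, ?_⟩
      funext p
      apply Subtype.ext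
      show M p.1 p.2 = (y p).1
      rw [hM]
      rfl
  rw [Nat.card_congr (Equiv.ofBijective f hf), Nat.card_pi]
  -- step 2: count the entries
  have hcard : ∀ p : Fin n × Fin n, Nat.card {x : F // P p x} =
      (if p.2 < p.1 then Fintype.card F else 1) * (if p.1 = p.2 then Fintype.card F - 1 else 1) := by
    intro p
    rcases lt_trichotomy p.1 p.2 with h | h | h
    · rw [if_neg (not_lt.mpr h.le), if_neg h.ne, mul_one]
      have : {x : F // P p x} ≃ Unit :=
        { toFun := fun _ => (), invFun := fun _ => ⟨0, fun _ => rfl, fun h' => absurd h' h.ne⟩,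
          left_inv := fun x => Subtype.ext (x.2.1 h).symm, right_inv := fun _ => rfl }
      rw [Nat.card_congr this]
      simp
    · rw [if_neg (by rw [h]; exact lt_irrefl _), if_pos h, one_mul]
      have : {x : F // P p x} ≃ {x : F // x ≠ 0} :=
        Equiv.subtypeEquivRight (fun x => ⟨fun hx => hx.2 h, fun hx =>
          ⟨fun h' => absurd h (ne_of_lt h'), fun _ => hx⟩⟩)
      rw [Nat.card_congr this, Nat.card_eq_fintype_card, Fintype.card_subtype_compl,
        Fintype.card_subtype_eq]
    · rw [if_pos h, if_neg h.ne', mul_one]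
      have : {x : F // P p x} ≃ F :=
        { toFun := fun x => x.1, invFun := fun x => ⟨x, fun h' => absurd h (not_lt.mpr h'.le),
            fun h' => absurd h' h.ne'⟩,
          left_inv := fun x => rfl, right_inv := fun _ => rfl }
      rw [Nat.card_congr this, Nat.card_eq_fintype_card]
  simp only [hcard]
  rw [Fintype.prod_prod_type]
  have hrow : ∀ i : Fin n, ∏ j : Fin n, ((if j < i then Fintype.card F else 1) *
      (if i = j then Fintype.card F - 1 else 1)) = Fintype.card F ^ (i : ℕ) * (Fintype.card F - 1) := by
    intro i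
    rw [Finset.prod_mul_distrib, Finset.prod_ite_eq, if_pos (Finset.mem_univ _), Finset.prod_ite,
      Finset.prod_const, Finset.prod_const_one, mul_one]
    have : (Finset.univ.filter (fun j : Fin n => j < i)) = Finset.Iio i := by
      ext j
      simp
    rw [this, Fin.card_Iio]
  simp only [hrow]
  rw [Finset.prod_mul_distrib, Finset.prod_const, Finset.card_univ, Fintype.card_fin,
    Finset.prod_pow_eq_pow_sum, Fin.sum_univ_eq_sum_range (fun i => i) n, Finset.sum_range_id]

end Cfsg.Agent.S0769
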