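import Cfsg.Statements.S0770
import Mathlib
-- import your own Cfsg.Agent.* helpers here

set_option autoImplicit false
open Cfsg

namespace Cfsg.Agent.S0770


theorem exists_unit_comp {n : ℕ} {F : Type*} [Field F] (d : (Fin n → F)ˣ) (τ : Fin n → Fin n) :
    ∃ u : (Fin n → F)ˣ, (u : Fin n → F) = (d : Fin n → F) ∘ τ :=
  ⟨⟨(d : Fin n → F) ∘ τ, ((d⁻¹ : (Fin n → F)ˣ) : Fin n → F) ∘ τ,
    by ext i; exact congrFun d.mul_inv (τ i), by ext i; exact congrFun d.inv_mul (τ i)⟩, rfl⟩

theorem coe_diagUnit {n : ℕ} {F : Type*} [Field F] (u : (Fin n → F)ˣ) :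
    ((Units.map (Matrix.diagonalRingHom (Fin n) F).toMonoidHom u :
      Matrix.GeneralLinearGroup (Fin n) F) : Matrix (Fin n) (Fin n) F) =
      Matrix.diagonal (u : Fin n → F) := rfl

/-- For a field with at least 3 elements, an invertible matrix normalises the subgroup of invertible diagonal matrices of GL_n if and only if it is monomial (exactly one non-zero entry in each row). -/
theorem result {F : Type*} [Field F] (hF : ∃ a : F, a ≠ 0 ∧ a ≠ 1) (n : ℕ) (g : Matrix.GeneralLinearGroup (Fin n) F) : g ∈ Subgroup.normalizer ((Units.map (Matrix.diagonalRingHom (Fin n) F).toMonoidHom).range : Subgroup (Matrix.GeneralLinearGroup (Fin n) F)) ↔ ∀ i : Fin n, ∃! j : Fin n, (g : Matrix (Fin n) (Fin n) F) i j ≠ 0 := by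
  classical
  constructor
  · intro hg i
    have hex : ∃ j, (g : Matrix (Fin n) (Fin n) F) i j ≠ 0 := by
      by_contra hcon
      push_neg at hcon
      have h1 : ((g * g⁻¹ : Matrix.GeneralLinearGroup (Fin n) F) : Matrix (Fin n) (Fin n) F) i i
          = 1 := by
        rw [mul_inv_cancel]; simp
      rw [Units.val_mul, Matrix.mul_apply] at h1
      simp [hcon] at h1
    obtain ⟨j, hj⟩ := hex
    refine ⟨j, hj, ?_⟩
    intro k hk
    by_contra hkj
    obtain ⟨a, ha0, ha1⟩ := hF
    obtain ⟨d, hdval⟩ : ∃ d : (Fin n → F)ˣ, (d : Fin n → F) = fun l => if l = j then a else 1 :=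
      ⟨⟨fun l => if l = j then a else 1, fun l => if l = j then a⁻¹ else 1,
        by ext l; by_cases h : l = j <;> simp [h, ha0],
        by ext l; by_cases h : l = j <;> simp [h, ha0]⟩, rfl⟩
    have hd : Units.map (Matrix.diagonalRingHom (Fin n) F).toMonoidHom d ∈
        (Units.map (Matrix.diagonalRingHom (Fin n) F).toMonoidHom).range := ⟨d, rfl⟩
    have h2 := (Subgroup.mem_normalizer_iff.mp hg _).mp hd
    obtain ⟨d', hd'⟩ := h2
    have h3 : g * Units.map (Matrix.diagonalRingHom (Fin n) F).toMonoidHom d =
        Units.map (Matrix.diagonalRingHom (Fin n) F).toMonoidHom d' * g := by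
      rw [hd']; group
    have h4 := congrArg Units.val h3
    rw [Units.val_mul, Units.val_mul, coe_diagUnit, coe_diagUnit] at h4
    have e1 := congrFun (congrFun h4 i) j
    have e2 := congrFun (congrFun h4 i) k
    rw [Matrix.mul_diagonal, Matrix.diagonal_mul] at e1 e2
    have dj : (d : Fin n → F) j = a := by rw [hdval]; simp
    have dk : (d : Fin n → F) k = 1 := by rw [hdval]; simp [hkj]
    rw [dj] at e1
    rw [dk] at e2
    have e1' : (d' : Fin n → F) i = a := mul_right_cancel₀ hj (e1.symm.trans (mul_comm _ _))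
    have e2' : (d' : Fin n → F) i = 1 :=
      mul_right_cancel₀ hk (e2.symm.trans (by rw [mul_one, one_mul]))
    exact ha1 (e1'.symm.trans e2')
  · intro hmono
    choose σ hσ hσuniq using hmono
    have hzero : ∀ i j, j ≠ σ i → (g : Matrix (Fin n) (Fin n) F) i j = 0 := by
      intro i j hj
      by_contra h
      exact hj (hσuniq i j h)
    have hinj : Function.Injective σ := by
      intro i i' h
      by_contra hne
      have h1 : ((g * g⁻¹ : Matrix.GeneralLinearGroup (Fin n) F) : Matrix (Fin n) (Fin n) F) i i'
          = 0 := by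
        rw [mul_inv_cancel]; simp [hne]
      have h2 : ((g * g⁻¹ : Matrix.GeneralLinearGroup (Fin n) F) : Matrix (Fin n) (Fin n) F) i' i'
          = 1 := by
        rw [mul_inv_cancel]; simp
      rw [Units.val_mul, Matrix.mul_apply] at h1 h2
      rw [Finset.sum_eq_single (σ i) (fun l _ hl => by rw [hzero i l hl, zero_mul])
        (fun h => absurd (Finset.mem_univ _) h)] at h1
      rw [Finset.sum_eq_single (σ i') (fun l _ hl => by rw [hzero i' l hl, zero_mul])
        (fun h => absurd (Finset.mem_univ _) h)] at h2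
      rw [← h] at h2
      have h3 : ((g⁻¹ : Matrix.GeneralLinearGroup (Fin n) F) : Matrix (Fin n) (Fin n) F) (σ i) i'
          = 0 := by
        rcases mul_eq_zero.mp h1 with h | h
        · exact absurd h (hσ i)
        · exact h
      rw [h3, mul_zero] at h2
      exact zero_ne_one h2
    have hbij : Function.Bijective σ := Finite.injective_iff_bijective.mp hinj
    have key : ∀ d : Fin n → F, (g : Matrix (Fin n) (Fin n) F) * Matrix.diagonal d =
        Matrix.diagonal (d ∘ σ) * (g : Matrix (Fin n) (Fin n) F) := by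
      intro d
      ext i l
      rw [Matrix.mul_diagonal, Matrix.diagonal_mul]
      by_cases hl : l = σ i
      · rw [hl, Function.comp_apply, mul_comm]
      · rw [hzero i l hl, zero_mul, mul_zero]
    rw [Subgroup.mem_normalizer_iff]
    intro h
    constructor
    · rintro ⟨d, rfl⟩
      obtain ⟨u, hu⟩ := exists_unit_comp d σ
      refine ⟨u, ?_⟩
      rw [eq_mul_inv_iff_mul_eq]
      apply Units.ext
      rw [Units.val_mul, Units.val_mul, coe_diagUnit, coe_diagUnit, hu]
      exact (key _).symm
    · rintro ⟨d', hd'⟩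
      obtain ⟨u, hu⟩ := exists_unit_comp d' (Equiv.ofBijective σ hbij).symm
      refine ⟨u, ?_⟩
      have h5 : g * Units.map (Matrix.diagonalRingHom (Fin n) F).toMonoidHom u =
          Units.map (Matrix.diagonalRingHom (Fin n) F).toMonoidHom d' * g := by
        apply Units.ext
        rw [Units.val_mul, Units.val_mul, coe_diagUnit, coe_diagUnit, hu, key]
        congr 2
        ext i
        simp
      rw [hd'] at h5
      have h6 : g * Units.map (Matrix.diagonalRingHom (Fin n) F).toMonoidHom u = g * h := by
        rw [h5]; group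
      exact mul_left_cancel h6

end Cfsg.Agent.S0770
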