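import Cfsg.Statements.S0778
import Mathlib
-- import your own Cfsg.Agent.* helpers here

set_option autoImplicit false
open Cfsg

namespace Cfsg.Agent.S0778


open Matrix

theorem blkW {m : ℕ} {F : Type*} [Field F] (X Y : Matrix (Fin m) (Fin m) F)
    (v : Fin m ⊕ Fin m → F) (hv : ∀ i, v (Sum.inr i) = 0) :
    ∀ i, (fromBlocks X 0 0 Y *ᵥ v) (Sum.inr i) = 0 := by
  intro i
  rw [fromBlocks_mulVec]
  have : v ∘ Sum.inr = 0 := funext hv
  simp [this]

theorem blkU {m : ℕ} {F : Type*} [Field F] (X Y : Matrix (Fin m) (Fin m) F)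
    (v : Fin m ⊕ Fin m → F) (hv : ∀ i, v (Sum.inl i) = 0) :
    ∀ i, (fromBlocks X 0 0 Y *ᵥ v) (Sum.inl i) = 0 := by
  intro i
  rw [fromBlocks_mulVec]
  have : v ∘ Sum.inl = 0 := funext hv
  simp [this]

noncomputable def P (m : ℕ) (F : Type*) [Field F] (g : GL (Fin m) F) :
    Matrix (Fin m ⊕ Fin m) (Fin m ⊕ Fin m) F :=
  fromBlocks g.1 0 0 ((g⁻¹).1)ᵀ

theorem P_mem {m : ℕ} {F : Type*} [Field F] (g : GL (Fin m) F) :
    P m F g ∈ symplecticGroup (Fin m) F := by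
  rw [P, SymplecticGroup.fromBlocks_mem_iff]
  refine ⟨by simp, by simp, ?_⟩
  rw [← transpose_mul]
  simp

theorem P_mul {m : ℕ} {F : Type*} [Field F] (g h : GL (Fin m) F) :
    P m F (g * h) = P m F g * P m F h := by
  simp [P, fromBlocks_multiply, transpose_mul]

theorem P_one {m : ℕ} {F : Type*} [Field F] : P m F 1 = 1 := by
  simp [P, fromBlocks_one]

theorem P_stabW {m : ℕ} {F : Type*} [Field F] (g : GL (Fin m) F) (v : Fin m ⊕ Fin m → F) :
    (∀ i, v (Sum.inr i) = 0) ↔ ∀ i, (P m F g *ᵥ v) (Sum.inr i) = 0 := by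
  constructor
  · intro hv
    exact blkW _ _ v hv
  · intro hv
    have e : v = P m F g⁻¹ *ᵥ (P m F g *ᵥ v) := by
      rw [mulVec_mulVec, ← P_mul, inv_mul_cancel, P_one, one_mulVec]
    rw [e]
    exact blkW _ _ _ hv

theorem P_stabU {m : ℕ} {F : Type*} [Field F] (g : GL (Fin m) F) (v : Fin m ⊕ Fin m → F) :
    (∀ i, v (Sum.inl i) = 0) ↔ ∀ i, (P m F g *ᵥ v) (Sum.inl i) = 0 := by
  constructor
  · intro hv
    exact blkU _ _ v hv
  · intro hv
    have e : v = P m F g⁻¹ *ᵥ (P m F g *ᵥ v) := by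
      rw [mulVec_mulVec, ← P_mul, inv_mul_cancel, P_one, one_mulVec]
    rw [e]
    exact blkU _ _ _ hv

noncomputable def ψ (m : ℕ) (F : Type*) [Field F] : GL (Fin m) F →*
    ↥(Cfsg.stabilizing (Cfsg.spToMat m F) {v : Fin m ⊕ Fin m → F | ∀ i : Fin m, v (Sum.inr i) = 0} ⊓
      Cfsg.stabilizing (Cfsg.spToMat m F) {v : Fin m ⊕ Fin m → F | ∀ i : Fin m, v (Sum.inl i) = 0}) where
  toFun := fun g => ⟨⟨P m F g, P_mem g⟩, Subgroup.mem_inf.mpr ⟨P_stabW g, P_stabU g⟩⟩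
  map_one' := by
    apply Subtype.ext
    apply Subtype.ext
    exact P_one
  map_mul' := fun g h => by
    apply Subtype.ext
    apply Subtype.ext
    exact P_mul g h

theorem ψ_val {m : ℕ} {F : Type*} [Field F] (g : GL (Fin m) F) :
    ((ψ m F g).1 : Matrix (Fin m ⊕ Fin m) (Fin m ⊕ Fin m) F) = P m F g := rfl

theorem ψ_bij (m : ℕ) (F : Type*) [Field F] : Function.Bijective (ψ m F) := by
  constructor
  · intro g h hgh
    have h1 : P m F g = P m F h := by rw [← ψ_val, ← ψ_val, hgh]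
    rw [P, P, fromBlocks_inj] at h1
    exact Units.ext h1.1
  · intro M
    have hW := (Subgroup.mem_inf.mp M.2).1
    have hU := (Subgroup.mem_inf.mp M.2).2
    have hC : ∀ i j, (M.1.1 : Matrix (Fin m ⊕ Fin m) (Fin m ⊕ Fin m) F) (Sum.inr i) (Sum.inl j) = 0 := by
      intro i j
      have h1 := (hW (Pi.single (Sum.inl j) 1)).mp (by
        intro i
        simp) i
      have h2 : ((M.1.1 : Matrix (Fin m ⊕ Fin m) (Fin m ⊕ Fin m) F) *ᵥ Pi.single (Sum.inl j) 1)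
          (Sum.inr i) = 0 := h1
      rw [mulVec_single_one] at h2
      exact h2
    have hB : ∀ i j, (M.1.1 : Matrix (Fin m ⊕ Fin m) (Fin m ⊕ Fin m) F) (Sum.inl i) (Sum.inr j) = 0 := by
      intro i j
      have h1 := (hU (Pi.single (Sum.inr j) 1)).mp (by
        intro i
        simp) i
      have h2 : ((M.1.1 : Matrix (Fin m ⊕ Fin m) (Fin m ⊕ Fin m) F) *ᵥ Pi.single (Sum.inr j) 1)
          (Sum.inl i) = 0 := h1
      rw [mulVec_single_one] at h2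
      exact h2
    have hM : (M.1.1 : Matrix (Fin m ⊕ Fin m) (Fin m ⊕ Fin m) F) =
        fromBlocks (M.1.1 : Matrix (Fin m ⊕ Fin m) (Fin m ⊕ Fin m) F).toBlocks₁₁ 0 0
          (M.1.1 : Matrix (Fin m ⊕ Fin m) (Fin m ⊕ Fin m) F).toBlocks₂₂ := by
      conv_lhs => rw [← fromBlocks_toBlocks (M.1.1 : Matrix (Fin m ⊕ Fin m) (Fin m ⊕ Fin m) F)]
      congr 1
      · ext i j
        exact hB i j
      · ext i j
        exact hC i j
    have hsp : fromBlocks (M.1.1 : Matrix (Fin m ⊕ Fin m) (Fin m ⊕ Fin m) F).toBlocks₁₁ 0 0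
          (M.1.1 : Matrix (Fin m ⊕ Fin m) (Fin m ⊕ Fin m) F).toBlocks₂₂ ∈
          symplecticGroup (Fin m) F := by
      rw [← hM]
      exact M.1.2
    have h3 := (SymplecticGroup.fromBlocks_mem_iff.mp hsp).2.2
    simp only [transpose_zero, zero_mul, sub_zero] at h3
    have h4 : ((M.1.1 : Matrix (Fin m ⊕ Fin m) (Fin m ⊕ Fin m) F).toBlocks₂₂)ᵀ *
        (M.1.1 : Matrix (Fin m ⊕ Fin m) (Fin m ⊕ Fin m) F).toBlocks₁₁ = 1 := by
      have := congrArg transpose h3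
      rwa [transpose_mul, transpose_transpose, transpose_one] at this
    have h5 : (M.1.1 : Matrix (Fin m ⊕ Fin m) (Fin m ⊕ Fin m) F).toBlocks₁₁ *
        ((M.1.1 : Matrix (Fin m ⊕ Fin m) (Fin m ⊕ Fin m) F).toBlocks₂₂)ᵀ = 1 :=
      mul_eq_one_comm.mp h4
    refine ⟨⟨(M.1.1 : Matrix (Fin m ⊕ Fin m) (Fin m ⊕ Fin m) F).toBlocks₁₁,
      ((M.1.1 : Matrix (Fin m ⊕ Fin m) (Fin m ⊕ Fin m) F).toBlocks₂₂)ᵀ, h5, h4⟩, ?_⟩
    apply Subtype.ext
    apply Subtype.ext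
    rw [ψ_val]
    refine Eq.trans ?_ hM.symm
    show fromBlocks (M.1.1 : Matrix (Fin m ⊕ Fin m) (Fin m ⊕ Fin m) F).toBlocks₁₁ 0 0
      ((((M.1.1 : Matrix (Fin m ⊕ Fin m) (Fin m ⊕ Fin m) F).toBlocks₂₂)ᵀ)ᵀ) = _
    rw [transpose_transpose]

/-- The elements of Sp_2m(F) stabilising both W = ⟨e_1..e_m⟩ and U = ⟨f_1..f_m⟩ form a subgroup isomorphic to GL_m(F) (block-diagonal matrices diag(X, X^(−ᵀ)) up to the sign convention of J), for m ≥ 1 or m = 0 alike. -/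
theorem result {F : Type*} [Field F] (m : ℕ) : Nonempty (↥(Cfsg.stabilizing (Cfsg.spToMat m F) {v : Fin m ⊕ Fin m → F | ∀ i : Fin m, v (Sum.inr i) = 0} ⊓ Cfsg.stabilizing (Cfsg.spToMat m F) {v : Fin m ⊕ Fin m → F | ∀ i : Fin m, v (Sum.inl i) = 0}) ≃* Matrix.GeneralLinearGroup (Fin m) F) := by
  classical
  exact ⟨(MulEquiv.ofBijective (ψ m F) (ψ_bij m F)).symm⟩

end Cfsg.Agent.S0778
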