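import Cfsg.Statements.S0779
import Mathlib


set_option autoImplicit false
open Cfsg

namespace Cfsg.Agent.S0779

/-- Unitary transvections: let |F| = q², h the standard Hermitian form Σ x_i y_i^q and v ≠ 0 with h(v, v) = 0. The linear map x ↦ x + c h(x, v) v is an isometry of h if and only if c = 0 or c^(q−1) = −1. -/
theorem result {F : Type*} [Field F] [Fintype F] {q : ℕ} (hF : Fintype.card F = q ^ 2) (n : ℕ) (v : Fin n → F) (hv : v ≠ 0) (hv0 : Cfsg.hermForm n F q v v = 0) (c : F) : (∀ x y : Fin n → F, Cfsg.hermForm n F q ((Cfsg.unitaryTransvection n q v c).mulVec x) ((Cfsg.unitaryTransvection n q v c).mulVec y) = Cfsg.hermForm n F q x y) ↔ (c = 0 ∨ c ^ (q - 1) = -1) := by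
  classical
  obtain ⟨p, hp⟩ := CharP.exists F
  haveI := hp
  have hpp : p.Prime := CharP.char_is_prime F p
  haveI : Fact p.Prime := ⟨hpp⟩
  obtain ⟨k, -, hk⟩ := FiniteField.card F p
  have hqd : q ∣ p ^ (k:ℕ) := by rw [← hk, hF]; exact dvd_pow_self q two_ne_zero
  obtain ⟨m, -, rfl⟩ := (Nat.dvd_prime_pow hpp).1 hqd
  have hqq : ∀ a : F, (a ^ (p^m)) ^ (p^m) = a := by
    intro a
    rw [← pow_mul, ← sq, ← hF]; exact FiniteField.pow_card a
  have hT : ∀ x : Fin n → F, (Cfsg.unitaryTransvection n (p^m) v c).mulVec x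
      = x + (c * Cfsg.hermForm n F (p^m) x v) • v := by
    intro x
    unfold Cfsg.unitaryTransvection Cfsg.hermForm
    rw [Matrix.add_mulVec, Matrix.one_mulVec, Matrix.smul_mulVec, Matrix.vecMulVec_mulVec]
    congr 1
    ext j
    simp only [Pi.smul_apply, MulOpposite.smul_eq_mul_unop, MulOpposite.unop_op, smul_eq_mul,
      dotProduct]
    have : ∑ i, v i ^ p ^ m * x i = ∑ i, x i * v i ^ p ^ m :=
      Finset.sum_congr rfl (fun i _ => mul_comm _ _)
    rw [this]; ring
  have hadd1 : ∀ x y z : Fin n → F, Cfsg.hermForm n F (p^m) (x + y) z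
      = Cfsg.hermForm n F (p^m) x z + Cfsg.hermForm n F (p^m) y z := by
    intro x y z
    unfold Cfsg.hermForm
    rw [← Finset.sum_add_distrib]
    exact Finset.sum_congr rfl (fun i _ => by simp only [Pi.add_apply]; ring)
  have hadd2 : ∀ x y z : Fin n → F, Cfsg.hermForm n F (p^m) x (y + z)
      = Cfsg.hermForm n F (p^m) x y + Cfsg.hermForm n F (p^m) x z := by
    intro x y z
    unfold Cfsg.hermForm
    rw [← Finset.sum_add_distrib]
    exact Finset.sum_congr rfl (fun i _ => by
      simp only [Pi.add_apply]; rw [add_pow_char_pow]; ring)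
  have hsmul1 : ∀ (a : F) (x y : Fin n → F), Cfsg.hermForm n F (p^m) (a • x) y
      = a * Cfsg.hermForm n F (p^m) x y := by
    intro a x y
    unfold Cfsg.hermForm
    rw [Finset.mul_sum]
    exact Finset.sum_congr rfl (fun i _ => by simp only [Pi.smul_apply, smul_eq_mul]; ring)
  have hsmul2 : ∀ (a : F) (x y : Fin n → F), Cfsg.hermForm n F (p^m) x (a • y)
      = a ^ (p^m) * Cfsg.hermForm n F (p^m) x y := by
    intro a x y
    unfold Cfsg.hermForm
    rw [Finset.mul_sum]
    exact Finset.sum_congr rfl (fun i _ => by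
      simp only [Pi.smul_apply, smul_eq_mul]; rw [mul_pow]; ring)
  have hconj : ∀ x y : Fin n → F, (Cfsg.hermForm n F (p^m) x y) ^ (p^m)
      = Cfsg.hermForm n F (p^m) y x := by
    intro x y
    unfold Cfsg.hermForm
    rw [sum_pow_char_pow]
    exact Finset.sum_congr rfl (fun i _ => by rw [mul_pow, hqq]; ring)
  have key : ∀ x y : Fin n → F,
      Cfsg.hermForm n F (p^m) ((Cfsg.unitaryTransvection n (p^m) v c).mulVec x)
        ((Cfsg.unitaryTransvection n (p^m) v c).mulVec y)
      = Cfsg.hermForm n F (p^m) x y + (c ^ (p^m) + c) *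
        (Cfsg.hermForm n F (p^m) x v * Cfsg.hermForm n F (p^m) v y) := by
    intro x y
    rw [hT, hT, hadd1, hadd2, hadd2, hsmul1, hsmul2, hsmul2, hsmul1, hv0, mul_pow, hconj]
    ring
  constructor
  · intro h
    obtain ⟨i, hi⟩ : ∃ i, v i ≠ 0 := by
      by_contra hcon
      push Not at hcon
      exact hv (funext hcon)
    have h1 := h (Pi.single i 1) (Pi.single i 1)
    rw [key] at h1
    have h2 : Cfsg.hermForm n F (p^m) (Pi.single i 1) v = v i ^ (p^m) := by
      simp [Cfsg.hermForm, Pi.single_apply]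
    have h3 : Cfsg.hermForm n F (p^m) v (Pi.single i 1) = v i := by
      unfold Cfsg.hermForm
      rw [Finset.sum_eq_single i]
      · simp
      · intro j _ hj
        simp [Pi.single_apply, hj, hpp.ne_zero]
      · intro hi'; exact absurd (Finset.mem_univ i) hi'
    rw [h2, h3] at h1
    have h4 : (c ^ (p^m) + c) * (v i ^ p ^ m * v i) = 0 := by
      have := h1
      exact add_eq_left.mp this
    have h5 : c ^ (p^m) + c = 0 := by
      rcases mul_eq_zero.1 h4 with h | h
      · exact h
      · exact absurd h (mul_ne_zero (pow_ne_zero _ hi) hi)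
    by_cases hc : c = 0
    · exact Or.inl hc
    · right
      have hpm : p ^ m = (p ^ m - 1) + 1 := (Nat.sub_add_cancel (Nat.pos_of_ne_zero (pow_ne_zero _ hpp.ne_zero))).symm
      have h6 : c ^ (p ^ m - 1) * c = -c := by
        rw [← pow_succ, ← hpm]; exact eq_neg_of_add_eq_zero_left h5
      have h7 : (c ^ (p ^ m - 1) + 1) * c = 0 := by rw [add_mul, h6]; ring
      rcases mul_eq_zero.1 h7 with h | h
      · exact eq_neg_of_add_eq_zero_left h
      · exact absurd h hc
  · intro h x y
    rw [key]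
    have hpm : p ^ m = (p ^ m - 1) + 1 := (Nat.sub_add_cancel (Nat.pos_of_ne_zero (pow_ne_zero _ hpp.ne_zero))).symm
    have h5 : c ^ (p^m) + c = 0 := by
      rcases h with h | h
      · rw [h, zero_pow (pow_ne_zero _ hpp.ne_zero)]; simp
      · rw [hpm, pow_succ, h]; ring
    rw [h5]; ring

end Cfsg.Agent.S0779
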