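import Cfsg.Statements.S0784
import Mathlib
import Cfsg.Agent.Lib.Helper1.Polar

set_option autoImplicit false
open Cfsg

namespace Cfsg.Agent.S0784

/-- Reflections: if Q(v) ≠ 0 then the matrix R = 1 − Q(v)⁻¹ · v f(v, ·)ᵀ preserves Q, maps v to −v, fixes each x with f(v, x) = 0, and has determinant −1 (in characteristic two, −1 = 1 and R is the orthogonal transvection of v). -/
theorem result {F : Type*} [Field F] {n : ℕ} (Q : QuadraticForm F (Fin n → F)) (v : Fin n → F) (hv : Q v ≠ 0) : (∀ x, Q ((Cfsg.reflectionMatrix ⇑Q v).mulVec x) = Q x) ∧ (Cfsg.reflectionMatrix ⇑Q v).mulVec v = -v ∧ (∀ x, QuadraticMap.polar ⇑Q v x = 0 → (Cfsg.reflectionMatrix ⇑Q v).mulVec x = x) ∧ (Cfsg.reflectionMatrix ⇑Q v).det = -1 := by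
  have hp : QuadraticMap.polar ⇑Q v v = 2 * Q v := by
    rw [QuadraticMap.polar_self, two_smul, two_mul]
  refine ⟨?_, ?_, ?_, ?_⟩
  · intro x
    rw [Cfsg.Agent.Lib.Helper1.reflection_mulVec]
    obtain ⟨t, ht⟩ : ∃ t : F, t = (Q v)⁻¹ * QuadraticMap.polar ⇑Q v x := ⟨_, rfl⟩
    rw [← ht]
    have ht' : t * Q v = QuadraticMap.polar ⇑Q v x := by
      rw [ht]; field_simp
    have e : x - t • v = x + (-t) • v := by rw [neg_smul, sub_eq_add_neg]
    rw [e, QuadraticMap.map_add (⇑Q) x ((-t) • v), QuadraticMap.map_smul,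
      QuadraticMap.polar_smul_right, QuadraticMap.polar_comm (⇑Q) x v, smul_eq_mul, smul_eq_mul]
    linear_combination t * ht'
  · rw [Cfsg.Agent.Lib.Helper1.reflection_mulVec, hp]
    have : (Q v)⁻¹ * (2 * Q v) = 2 := by field_simp
    rw [this, two_smul]; abel
  · intro x hx
    rw [Cfsg.Agent.Lib.Helper1.reflection_mulVec, hx, mul_zero, zero_smul, sub_zero]
  · unfold Cfsg.reflectionMatrix
    have h1 : (1 : Matrix (Fin n) (Fin n) F) - (Q v)⁻¹ • Matrix.vecMulVec v (Cfsg.polarVec ⇑Q v) =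
        1 + Matrix.replicateCol Unit (-(Q v)⁻¹ • v) *
          Matrix.replicateRow Unit (Cfsg.polarVec ⇑Q v) := by
      rw [← Matrix.vecMulVec_eq, Matrix.smul_vecMulVec, neg_smul, sub_eq_add_neg]
    rw [h1, Matrix.det_one_add_replicateCol_mul_replicateRow, dotProduct_smul,
      Cfsg.Agent.Lib.Helper1.polarVec_dot, hp, smul_eq_mul]
    field_simp
    ring
end Cfsg.Agent.S0784
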