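import Cfsg.Statements.S0785
import Mathlib
import Cfsg.Agent.S0784


set_option autoImplicit false
open Cfsg

namespace Cfsg.Agent.S0785

/-- det(I) = {±1}: for a quadratic form on F^n whose polar form is non-degenerate, every element of the isometry group has determinant 1 or −1, and as soon as Q takes a non-zero value some isometry has determinant −1. -/
theorem result {F : Type*} [Field F] {n : ℕ} (Q : QuadraticForm F (Fin n → F)) (hQ : (QuadraticMap.polarBilin Q).Nondegenerate) : (∀ g : ↥(Cfsg.isometryGroup F ⇑Q), ((g : Matrix.GeneralLinearGroup (Fin n) F) : Matrix (Fin n) (Fin n) F).det = 1 ∨ ((g : Matrix.GeneralLinearGroup (Fin n) F) : Matrix (Fin n) (Fin n) F).det = -1) ∧ ((∃ v, Q v ≠ 0) → ∃ g : ↥(Cfsg.isometryGroup F ⇑Q), ((g : Matrix.GeneralLinearGroup (Fin n) F) : Matrix (Fin n) (Fin n) F).det = -1) := by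
  classical
  refine ⟨?_, ?_⟩
  · intro g
    obtain ⟨G, hG⟩ : ∃ G : Matrix (Fin n) (Fin n) F,
        G = ((g : Matrix.GeneralLinearGroup (Fin n) F) : Matrix (Fin n) (Fin n) F) := ⟨_, rfl⟩
    rw [← hG]
    have hg : ∀ u : Fin n → F, Q (G.mulVec u) = Q u := by
      intro u
      rw [hG]
      exact g.2 u u
    obtain ⟨M, hM⟩ : ∃ M : Matrix (Fin n) (Fin n) F,
        M = LinearMap.toMatrix₂' F (QuadraticMap.polarBilin Q) := ⟨_, rfl⟩
    have hMdet : M.det ≠ 0 := by
      rw [← Matrix.nondegenerate_iff_det_ne_zero, hM]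
      exact LinearMap.nondegenerate_toMatrix₂'_iff.mpr hQ
    have hcomp : (QuadraticMap.polarBilin Q).compl₁₂ (Matrix.toLin' G) (Matrix.toLin' G) =
        QuadraticMap.polarBilin Q := by
      apply LinearMap.ext₂
      intro x y
      rw [LinearMap.compl₁₂_apply, Matrix.toLin'_apply, Matrix.toLin'_apply,
        QuadraticMap.polarBilin_apply_apply, QuadraticMap.polarBilin_apply_apply]
      unfold QuadraticMap.polar
      rw [← Matrix.mulVec_add, hg, hg, hg]
    have h1 := LinearMap.toMatrix₂'_compl₁₂ (QuadraticMap.polarBilin Q) (Matrix.toLin' G)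
      (Matrix.toLin' G)
    rw [hcomp, LinearMap.toMatrix'_toLin', ← hM] at h1
    have h2 := congrArg Matrix.det h1
    rw [Matrix.det_mul, Matrix.det_mul, Matrix.det_transpose] at h2
    have h3 : (G.det - 1) * (G.det + 1) = 0 := by
      have h4 : M.det * (G.det * G.det - 1) = 0 := by linear_combination -h2
      rcases mul_eq_zero.mp h4 with h5 | h5
      · exact absurd h5 hMdet
      · linear_combination h5
    rcases mul_eq_zero.mp h3 with h | h
    · left; linear_combination h
    · right; linear_combination h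
  · rintro ⟨v, hv⟩
    obtain ⟨h1, -, -, hdet⟩ := Cfsg.Agent.S0784.result Q v hv
    have hne : (Cfsg.reflectionMatrix ⇑Q v).det ≠ 0 := by
      rw [hdet]; exact neg_ne_zero.mpr one_ne_zero
    refine ⟨⟨Matrix.GeneralLinearGroup.mkOfDetNeZero (Cfsg.reflectionMatrix ⇑Q v) hne, ?_⟩, ?_⟩
    · intro u w
      exact h1 u
    · exact hdet
end Cfsg.Agent.S0785
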