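import Cfsg.Statements.S0792
import Mathlib

set_option autoImplicit false
open Cfsg

namespace Cfsg.Agent.S0792

open scoped Matrix

section helpers
variable {F : Type*} [Field F] {n : ℕ} (Q : QuadraticForm F (Fin n → F))

theorem pv_dot (u x : Fin n → F) :
    Cfsg.polarVec (⇑Q) u ⬝ᵥ x = QuadraticMap.polar (⇑Q) u x := by
  have hx : x = ∑ j, x j • (Pi.single j (1 : F) : Fin n → F) := by
    ext i
    simp [Finset.sum_apply, Pi.single_apply]
  conv_rhs => rw [hx]
  rw [← QuadraticMap.polarBilin_apply_apply, map_sum]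
  simp only [map_smul, QuadraticMap.polarBilin_apply_apply, smul_eq_mul]
  unfold Cfsg.polarVec dotProduct
  apply Finset.sum_congr rfl
  intro j _
  ring

theorem mat_ext (A B : Matrix (Fin n) (Fin n) F) (h : ∀ x, A *ᵥ x = B *ᵥ x) : A = B := by
  apply Matrix.toLin'.injective
  apply LinearMap.ext
  intro x
  rw [Matrix.toLin'_apply, Matrix.toLin'_apply]
  exact h x

theorem refl_mulVec (v x : Fin n → F) :
    Cfsg.reflectionMatrix (⇑Q) v *ᵥ x
      = x + (-((Q v)⁻¹ * QuadraticMap.polar (⇑Q) v x)) • v := by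
  unfold Cfsg.reflectionMatrix
  rw [Matrix.sub_mulVec, Matrix.one_mulVec, Matrix.smul_mulVec, Matrix.vecMulVec_mulVec,
    op_smul_eq_smul, pv_dot]
  module

theorem Q2 (x v : Fin n → F) (a : F) :
    Q (x + a • v) = Q x + a * a * Q v + a * QuadraticMap.polar (⇑Q) x v := by
  rw [QuadraticMap.map_add (⇑Q) x (a • v)]
  simp only [QuadraticMap.map_smul, QuadraticMap.polar_smul_right, smul_eq_mul]

theorem pself2 (v : Fin n → F) : QuadraticMap.polar (⇑Q) v v = 2 * Q v := by
  have h : QuadraticMap.polar (⇑Q) v v = Q (v + v) - Q v - Q v := rfl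
  rw [h, ← two_smul F v, QuadraticMap.map_smul, smul_eq_mul]
  ring

theorem refl_isom (v : Fin n → F) (hv : Q v ≠ 0) (x : Fin n → F) :
    Q (Cfsg.reflectionMatrix (⇑Q) v *ᵥ x) = Q x := by
  have hc : (Q v)⁻¹ * Q v = 1 := inv_mul_cancel₀ hv
  rw [refl_mulVec, Q2, QuadraticMap.polar_comm (⇑Q) x v]
  linear_combination (QuadraticMap.polar (⇑Q) v x) ^ 2 * (Q v)⁻¹ * hc

theorem refl_self (v : Fin n → F) (hv : Q v ≠ 0) :
    Cfsg.reflectionMatrix (⇑Q) v *ᵥ v = -v := by
  have hc : (Q v)⁻¹ * Q v = 1 := inv_mul_cancel₀ hv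
  have h2 : (-((Q v)⁻¹ * QuadraticMap.polar (⇑Q) v v)) = (-2 : F) := by
    rw [pself2]
    linear_combination (-2 : F) * hc
  rw [refl_mulVec, h2]
  module

theorem refl_neg_self (v : Fin n → F) (hv : Q v ≠ 0) :
    Cfsg.reflectionMatrix (⇑Q) v *ᵥ (-v) = v := by
  rw [Matrix.mulVec_neg, refl_self Q v hv, neg_neg]

theorem refl_fix (v x : Fin n → F) (h : QuadraticMap.polar (⇑Q) v x = 0) :
    Cfsg.reflectionMatrix (⇑Q) v *ᵥ x = x := by
  rw [refl_mulVec, h, mul_zero, neg_zero, zero_smul, add_zero]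

theorem refl_sq (v : Fin n → F) (hv : Q v ≠ 0) :
    Cfsg.reflectionMatrix (⇑Q) v * Cfsg.reflectionMatrix (⇑Q) v = 1 := by
  apply mat_ext
  intro x
  rw [← Matrix.mulVec_mulVec, Matrix.one_mulVec]
  conv_lhs => rw [refl_mulVec Q v x]
  rw [Matrix.mulVec_add, Matrix.mulVec_smul, refl_self Q v hv, refl_mulVec]
  module

theorem refl_det (v : Fin n → F) (hv : Q v ≠ 0) :
    (Cfsg.reflectionMatrix (⇑Q) v).det = -1 := by
  have e : Cfsg.reflectionMatrix (⇑Q) v
      = 1 + Matrix.replicateCol Unit ((-(Q v)⁻¹) • v)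
          * Matrix.replicateRow Unit (Cfsg.polarVec (⇑Q) v) := by
    unfold Cfsg.reflectionMatrix
    rw [← Matrix.vecMulVec_eq, Matrix.smul_vecMulVec, neg_smul, sub_eq_add_neg]
  have hc : (Q v)⁻¹ * Q v = 1 := inv_mul_cancel₀ hv
  rw [e, Matrix.det_one_add_replicateCol_mul_replicateRow, dotProduct_smul, pv_dot, pself2,
    smul_eq_mul]
  linear_combination (-2 : F) * hc

theorem polar_isom (M : Matrix (Fin n) (Fin n) F) (hM : ∀ x, Q (M *ᵥ x) = Q x)
    (x y : Fin n → F) :
    QuadraticMap.polar (⇑Q) (M *ᵥ x) (M *ᵥ y) = QuadraticMap.polar (⇑Q) x y := by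
  show Q (M *ᵥ x + M *ᵥ y) - Q (M *ᵥ x) - Q (M *ᵥ y) = Q (x + y) - Q x - Q y
  rw [← Matrix.mulVec_add, hM, hM, hM]

theorem stepA (M : Matrix (Fin n) (Fin n) F) (hMi : ∀ z, Q (M *ᵥ z) = Q z) (w : Fin n → F)
    (ha : Q (M *ᵥ w + (-1 : F) • w) ≠ 0) :
    Cfsg.reflectionMatrix (⇑Q) (M *ᵥ w + (-1 : F) • w) *ᵥ (M *ᵥ w) = w := by
  have hQa : Q (M *ᵥ w + (-1 : F) • w)
      = 2 * Q w - QuadraticMap.polar (⇑Q) (M *ᵥ w) w := by
    rw [Q2, hMi]
    ring
  have hpa : QuadraticMap.polar (⇑Q) (M *ᵥ w + (-1 : F) • w) (M *ᵥ w)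
      = Q (M *ᵥ w + (-1 : F) • w) := by
    rw [hQa, QuadraticMap.polar_add_left, QuadraticMap.polar_smul_left, pself2, hMi,
      QuadraticMap.polar_comm (⇑Q) w (M *ᵥ w), smul_eq_mul]
    ring
  rw [refl_mulVec, hpa, inv_mul_cancel₀ ha]
  module

theorem stepB (M : Matrix (Fin n) (Fin n) F) (hMi : ∀ z, Q (M *ᵥ z) = Q z) (w : Fin n → F)
    (hb : Q (M *ᵥ w + (1 : F) • w) ≠ 0) :
    Cfsg.reflectionMatrix (⇑Q) (M *ᵥ w + (1 : F) • w) *ᵥ (M *ᵥ w) = -w := by
  have hQb : Q (M *ᵥ w + (1 : F) • w)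
      = 2 * Q w + QuadraticMap.polar (⇑Q) (M *ᵥ w) w := by
    rw [Q2, hMi]
    ring
  have hpb : QuadraticMap.polar (⇑Q) (M *ᵥ w + (1 : F) • w) (M *ᵥ w)
      = Q (M *ᵥ w + (1 : F) • w) := by
    rw [hQb, QuadraticMap.polar_add_left, QuadraticMap.polar_smul_left, pself2, hMi,
      QuadraticMap.polar_comm (⇑Q) w (M *ᵥ w), smul_eq_mul]
    ring
  rw [refl_mulVec, hpb, inv_mul_cancel₀ hb]
  module

theorem sumAB (M : Matrix (Fin n) (Fin n) F) (hMi : ∀ z, Q (M *ᵥ z) = Q z) (w : Fin n → F) :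
    Q (M *ᵥ w + (-1 : F) • w) + Q (M *ᵥ w + (1 : F) • w) = 4 * Q w := by
  rw [Q2, Q2, hMi]
  ring

theorem exists_aniso (h2 : (2 : F) ≠ 0) (hQ : (QuadraticMap.polarBilin Q).Nondegenerate)
    {j : ℕ} (ws : Fin j → (Fin n → F)) (hq : ∀ i, Q (ws i) ≠ 0)
    (horth : ∀ i i', i ≠ i' → QuadraticMap.polar (⇑Q) (ws i) (ws i') = 0)
    (y : Fin n → F) (hy0 : y ≠ 0) (hy : ∀ i, QuadraticMap.polar (⇑Q) (ws i) y = 0) :
    ∃ w, Q w ≠ 0 ∧ ∀ i, QuadraticMap.polar (⇑Q) (ws i) w = 0 := by
  by_contra hcon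
  have H : ∀ w, (∀ i, QuadraticMap.polar (⇑Q) (ws i) w = 0) → Q w = 0 := by
    intro w hw
    by_contra hQw
    exact hcon ⟨w, hQw, hw⟩
  apply hy0
  apply hQ.1
  intro x
  rw [QuadraticMap.polarBilin_apply_apply]
  have hpp : ∀ i, QuadraticMap.polar (⇑Q) (ws i) (ws i) ≠ 0 := by
    intro i
    rw [pself2]
    exact mul_ne_zero h2 (hq i)
  obtain ⟨s, hs, hys⟩ : ∃ s : Fin n → F,
      (∀ i', QuadraticMap.polar (⇑Q) (ws i') s = QuadraticMap.polar (⇑Q) (ws i') x)
        ∧ QuadraticMap.polar (⇑Q) y s = 0 := by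
    refine ⟨∑ i, ((QuadraticMap.polar (⇑Q) (ws i) (ws i))⁻¹
      * QuadraticMap.polar (⇑Q) (ws i) x) • ws i, ?_, ?_⟩
    · intro i'
      rw [← QuadraticMap.polarBilin_apply_apply, map_sum]
      simp only [map_smul, QuadraticMap.polarBilin_apply_apply, smul_eq_mul]
      rw [Finset.sum_eq_single i']
      · rw [mul_assoc, mul_comm (QuadraticMap.polar (⇑Q) (ws i') x), ← mul_assoc,
          inv_mul_cancel₀ (hpp i'), one_mul]
      · intro b _ hb
        rw [horth i' b (Ne.symm hb), mul_zero]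
      · intro h
        exact absurd (Finset.mem_univ i') h
    · rw [← QuadraticMap.polarBilin_apply_apply, map_sum]
      simp only [map_smul, QuadraticMap.polarBilin_apply_apply, smul_eq_mul]
      apply Finset.sum_eq_zero
      intro i _
      rw [QuadraticMap.polar_comm (⇑Q) y (ws i), hy i, mul_zero]
  have hxs : ∀ i, QuadraticMap.polar (⇑Q) (ws i) (x - s) = 0 := by
    intro i
    rw [QuadraticMap.polar_sub_right, hs i, sub_self]
  have h1 := H (x - s) hxs
  have h3 := H y hy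
  have h4 := H (y + (x - s)) (by
    intro i
    rw [QuadraticMap.polar_add_right, hy i, hxs i, add_zero])
  have h5 : QuadraticMap.polar (⇑Q) y (x - s) = 0 := by
    show Q (y + (x - s)) - Q y - Q (x - s) = 0
    rw [h4, h3, h1]
    ring
  have h6 : QuadraticMap.polar (⇑Q) y x
      = QuadraticMap.polar (⇑Q) y (x - s) + QuadraticMap.polar (⇑Q) y s := by
    rw [← QuadraticMap.polar_add_right, sub_add_cancel]
  rw [h6, h5, hys, add_zero]

/-- the reflection as an element of the isometry group -/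
def rf (v : Fin n → F) (hv : Q v ≠ 0) : ↥(Cfsg.isometryGroup F ⇑Q) :=
  ⟨⟨Cfsg.reflectionMatrix (⇑Q) v, Cfsg.reflectionMatrix (⇑Q) v, refl_sq Q v hv,
    refl_sq Q v hv⟩, by
    intro x y
    show Q (Cfsg.reflectionMatrix (⇑Q) v *ᵥ x) = Q x
    exact refl_isom Q v hv x⟩

theorem rf_mul_self (v : Fin n → F) (hv : Q v ≠ 0) : rf Q v hv * rf Q v hv = 1 := by
  apply Subtype.ext
  apply Units.ext
  show Cfsg.reflectionMatrix (⇑Q) v * Cfsg.reflectionMatrix (⇑Q) v = 1
  exact refl_sq Q v hv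

theorem g_isom (g : ↥(Cfsg.isometryGroup F ⇑Q)) (x : Fin n → F) :
    Q (((g : Matrix.GeneralLinearGroup (Fin n) F) : Matrix (Fin n) (Fin n) F) *ᵥ x) = Q x := by
  have h : ∀ u v : Fin n → F,
      Q (((g : Matrix.GeneralLinearGroup (Fin n) F) : Matrix (Fin n) (Fin n) F) *ᵥ u) = Q u :=
    g.2
  exact h x x

theorem mem_SO_iff (g : ↥(Cfsg.isometryGroup F ⇑Q)) :
    g ∈ Cfsg.specialIsometryGroup F ⇑Q ↔
      ((g : Matrix.GeneralLinearGroup (Fin n) F) : Matrix (Fin n) (Fin n) F).det = 1 := by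
  unfold Cfsg.specialIsometryGroup
  rw [MonoidHom.mem_ker, Units.ext_iff]
  rfl

/-- the induction predicate: `g` is an even product of reflections, or becomes one after
multiplying by one reflection -/
def PP (E : Subgroup ↥(Cfsg.isometryGroup F ⇑Q)) (g : ↥(Cfsg.isometryGroup F ⇑Q)) : Prop :=
  g ∈ E ∨ ∃ (v : Fin n → F) (hv : Q v ≠ 0), rf Q v hv * g ∈ E

theorem PP_step (E : Subgroup ↥(Cfsg.isometryGroup F ⇑Q))
    (hE : ∀ (u v : Fin n → F) (hu : Q u ≠ 0) (hv : Q v ≠ 0), rf Q u hu * rf Q v hv ∈ E)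
    (u : Fin n → F) (hu : Q u ≠ 0) (h : ↥(Cfsg.isometryGroup F ⇑Q)) (hh : PP Q E h) :
    PP Q E (rf Q u hu * h) := by
  rcases hh with hh | ⟨v, hv, hh⟩
  · right
    refine ⟨u, hu, ?_⟩
    rw [← mul_assoc, rf_mul_self, one_mul]
    exact hh
  · left
    have e : rf Q u hu * h = (rf Q u hu * rf Q v hv) * (rf Q v hv * h) := by
      rw [mul_assoc, ← mul_assoc (rf Q v hv), rf_mul_self, one_mul]
    rw [e]
    exact E.mul_mem (hE u v hu hv) hh

theorem CD [Fintype F] (h2 : (2 : F) ≠ 0) (hQ : (QuadraticMap.polarBilin Q).Nondegenerate)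
    (E : Subgroup ↥(Cfsg.isometryGroup F ⇑Q))
    (hE : ∀ (u v : Fin n → F) (hu : Q u ≠ 0) (hv : Q v ≠ 0), rf Q u hu * rf Q v hv ∈ E) :
    ∀ (k j : ℕ) (ws : Fin j → (Fin n → F)), Fintype.card (Fin n → F) ≤ j + k →
      (∀ i, Q (ws i) ≠ 0) →
      (∀ i i', i ≠ i' → QuadraticMap.polar (⇑Q) (ws i) (ws i') = 0) →
      ∀ g : ↥(Cfsg.isometryGroup F ⇑Q),
        (∀ i, ((g : Matrix.GeneralLinearGroup (Fin n) F) : Matrix (Fin n) (Fin n) F) *ᵥ ws i
          = ws i) →
        PP Q E g := by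
  intro k
  induction k with
  | zero =>
    intro j ws hcard hq horth g hg
    exfalso
    have hinj : Function.Injective ws := by
      intro i i' hii
      by_contra hne
      have h0 := horth i i' hne
      rw [← hii, pself2] at h0
      rcases mul_eq_zero.1 h0 with h | h
      · exact h2 h
      · exact hq i h
    have hbij : Function.Bijective ws := by
      rw [Fintype.bijective_iff_injective_and_card]
      refine ⟨hinj, ?_⟩
      have h1 := Fintype.card_le_of_injective ws hinj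
      rw [Fintype.card_fin] at h1 ⊢
      omega
    obtain ⟨i, hi⟩ := hbij.2 0
    apply hq i
    rw [hi]
    exact QuadraticMap.map_zero Q
  | succ k ih =>
    intro j ws hcard hq horth g hg
    by_cases hall : ∀ x,
        ((g : Matrix.GeneralLinearGroup (Fin n) F) : Matrix (Fin n) (Fin n) F) *ᵥ x = x
    · left
      have hg1 : g = 1 := by
        apply Subtype.ext
        apply Units.ext
        apply mat_ext
        intro x
        rw [hall x]
        exact (Matrix.one_mulVec x).symm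
      rw [hg1]
      exact E.one_mem
    · push Not at hall
      obtain ⟨x, hx⟩ := hall
      obtain ⟨M, hM⟩ : ∃ M : Matrix (Fin n) (Fin n) F,
          ((g : Matrix.GeneralLinearGroup (Fin n) F) : Matrix (Fin n) (Fin n) F) = M := ⟨_, rfl⟩
      rw [hM] at hx hg
      have hMi : ∀ z, Q (M *ᵥ z) = Q z := by
        intro z
        rw [← hM]
        exact g_isom Q g z
      have hMp : ∀ a b, QuadraticMap.polar (⇑Q) (M *ᵥ a) (M *ᵥ b)
          = QuadraticMap.polar (⇑Q) a b := fun a b => polar_isom Q M hMi a b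
      have hperp : ∀ z, (∀ i, QuadraticMap.polar (⇑Q) (ws i) z = 0) →
          ∀ i, QuadraticMap.polar (⇑Q) (ws i) (M *ᵥ z) = 0 := by
        intro z hz i
        have h := hMp (ws i) z
        rw [hg i] at h
        rw [h]
        exact hz i
      obtain ⟨w, hw, hwp⟩ := exists_aniso Q h2 hQ ws hq horth (M *ᵥ x - x)
        (sub_ne_zero.2 hx) (by
          intro i
          have h := hMp (ws i) x
          rw [hg i] at h
          rw [QuadraticMap.polar_sub_right, h, sub_self])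
      have hao : ∀ (c : F) i, QuadraticMap.polar (⇑Q) (M *ᵥ w + c • w) (ws i) = 0 := by
        intro c i
        rw [QuadraticMap.polar_add_left, QuadraticMap.polar_smul_left,
          QuadraticMap.polar_comm (⇑Q) (M *ᵥ w) (ws i), QuadraticMap.polar_comm (⇑Q) w (ws i),
          hperp w hwp i, hwp i, smul_zero, add_zero]
      have hwo : ∀ i, QuadraticMap.polar (⇑Q) w (ws i) = 0 := by
        intro i
        rw [QuadraticMap.polar_comm (⇑Q) w (ws i)]
        exact hwp i
      have hq' : ∀ i : Fin (j + 1), Q ((Fin.cons w ws : Fin (j + 1) → (Fin n → F)) i) ≠ 0 := by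
        intro i
        refine Fin.cases ?_ (fun i' => ?_) i
        · rw [Fin.cons_zero]
          exact hw
        · rw [Fin.cons_succ]
          exact hq i'
      have horth' : ∀ i i' : Fin (j + 1), i ≠ i' →
          QuadraticMap.polar (⇑Q) ((Fin.cons w ws : Fin (j + 1) → (Fin n → F)) i)
            ((Fin.cons w ws : Fin (j + 1) → (Fin n → F)) i') = 0 := by
        intro i i'
        refine Fin.cases ?_ (fun a => ?_) i
        · refine Fin.cases ?_ (fun b => ?_) i'
          · intro hne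
            exact absurd rfl hne
          · intro _
            rw [Fin.cons_zero, Fin.cons_succ]
            exact hwo b
        · refine Fin.cases ?_ (fun b => ?_) i'
          · intro _
            rw [Fin.cons_zero, Fin.cons_succ]
            exact hwp a
          · intro hne
            rw [Fin.cons_succ, Fin.cons_succ]
            exact horth a b (fun h => hne (congrArg Fin.succ h))
      have hcard' : Fintype.card (Fin n → F) ≤ (j + 1) + k := by omega
      by_cases ha : Q (M *ᵥ w + (-1 : F) • w) = 0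
      · have hb : Q (M *ᵥ w + (1 : F) • w) ≠ 0 := by
          intro hb
          have hs := sumAB Q M hMi w
          rw [ha, hb, add_zero] at hs
          have h4 : (4 : F) ≠ 0 := by
            have : (4 : F) = 2 * 2 := by norm_num
            rw [this]
            exact mul_ne_zero h2 h2
          exact (mul_ne_zero h4 hw) hs.symm
        have hfix : ∀ i : Fin (j + 1),
            (((rf Q w hw * (rf Q _ hb * g) : ↥(Cfsg.isometryGroup F ⇑Q)) :
              Matrix.GeneralLinearGroup (Fin n) F) : Matrix (Fin n) (Fin n) F)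
              *ᵥ (Fin.cons w ws : Fin (j + 1) → (Fin n → F)) i
              = (Fin.cons w ws : Fin (j + 1) → (Fin n → F)) i := by
          intro i
          show (Cfsg.reflectionMatrix (⇑Q) w * (Cfsg.reflectionMatrix (⇑Q) (M *ᵥ w + (1 : F) • w)
            * ((g : Matrix.GeneralLinearGroup (Fin n) F) : Matrix (Fin n) (Fin n) F)))
              *ᵥ (Fin.cons w ws : Fin (j + 1) → (Fin n → F)) i
              = (Fin.cons w ws : Fin (j + 1) → (Fin n → F)) i
          rw [hM, ← Matrix.mulVec_mulVec, ← Matrix.mulVec_mulVec]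
          refine Fin.cases ?_ (fun i' => ?_) i
          · rw [Fin.cons_zero, stepB Q M hMi w hb, refl_neg_self Q w hw]
          · rw [Fin.cons_succ, hg i', refl_fix Q _ _ (hao 1 i'), refl_fix Q _ _ (hwo i')]
        have hP := ih (j + 1) (Fin.cons w ws) hcard' hq' horth' _ hfix
        have hP2 := PP_step Q E hE w hw _ hP
        rw [← mul_assoc, rf_mul_self, one_mul] at hP2
        have hP3 := PP_step Q E hE _ hb _ hP2
        rw [← mul_assoc, rf_mul_self, one_mul] at hP3
        exact hP3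
      · have hfix : ∀ i : Fin (j + 1),
            (((rf Q _ ha * g : ↥(Cfsg.isometryGroup F ⇑Q)) :
              Matrix.GeneralLinearGroup (Fin n) F) : Matrix (Fin n) (Fin n) F)
              *ᵥ (Fin.cons w ws : Fin (j + 1) → (Fin n → F)) i
              = (Fin.cons w ws : Fin (j + 1) → (Fin n → F)) i := by
          intro i
          show (Cfsg.reflectionMatrix (⇑Q) (M *ᵥ w + (-1 : F) • w)
            * ((g : Matrix.GeneralLinearGroup (Fin n) F) : Matrix (Fin n) (Fin n) F))
              *ᵥ (Fin.cons w ws : Fin (j + 1) → (Fin n → F)) i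
              = (Fin.cons w ws : Fin (j + 1) → (Fin n → F)) i
          rw [hM, ← Matrix.mulVec_mulVec]
          refine Fin.cases ?_ (fun i' => ?_) i
          · rw [Fin.cons_zero, stepA Q M hMi w ha]
          · rw [Fin.cons_succ, hg i', refl_fix Q _ _ (hao (-1) i')]
        have hP := ih (j + 1) (Fin.cons w ws) hcard' hq' horth' _ hfix
        have hP2 := PP_step Q E hE _ ha _ hP
        rw [← mul_assoc, rf_mul_self, one_mul] at hP2
        exact hP2

end helpers

/-- For q odd and Q with non-degenerate polar form on F^n, the determinant-one isometries form the subgroup generated by all products r_u r_v of two reflections (Q(u), Q(v) ≠ 0). -/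
theorem result {F : Type*} [Field F] [Fintype F] (h2 : (2 : F) ≠ 0) {n : ℕ} (Q : QuadraticForm F (Fin n → F)) (hQ : (QuadraticMap.polarBilin Q).Nondegenerate) : Cfsg.specialIsometryGroup F ⇑Q = Subgroup.closure {g : ↥(Cfsg.isometryGroup F ⇑Q) | ∃ u v : Fin n → F, Q u ≠ 0 ∧ Q v ≠ 0 ∧ ((g : Matrix.GeneralLinearGroup (Fin n) F) : Matrix (Fin n) (Fin n) F) = Cfsg.reflectionMatrix ⇑Q u * Cfsg.reflectionMatrix ⇑Q v} := by
  classical
  have hE : ∀ (u v : Fin n → F) (hu : Q u ≠ 0) (hv : Q v ≠ 0), rf Q u hu * rf Q v hv ∈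
      Subgroup.closure {g : ↥(Cfsg.isometryGroup F ⇑Q) | ∃ u v : Fin n → F, Q u ≠ 0 ∧ Q v ≠ 0 ∧ ((g : Matrix.GeneralLinearGroup (Fin n) F) : Matrix (Fin n) (Fin n) F) = Cfsg.reflectionMatrix ⇑Q u * Cfsg.reflectionMatrix ⇑Q v} := by
    intro u v hu hv
    apply Subgroup.subset_closure
    exact ⟨u, v, hu, hv, rfl⟩
  have hEle : Subgroup.closure {g : ↥(Cfsg.isometryGroup F ⇑Q) | ∃ u v : Fin n → F, Q u ≠ 0 ∧ Q v ≠ 0 ∧ ((g : Matrix.GeneralLinearGroup (Fin n) F) : Matrix (Fin n) (Fin n) F) = Cfsg.reflectionMatrix ⇑Q u * Cfsg.reflectionMatrix ⇑Q v} ≤ Cfsg.specialIsometryGroup F ⇑Q := by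
    rw [Subgroup.closure_le]
    rintro g ⟨u, v, hu, hv, h⟩
    show g ∈ Cfsg.specialIsometryGroup F ⇑Q
    rw [mem_SO_iff, h, Matrix.det_mul, refl_det Q u hu, refl_det Q v hv]
    norm_num
  apply le_antisymm
  · intro g hg
    rw [mem_SO_iff] at hg
    have hP := CD Q h2 hQ _ hE (Fintype.card (Fin n → F)) 0 (fun i => i.elim0) (by omega)
      (fun i => i.elim0) (fun i => i.elim0) g (fun i => i.elim0)
    rcases hP with hP | ⟨v, hv, hP⟩
    · exact hP
    · exfalso
      have h3 : (Cfsg.reflectionMatrix (⇑Q) v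
          * ((g : Matrix.GeneralLinearGroup (Fin n) F) : Matrix (Fin n) (Fin n) F)).det = 1 :=
        (mem_SO_iff Q _).1 (hEle hP)
      rw [Matrix.det_mul, refl_det Q v hv, hg] at h3
      apply h2
      linear_combination (-1 : F) * h3
  · exact hEle

end Cfsg.Agent.S0792
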