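import Cfsg.Statements.S0788
import Mathlib
import Cfsg.Agent.S0792

set_option autoImplicit false
open Cfsg

namespace Cfsg.Agent.S0788

open scoped Matrix

theorem one_ne_neg_one_units : (1 : ℤˣ) ≠ -1 := by decide

theorem char_ne_two {F : Type*} [Field F] (h2 : (2 : F) ≠ 0) : ringChar F ≠ 2 := by
  intro hc
  apply h2
  have h := CharP.cast_eq_zero F (ringChar F)
  rw [hc] at h
  exact_mod_cast h

theorem sign_invol {X : Type*} [Fintype X] [DecidableEq X] (σ : Equiv.Perm X) (h : σ * σ = 1) :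
    ∃ k : ℕ, σ.support.card = 2 * k ∧ Equiv.Perm.sign σ = (-1) ^ k := by
  by_cases h1 : σ = 1
  · refine ⟨0, ?_, ?_⟩
    · rw [h1, Equiv.Perm.support_one, Finset.card_empty]
    · rw [h1, map_one, pow_zero]
  · haveI : Fact (Nat.Prime 2) := ⟨Nat.prime_two⟩
    have ho : orderOf σ = 2 := orderOf_eq_prime (by rw [pow_two]; exact h) h1
    obtain ⟨m, hm⟩ := Equiv.Perm.cycleType_prime_order (σ := σ) (by rw [ho]; exact Nat.prime_two)
    rw [ho] at hm
    refine ⟨m + 1, ?_, ?_⟩
    · rw [← Equiv.Perm.sum_cycleType, hm, Multiset.sum_replicate, smul_eq_mul, mul_comm]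
    · rw [Equiv.Perm.sign_of_cycleType, hm, Multiset.sum_replicate, Multiset.card_replicate,
        smul_eq_mul, pow_add, pow_mul, Int.units_sq, one_mul]

theorem sq_dich {F : Type*} [Field F] [Fintype F] (h2 : (2 : F) ≠ 0) (a ν r : F) (ha : a ≠ 0)
    (hr : r ≠ 0) (hν : ¬ IsSquare ν) :
    (∃ t : F, r = t * t * (ν * a)) ∨ (∃ t : F, r = t * t * a) := by
  have hch : ringChar F ≠ 2 := char_ne_two h2
  have hν0 : ν ≠ 0 := by
    intro h0
    apply hν
    rw [h0]
    exact ⟨0, (mul_zero 0).symm⟩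
  have e : a⁻¹ * a = 1 := inv_mul_cancel₀ ha
  have e' : ν⁻¹ * ν = 1 := inv_mul_cancel₀ hν0
  by_cases hs : IsSquare (r * a⁻¹)
  · right
    obtain ⟨t, ht⟩ := hs
    refine ⟨t, ?_⟩
    linear_combination a * ht - r * e
  · left
    have hs0 : r * a⁻¹ ≠ 0 := mul_ne_zero hr (inv_ne_zero ha)
    have h1 : (r * a⁻¹) ^ (Fintype.card F / 2) = -1 := by
      rcases FiniteField.pow_dichotomy hch hs0 with h | h
      · exact absurd ((FiniteField.isSquare_iff hch hs0).2 h) hs
      · exact h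
    have h2' : ν ^ (Fintype.card F / 2) = -1 := by
      rcases FiniteField.pow_dichotomy hch hν0 with h | h
      · exact absurd ((FiniteField.isSquare_iff hch hν0).2 h) hν
      · exact h
    have h3 : IsSquare (r * a⁻¹ * ν) := by
      rw [FiniteField.isSquare_iff hch (mul_ne_zero hs0 hν0), mul_pow, h1, h2', neg_mul_neg,
        one_mul]
    obtain ⟨t, ht⟩ := h3
    refine ⟨t * ν⁻¹, ?_⟩
    linear_combination (ν⁻¹ * ν⁻¹ * ν * a) * ht - r * e - r * (a⁻¹ * a) * (ν⁻¹ * ν + 1) * e'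

/-- the two-element subgroup `{1, r}` for an involution `r` -/
def E2 {A : Type*} [CommGroup A] (r : A) (hr : r * r = 1) : Subgroup A where
  carrier := {x | x = 1 ∨ x = r}
  mul_mem' := by
    intro x y hx hy
    rcases hx with hx | hx <;> rcases hy with hy | hy
    · left
      rw [hx, hy, mul_one]
    · right
      rw [hx, hy, one_mul]
    · right
      rw [hx, hy, mul_one]
    · left
      rw [hx, hy]
      exact hr
  one_mem' := Or.inl rfl
  inv_mem' := by
    intro x hx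
    rcases hx with hx | hx
    · left
      rw [hx, inv_one]
    · right
      rw [hx]
      exact inv_eq_of_mul_eq_one_left hr

section helpers
variable {F : Type*} [Field F] {n : ℕ} (Q : QuadraticForm F (Fin n → F))

/-- the action of an isometry on a level set of `Q` -/
def fX (c : F) (g : ↥(Cfsg.isometryGroup F ⇑Q)) (x : {x : Fin n → F // Q x = c}) :
    {x : Fin n → F // Q x = c} :=
  ⟨((g : Matrix.GeneralLinearGroup (Fin n) F) : Matrix (Fin n) (Fin n) F) *ᵥ x.1, by
    rw [S0792.g_isom Q g x.1]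
    exact x.2⟩

theorem fX_one (c : F) (x : {x : Fin n → F // Q x = c}) : fX Q c 1 x = x := by
  apply Subtype.ext
  show (1 : Matrix (Fin n) (Fin n) F) *ᵥ x.1 = x.1
  exact Matrix.one_mulVec _

theorem fX_mul (c : F) (g h : ↥(Cfsg.isometryGroup F ⇑Q)) (x : {x : Fin n → F // Q x = c}) :
    fX Q c (g * h) x = fX Q c g (fX Q c h x) := by
  apply Subtype.ext
  show (((g : Matrix.GeneralLinearGroup (Fin n) F) : Matrix (Fin n) (Fin n) F)
      * ((h : Matrix.GeneralLinearGroup (Fin n) F) : Matrix (Fin n) (Fin n) F)) *ᵥ x.1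
    = ((g : Matrix.GeneralLinearGroup (Fin n) F) : Matrix (Fin n) (Fin n) F)
      *ᵥ (((h : Matrix.GeneralLinearGroup (Fin n) F) : Matrix (Fin n) (Fin n) F) *ᵥ x.1)
  rw [Matrix.mulVec_mulVec]

/-- the permutation action of the isometry group on a level set of `Q` -/
def actP (c : F) : ↥(Cfsg.isometryGroup F ⇑Q) →* Equiv.Perm {x : Fin n → F // Q x = c} where
  toFun g := ⟨fX Q c g, fX Q c g⁻¹,
    fun x => by rw [← fX_mul, inv_mul_cancel, fX_one],
    fun x => by rw [← fX_mul, mul_inv_cancel, fX_one]⟩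
  map_one' := by
    apply Equiv.ext
    intro x
    exact fX_one Q c x
  map_mul' g h := by
    apply Equiv.ext
    intro x
    exact fX_mul Q c g h x

/-- minus the identity, as an isometry -/
def negOne : ↥(Cfsg.isometryGroup F ⇑Q) :=
  ⟨⟨-1, -1, by rw [neg_mul_neg, one_mul], by rw [neg_mul_neg, one_mul]⟩, by
    intro x y
    show Q ((-1 : Matrix (Fin n) (Fin n) F) *ᵥ x) = Q x
    rw [Matrix.neg_mulVec, Matrix.one_mulVec, QuadraticMap.map_neg]⟩

theorem nr_mul_self (u : Fin n → F) (hu : Q u ≠ 0) :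
    (negOne Q * S0792.rf Q u hu) * (negOne Q * S0792.rf Q u hu) = 1 := by
  apply Subtype.ext
  apply Units.ext
  show ((-1 : Matrix (Fin n) (Fin n) F) * Cfsg.reflectionMatrix (⇑Q) u)
      * ((-1 : Matrix (Fin n) (Fin n) F) * Cfsg.reflectionMatrix (⇑Q) u) = 1
  rw [neg_one_mul, neg_mul_neg, S0792.refl_sq Q u hu]

theorem nr_mulVec (u : Fin n → F) (hu : Q u ≠ 0) (x : Fin n → F) :
    (((negOne Q * S0792.rf Q u hu : ↥(Cfsg.isometryGroup F ⇑Q)) :
      Matrix.GeneralLinearGroup (Fin n) F) : Matrix (Fin n) (Fin n) F) *ᵥ x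
      = -(Cfsg.reflectionMatrix (⇑Q) u *ᵥ x) := by
  show ((-1 : Matrix (Fin n) (Fin n) F) * Cfsg.reflectionMatrix (⇑Q) u) *ᵥ x = _
  rw [neg_one_mul, Matrix.neg_mulVec]

theorem nr_fix (h2 : (2 : F) ≠ 0) (u x : Fin n → F)
    (h : -(Cfsg.reflectionMatrix (⇑Q) u *ᵥ x) = x) :
    ∃ t : F, x = t • u := by
  refine ⟨2⁻¹ * ((Q u)⁻¹ * QuadraticMap.polar (⇑Q) u x), ?_⟩
  rw [S0792.refl_mulVec] at h
  have h3 : (2 : F) • x = ((Q u)⁻¹ * QuadraticMap.polar (⇑Q) u x) • u := by
    calc (2 : F) • x = x + x := two_smul F x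
      _ = x + -(x + (-((Q u)⁻¹ * QuadraticMap.polar (⇑Q) u x)) • u) := by rw [h]
      _ = ((Q u)⁻¹ * QuadraticMap.polar (⇑Q) u x) • u := by module
  rw [mul_smul, ← h3, smul_smul, inv_mul_cancel₀ h2, one_smul]

theorem exists_chi [Fintype F] (h2 : (2 : F) ≠ 0) (wa wb : Fin n → F) (ha : Q wa ≠ 0)
    (hb : Q wb ≠ 0) (hcls : ∀ t : F, t * t * Q wb ≠ Q wa) :
    ∃ χ : ↥(Cfsg.isometryGroup F ⇑Q) →* ℤˣ,
      χ (negOne Q * S0792.rf Q wa ha) ≠ χ (negOne Q * S0792.rf Q wb hb) := by
  classical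
  refine ⟨(Equiv.Perm.sign : Equiv.Perm {x : Fin n → F // Q x = Q wa} →* ℤˣ).comp
    (actP Q (Q wa)), ?_⟩
  rw [MonoidHom.comp_apply, MonoidHom.comp_apply]
  obtain ⟨τa, hτa⟩ : ∃ τ : Equiv.Perm {x : Fin n → F // Q x = Q wa},
      τ = actP Q (Q wa) (negOne Q * S0792.rf Q wa ha) := ⟨_, rfl⟩
  obtain ⟨τb, hτb⟩ : ∃ τ : Equiv.Perm {x : Fin n → F // Q x = Q wa},
      τ = actP Q (Q wa) (negOne Q * S0792.rf Q wb hb) := ⟨_, rfl⟩
  rw [← hτa, ← hτb]
  have iva : τa * τa = 1 := by rw [hτa, ← map_mul, nr_mul_self, map_one]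
  have ivb : τb * τb = 1 := by rw [hτb, ← map_mul, nr_mul_self, map_one]
  obtain ⟨ka, hka, hsa⟩ := sign_invol τa iva
  obtain ⟨kb, hkb, hsb⟩ := sign_invol τb ivb
  have happ : ∀ (u : Fin n → F) (hu : Q u ≠ 0) (x : {x : Fin n → F // Q x = Q wa}),
      ((actP Q (Q wa) (negOne Q * S0792.rf Q u hu)) x).1
        = -(Cfsg.reflectionMatrix (⇑Q) u *ᵥ x.1) := by
    intro u hu x
    exact nr_mulVec Q u hu x.1
  have hsb' : τb.support = Finset.univ := by
    apply Finset.eq_univ_of_forall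
    intro x
    rw [Equiv.Perm.mem_support]
    intro hfix
    have h1 : -(Cfsg.reflectionMatrix (⇑Q) wb *ᵥ x.1) = x.1 := by
      have e := congrArg Subtype.val hfix
      rw [hτb, happ wb hb x] at e
      exact e
    obtain ⟨t, ht⟩ := nr_fix Q h2 wb x.1 h1
    apply hcls t
    have hx2 := x.2
    rw [ht, QuadraticMap.map_smul, smul_eq_mul] at hx2
    exact hx2
  obtain ⟨x1, hx1⟩ : ∃ x1 : {x : Fin n → F // Q x = Q wa}, x1.1 = wa := ⟨⟨wa, rfl⟩, rfl⟩
  obtain ⟨x2, hx2⟩ : ∃ x2 : {x : Fin n → F // Q x = Q wa}, x2.1 = -wa :=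
    ⟨⟨-wa, QuadraticMap.map_neg Q wa⟩, rfl⟩
  have hsa' : τa.support = ({x1, x2} : Finset {x : Fin n → F // Q x = Q wa})ᶜ := by
    ext x
    rw [Equiv.Perm.mem_support, Finset.mem_compl, Finset.mem_insert, Finset.mem_singleton]
    constructor
    · intro hne hx
      apply hne
      apply Subtype.ext
      rw [hτa, happ wa ha x]
      rcases hx with hx | hx
      · rw [hx, hx1, S0792.refl_self Q wa ha, neg_neg]
      · rw [hx, hx2, S0792.refl_neg_self Q wa ha]
    · intro hx hfix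
      apply hx
      have h1 : -(Cfsg.reflectionMatrix (⇑Q) wa *ᵥ x.1) = x.1 := by
        have e := congrArg Subtype.val hfix
        rw [hτa, happ wa ha x] at e
        exact e
      obtain ⟨t, ht⟩ := nr_fix Q h2 wa x.1 h1
      have hxq := x.2
      rw [ht, QuadraticMap.map_smul, smul_eq_mul] at hxq
      have ht1 : (t * t - 1) * Q wa = 0 := by linear_combination hxq
      have ht2 : (t - 1) * (t + 1) = 0 := by
        rcases mul_eq_zero.1 ht1 with h | h
        · linear_combination h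
        · exact absurd h ha
      rcases mul_eq_zero.1 ht2 with h | h
      · left
        apply Subtype.ext
        rw [hx1, ht, sub_eq_zero.1 h, one_smul]
      · right
        apply Subtype.ext
        rw [hx2, ht, eq_neg_of_add_eq_zero_left h, neg_one_smul]
  have hne : x1 ≠ x2 := by
    intro h
    have h3 : x1.1 = x2.1 := congrArg Subtype.val h
    rw [hx1, hx2] at h3
    have h4 : (2 : F) • wa = 0 := by
      rw [two_smul]
      exact add_eq_zero_iff_eq_neg.2 h3
    rcases smul_eq_zero.1 h4 with h5 | h5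
    · exact h2 h5
    · apply ha
      rw [h5]
      exact QuadraticMap.map_zero Q
  have hcard : τa.support.card + 2 = τb.support.card := by
    rw [hsa', hsb', Finset.card_univ, ← Finset.card_add_card_compl ({x1, x2} : Finset _),
      Finset.card_pair hne]
    omega
  have hk : kb = ka + 1 := by omega
  rw [hsa, hsb, hk, pow_succ]
  intro h
  have h' : (-1 : ℤˣ) ^ ka * 1 = (-1 : ℤˣ) ^ ka * (-1) := by
    rw [mul_one]
    exact h
  exact one_ne_neg_one_units (mul_left_cancel h')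

theorem rf_smul (t : F) (ht : t ≠ 0) (u : Fin n → F) (hu : Q u ≠ 0) (hu' : Q (t • u) ≠ 0) :
    S0792.rf Q (t • u) hu' = S0792.rf Q u hu := by
  apply Subtype.ext
  apply Units.ext
  apply S0792.mat_ext
  intro x
  show Cfsg.reflectionMatrix (⇑Q) (t • u) *ᵥ x = Cfsg.reflectionMatrix (⇑Q) u *ᵥ x
  have ht' : t⁻¹ * t = 1 := inv_mul_cancel₀ ht
  have e : (Q (t • u))⁻¹ * QuadraticMap.polar (⇑Q) (t • u) x * t
      = (Q u)⁻¹ * QuadraticMap.polar (⇑Q) u x := by
    rw [QuadraticMap.map_smul, QuadraticMap.polar_smul_left, smul_eq_mul, smul_eq_mul, mul_inv,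
      mul_inv]
    linear_combination ((Q u)⁻¹ * QuadraticMap.polar (⇑Q) u x * (t⁻¹ * t + 1)) * ht'
  rw [S0792.refl_mulVec, S0792.refl_mulVec, smul_smul, neg_mul, e]

theorem rf_conj (g : ↥(Cfsg.isometryGroup F ⇑Q)) (a : Fin n → F) (ha : Q a ≠ 0)
    (b : Fin n → F) (hb : Q b ≠ 0)
    (hab : ((g : Matrix.GeneralLinearGroup (Fin n) F) : Matrix (Fin n) (Fin n) F) *ᵥ a = b) :
    S0792.rf Q b hb * g = g * S0792.rf Q a ha := by
  subst hab
  apply Subtype.ext
  apply Units.ext
  apply S0792.mat_ext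
  intro x
  show (Cfsg.reflectionMatrix (⇑Q)
        (((g : Matrix.GeneralLinearGroup (Fin n) F) : Matrix (Fin n) (Fin n) F) *ᵥ a)
      * ((g : Matrix.GeneralLinearGroup (Fin n) F) : Matrix (Fin n) (Fin n) F)) *ᵥ x
    = (((g : Matrix.GeneralLinearGroup (Fin n) F) : Matrix (Fin n) (Fin n) F)
      * Cfsg.reflectionMatrix (⇑Q) a) *ᵥ x
  have e1 := S0792.g_isom Q g a
  have e2 := S0792.polar_isom Q _ (fun z => S0792.g_isom Q g z) a x
  rw [← Matrix.mulVec_mulVec, ← Matrix.mulVec_mulVec, S0792.refl_mulVec, S0792.refl_mulVec,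
    Matrix.mulVec_add, Matrix.mulVec_smul, e1, e2]

theorem stepA' (a b : Fin n → F) (h : Q a = Q b) (hq : Q (a + (-1 : F) • b) ≠ 0) :
    Cfsg.reflectionMatrix (⇑Q) (a + (-1 : F) • b) *ᵥ a = b := by
  have hQa : Q (a + (-1 : F) • b) = 2 * Q b - QuadraticMap.polar (⇑Q) a b := by
    rw [S0792.Q2, h]
    ring
  have hpa : QuadraticMap.polar (⇑Q) (a + (-1 : F) • b) a = Q (a + (-1 : F) • b) := by
    rw [hQa, QuadraticMap.polar_add_left, QuadraticMap.polar_smul_left, S0792.pself2, h,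
      QuadraticMap.polar_comm (⇑Q) b a, smul_eq_mul]
    ring
  rw [S0792.refl_mulVec, hpa, inv_mul_cancel₀ hq]
  module

theorem stepB' (a b : Fin n → F) (h : Q a = Q b) (hq : Q (a + (1 : F) • b) ≠ 0) :
    Cfsg.reflectionMatrix (⇑Q) (a + (1 : F) • b) *ᵥ a = (-1 : F) • b := by
  have hQb : Q (a + (1 : F) • b) = 2 * Q b + QuadraticMap.polar (⇑Q) a b := by
    rw [S0792.Q2, h]
    ring
  have hpb : QuadraticMap.polar (⇑Q) (a + (1 : F) • b) a = Q (a + (1 : F) • b) := by
    rw [hQb, QuadraticMap.polar_add_left, QuadraticMap.polar_smul_left, S0792.pself2, h,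
      QuadraticMap.polar_comm (⇑Q) b a, smul_eq_mul]
    ring
  rw [S0792.refl_mulVec, hpb, inv_mul_cancel₀ hq]
  module

theorem rf_class {A : Type*} [CommGroup A] (π : ↥(Cfsg.isometryGroup F ⇑Q) →* A)
    (h2 : (2 : F) ≠ 0) (a b : Fin n → F) (ha : Q a ≠ 0) (hb : Q b ≠ 0) (h : Q a = Q b) :
    π (S0792.rf Q a ha) = π (S0792.rf Q b hb) := by
  have key : ∀ (g : ↥(Cfsg.isometryGroup F ⇑Q)) (b' : Fin n → F) (hb' : Q b' ≠ 0),
      ((g : Matrix.GeneralLinearGroup (Fin n) F) : Matrix (Fin n) (Fin n) F) *ᵥ a = b' →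
      π (S0792.rf Q b' hb') = π (S0792.rf Q a ha) := by
    intro g b' hb' hg
    have e := congrArg π (rf_conj Q g a ha b' hb' hg)
    rw [map_mul, map_mul, mul_comm] at e
    exact mul_left_cancel e
  have hsum : Q (a + (-1 : F) • b) + Q (a + (1 : F) • b) = 4 * Q a := by
    rw [S0792.Q2, S0792.Q2, ← h]
    ring
  by_cases hm : Q (a + (-1 : F) • b) = 0
  · have hp : Q (a + (1 : F) • b) ≠ 0 := by
      intro hp
      rw [hm, hp, add_zero] at hsum
      have h4 : (4 : F) ≠ 0 := by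
        have e4 : (4 : F) = 2 * 2 := by norm_num
        rw [e4]
        exact mul_ne_zero h2 h2
      rcases mul_eq_zero.1 hsum.symm with h' | h'
      · exact h4 h'
      · exact ha h'
    have hnb : Q ((-1 : F) • b) ≠ 0 := by
      rw [QuadraticMap.map_smul, smul_eq_mul]
      intro h0
      apply hb
      linear_combination h0
    have e1 := key (S0792.rf Q (a + (1 : F) • b) hp) ((-1 : F) • b) hnb (stepB' Q a b h hp)
    rw [← e1]
    exact congrArg π (rf_smul Q (-1) (neg_ne_zero.2 one_ne_zero) b hb hnb)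
  · exact (key (S0792.rf Q (a + (-1 : F) • b) hm) b hb (stepA' Q a b h hm)).symm

theorem rf_class2 {A : Type*} [CommGroup A] (π : ↥(Cfsg.isometryGroup F ⇑Q) →* A)
    (h2 : (2 : F) ≠ 0) (u v : Fin n → F) (hu : Q u ≠ 0) (hv : Q v ≠ 0) (t : F)
    (h : Q v = t * t * Q u) :
    π (S0792.rf Q v hv) = π (S0792.rf Q u hu) := by
  have ht : t ≠ 0 := by
    intro ht0
    apply hv
    rw [h, ht0]
    ring
  have hq : Q (t • u) = t * t * Q u := by rw [QuadraticMap.map_smul, smul_eq_mul]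
  have hu' : Q (t • u) ≠ 0 := by
    rw [hq, ← h]
    exact hv
  rw [← rf_smul Q t ht u hu hu']
  exact rf_class Q π h2 v (t • u) hv hu' (by rw [hq, h])

theorem two_classes [Fintype F] (h2 : (2 : F) ≠ 0) (hn : 2 ≤ n)
    (hQ : (QuadraticMap.polarBilin Q).Nondegenerate) :
    ∃ wa wb : Fin n → F, Q wa ≠ 0 ∧ Q wb ≠ 0 ∧ (∀ t : F, t * t * Q wb ≠ Q wa) ∧
      ∀ u : Fin n → F, Q u ≠ 0 →
        (∃ t : F, Q u = t * t * Q wa) ∨ (∃ t : F, Q u = t * t * Q wb) := by
  have hch : ringChar F ≠ 2 := char_ne_two h2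
  obtain ⟨w1, hw1, -⟩ := S0792.exists_aniso Q h2 hQ (fun i : Fin 0 => i.elim0)
    (fun i => i.elim0) (fun i => i.elim0) (Pi.single (⟨0, by omega⟩ : Fin n) (1 : F)) (by
      intro h
      have h' := congrFun h ⟨0, by omega⟩
      rw [Pi.single_eq_same] at h'
      exact one_ne_zero h') (fun i => i.elim0)
  obtain ⟨y, hy0, hy⟩ : ∃ y : Fin n → F, y ≠ 0 ∧ QuadraticMap.polar (⇑Q) w1 y = 0 := by
    have hk : LinearMap.ker (QuadraticMap.polarBilin Q w1) ≠ ⊥ := by
      apply LinearMap.ker_ne_bot_of_finrank_lt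
      rw [Module.finrank_self, Module.finrank_fin_fun]
      omega
    obtain ⟨y, hy, hy0⟩ := Submodule.exists_mem_ne_zero_of_ne_bot hk
    refine ⟨y, hy0, ?_⟩
    rw [← QuadraticMap.polarBilin_apply_apply]
    exact LinearMap.mem_ker.1 hy
  obtain ⟨w2, hw2, hw2o⟩ := S0792.exists_aniso Q h2 hQ (fun _ : Fin 1 => w1) (fun _ => hw1)
    (fun i i' hne => absurd (Subsingleton.elim i i') hne) y hy0 (fun _ => hy)
  have ho : QuadraticMap.polar (⇑Q) w1 w2 = 0 := hw2o 0
  obtain ⟨ν, hν⟩ := FiniteField.exists_nonsquare hch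
  have hν0 : ν ≠ 0 := by
    intro h0
    apply hν
    rw [h0]
    exact ⟨0, (mul_zero 0).symm⟩
  obtain ⟨x, z, hxz⟩ : ∃ x z : F, Q w1 * (x * x) + Q w2 * (z * z) = ν * Q w1 := by
    have hf : (Polynomial.C (Q w1) * Polynomial.X ^ 2 + Polynomial.C 0 * Polynomial.X
        + Polynomial.C (-(ν * Q w1))).degree = 2 := Polynomial.degree_quadratic hw1
    have hg : (Polynomial.C (Q w2) * Polynomial.X ^ 2 + Polynomial.C 0 * Polynomial.X
        + Polynomial.C 0).degree = 2 := Polynomial.degree_quadratic hw2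
    obtain ⟨x, z, h⟩ := FiniteField.exists_root_sum_quadratic hf hg
      (FiniteField.odd_card_of_char_ne_two hch)
    refine ⟨x, z, ?_⟩
    simp only [Polynomial.eval_add, Polynomial.eval_mul, Polynomial.eval_C, Polynomial.eval_X,
      Polynomial.eval_pow] at h
    linear_combination h
  have hQa : Q (x • w1 + z • w2) = ν * Q w1 := by
    rw [S0792.Q2]
    simp only [QuadraticMap.map_smul, QuadraticMap.polar_smul_left, smul_eq_mul, ho]
    linear_combination hxz
  refine ⟨x • w1 + z • w2, w1, ?_, hw1, ?_, ?_⟩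
  · rw [hQa]
    exact mul_ne_zero hν0 hw1
  · intro t ht
    rw [hQa] at ht
    exact hν ⟨t, (mul_right_cancel₀ hw1 ht).symm⟩
  · intro u hu
    rw [hQa]
    exact sq_dich h2 (Q w1) ν (Q u) hw1 hu hν

end helpers

/-- Ω has index 4 in O for q odd: if F is finite of odd characteristic, n ≥ 2 and Q is a quadratic form on F^n with non-degenerate polar form, then the commutator subgroup of the isometry group of Q (the group Ω of our definitions) has index 4 in it. -/
theorem result {F : Type*} [Field F] [Fintype F] (h2 : (2 : F) ≠ 0) {n : ℕ} (hn : 2 ≤ n) (Q : QuadraticForm F (Fin n → F)) (hQ : (QuadraticMap.polarBilin Q).Nondegenerate) : (Cfsg.Omega F ⇑Q).index = 4 := by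
  classical
  obtain ⟨wa, wb, hwa, hwb, hcls, hdich⟩ := two_classes Q h2 hn hQ
  obtain ⟨χ, hχ⟩ := exists_chi Q h2 wa wb hwa hwb hcls
  haveI hfin : Finite ↥(Cfsg.isometryGroup F ⇑Q) := inferInstance
  have hz : χ (S0792.rf Q wa hwa * S0792.rf Q wb hwb) ≠ 1 := by
    intro h1
    apply hχ
    have e1 : χ (S0792.rf Q wb hwb) * χ (S0792.rf Q wb hwb) = 1 := by
      rw [← map_mul, S0792.rf_mul_self, map_one]
    rw [map_mul] at h1
    have e2 : χ (S0792.rf Q wa hwa) = χ (S0792.rf Q wb hwb) := by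
      calc χ (S0792.rf Q wa hwa)
          = χ (S0792.rf Q wa hwa) * (χ (S0792.rf Q wb hwb) * χ (S0792.rf Q wb hwb)) := by
            rw [e1, mul_one]
        _ = (χ (S0792.rf Q wa hwa) * χ (S0792.rf Q wb hwb)) * χ (S0792.rf Q wb hwb) := by
            rw [mul_assoc]
        _ = χ (S0792.rf Q wb hwb) := by rw [h1, one_mul]
    rw [map_mul, map_mul, e2]
  have hlow : 4 ≤ (Cfsg.Omega F ⇑Q).index := by
    have hle : Cfsg.Omega F ⇑Q ≤ Cfsg.specialIsometryGroup F ⇑Q := by
      unfold Cfsg.specialIsometryGroup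
      exact Abelianization.commutator_subset_ker _
    have hidx := Subgroup.relIndex_mul_index hle
    have h0 : (Cfsg.Omega F ⇑Q).index ≠ 0 := Subgroup.index_ne_zero_of_finite
    have hK1 : (Cfsg.specialIsometryGroup F ⇑Q).index ≠ 1 := by
      intro h
      rw [Subgroup.index_eq_one] at h
      have hm : S0792.rf Q wb hwb ∈ Cfsg.specialIsometryGroup F ⇑Q := by
        rw [h]
        exact Subgroup.mem_top _
      rw [S0792.mem_SO_iff] at hm
      have hd : (Cfsg.reflectionMatrix (⇑Q) wb).det = 1 := hm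
      rw [S0792.refl_det Q wb hwb] at hd
      apply h2
      linear_combination (-1 : F) * hd
    have hR1 : (Cfsg.Omega F ⇑Q).relIndex (Cfsg.specialIsometryGroup F ⇑Q) ≠ 1 := by
      intro h
      rw [Subgroup.relIndex_eq_one] at h
      have hm : S0792.rf Q wa hwa * S0792.rf Q wb hwb ∈ Cfsg.specialIsometryGroup F ⇑Q := by
        rw [S0792.mem_SO_iff]
        show (Cfsg.reflectionMatrix (⇑Q) wa * Cfsg.reflectionMatrix (⇑Q) wb).det = 1
        rw [Matrix.det_mul, S0792.refl_det Q wa hwa, S0792.refl_det Q wb hwb]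
        norm_num
      have hm2 := h hm
      have hker : χ (S0792.rf Q wa hwa * S0792.rf Q wb hwb) = 1 :=
        MonoidHom.mem_ker.1 (Abelianization.commutator_subset_ker χ hm2)
      exact hz hker
    obtain ⟨a, ha⟩ : ∃ a, a = (Cfsg.Omega F ⇑Q).relIndex (Cfsg.specialIsometryGroup F ⇑Q) :=
      ⟨_, rfl⟩
    obtain ⟨b, hb⟩ : ∃ b, b = (Cfsg.specialIsometryGroup F ⇑Q).index := ⟨_, rfl⟩
    rw [← ha, ← hb] at hidx
    rw [← ha] at hR1
    rw [← hb] at hK1
    rw [← hidx] at h0 ⊢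
    have ha0 : a ≠ 0 := by
      intro h
      rw [h, zero_mul] at h0
      exact h0 rfl
    have hb0 : b ≠ 0 := by
      intro h
      rw [h, mul_zero] at h0
      exact h0 rfl
    have ha2 : 2 ≤ a := by omega
    have hb2 : 2 ≤ b := by omega
    calc 4 = 2 * 2 := rfl
      _ ≤ a * b := Nat.mul_le_mul ha2 hb2
  have hup : (Cfsg.Omega F ⇑Q).index ≤ 4 := by
    rw [Subgroup.index_eq_card]
    show Nat.card (Abelianization ↥(Cfsg.isometryGroup F ⇑Q)) ≤ 4
    have hs : Function.Surjective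
        (Abelianization.of : ↥(Cfsg.isometryGroup F ⇑Q) →* Abelianization ↥(Cfsg.isometryGroup F ⇑Q)) := by
      intro x
      obtain ⟨g, hg⟩ := QuotientGroup.mk_surjective x
      exact ⟨g, hg⟩
    haveI : Finite (Abelianization ↥(Cfsg.isometryGroup F ⇑Q)) := Finite.of_surjective _ hs
    haveI := Fintype.ofFinite (Abelianization ↥(Cfsg.isometryGroup F ⇑Q))
    obtain ⟨π, hπ⟩ : ∃ π : ↥(Cfsg.isometryGroup F ⇑Q) →* Abelianization ↥(Cfsg.isometryGroup F ⇑Q),
        π = Abelianization.of := ⟨_, rfl⟩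
    rw [← hπ] at hs
    obtain ⟨ρa, hρad⟩ : ∃ ρ, ρ = π (S0792.rf Q wa hwa) := ⟨_, rfl⟩
    obtain ⟨ρb, hρbd⟩ : ∃ ρ, ρ = π (S0792.rf Q wb hwb) := ⟨_, rfl⟩
    have hρa : ρa * ρa = 1 := by rw [hρad, ← map_mul, S0792.rf_mul_self, map_one]
    have hρb : ρb * ρb = 1 := by rw [hρbd, ← map_mul, S0792.rf_mul_self, map_one]
    have hr : (ρa * ρb) * (ρa * ρb) = 1 := by rw [mul_mul_mul_comm, hρa, hρb, one_mul]
    have hrefl : ∀ (u : Fin n → F) (hu : Q u ≠ 0),
        π (S0792.rf Q u hu) = ρa ∨ π (S0792.rf Q u hu) = ρb := by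
      intro u hu
      rcases hdich u hu with ⟨t, ht⟩ | ⟨t, ht⟩
      · left
        rw [hρad]
        exact rf_class2 Q π h2 wa u hwa hu t ht
      · right
        rw [hρbd]
        exact rf_class2 Q π h2 wb u hwb hu t ht
    have hE : ∀ (u v : Fin n → F) (hu : Q u ≠ 0) (hv : Q v ≠ 0),
        S0792.rf Q u hu * S0792.rf Q v hv ∈ (E2 (ρa * ρb) hr).comap π := by
      intro u v hu hv
      show π (S0792.rf Q u hu * S0792.rf Q v hv) = 1
        ∨ π (S0792.rf Q u hu * S0792.rf Q v hv) = ρa * ρb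
      rw [map_mul]
      rcases hrefl u hu with h | h <;> rcases hrefl v hv with h' | h' <;> rw [h, h']
      · left
        exact hρa
      · right
        rfl
      · right
        exact mul_comm _ _
      · left
        exact hρb
    have hall : ∀ x : Abelianization ↥(Cfsg.isometryGroup F ⇑Q),
        x ∈ ({1, ρa * ρb, ρa, ρb} : Finset (Abelianization ↥(Cfsg.isometryGroup F ⇑Q))) := by
      intro x
      obtain ⟨g, rfl⟩ := hs x
      have hPP : g ∈ (E2 (ρa * ρb) hr).comap π ∨ ∃ (v : Fin n → F) (hv : Q v ≠ 0),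
          S0792.rf Q v hv * g ∈ (E2 (ρa * ρb) hr).comap π :=
        S0792.CD Q h2 hQ _ hE (Fintype.card (Fin n → F)) 0 (fun i => i.elim0) (by omega)
          (fun i => i.elim0) (fun i => i.elim0) g (fun i => i.elim0)
      simp only [Finset.mem_insert, Finset.mem_singleton]
      rcases hPP with h | ⟨v, hv, h⟩
      · have h' : π g = 1 ∨ π g = ρa * ρb := h
        rcases h' with h'' | h''
        · left
          exact h''
        · right
          left
          exact h''
      · have hg : π g = π (S0792.rf Q v hv) * π (S0792.rf Q v hv * g) := by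
          rw [← map_mul, ← mul_assoc, S0792.rf_mul_self, one_mul]
        have h' : π (S0792.rf Q v hv * g) = 1 ∨ π (S0792.rf Q v hv * g) = ρa * ρb := h
        rcases hrefl v hv with hv' | hv' <;> rcases h' with h'' | h'' <;> rw [hg, hv', h'']
        · right
          right
          left
          exact mul_one _
        · right
          right
          right
          rw [← mul_assoc, hρa, one_mul]
        · right
          right
          right
          exact mul_one _
        · right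
          right
          left
          rw [mul_comm ρa ρb, ← mul_assoc, hρb, one_mul]
    calc Nat.card (Abelianization ↥(Cfsg.isometryGroup F ⇑Q))
        = Fintype.card (Abelianization ↥(Cfsg.isometryGroup F ⇑Q)) := Nat.card_eq_fintype_card
      _ = (Finset.univ : Finset (Abelianization ↥(Cfsg.isometryGroup F ⇑Q))).card :=
          Finset.card_univ.symm
      _ ≤ ({1, ρa * ρb, ρa, ρb} : Finset (Abelianization ↥(Cfsg.isometryGroup F ⇑Q))).card :=
          Finset.card_le_card (fun x _ => hall x)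
      _ ≤ 4 := Finset.card_le_four
  omega

end Cfsg.Agent.S0788
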