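import Cfsg.Statements.S0794
import Mathlib

set_option autoImplicit false
open Cfsg

namespace Cfsg.Agent.S0794

open scoped Matrix

section helpers
variable {F : Type*} [Field F] {n : ℕ} (Q : QuadraticForm F (Fin n → F))

theorem pv_dot (u x : Fin n → F) :
    Cfsg.polarVec (⇑Q) u ⬝ᵥ x = QuadraticMap.polar (⇑Q) u x := by
  have hx : x = ∑ j, x j • (Pi.single j (1 : F) : Fin n → F) := by
    ext i
    simp [Finset.sum_apply, Pi.single_apply]
  conv_rhs => rw [hx]
  rw [← QuadraticMap.polarBilin_apply_apply, map_sum]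
  simp only [map_smul, QuadraticMap.polarBilin_apply_apply, smul_eq_mul]
  unfold Cfsg.polarVec dotProduct
  apply Finset.sum_congr rfl
  intro j _
  ring

theorem mat_ext (A B : Matrix (Fin n) (Fin n) F) (h : ∀ x, A *ᵥ x = B *ᵥ x) : A = B := by
  apply Matrix.toLin'.injective
  apply LinearMap.ext
  intro x
  rw [Matrix.toLin'_apply, Matrix.toLin'_apply]
  exact h x

theorem sieg_mulVec (u v : Fin n → F) (c : F) (x : Fin n → F) :
    Cfsg.siegelMatrix (⇑Q) u v c *ᵥ x
      = x + (c * QuadraticMap.polar (⇑Q) u x) • v + (-(c * QuadraticMap.polar (⇑Q) v x)) • u := by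
  unfold Cfsg.siegelMatrix
  rw [Matrix.add_mulVec, Matrix.one_mulVec, Matrix.smul_mulVec, Matrix.sub_mulVec,
    Matrix.vecMulVec_mulVec, Matrix.vecMulVec_mulVec, op_smul_eq_smul, op_smul_eq_smul,
    pv_dot, pv_dot]
  module

/-- the map which is `-1` on the hyperbolic plane spanned by `v, v'` and `1` on its perp -/
def Hm (v v' : Fin n → F) : Matrix (Fin n) (Fin n) F :=
  1 - (2 : F) • (Matrix.vecMulVec v (Cfsg.polarVec (⇑Q) v')
    + Matrix.vecMulVec v' (Cfsg.polarVec (⇑Q) v))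

theorem Hm_mulVec (v v' x : Fin n → F) :
    Hm Q v v' *ᵥ x = x + (-(2 * QuadraticMap.polar (⇑Q) v' x)) • v
      + (-(2 * QuadraticMap.polar (⇑Q) v x)) • v' := by
  unfold Hm
  rw [Matrix.sub_mulVec, Matrix.one_mulVec, Matrix.smul_mulVec, Matrix.add_mulVec,
    Matrix.vecMulVec_mulVec, Matrix.vecMulVec_mulVec, op_smul_eq_smul, op_smul_eq_smul,
    pv_dot, pv_dot]
  module

theorem Q3 (x v u : Fin n → F) (a b : F) :
    Q (x + a • v + b • u) = Q x + a * a * Q v + b * b * Q u + a * QuadraticMap.polar (⇑Q) x v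
      + b * QuadraticMap.polar (⇑Q) x u + a * b * QuadraticMap.polar (⇑Q) v u := by
  rw [QuadraticMap.map_add (⇑Q) (x + a • v) (b • u), QuadraticMap.map_add (⇑Q) x (a • v)]
  simp only [QuadraticMap.map_smul, QuadraticMap.polar_add_left, QuadraticMap.polar_smul_left,
    QuadraticMap.polar_smul_right, smul_eq_mul]
  ring

theorem P3 (y x v u : Fin n → F) (a b : F) :
    QuadraticMap.polar (⇑Q) y (x + a • v + b • u) = QuadraticMap.polar (⇑Q) y x
      + a * QuadraticMap.polar (⇑Q) y v + b * QuadraticMap.polar (⇑Q) y u := by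
  simp only [QuadraticMap.polar_add_right, QuadraticMap.polar_smul_right, smul_eq_mul]

theorem pself (v : Fin n → F) (hv : Q v = 0) : QuadraticMap.polar (⇑Q) v v = 0 := by
  rw [QuadraticMap.polar_self, hv, smul_zero]

variable (u v v' : Fin n → F) (hu : Q u = 0) (hv : Q v = 0) (hv' : Q v' = 0)
  (huv : QuadraticMap.polar (⇑Q) u v = 0) (huv' : QuadraticMap.polar (⇑Q) u v' = 0)
  (hvv : QuadraticMap.polar (⇑Q) v v' = 1)

include hu hv huv in
theorem sieg_isom (c : F) (x : Fin n → F) :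
    Q (Cfsg.siegelMatrix (⇑Q) u v c *ᵥ x) = Q x := by
  rw [sieg_mulVec, Q3, hu, hv, QuadraticMap.polar_comm (⇑Q) v u, huv,
    QuadraticMap.polar_comm (⇑Q) x v, QuadraticMap.polar_comm (⇑Q) x u]
  ring

include hv hv' hvv in
theorem Hm_isom (x : Fin n → F) : Q (Hm Q v v' *ᵥ x) = Q x := by
  rw [Hm_mulVec, Q3, hv, hv', hvv, QuadraticMap.polar_comm (⇑Q) x v,
    QuadraticMap.polar_comm (⇑Q) x v']
  ring

include hv hvv in
theorem Hm_v : Hm Q v v' *ᵥ v = -v := by
  rw [Hm_mulVec, pself Q v hv, QuadraticMap.polar_comm (⇑Q) v' v, hvv]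
  module

include hv' hvv in
theorem Hm_v' : Hm Q v v' *ᵥ v' = -v' := by
  rw [Hm_mulVec, pself Q v' hv', hvv]
  module

include huv huv' in
theorem Hm_u : Hm Q v v' *ᵥ u = u := by
  rw [Hm_mulVec, QuadraticMap.polar_comm (⇑Q) v' u, huv', QuadraticMap.polar_comm (⇑Q) v u, huv]
  module

include hv hv' hvv in
theorem Hm_sq (x : Fin n → F) : Hm Q v v' *ᵥ (Hm Q v v' *ᵥ x) = x := by
  conv_lhs => rw [Hm_mulVec Q v v' x]
  rw [Matrix.mulVec_add, Matrix.mulVec_add, Matrix.mulVec_smul, Matrix.mulVec_smul,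
    Hm_v Q v v' hv hvv, Hm_v' Q v v' hv' hvv, Hm_mulVec]
  module

include hv hv' hvv in
theorem Hm_mul : Hm Q v v' * Hm Q v v' = 1 := by
  apply mat_ext
  intro x
  rw [← Matrix.mulVec_mulVec, Hm_sq Q v v' hv hv' hvv, Matrix.one_mulVec]

include huv huv' in
theorem polar_u_H (x : Fin n → F) :
    QuadraticMap.polar (⇑Q) u (Hm Q v v' *ᵥ x) = QuadraticMap.polar (⇑Q) u x := by
  rw [Hm_mulVec, P3, huv, huv']
  ring

include hv hvv in
theorem polar_v_H (x : Fin n → F) :
    QuadraticMap.polar (⇑Q) v (Hm Q v v' *ᵥ x) = - QuadraticMap.polar (⇑Q) v x := by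
  rw [Hm_mulVec, P3, pself Q v hv, hvv]
  ring

include hu hv huv in
theorem polar_u_T (c : F) (x : Fin n → F) :
    QuadraticMap.polar (⇑Q) u (Cfsg.siegelMatrix (⇑Q) u v c *ᵥ x) = QuadraticMap.polar (⇑Q) u x := by
  rw [sieg_mulVec, P3, huv, pself Q u hu]
  ring

include hu hv huv in
theorem polar_v_T (c : F) (x : Fin n → F) :
    QuadraticMap.polar (⇑Q) v (Cfsg.siegelMatrix (⇑Q) u v c *ᵥ x) = QuadraticMap.polar (⇑Q) v x := by
  rw [sieg_mulVec, P3, pself Q v hv, QuadraticMap.polar_comm (⇑Q) v u, huv]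
  ring

include hu hv huv in
theorem sieg_mul (c₁ c₂ : F) :
    Cfsg.siegelMatrix (⇑Q) u v c₁ * Cfsg.siegelMatrix (⇑Q) u v c₂
      = Cfsg.siegelMatrix (⇑Q) u v (c₁ + c₂) := by
  apply mat_ext
  intro x
  rw [← Matrix.mulVec_mulVec, sieg_mulVec Q u v c₁, polar_u_T Q u v hu hv huv,
    polar_v_T Q u v hu hv huv, sieg_mulVec, sieg_mulVec]
  module

theorem sieg_zero : Cfsg.siegelMatrix (⇑Q) u v 0 = 1 := by
  unfold Cfsg.siegelMatrix
  rw [zero_smul, add_zero]

include hu hv hv' huv huv' hvv in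
theorem conj_HT (c : F) :
    Hm Q v v' * Cfsg.siegelMatrix (⇑Q) u v c * Hm Q v v' = Cfsg.siegelMatrix (⇑Q) u v (-c) := by
  apply mat_ext
  intro x
  rw [← Matrix.mulVec_mulVec, ← Matrix.mulVec_mulVec,
    sieg_mulVec Q u v c (Hm Q v v' *ᵥ x), polar_u_H Q u v v' huv huv', polar_v_H Q v v' hv hvv,
    Matrix.mulVec_add, Matrix.mulVec_add, Matrix.mulVec_smul, Matrix.mulVec_smul,
    Hm_sq Q v v' hv hv' hvv, Hm_v Q v v' hv hvv, Hm_u Q u v v' huv huv', sieg_mulVec]
  module

end helpers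

/-- For q odd, n ≥ 5 and Q with non-degenerate polar form: an isometry whose matrix is a Siegel transformation T_(u,v)(c) (u, v singular and orthogonal) is a commutator in the isometry group, so lies in Ω. -/
theorem result {F : Type*} [Field F] [Fintype F] (h2 : (2 : F) ≠ 0) {n : ℕ} (hn : 5 ≤ n) (Q : QuadraticForm F (Fin n → F)) (hQ : (QuadraticMap.polarBilin Q).Nondegenerate) (u v : Fin n → F) (hu : Q u = 0) (hv : Q v = 0) (huv : QuadraticMap.polar ⇑Q u v = 0) (c : F) (g : ↥(Cfsg.isometryGroup F ⇑Q)) (hg : ((g : Matrix.GeneralLinearGroup (Fin n) F) : Matrix (Fin n) (Fin n) F) = Cfsg.siegelMatrix ⇑Q u v c) : g ∈ commutatorSet ↥(Cfsg.isometryGroup F ⇑Q) ∧ g ∈ Cfsg.Omega F ⇑Q := by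
  classical
  have key : g ∈ commutatorSet ↥(Cfsg.isometryGroup F ⇑Q) := by
    by_cases h : ∃ w, QuadraticMap.polar (⇑Q) w u = 0 ∧ QuadraticMap.polar (⇑Q) w v ≠ 0
    · obtain ⟨w₀, hw0u, hw0v⟩ := h
      have hwv : QuadraticMap.polar (⇑Q) ((QuadraticMap.polar (⇑Q) w₀ v)⁻¹ • w₀) v = 1 := by
        rw [QuadraticMap.polar_smul_left, smul_eq_mul, inv_mul_cancel₀ hw0v]
      have hwu : QuadraticMap.polar (⇑Q) ((QuadraticMap.polar (⇑Q) w₀ v)⁻¹ • w₀) u = 0 := by
        rw [QuadraticMap.polar_smul_left, hw0u, smul_zero]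
      generalize (QuadraticMap.polar (⇑Q) w₀ v)⁻¹ • w₀ = w at hwv hwu
      have hv'q : Q (w + (-(Q w)) • v + (0 : F) • v) = 0 := by
        rw [Q3, hv, hwv]
        ring
      have hvv' : QuadraticMap.polar (⇑Q) v (w + (-(Q w)) • v + (0 : F) • v) = 1 := by
        rw [P3, pself Q v hv, QuadraticMap.polar_comm (⇑Q) v w, hwv]
        ring
      have huv' : QuadraticMap.polar (⇑Q) u (w + (-(Q w)) • v + (0 : F) • v) = 0 := by
        rw [P3, huv, QuadraticMap.polar_comm (⇑Q) u w, hwu]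
        ring
      generalize w + (-(Q w)) • v + (0 : F) • v = v' at hv'q hvv' huv'
      let hU : Matrix.GeneralLinearGroup (Fin n) F :=
        ⟨Hm Q v v', Hm Q v v', Hm_mul Q v v' hv hv'q hvv', Hm_mul Q v v' hv hv'q hvv'⟩
      have hT1 : ∀ d : F, Cfsg.siegelMatrix (⇑Q) u v d * Cfsg.siegelMatrix (⇑Q) u v (-d) = 1 := by
        intro d
        rw [sieg_mul Q u v hu hv huv, add_neg_cancel, sieg_zero]
      have hT2 : ∀ d : F, Cfsg.siegelMatrix (⇑Q) u v (-d) * Cfsg.siegelMatrix (⇑Q) u v d = 1 := by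
        intro d
        rw [sieg_mul Q u v hu hv huv, neg_add_cancel, sieg_zero]
      let tU : Matrix.GeneralLinearGroup (Fin n) F :=
        ⟨Cfsg.siegelMatrix (⇑Q) u v (-(c / 2)), Cfsg.siegelMatrix (⇑Q) u v (-(-(c / 2))),
          hT1 _, hT2 _⟩
      have hUm : hU ∈ Cfsg.isometryGroup F ⇑Q := by
        intro x y
        show Q (Hm Q v v' *ᵥ x) = Q x
        exact Hm_isom Q v v' hv hv'q hvv' x
      have tUm : tU ∈ Cfsg.isometryGroup F ⇑Q := by
        intro x y
        show Q (Cfsg.siegelMatrix (⇑Q) u v (-(c / 2)) *ᵥ x) = Q x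
        exact sieg_isom Q u v hu hv huv _ x
      rw [mem_commutatorSet_iff]
      refine ⟨⟨hU, hUm⟩, ⟨tU, tUm⟩, ?_⟩
      apply Subtype.ext
      apply Units.ext
      show Hm Q v v' * Cfsg.siegelMatrix (⇑Q) u v (-(c / 2)) * Hm Q v v'
        * Cfsg.siegelMatrix (⇑Q) u v (-(-(c / 2))) = _
      rw [hg, conj_HT Q u v v' hu hv hv'q huv huv' hvv', sieg_mul Q u v hu hv huv]
      congr 1
      field_simp
      ring
    · push Not at h
      have hone : Cfsg.siegelMatrix (⇑Q) u v c = 1 := by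
        apply mat_ext
        intro x
        rw [sieg_mulVec, Matrix.one_mulVec]
        have hy : (QuadraticMap.polar (⇑Q) u x) • v + (-(QuadraticMap.polar (⇑Q) v x)) • u = 0 := by
          apply hQ.1
          intro w
          rw [QuadraticMap.polarBilin_apply_apply]
          have h1 := h (QuadraticMap.polar (⇑Q) u x • w + (-(QuadraticMap.polar (⇑Q) u w)) • x) (by
            rw [QuadraticMap.polar_add_left, QuadraticMap.polar_smul_left, QuadraticMap.polar_smul_left,
              QuadraticMap.polar_comm (⇑Q) w u, QuadraticMap.polar_comm (⇑Q) x u]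
            simp only [smul_eq_mul]
            ring)
          rw [QuadraticMap.polar_add_left, QuadraticMap.polar_smul_left, QuadraticMap.polar_smul_left] at h1
          rw [QuadraticMap.polar_add_left, QuadraticMap.polar_smul_left, QuadraticMap.polar_smul_left,
            QuadraticMap.polar_comm (⇑Q) v w]
          simp only [smul_eq_mul] at h1 ⊢
          rw [QuadraticMap.polar_comm (⇑Q) x v] at h1
          linear_combination h1
        have e : x + (c * QuadraticMap.polar (⇑Q) u x) • v + (-(c * QuadraticMap.polar (⇑Q) v x)) • u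
            = x + c • ((QuadraticMap.polar (⇑Q) u x) • v + (-(QuadraticMap.polar (⇑Q) v x)) • u) := by
          module
        rw [e, hy, smul_zero, add_zero]
      have hg1 : g = 1 := by
        apply Subtype.ext
        apply Units.ext
        rw [hg, hone]
        rfl
      rw [mem_commutatorSet_iff]
      exact ⟨1, 1, by rw [hg1]; simp⟩
  refine ⟨key, ?_⟩
  show g ∈ commutator ↥(Cfsg.isometryGroup F ⇑Q)
  rw [commutator_eq_closure]
  exact Subgroup.subset_closure key

end Cfsg.Agent.S0794
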