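import Cfsg.Statements.S0796
import Mathlib


set_option autoImplicit false
open Cfsg

namespace Cfsg.Agent.S0796

/-- If G is finite and acts faithfully and primitively on X, H is the stabiliser of a point, A is a normal subgroup of H whose normal closure in G is G, then for every non-trivial normal subgroup K of G the quotient G ⧸ K is isomorphic to A ⧸ B for some normal subgroup B of A. -/
theorem result {G X : Type*} [Group G] [Finite G] [MulAction G X] [FaithfulSMul G X] (hprim : MulAction.IsPreprimitive G X) (x : X) (A : Subgroup G) (hA : A ≤ MulAction.stabilizer G x) (hAn : (A.subgroupOf (MulAction.stabilizer G x)).Normal) (hgen : Subgroup.normalClosure (A : Set G) = ⊤) (K : Subgroup G) [K.Normal] (hK : K ≠ ⊥) : ∃ (B : Subgroup A) (_ : B.Normal), Nonempty (G ⧸ K ≃* A ⧸ B) := by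
  classical
  -- K is transitive
  have hKne : MulAction.fixedPoints K X ≠ Set.univ := by
    intro h
    apply hK
    rw [Subgroup.eq_bot_iff_forall]
    intro k hk
    apply FaithfulSMul.eq_of_smul_eq_smul (α := X)
    intro y
    rw [one_smul]
    have hy : y ∈ MulAction.fixedPoints K X := by rw [h]; exact Set.mem_univ y
    exact hy ⟨k, hk⟩
  haveI := hprim
  have hKt : MulAction.IsPretransitive K X :=
    MulAction.IsQuasiPreprimitive.isPretransitive_of_normal hKne
  -- G = K H
  have hKH : ∀ g : G, ∃ k ∈ K, k⁻¹ * g ∈ MulAction.stabilizer G x := by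
    intro g
    obtain ⟨k, hk⟩ := MulAction.exists_smul_eq K x (g • x)
    refine ⟨k, k.2, ?_⟩
    rw [MulAction.mem_stabilizer_iff, mul_smul]
    have hk' : (k : G) • x = g • x := hk
    rw [← hk', inv_smul_smul]
  -- normal closure of A is inside A ⊔ K
  have htop : A ⊔ K = ⊤ := by
    rw [eq_top_iff, ← hgen]
    unfold Subgroup.normalClosure
    rw [Subgroup.closure_le]
    intro y hy
    rw [Group.mem_conjugatesOfSet_iff] at hy
    obtain ⟨a, ha, hay⟩ := hy
    obtain ⟨g, hg⟩ := isConj_iff.mp hay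
    obtain ⟨k, hk, hkg⟩ := hKH g
    have h1 : (k⁻¹ * g) * a * (k⁻¹ * g)⁻¹ ∈ A := by
      have h2 := hAn.conj_mem ⟨a, hA ha⟩ (Subgroup.mem_subgroupOf.2 ha) ⟨k⁻¹ * g, hkg⟩
      rw [Subgroup.mem_subgroupOf] at h2
      exact h2
    have h3 : y = k * ((k⁻¹ * g) * a * (k⁻¹ * g)⁻¹) * k⁻¹ := by rw [← hg]; group
    show y ∈ A ⊔ K
    rw [h3]
    exact Subgroup.mul_mem _ (Subgroup.mul_mem _ (Subgroup.mem_sup_right hk)
      (Subgroup.mem_sup_left h1)) (Subgroup.inv_mem _ (Subgroup.mem_sup_right hk))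
  -- the homomorphism
  obtain ⟨φ, hφ⟩ : ∃ φ : A →* G ⧸ K, φ = (QuotientGroup.mk' K).comp A.subtype := ⟨_, rfl⟩
  have hsurj : Function.Surjective φ := by
    intro q
    obtain ⟨g, rfl⟩ := QuotientGroup.mk_surjective q
    have hg : g ∈ A ⊔ K := by rw [htop]; exact Subgroup.mem_top g
    rw [Subgroup.mem_sup_of_normal_right (t := K)] at hg
    obtain ⟨a, ha, k, hk, hak⟩ := hg
    refine ⟨⟨a, ha⟩, ?_⟩
    rw [hφ]
    show (QuotientGroup.mk a : G ⧸ K) = QuotientGroup.mk g
    rw [QuotientGroup.eq, ← hak]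
    have : a⁻¹ * (a * k) = k := by group
    rw [this]; exact hk
  exact ⟨φ.ker, MonoidHom.normal_ker φ, ⟨(QuotientGroup.quotientKerEquivOfSurjective φ hsurj).symm⟩⟩
end Cfsg.Agent.S0796
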