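import Cfsg.Statements.S0797
import Mathlib
import Cfsg.Agent.S0792
import Cfsg.Agent.S0788

set_option autoImplicit false
open Cfsg

namespace Cfsg.Agent.S0797

open scoped Matrix

theorem neg_mul_eq_one_iff (x : ℤˣ) : (-1 : ℤˣ) * x = 1 ↔ x ≠ 1 := by
  rcases Int.units_eq_one_or x with h | h <;> rw [h] <;> decide

theorem units_ne_iff (x y : ℤˣ) (h : x ≠ y) : x = 1 ↔ y ≠ 1 := by
  rcases Int.units_eq_one_or x with hx | hx <;> rcases Int.units_eq_one_or y with hy | hy <;>
    subst hx <;> subst hy <;> first | exact absurd rfl h | decide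

theorem index_ker_two {G : Type*} [Group G] (f : G →* ℤˣ) (g : G) (hg : f g ≠ 1) :
    f.ker.index = 2 := by
  have hs : Function.Surjective f := by
    intro y
    rcases Int.units_eq_one_or y with hy | hy
    · exact ⟨1, by rw [map_one, hy]⟩
    · refine ⟨g, ?_⟩
      rw [hy]
      exact (Int.units_eq_one_or (f g)).resolve_left hg
  rw [Subgroup.index_ker, MonoidHom.range_eq_top.2 hs, Subgroup.card_top, Nat.card_eq_fintype_card,
    Fintype.card_units_int]

open Classical in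
/-- the sign character of a subgroup of index two -/
noncomputable def charOf {G : Type*} [Group G] (H : Subgroup G) (hH : H.index = 2) : G →* ℤˣ where
  toFun g := if g ∈ H then 1 else -1
  map_one' := by
    show (if (1 : G) ∈ H then (1 : ℤˣ) else -1) = 1
    rw [if_pos H.one_mem]
  map_mul' g h := by
    show (if g * h ∈ H then (1 : ℤˣ) else -1)
      = (if g ∈ H then (1 : ℤˣ) else -1) * (if h ∈ H then (1 : ℤˣ) else -1)
    have key := Subgroup.mul_mem_iff_of_index_two hH (a := g) (b := h)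
    by_cases hg : g ∈ H <;> by_cases hh : h ∈ H
    · rw [if_pos hg, if_pos hh, if_pos (key.2 ⟨fun _ => hh, fun _ => hg⟩), mul_one]
    · rw [if_pos hg, if_neg hh, if_neg (fun hc => hh ((key.1 hc).1 hg)), one_mul]
    · rw [if_neg hg, if_pos hh, if_neg (fun hc => hg ((key.1 hc).2 hh)), mul_one]
    · rw [if_neg hg, if_neg hh, if_pos (key.2 ⟨fun hc => absurd hc hg, fun hc => absurd hc hh⟩),
        neg_mul_neg, one_mul]

theorem charOf_one_iff {G : Type*} [Group G] (H : Subgroup G) (hH : H.index = 2) (g : G) :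
    charOf H hH g = 1 ↔ g ∈ H := by
  classical
  constructor
  · intro h
    by_contra hg
    have e : charOf H hH g = -1 := if_neg hg
    rw [e] at h
    exact S0788.one_ne_neg_one_units h.symm
  · intro hg
    exact if_pos hg

theorem ker_charOf {G : Type*} [Group G] (H : Subgroup G) (hH : H.index = 2) :
    (charOf H hH).ker = H := by
  ext g
  rw [MonoidHom.mem_ker]
  exact charOf_one_iff H hH g

theorem charOf_eq_of_iff {G : Type*} [Group G] (H K : Subgroup G) (hH : H.index = 2)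
    (hK : K.index = 2) (g : G) (h : g ∈ H ↔ g ∈ K) : charOf H hH g = charOf K hK g := by
  by_cases hg : g ∈ H
  · rw [(charOf_one_iff H hH g).2 hg, (charOf_one_iff K hK g).2 (h.1 hg)]
  · rw [(Int.units_eq_one_or _).resolve_left (fun h1 => hg ((charOf_one_iff H hH g).1 h1)),
      (Int.units_eq_one_or _).resolve_left (fun h1 => hg (h.2 ((charOf_one_iff K hK g).1 h1)))]

section helpers
variable {F : Type*} [Field F] {n : ℕ} (Q : QuadraticForm F (Fin n → F))

theorem hom_det [Fintype F] (h2 : (2 : F) ≠ 0) (hQ : (QuadraticMap.polarBilin Q).Nondegenerate)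
    (wa wb : Fin n → F) (hwa : Q wa ≠ 0) (hwb : Q wb ≠ 0)
    (hdich : ∀ u : Fin n → F, Q u ≠ 0 →
        (∃ t : F, Q u = t * t * Q wa) ∨ (∃ t : F, Q u = t * t * Q wb))
    (φ ψ : ↥(Cfsg.isometryGroup F ⇑Q) →* ℤˣ)
    (ha : φ (S0792.rf Q wa hwa) = ψ (S0792.rf Q wa hwa))
    (hb : φ (S0792.rf Q wb hwb) = ψ (S0792.rf Q wb hwb)) : φ = ψ := by
  have hrefl : ∀ (u : Fin n → F) (hu : Q u ≠ 0),
      φ (S0792.rf Q u hu) = ψ (S0792.rf Q u hu) := by
    intro u hu
    rcases hdich u hu with ⟨t, ht⟩ | ⟨t, ht⟩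
    · rw [S0788.rf_class2 Q φ h2 wa u hwa hu t ht, S0788.rf_class2 Q ψ h2 wa u hwa hu t ht]
      exact ha
    · rw [S0788.rf_class2 Q φ h2 wb u hwb hu t ht, S0788.rf_class2 Q ψ h2 wb u hwb hu t ht]
      exact hb
  have hE : ∀ (u v : Fin n → F) (hu : Q u ≠ 0) (hv : Q v ≠ 0),
      S0792.rf Q u hu * S0792.rf Q v hv ∈ MonoidHom.eqLocus φ ψ := by
    intro u v hu hv
    show φ (S0792.rf Q u hu * S0792.rf Q v hv) = ψ (S0792.rf Q u hu * S0792.rf Q v hv)
    rw [map_mul, map_mul, hrefl u hu, hrefl v hv]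
  apply MonoidHom.ext
  intro g
  have hPP : g ∈ MonoidHom.eqLocus φ ψ ∨ ∃ (v : Fin n → F) (hv : Q v ≠ 0),
      S0792.rf Q v hv * g ∈ MonoidHom.eqLocus φ ψ :=
    S0792.CD Q h2 hQ _ hE (Fintype.card (Fin n → F)) 0 (fun i => i.elim0) (by omega)
      (fun i => i.elim0) (fun i => i.elim0) g (fun i => i.elim0)
  rcases hPP with h | ⟨v, hv, h⟩
  · exact h
  · have h' : φ (S0792.rf Q v hv * g) = ψ (S0792.rf Q v hv * g) := h
    rw [map_mul, map_mul, hrefl v hv] at h'
    exact mul_left_cancel h'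

theorem H_det [Fintype F] (h2 : (2 : F) ≠ 0) (hQ : (QuadraticMap.polarBilin Q).Nondegenerate)
    (wa wb : Fin n → F) (hwa : Q wa ≠ 0) (hwb : Q wb ≠ 0)
    (hdich : ∀ u : Fin n → F, Q u ≠ 0 →
        (∃ t : F, Q u = t * t * Q wa) ∨ (∃ t : F, Q u = t * t * Q wb))
    (H K : Subgroup ↥(Cfsg.isometryGroup F ⇑Q)) (hH : H.index = 2) (hK : K.index = 2)
    (ha : S0792.rf Q wa hwa ∈ H ↔ S0792.rf Q wa hwa ∈ K)
    (hb : S0792.rf Q wb hwb ∈ H ↔ S0792.rf Q wb hwb ∈ K) : H = K := by
  have e : charOf H hH = charOf K hK :=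
    hom_det Q h2 hQ wa wb hwa hwb hdich _ _ (charOf_eq_of_iff H K hH hK _ ha)
      (charOf_eq_of_iff H K hH hK _ hb)
  calc H = (charOf H hH).ker := (ker_charOf H hH).symm
    _ = (charOf K hK).ker := by rw [e]
    _ = K := ker_charOf K hK

end helpers

/-- O^ε_2m(q) ≅ Ω.2² for q odd: if F is finite of odd characteristic, n ≥ 2 is even and Q has non-degenerate polar form on F^n, the isometry group of Q has exactly three subgroups of index 2. -/
theorem result {F : Type*} [Field F] [Fintype F] (h2 : (2 : F) ≠ 0) {n : ℕ} (hn : 2 ≤ n) (heven : Even n) (Q : QuadraticForm F (Fin n → F)) (hQ : (QuadraticMap.polarBilin Q).Nondegenerate) : Nat.card {H : Subgroup ↥(Cfsg.isometryGroup F ⇑Q) // H.index = 2} = 3 := by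
  obtain ⟨wa, wb, hwa, hwb, hcls, hdich⟩ := S0788.two_classes Q h2 hn hQ
  obtain ⟨χ, hχ⟩ := S0788.exists_chi Q h2 wa wb hwa hwb hcls
  have hχ' : χ (S0792.rf Q wa hwa) ≠ χ (S0792.rf Q wb hwb) := by
    intro h
    apply hχ
    rw [map_mul, map_mul, h]
  have hz : χ (S0792.rf Q wa hwa * S0792.rf Q wb hwb) ≠ 1 := by
    intro h1
    apply hχ'
    have e1 : χ (S0792.rf Q wb hwb) * χ (S0792.rf Q wb hwb) = 1 := by
      rw [← map_mul, S0792.rf_mul_self, map_one]
    rw [map_mul] at h1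
    calc χ (S0792.rf Q wa hwa)
        = χ (S0792.rf Q wa hwa) * (χ (S0792.rf Q wb hwb) * χ (S0792.rf Q wb hwb)) := by
          rw [e1, mul_one]
      _ = (χ (S0792.rf Q wa hwa) * χ (S0792.rf Q wb hwb)) * χ (S0792.rf Q wb hwb) := by
          rw [mul_assoc]
      _ = χ (S0792.rf Q wb hwb) := by rw [h1, one_mul]
  have hrdet : ∀ (u : Fin n → F) (hu : Q u ≠ 0),
      S0792.rf Q u hu ∉ Cfsg.specialIsometryGroup F ⇑Q := by
    intro u hu hm
    rw [S0792.mem_SO_iff] at hm
    have hd : (Cfsg.reflectionMatrix (⇑Q) u).det = 1 := hm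
    rw [S0792.refl_det Q u hu] at hd
    apply h2
    linear_combination (-1 : F) * hd
  have hSO : (Cfsg.specialIsometryGroup F ⇑Q).index = 2 := by
    have h4 : (Cfsg.Omega F ⇑Q).index = 4 := S0788.result h2 hn Q hQ
    have hle : Cfsg.Omega F ⇑Q ≤ Cfsg.specialIsometryGroup F ⇑Q := by
      unfold Cfsg.specialIsometryGroup
      exact Abelianization.commutator_subset_ker _
    have hidx := Subgroup.relIndex_mul_index hle
    have hK1 : (Cfsg.specialIsometryGroup F ⇑Q).index ≠ 1 := by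
      intro h
      rw [Subgroup.index_eq_one] at h
      apply hrdet wb hwb
      rw [h]
      exact Subgroup.mem_top _
    have hR1 : (Cfsg.Omega F ⇑Q).relIndex (Cfsg.specialIsometryGroup F ⇑Q) ≠ 1 := by
      intro h
      rw [Subgroup.relIndex_eq_one] at h
      have hm : S0792.rf Q wa hwa * S0792.rf Q wb hwb ∈ Cfsg.specialIsometryGroup F ⇑Q := by
        rw [S0792.mem_SO_iff]
        show (Cfsg.reflectionMatrix (⇑Q) wa * Cfsg.reflectionMatrix (⇑Q) wb).det = 1
        rw [Matrix.det_mul, S0792.refl_det Q wa hwa, S0792.refl_det Q wb hwb]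
        norm_num
      have hm2 := h hm
      have hker : χ (S0792.rf Q wa hwa * S0792.rf Q wb hwb) = 1 :=
        MonoidHom.mem_ker.1 (Abelianization.commutator_subset_ker χ hm2)
      exact hz hker
    obtain ⟨a, ha⟩ : ∃ a, a = (Cfsg.Omega F ⇑Q).relIndex (Cfsg.specialIsometryGroup F ⇑Q) :=
      ⟨_, rfl⟩
    obtain ⟨b, hb⟩ : ∃ b, b = (Cfsg.specialIsometryGroup F ⇑Q).index := ⟨_, rfl⟩
    rw [← ha, ← hb, h4] at hidx
    rw [← ha] at hR1
    rw [← hb] at hK1 ⊢
    have hb4 : b ≤ 4 := Nat.le_of_dvd (by norm_num) ⟨a, by rw [mul_comm]; exact hidx.symm⟩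
    interval_cases b <;> omega
  obtain ⟨δ, hδ⟩ : ∃ δ : ↥(Cfsg.isometryGroup F ⇑Q) →* ℤˣ,
      δ = charOf (Cfsg.specialIsometryGroup F ⇑Q) hSO := ⟨_, rfl⟩
  have hdet : ∀ (u : Fin n → F) (hu : Q u ≠ 0), δ (S0792.rf Q u hu) = -1 := by
    intro u hu
    refine (Int.units_eq_one_or _).resolve_left ?_
    intro h1
    rw [hδ, charOf_one_iff] at h1
    exact hrdet u hu h1
  have i1 : (MonoidHom.ker δ).index = 2 :=
    index_ker_two δ (S0792.rf Q wa hwa) (by
      rw [hdet]
      exact S0788.one_ne_neg_one_units.symm)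
  have hAB : S0792.rf Q wa hwa ∈ MonoidHom.ker χ ↔ ¬ S0792.rf Q wb hwb ∈ MonoidHom.ker χ := by
    rw [MonoidHom.mem_ker, MonoidHom.mem_ker]
    exact units_ne_iff _ _ hχ'
  have hA1 : ¬ S0792.rf Q wa hwa ∈ MonoidHom.ker δ := by
    rw [MonoidHom.mem_ker, hdet]
    exact S0788.one_ne_neg_one_units.symm
  have hB1 : ¬ S0792.rf Q wb hwb ∈ MonoidHom.ker δ := by
    rw [MonoidHom.mem_ker, hdet]
    exact S0788.one_ne_neg_one_units.symm
  have hA3 : S0792.rf Q wa hwa ∈ MonoidHom.ker (δ * χ) ↔ ¬ S0792.rf Q wa hwa ∈ MonoidHom.ker χ := by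
    rw [MonoidHom.mem_ker, MonoidHom.mem_ker, MonoidHom.mul_apply, hdet]
    exact neg_mul_eq_one_iff _
  have hB3 : S0792.rf Q wb hwb ∈ MonoidHom.ker (δ * χ) ↔ ¬ S0792.rf Q wb hwb ∈ MonoidHom.ker χ := by
    rw [MonoidHom.mem_ker, MonoidHom.mem_ker, MonoidHom.mul_apply, hdet]
    exact neg_mul_eq_one_iff _
  have i2 : (MonoidHom.ker χ).index = 2 := by
    by_cases h : S0792.rf Q wa hwa ∈ MonoidHom.ker χ
    · exact index_ker_two χ (S0792.rf Q wb hwb) (fun hc => (hAB.1 h) (MonoidHom.mem_ker.2 hc))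
    · exact index_ker_two χ (S0792.rf Q wa hwa) (fun hc => h (MonoidHom.mem_ker.2 hc))
  have i3 : (MonoidHom.ker (δ * χ)).index = 2 := by
    by_cases h : S0792.rf Q wa hwa ∈ MonoidHom.ker χ
    · have ha' : ¬ S0792.rf Q wa hwa ∈ MonoidHom.ker (δ * χ) := fun hc => hA3.1 hc h
      exact index_ker_two (δ * χ) (S0792.rf Q wa hwa) (fun hc => ha' (MonoidHom.mem_ker.2 hc))
    · have hb'' : S0792.rf Q wb hwb ∈ MonoidHom.ker χ := by tauto
      have hb' : ¬ S0792.rf Q wb hwb ∈ MonoidHom.ker (δ * χ) := fun hc => hB3.1 hc hb''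
      exact index_ker_two (δ * χ) (S0792.rf Q wb hwb) (fun hc => hb' (MonoidHom.mem_ker.2 hc))
  have h12 : MonoidHom.ker δ ≠ MonoidHom.ker χ := by
    intro e
    rw [e] at hA1 hB1
    tauto
  have h13 : MonoidHom.ker δ ≠ MonoidHom.ker (δ * χ) := by
    intro e
    rw [e] at hA1 hB1
    tauto
  have h23 : MonoidHom.ker χ ≠ MonoidHom.ker (δ * χ) := by
    intro e
    rw [← e] at hA3
    tauto
  have hset : {H : Subgroup ↥(Cfsg.isometryGroup F ⇑Q) | H.index = 2}
      = {MonoidHom.ker δ, MonoidHom.ker χ, MonoidHom.ker (δ * χ)} := by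
    ext H
    simp only [Set.mem_setOf_eq, Set.mem_insert_iff, Set.mem_singleton_iff]
    constructor
    · intro hH
      have hHtt : ¬ (S0792.rf Q wa hwa ∈ H ∧ S0792.rf Q wb hwb ∈ H) := by
        intro h
        have e := hom_det Q h2 hQ wa wb hwa hwb hdich (charOf H hH) 1
          ((charOf_one_iff H hH _).2 h.1) ((charOf_one_iff H hH _).2 h.2)
        have e2 := ker_charOf H hH
        rw [e, MonoidHom.ker_one] at e2
        have h1 : (⊤ : Subgroup ↥(Cfsg.isometryGroup F ⇑Q)).index = 2 := by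
          rw [e2]
          exact hH
        rw [Subgroup.index_top] at h1
        omega
      by_cases hα : S0792.rf Q wa hwa ∈ H
      · by_cases hβ : S0792.rf Q wb hwb ∈ H
        · exact absurd ⟨hα, hβ⟩ hHtt
        · by_cases hκ : S0792.rf Q wa hwa ∈ MonoidHom.ker χ
          · right
            left
            exact H_det Q h2 hQ wa wb hwa hwb hdich H _ hH i2 ⟨fun _ => hκ, fun _ => hα⟩
              ⟨fun h => absurd h hβ, fun h => absurd h (hAB.1 hκ)⟩
          · right
            right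
            have hB2 : S0792.rf Q wb hwb ∈ MonoidHom.ker χ := by
              by_contra hc
              exact hκ (hAB.2 hc)
            exact H_det Q h2 hQ wa wb hwa hwb hdich H _ hH i3 ⟨fun _ => hA3.2 hκ, fun _ => hα⟩
              ⟨fun h => absurd h hβ, fun h => absurd hB2 (hB3.1 h)⟩
      · by_cases hβ : S0792.rf Q wb hwb ∈ H
        · by_cases hκ : S0792.rf Q wa hwa ∈ MonoidHom.ker χ
          · right
            right
            exact H_det Q h2 hQ wa wb hwa hwb hdich H _ hH i3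
              ⟨fun h => absurd h hα, fun h => absurd hκ (hA3.1 h)⟩
              ⟨fun _ => hB3.2 (hAB.1 hκ), fun _ => hβ⟩
          · right
            left
            have hB2 : S0792.rf Q wb hwb ∈ MonoidHom.ker χ := by
              by_contra hc
              exact hκ (hAB.2 hc)
            exact H_det Q h2 hQ wa wb hwa hwb hdich H _ hH i2
              ⟨fun h => absurd h hα, fun h => absurd h hκ⟩
              ⟨fun _ => hB2, fun _ => hβ⟩
        · left
          exact H_det Q h2 hQ wa wb hwa hwb hdich H _ hH i1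
            ⟨fun h => absurd h hα, fun h => absurd h hA1⟩
            ⟨fun h => absurd h hβ, fun h => absurd h hB1⟩
    · rintro (rfl | rfl | rfl)
      · exact i1
      · exact i2
      · exact i3
  show Nat.card ↥{H : Subgroup ↥(Cfsg.isometryGroup F ⇑Q) | H.index = 2} = 3
  exact (Nat.card_coe_set_eq _).trans
    (Set.ncard_eq_three.2 ⟨_, _, _, h12, h13, h23, hset⟩)

end Cfsg.Agent.S0797
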