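import Cfsg.Statements.S0800
import Mathlib
import Cfsg.Agent.Lib.Helper4.SL2Torus
import Cfsg.Agent.Lib.Helper4.SL2Unip

set_option autoImplicit false
open Cfsg

namespace Cfsg.Agent.S0800

open Cfsg.Agent.Lib.Helper4 in

/-- Tori of SL_2(q): if g ∈ SL_2(q) has order coprime to the characteristic p, then the order of g divides q − 1 or q + 1. -/
theorem result {F : Type*} [Field F] [Fintype F] {q : ℕ} (hF : Fintype.card F = q) (p : ℕ) [Fact p.Prime] [CharP F p] (g : Matrix.SpecialLinearGroup (Fin 2) F) (hg : Nat.Coprime (orderOf g) p) : orderOf g ∣ q - 1 ∨ orderOf g ∣ q + 1 := by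
  classical
  subst hF
  have hp := (Fact.out : p.Prime)
  obtain ⟨t, ht⟩ : ∃ t, t = Matrix.trace (g : Matrix (Fin 2) (Fin 2) F) := ⟨_, rfl⟩
  by_cases hroot : ∃ a : F, a ^ 2 - t * a + 1 = 0
  · obtain ⟨a, ha⟩ := hroot
    by_cases ht4 : t ^ 2 = 4
    · left
      have htr : Matrix.trace ((g * g : Matrix.SpecialLinearGroup (Fin 2) F) :
          Matrix (Fin 2) (Fin 2) F) = 2 := by
        have hd := sl2_det g
        rw [Matrix.SpecialLinearGroup.coe_mul, Matrix.trace_fin_two, Matrix.mul_apply,
          Matrix.mul_apply, Fin.sum_univ_two, Fin.sum_univ_two]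
        rw [ht, Matrix.trace_fin_two] at ht4
        linear_combination ht4 - 2 * hd
      have hgp : (g * g) ^ p = 1 := by
        by_cases h1 : g * g = 1
        · rw [h1, one_pow]
        · have h2 := (sl2_orderOf_eq_char_iff p (g * g)).mpr ⟨htr, h1⟩
          rw [← h2]
          exact pow_orderOf_eq_one _
      have h2p : g ^ (2 * p) = 1 := by
        rw [pow_mul, pow_two]
        exact hgp
      have hdvd : orderOf g ∣ 2 * p := orderOf_dvd_of_pow_eq_one h2p
      have hdvd2 : orderOf g ∣ 2 := (Nat.Coprime.dvd_mul_right hg).mp hdvd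
      by_cases hp2 : p = 2
      · rw [hp2] at hg
        have h3 : orderOf g = 1 := Nat.Coprime.eq_one_of_dvd hg hdvd2
        rw [h3]
        exact one_dvd _
      · have hodd : Fintype.card F % 2 = 1 :=
          FiniteField.odd_card_of_char_ne_two (by rw [ringChar.eq F p]; exact hp2)
        exact dvd_trans hdvd2 (Nat.dvd_of_mod_eq_zero (by omega))
    · left
      have h1 := sl2_card_centralizer_of_split g (by rw [← ht]; exact ht4) a
        (by rw [← ht]; exact ha)
      have h2 := sl2_pow_card_centralizer g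
      rw [h1] at h2
      exact orderOf_dvd_of_pow_eq_one h2
  · right
    push Not at hroot
    have h1 := sl2_card_centralizer_of_no_root g (by rw [← ht]; exact hroot)
    have h2 := sl2_pow_card_centralizer g
    rw [h1] at h2
    exact orderOf_dvd_of_pow_eq_one h2

end Cfsg.Agent.S0800
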