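import Mathlib
import Cfsg.Statements.S3377
import Cfsg.Agent.Lib.Helper2.A5Pres

set_option autoImplicit false
open Cfsg

namespace Cfsg.Agent.S3377

/-- The alternating group of degree 5 has the presentation ⟨x, y | x³ = 1, y⁵ = 1, (xy)² = 1⟩: the group so presented is isomorphic to Alt(5). -/
theorem result :
    Nonempty (PresentedGroup ({FreeGroup.of (0 : Fin 2) ^ 3, FreeGroup.of (1 : Fin 2) ^ 5,
        (FreeGroup.of (0 : Fin 2) * FreeGroup.of 1) ^ 2} : Set (FreeGroup (Fin 2))) ≃* alternatingGroup (Fin 5)) := by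
  classical
  suffices hmain : ∀ rels : Set (FreeGroup (Fin 2)),
      rels = {FreeGroup.of (0 : Fin 2) ^ 3, FreeGroup.of (1 : Fin 2) ^ 5,
        (FreeGroup.of (0 : Fin 2) * FreeGroup.of 1) ^ 2} →
      Nonempty (PresentedGroup rels ≃* alternatingGroup (Fin 5)) from hmain _ rfl
  intro rels hrels
  -- relations in the presented group
  have hx3 : (PresentedGroup.of (rels := rels) 0) ^ 3 = 1 := by
    have h : PresentedGroup.mk rels (FreeGroup.of (0 : Fin 2) ^ 3) = 1 :=
      PresentedGroup.one_of_mem (by rw [hrels]; exact Set.mem_insert _ _)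
    rw [map_pow] at h
    exact h
  have hy5 : (PresentedGroup.of (rels := rels) 1) ^ 5 = 1 := by
    have h : PresentedGroup.mk rels (FreeGroup.of (1 : Fin 2) ^ 5) = 1 :=
      PresentedGroup.one_of_mem (by
        rw [hrels]; exact Set.mem_insert_of_mem _ (Set.mem_insert _ _))
    rw [map_pow] at h
    exact h
  have hxy2 : (PresentedGroup.of (rels := rels) 0 * PresentedGroup.of 1) ^ 2 = 1 := by
    have h : PresentedGroup.mk rels ((FreeGroup.of (0 : Fin 2) * FreeGroup.of 1) ^ 2) = 1 :=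
      PresentedGroup.one_of_mem (by
        rw [hrels]
        exact Set.mem_insert_of_mem _ (Set.mem_insert_of_mem _ (Set.mem_singleton _)))
    rw [map_pow, map_mul] at h
    exact h
  have hgen : Subgroup.closure ({PresentedGroup.of (rels := rels) 0, PresentedGroup.of 1} :
      Set (PresentedGroup rels)) = ⊤ := by
    have h := PresentedGroup.closure_range_of rels
    have hr : Set.range (PresentedGroup.of : Fin 2 → PresentedGroup rels) =
        {PresentedGroup.of 0, PresentedGroup.of 1} := by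
      ext g
      constructor
      · rintro ⟨i, rfl⟩
        fin_cases i
        · exact Set.mem_insert _ _
        · exact Set.mem_insert_of_mem _ (Set.mem_singleton _)
      · rintro (rfl | rfl)
        · exact ⟨0, rfl⟩
        · exact ⟨1, rfl⟩
    rw [hr] at h
    exact h
  obtain ⟨hfin, hcard⟩ := Cfsg.Agent.Lib.Helper2.a5pres_card_le
    (PresentedGroup.of (rels := rels) 0) (PresentedGroup.of 1) hx3 hy5 hxy2 hgen
  -- generators of the alternating group
  obtain ⟨a, b, ha3, hb5, hab2, hsa, hsb, ha1, hb1, hab1⟩ : ∃ a b : Equiv.Perm (Fin 5),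
      a ^ 3 = 1 ∧ b ^ 5 = 1 ∧ (a * b) ^ 2 = 1 ∧ Equiv.Perm.sign a = 1 ∧ Equiv.Perm.sign b = 1 ∧
      a ≠ 1 ∧ b ≠ 1 ∧ a * b ≠ 1 :=
    ⟨Equiv.swap 0 1 * Equiv.swap 1 2,
      Equiv.swap 0 2 * Equiv.swap 2 4 * Equiv.swap 4 1 * Equiv.swap 1 3,
      by decide, by decide, by decide, by decide, by decide, by decide, by decide, by decide⟩
  obtain ⟨A, hA⟩ : ∃ A : alternatingGroup (Fin 5), (A : Equiv.Perm (Fin 5)) = a :=
    ⟨⟨a, Equiv.Perm.mem_alternatingGroup.mpr hsa⟩, rfl⟩
  obtain ⟨B, hB⟩ : ∃ B : alternatingGroup (Fin 5), (B : Equiv.Perm (Fin 5)) = b :=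
    ⟨⟨b, Equiv.Perm.mem_alternatingGroup.mpr hsb⟩, rfl⟩
  have hA3 : A ^ 3 = 1 := Subtype.ext (by rw [Subgroup.coe_pow, hA, ha3]; rfl)
  have hB5 : B ^ 5 = 1 := Subtype.ext (by rw [Subgroup.coe_pow, hB, hb5]; rfl)
  have hAB2 : (A * B) ^ 2 = 1 :=
    Subtype.ext (by rw [Subgroup.coe_pow, Subgroup.coe_mul, hA, hB, hab2]; rfl)
  have hA1 : A ≠ 1 := fun h => ha1 (by rw [← hA, h]; rfl)
  have hB1 : B ≠ 1 := fun h => hb1 (by rw [← hB, h]; rfl)
  have hAB1 : A * B ≠ 1 := fun h => hab1 (by rw [← hA, ← hB, ← Subgroup.coe_mul, h]; rfl)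
  obtain ⟨f, hf0, hf1⟩ : ∃ f : Fin 2 → alternatingGroup (Fin 5), f 0 = A ∧ f 1 = B :=
    ⟨![A, B], rfl, rfl⟩
  have hf : ∀ r ∈ rels, FreeGroup.lift f r = 1 := by
    intro r hr
    rw [hrels] at hr
    rcases hr with rfl | rfl | rfl
    · rw [map_pow, FreeGroup.lift_apply_of, hf0]
      exact hA3
    · rw [map_pow, FreeGroup.lift_apply_of, hf1]
      exact hB5
    · rw [map_pow, map_mul, FreeGroup.lift_apply_of, FreeGroup.lift_apply_of, hf0, hf1]
      exact hAB2
  obtain ⟨φ, hφ⟩ : ∃ φ : PresentedGroup rels →* alternatingGroup (Fin 5),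
      ∀ i, φ (PresentedGroup.of i) = f i :=
    ⟨PresentedGroup.toGroup hf, fun i => PresentedGroup.toGroup.of hf⟩
  -- surjectivity
  have hAR : A ∈ φ.range := ⟨PresentedGroup.of 0, by rw [hφ, hf0]⟩
  have hBR : B ∈ φ.range := ⟨PresentedGroup.of 1, by rw [hφ, hf1]⟩
  have hABR : A * B ∈ φ.range := φ.range.mul_mem hAR hBR
  have hoA : orderOf A = 3 := by
    have : Fact (Nat.Prime 3) := ⟨by norm_num⟩
    exact orderOf_eq_prime hA3 hA1
  have hoB : orderOf B = 5 := by
    have : Fact (Nat.Prime 5) := ⟨by norm_num⟩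
    exact orderOf_eq_prime hB5 hB1
  have hoAB : orderOf (A * B) = 2 := by
    have : Fact (Nat.Prime 2) := ⟨by norm_num⟩
    exact orderOf_eq_prime hAB2 hAB1
  have h3 : 3 ∣ Nat.card φ.range := by
    have h := φ.range.orderOf_dvd_natCard hAR
    rwa [hoA] at h
  have h5 : 5 ∣ Nat.card φ.range := by
    have h := φ.range.orderOf_dvd_natCard hBR
    rwa [hoB] at h
  have h2 : 2 ∣ Nat.card φ.range := by
    have h := φ.range.orderOf_dvd_natCard hABR
    rwa [hoAB] at h
  have hc60 : Nat.card (alternatingGroup (Fin 5)) = 60 := by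
    rw [nat_card_alternatingGroup, Nat.card_eq_fintype_card, Fintype.card_fin]
    decide
  have hdvd : Nat.card φ.range ∣ 60 := by
    have h := Subgroup.card_subgroup_dvd_card φ.range
    rwa [hc60] at h
  have hidx : Nat.card φ.range * φ.range.index = 60 := by
    have h := Subgroup.card_mul_index φ.range
    rwa [hc60] at h
  have hRtop : φ.range = ⊤ := by
    have h30 : 30 ∣ Nat.card φ.range := by omega
    have hpos : 0 < Nat.card φ.range := Nat.card_pos
    have hle : Nat.card φ.range ≤ 60 := Nat.le_of_dvd (by norm_num) hdvd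
    obtain ⟨m, hm⟩ := h30
    have hm12 : m = 1 ∨ m = 2 := by omega
    rcases hm12 with rfl | rfl
    · -- index two
      have hi2 : φ.range.index = 2 := by
        rw [hm] at hidx
        omega
      have hN : φ.range.Normal := Subgroup.normal_of_index_eq_two hi2
      have hsimple : IsSimpleGroup (alternatingGroup (Fin 5)) :=
        alternatingGroup.isSimpleGroup (by rw [Nat.card_eq_fintype_card, Fintype.card_fin])
      rcases hN.eq_bot_or_eq_top with hb | ht
      · exfalso
        rw [hb, Subgroup.mem_bot] at hAR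
        exact hA1 hAR
      · exact ht
    · exact Subgroup.eq_top_of_card_eq _ (by rw [hm, hc60])
  have hsurj : Function.Surjective φ := MonoidHom.range_eq_top.mp hRtop
  have hbij : Function.Bijective φ := by
    rw [Nat.bijective_iff_surjective_and_card]
    refine ⟨hsurj, le_antisymm ?_ (Nat.card_le_card_of_surjective φ hsurj)⟩
    rw [hc60]
    exact hcard
  exact ⟨MulEquiv.ofBijective φ hbij⟩

end Cfsg.Agent.S3377
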