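import Mathlib
import Cfsg.Statements.S0804
import Cfsg.Agent.S3377
import Cfsg.Agent.Lib.Helper2.SL2Trace
import Cfsg.Agent.Lib.Helper4.SL2Unip

set_option autoImplicit false
open Cfsg

namespace Cfsg.Agent.S0804

/-- PSL_2(q) has a subgroup isomorphic to A_5 iff 5 ∣ q(q² − 1). -/
theorem result {F : Type*} [Field F] [Fintype F] {q : ℕ} (hF : Fintype.card F = q) : (∃ H : Subgroup (Matrix.ProjectiveSpecialLinearGroup (Fin 2) F), Nonempty (H ≃* alternatingGroup (Fin 5))) ↔ 5 ∣ q * (q ^ 2 - 1) := by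
  classical
  have hpres := Cfsg.Agent.S3377.result
  suffices hmain : ∀ (R : Set (FreeGroup (Fin 2))),
      Nonempty (PresentedGroup R ≃* alternatingGroup (Fin 5)) →
      R = ({FreeGroup.of (0 : Fin 2) ^ 3, FreeGroup.of (1 : Fin 2) ^ 5,
        (FreeGroup.of (0 : Fin 2) * FreeGroup.of 1) ^ 2} : Set (FreeGroup (Fin 2))) →
      ((∃ H : Subgroup (Matrix.ProjectiveSpecialLinearGroup (Fin 2) F),
        Nonempty (H ≃* alternatingGroup (Fin 5))) ↔ 5 ∣ q * (q ^ 2 - 1)) from
    hmain _ hpres rfl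
  intro R hne hR
  obtain ⟨e⟩ := hne
  have hcardSL : Nat.card (Matrix.SpecialLinearGroup (Fin 2) F) = q * (q ^ 2 - 1) := by
    rw [Cfsg.Agent.Lib.Helper4.card_sl2, hF]
  have hfinSL : Finite (Matrix.SpecialLinearGroup (Fin 2) F) :=
    Finite.of_injective _ Matrix.SpecialLinearGroup.toGL_injective
  constructor
  · rintro ⟨H, ⟨eH⟩⟩
    have hA : Nat.card (alternatingGroup (Fin 5)) = 60 := by
      rw [nat_card_alternatingGroup, Nat.card_eq_fintype_card, Fintype.card_fin]
      rfl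
    have hH : Nat.card H = 60 := by rw [Nat.card_congr eH.toEquiv, hA]
    have h1 : Nat.card H ∣ Nat.card (Matrix.ProjectiveSpecialLinearGroup (Fin 2) F) :=
      Subgroup.card_subgroup_dvd_card H
    have hmul := Subgroup.card_eq_card_quotient_mul_card_subgroup
      (Subgroup.center (Matrix.SpecialLinearGroup (Fin 2) F))
    have h2 : Nat.card (Matrix.ProjectiveSpecialLinearGroup (Fin 2) F) ∣
        Nat.card (Matrix.SpecialLinearGroup (Fin 2) F) := ⟨_, hmul⟩
    rw [hcardSL] at h2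
    rw [hH] at h1
    exact Dvd.dvd.trans (by norm_num) (h1.trans h2)
  · intro h5
    -- an element of order five in SL₂
    have hp5 : Fact (Nat.Prime 5) := ⟨by norm_num⟩
    have h5' : 5 ∣ Nat.card (Matrix.SpecialLinearGroup (Fin 2) F) := by
      rw [hcardSL]
      exact h5
    obtain ⟨g₀, ho⟩ := exists_prime_orderOf_dvd_card' 5 h5'
    obtain ⟨M, hM⟩ : ∃ M : Matrix (Fin 2) (Fin 2) F,
        M = (g₀ : Matrix (Fin 2) (Fin 2) F) := ⟨_, rfl⟩
    have hdetM : M 0 0 * M 1 1 - M 0 1 * M 1 0 = 1 := by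
      rw [← Matrix.det_fin_two, hM]
      exact g₀.2
    have hM5 : M * M * M * M * M = 1 := by
      have h := pow_orderOf_eq_one g₀
      rw [ho] at h
      have h' := congrArg (fun z : Matrix.SpecialLinearGroup (Fin 2) F =>
        (z : Matrix (Fin 2) (Fin 2) F)) h
      simp only [Matrix.SpecialLinearGroup.coe_pow, Matrix.SpecialLinearGroup.coe_one] at h'
      rw [← hM, pow_succ, pow_succ, pow_succ, pow_succ, pow_one] at h'
      exact h'
    have hMne : M * M ≠ 1 := by
      intro h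
      have h2 : g₀ ^ 2 = 1 := by
        apply Subtype.ext
        rw [Matrix.SpecialLinearGroup.coe_pow, Matrix.SpecialLinearGroup.coe_one, ← hM, pow_two]
        exact h
      have hd := orderOf_dvd_of_pow_eq_one h2
      rw [ho] at hd
      exact absurd hd (by norm_num)
    obtain ⟨τ, hτ⟩ := Cfsg.Agent.Lib.Helper2.sl2_order5_trace M hdetM hM5 hMne
    obtain ⟨s, x, hc⟩ := Cfsg.Agent.Lib.Helper2.conic_point τ hτ
    -- the two generators
    obtain ⟨X, hX⟩ : ∃ X : Matrix (Fin 2) (Fin 2) F, X = !![-1 - s, x; x + τ * s, s] :=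
      ⟨_, rfl⟩
    obtain ⟨Y, hY⟩ : ∃ Y : Matrix (Fin 2) (Fin 2) F, Y = !![0, -1; 1, τ] := ⟨_, rfl⟩
    have hX00 : X 0 0 = -1 - s := by rw [hX]; rfl
    have hX01 : X 0 1 = x := by rw [hX]; rfl
    have hX10 : X 1 0 = x + τ * s := by rw [hX]; rfl
    have hX11 : X 1 1 = s := by rw [hX]; rfl
    have hY00 : Y 0 0 = 0 := by rw [hY]; rfl
    have hY01 : Y 0 1 = -1 := by rw [hY]; rfl
    have hY10 : Y 1 0 = 1 := by rw [hY]; rfl
    have hY11 : Y 1 1 = τ := by rw [hY]; rfl
    have hN00 : (X * Y) 0 0 = x := by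
      rw [Matrix.mul_apply, Fin.sum_univ_two, hX00, hX01, hY00, hY10]
      ring
    have hN01 : (X * Y) 0 1 = 1 + s + x * τ := by
      rw [Matrix.mul_apply, Fin.sum_univ_two, hX00, hX01, hY01, hY11]
      ring
    have hN10 : (X * Y) 1 0 = s := by
      rw [Matrix.mul_apply, Fin.sum_univ_two, hX10, hX11, hY00, hY10]
      ring
    have hN11 : (X * Y) 1 1 = -x := by
      rw [Matrix.mul_apply, Fin.sum_univ_two, hX10, hX11, hY01, hY11]
      ring
    have hdX : X 0 0 * X 1 1 - X 0 1 * X 1 0 = 1 := by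
      rw [hX00, hX01, hX10, hX11]
      linear_combination -hc
    have hdY : Y 0 0 * Y 1 1 - Y 0 1 * Y 1 0 = 1 := by
      rw [hY00, hY01, hY10, hY11]
      ring
    have hdN : (X * Y) 0 0 * (X * Y) 1 1 - (X * Y) 0 1 * (X * Y) 1 0 = 1 := by
      rw [hN00, hN01, hN10, hN11]
      linear_combination -hc
    -- X³ = 1
    have hX2 : X * X = (-1 : F) • X - 1 := by
      have h := Cfsg.Agent.Lib.Helper2.sl2_cayley X hdX
      rw [hX00, hX11] at h
      rw [h]
      congr 2
      ring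
    have hX3 : X * X * X = 1 := by
      rw [Cfsg.Agent.Lib.Helper2.sl2_pow3 X (-1) hX2, show ((-1 : F)) ^ 2 - 1 = 0 by ring,
        zero_smul, zero_sub, neg_smul, one_smul, neg_neg]
    -- Y⁵ = 1
    have hY2 : Y * Y = τ • Y - 1 := by
      have h := Cfsg.Agent.Lib.Helper2.sl2_cayley Y hdY
      rw [hY00, hY11, zero_add] at h
      exact h
    have hu : τ ^ 4 - 3 * τ ^ 2 + 1 = 0 := by linear_combination (τ ^ 2 - τ - 1) * hτ
    have hv : τ ^ 3 - 2 * τ = -1 := by linear_combination (τ - 1) * hτ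
    have hY5 : Y * Y * Y * Y * Y = 1 := by
      rw [Cfsg.Agent.Lib.Helper2.sl2_pow5 Y τ hY2, hu, hv, zero_smul, zero_sub, neg_smul,
        one_smul, neg_neg]
    -- (XY)² = -1
    have hN2 : X * Y * (X * Y) = -1 := by
      have h := Cfsg.Agent.Lib.Helper2.sl2_cayley (X * Y) hdN
      rw [hN00, hN11, add_neg_cancel, zero_smul, zero_sub] at h
      exact h
    -- elements of SL₂
    obtain ⟨gX, hgX⟩ : ∃ g : Matrix.SpecialLinearGroup (Fin 2) F,
        (g : Matrix (Fin 2) (Fin 2) F) = X :=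
      ⟨⟨X, by rw [Matrix.det_fin_two]; exact hdX⟩, rfl⟩
    obtain ⟨gY, hgY⟩ : ∃ g : Matrix.SpecialLinearGroup (Fin 2) F,
        (g : Matrix (Fin 2) (Fin 2) F) = Y :=
      ⟨⟨Y, by rw [Matrix.det_fin_two]; exact hdY⟩, rfl⟩
    have hgX3 : gX ^ 3 = 1 := by
      apply Subtype.ext
      rw [Matrix.SpecialLinearGroup.coe_pow, Matrix.SpecialLinearGroup.coe_one, hgX,
        pow_succ, pow_succ, pow_one]
      exact hX3
    have hgY5 : gY ^ 5 = 1 := by
      apply Subtype.ext
      rw [Matrix.SpecialLinearGroup.coe_pow, Matrix.SpecialLinearGroup.coe_one, hgY,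
        pow_succ, pow_succ, pow_succ, pow_succ, pow_one]
      exact hY5
    have hgXY : (((gX * gY) ^ 2 : Matrix.SpecialLinearGroup (Fin 2) F) :
        Matrix (Fin 2) (Fin 2) F) = -1 := by
      rw [Matrix.SpecialLinearGroup.coe_pow, Matrix.SpecialLinearGroup.coe_mul, hgX, hgY,
        pow_two]
      exact hN2
    have hcen : (gX * gY) ^ 2 ∈ Subgroup.center (Matrix.SpecialLinearGroup (Fin 2) F) := by
      rw [Matrix.SpecialLinearGroup.mem_center_iff]
      exact ⟨-1, by rw [Fintype.card_fin]; exact neg_one_sq, by rw [map_neg, map_one, hgXY]⟩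
    obtain ⟨π, hπ1, hπ2⟩ : ∃ π : Matrix.SpecialLinearGroup (Fin 2) F →*
        Matrix.ProjectiveSpecialLinearGroup (Fin 2) F,
        (∀ z, z ∈ Subgroup.center (Matrix.SpecialLinearGroup (Fin 2) F) → π z = 1) ∧
        (∀ z, π z = 1 → z ∈ Subgroup.center (Matrix.SpecialLinearGroup (Fin 2) F)) :=
      ⟨QuotientGroup.mk' _, fun z hz => (QuotientGroup.eq_one_iff z).mpr hz,
        fun z hz => (QuotientGroup.eq_one_iff z).mp hz⟩
    obtain ⟨f, hf0, hf1⟩ : ∃ f : Fin 2 → Matrix.ProjectiveSpecialLinearGroup (Fin 2) F,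
        f 0 = π gX ∧ f 1 = π gY := ⟨![π gX, π gY], rfl, rfl⟩
    have hlift : ∀ r ∈ R, FreeGroup.lift f r = 1 := by
      intro r hr
      rw [hR] at hr
      rcases hr with rfl | rfl | rfl
      · rw [map_pow, FreeGroup.lift_apply_of, hf0, ← map_pow, hgX3, map_one]
      · rw [map_pow, FreeGroup.lift_apply_of, hf1, ← map_pow, hgY5, map_one]
      · rw [map_pow, map_mul, FreeGroup.lift_apply_of, FreeGroup.lift_apply_of, hf0, hf1,
          ← map_mul, ← map_pow]
        exact hπ1 _ hcen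
    obtain ⟨γ, hγ⟩ : ∃ γ : alternatingGroup (Fin 5) →*
        Matrix.ProjectiveSpecialLinearGroup (Fin 2) F,
        γ (e (PresentedGroup.of 1)) = π gY :=
      ⟨(PresentedGroup.toGroup hlift).comp e.symm.toMonoidHom, by
        show (PresentedGroup.toGroup hlift) (e.symm (e (PresentedGroup.of 1))) = π gY
        rw [MulEquiv.symm_apply_apply]
        exact (PresentedGroup.toGroup.of hlift).trans hf1⟩
    have hY1 : π gY ≠ 1 := by
      intro h
      have hc' := hπ2 _ h
      rw [Matrix.SpecialLinearGroup.mem_center_iff] at hc'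
      obtain ⟨r, _, hr⟩ := hc'
      have h01 := congrFun (congrFun hr 0) 1
      rw [Matrix.scalar_apply, Matrix.diagonal_apply_ne _ (by decide), hgY, hY01] at h01
      exact one_ne_zero (neg_eq_zero.mp h01.symm)
    have hsimple : IsSimpleGroup (alternatingGroup (Fin 5)) :=
      alternatingGroup.isSimpleGroup (by
        have h : Nat.card (Fin 5) = 5 := by rw [Nat.card_eq_fintype_card, Fintype.card_fin]
        exact h.ge)
    have hγinj : Function.Injective γ := by
      rw [← MonoidHom.ker_eq_bot_iff]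
      rcases (MonoidHom.normal_ker γ).eq_bot_or_eq_top with hb | ht
      · exact hb
      · exfalso
        have hmem : e (PresentedGroup.of 1) ∈ γ.ker := by
          rw [ht]
          exact Subgroup.mem_top _
        rw [MonoidHom.mem_ker, hγ] at hmem
        exact hY1 hmem
    exact ⟨γ.range, ⟨(MonoidHom.ofInjective hγinj).symm⟩⟩

end Cfsg.Agent.S0804
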