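import Mathlib
import Cfsg.Statements.S0805
import Cfsg.Agent.Lib.Helper2.SubfieldPSL
import Cfsg.Agent.Lib.Helper4.SL2Unip

set_option autoImplicit false
open Cfsg

namespace Cfsg.Agent.S0805

/-- Subfield subgroups: let F be a finite field of odd order q and K a finite field with |K|^m = q, m ≥ 1. Then PSL_2(F) has a subgroup isomorphic to PSL_2(K), and has a subgroup isomorphic to PGL_2(K) if and only if m is even. -/
theorem result {F K : Type*} [Field F] [Fintype F] [Field K] [Fintype K] {q : ℕ} (hF : Fintype.card F = q) (hodd : Odd q) (m : ℕ) (hm : 1 ≤ m) (hK : Fintype.card K ^ m = q) : (∃ H : Subgroup (Matrix.ProjectiveSpecialLinearGroup (Fin 2) F), Nonempty (H ≃* Matrix.ProjectiveSpecialLinearGroup (Fin 2) K)) ∧ ((∃ H : Subgroup (Matrix.ProjectiveSpecialLinearGroup (Fin 2) F), Nonempty (H ≃* Matrix.ProjGenLinGroup (Fin 2) K)) ↔ Even m) := by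
  classical
  obtain ⟨ι⟩ := Cfsg.Agent.Lib.Helper2.finfield_embed (F := F) (K := K) m (by rw [hK, hF])
  refine ⟨Cfsg.Agent.Lib.Helper2.psl2_subfield ι, ?_⟩
  have hqodd : q % 2 = 1 := Nat.odd_iff.mp hodd
  obtain ⟨r, hr⟩ : ∃ r : ℕ, r = Fintype.card K := ⟨_, rfl⟩
  rw [← hr] at hK
  have hrodd : r % 2 = 1 := by
    by_contra hne
    have h2r : 2 ∣ r := Nat.dvd_of_mod_eq_zero (by omega)
    have h2q : 2 ∣ r ^ m := dvd_pow h2r (by omega)
    rw [hK] at h2q
    omega
  have h2 : (2 : F) ≠ 0 := by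
    intro h20
    have ho : addOrderOf (1 : F) = 2 :=
      addOrderOf_eq_prime (by rw [two_nsmul]; linear_combination h20) one_ne_zero
    have hd := addOrderOf_dvd_card (x := (1 : F))
    rw [ho, hF] at hd
    omega
  obtain ⟨j, hj⟩ : ∃ j, r = 2 * j + 1 := ⟨r / 2, by omega⟩
  constructor
  · rintro ⟨H, ⟨eH⟩⟩
    by_contra hm2
    have hmodd : m % 2 = 1 := by
      rcases Nat.even_or_odd m with he | ho
      · exact absurd he hm2
      · exact Nat.odd_iff.mp ho
    have hr1 : 1 < r := by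
      rw [hr]
      exact Fintype.one_lt_card
    have hj1 : 1 ≤ j := by omega
    have hr2 : r ^ 2 = 4 * (j * (j + 1)) + 1 := by
      rw [hj]
      ring
    -- the order of H
    have hcardH : Nat.card H * (r - 1) = (r ^ 2 - 1) * (r ^ 2 - r) := by
      have h := Cfsg.Agent.Lib.Helper2.card_pgl2 (K := K)
      rw [← hr] at h
      have e : Nat.card H = Nat.card (Matrix.GeneralLinearGroup (Fin 2) K ⧸
          Subgroup.center (Matrix.GeneralLinearGroup (Fin 2) K)) := Nat.card_congr eH.toEquiv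
      rw [e]
      exact h
    have e1 : r - 1 = 2 * j := by omega
    have e2 : r ^ 2 - 1 = 4 * (j * (j + 1)) := by omega
    have e3 : r ^ 2 - r = (2 * j + 1) * (2 * j) := by
      have h : r ^ 2 = (2 * j + 1) * (2 * j) + r := by
        rw [hj]
        ring
      omega
    rw [e1, e2, e3] at hcardH
    have hH : Nat.card H = 4 * (j * (j + 1)) * (2 * j + 1) := by
      apply Nat.eq_of_mul_eq_mul_right (show 0 < 2 * j by omega)
      rw [hcardH]
      ring
    -- the centre of SL₂ has even order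
    obtain ⟨z, hz⟩ : ∃ z : Matrix.SpecialLinearGroup (Fin 2) F,
        (z : Matrix (Fin 2) (Fin 2) F) = -1 :=
      ⟨⟨-1, by rw [Matrix.det_neg, Matrix.det_one, Fintype.card_fin]; norm_num⟩, rfl⟩
    have hzc : z ∈ Subgroup.center (Matrix.SpecialLinearGroup (Fin 2) F) := by
      rw [Matrix.SpecialLinearGroup.mem_center_iff]
      exact ⟨-1, by rw [Fintype.card_fin]; exact neg_one_sq, by rw [map_neg, map_one, hz]⟩
    have hz1 : z ≠ 1 := by
      intro h
      have h00 : (z : Matrix (Fin 2) (Fin 2) F) 0 0 = (1 : Matrix (Fin 2) (Fin 2) F) 0 0 := by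
        rw [h]
        rfl
      rw [hz, Matrix.neg_apply, Matrix.one_apply_eq] at h00
      apply h2
      linear_combination -h00
    have hz2 : z ^ 2 = 1 := by
      apply Subtype.ext
      rw [Matrix.SpecialLinearGroup.coe_pow, Matrix.SpecialLinearGroup.coe_one, hz]
      exact neg_one_sq
    have ho : orderOf z = 2 := orderOf_eq_prime hz2 hz1
    have h2c : 2 ∣ Nat.card (Subgroup.center (Matrix.SpecialLinearGroup (Fin 2) F)) := by
      have h := (Subgroup.center (Matrix.SpecialLinearGroup (Fin 2) F)).orderOf_dvd_natCard hzc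
      rw [ho] at h
      exact h
    have hcardSL : Nat.card (Matrix.SpecialLinearGroup (Fin 2) F) = q * (q ^ 2 - 1) := by
      rw [Cfsg.Agent.Lib.Helper4.card_sl2, hF]
    have hmul := Subgroup.card_eq_card_quotient_mul_card_subgroup
      (Subgroup.center (Matrix.SpecialLinearGroup (Fin 2) F))
    have hmul' : Nat.card (Matrix.SpecialLinearGroup (Fin 2) F) =
        Nat.card (Matrix.ProjectiveSpecialLinearGroup (Fin 2) F) *
        Nat.card (Subgroup.center (Matrix.SpecialLinearGroup (Fin 2) F)) := hmul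
    have hdvd : Nat.card H * 2 ∣ q * (q ^ 2 - 1) := by
      have h := Nat.mul_dvd_mul (Subgroup.card_subgroup_dvd_card H) h2c
      rw [← hmul', hcardSL] at h
      exact h
    -- arithmetic
    rw [hH] at hdvd
    obtain ⟨t, ht⟩ := hdvd
    obtain ⟨S, hS, hS2⟩ := Cfsg.Agent.Lib.Helper2.pow_sub_one_odd_quot (4 * (j * (j + 1)))
      (by omega) m
    rw [← hr2] at hS
    have hq2 : q ^ 2 = (r ^ 2) ^ m := by
      rw [← hK, ← pow_mul, ← pow_mul, mul_comm]
    have e4 : q ^ 2 - 1 = 4 * (j * (j + 1)) * S := by omega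
    rw [e4] at ht
    have hX : 0 < 4 * (j * (j + 1)) := by
      have h : 0 < j * (j + 1) := Nat.mul_pos (by omega) (by omega)
      omega
    have ht' : q * S = (2 * j + 1) * 2 * t := by
      apply Nat.eq_of_mul_eq_mul_left hX
      calc 4 * (j * (j + 1)) * (q * S) = q * (4 * (j * (j + 1)) * S) := by ring
        _ = 4 * (j * (j + 1)) * (2 * j + 1) * 2 * t := ht
        _ = 4 * (j * (j + 1)) * ((2 * j + 1) * 2 * t) := by ring
    obtain ⟨a, ha⟩ : ∃ a, q = 2 * a + 1 := ⟨q / 2, by omega⟩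
    obtain ⟨b, hb⟩ : ∃ b, S = 2 * b + 1 := ⟨S / 2, by omega⟩
    have e5 : q * S = 2 * (2 * a * b + a + b) + 1 := by
      rw [ha, hb]
      ring
    have e6 : (2 * j + 1) * 2 * t = 2 * ((2 * j + 1) * t) := by ring
    omega
  · intro hev
    apply Cfsg.Agent.Lib.Helper2.pgl2_subfield ι
    intro x hx
    obtain ⟨k, hk⟩ := hev
    have hq : q = (r ^ 2) ^ k := by
      rw [← hK, hk, ← two_mul, pow_mul]
    have h1 : r ^ 2 - 1 ∣ (r ^ 2) ^ k - 1 := Nat.sub_one_dvd_pow_sub_one (r ^ 2) k
    have h2' : 2 * (r - 1) ∣ r ^ 2 - 1 := by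
      refine ⟨j + 1, ?_⟩
      have e1 : r ^ 2 = 4 * (j * (j + 1)) + 1 := by
        rw [hj]
        ring
      have e2 : r - 1 = 2 * j := by omega
      have e3 : 2 * (2 * j) * (j + 1) = 4 * (j * (j + 1)) := by ring
      rw [e2, e3]
      omega
    obtain ⟨d, hd⟩ := h2'.trans h1
    have hq2 : q / 2 = (r - 1) * d := by
      have hpos : 1 ≤ (r ^ 2) ^ k := Nat.one_le_pow _ _ (pow_pos (by omega) 2)
      have e : 2 * (r - 1) * d = 2 * ((r - 1) * d) := by ring
      rw [hq]
      omega
    have hcF : ringChar F ≠ 2 := by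
      intro hc
      apply h2
      have h := (CharP.cast_eq_zero_iff F (ringChar F) 2).mpr (dvd_of_eq hc)
      rw [Nat.cast_ofNat] at h
      exact h
    have hιx : ι x ≠ 0 := fun h0 => hx (ι.injective (by rw [h0, map_zero]))
    have hsq : IsSquare (ι x) := by
      rw [FiniteField.isSquare_iff hcF hιx, hF, hq2, ← map_pow, pow_mul, hr,
        FiniteField.pow_card_sub_one_eq_one x hx, one_pow, map_one]
    obtain ⟨s, hs⟩ := hsq
    exact ⟨s, by rw [pow_two]; exact hs.symm⟩

end Cfsg.Agent.S0805
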