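import Cfsg.Statements.S0820
import Mathlib
import Cfsg.Agent.Lib.Helper4.PSL34Inv

set_option autoImplicit false
open Cfsg

namespace Cfsg.Agent.S0820

open Cfsg.Agent.Lib.Helper4 in

/-- Any two elements of order 2 of PSL_3(4) are conjugate. -/
theorem result {F : Type*} [Field F] [Fintype F] (hF : Fintype.card F = 4) (x y : Matrix.ProjectiveSpecialLinearGroup (Fin 3) F) (hx : orderOf x = 2) (hy : orderOf y = 2) : IsConj x y := by
  have h2 := two_eq_zero_of_card_four hF
  exact (psl3_invol_conj h2 x hx).symm.trans (psl3_invol_conj h2 y hy)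

end Cfsg.Agent.S0820
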