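import Cfsg.Statements.S0824
import Mathlib
-- import your own Cfsg.Agent.* helpers here

set_option autoImplicit false
open Cfsg

namespace Cfsg.Agent.S0824


open Matrix

abbrev I4 : Type := (Fin 1 ⊕ Fin 1) ⊕ Fin 2

section
variable {F : Type*} [Field F]

def mk (x y z w : F) : I4 → F := Sum.elim (Sum.elim (fun _ => x) (fun _ => y)) ![z, w]

theorem mk_eta (v : I4 → F) :
    v = mk (v (.inl (.inl 0))) (v (.inl (.inr 0))) (v (.inr 0)) (v (.inr 1)) := by
  funext i
  rcases i with (i | i) | i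
  · fin_cases i; rfl
  · fin_cases i; rfl
  · fin_cases i <;> rfl

theorem mk_zero : mk (0 : F) 0 0 0 = 0 := by
  funext i
  rcases i with (i | i) | i
  · rfl
  · rfl
  · fin_cases i <;> rfl

theorem Q_apply (v : I4 → F) : Cfsg.quadFormMinus 1 F 1 1 v =
    v (.inl (.inl 0)) * v (.inl (.inr 0)) +
      (v (.inr 0) ^ 2 + v (.inr 0) * v (.inr 1) + v (.inr 1) ^ 2) := by
  simp [Cfsg.quadFormMinus]

def pol (a b : I4 → F) : F :=
  a (.inl (.inl 0)) * b (.inl (.inr 0)) + a (.inl (.inr 0)) * b (.inl (.inl 0))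
    + a (.inr 0) * b (.inr 1) + a (.inr 1) * b (.inr 0)

theorem pol_add_right (a b c : I4 → F) : pol a (b + c) = pol a b + pol a c := by
  simp only [pol, Pi.add_apply]; ring

theorem pol_add_left (a b c : I4 → F) : pol (a + b) c = pol a c + pol b c := by
  simp only [pol, Pi.add_apply]; ring

theorem pol_smul_left (k : F) (a c : I4 → F) : pol (k • a) c = k * pol a c := by
  simp only [pol, Pi.smul_apply, smul_eq_mul]; ring

theorem pol_self (h2 : (2 : F) = 0) (u : I4 → F) : pol u u = 0 := by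
  simp only [pol]
  linear_combination (u (.inl (.inl 0)) * u (.inl (.inr 0)) + u (.inr 0) * u (.inr 1)) * h2

theorem Q_add_smul (h2 : (2 : F) = 0) (v u : I4 → F) (c : F) :
    Cfsg.quadFormMinus 1 F 1 1 (v + c • u) = Cfsg.quadFormMinus 1 F 1 1 v + c * pol v u
      + c ^ 2 * Cfsg.quadFormMinus 1 F 1 1 u := by
  simp only [Q_apply, pol, Pi.add_apply, Pi.smul_apply, smul_eq_mul]
  linear_combination (c * (v (.inr 0) * u (.inr 0) + v (.inr 1) * u (.inr 1))) * h2

def reflL (u : I4 → F) : (I4 → F) →ₗ[F] (I4 → F) where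
  toFun v := v + pol v u • u
  map_add' a b := by rw [pol_add_left, add_smul]; abel
  map_smul' k a := by rw [pol_smul_left, RingHom.id_apply, smul_add, smul_smul]

theorem reflL_apply (u v : I4 → F) : reflL u v = v + pol v u • u := rfl

theorem reflL_Q (h2 : (2 : F) = 0) (u v : I4 → F) (hu : Cfsg.quadFormMinus 1 F 1 1 u = 1) :
    Cfsg.quadFormMinus 1 F 1 1 (reflL u v) = Cfsg.quadFormMinus 1 F 1 1 v := by
  rw [reflL_apply, Q_add_smul h2, hu]
  linear_combination (pol v u) ^ 2 * h2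

theorem reflL_invol (h2 : (2 : F) = 0) (u : I4 → F) : reflL u ∘ₗ reflL u = LinearMap.id := by
  apply LinearMap.ext
  intro v
  simp only [LinearMap.comp_apply, reflL_apply, LinearMap.id_apply]
  rw [pol_add_left, pol_smul_left, pol_self h2, mul_zero, add_zero, add_assoc, ← add_smul]
  have : pol v u + pol v u = 0 := by linear_combination (pol v u) * h2
  rw [this, zero_smul, add_zero]

def reflG (h2 : (2 : F) = 0) (u : I4 → F) : GL I4 F :=
  ⟨LinearMap.toMatrix' (reflL u), LinearMap.toMatrix' (reflL u),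
    by rw [← LinearMap.toMatrix'_comp, reflL_invol h2, LinearMap.toMatrix'_id],
    by rw [← LinearMap.toMatrix'_comp, reflL_invol h2, LinearMap.toMatrix'_id]⟩

theorem reflG_mulVec (h2 : (2 : F) = 0) (u v : I4 → F) :
    ((reflG h2 u : GL I4 F) : Matrix I4 I4 F) *ᵥ v = v + pol v u • u := by
  show LinearMap.toMatrix' (reflL u) *ᵥ v = _
  rw [LinearMap.toMatrix'_mulVec]
  rfl

theorem mem_iso (g : GL I4 F) :
    g ∈ Cfsg.isometryGroup F (Cfsg.quadFormMinus 1 F 1 1) ↔
      ∀ u : I4 → F, Cfsg.quadFormMinus 1 F 1 1 ((g : Matrix I4 I4 F) *ᵥ u)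
        = Cfsg.quadFormMinus 1 F 1 1 u := by
  constructor
  · intro h u
    exact h u u
  · intro h u _
    exact h u

theorem reflG_mem (h2 : (2 : F) = 0) (u : I4 → F) (hu : Cfsg.quadFormMinus 1 F 1 1 u = 1) :
    reflG h2 u ∈ Cfsg.isometryGroup F (Cfsg.quadFormMinus 1 F 1 1) := by
  rw [mem_iso]
  intro v
  rw [reflG_mulVec, ← reflL_apply]
  exact reflL_Q h2 u v hu

def s : Fin 5 → (I4 → F) := ![mk 1 0 0 0, mk 0 1 0 0, mk 1 1 1 0, mk 1 1 0 1, mk 1 1 1 1]

theorem pol_s (h2 : (2 : F) = 0) (k l : Fin 5) :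
    pol (s k : I4 → F) (s l) = if k = l then 0 else 1 := by
  have h11 : (1 : F) + 1 = 0 := by rw [one_add_one_eq_two]; exact h2
  fin_cases k <;> fin_cases l <;> simp [s, pol, mk, h11, h2]

theorem Q_s (h2 : (2 : F) = 0) (k : Fin 5) : Cfsg.quadFormMinus 1 F 1 1 (s k : I4 → F) = 0 := by
  have h11 : (1 : F) + 1 = 0 := by rw [one_add_one_eq_two]; exact h2
  fin_cases k <;> simp [s, Q_apply, mk, h11, h2]

theorem s_ne (k : Fin 5) : (s k : I4 → F) ≠ 0 := by
  intro h
  fin_cases k
  · exact one_ne_zero (congrFun h (.inl (.inl 0)))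
  · exact one_ne_zero (congrFun h (.inl (.inr 0)))
  · exact one_ne_zero (congrFun h (.inl (.inl 0)))
  · exact one_ne_zero (congrFun h (.inl (.inl 0)))
  · exact one_ne_zero (congrFun h (.inl (.inl 0)))

theorem s_inj (h2 : (2 : F) = 0) : Function.Injective (s : Fin 5 → (I4 → F)) := by
  intro k l h
  by_contra hkl
  have h1 := pol_s h2 k l
  rw [h, pol_s h2 l l] at h1
  simp [hkl] at h1

theorem sing_class (hF01 : ∀ x : F, x = 0 ∨ x = 1) (h2 : (2 : F) = 0) (v : I4 → F) (hv : v ≠ 0)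
    (hQ : Cfsg.quadFormMinus 1 F 1 1 v = 0) : ∃ i : Fin 5, v = s i := by
  have h11 : (1 : F) + 1 = 0 := by rw [one_add_one_eq_two]; exact h2
  rw [mk_eta v] at hv hQ ⊢
  generalize v (.inl (.inl 0)) = x at hv hQ ⊢
  generalize v (.inl (.inr 0)) = y at hv hQ ⊢
  generalize v (.inr 0) = z at hv hQ ⊢
  generalize v (.inr 1) = w at hv hQ ⊢
  rcases hF01 x with rfl | rfl <;> rcases hF01 y with rfl | rfl <;>
    rcases hF01 z with rfl | rfl <;> rcases hF01 w with rfl | rfl <;>
    first
    | exact ⟨0, rfl⟩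
    | exact ⟨1, rfl⟩
    | exact ⟨2, rfl⟩
    | exact ⟨3, rfl⟩
    | exact ⟨4, rfl⟩
    | exact absurd mk_zero hv
    | (exfalso; simp [Q_apply, mk, h11, h2] at hQ)

theorem span_lemma (A : Matrix I4 I4 F) (h : ∀ i : Fin 5, A *ᵥ (s i) = s i) : A = 1 := by
  have hv : ∀ v : I4 → F, A *ᵥ v = v := by
    intro v
    have e : v = (v (.inl (.inl 0)) - v (.inr 0) - v (.inr 1)) • s 0
        + (v (.inl (.inr 0)) - v (.inr 0) - v (.inr 1)) • s 1 + v (.inr 0) • s 2
        + v (.inr 1) • s 3 := by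
      funext i
      rcases i with (i | i) | i
      · fin_cases i; simp [s, mk]; ring
      · fin_cases i; simp [s, mk]; ring
      · fin_cases i <;> simp [s, mk]
    rw [e]
    simp only [Matrix.mulVec_add, Matrix.mulVec_smul, h]
  apply Matrix.toLin'.injective
  apply LinearMap.ext
  intro v
  rw [Matrix.toLin'_apply, hv v, Matrix.toLin'_one]
  rfl

theorem ex_img (hF01 : ∀ x : F, x = 0 ∨ x = 1) (h2 : (2 : F) = 0)
    (g : Cfsg.isometryGroup F (Cfsg.quadFormMinus 1 F 1 1)) (i : Fin 5) :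
    ∃ j : Fin 5, ((g : GL I4 F) : Matrix I4 I4 F) *ᵥ (s i) = s j := by
  apply sing_class hF01 h2
  · intro h0
    have : (((g : GL I4 F)⁻¹ : GL I4 F) : Matrix I4 I4 F) *ᵥ
        (((g : GL I4 F) : Matrix I4 I4 F) *ᵥ (s i)) = s i := by
      rw [Matrix.mulVec_mulVec, ← Units.val_mul, inv_mul_cancel, Units.val_one, Matrix.one_mulVec]
    rw [h0, Matrix.mulVec_zero] at this
    exact s_ne i this.symm
  · rw [(mem_iso _).mp g.2, Q_s h2]

noncomputable def actF (hF01 : ∀ x : F, x = 0 ∨ x = 1) (h2 : (2 : F) = 0)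
    (g : Cfsg.isometryGroup F (Cfsg.quadFormMinus 1 F 1 1)) (i : Fin 5) : Fin 5 :=
  Classical.choose (ex_img hF01 h2 g i)

theorem actF_spec (hF01 : ∀ x : F, x = 0 ∨ x = 1) (h2 : (2 : F) = 0)
    (g : Cfsg.isometryGroup F (Cfsg.quadFormMinus 1 F 1 1)) (i : Fin 5) :
    (s (actF hF01 h2 g i) : I4 → F) = ((g : GL I4 F) : Matrix I4 I4 F) *ᵥ (s i) :=
  (Classical.choose_spec (ex_img hF01 h2 g i)).symm

noncomputable def act (hF01 : ∀ x : F, x = 0 ∨ x = 1) (h2 : (2 : F) = 0) :
    MulAction (Cfsg.isometryGroup F (Cfsg.quadFormMinus 1 F 1 1)) (Fin 5) where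
  smul := actF hF01 h2
  one_smul i := by
    apply s_inj h2
    show s (actF hF01 h2 1 i) = s i
    rw [actF_spec]
    simp
  mul_smul g g' i := by
    apply s_inj h2
    show s (actF hF01 h2 (g * g') i) = s (actF hF01 h2 g (actF hF01 h2 g' i))
    rw [actF_spec, actF_spec, actF_spec, Matrix.mulVec_mulVec]
    rfl

theorem add_self_v (h2 : (2 : F) = 0) (v : I4 → F) : v + v = 0 := by
  funext i
  simp only [Pi.add_apply, Pi.zero_apply]
  linear_combination (v i) * h2

end

/-- O⁻_4(2) ≅ S_5: the isometry group of the form x y + z_1² + z_1 z_2 + z_2² over the field with 2 elements is isomorphic to the symmetric group on 5 letters. -/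
theorem result {F : Type*} [Field F] [Fintype F] (hF : Fintype.card F = 2) : Nonempty (↥(Cfsg.isometryGroup F (Cfsg.quadFormMinus 1 F 1 1)) ≃* Equiv.Perm (Fin 5)) := by
  classical
  have hF01 : ∀ x : F, x = 0 ∨ x = 1 := by
    intro x
    by_contra hx
    push_neg at hx
    have h3 : ({0, 1, x} : Finset F).card = 3 := by
      rw [Finset.card_insert_of_notMem, Finset.card_insert_of_notMem, Finset.card_singleton]
      · simp [hx.2.symm]
      · simp [hx.1.symm]
    have := Finset.card_le_univ ({0, 1, x} : Finset F)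
    omega
  have h2 : (2 : F) = 0 := by
    rcases hF01 2 with h | h
    · exact h
    · exfalso
      have : (1 : F) = 0 := by linear_combination h
      exact one_ne_zero this
  have h11 : (1 : F) + 1 = 0 := by rw [one_add_one_eq_two]; exact h2
  letI := act hF01 h2
  have hsm : ∀ (g : Cfsg.isometryGroup F (Cfsg.quadFormMinus 1 F 1 1)) (i : Fin 5),
      g • i = actF hF01 h2 g i := fun _ _ => rfl
  have hinj : Function.Injective
      (MulAction.toPermHom (Cfsg.isometryGroup F (Cfsg.quadFormMinus 1 F 1 1)) (Fin 5)) := by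
    rw [injective_iff_map_eq_one]
    intro g hg
    apply Subtype.ext
    apply Units.ext
    rw [Subgroup.coe_one, Units.val_one]
    apply span_lemma
    intro i
    have h1 := congrArg (fun σ : Equiv.Perm (Fin 5) => σ i) hg
    simp only [MulAction.toPermHom_apply, MulAction.toPerm_apply, Equiv.Perm.coe_one, id_eq] at h1
    rw [hsm] at h1
    rw [← actF_spec hF01 h2, h1]
  have hsurj : Function.Surjective
      (MulAction.toPermHom (Cfsg.isometryGroup F (Cfsg.quadFormMinus 1 F 1 1)) (Fin 5)) := by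
    rw [← MonoidHom.range_eq_top, eq_top_iff, ← Equiv.Perm.closure_isSwap, Subgroup.closure_le]
    rintro σ ⟨i, j, hij, rfl⟩
    have hu : Cfsg.quadFormMinus 1 F 1 1 ((s i : I4 → F) + s j) = 1 := by
      have := Q_add_smul h2 (s i : I4 → F) (s j) 1
      rw [one_smul] at this
      rw [this, Q_s h2, Q_s h2, pol_s h2, if_neg hij]
      ring
    refine ⟨⟨reflG h2 (s i + s j), reflG_mem h2 _ hu⟩, ?_⟩
    apply Equiv.ext
    intro k
    simp only [MulAction.toPermHom_apply, MulAction.toPerm_apply]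
    rw [hsm]
    apply s_inj h2
    rw [actF_spec]
    show ((reflG h2 (s i + s j) : GL I4 F) : Matrix I4 I4 F) *ᵥ (s k) = _
    rw [reflG_mulVec, pol_add_right, pol_s h2, pol_s h2]
    by_cases hki : k = i
    · subst hki
      rw [if_pos rfl, if_neg hij, zero_add, one_smul, Equiv.swap_apply_left, ← add_assoc,
        add_self_v h2, zero_add]
    · by_cases hkj : k = j
      · subst hkj
        rw [if_neg hki, if_pos rfl, add_zero, one_smul, Equiv.swap_apply_right, add_comm (s i),
          ← add_assoc, add_self_v h2, zero_add]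
      · rw [if_neg hki, if_neg hkj, h11, zero_smul, add_zero, Equiv.swap_apply_of_ne_of_ne hki hkj]
  exact ⟨MulEquiv.ofBijective _ ⟨hinj, hsurj⟩⟩

end Cfsg.Agent.S0824
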