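import Cfsg.Statements.S0828
import Mathlib
-- import your own Cfsg.Agent.* helpers here

set_option autoImplicit false
open Cfsg

namespace Cfsg.Agent.S0828

open Matrix in
theorem B_formula {F : Type*} [Field F] (u v : Fin 2 ⊕ Fin 2 → F) :
    Cfsg.sympForm 2 F u v = u (Sum.inr 0) * v (Sum.inl 0) + u (Sum.inr 1) * v (Sum.inl 1)
      - u (Sum.inl 0) * v (Sum.inr 0) - u (Sum.inl 1) * v (Sum.inr 1) := by
  simp [Cfsg.sympForm, Matrix.J, dotProduct, Matrix.mulVec, Fintype.sum_sum_type, Fin.sum_univ_two]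
  ring

theorem B_self {F : Type*} [Field F] (v : Fin 2 ⊕ Fin 2 → F) : Cfsg.sympForm 2 F v v = 0 := by
  rw [B_formula]; ring

def Bl {F : Type*} [Field F] (v : Fin 2 ⊕ Fin 2 → F) : (Fin 2 ⊕ Fin 2 → F) →ₗ[F] F where
  toFun := fun w => Cfsg.sympForm 2 F v w
  map_add' := by intro x y; simp only [B_formula, Pi.add_apply]; ring
  map_smul' := by
    intro c x; simp only [B_formula, Pi.smul_apply, smul_eq_mul, RingHom.id_apply]; ring

theorem Bl_apply {F : Type*} [Field F] (v w : Fin 2 ⊕ Fin 2 → F) :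
    Bl v w = Cfsg.sympForm 2 F v w := rfl

theorem B_nondeg {F : Type*} [Field F] (v : Fin 2 ⊕ Fin 2 → F) (hv : v ≠ 0) :
    ∃ w, Cfsg.sympForm 2 F v w ≠ 0 := by
  classical
  by_contra h
  push_neg at h
  apply hv
  have h1 := h (Pi.single (Sum.inl 0) 1)
  have h2 := h (Pi.single (Sum.inl 1) 1)
  have h3 := h (Pi.single (Sum.inr 0) 1)
  have h4 := h (Pi.single (Sum.inr 1) 1)
  simp [B_formula] at h1 h2 h3 h4
  ext (i|i) <;> fin_cases i <;> simp [h1, h2, h3, h4]

theorem natcard_filter {α : Type*} [Fintype α] (P : α → Prop) [DecidablePred P] :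
    Nat.card {a // P a} = (Finset.univ.filter P).card := by
  rw [Nat.card_eq_fintype_card, Fintype.card_subtype]

theorem card_sub {F : Type*} [Field F] [Fintype F] (U : Submodule F (Fin 2 ⊕ Fin 2 → F))
    [DecidablePred (fun x => x ∈ U)] :
    (Finset.univ.filter (fun x => x ∈ U)).card = Fintype.card F ^ Module.finrank F U := by
  rw [← Fintype.card_subtype]
  exact Module.card_eq_pow_finrank

theorem finrank_pair {F : Type*} [Field F] {M : Type*} [AddCommGroup M] [Module F M] (v w : M)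
    (hv : v ≠ 0) (hw : w ∉ Submodule.span F {v}) :
    Module.finrank F (Submodule.span F ({v, w} : Set M)) = 2 := by
  have hli : LinearIndependent F ![v, w] := by
    rw [LinearIndependent.pair_iff]
    intro s t hst
    by_cases ht : t = 0
    · subst ht
      rw [zero_smul, add_zero] at hst
      exact ⟨(smul_eq_zero.mp hst).resolve_right hv, rfl⟩
    · exfalso
      apply hw
      rw [Submodule.mem_span_singleton]
      refine ⟨-(t⁻¹ * s), ?_⟩
      have h1 : t • w = -(s • v) := by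
        rw [eq_neg_iff_add_eq_zero, add_comm]; exact hst
      rw [neg_smul, mul_smul, ← smul_neg, ← h1, smul_smul, inv_mul_cancel₀ ht, one_smul]
  have := finrank_span_eq_card hli
  rw [Matrix.range_cons_cons_empty] at this
  simpa using this

theorem key2 {F : Type*} [Field F] [Fintype F] (v : Fin 2 ⊕ Fin 2 → F) (hv : v ≠ 0) :
    Nat.card {W : Submodule F (Fin 2 ⊕ Fin 2 → F) // Module.finrank F W = 2 ∧ v ∈ W ∧
      ∀ u ∈ W, ∀ w ∈ W, Cfsg.sympForm 2 F u w = 0} = Fintype.card F + 1 := by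
  classical
  haveI : Fintype (Submodule F (Fin 2 ⊕ Fin 2 → F)) := Fintype.ofFinite _
  rw [natcard_filter]
  set q := Fintype.card F with hq
  set t := Finset.univ.filter (fun W : Submodule F (Fin 2 ⊕ Fin 2 → F) =>
    Module.finrank F W = 2 ∧ v ∈ W ∧ ∀ u ∈ W, ∀ w ∈ W, Cfsg.sympForm 2 F u w = 0) with ht
  let K : Submodule F (Fin 2 ⊕ Fin 2 → F) := LinearMap.ker (Bl v)
  let Sv : Submodule F (Fin 2 ⊕ Fin 2 → F) := Submodule.span F {v}
  have hSvK : Sv ≤ K := by
    rw [Submodule.span_singleton_le_iff_mem, LinearMap.mem_ker]; exact B_self v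
  have hK : Module.finrank F K = 3 := by
    have h1 := LinearMap.finrank_range_add_finrank_ker (Bl v)
    have h2 : LinearMap.range (Bl v) = ⊤ := by
      obtain ⟨w0, hw0⟩ := B_nondeg v hv
      rw [LinearMap.range_eq_top]
      intro y
      refine ⟨(y / Cfsg.sympForm 2 F v w0) • w0, ?_⟩
      rw [map_smul, Bl_apply, smul_eq_mul]
      field_simp
    rw [h2, finrank_top, Module.finrank_self] at h1
    have h3 : Module.finrank F (Fin 2 ⊕ Fin 2 → F) = 4 := by simp
    rw [h3] at h1
    show Module.finrank F (LinearMap.ker (Bl v)) = 3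
    omega
  have hSv : Module.finrank F Sv = 1 := finrank_span_singleton hv
  let P : Finset (Fin 2 ⊕ Fin 2 → F) :=
    (Finset.univ.filter (fun w => w ∈ K)) \ (Finset.univ.filter (fun w => w ∈ Sv))
  have hPcard : P.card = q ^ 3 - q := by
    rw [Finset.card_sdiff_of_subset (by
      intro w hw
      simp only [Finset.mem_filter, Finset.mem_univ, true_and] at hw ⊢
      exact hSvK hw), card_sub, card_sub, hK, hSv, pow_one]
  have hmaps : Set.MapsTo (fun w => Submodule.span F ({v, w} : Set (Fin 2 ⊕ Fin 2 → F)))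
      (P : Set (Fin 2 ⊕ Fin 2 → F)) (t : Set (Submodule F (Fin 2 ⊕ Fin 2 → F))) := by
    intro w hw
    simp only [P, Finset.coe_sdiff, Finset.coe_filter, Finset.mem_univ, true_and, Set.mem_diff,
      Set.mem_setOf_eq] at hw
    obtain ⟨hwK, hwS⟩ := hw
    have hB : Cfsg.sympForm 2 F v w = 0 := LinearMap.mem_ker.mp hwK
    rw [Finset.mem_coe, ht, Finset.mem_filter]
    refine ⟨Finset.mem_univ _, finrank_pair v w hv hwS, Submodule.subset_span (by simp), ?_⟩
    intro u hu u' hu'
    obtain ⟨a, b, rfl⟩ := Submodule.mem_span_pair.mp hu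
    obtain ⟨c, d, rfl⟩ := Submodule.mem_span_pair.mp hu'
    rw [B_formula] at hB ⊢
    simp only [Pi.add_apply, Pi.smul_apply, smul_eq_mul]
    linear_combination (a * d - b * c) * hB
  have hfiber : ∀ W ∈ t, (P.filter (fun w => Submodule.span F ({v, w} : Set _) = W)).card
      = q ^ 2 - q := by
    intro W hW
    rw [ht, Finset.mem_filter] at hW
    obtain ⟨-, hW2, hvW, hiso⟩ := hW
    have hSW : Sv ≤ W := by rw [Submodule.span_singleton_le_iff_mem]; exact hvW
    have hset : P.filter (fun w => Submodule.span F ({v, w} : Set _) = W)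
        = (Finset.univ.filter (fun w => w ∈ W)) \ (Finset.univ.filter (fun w => w ∈ Sv)) := by
      ext w
      simp only [P, Finset.mem_filter, Finset.mem_sdiff, Finset.mem_univ, true_and]
      constructor
      · rintro ⟨⟨hwK, hwS⟩, hEq⟩
        refine ⟨?_, hwS⟩
        rw [← hEq]
        exact Submodule.subset_span (by simp)
      · rintro ⟨hwW, hwS⟩
        refine ⟨⟨LinearMap.mem_ker.mpr (hiso v hvW w hwW), hwS⟩, ?_⟩
        apply Submodule.eq_of_le_of_finrank_eq
        · rw [Submodule.span_le]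
          intro x hx
          rcases hx with rfl | rfl
          · exact hvW
          · exact hwW
        · rw [finrank_pair v w hv hwS, hW2]
    rw [hset, Finset.card_sdiff_of_subset (by
      intro w hw
      simp only [Finset.mem_filter, Finset.mem_univ, true_and] at hw ⊢
      exact hSW hw), card_sub, card_sub, hW2, hSv, pow_one]
  have hsum := Finset.card_eq_sum_card_fiberwise hmaps
  rw [Finset.sum_congr rfl hfiber, Finset.sum_const, smul_eq_mul, hPcard] at hsum
  obtain ⟨k, hk⟩ : ∃ k, q = k + 2 := ⟨q - 2, by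
    have := Fintype.one_lt_card (α := F)
    omega⟩
  rw [hk] at hsum ⊢
  have a1 : (k + 2) ^ 2 - (k + 2) = (k + 2) * (k + 1) := by
    apply Nat.sub_eq_of_eq_add; ring
  have a2 : (k + 2) ^ 3 - (k + 2) = (k + 3) * ((k + 2) * (k + 1)) := by
    apply Nat.sub_eq_of_eq_add; ring
  rw [a1, a2] at hsum
  have := Nat.eq_of_mul_eq_mul_right (by positivity) hsum
  omega

/-- The symplectic generalised quadrangle over a field with q elements: the number of 2-dimensional subspaces of F^4 on which the symplectic form vanishes is (q + 1)(q² + 1), and every non-zero vector lies in exactly q + 1 of them. -/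
theorem result {F : Type*} [Field F] [Fintype F] {q : ℕ} (hF : Fintype.card F = q) : Nat.card {W : Submodule F (Fin 2 ⊕ Fin 2 → F) // Module.finrank F W = 2 ∧ ∀ u ∈ W, ∀ v ∈ W, Cfsg.sympForm 2 F u v = 0} = (q + 1) * (q ^ 2 + 1) ∧ ∀ v : Fin 2 ⊕ Fin 2 → F, v ≠ 0 → Nat.card {W : Submodule F (Fin 2 ⊕ Fin 2 → F) // Module.finrank F W = 2 ∧ v ∈ W ∧ ∀ u ∈ W, ∀ w ∈ W, Cfsg.sympForm 2 F u w = 0} = q + 1 := by
  classical
  haveI : Fintype (Submodule F (Fin 2 ⊕ Fin 2 → F)) := Fintype.ofFinite _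
  subst hF
  refine ⟨?_, fun v hv => key2 v hv⟩
  rw [natcard_filter]
  set q := Fintype.card F with hq
  set 𝒲 := Finset.univ.filter (fun W : Submodule F (Fin 2 ⊕ Fin 2 → F) =>
    Module.finrank F W = 2 ∧ ∀ u ∈ W, ∀ v ∈ W, Cfsg.sympForm 2 F u v = 0) with h𝒲
  let T : Finset (Fin 2 ⊕ Fin 2 → F) := Finset.univ.erase 0
  have hdc := Finset.sum_card_bipartiteAbove_eq_sum_card_bipartiteBelow (s := 𝒲) (t := T)
    (fun (W : Submodule F (Fin 2 ⊕ Fin 2 → F)) (v : Fin 2 ⊕ Fin 2 → F) => v ∈ W)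
  have hA : ∀ W ∈ 𝒲, (Finset.bipartiteAbove
      (fun (W : Submodule F (Fin 2 ⊕ Fin 2 → F)) (v : Fin 2 ⊕ Fin 2 → F) => v ∈ W) T W).card
      = q ^ 2 - 1 := by
    intro W hW
    have h1 : Finset.bipartiteAbove
        (fun (W : Submodule F (Fin 2 ⊕ Fin 2 → F)) (v : Fin 2 ⊕ Fin 2 → F) => v ∈ W) T W
        = (Finset.univ.filter (fun x => x ∈ W)).erase 0 := by
      ext x
      simp only [Finset.bipartiteAbove, T, Finset.mem_filter, Finset.mem_erase, Finset.mem_univ,
        true_and, and_true]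
    rw [h1, Finset.card_erase_of_mem (by simp), card_sub, (Finset.mem_filter.mp hW).2.1]
  have hB : ∀ v ∈ T, (Finset.bipartiteBelow
      (fun (W : Submodule F (Fin 2 ⊕ Fin 2 → F)) (v : Fin 2 ⊕ Fin 2 → F) => v ∈ W) 𝒲 v).card
      = q + 1 := by
    intro v hv
    rw [← key2 v (Finset.ne_of_mem_erase hv), natcard_filter]
    congr 1
    ext W
    simp only [Finset.bipartiteBelow, h𝒲, Finset.mem_filter, Finset.mem_univ, true_and]
    tauto
  rw [Finset.sum_congr rfl hA, Finset.sum_congr rfl hB, Finset.sum_const, Finset.sum_const,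
    smul_eq_mul, smul_eq_mul] at hdc
  have hT : T.card = q ^ 4 - 1 := by
    rw [Finset.card_erase_of_mem (Finset.mem_univ _), Finset.card_univ]
    simp [hq]
  rw [hT] at hdc
  obtain ⟨k, hk⟩ : ∃ k, q = k + 2 := ⟨q - 2, by
    have := Fintype.one_lt_card (α := F)
    omega⟩
  rw [hk] at hdc ⊢
  have a1 : (k + 2) ^ 2 - 1 = (k + 1) * (k + 3) := by
    apply Nat.sub_eq_of_eq_add; ring
  have a2 : (k + 2) ^ 4 - 1 = ((k + 2) ^ 2 + 1) * ((k + 1) * (k + 3)) := by
    apply Nat.sub_eq_of_eq_add; ring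
  rw [a1, a2] at hdc
  have a3 : ((k + 2) ^ 2 + 1) * ((k + 1) * (k + 3)) * (k + 2 + 1)
      = ((k + 2 + 1) * ((k + 2) ^ 2 + 1)) * ((k + 1) * (k + 3)) := by ring
  rw [a3] at hdc
  exact Nat.eq_of_mul_eq_mul_right (by positivity) hdc

end Cfsg.Agent.S0828
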