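import Cfsg.Statements.S0829
import Mathlib
import Cfsg.Agent.Lib.Helper4.HermLines

set_option autoImplicit false
open Cfsg

namespace Cfsg.Agent.S0829

open Cfsg.Agent.Lib.Helper4 in

/-- The unitary quadrangle of PSU_4(q): with |F| = q², the number of 2-dimensional subspaces of F^4 on which the Hermitian form Σ x_i y_i^q vanishes is (q + 1)(q³ + 1). -/
theorem result {F : Type*} [Field F] [Fintype F] {q : ℕ} (hF : Fintype.card F = q ^ 2) : Nat.card {W : Submodule F (Fin 4 → F) // Module.finrank F W = 2 ∧ ∀ u ∈ W, ∀ v ∈ W, Cfsg.hermForm 4 F q u v = 0} = (q + 1) * (q ^ 3 + 1) := by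
  classical
  have hq := card_sq_two_le hF
  have hqz : (2 : ℤ) ≤ (q : ℤ) := by exact_mod_cast hq
  have h4 : ((hermZU q 4).1 : ℤ) = (q:ℤ)^7 + (q:ℤ)^4 - (q:ℤ)^3 := by
    have := (hermZU_closed q hq 3).1
    norm_num at this
    rw [this]; ring
  have h2 : ((hermZU q 2).1 : ℤ) = (q:ℤ)^3 + (q:ℤ)^2 - (q:ℤ) := by
    have := (hermZU_closed q hq 1).1
    norm_num at this
    rw [this]; ring
  have hle : q ^ 2 ≤ q ^ 4 := Nat.pow_le_pow_right (by omega) (by norm_num)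
  have h1le : 1 ≤ q ^ 4 := Nat.one_le_pow _ _ (by omega)
  have ht : (q + 1) * (q ^ 4 - q ^ 2) + q ^ 2 = q ^ 2 * (hermZU q (4 - 2)).1 := by
    show (q + 1) * (q ^ 4 - q ^ 2) + q ^ 2 = q ^ 2 * (hermZU q 2).1
    zify [hle]
    rw [h2]
    ring
  have htot := herm_ti2_total hF 4 (q + 1) ht
  zify [h1le] at htot
  rw [h4] at htot
  have hne : ((q:ℤ)^4 - 1) ≠ 0 := by
    have : (2:ℤ)^4 ≤ (q:ℤ)^4 := pow_le_pow_left₀ (by norm_num) hqz 4
    intro h
    linarith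
  have hfin : ((Nat.card (HermTI2 4 F q) : ℤ) - ((q:ℤ) + 1) * ((q:ℤ)^3 + 1)) * ((q:ℤ)^4 - 1) = 0 := by
    linear_combination htot
  have h5 : (Nat.card (HermTI2 4 F q) : ℤ) = ((q:ℤ) + 1) * ((q:ℤ)^3 + 1) := by
    have := (mul_eq_zero.1 hfin).resolve_right hne
    linarith
  exact_mod_cast h5

end Cfsg.Agent.S0829
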