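import Cfsg.Statements.S0833
import Mathlib
-- import your own Cfsg.Agent.* helpers here

set_option autoImplicit false
open Cfsg

namespace Cfsg.Agent.S0833


open Module
open scoped TensorProduct

theorem iso_exists {F U : Type*} [Field F] [AddCommGroup U] [Module F U] [FiniteDimensional F U]
    (B : LinearMap.BilinForm F U) (h : B.Nondegenerate) (hA : B.IsAlt) (k : ℕ)
    (hU : finrank F U = 2 * k) :
    ∀ d, d ≤ k → ∃ L : Submodule F U, finrank F L = d ∧ ∀ x ∈ L, ∀ y ∈ L, B x y = 0 := by
  intro d
  induction d with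
  | zero =>
    intro _
    refine ⟨⊥, finrank_bot F U, ?_⟩
    intro x hx y hy
    rw [Submodule.mem_bot] at hx
    rw [hx, map_zero, LinearMap.zero_apply]
  | succ d ih =>
    intro hd
    obtain ⟨L, hLd, hL⟩ := ih (by omega)
    have hle : L ≤ B.orthogonal L := by
      intro m hm
      rw [LinearMap.BilinForm.mem_orthogonal_iff]
      intro n hn
      exact hL n hn m hm
    have hfo := LinearMap.BilinForm.finrank_orthogonal h L
    have hex : ∃ v ∈ B.orthogonal L, v ∉ L := by
      by_contra hcon
      push_neg at hcon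
      have : B.orthogonal L ≤ L := hcon
      have := Submodule.finrank_mono this
      omega
    obtain ⟨v, hv, hvL⟩ := hex
    rw [LinearMap.BilinForm.mem_orthogonal_iff] at hv
    have hv0 : v ≠ 0 := by
      rintro rfl
      exact hvL (Submodule.zero_mem _)
    refine ⟨L ⊔ Submodule.span F {v}, ?_, ?_⟩
    · have h1 := Submodule.finrank_sup_add_finrank_inf_eq L (Submodule.span F {v})
      have h2 : L ⊓ Submodule.span F {v} = ⊥ :=
        disjoint_iff.mp ((Submodule.disjoint_span_singleton' hv0).mpr hvL)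
      rw [h2, finrank_bot, finrank_span_singleton hv0] at h1
      omega
    · intro x hx y hy
      rw [Submodule.mem_sup] at hx hy
      obtain ⟨a, ha, z, hz, rfl⟩ := hx
      obtain ⟨a', ha', z', hz', rfl⟩ := hy
      rw [Submodule.mem_span_singleton] at hz hz'
      obtain ⟨c, rfl⟩ := hz
      obtain ⟨c', rfl⟩ := hz'
      have e1 : B v a' = 0 := by rw [← LinearMap.IsAlt.neg hA a' v, hv a' ha', neg_zero]
      simp only [map_add, map_smul, LinearMap.add_apply, LinearMap.smul_apply, smul_eq_mul]
      rw [hL a ha a' ha', hv a ha, e1, hA.self_eq_zero v]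
      ring

/-- If B₁, B₂ are non-degenerate alternating forms on U (dim 2k) and W (dim 2l), then B₁ ⊗ B₂ on U ⊗ W is symmetric, non-degenerate, and vanishes identically on some subspace of dimension 2kl (half of dim U ⊗ W). -/
theorem result {F U W : Type*} [Field F] [Fintype F] [AddCommGroup U] [Module F U] [FiniteDimensional F U] [AddCommGroup W] [Module F W] [FiniteDimensional F W] (B₁ : LinearMap.BilinForm F U) (B₂ : LinearMap.BilinForm F W) (h₁ : B₁.Nondegenerate) (h₂ : B₂.Nondegenerate) (hA₁ : B₁.IsAlt) (hA₂ : B₂.IsAlt) (k l : ℕ) (hU : Module.finrank F U = 2 * k) (hW : Module.finrank F W = 2 * l) : (B₁.tmul B₂).IsSymm ∧ (B₁.tmul B₂).Nondegenerate ∧ (∃ X : Submodule F (TensorProduct F U W), Module.finrank F X = 2 * k * l ∧ ∀ x ∈ X, ∀ y ∈ X, (B₁.tmul B₂) x y = 0) := by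
  classical
  have hsymm : (B₁.tmul B₂).IsSymm := by
    rw [LinearMap.isSymm_iff_eq_flip]
    refine TensorProduct.ext' ?_
    intro x₁ x₂
    refine TensorProduct.ext' ?_
    intro y₁ y₂
    change B₂ x₂ y₂ • B₁ x₁ y₁ = B₂ y₂ x₂ • B₁ y₁ x₁
    rw [← LinearMap.IsAlt.neg hA₁ x₁ y₁, ← LinearMap.IsAlt.neg hA₂ x₂ y₂, smul_eq_mul, smul_eq_mul]
    ring
  have hsep : (B₁.tmul B₂).SeparatingLeft := by
    intro x hx
    let b₁ := Module.finBasis F U
    let b₂ := Module.finBasis F W
    let d₁ := B₁.dualBasis h₁ b₁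
    let d₂ := B₂.dualBasis h₂ b₂
    let d := d₁.tensorProduct d₂
    have key : ∀ i j, (B₁.tmul B₂).flip (b₁ i ⊗ₜ b₂ j) = d.coord (i, j) := by
      intro i j
      apply d.ext
      rintro ⟨i', j'⟩
      have e1 : d (i', j') = d₁ i' ⊗ₜ d₂ j' := Basis.tensorProduct_apply _ _ _ _
      rw [Basis.coord_apply, Basis.repr_self, Finsupp.single_apply, LinearMap.flip_apply, e1]
      change B₂ (d₂ j') (b₂ j) • B₁ (d₁ i') (b₁ i) = _
      rw [LinearMap.BilinForm.apply_dualBasis_left, LinearMap.BilinForm.apply_dualBasis_left]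
      by_cases hi : i = i'
      · by_cases hj : j = j'
        · subst hi; subst hj; simp
        · have : (i', j') ≠ (i, j) := fun hh => hj (Prod.ext_iff.mp hh).2.symm
          simp [hj, this]
      · have : (i', j') ≠ (i, j) := fun hh => hi (Prod.ext_iff.mp hh).1.symm
        simp [hi, this]
    have hx0 : d.repr x = 0 := by
      ext p
      obtain ⟨i, j⟩ := p
      have h := hx (b₁ i ⊗ₜ b₂ j)
      have h2 := congrArg (fun f => f x) (key i j)
      simp only [LinearMap.flip_apply, Basis.coord_apply] at h2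
      rw [← h2, h]
      rfl
    exact d.repr.map_eq_zero_iff.mp hx0
  refine ⟨hsymm, (hsymm.isRefl.nondegenerate_iff_separatingLeft).mpr hsep, ?_⟩
  obtain ⟨L, hLk, hL⟩ := iso_exists B₁ h₁ hA₁ k hU k le_rfl
  refine ⟨LinearMap.range (LinearMap.rTensor W L.subtype), ?_, ?_⟩
  · rw [LinearMap.finrank_range_of_inj
      (Module.Flat.rTensor_preserves_injective_linearMap L.subtype L.subtype_injective),
      Module.finrank_tensorProduct, hLk, hW]
    ring
  · rintro _ ⟨s, rfl⟩ _ ⟨t, rfl⟩
    induction s using TensorProduct.induction_on with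
    | zero => simp
    | tmul a w =>
      induction t using TensorProduct.induction_on with
      | zero => simp
      | tmul a' w' =>
        rw [LinearMap.rTensor_tmul, LinearMap.rTensor_tmul]
        change B₂ w w' • B₁ a a' = 0
        rw [hL a a.2 a' a'.2, smul_zero]
      | add t₁ t₂ h₁ h₂ => rw [map_add, map_add, h₁, h₂, add_zero]
    | add s₁ s₂ h₁ h₂ => rw [map_add, map_add, LinearMap.add_apply, h₁, h₂, add_zero]

end Cfsg.Agent.S0833
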