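import Cfsg.Statements.S0836
import Mathlib


set_option autoImplicit false
open Cfsg

namespace Cfsg.Agent.S0836

theorem ring_comm {R : Type*} [Ring R] (A B : R) (hA : A * A = 0) (hB : B * B = 0)
    (hBA : B * A = 0) : (1 + A) * (1 + B) * (1 - A) * (1 - B) = 1 + A * B := by
  have h : (1 + A) * (1 + B) * (1 - A) * (1 - B) = 1 + A * B - A * A - B * A - A * (B * A)
      - B * B - A * (B * B) + A * A * B + B * A * B + A * (B * A) * B := by noncomm_ring
  rw [h, hA, hB, hBA]; simp

theorem sl_comm_of {n : ℕ} {F : Type*} [Field F]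
    (g₁ g₂ g₁' g₂' t : Matrix.SpecialLinearGroup (Fin n) F) (h1 : g₁ * g₁' = 1)
    (h2 : g₂ * g₂' = 1) (h : g₁ * g₂ * g₁' * g₂' = t) :
    t ∈ commutatorSet (Matrix.SpecialLinearGroup (Fin n) F) := by
  refine ⟨g₁, g₂, ?_⟩
  rw [commutatorElement_def, inv_eq_of_mul_eq_one_right h1, inv_eq_of_mul_eq_one_right h2]
  exact h

theorem transv01 {F : Type*} [Field F] (c : F) :
    Matrix.transvection (0 : Fin 2) 1 c = !![1, c; 0, 1] := by
  ext a b
  fin_cases a <;> fin_cases b <;> simp [Matrix.transvection, Matrix.single_apply]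

theorem transv10 {F : Type*} [Field F] (c : F) :
    Matrix.transvection (1 : Fin 2) 0 c = !![1, 0; c, 1] := by
  ext a b
  fin_cases a <;> fin_cases b <;> simp [Matrix.transvection, Matrix.single_apply]

/-- For i ≠ j and any scalar c, the elementary transvection 1 + c E_ij is a commutator ⁅g, h⁆ of two elements of SL_n(F) provided n ≥ 3, or n = 2 and F contains x ≠ 0 with x² ≠ 1. -/
theorem result {F : Type*} [Field F] (n : ℕ) (hn : 3 ≤ n ∨ (n = 2 ∧ ∃ x : F, x ≠ 0 ∧ x ^ 2 ≠ 1)) (i j : Fin n) (hij : i ≠ j) (c : F) (t : Matrix.SpecialLinearGroup (Fin n) F) (ht : (t : Matrix (Fin n) (Fin n) F) = Matrix.transvection i j c) : t ∈ commutatorSet (Matrix.SpecialLinearGroup (Fin n) F) := by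
  classical
  rcases hn with hn | ⟨rfl, x, hx, hx2⟩
  · obtain ⟨k, hk⟩ : ∃ k : Fin n, k ∉ ({i, j} : Finset (Fin n)) := by
      by_contra h
      push Not at h
      have h1 := Finset.card_le_card (fun y _ => h y : (Finset.univ : Finset (Fin n)) ⊆ {i, j})
      have h2 := Finset.card_le_two (a := i) (b := j)
      rw [Finset.card_univ, Fintype.card_fin] at h1
      omega
    rw [Finset.mem_insert, Finset.mem_singleton, not_or] at hk
    have hki : k ≠ i := hk.1
    have hkj : k ≠ j := hk.2
    refine sl_comm_of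
      ⟨Matrix.transvection i k c, Matrix.det_transvection_of_ne i k hki.symm c⟩
      ⟨Matrix.transvection k j 1, Matrix.det_transvection_of_ne k j hkj 1⟩
      ⟨Matrix.transvection i k (-c), Matrix.det_transvection_of_ne i k hki.symm (-c)⟩
      ⟨Matrix.transvection k j (-1), Matrix.det_transvection_of_ne k j hkj (-1)⟩ t ?_ ?_ ?_
    · apply Subtype.ext
      show Matrix.transvection i k c * Matrix.transvection i k (-c) = 1
      rw [Matrix.transvection_mul_transvection_same i k hki.symm, add_neg_cancel,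
        Matrix.transvection_zero]
    · apply Subtype.ext
      show Matrix.transvection k j 1 * Matrix.transvection k j (-1) = 1
      rw [Matrix.transvection_mul_transvection_same k j hkj, add_neg_cancel,
        Matrix.transvection_zero]
    · apply Subtype.ext
      show Matrix.transvection i k c * Matrix.transvection k j 1 * Matrix.transvection i k (-c) *
        Matrix.transvection k j (-1) = (t : Matrix (Fin n) (Fin n) F)
      rw [ht]
      unfold Matrix.transvection
      have e1 : Matrix.single i k (-c) = -Matrix.single i k c :=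
        map_neg (Matrix.singleAddMonoidHom i k) c
      have e2 : Matrix.single k j (-1 : F) = -Matrix.single k j (1 : F) :=
        map_neg (Matrix.singleAddMonoidHom k j) (1 : F)
      rw [e1, e2, ← sub_eq_add_neg, ← sub_eq_add_neg,
        ring_comm (Matrix.single i k c) (Matrix.single k j (1 : F))
          (Matrix.single_mul_single_of_ne c i k i hki c)
          (Matrix.single_mul_single_of_ne 1 k j k hkj.symm 1)
          (Matrix.single_mul_single_of_ne 1 k j i hij.symm c),
        Matrix.single_mul_single_same, mul_one]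
  · have hx2' : x ^ 2 - 1 ≠ 0 := sub_ne_zero.mpr hx2
    obtain ⟨b, hb⟩ : ∃ b : F, b = c / (x ^ 2 - 1) := ⟨_, rfl⟩
    have hi : i = 0 ∧ j = 1 ∨ i = 1 ∧ j = 0 := by
      fin_cases i <;> fin_cases j <;> simp at hij ⊢
    rcases hi with ⟨rfl, rfl⟩ | ⟨rfl, rfl⟩
    · refine sl_comm_of
        ⟨!![x, 0; 0, x⁻¹], by rw [Matrix.det_fin_two_of]; field_simp; ring⟩
        ⟨!![1, b; 0, 1], by rw [Matrix.det_fin_two_of]; ring⟩
        ⟨!![x⁻¹, 0; 0, x], by rw [Matrix.det_fin_two_of]; field_simp; ring⟩
        ⟨!![1, -b; 0, 1], by rw [Matrix.det_fin_two_of]; ring⟩ t ?_ ?_ ?_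
      · apply Subtype.ext
        show !![x, 0; 0, x⁻¹] * !![x⁻¹, 0; 0, x] = (1 : Matrix (Fin 2) (Fin 2) F)
        rw [Matrix.mul_fin_two, Matrix.one_fin_two]
        simp [hx]
      · apply Subtype.ext
        show !![1, b; 0, 1] * !![1, -b; 0, 1] = (1 : Matrix (Fin 2) (Fin 2) F)
        rw [Matrix.mul_fin_two, Matrix.one_fin_two]
        simp
      · apply Subtype.ext
        show !![x, 0; 0, x⁻¹] * !![1, b; 0, 1] * !![x⁻¹, 0; 0, x] * !![1, -b; 0, 1] =
          (t : Matrix (Fin 2) (Fin 2) F)
        rw [ht, transv01, Matrix.mul_fin_two, Matrix.mul_fin_two, Matrix.mul_fin_two]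
        ext a d
        fin_cases a <;> fin_cases d <;> simp [hb] <;> field_simp <;> ring
    · refine sl_comm_of
        ⟨!![x⁻¹, 0; 0, x], by rw [Matrix.det_fin_two_of]; field_simp; ring⟩
        ⟨!![1, 0; b, 1], by rw [Matrix.det_fin_two_of]; ring⟩
        ⟨!![x, 0; 0, x⁻¹], by rw [Matrix.det_fin_two_of]; field_simp; ring⟩
        ⟨!![1, 0; -b, 1], by rw [Matrix.det_fin_two_of]; ring⟩ t ?_ ?_ ?_
      · apply Subtype.ext
        show !![x⁻¹, 0; 0, x] * !![x, 0; 0, x⁻¹] = (1 : Matrix (Fin 2) (Fin 2) F)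
        rw [Matrix.mul_fin_two, Matrix.one_fin_two]
        simp [hx]
      · apply Subtype.ext
        show !![1, 0; b, 1] * !![1, 0; -b, 1] = (1 : Matrix (Fin 2) (Fin 2) F)
        rw [Matrix.mul_fin_two, Matrix.one_fin_two]
        simp
      · apply Subtype.ext
        show !![x⁻¹, 0; 0, x] * !![1, 0; b, 1] * !![x, 0; 0, x⁻¹] * !![1, 0; -b, 1] =
          (t : Matrix (Fin 2) (Fin 2) F)
        rw [ht, transv10, Matrix.mul_fin_two, Matrix.mul_fin_two, Matrix.mul_fin_two]
        ext a d
        fin_cases a <;> fin_cases d <;> simp [hb] <;> field_simp <;> ring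
end Cfsg.Agent.S0836
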