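import Cfsg.Statements.S0839
import Mathlib
import Cfsg.Agent.Lib.Helper4.TransvConj

set_option autoImplicit false
open Cfsg

namespace Cfsg.Agent.S0839

open Cfsg.Agent.Lib.Helper4 in

/-- Every transvection t ∈ SL_(n+2)(F) (rank(t − 1) = 1, (t − 1)² = 0) is conjugate in SL_(n+2)(F) to 1 + v·e_0ᵀ for some column vector v with v_0 = 0 (the group A of matrices that are the identity except in the first column below the diagonal); the dimension is written n + 2 ≥ 2. -/
theorem result {F : Type*} [Field F] (n : ℕ) (t : Matrix.SpecialLinearGroup (Fin (n + 2)) F) (ht : Cfsg.IsTransvection (t : Matrix (Fin (n + 2)) (Fin (n + 2)) F)) : ∃ (g : Matrix.SpecialLinearGroup (Fin (n + 2)) F) (v : Fin (n + 2) → F), v 0 = 0 ∧ ((g⁻¹ * t * g : Matrix.SpecialLinearGroup (Fin (n + 2)) F) : Matrix (Fin (n + 2)) (Fin (n + 2)) F) = 1 + Matrix.vecMulVec v (Pi.single 0 1) := by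
  classical
  have conj : ∀ (k : ℕ) (x g : Matrix.SpecialLinearGroup (Fin k) F) (M : Matrix (Fin k) (Fin k) F),
      (x : Matrix (Fin k) (Fin k) F) * (g : Matrix (Fin k) (Fin k) F) =
        (g : Matrix (Fin k) (Fin k) F) * M →
      ((g⁻¹ * x * g : Matrix.SpecialLinearGroup (Fin k) F) : Matrix (Fin k) (Fin k) F) = M := by
    intro k x g M h1
    rw [Matrix.SpecialLinearGroup.coe_mul, Matrix.SpecialLinearGroup.coe_mul, Matrix.mul_assoc,
      h1, ← Matrix.mul_assoc, ← Matrix.SpecialLinearGroup.coe_mul, inv_mul_cancel,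
      Matrix.SpecialLinearGroup.coe_one, Matrix.one_mul]
  rcases n with _ | m
  · -- the 2 x 2 case
    obtain ⟨hr, hsq⟩ := ht
    obtain ⟨N, hN⟩ : ∃ N : Matrix (Fin 2) (Fin 2) F,
        N = (t : Matrix (Fin 2) (Fin 2) F) - 1 := ⟨_, rfl⟩
    have hr' : N.rank = 1 := by rw [hN]; exact hr
    have hsq' : N * N = 0 := by rw [hN]; exact hsq
    have hT : (t : Matrix (Fin 2) (Fin 2) F) = 1 + N := by rw [hN]; abel
    have h00 := congrFun (congrFun hsq' 0) 0
    have h01 := congrFun (congrFun hsq' 0) 1
    have h10 := congrFun (congrFun hsq' 1) 0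
    have h11 := congrFun (congrFun hsq' 1) 1
    simp only [Matrix.mul_apply, Fin.sum_univ_two, Matrix.zero_apply] at h00 h01 h10 h11
    have hdet : N 0 0 * N 1 1 - N 0 1 * N 1 0 = 0 := by
      have h := congrArg Matrix.det hsq'
      rw [Matrix.det_mul, Matrix.det_zero, Matrix.det_fin_two] at h
      exact mul_self_eq_zero.mp h
    have htr : N 0 0 + N 1 1 = 0 := by
      by_contra hne
      have e00 : N 0 0 = 0 := by
        have : N 0 0 * (N 0 0 + N 1 1) = 0 := by linear_combination h00 + hdet
        exact (mul_eq_zero.mp this).resolve_right hne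
      have e11 : N 1 1 = 0 := by
        have : N 1 1 * (N 0 0 + N 1 1) = 0 := by linear_combination h11 + hdet
        exact (mul_eq_zero.mp this).resolve_right hne
      have e01 : N 0 1 = 0 := by
        have : N 0 1 * (N 0 0 + N 1 1) = 0 := by linear_combination h01
        exact (mul_eq_zero.mp this).resolve_right hne
      have e10 : N 1 0 = 0 := by
        have : N 1 0 * (N 0 0 + N 1 1) = 0 := by linear_combination h10
        exact (mul_eq_zero.mp this).resolve_right hne
      have hN0 : N = 0 := by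
        ext i j
        fin_cases i <;> fin_cases j <;> simp [e00, e01, e10, e11]
      rw [hN0, Matrix.rank_zero] at hr'
      exact zero_ne_one hr'
    have hNeta : N = !![N 0 0, N 0 1; N 1 0, N 1 1] := Matrix.eta_fin_two N
    have hvm : ∀ x : F, (1 + Matrix.vecMulVec ![0, x] (Pi.single 0 1) :
        Matrix (Fin 2) (Fin 2) F) = !![1, 0; x, 1] := by
      intro x
      ext i j
      rw [Matrix.add_apply, Matrix.vecMulVec_apply]
      fin_cases i <;> fin_cases j <;> simp [Matrix.one_apply, Pi.single_apply]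
    by_cases hc : N 1 0 = 0
    · have e00 : N 0 0 = 0 := by
        have : N 0 0 * N 0 0 = 0 := by
          rw [hc] at h00
          linear_combination h00
        exact mul_self_eq_zero.mp this
      have e11 : N 1 1 = 0 := by linear_combination htr - e00
      obtain ⟨g, hg⟩ : ∃ g : Matrix.SpecialLinearGroup (Fin 2) F,
          (g : Matrix (Fin 2) (Fin 2) F) = !![0, -1; 1, 0] :=
        ⟨⟨!![0, -1; 1, 0], by simp [Matrix.det_fin_two]⟩, rfl⟩
      refine ⟨g, ![0, -(N 0 1)], rfl, ?_⟩
      apply conj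
      rw [hT, hg, hNeta, e00, e11, hc, hvm]
      ext i j
      fin_cases i <;> fin_cases j <;>
        simp [Matrix.mul_apply, Fin.sum_univ_two, Matrix.one_apply]
    · obtain ⟨g, hg⟩ : ∃ g : Matrix.SpecialLinearGroup (Fin 2) F,
          (g : Matrix (Fin 2) (Fin 2) F) = !![1, N 0 0 / N 1 0; 0, 1] :=
        ⟨⟨!![1, N 0 0 / N 1 0; 0, 1], by simp [Matrix.det_fin_two]⟩, rfl⟩
      refine ⟨g, ![0, N 1 0], rfl, ?_⟩
      apply conj
      have e11 : N 1 1 = - N 0 0 := by linear_combination htr
      rw [hT, hg, hNeta, e11, hvm]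
      ext i j
      fin_cases i <;> fin_cases j
      · simp [Matrix.mul_apply, Fin.sum_univ_two, Matrix.one_apply]
        field_simp
      · simp [Matrix.mul_apply, Fin.sum_univ_two, Matrix.one_apply]
        field_simp
        linear_combination h00
      · simp [Matrix.mul_apply, Fin.sum_univ_two, Matrix.one_apply]
      · simp [Matrix.mul_apply, Fin.sum_univ_two, Matrix.one_apply]
        field_simp
        ring
  · obtain ⟨g, hg1, hg2⟩ := rank_one_sq_zero_normal_form (m := m) _ ht.1 ht.2
    obtain ⟨G, hG⟩ : ∃ G : Matrix.SpecialLinearGroup (Fin (m + 1 + 2)) F,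
        (G : Matrix (Fin (m + 1 + 2)) (Fin (m + 1 + 2)) F) = g := ⟨⟨g, hg1⟩, rfl⟩
    refine ⟨G, Pi.single 1 1, ?_, ?_⟩
    · rw [Pi.single_apply, if_neg]
      intro h
      exact absurd (congrArg Fin.val h) (by simp)
    · apply conj
      rw [← Matrix.single_eq_single_vecMulVec_single]
      have h0 : (t : Matrix (Fin (m + 1 + 2)) (Fin (m + 1 + 2)) F) =
          ((t : Matrix (Fin (m + 1 + 2)) (Fin (m + 1 + 2)) F) - 1) + 1 := by abel
      rw [hG, h0, Matrix.add_mul, hg2, Matrix.mul_add, Matrix.one_mul, Matrix.mul_one]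
      exact add_comm _ _

end Cfsg.Agent.S0839
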