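import Cfsg.Statements.S0840
import Mathlib
import Cfsg.Agent.Lib.Lead.CharMisc


set_option autoImplicit false
open scoped ComplexConjugate
open Cfsg

namespace Cfsg.Agent.S0840

/-- Class multiplication coefficients from the character table: for elements a, b, c of a finite group G, the number of ordered pairs (x, y) with x conjugate to a, y conjugate to b and x * y = c equals the product of the sizes of the conjugacy classes of a and b, divided by the order of G, times the sum over the irreducible characters χ of χ a * χ b * conj (χ c) / χ 1. -/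
theorem result {G : Type*} [Group G] [Finite G] (a b c : G) : (Nat.card {p : G × G // IsConj a p.1 ∧ IsConj b p.2 ∧ p.1 * p.2 = c} : ℂ) = (Nat.card {x : G // IsConj a x} : ℂ) * (Nat.card {x : G // IsConj b x} : ℂ) / (Nat.card G : ℂ) * ∑ᶠ χ : Cfsg.IrrCharacter G, (χ : G → ℂ) a * (χ : G → ℂ) b * conj ((χ : G → ℂ) c) / (χ : G → ℂ) 1 := by
  classical
  haveI := Fintype.ofFinite G
  haveI := Fintype.ofFinite (Cfsg.IrrCharacter G)
  rw [finsum_eq_sum_of_fintype]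
  have hG : (Nat.card G : ℂ) ≠ 0 := by exact_mod_cast Nat.card_pos.ne'
  -- Step A
  have hA : ∀ χ : Cfsg.IrrCharacter G,
      ∑ v : G, ∑ u : G, (χ : G → ℂ) (u * a * u⁻¹ * (v * b * v⁻¹ * c⁻¹)) =
      (Nat.card G : ℂ) ^ 2 * ((χ : G → ℂ) a * (χ : G → ℂ) b * conj ((χ : G → ℂ) c) /
        (χ : G → ℂ) 1) / (χ : G → ℂ) 1 := by
    intro χ
    obtain ⟨n, ρ, hρ, hχ⟩ := χ.2
    haveI := hρ
    have hn : (χ : G → ℂ) 1 = (n : ℂ) := by
      rw [← hχ, Representation.char_one, Module.finrank_fin_fun]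
    have h1 : ∀ v : G, ∑ u : G, (χ : G → ℂ) (u * a * u⁻¹ * (v * b * v⁻¹ * c⁻¹)) =
        (Nat.card G : ℂ) * (χ : G → ℂ) a / (n : ℂ) * (χ : G → ℂ) (v * b * v⁻¹ * c⁻¹) := by
      intro v
      rw [← hχ]
      have h := Cfsg.Agent.Lib.Lead.sum_char_conj_mul ρ a (v * b * v⁻¹ * c⁻¹)
      rw [Module.finrank_fin_fun] at h
      rw [h]; ring
    rw [Finset.sum_congr rfl (fun v _ => h1 v), ← Finset.mul_sum]
    have h2 := Cfsg.Agent.Lib.Lead.sum_char_conj_mul ρ b c⁻¹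
    rw [Module.finrank_fin_fun, hχ] at h2
    have h3 : (χ : G → ℂ) c⁻¹ = conj ((χ : G → ℂ) c) := by
      rw [← hχ]; exact Cfsg.Agent.Lib.Lead.char_inv ρ c
    rw [h2, h3, hn]; ring
  -- Step B
  have hB : ∀ g : G, ∑ χ : Cfsg.IrrCharacter G, (χ : G → ℂ) 1 * (χ : G → ℂ) g =
      if g = 1 then (Nat.card G : ℂ) else 0 := by
    intro g
    have h1 := Cfsg.Agent.Lib.Lead.column_orthogonality_sum g (1 : G)
    have h2 : ∀ χ : Cfsg.IrrCharacter G, (χ : G → ℂ) g * conj ((χ : G → ℂ) 1) =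
        (χ : G → ℂ) 1 * (χ : G → ℂ) g := by
      intro χ
      obtain ⟨n, _, hn⟩ := Cfsg.Agent.Lib.Lead.irr_one χ.2
      rw [hn, Complex.conj_natCast, mul_comm]
    rw [Finset.sum_congr rfl (fun χ _ => h2 χ)] at h1
    rw [h1]
    by_cases hg : g = 1
    · rw [if_pos hg, hg, Cfsg.Agent.Lib.Lead.conjCount_apply_of_isConj (IsConj.refl 1),
        Cfsg.Agent.Lib.Lead.card_centralizer_one]
    · rw [if_neg hg]
      apply Cfsg.Agent.Lib.Lead.conjCount_apply_of_not_isConj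
      intro hc
      exact hg (isConj_one_left.mp hc)
  -- names
  obtain ⟨ca, hca⟩ : ∃ ca : ℂ, ca = (Nat.card (Subgroup.centralizer ({a} : Set G)) : ℂ) := ⟨_, rfl⟩
  obtain ⟨cb, hcb⟩ : ∃ cb : ℂ, cb = (Nat.card (Subgroup.centralizer ({b} : Set G)) : ℂ) := ⟨_, rfl⟩
  have hca0 : ca ≠ 0 := by rw [hca]; exact_mod_cast Nat.card_pos.ne'
  have hcb0 : cb ≠ 0 := by rw [hcb]; exact_mod_cast Nat.card_pos.ne'
  have hcc : ∀ (a x : G), Cfsg.Agent.Lib.Lead.conjCount a x =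
      if IsConj a x then (Nat.card (Subgroup.centralizer ({a} : Set G)) : ℂ) else 0 := by
    intro a x
    by_cases h : IsConj a x
    · rw [if_pos h]
      obtain ⟨z, hz⟩ := isConj_iff.mp h
      rw [← hz, Cfsg.Agent.Lib.Lead.conjCount_classFun a a z]
      exact Cfsg.Agent.Lib.Lead.conjCount_apply_of_isConj (IsConj.refl a)
    · rw [if_neg h]
      exact Cfsg.Agent.Lib.Lead.conjCount_apply_of_not_isConj (fun h' => h h'.symm)
  -- Step D
  have hN : (Nat.card {p : G × G // IsConj a p.1 ∧ IsConj b p.2 ∧ p.1 * p.2 = c} : ℂ) =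
      ∑ p : G × G, if IsConj a p.1 ∧ IsConj b p.2 ∧ p.1 * p.2 = c then (1 : ℂ) else 0 := by
    rw [Nat.card_eq_fintype_card, Fintype.card_subtype, Finset.card_filter]
    push_cast
    rfl
  have hD : ∑ s : G × G, (if s.1 * a * s.1⁻¹ * (s.2 * b * s.2⁻¹) = c then (1 : ℂ) else 0) =
      ca * cb * (Nat.card {p : G × G // IsConj a p.1 ∧ IsConj b p.2 ∧ p.1 * p.2 = c} : ℂ) := by
    have h1 := Cfsg.Agent.Lib.Lead.sum_card_fiber_mul
      (fun s : G × G => (s.1 * a * s.1⁻¹, s.2 * b * s.2⁻¹))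
      (fun p : G × G => if p.1 * p.2 = c then (1 : ℂ) else 0)
    simp only at h1
    rw [← h1, hN, Finset.mul_sum]
    apply Finset.sum_congr rfl
    intro p _
    have h2 : (Nat.card {s : G × G // (s.1 * a * s.1⁻¹, s.2 * b * s.2⁻¹) = p} : ℂ) =
        Cfsg.Agent.Lib.Lead.conjCount a p.1 * Cfsg.Agent.Lib.Lead.conjCount b p.2 := by
      unfold Cfsg.Agent.Lib.Lead.conjCount
      rw [← Nat.cast_mul, ← Nat.card_prod]
      congr 1
      apply Nat.card_congr
      exact (Equiv.subtypeEquivRight (fun s => by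
        show _ ↔ (s.1 * a * s.1⁻¹ = p.1 ∧ s.2 * b * s.2⁻¹ = p.2)
        exact Prod.ext_iff)).trans Equiv.subtypeProdEquivProd
    rw [h2, hcc a p.1, hcc b p.2, ← hca, ← hcb]
    by_cases hall : IsConj a p.1 ∧ IsConj b p.2 ∧ p.1 * p.2 = c
    · rw [if_pos hall, if_pos hall.1, if_pos hall.2.1, if_pos hall.2.2]
    · rw [if_neg hall, mul_zero]
      by_cases ha : IsConj a p.1
      · by_cases hb : IsConj b p.2
        · have hc : ¬ p.1 * p.2 = c := fun hc => hall ⟨ha, hb, hc⟩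
          rw [if_neg hc, mul_zero]
        · rw [if_neg hb, mul_zero, zero_mul]
      · rw [if_neg ha, zero_mul, zero_mul]
  -- Step C
  have hC : ∑ χ : Cfsg.IrrCharacter G, (χ : G → ℂ) 1 *
      ∑ v : G, ∑ u : G, (χ : G → ℂ) (u * a * u⁻¹ * (v * b * v⁻¹ * c⁻¹)) =
      (Nat.card G : ℂ) * (ca * cb *
        (Nat.card {p : G × G // IsConj a p.1 ∧ IsConj b p.2 ∧ p.1 * p.2 = c} : ℂ)) := by
    rw [← hD]
    simp_rw [Finset.mul_sum]
    rw [Finset.sum_comm]
    rw [Fintype.sum_prod_type_right]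
    apply Finset.sum_congr rfl
    intro v _
    rw [Finset.sum_comm]
    apply Finset.sum_congr rfl
    intro u _
    rw [hB]
    have e : (u * a * u⁻¹ * (v * b * v⁻¹ * c⁻¹) = 1) ↔ (u * a * u⁻¹ * (v * b * v⁻¹) = c) := by
      constructor
      · intro h
        have : u * a * u⁻¹ * (v * b * v⁻¹) = (u * a * u⁻¹ * (v * b * v⁻¹ * c⁻¹)) * c := by group
        rw [this, h, one_mul]
      · intro h
        have : u * a * u⁻¹ * (v * b * v⁻¹ * c⁻¹) = (u * a * u⁻¹ * (v * b * v⁻¹)) * c⁻¹ := by group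
        rw [this, h, mul_inv_cancel]
    by_cases h : u * a * u⁻¹ * (v * b * v⁻¹) = c
    · rw [if_pos (e.2 h), if_pos h, mul_one]
    · rw [if_neg (fun h' => h (e.1 h')), if_neg h, mul_zero]
  -- assemble
  have hC2 : ∑ χ : Cfsg.IrrCharacter G, (χ : G → ℂ) 1 *
      ∑ v : G, ∑ u : G, (χ : G → ℂ) (u * a * u⁻¹ * (v * b * v⁻¹ * c⁻¹)) =
      (Nat.card G : ℂ) ^ 2 * ∑ χ : Cfsg.IrrCharacter G,
        (χ : G → ℂ) a * (χ : G → ℂ) b * conj ((χ : G → ℂ) c) / (χ : G → ℂ) 1 := by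
    rw [Finset.mul_sum]
    apply Finset.sum_congr rfl
    intro χ _
    rw [hA χ]
    obtain ⟨n, hn0, hn⟩ := Cfsg.Agent.Lib.Lead.irr_one χ.2
    have hn' : (χ : G → ℂ) 1 ≠ 0 := by rw [hn]; exact_mod_cast hn0
    field_simp
  have hKa : (Nat.card {x : G // IsConj a x} : ℂ) * ca = (Nat.card G : ℂ) := by
    rw [hca, ← Nat.cast_mul]
    congr 1
    rw [← Cfsg.Agent.Lib.Lead.card_class_mul_card_centralizer a]
    congr 1
    exact Nat.card_congr (Equiv.subtypeEquivRight (fun x => isConj_comm))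
  have hKb : (Nat.card {x : G // IsConj b x} : ℂ) * cb = (Nat.card G : ℂ) := by
    rw [hcb, ← Nat.cast_mul]
    congr 1
    rw [← Cfsg.Agent.Lib.Lead.card_class_mul_card_centralizer b]
    congr 1
    exact Nat.card_congr (Equiv.subtypeEquivRight (fun x => isConj_comm))
  rw [hC] at hC2
  obtain ⟨Sg, hSg⟩ : ∃ s : ℂ, s = ∑ χ : Cfsg.IrrCharacter G,
        (χ : G → ℂ) a * (χ : G → ℂ) b * conj ((χ : G → ℂ) c) / (χ : G → ℂ) 1 := ⟨_, rfl⟩
  rw [← hSg] at hC2 ⊢
  obtain ⟨N, hNN⟩ : ∃ N : ℂ, N = (Nat.card {p : G × G // IsConj a p.1 ∧ IsConj b p.2 ∧ p.1 * p.2 = c} : ℂ) := ⟨_, rfl⟩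
  rw [← hNN] at hC2 ⊢
  have hKa' : (Nat.card {x : G // IsConj a x} : ℂ) = (Nat.card G : ℂ) / ca := by
    rw [← hKa]; field_simp
  have hKb' : (Nat.card {x : G // IsConj b x} : ℂ) = (Nat.card G : ℂ) / cb := by
    rw [← hKb]; field_simp
  rw [hKa', hKb']
  have h5 : Sg = ca * cb * N / (Nat.card G : ℂ) := by
    field_simp
    have : (Nat.card G : ℂ) * (ca * cb * N) = (Nat.card G : ℂ) * ((Nat.card G : ℂ) * Sg) := by
      rw [hC2]; ring
    have h6 := mul_left_cancel₀ hG this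
    rw [h6]; ring
  rw [h5]
  field_simp
end Cfsg.Agent.S0840
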