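import Cfsg.Statements.S0849
import Mathlib
import Cfsg.Agent.Lib.Lead.SylowAux2
import Cfsg.Agent.Lib.Lead.CharInd

set_option autoImplicit false
open Cfsg Cfsg.Agent.Lib.Lead

namespace Cfsg.Agent.S0849

open scoped Pointwise commutatorElement

/-- Let H be a subgroup of a finite group G and S a subset of H that is mapped to itself under conjugation by H, is disjoint from its conjugate by any element outside H, and is closed under inverses. Let φ be a class function of H vanishing on H away from S, and let u, v be involutions of G. Then the sum of the induced function of φ over all products a * b with a conjugate to u and b conjugate to v equals the index of H times the sum of φ (a * b) over such pairs with a and b in H. -/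
theorem result {G : Type*} [Group G] [Fintype G] (H : Subgroup G) (S : Set G) (hSH : S ⊆ H) (hHS : ∀ h ∈ H, ∀ s ∈ S, h * s * h⁻¹ ∈ S) (hTI : ∀ g : G, g ∉ H → ∀ s ∈ S, g * s * g⁻¹ ∉ S) (hinv : ∀ s ∈ S, s⁻¹ ∈ S) (φ : H → ℂ) (hφ : Cfsg.IsClassFunction H φ) (hφS : ∀ x : H, (x : G) ∉ S → φ x = 0) (u v : G) (hu : orderOf u = 2) (hv : orderOf v = 2) : ∑ᶠ p ∈ {p : G × G | IsConj u p.1 ∧ IsConj v p.2}, Cfsg.indFun H φ (p.1 * p.2) = (H.index : ℂ) * ∑ᶠ p ∈ {p : H × H | IsConj u (p.1 : G) ∧ IsConj v (p.2 : G)}, φ (p.1 * p.2) := by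
  classical
  rw [finsum_mem_def, finsum_mem_def, finsum_eq_sum_of_fintype, finsum_eq_sum_of_fintype]
  have hF : ∀ a b : G, IsConj u a → IsConj v b → Cfsg.extendByZero H φ (a * b) ≠ 0 →
      a ∈ H ∧ b ∈ H := by
    intro a b ha hb hne
    have habH : a * b ∈ H := by
      by_contra h
      exact hne (extendByZero_not_mem H φ h)
    have habS : a * b ∈ S := by
      by_contra h
      apply hne
      rw [extendByZero_mem H φ habH]
      exact hφS ⟨a * b, habH⟩ h
    have ha2 : a * a = 1 := by
      have h2 : orderOf a = 2 := by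
        obtain ⟨c, hc⟩ := isConj_iff.mp ha
        rw [← hc, orderOf_conj_eq]
        exact hu
      rw [← pow_two, ← h2]; exact pow_orderOf_eq_one a
    have hb2 : b * b = 1 := by
      have h2 : orderOf b = 2 := by
        obtain ⟨c, hc⟩ := isConj_iff.mp hb
        rw [← hc, orderOf_conj_eq]
        exact hv
      rw [← pow_two, ← h2]; exact pow_orderOf_eq_one b
    have haH : a ∈ H := by
      by_contra h
      apply hTI a h (a * b) habS
      have e : a * (a * b) * a⁻¹ = (a * b)⁻¹ := by
        have ha' : a⁻¹ = a := inv_eq_of_mul_eq_one_left ha2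
        have hb' : b⁻¹ = b := inv_eq_of_mul_eq_one_left hb2
        rw [mul_inv_rev, ha', hb', ← mul_assoc, ha2, one_mul]
      rw [e]; exact hinv _ habS
    refine ⟨haH, ?_⟩
    have e : b = a⁻¹ * (a * b) := by group
    rw [e]; exact H.mul_mem (H.inv_mem haH) habH
  have hconj : ∀ (w a x : G), IsConj w a ↔ IsConj w (x⁻¹ * a * x) := by
    intro w a x
    constructor
    · intro h
      exact h.trans (isConj_iff.mpr ⟨x⁻¹, by simp⟩)
    · intro h
      exact h.trans (isConj_iff.mpr ⟨x, by group⟩)
  have hT : ∀ x : G, ∑ p : G × G, (if IsConj u p.1 ∧ IsConj v p.2 then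
      Cfsg.extendByZero H φ (x⁻¹ * (p.1 * p.2) * x) else 0) =
      ∑ p : G × G, (if IsConj u p.1 ∧ IsConj v p.2 then
        Cfsg.extendByZero H φ (p.1 * p.2) else 0) := by
    intro x
    apply Fintype.sum_equiv (Equiv.prodCongr (MulAut.conj x⁻¹).toEquiv (MulAut.conj x⁻¹).toEquiv)
    rintro ⟨a, b⟩
    simp only [Equiv.prodCongr_apply, Prod.map_apply, MulEquiv.toEquiv_eq_coe,
      MulEquiv.coe_toEquiv, MulAut.conj_apply, inv_inv]
    have e : x⁻¹ * a * x * (x⁻¹ * b * x) = x⁻¹ * (a * b) * x := by group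
    rw [e]
    exact if_congr (and_congr (hconj u a x) (hconj v b x)) rfl rfl
  have hL : ∑ p : G × G, Set.indicator {p : G × G | IsConj u p.1 ∧ IsConj v p.2}
      (fun p => Cfsg.indFun H φ (p.1 * p.2)) p = (Nat.card H : ℂ)⁻¹ * ∑ x : G, ∑ p : G × G,
        (if IsConj u p.1 ∧ IsConj v p.2 then
          Cfsg.extendByZero H φ (x⁻¹ * (p.1 * p.2) * x) else 0) := by
    rw [Finset.sum_comm, Finset.mul_sum]
    apply Finset.sum_congr rfl
    intro p _
    rw [Set.indicator_apply]
    simp only [Set.mem_ofPred_eq]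
    split_ifs with h
    · rfl
    · simp
  have hR : ∑ q : H × H, Set.indicator {p : H × H | IsConj u (p.1 : G) ∧ IsConj v (p.2 : G)}
      (fun p => φ (p.1 * p.2)) q = ∑ p : G × G, (if IsConj u p.1 ∧ IsConj v p.2 then
        Cfsg.extendByZero H φ (p.1 * p.2) else 0) := by
    apply Finset.sum_of_injOn (fun q : H × H => ((q.1 : G), (q.2 : G)))
    · intro q₁ _ q₂ _ h
      simp only [Prod.mk.injEq] at h
      exact Prod.ext (Subtype.ext h.1) (Subtype.ext h.2)
    · intro _ _; exact Finset.mem_univ _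
    · rintro ⟨a, b⟩ _ hnot
      by_cases hc : IsConj u a ∧ IsConj v b
      · rw [if_pos hc]
        by_contra hne
        obtain ⟨ha, hb⟩ := hF a b hc.1 hc.2 hne
        exact hnot ⟨(⟨a, ha⟩, ⟨b, hb⟩), by simp, rfl⟩
      · rw [if_neg hc]
    · intro q _
      rw [Set.indicator_apply]
      simp only [Set.mem_ofPred_eq]
      split_ifs with h
      · have h3 := extendByZero_mem H φ (H.mul_mem q.1.2 q.2.2)
        rw [h3]
        rfl
      · rfl
  rw [hL, hR]
  rw [Finset.sum_congr rfl (fun x _ => hT x)]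
  rw [Finset.sum_const, Finset.card_univ, nsmul_eq_mul, ← mul_assoc]
  congr 1
  have h1 := Subgroup.card_mul_index H
  have h2 : (Nat.card H : ℂ) ≠ 0 := by
    have := Nat.card_pos (α := H); exact_mod_cast this.ne'
  rw [← Nat.card_eq_fintype_card, ← h1]
  push_cast
  field_simp

end Cfsg.Agent.S0849
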