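import Cfsg.Statements.S0850
import Mathlib
import Cfsg.Agent.Lib.Lead.CharInd2


set_option autoImplicit false
open Cfsg

namespace Cfsg.Agent.S0850

theorem part1 {G : Type*} [Group G] [Finite G] (K : Subgroup G)
    (hTI : ∀ g : G, g ∉ Subgroup.normalizer (K : Set G) → ∀ k ∈ K, g * k * g⁻¹ ∈ K → k = 1)
    (hC : ∀ k ∈ K, k ≠ 1 → Subgroup.centralizer ({k} : Set G) ≤ K)
    (x : G) (hx : x ∈ Subgroup.normalizer (K : Set G)) (hxK : x ∉ K) (g : G) :
    g * x * g⁻¹ ∉ K := by
  classical
  intro hy
  have hx1 : x ≠ 1 := fun h => hxK (h ▸ K.one_mem)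
  have hgN : g ∉ Subgroup.normalizer (K : Set G) := fun hg =>
    hxK ((Subgroup.mem_normalizer_iff.1 hg x).2 hy)
  have hord : orderOf x ≠ 1 := fun h => hx1 (orderOf_eq_one_iff.1 h)
  obtain ⟨p, hp, hpd⟩ := Nat.exists_prime_and_dvd hord
  haveI : Fact p.Prime := ⟨hp⟩
  have hxpos : orderOf x ≠ 0 := (orderOf_pos x).ne'
  obtain ⟨z, hz⟩ : ∃ z, z = x ^ (orderOf x / p) := ⟨_, rfl⟩
  have hzord : orderOf z = p := by rw [hz]; exact orderOf_pow_orderOf_div hxpos hpd
  have hzN : z ∈ Subgroup.normalizer (K : Set G) := by rw [hz]; exact pow_mem hx _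
  have hgz : g * z * g⁻¹ ∈ K := by rw [hz, ← conj_pow]; exact pow_mem hy _
  have hz1 : z ≠ 1 := by
    intro h; rw [h, orderOf_one] at hzord; exact hp.one_lt.ne hzord
  have hzK : z ∉ K := fun h => hz1 (hTI g hgN z h hgz)
  have hzp : z ^ p = 1 := by rw [← hzord]; exact pow_orderOf_eq_one z
  have hpK : p ∣ Nat.card K := by
    have h1 : orderOf (⟨g * z * g⁻¹, hgz⟩ : K) = p := by
      apply orderOf_eq_prime
      · apply Subtype.ext
        simp only [Subgroup.coe_pow, Subgroup.coe_one]
        rw [conj_pow, hzp]; group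
      · intro h
        have h2 := congrArg Subtype.val h
        simp only [Subgroup.coe_one] at h2
        apply hz1
        have : z = g⁻¹ * (g * z * g⁻¹) * g := by group
        rw [this, h2]; group
    rw [← h1]; exact orderOf_dvd_natCard _
  let σ : Equiv.Perm K :=
    { toFun := fun k => ⟨z * k * z⁻¹, (Subgroup.mem_normalizer_iff.1 hzN k).1 k.2⟩
      invFun := fun k => ⟨z⁻¹ * k * z, (Subgroup.mem_normalizer_iff.1 hzN _).2 (by
        have : z * (z⁻¹ * (k : G) * z) * z⁻¹ = k := by group
        rw [this]; exact k.2)⟩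
      left_inv := fun k => by apply Subtype.ext; simp only; group
      right_inv := fun k => by apply Subtype.ext; simp only; group }
  have hσ : ∀ (n : ℕ) (k : K), (((σ ^ n) k : K) : G) = z ^ n * k * (z ^ n)⁻¹ := by
    intro n
    induction n with
    | zero => intro k; simp
    | succ n ih =>
      intro k
      rw [pow_succ', Equiv.Perm.mul_apply]
      show z * ((σ ^ n) k : G) * z⁻¹ = _
      rw [ih k, pow_succ']; group
  have hσp : σ ^ p ^ 1 = 1 := by
    ext k
    rw [pow_one, hσ p k, hzp]; simp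
  haveI : Fintype K := Fintype.ofFinite K
  have hpK' : p ∣ Fintype.card K := by rw [← Nat.card_eq_fintype_card]; exact hpK
  have h1 : σ 1 = 1 := by
    apply Subtype.ext
    show z * ((1 : K) : G) * z⁻¹ = ((1 : K) : G)
    simp
  obtain ⟨b, hb, hb1⟩ := Equiv.Perm.exists_fixed_point_of_prime' hpK' hσp h1
  have hb' : z * (b : G) * z⁻¹ = b := congrArg Subtype.val hb
  have hb1' : (b : G) ≠ 1 := fun h => hb1 (Subtype.ext h)
  apply hzK
  apply hC b b.2 hb1'
  rw [Subgroup.mem_centralizer_iff]
  intro y hy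
  rw [Set.mem_singleton_iff] at hy
  rw [hy]
  calc (b : G) * z = (z * b * z⁻¹) * z := by rw [hb']
    _ = z * b := by group

/-- Let K be a subgroup of the finite group G that meets each conjugate by an element outside its normalizer N trivially, is properly contained in N, and contains the centralizer of each of its non-identity elements (a T.I. subgroup with Frobenius normalizer). Then no element of N outside K is conjugate in G to an element of K, and for every class function ϑ of N that vanishes on N away from K and at the identity, the function induced from ϑ to G agrees with ϑ on all of N. -/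
theorem result {G : Type*} [Group G] [Fintype G] (K : Subgroup G) (hTI : ∀ g : G, g ∉ Subgroup.normalizer (K : Set G) → ∀ k ∈ K, g * k * g⁻¹ ∈ K → k = 1) (hlt : K < Subgroup.normalizer (K : Set G)) (hC : ∀ k ∈ K, k ≠ 1 → Subgroup.centralizer ({k} : Set G) ≤ K) : (∀ x ∈ Subgroup.normalizer (K : Set G), x ∉ K → ∀ g : G, g * x * g⁻¹ ∉ K) ∧ ∀ (ϑ : Subgroup.normalizer (K : Set G) → ℂ), Cfsg.IsClassFunction (Subgroup.normalizer (K : Set G)) ϑ → (∀ x : Subgroup.normalizer (K : Set G), (x : G) ∉ K → ϑ x = 0) → ϑ 1 = 0 → ∀ x : Subgroup.normalizer (K : Set G), Cfsg.indFun (Subgroup.normalizer (K : Set G)) ϑ x = ϑ x := by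
  classical
  have hp1 := part1 K hTI hC
  refine ⟨fun x hx hxK g => hp1 x hx hxK g, ?_⟩
  intro ϑ hϑ hϑK hϑ1 x
  by_cases hxK : (x : G) ∈ K
  · by_cases hx1 : x = 1
    · rw [hx1, hϑ1]
      unfold Cfsg.indFun
      have : ∀ y : G, Cfsg.extendByZero (Subgroup.normalizer (K : Set G)) ϑ
          (y⁻¹ * ((1 : Subgroup.normalizer (K : Set G)) : G) * y) = 0 := by
        intro y
        have h1 : y⁻¹ * ((1 : Subgroup.normalizer (K : Set G)) : G) * y = 1 := by simp
        rw [h1, Cfsg.Agent.Lib.Lead.extendByZero_mem _ ϑ (Subgroup.one_mem _)]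
        exact hϑ1
      simp only [this, Finset.sum_const_zero, mul_zero]
    · exact Cfsg.Agent.Lib.Lead.indFun_TI (Subgroup.normalizer (K : Set G)) (K : Set G)
        (fun g hg t ht h => hTI g hg t ht h) ϑ hϑ hϑK x hxK hx1
  · rw [hϑK x hxK]
    unfold Cfsg.indFun
    have : ∀ y : G, Cfsg.extendByZero (Subgroup.normalizer (K : Set G)) ϑ
        (y⁻¹ * (x : G) * y) = 0 := by
      intro y
      by_cases hy : y⁻¹ * (x : G) * y ∈ Subgroup.normalizer (K : Set G)
      · rw [Cfsg.Agent.Lib.Lead.extendByZero_mem _ ϑ hy]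
        apply hϑK
        have := hp1 x x.2 hxK y⁻¹
        rw [inv_inv] at this
        exact this
      · exact Cfsg.Agent.Lib.Lead.extendByZero_not_mem _ ϑ hy
    simp only [this, Finset.sum_const_zero, mul_zero]
end Cfsg.Agent.S0850
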