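import Cfsg.Statements.S0854
import Mathlib
import Cfsg.Agent.Lib.Lead.SylowAux2
import Cfsg.Agent.Lib.Lead.CharCliffordCorr

set_option autoImplicit false
open Cfsg Cfsg.Agent.Lib.Lead

namespace Cfsg.Agent.S0854

open scoped Pointwise commutatorElement

/-- Let H be a normal subgroup of the finite group G, ϑ an irreducible character of H, and T the inertia group of ϑ (the elements g with ϑ(g n g⁻¹) = ϑ(n) for all n in H). If χ is an irreducible character of G whose restriction to H has nonzero inner product with ϑ, then χ is induced from some irreducible character ψ of T, and the restrictions of ψ and of χ to H have the same inner product with ϑ. -/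
theorem result {G : Type*} [Group G] [Fintype G] (H : Subgroup G) [hN : H.Normal] [Fintype H] (ϑ : H → ℂ) (hϑ : Cfsg.IsIrrCharacter H ϑ) (T : Subgroup G) [Fintype T] (hT : ∀ g : G, g ∈ T ↔ ∀ n : H, ϑ ⟨g * n * g⁻¹, hN.conj_mem (n : G) n.2 g⟩ = ϑ n) (hHT : H ≤ T) (χ : G → ℂ) (hχ : Cfsg.IsIrrCharacter G χ) (hcon : Cfsg.classInner (fun n : H => χ n) ϑ ≠ 0) : ∃ ψ : T → ℂ, Cfsg.IsIrrCharacter T ψ ∧ Cfsg.indFun T ψ = χ ∧ Cfsg.classInner (fun n : H => ψ ⟨(n : G), hHT n.2⟩) ϑ = Cfsg.classInner (fun n : H => χ n) ϑ := by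
  classical
  haveI := Fintype.ofFinite (Cfsg.IrrCharacter T)
  obtain ⟨m, ff, hm, hff, he⟩ := restrict_inner_expansion H T hHT χ
    (isCharacter_of_isIrrCharacter hχ) ϑ (isCharacter_of_isIrrCharacter hϑ)
  have hex : ∃ φ : Cfsg.IrrCharacter T, m φ * ff φ ≠ 0 := by
    by_contra hno
    push Not at hno
    apply hcon
    rw [he, Finset.sum_eq_zero (fun φ _ => hno φ)]
    simp
  obtain ⟨φ, hφ⟩ := hex
  have hm0 : m φ ≠ 0 := fun h => hφ (by rw [h, zero_mul])
  have hf0 : ff φ ≠ 0 := fun h => hφ (by rw [h, mul_zero])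
  have h1 : Cfsg.classInner (fun n : H => (φ : T → ℂ) ⟨n, hHT n.2⟩) ϑ ≠ 0 := by
    rw [hff φ]
    exact_mod_cast hf0
  have h2 : Cfsg.classInner (fun t : T => χ t) (φ : T → ℂ) ≠ 0 := by
    rw [hm φ]
    exact_mod_cast hm0
  obtain ⟨h3, h4⟩ := clifford_corr_core H T ϑ hϑ hT hHT φ.1 φ.2 h1 χ hχ h2
  exact ⟨φ.1, φ.2, h3, h4⟩

end Cfsg.Agent.S0854
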