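import Cfsg.Statements.S4456
import Mathlib
import Cfsg.Agent.Lib.Helper7.CharCount

set_option autoImplicit false
open Cfsg

universe u

namespace Cfsg.Agent.S4456

open Cfsg.Agent.Lib.Lead Cfsg.Agent.Lib.Helper7

/-- the core of Thompson's theorem, for a normal subgroup `K` of `p`-power index supplemented
by a Sylow `p`-subgroup and all of whose linear characters and determinants have order
dividing `m`, prime to `p` -/
theorem thompson_aux {G : Type u} [Group G] [Finite G] (p : ℕ) (hp : p.Prime)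
    (hdeg : ∀ χ : Cfsg.IrrCharacter G, Cfsg.charDegree (χ : G → ℂ) ≠ 1 →
      p ∣ Cfsg.charDegree (χ : G → ℂ))
    (K : Subgroup G) [hKn : K.Normal] (r : ℕ) (hr : K.index = p ^ r) (P : Sylow p G)
    (hKP : K ⊔ (P : Subgroup G) = ⊤) (m : ℕ) (hm : m.Coprime p)
    (hdetK : ∀ θ : K → ℂ, Cfsg.IsCharacter K θ → ∀ x : K, Cfsg.detChar θ x ^ m = 1)
    (hhomK : ∀ (f : K →* ℂˣ) (k : K), f k ^ m = 1) :
    ¬ p ∣ Nat.card K := by
  classical
  haveI : Fact p.Prime := ⟨hp⟩
  obtain ⟨s, hs, hcount⟩ := count_lemma p hp K P hKP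
  have hlin : ∀ θ ∈ s, ¬ p ∣ Cfsg.charDegree (θ : K → ℂ) →
      Cfsg.charDegree (θ : K → ℂ) = 1 := by
    intro θ hθs hθp
    obtain ⟨χ, ⟨hχ, hχK, -⟩, -⟩ := canon_ext p hp m hm r G K hr (θ : K → ℂ) θ.2
      ((hs θ).1 hθs) hθp (hdetK _ (isCharacter_of_isIrrCharacter θ.2))
    have hdeq : Cfsg.charDegree χ = Cfsg.charDegree (θ : K → ℂ) := by
      unfold Cfsg.charDegree
      have h1 : χ 1 = (θ : K → ℂ) 1 := hχK 1
      rw [h1]
    by_contra hne
    have h2 := hdeg ⟨χ, hχ⟩ (by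
      show Cfsg.charDegree χ ≠ 1
      rw [hdeq]; exact hne)
    have h3 : p ∣ Cfsg.charDegree χ := h2
    rw [hdeq] at h3
    exact hθp h3
  obtain ⟨t, ht⟩ : ∃ t : Finset (Cfsg.IrrCharacter K),
      t = s.filter (fun θ : Cfsg.IrrCharacter K => Cfsg.charDegree (θ : K → ℂ) = 1) := ⟨_, rfl⟩
  have hmemt : ∀ θ : Cfsg.IrrCharacter K, θ ∈ t ↔ θ ∈ s ∧ Cfsg.charDegree (θ : K → ℂ) = 1 := by
    intro θ; rw [ht, Finset.mem_filter]
  have hcong : Nat.card K ≡ t.card [MOD p] := by
    refine hcount.trans ?_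
    rw [ht, Finset.card_filter, ← ZMod.natCast_eq_natCast_iff, Nat.cast_sum, Nat.cast_sum]
    apply Finset.sum_congr rfl
    intro θ hθ
    by_cases hd : Cfsg.charDegree (θ : K → ℂ) = 1
    · rw [if_pos hd, hd]; simp
    · rw [if_neg hd]
      have h1 : p ∣ Cfsg.charDegree (θ : K → ℂ) := by
        by_contra h2
        exact hd (hlin θ hθ h2)
      rw [Nat.cast_pow, (ZMod.natCast_eq_zero_iff _ _).2 h1]
      simp
  have hl : ¬ p ∣ t.card := by
    intro hdvd
    let Λ : Subgroup (K →* ℂˣ) :=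
      { carrier := {f | ∀ (g : G) (x : K),
          f ⟨g * x * g⁻¹, hKn.conj_mem (x : G) x.2 g⟩ = f x}
        mul_mem' := fun {a b} ha hb g x => by
          show (a * b) _ = (a * b) x
          rw [MonoidHom.mul_apply, MonoidHom.mul_apply, ha g x, hb g x]
        one_mem' := fun g x => rfl
        inv_mem' := fun {a} ha g x => by
          show a⁻¹ _ = a⁻¹ x
          rw [MonoidHom.inv_apply, MonoidHom.inv_apply, ha g x] }
    have hirr : ∀ f : K →* ℂˣ, Cfsg.IsIrrCharacter K (fun k => (f k : ℂ)) := by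
      intro f
      have h1 := isIrr_twist f (isIrrCharacter_one K)
      have h2 : (fun g : K => (f g : ℂ) * (fun _ : K => (1 : ℂ)) g) = fun k => (f k : ℂ) := by
        funext k; simp
      rw [h2] at h1
      exact h1
    have hΦmem : ∀ f : Λ, (⟨fun k => ((f : K →* ℂˣ) k : ℂ), hirr f.1⟩ : Cfsg.IrrCharacter K) ∈ t := by
      intro f
      rw [hmemt]
      refine ⟨(hs _).2 (fun g x => ?_), ?_⟩
      · show (((f : K →* ℂˣ) _ : ℂˣ) : ℂ) = ((f : K →* ℂˣ) x : ℂ)
        rw [f.2 g x]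
      · unfold Cfsg.charDegree
        show ⌊(((f : K →* ℂˣ) 1 : ℂˣ) : ℂ).re⌋₊ = 1
        rw [map_one]; simp
    let Φ : Λ → {θ : Cfsg.IrrCharacter K // θ ∈ t} :=
      fun f => ⟨⟨fun k => ((f : K →* ℂˣ) k : ℂ), hirr f.1⟩, hΦmem f⟩
    have hΦinj : Function.Injective Φ := by
      intro a b hab
      apply Subtype.ext
      apply MonoidHom.ext
      intro k
      apply Units.ext
      have h1 : (fun k => ((a : K →* ℂˣ) k : ℂ)) = fun k => ((b : K →* ℂˣ) k : ℂ) :=
        congrArg (fun z : {θ : Cfsg.IrrCharacter K // θ ∈ t} => ((z.1 : Cfsg.IrrCharacter K) : K → ℂ)) hab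
      exact congrFun h1 k
    have hΦsurj : Function.Surjective Φ := by
      intro z
      obtain ⟨θ, hθ⟩ := z
      have hθ' := (hmemt θ).1 hθ
      have hθ1 : (θ : K → ℂ) 1 = 1 := by
        rw [(charDegree_irr θ.2).1, hθ'.2]; simp
      obtain ⟨lam, hlam⟩ := exists_hom_of_linear θ.2 hθ1
      have hlamΛ : lam ∈ Λ := by
        intro g x
        apply Units.ext
        have h1 := (hs θ).1 hθ'.1 g x
        rw [hlam] at h1
        exact h1
      refine ⟨⟨lam, hlamΛ⟩, ?_⟩
      apply Subtype.ext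
      apply Subtype.ext
      exact hlam.symm
    haveI : Finite Λ := Finite.of_injective Φ hΦinj
    have hcardΛ : Nat.card Λ = t.card := by
      rw [Nat.card_eq_of_bijective Φ ⟨hΦinj, hΦsurj⟩, Nat.card_eq_finsetCard]
    obtain ⟨f, hf⟩ := exists_prime_orderOf_dvd_card' p (by rw [hcardΛ]; exact hdvd)
    have hfm : f ^ m = 1 := by
      apply Subtype.ext
      apply MonoidHom.ext
      intro k
      show ((f : K →* ℂˣ) ^ m) k = 1
      rw [MonoidHom.pow_apply]
      exact hhomK f.1 k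
    have h1 := orderOf_dvd_of_pow_eq_one hfm
    rw [hf] at h1
    exact hp.one_lt.ne' (Nat.Coprime.eq_one_of_dvd hm.symm h1)
  intro hdvdK
  apply hl
  exact (Nat.modEq_zero_iff_dvd).1 (hcong.symm.trans ((Nat.modEq_zero_iff_dvd).2 hdvdK))

/-- Let p be a prime and G a finite group such that p divides the degree of every irreducible character of G of degree greater than one. Then G has a normal p-complement: a normal subgroup of order prime to p whose index is a power of p. -/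
theorem result {G : Type*} [Group G] [Finite G] (p : ℕ) (hp : p.Prime) (hdeg : ∀ χ : Cfsg.IrrCharacter G, Cfsg.charDegree (χ : G → ℂ) ≠ 1 → p ∣ Cfsg.charDegree (χ : G → ℂ)) : ∃ N : Subgroup G, N.Normal ∧ (Nat.card N).Coprime p ∧ ∃ k : ℕ, N.index = p ^ k := by
  classical
  haveI : Fact p.Prime := ⟨hp⟩
  haveI hKn : (Cfsg.pResidual p G).Normal := pResidual_normal p
  obtain ⟨r, hr⟩ : ∃ r, (Cfsg.pResidual p G).index = p ^ r := by
    obtain ⟨n, hn⟩ := (IsPGroup.iff_card (p := p)).mp (isPGroup_quotient_pResidual (G := G) p)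
    exact ⟨n, hn⟩
  obtain ⟨P⟩ := (inferInstance : Nonempty (Sylow p G))
  have hKP : Cfsg.pResidual p G ⊔ (P : Subgroup G) = ⊤ := by
    rw [sup_comm]; exact sylow_sup_pResidual P
  have hm : (ordCompl[p] (Nat.card G)).Coprime p :=
    (Nat.coprime_ordCompl hp Nat.card_pos.ne').symm
  have hnot := thompson_aux p hp hdeg (Cfsg.pResidual p G) r hr P hKP
    (ordCompl[p] (Nat.card G)) hm (fun θ hθ x => det_pow_pResidual p hθ x)
    (fun f k => hom_pow_pResidual p f k)
  exact ⟨Cfsg.pResidual p G, hKn, ((Nat.Prime.coprime_iff_not_dvd hp).2 hnot).symm, r, hr⟩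

end Cfsg.Agent.S4456
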