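import Cfsg.Statements.S0855
import Mathlib
import Cfsg.Agent.S4456
import Cfsg.Agent.Lib.Lead.CharMichler
import Cfsg.Agent.Lib.Lead.CharMichler2
import Cfsg.Agent.Lib.Lead.CharMisc
import Cfsg.Agent.Lib.Lead.CharIto
import Cfsg.Agent.Lib.Lead.CharInt

set_option autoImplicit false
open Cfsg

namespace Cfsg.Agent.S0855

open Cfsg.Agent.Lib.Lead Cfsg.Agent.Lib.Helper7

/-- For a finite group G and a prime p: every irreducible character of G has degree a power of p if and only if G has an abelian normal subgroup whose order is prime to p and whose index is a power of p. -/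
theorem result {G : Type*} [Group G] [Finite G] (p : ℕ) (hp : p.Prime) : (∀ χ : Cfsg.IrrCharacter G, ∃ k : ℕ, (χ : G → ℂ) 1 = (p : ℂ) ^ k) ↔ ∃ A : Subgroup G, A.Normal ∧ (∀ a ∈ A, ∀ b ∈ A, a * b = b * a) ∧ Nat.Coprime (Nat.card A) p ∧ ∃ k : ℕ, A.index = p ^ k := by
  classical
  constructor
  · intro h
    have hdeg : ∀ χ : Cfsg.IrrCharacter G, Cfsg.charDegree (χ : G → ℂ) ≠ 1 →
        p ∣ Cfsg.charDegree (χ : G → ℂ) := by
      intro χ hne
      obtain ⟨k, hk⟩ := h χ
      have h1 := (charDegree_irr χ.2).1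
      rw [hk] at h1
      have h2 : Cfsg.charDegree (χ : G → ℂ) = p ^ k := by exact_mod_cast h1.symm
      rw [h2] at hne ⊢
      rcases Nat.eq_zero_or_pos k with h0 | h0
      · exfalso; apply hne; rw [h0, pow_zero]
      · exact dvd_pow_self p h0.ne'
    obtain ⟨N, hNn, hNcop, k, hk⟩ := Cfsg.Agent.S4456.result p hp hdeg
    haveI := hNn
    refine ⟨N, hNn, ?_, hNcop, k, hk⟩
    have hlin : ∀ θ : Cfsg.IrrCharacter N, (θ : N → ℂ) 1 = 1 := by
      intro θ
      obtain ⟨χ, e, hχ, hnat⟩ := exists_over_degree N (θ : N → ℂ) θ.2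
      obtain ⟨j, hj⟩ := h ⟨χ, hχ⟩
      have h1 := (charDegree_irr hχ).1
      have hj' : χ 1 = (p : ℂ) ^ j := hj
      rw [hj'] at h1
      have h2 : Cfsg.charDegree χ = p ^ j := by exact_mod_cast h1.symm
      have h3 : Cfsg.charDegree (θ : N → ℂ) ∣ p ^ j := by
        rw [← h2, hnat]; exact Dvd.intro_left _ rfl
      obtain ⟨i, hi, hi'⟩ := (Nat.dvd_prime_pow hp).1 h3
      have h4 : Cfsg.charDegree (θ : N → ℂ) ∣ Nat.card N := by
        obtain ⟨n, ρ, hρ, hρc⟩ := θ.2
        haveI := hρ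
        haveI : Fintype N := Fintype.ofFinite N
        have h5 := degree_dvd_card ρ
        rw [← hρc, charDegree_eq_finrank ρ]; exact h5
      rw [hi'] at h4
      have hi0 : i = 0 := by
        by_contra hne
        have h6 : p ∣ Nat.card N := dvd_trans (dvd_pow_self p hne) h4
        exact hp.one_lt.ne' (Nat.Coprime.eq_one_of_dvd hNcop.symm h6)
      rw [(charDegree_irr θ.2).1, hi', hi0]; simp
    intro a ha b hb
    have hcomm := (commutative_iff_degrees (G := N)).2 hlin ⟨a, ha⟩ ⟨b, hb⟩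
    exact congrArg Subtype.val hcomm
  · rintro ⟨A, hAn, hAab, hAcop, k, hk⟩ χ
    haveI := hAn
    obtain ⟨n, ρ, hρ, hρc⟩ := χ.2
    haveI := hρ
    have h1 := ito_degree ρ A hAab
    rw [hk] at h1
    obtain ⟨i, hi, hi'⟩ := (Nat.dvd_prime_pow hp).1 h1
    refine ⟨i, ?_⟩
    have h2 := (charDegree_irr χ.2).1
    rw [h2]
    have h3 : Cfsg.charDegree (χ : G → ℂ) = Module.finrank ℂ (Fin n → ℂ) := by
      rw [← hρc]; exact charDegree_eq_finrank ρ
    rw [h3, hi']; push_cast; rfl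

end Cfsg.Agent.S0855
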