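import Cfsg.Statements.S0856
import Mathlib
import Cfsg.Agent.Lib.Lead.SylowAux2
import Cfsg.Agent.Lib.Lead.CharGallagher

set_option autoImplicit false
open Cfsg Cfsg.Agent.Lib.Lead

namespace Cfsg.Agent.S0856

open scoped Pointwise commutatorElement

/-- Let N be a normal subgroup of the finite group G and φ, ϑ irreducible characters of N that are invariant under conjugation by G, such that the pointwise product φ * ϑ is irreducible and ϑ is the restriction of an irreducible character χ of G. Then multiplication by χ is a bijection from the set of irreducible characters of G having nonzero inner product with the function induced from φ onto the set of those having nonzero inner product with the function induced from φ * ϑ. -/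
theorem result {G : Type*} [Group G] [Fintype G] (N : Subgroup G) [hN : N.Normal] (φ ϑ : N → ℂ) (hφ : Cfsg.IsIrrCharacter N φ) (hϑ : Cfsg.IsIrrCharacter N ϑ) (hφinv : ∀ (g : G) (n : N), φ ⟨g * n * g⁻¹, hN.conj_mem (n : G) n.2 g⟩ = φ n) (hϑinv : ∀ (g : G) (n : N), ϑ ⟨g * n * g⁻¹, hN.conj_mem (n : G) n.2 g⟩ = ϑ n) (hprod : Cfsg.IsIrrCharacter N (φ * ϑ)) (χ : G → ℂ) (hχ : Cfsg.IsIrrCharacter G χ) (hext : ∀ n : N, χ n = ϑ n) : Set.BijOn (fun β : G → ℂ => β * χ) {β : G → ℂ | Cfsg.IsIrrCharacter G β ∧ Cfsg.classInner (Cfsg.indFun N φ) β ≠ 0} {ψ : G → ℂ | Cfsg.IsIrrCharacter G ψ ∧ Cfsg.classInner (Cfsg.indFun N (φ * ϑ)) ψ ≠ 0} := by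
  have hϑeq : ϑ = fun n : N => χ n := funext (fun n => (hext n).symm)
  subst hϑeq
  obtain ⟨h1, h2, h3⟩ := gallagher_core N φ hφ hφinv χ (isCharacter_of_isIrrCharacter hχ) hprod
  refine ⟨?_, ?_, ?_⟩
  · rintro β ⟨hβ, hne⟩
    refine ⟨?_, h2 β hβ hne⟩
    apply isIrrCharacter_of_norm_one (isCharacter_mul (isCharacter_of_isIrrCharacter hβ)
      (isCharacter_of_isIrrCharacter hχ))
    rw [h1 β β hβ hβ hne hne, if_pos rfl]
  · rintro β ⟨hβ, hne⟩ β' ⟨hβ', hne'⟩ heq
    have h4 := h1 β β' hβ hβ' hne hne'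
    have h5 := h1 β β hβ hβ hne hne
    rw [if_pos rfl] at h5
    have heq' : β * χ = β' * χ := heq
    rw [← heq', h5] at h4
    by_contra hb
    rw [if_neg hb] at h4
    exact one_ne_zero h4
  · rintro ψ ⟨hψ, hne⟩
    obtain ⟨β, hβ, hne', rfl⟩ := h3 ψ hψ hne
    exact ⟨β, ⟨hβ, hne'⟩, rfl⟩

end Cfsg.Agent.S0856
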