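import Cfsg.Statements.S0857
import Mathlib
import Cfsg.Agent.Lib.Lead.SylowAux2
import Cfsg.Agent.Lib.Lead.CharExtraspecial2
import Cfsg.Agent.Lib.Lead.CharGallagher
import Cfsg.Agent.Lib.Lead.CharIto
import Cfsg.Agent.Lib.Lead.CharInt
import Cfsg.Agent.Lib.Lead.CharBasic
import Cfsg.Agent.Lib.Lead.CharFullyRam
import Cfsg.Agent.Lib.Lead.CharCliffordCorr
import Cfsg.Agent.Lib.Lead.CharArtin
import Cfsg.Agent.Lib.Lead.CharNormal

set_option autoImplicit false
open Cfsg Cfsg.Agent.Lib.Lead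

namespace Cfsg.Agent.S0857

open scoped Pointwise commutatorElement
open scoped ComplexConjugate

universe u

/-- an irreducible character whose kernel contains all commutators is linear -/
theorem linear_of_derived_ker_lead {G : Type u} [Group G] [Fintype G] {ψ : G → ℂ}
    (hψ : Cfsg.IsIrrCharacter G ψ) (hk : ∀ g h : G, ψ (g * h * g⁻¹ * h⁻¹) = ψ 1) : ψ 1 = 1 := by
  classical
  have hself := classInner_irr_self hψ
  obtain ⟨n, ρ, hρ, rfl⟩ := hψ
  haveI := hρ
  have hfin : Module.finrank ℂ (Fin n → ℂ) = n := by simp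
  have hc : ∀ g h : G, ρ g * ρ h = ρ h * ρ g := by
    intro g h
    have h1 : ρ (g * h * g⁻¹ * h⁻¹) = LinearMap.id := by
      rw [← char_eq_finrank_iff, hk, Representation.char_one]
    have h2 : g * h = (g * h * g⁻¹ * h⁻¹) * (h * g) := by group
    rw [← map_mul, ← map_mul, h2, map_mul, h1]
    rfl
  have hnorm : ∀ g : G, ‖ρ.character g‖ = (n : ℝ) := by
    intro g
    have h1 := (norm_char_eq_iff ρ g).2 ⟨_, schur_scalar ρ (ρ g) (fun h => hc g h)⟩
    rw [hfin] at h1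
    exact h1
  have hn0 : 0 < n := by
    have := finrank_pos_of_irr ρ
    rwa [hfin] at this
  have hsum : Cfsg.classInner ρ.character ρ.character = ((n : ℂ)) ^ 2 := by
    unfold Cfsg.classInner
    have h1 : ∀ g : G, ρ.character g * conj (ρ.character g) = ((n : ℂ)) ^ 2 := by
      intro g
      rw [Complex.mul_conj, Complex.normSq_eq_norm_sq, hnorm g]
      push_cast
      rfl
    rw [Finset.sum_congr rfl (fun g _ => h1 g), Finset.sum_const, Finset.card_univ,
      nsmul_eq_mul, Nat.card_eq_fintype_card]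
    have h2 : (Fintype.card G : ℂ) ≠ 0 := by
      exact_mod_cast Fintype.card_ne_zero
    field_simp
  rw [hself] at hsum
  have h3 : (n : ℂ) ^ 2 = 1 := hsum.symm
  have h4 : n ^ 2 = 1 := by exact_mod_cast h3
  have h5 : n = 1 := by nlinarith
  rw [Representation.char_one, hfin, h5]
  simp

/-- two irreducible constituents of the restriction of an irreducible character to a normal
subgroup are conjugate -/
theorem orbit_constituent_lead {G : Type u} [Group G] [Fintype G] (N : Subgroup G)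
    [hN : N.Normal] [Fintype N] (χ : G → ℂ) (hχ : Cfsg.IsIrrCharacter G χ) (θ θ' : N → ℂ)
    (hθ : Cfsg.IsIrrCharacter N θ) (hθ' : Cfsg.IsIrrCharacter N θ')
    (h : Cfsg.classInner (fun n : N => χ n) θ ≠ 0)
    (h' : Cfsg.classInner (fun n : N => χ n) θ' ≠ 0) : ∃ g : G, θ' = θ ∘ conjHom N g := by
  classical
  haveI : Fintype (Cfsg.IrrCharacter G) := Fintype.ofFinite _
  have hχcl := isClassFunction_of_irr hχ
  have hθch := isCharacter_of_isIrrCharacter hθ
  have hθ'ch := isCharacter_of_isIrrCharacter hθ'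
  obtain ⟨nn, hnn, hnn'⟩ := isCharacter_expansion (isCharacter_indFun N θ' hθ'ch)
  obtain ⟨mm, hmm, hmm'⟩ := isCharacter_expansion (isCharacter_indFun N θ hθch)
  have e1 : Cfsg.classInner (Cfsg.indFun N θ') χ = (nn ⟨χ, hχ⟩ : ℂ) := hnn' ⟨χ, hχ⟩
  have e2 : Cfsg.classInner (Cfsg.indFun N θ) χ = (mm ⟨χ, hχ⟩ : ℂ) := hmm' ⟨χ, hχ⟩
  have h1 : (nn ⟨χ, hχ⟩ : ℂ) ≠ 0 := by
    rw [← e1, frobenius_reciprocity N θ' χ hχcl, ← classInner_conj_symm]
    intro h0
    apply h'
    have h3 := congrArg (starRingEnd ℂ) h0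
    rw [Complex.conj_conj, map_zero] at h3
    exact h3
  have h2 : (mm ⟨χ, hχ⟩ : ℂ) ≠ 0 := by
    rw [← e2, frobenius_reciprocity N θ χ hχcl, ← classInner_conj_symm]
    intro h0
    apply h
    have h3 := congrArg (starRingEnd ℂ) h0
    rw [Complex.conj_conj, map_zero] at h3
    exact h3
  have h3 : Cfsg.classInner (Cfsg.indFun N θ') (Cfsg.indFun N θ) =
      ((∑ ξ, nn ξ * mm ξ : ℕ) : ℂ) := by
    rw [hnn, hmm]
    refine (classInner_comb (fun ξ : Cfsg.IrrCharacter G => (nn ξ : ℂ))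
      (fun ξ : Cfsg.IrrCharacter G => (mm ξ : ℂ))).trans ?_
    rw [Nat.cast_sum]
    apply Finset.sum_congr rfl
    intro ξ _
    show (nn ξ : ℂ) * (starRingEnd ℂ) (mm ξ : ℂ) = ((nn ξ * mm ξ : ℕ) : ℂ)
    rw [map_natCast, Nat.cast_mul]
  have h7 : 0 < ∑ ξ, nn ξ * mm ξ := by
    have h8 : nn ⟨χ, hχ⟩ * mm ⟨χ, hχ⟩ ≤ ∑ ξ, nn ξ * mm ξ :=
      Finset.single_le_sum (f := fun ξ => nn ξ * mm ξ) (fun i _ => Nat.zero_le _)
        (Finset.mem_univ (⟨χ, hχ⟩ : Cfsg.IrrCharacter G))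
    have h9 : 0 < nn ⟨χ, hχ⟩ * mm ⟨χ, hχ⟩ :=
      Nat.mul_pos (Nat.pos_of_ne_zero (by exact_mod_cast h1))
        (Nat.pos_of_ne_zero (by exact_mod_cast h2))
    omega
  have h10 := classInner_indFun_normal N θ' θ hθ' hθ
  rw [h3] at h10
  have h11 : Nat.card {g : G // θ' = θ ∘ conjHom N g} ≠ 0 := by
    intro h0
    rw [h0, Nat.cast_zero] at h10
    have hN0 : (Nat.card N : ℂ) ≠ 0 := Nat.cast_ne_zero.mpr Nat.card_pos.ne'
    have h12 : ((∑ ξ, nn ξ * mm ξ : ℕ) : ℂ) ≠ 0 := Nat.cast_ne_zero.mpr h7.ne'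
    exact (mul_ne_zero hN0 h12) h10
  obtain ⟨⟨g, hg⟩⟩ := (Nat.card_ne_zero.mp h11).1
  exact ⟨g, hg⟩

/-- over an abelian quotient, an irreducible character whose restriction to the normal
subgroup has norm different from one is fixed by a non-trivial linear character of the
quotient -/
theorem exists_lam_lead {G : Type u} [Group G] [Fintype G] (N : Subgroup G) [hN : N.Normal]
    [Fintype N] (hab : ∀ g h : G, g * h * g⁻¹ * h⁻¹ ∈ N) (ϑ : G → ℂ)
    (hϑ : Cfsg.IsIrrCharacter G ϑ)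
    (hne : Cfsg.classInner (fun n : N => ϑ n) (fun n : N => ϑ n) ≠ 1) :
    ∃ lam : G →* ℂˣ, (∀ n ∈ N, lam n = 1) ∧ (∃ k : G, lam k ≠ 1) ∧
      ∀ k : G, ϑ k ≠ 0 → lam k = 1 := by
  classical
  haveI : Fintype (Cfsg.IrrCharacter G) := Fintype.ofFinite _
  have hϑch := isCharacter_of_isIrrCharacter hϑ
  have hϑcl := isClassFunction_of_irr hϑ
  have honeN : Cfsg.IsIrrCharacter N (fun _ : N => (1 : ℂ)) := isIrrCharacter_one N
  have honeG : Cfsg.IsIrrCharacter G (fun _ : G => (1 : ℂ)) := isIrrCharacter_one G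
  have hρ : Cfsg.IsCharacter G (Cfsg.indFun N (fun _ : N => (1 : ℂ))) :=
    isCharacter_indFun N _ (isCharacter_of_isIrrCharacter honeN)
  obtain ⟨a, ha, ha'⟩ := isCharacter_expansion hρ
  have hkey : Cfsg.classInner (fun n : N => ϑ n) (fun n : N => ϑ n) =
      ∑ μ : Cfsg.IrrCharacter G, (a μ : ℂ) * Cfsg.classInner ((μ : G → ℂ) * ϑ) ϑ := by
    have h1 := indFun_mul_restrict N (fun _ : N => (1 : ℂ)) ϑ hϑcl
    have h2 : ((fun _ : N => (1 : ℂ)) * fun n : N => ϑ n) = fun n : N => ϑ n := by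
      funext n
      show (1 : ℂ) * ϑ n = ϑ n
      rw [one_mul]
    rw [h2] at h1
    have h3 := frobenius_reciprocity N (fun n : N => ϑ n) ϑ hϑcl
    rw [← h3, h1, ha, Finset.sum_mul, classInner_sum_left]
    apply Finset.sum_congr rfl
    intro μ _
    rw [smul_mul_assoc, classInner_smul_left]
  obtain ⟨tr, htrdef⟩ : ∃ t : Cfsg.IrrCharacter G, (t : G → ℂ) = fun _ => (1 : ℂ) :=
    ⟨⟨_, honeG⟩, rfl⟩
  have hatr : (a tr : ℂ) = 1 := by
    rw [← ha' tr, htrdef,
      frobenius_reciprocity N (fun _ : N => (1 : ℂ)) (fun _ : G => (1 : ℂ))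
        (isClassFunction_of_irr honeG)]
    exact classInner_irr_self honeN
  have htr : Cfsg.classInner ((tr : G → ℂ) * ϑ) ϑ = 1 := by
    have h1 : (tr : G → ℂ) * ϑ = ϑ := by
      rw [htrdef]
      funext g
      show (1 : ℂ) * ϑ g = ϑ g
      rw [one_mul]
    rw [h1]
    exact classInner_irr_self hϑ
  have hex : ∃ μ : Cfsg.IrrCharacter G, μ ≠ tr ∧
      (a μ : ℂ) * Cfsg.classInner ((μ : G → ℂ) * ϑ) ϑ ≠ 0 := by
    by_contra hcon
    push_neg at hcon
    apply hne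
    rw [hkey, Finset.sum_eq_single tr]
    · rw [hatr, htr, one_mul]
    · intro μ _ hμ
      exact hcon μ hμ
    · intro h
      exact absurd (Finset.mem_univ tr) h
  obtain ⟨μ, hμtr, hμ⟩ := hex
  have haμ : (a μ : ℂ) ≠ 0 := left_ne_zero_of_mul hμ
  have hμϑ : Cfsg.classInner ((μ : G → ℂ) * ϑ) ϑ ≠ 0 := right_ne_zero_of_mul hμ
  have hμcl := isClassFunction_of_irr μ.2
  have hcon : Cfsg.classInner (fun n : N => (μ : G → ℂ) n) (fun _ : N => (1 : ℂ)) ≠ 0 := by
    intro h0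
    apply haμ
    rw [← ha' μ, frobenius_reciprocity N (fun _ : N => (1 : ℂ)) (μ : G → ℂ) hμcl,
      ← classInner_conj_symm, h0, map_zero]
  obtain ⟨e, he0, he1, he2⟩ := restrict_eq_smul_of_invariant N (μ : G → ℂ) μ.2
    (fun _ : N => (1 : ℂ)) honeN hcon (fun g n => rfl)
  have hμN : ∀ n : N, (μ : G → ℂ) n = (μ : G → ℂ) 1 := by
    intro n
    have h1 : (μ : G → ℂ) (n : G) = (e : ℂ) * 1 := congrFun he2 n
    have h2 : (μ : G → ℂ) ((1 : N) : G) = (e : ℂ) * 1 := congrFun he2 1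
    rw [Subgroup.coe_one] at h2
    rw [h1, h2]
  have hμ1 : (μ : G → ℂ) 1 = 1 := by
    apply linear_of_derived_ker_lead μ.2
    intro g h
    exact hμN ⟨g * h * g⁻¹ * h⁻¹, hab g h⟩
  obtain ⟨lam, hlam⟩ := exists_hom_of_linear μ.2 hμ1
  have hlamx : ∀ g : G, ((lam g : ℂˣ) : ℂ) = (μ : G → ℂ) g := fun g => (congrFun hlam g).symm
  refine ⟨lam, ?_, ?_, ?_⟩
  · intro n hn
    have h1 := hμN ⟨n, hn⟩
    rw [hμ1] at h1
    have h2 : ((lam n : ℂˣ) : ℂ) = 1 := by rw [hlamx]; exact h1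
    exact Units.val_eq_one.mp h2
  · by_contra hall
    push_neg at hall
    apply hμtr
    apply Subtype.ext
    rw [htrdef]
    funext g
    rw [← hlamx g, hall g, Units.val_one]
  · intro k hk
    have hnorm : ∀ g : G, (μ : G → ℂ) g * conj ((μ : G → ℂ) g) = 1 := by
      intro g
      rw [Complex.mul_conj, Complex.normSq_eq_norm_sq, norm_linear_char μ.2 hμ1 g]
      norm_num
    have hirr : Cfsg.IsIrrCharacter G ((μ : G → ℂ) * ϑ) := by
      apply isIrrCharacter_of_norm_one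
        (isCharacter_mul (isCharacter_of_isIrrCharacter μ.2) hϑch)
      refine Eq.trans ?_ (classInner_irr_self hϑ)
      unfold Cfsg.classInner
      congr 1
      apply Finset.sum_congr rfl
      intro g _
      show (μ : G → ℂ) g * ϑ g * conj ((μ : G → ℂ) g * ϑ g) = ϑ g * conj (ϑ g)
      rw [map_mul]
      linear_combination (ϑ g * conj (ϑ g)) * hnorm g
    have heq : (μ : G → ℂ) * ϑ = ϑ := by
      have h := classInner_irr hirr hϑ
      by_contra hne'
      rw [if_neg hne'] at h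
      exact hμϑ h
    have h1 : (μ : G → ℂ) k * ϑ k = ϑ k := congrFun heq k
    have h2 : (μ : G → ℂ) k = 1 := by
      have h3 : ((μ : G → ℂ) k - 1) * ϑ k = 0 := by linear_combination h1
      rcases mul_eq_zero.mp h3 with h4 | h4
      · linear_combination h4
      · exact absurd h4 hk
    have h5 : ((lam k : ℂˣ) : ℂ) = 1 := by rw [hlamx]; exact h2
    exact Units.val_eq_one.mp h5

set_option maxHeartbeats 1600000 in

/-- Let L < K be normal subgroups of the finite group G with no normal subgroup of G strictly between them and with K / L abelian (the commutator subgroup of K lies in L). Let ϑ be an irreducible character of K invariant under conjugation by G. Then the restriction of ϑ to L is irreducible; or it equals e times an irreducible character of L with e ^ 2 equal to the index of L in K; or it is the sum of a family of pairwise distinct irreducible characters of L indexed by a set whose size is the index of L in K. -/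
theorem result {G : Type*} [Group G] [Fintype G] (K L : Subgroup G) [hK : K.Normal] [L.Normal] (hLK : L < K) (hchief : ∀ M : Subgroup G, M.Normal → L ≤ M → M ≤ K → M = L ∨ M = K) (hab : ⁅K, K⁆ ≤ L) (ϑ : K → ℂ) (hϑ : Cfsg.IsIrrCharacter K ϑ) (hinv : ∀ (g : G) (n : K), ϑ ⟨g * n * g⁻¹, hK.conj_mem (n : G) n.2 g⟩ = ϑ n) : Cfsg.IsIrrCharacter L (fun x : L => ϑ ⟨(x : G), hLK.le x.2⟩) ∨ (∃ (φ : L → ℂ) (e : ℕ), Cfsg.IsIrrCharacter L φ ∧ (fun x : L => ϑ ⟨(x : G), hLK.le x.2⟩) = (e : ℂ) • φ ∧ e ^ 2 = L.relIndex K) ∨ (∃ F : Finset (L → ℂ), (∀ φ ∈ F, Cfsg.IsIrrCharacter L φ) ∧ F.card = L.relIndex K ∧ (fun x : L => ϑ ⟨(x : G), hLK.le x.2⟩) = ∑ φ ∈ F, φ) := by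
  classical
  haveI : Fintype (Cfsg.IrrCharacter L) := Fintype.ofFinite _
  have hϑch := isCharacter_of_isIrrCharacter hϑ
  have hϑLch : Cfsg.IsCharacter L (fun x : L => ϑ ⟨(x : G), hLK.le x.2⟩) :=
    isCharacter_comp (Subgroup.inclusion hLK.le) hϑch
  obtain ⟨ϑL, hϑLdef⟩ : ∃ ϑL : L → ℂ, ϑL = fun x : L => ϑ ⟨(x : G), hLK.le x.2⟩ := ⟨_, rfl⟩
  rw [← hϑLdef] at hϑLch ⊢
  have hϑLx : ∀ x : L, ϑL x = ϑ ⟨(x : G), hLK.le x.2⟩ := fun x => congrFun hϑLdef x
  have hconj1 : ∀ ψ : L → ℂ, ψ ∘ conjHom L 1 = ψ := by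
    intro ψ
    funext x
    show ψ (conjHom L 1 x) = ψ x
    rw [conjHom_one]
  obtain ⟨m, hm, hm'⟩ := isCharacter_expansion hϑLch
  -- the norm of the restriction
  have hQ : Cfsg.classInner ϑL ϑL = ((∑ ψ, m ψ ^ 2 : ℕ) : ℂ) := by
    have h0 : Cfsg.classInner ϑL ϑL = Cfsg.classInner (∑ χ, (m χ : ℂ) • (χ : L → ℂ))
        (∑ χ, (m χ : ℂ) • (χ : L → ℂ)) := by
      rw [← hm]
    rw [h0]
    refine (classInner_comb (fun ψ : Cfsg.IrrCharacter L => (m ψ : ℂ))
      (fun ψ : Cfsg.IrrCharacter L => (m ψ : ℂ))).trans ?_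
    rw [Nat.cast_sum]
    apply Finset.sum_congr rfl
    intro ψ _
    show (m ψ : ℂ) * (starRingEnd ℂ) (m ψ : ℂ) = ((m ψ ^ 2 : ℕ) : ℂ)
    rw [map_natCast, Nat.cast_pow, sq]
  obtain ⟨Q, hQdef⟩ : ∃ Q : ℕ, Q = ∑ ψ, m ψ ^ 2 := ⟨_, rfl⟩
  rw [← hQdef] at hQ
  have hcardL : (0 : ℝ) < (Nat.card L : ℝ) := by exact_mod_cast Nat.card_pos
  have hKsum : ∑ k : K, ‖ϑ k‖ ^ 2 = (Nat.card K : ℝ) := sum_normSq_irr' hϑ
  have hLsum : ∑ x : L, ‖ϑL x‖ ^ 2 = (Q : ℝ) * (Nat.card L : ℝ) := by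
    have h1 : (Nat.card L : ℂ)⁻¹ * ∑ x : L, ϑL x * (starRingEnd ℂ) (ϑL x) = (Q : ℂ) := hQ
    have hne : (Nat.card L : ℂ) ≠ 0 := by exact_mod_cast Nat.card_pos.ne'
    have h2 : ∑ x : L, ϑL x * (starRingEnd ℂ) (ϑL x) = (Q : ℂ) * (Nat.card L : ℂ) := by
      rw [← h1, mul_comm ((Nat.card L : ℂ)⁻¹) _, mul_assoc, inv_mul_cancel₀ hne, mul_one]
    have h3 : ((∑ x : L, ‖ϑL x‖ ^ 2 : ℝ) : ℂ) = (((Q : ℝ) * (Nat.card L : ℝ) : ℝ) : ℂ) := by
      rw [Complex.ofReal_sum, Complex.ofReal_mul, Complex.ofReal_natCast,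
        Complex.ofReal_natCast, ← h2]
      apply Finset.sum_congr rfl
      intro x _
      rw [Complex.mul_conj, Complex.normSq_eq_norm_sq]
    exact Complex.ofReal_injective h3
  have htr : ∑ x : L, ‖ϑL x‖ ^ 2 = ∑ k : K, if (k : G) ∈ L then ‖ϑ k‖ ^ 2 else 0 := by
    rw [← Finset.sum_filter]
    symm
    refine Finset.sum_bij (fun k hk => (⟨(k : G), (Finset.mem_filter.mp hk).2⟩ : L))
      ?_ ?_ ?_ ?_
    · intro k hk
      exact Finset.mem_univ _
    · intro k hk k' hk' h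
      apply Subtype.ext
      exact congrArg (fun x : L => (x : G)) h
    · intro x _
      exact ⟨⟨(x : G), hLK.le x.2⟩, Finset.mem_filter.mpr ⟨Finset.mem_univ _, x.2⟩,
        Subtype.ext rfl⟩
    · intro k hk
      exact congrArg (fun z : ℂ => ‖z‖ ^ 2)
        (hϑLx ⟨(k : G), (Finset.mem_filter.mp hk).2⟩).symm
  have hcardKL : Nat.card K = L.relIndex K * Nat.card L := by
    have h1 := Subgroup.card_mul_index (L.subgroupOf K)
    rw [Nat.card_congr (Subgroup.subgroupOfEquivOfLe hLK.le).toEquiv] at h1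
    exact h1.symm.trans (mul_comm _ _)
  have hcardK : (Nat.card K : ℝ) = (L.relIndex K : ℝ) * (Nat.card L : ℝ) := by
    exact_mod_cast hcardKL
  have hQle : Q ≤ L.relIndex K := by
    have h1 : (Q : ℝ) * (Nat.card L : ℝ) ≤ (L.relIndex K : ℝ) * (Nat.card L : ℝ) := by
      rw [← hLsum, ← hcardK, ← hKsum, htr]
      apply Finset.sum_le_sum
      intro k _
      split_ifs
      · exact le_refl _
      · positivity
    exact_mod_cast le_of_mul_le_mul_right h1 hcardL
  have hQeq : (∀ k : K, (k : G) ∉ L → ϑ k = 0) → Q = L.relIndex K := by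
    intro hvan
    have h1 : (Q : ℝ) * (Nat.card L : ℝ) = (L.relIndex K : ℝ) * (Nat.card L : ℝ) := by
      rw [← hLsum, ← hcardK, ← hKsum, htr]
      apply Finset.sum_congr rfl
      intro k _
      split_ifs with h
      · rfl
      · rw [hvan k h]
        simp
    have h2 := mul_right_cancel₀ hcardL.ne' h1
    exact_mod_cast h2
  -- invariance of the restriction
  have hϑLinv : ∀ g : G, ϑL ∘ conjHom L g = ϑL := by
    intro g
    funext x
    show ϑL (conjHom L g x) = ϑL x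
    rw [hϑLx, hϑLx]
    exact hinv g ⟨(x : G), hLK.le x.2⟩
  have hD : ∀ (g : G) (ψ : L → ℂ),
      Cfsg.classInner ϑL (ψ ∘ conjHom L g) = Cfsg.classInner ϑL ψ := by
    intro g ψ
    have h1 := classInner_comp_equiv (MulEquiv.ofBijective (conjHom L g)
      ⟨(Finite.injective_iff_surjective).mpr (conjHom_surjective L g),
        conjHom_surjective L g⟩) ϑL ψ
    have h2 : Cfsg.classInner (ϑL ∘ conjHom L g) (ψ ∘ conjHom L g) = Cfsg.classInner ϑL ψ := h1
    rw [hϑLinv g] at h2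
    exact h2
  -- the common stabilizer of the constituents
  obtain ⟨T, hTmem⟩ : ∃ T : Subgroup G, ∀ g : G, g ∈ T ↔
      (g ∈ K ∧ ∀ ψ : Cfsg.IrrCharacter L, m ψ ≠ 0 → (ψ : L → ℂ) ∘ conjHom L g = ψ) := by
    refine ⟨{ carrier := {g | g ∈ K ∧ ∀ ψ : Cfsg.IrrCharacter L, m ψ ≠ 0 →
                (ψ : L → ℂ) ∘ conjHom L g = ψ}
              mul_mem' := ?_
              one_mem' := ?_
              inv_mem' := ?_ }, fun g => Iff.rfl⟩
    · intro a b hA hB
      obtain ⟨ha, ha'⟩ := hA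
      obtain ⟨hb, hb'⟩ := hB
      refine ⟨K.mul_mem ha hb, fun ψ hψ => ?_⟩
      rw [← comp_conjHom_mul, ha' ψ hψ, hb' ψ hψ]
    · exact ⟨K.one_mem, fun ψ _ => hconj1 _⟩
    · intro a hA
      obtain ⟨ha, ha'⟩ := hA
      refine ⟨K.inv_mem ha, fun ψ hψ => ?_⟩
      have h1 : ((ψ : L → ℂ) ∘ conjHom L a) ∘ conjHom L a⁻¹ =
          (ψ : L → ℂ) ∘ conjHom L (a * a⁻¹) := comp_conjHom_mul L _ a a⁻¹
      rw [ha' ψ hψ, mul_inv_cancel, hconj1] at h1
      exact h1
  have hLT : L ≤ T := by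
    intro x hx
    rw [hTmem]
    refine ⟨hLK.le hx, fun ψ _ => ?_⟩
    funext y
    show (ψ : L → ℂ) (conjHom L x y) = (ψ : L → ℂ) y
    have h2 : conjHom L x y = ⟨x, hx⟩ * y * (⟨x, hx⟩ : L)⁻¹ := Subtype.ext rfl
    rw [h2]
    exact isClassFunction_of_irr ψ.2 y ⟨x, hx⟩
  have hTK : T ≤ K := fun g hg => ((hTmem g).mp hg).1
  have hTn : T.Normal := by
    constructor
    intro t ht g
    rw [hTmem] at ht ⊢
    obtain ⟨htK, ht'⟩ := ht
    refine ⟨hK.conj_mem t htK g, fun ψ hψ => ?_⟩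
    have hirr' : Cfsg.IsIrrCharacter L ((ψ : L → ℂ) ∘ conjHom L g) :=
      isIrrCharacter_conjHom L g ψ.2
    have hm'' : m ⟨_, hirr'⟩ ≠ 0 := by
      intro h0
      apply hψ
      have h1 := hm' ⟨_, hirr'⟩
      rw [h0] at h1
      have h3 : Cfsg.classInner ϑL ((ψ : L → ℂ) ∘ conjHom L g) = ((0 : ℕ) : ℂ) := h1
      rw [hD g, Nat.cast_zero] at h3
      have h2 := hm' ψ
      rw [h3] at h2
      exact_mod_cast h2.symm
    have h4 : ((ψ : L → ℂ) ∘ conjHom L g) ∘ conjHom L t = (ψ : L → ℂ) ∘ conjHom L g :=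
      ht' ⟨_, hirr'⟩ hm''
    rw [comp_conjHom_mul] at h4
    have h5 : ((ψ : L → ℂ) ∘ conjHom L (g * t)) ∘ conjHom L g⁻¹ =
        (ψ : L → ℂ) ∘ conjHom L (g * t * g⁻¹) := comp_conjHom_mul L _ (g * t) g⁻¹
    rw [← h5, h4, comp_conjHom_mul, mul_inv_cancel]
    exact hconj1 _
  -- a constituent
  obtain ⟨d, hd0, hd⟩ := irr_one hϑ
  have hex : ∃ ψ₀ : Cfsg.IrrCharacter L, m ψ₀ ≠ 0 := by
    by_contra hcon
    push_neg at hcon
    have h1 : ϑL = 0 := by
      rw [hm]
      apply Finset.sum_eq_zero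
      intro ψ _
      rw [hcon ψ, Nat.cast_zero, zero_smul]
    have h2 : ϑL 1 = ϑ 1 := hϑLx 1
    rw [h1, hd] at h2
    have h3 : (d : ℂ) = 0 := h2.symm
    exact hd0 (by exact_mod_cast h3)
  obtain ⟨ψ₀, hψ₀⟩ := hex
  -- all constituents are conjugate under K
  have htrans : ∀ ψ : Cfsg.IrrCharacter L, m ψ ≠ 0 →
      ∃ k : G, k ∈ K ∧ (ψ : L → ℂ) = (ψ₀ : L → ℂ) ∘ conjHom L k := by
    intro ψ hψ
    have h0 : Cfsg.IsIrrCharacter (L.subgroupOf K)
        ((ψ₀ : L → ℂ) ∘ (Subgroup.subgroupOfEquivOfLe hLK.le)) :=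
      isIrrCharacter_comp_surj (Subgroup.subgroupOfEquivOfLe hLK.le).toMonoidHom
        (Subgroup.subgroupOfEquivOfLe hLK.le).surjective ψ₀.2
    have h1 : Cfsg.IsIrrCharacter (L.subgroupOf K)
        ((ψ : L → ℂ) ∘ (Subgroup.subgroupOfEquivOfLe hLK.le)) :=
      isIrrCharacter_comp_surj (Subgroup.subgroupOfEquivOfLe hLK.le).toMonoidHom
        (Subgroup.subgroupOfEquivOfLe hLK.le).surjective ψ.2
    have hres : (fun n : L.subgroupOf K => ϑ n) =
        ϑL ∘ (Subgroup.subgroupOfEquivOfLe hLK.le) := by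
      funext n
      exact (hϑLx ((Subgroup.subgroupOfEquivOfLe hLK.le) n)).symm
    have hc0 : Cfsg.classInner (fun n : L.subgroupOf K => ϑ n)
        ((ψ₀ : L → ℂ) ∘ (Subgroup.subgroupOfEquivOfLe hLK.le)) ≠ 0 := by
      rw [hres, classInner_comp_equiv, hm']
      exact_mod_cast hψ₀
    have hc1 : Cfsg.classInner (fun n : L.subgroupOf K => ϑ n)
        ((ψ : L → ℂ) ∘ (Subgroup.subgroupOfEquivOfLe hLK.le)) ≠ 0 := by
      rw [hres, classInner_comp_equiv, hm']
      exact_mod_cast hψ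
    obtain ⟨g, hg⟩ := orbit_constituent_lead (L.subgroupOf K) ϑ hϑ _ _ h0 h1 hc0 hc1
    refine ⟨(g : G), g.2, ?_⟩
    funext x
    have h2 := congrFun hg (⟨⟨(x : G), hLK.le x.2⟩, x.2⟩ : L.subgroupOf K)
    exact h2
  -- the stabilizer of one constituent stabilizes all of them
  have hstab : ∀ k : G, k ∈ K → (ψ₀ : L → ℂ) ∘ conjHom L k = ψ₀ → k ∈ T := by
    intro k hk hfix
    rw [hTmem]
    refine ⟨hk, fun ψ hψ => ?_⟩
    obtain ⟨k₁, hk₁, hψk₁⟩ := htrans ψ hψ
    have hc : (k * k₁)⁻¹ * (k₁ * k) ∈ L := by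
      apply hab
      have h1 : (k * k₁)⁻¹ * (k₁ * k) = ⁅k₁⁻¹, k⁻¹⁆ := by
        rw [commutatorElement_def]
        group
      rw [h1]
      exact Subgroup.commutator_mem_commutator (K.inv_mem hk₁) (K.inv_mem hk)
    have h2 : k₁ * k = k * k₁ * ((k * k₁)⁻¹ * (k₁ * k)) := by group
    have e1 : ((ψ₀ : L → ℂ) ∘ conjHom L k) ∘ conjHom L k₁ =
        (ψ₀ : L → ℂ) ∘ conjHom L (k * k₁) := comp_conjHom_mul L _ k k₁
    have e2 : ((ψ₀ : L → ℂ) ∘ conjHom L (k * k₁)) ∘ conjHom L ((k * k₁)⁻¹ * (k₁ * k)) =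
        (ψ₀ : L → ℂ) ∘ conjHom L (k * k₁ * ((k * k₁)⁻¹ * (k₁ * k))) :=
      comp_conjHom_mul L _ _ _
    have e3 : ((ψ₀ : L → ℂ) ∘ conjHom L k₁) ∘ conjHom L k =
        (ψ₀ : L → ℂ) ∘ conjHom L (k₁ * k) := comp_conjHom_mul L _ k₁ k
    rw [← h2, ← e1, hfix] at e2
    rw [hψk₁, e3, ← e2, ← hψk₁]
    exact ((hTmem _).mp (hLT hc)).2 ψ hψ
  rcases hchief T hTn hLT hTK with hTL | hTK'
  · -- the stabilizer is `L`: a sum of `[K : L]` distinct constituents
    right; right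
    obtain ⟨o, ho⟩ : ∃ o : K → Cfsg.IrrCharacter L,
        ∀ k : K, (o k : L → ℂ) = (ψ₀ : L → ℂ) ∘ conjHom L (k : G) :=
      ⟨fun k => ⟨_, isIrrCharacter_conjHom L (k : G) ψ₀.2⟩, fun k => rfl⟩
    have hoC : ∀ k : K, m (o k) ≠ 0 := by
      intro k h0
      apply hψ₀
      have h1 := hm' (o k)
      rw [h0, Nat.cast_zero, ho k, hD] at h1
      have h3 := hm' ψ₀
      rw [h1] at h3
      exact_mod_cast h3.symm
    have hfib : ∀ k k' : K, o k = o k' → (k : G) * (k' : G)⁻¹ ∈ L := by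
      intro k k' h
      have h1 : (o k : L → ℂ) = (o k' : L → ℂ) := congrArg Subtype.val h
      rw [ho, ho] at h1
      have h2 : ((ψ₀ : L → ℂ) ∘ conjHom L (k : G)) ∘ conjHom L (k' : G)⁻¹ =
          (ψ₀ : L → ℂ) ∘ conjHom L ((k : G) * (k' : G)⁻¹) := comp_conjHom_mul L _ _ _
      have h3 : ((ψ₀ : L → ℂ) ∘ conjHom L (k' : G)) ∘ conjHom L (k' : G)⁻¹ =
          (ψ₀ : L → ℂ) ∘ conjHom L ((k' : G) * (k' : G)⁻¹) := comp_conjHom_mul L _ _ _
      rw [mul_inv_cancel, hconj1] at h3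
      rw [h1, h3] at h2
      rw [← hTL]
      exact hstab _ (K.mul_mem k.2 (K.inv_mem k'.2)) h2.symm
    have hcardle : Fintype.card K ≤ Fintype.card L * (Finset.univ.image o).card := by
      have h1 := Finset.card_le_mul_card_image (f := o) (Finset.univ : Finset K)
        (Fintype.card L) (by
          intro a ha
          obtain ⟨k₀, -, rfl⟩ := Finset.mem_image.mp ha
          refine (Finset.card_le_card ?_).trans (Finset.card_image_le (s := Finset.univ)
            (f := fun l : L => (⟨(l : G) * (k₀ : G), K.mul_mem (hLK.le l.2) k₀.2⟩ : K)))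
          intro x hx
          have hx' := (Finset.mem_filter.mp hx).2
          rw [Finset.mem_image]
          exact ⟨⟨(x : G) * (k₀ : G)⁻¹, hfib x k₀ hx'⟩, Finset.mem_univ _,
            Subtype.ext (inv_mul_cancel_right (x : G) (k₀ : G))⟩)
      rw [Finset.card_univ] at h1
      exact h1
    have hRle : L.relIndex K ≤ (Finset.univ.image o).card := by
      have h1 := hcardKL
      rw [Nat.card_eq_fintype_card, Nat.card_eq_fintype_card] at h1
      rw [h1, mul_comm (L.relIndex K) _] at hcardle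
      exact Nat.le_of_mul_le_mul_left hcardle Fintype.card_pos
    obtain ⟨C, hCdef⟩ : ∃ C : Finset (Cfsg.IrrCharacter L),
        C = Finset.univ.filter (fun ψ : Cfsg.IrrCharacter L => m ψ ≠ 0) := ⟨_, rfl⟩
    have hCmem : ∀ ψ : Cfsg.IrrCharacter L, ψ ∈ C ↔ m ψ ≠ 0 := by
      intro ψ
      rw [hCdef, Finset.mem_filter]
      exact ⟨fun h => h.2, fun h => ⟨Finset.mem_univ _, h⟩⟩
    have hRC : L.relIndex K ≤ C.card := by
      refine hRle.trans (Finset.card_le_card ?_)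
      intro ψ hψ
      obtain ⟨k, -, rfl⟩ := Finset.mem_image.mp hψ
      exact (hCmem _).mpr (hoC k)
    have hsumC : ∑ ψ ∈ C, m ψ ^ 2 = Q := by
      rw [hCdef, hQdef]
      apply Finset.sum_filter_of_ne
      intro ψ _ h h0
      apply h
      simp [h0]
    have hpos : ∀ ψ ∈ C, 1 ≤ m ψ ^ 2 := by
      intro ψ hψ
      exact Nat.one_le_pow _ _ (Nat.pos_of_ne_zero ((hCmem ψ).mp hψ))
    have hcardCle : C.card ≤ Q := by
      rw [← hsumC, Finset.card_eq_sum_ones]
      exact Finset.sum_le_sum hpos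
    have hone : ∀ ψ ∈ C, m ψ = 1 := by
      intro ψ₁ hψ₁
      by_contra hne
      have h2 : 2 ≤ m ψ₁ := by
        have := (hCmem ψ₁).mp hψ₁
        omega
      have hlt : ∑ ψ ∈ C, 1 < ∑ ψ ∈ C, m ψ ^ 2 := by
        apply Finset.sum_lt_sum hpos
        exact ⟨ψ₁, hψ₁, by nlinarith [h2]⟩
      rw [hsumC, ← Finset.card_eq_sum_ones] at hlt
      omega
    refine ⟨C.map ⟨Subtype.val, Subtype.val_injective⟩, ?_, ?_, ?_⟩
    · intro φ hφ
      obtain ⟨ψ, -, rfl⟩ := Finset.mem_map.mp hφ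
      exact ψ.2
    · rw [Finset.card_map]
      omega
    · have h1 : ∑ χ : Cfsg.IrrCharacter L, (m χ : ℂ) • (χ : L → ℂ) =
          ∑ χ ∈ C, (m χ : ℂ) • (χ : L → ℂ) := by
        rw [hCdef]
        symm
        apply Finset.sum_filter_of_ne
        intro ψ _ h h0
        apply h
        rw [h0, Nat.cast_zero, zero_smul]
      rw [Finset.sum_map, hm, h1]
      apply Finset.sum_congr rfl
      intro ψ hψ
      have h2 : (m ψ : ℂ) • (ψ : L → ℂ) = (ψ : L → ℂ) := by
        rw [hone ψ hψ, Nat.cast_one, one_smul]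
      exact h2
  · -- all constituents are `K`-invariant
    have hinvK : ∀ t ∈ K, ∀ n : L, (ψ₀ : L → ℂ) (conjHom L t n) = (ψ₀ : L → ℂ) n := by
      intro t ht n
      have h1 : t ∈ T := by
        rw [hTK']
        exact ht
      exact congrFun (((hTmem t).mp h1).2 ψ₀ hψ₀) n
    have hcon : Cfsg.classInner (fun n : L => ϑ ⟨(n : G), hLK.le n.2⟩) (ψ₀ : L → ℂ) ≠ 0 := by
      rw [← hϑLdef, hm']
      exact_mod_cast hψ₀
    obtain ⟨f, hf0, hf1, hf2⟩ := restrict_eq_smul_of_invariant_sub L K hLK.le (ψ₀ : L → ℂ)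
      ψ₀.2 hinvK ϑ hϑ hcon
    rw [← hϑLdef] at hf2
    have hQf : Q = f ^ 2 := by
      have h1 : Cfsg.classInner ϑL ϑL = ((f ^ 2 : ℕ) : ℂ) := by
        rw [hf2, classInner_smul_left, classInner_smul_right, classInner_irr_self ψ₀.2,
          Complex.conj_natCast]
        push_cast
        ring
      rw [hQ] at h1
      exact_mod_cast h1
    by_cases hf1' : f = 1
    · left
      rw [hf2, hf1', Nat.cast_one, one_smul]
      exact ψ₀.2
    · right; left
      refine ⟨(ψ₀ : L → ℂ), f, ψ₀.2, hf2, ?_⟩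
      rw [← hQf]
      apply hQeq
      obtain ⟨s, hsdef⟩ : ∃ s : Set G, s = {g | g ∈ L ∨ ∃ h : g ∈ K, ϑ ⟨g, h⟩ ≠ 0} :=
        ⟨_, rfl⟩
      have hsmem : ∀ g : G, g ∈ s ↔ (g ∈ L ∨ ∃ h : g ∈ K, ϑ ⟨g, h⟩ ≠ 0) := by
        intro g
        rw [hsdef]
        exact Iff.rfl
      have hsconj : ∀ (c : G) (x : G), x ∈ s → c * x * c⁻¹ ∈ s := by
        intro c x hx
        rw [hsmem] at hx ⊢
        rcases hx with hx | ⟨hx, hx'⟩
        · left
          exact (inferInstance : L.Normal).conj_mem x hx c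
        · right
          exact ⟨hK.conj_mem x hx c, fun h0 => hx' ((hinv c ⟨x, hx⟩).symm.trans h0)⟩
      have hLS : L ≤ Subgroup.normalClosure s :=
        fun x hx => Subgroup.subset_normalClosure ((hsmem x).mpr (Or.inl hx))
      have hSK : Subgroup.normalClosure s ≤ K := by
        apply Subgroup.normalClosure_le_normal
        intro x hx
        rcases (hsmem x).mp hx with hx | ⟨hx, -⟩
        · exact hLK.le hx
        · exact hx
      rcases hchief (Subgroup.normalClosure s) Subgroup.normalClosure_normal hLS hSK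
        with hS | hS
      · intro k hk
        by_contra hne
        apply hk
        have h1 : (k : G) ∈ Subgroup.normalClosure s :=
          Subgroup.subset_normalClosure ((hsmem _).mpr (Or.inr ⟨k.2, hne⟩))
        rw [hS] at h1
        exact h1
      · exfalso
        have hne1 : Cfsg.classInner (fun n : L.subgroupOf K => ϑ n)
            (fun n : L.subgroupOf K => ϑ n) ≠ 1 := by
          have hres : (fun n : L.subgroupOf K => ϑ n) =
              ϑL ∘ (Subgroup.subgroupOfEquivOfLe hLK.le) := by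
            funext n
            exact (hϑLx ((Subgroup.subgroupOfEquivOfLe hLK.le) n)).symm
          rw [hres, classInner_comp_equiv, hQ, hQf]
          intro h1
          have h2 : f ^ 2 = 1 := by exact_mod_cast h1
          apply hf1'
          have h3 : 0 < f := Nat.pos_of_ne_zero hf0
          nlinarith
        have habK : ∀ g h : K, g * h * g⁻¹ * h⁻¹ ∈ L.subgroupOf K := by
          intro g h
          rw [Subgroup.mem_subgroupOf]
          apply hab
          have h1 : ((g * h * g⁻¹ * h⁻¹ : K) : G) = ⁅(g : G), (h : G)⁆ := by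
            rw [commutatorElement_def]
            rfl
          rw [h1]
          exact Subgroup.commutator_mem_commutator g.2 h.2
        obtain ⟨lam, hlam1, ⟨k₀, hk₀⟩, hlam3⟩ :=
          exists_lam_lead (L.subgroupOf K) habK ϑ hϑ hne1
        have hle : Subgroup.normalClosure s ≤ (lam.ker).map K.subtype := by
          show Subgroup.closure (Group.conjugatesOfSet s) ≤ _
          rw [Subgroup.closure_le]
          intro x hx
          rw [Group.mem_conjugatesOfSet_iff] at hx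
          obtain ⟨b, hb, hbx⟩ := hx
          obtain ⟨c, hc⟩ := isConj_iff.mp hbx
          have hxs : x ∈ s := by
            rw [← hc]
            exact hsconj c b hb
          rcases (hsmem x).mp hxs with hx | ⟨hx, hx'⟩
          · exact Subgroup.mem_map.mpr ⟨⟨x, hLK.le hx⟩,
              MonoidHom.mem_ker.mpr (hlam1 ⟨x, hLK.le hx⟩ hx), rfl⟩
          · exact Subgroup.mem_map.mpr ⟨⟨x, hx⟩, MonoidHom.mem_ker.mpr (hlam3 ⟨x, hx⟩ hx'), rfl⟩
        have hk₀' : (k₀ : G) ∈ (lam.ker).map K.subtype := by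
          apply hle
          rw [hS]
          exact k₀.2
        obtain ⟨y, hy, hyk⟩ := Subgroup.mem_map.mp hk₀'
        have hyk' : y = k₀ := Subtype.ext hyk
        rw [hyk'] at hy
        exact hk₀ (MonoidHom.mem_ker.mp hy)

end Cfsg.Agent.S0857
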