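import Cfsg.Statements.S0860
import Mathlib
import Cfsg.Agent.Lib.Lead.CharPerm


set_option autoImplicit false
open Cfsg

namespace Cfsg.Agent.S0860

/-- Let a group A act on the set of irreducible characters and on the set of conjugacy classes of a finite group G in such a way that (a • χ) evaluated on the class a • C equals χ evaluated on C, for all a, χ and C. Then every element of A fixes exactly as many irreducible characters as it fixes conjugacy classes. -/
theorem result {G : Type*} [Group G] [Finite G] {A : Type*} [Group A] [MulAction A (Cfsg.IrrCharacter G)] [MulAction A (ConjClasses G)] (hcompat : ∀ (a : A) (χ : Cfsg.IrrCharacter G) (g g' : G), ConjClasses.mk g' = a • ConjClasses.mk g → ((a • χ : Cfsg.IrrCharacter G) : G → ℂ) g' = (χ : G → ℂ) g) (a : A) : Nat.card {χ : Cfsg.IrrCharacter G // a • χ = χ} = Nat.card {C : ConjClasses G // a • C = C} := by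
  classical
  obtain ⟨t, ht⟩ : ∃ t : G → G, ∀ g, ConjClasses.mk (t g) = a⁻¹ • ConjClasses.mk g := by
    refine ⟨fun g => (Quotient.exists_rep (a⁻¹ • ConjClasses.mk g)).choose, fun g => ?_⟩
    exact (Quotient.exists_rep (a⁻¹ • ConjClasses.mk g)).choose_spec
  refine Cfsg.Agent.Lib.Lead.brauer_permutation (fun χ => a • χ) t ?_ (fun C => a • C = C) ?_
  · intro χ g
    apply hcompat a χ (t g) g
    rw [ht g, smul_inv_smul]
  · intro g
    rw [← ConjClasses.mk_eq_mk_iff_isConj, ht g]
    constructor
    · intro h
      rw [inv_smul_eq_iff, h]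
    · intro h
      rw [inv_smul_eq_iff] at h
      exact h.symm
end Cfsg.Agent.S0860
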