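import Cfsg.Statements.S0863
import Mathlib
import Cfsg.Agent.Lib.Helper7.CharExt
import Cfsg.Agent.Lib.Helper1.SchmidtStr
import Cfsg.Agent.S0862

set_option autoImplicit false
open Cfsg

namespace Cfsg.Agent.S0863

open Cfsg.Agent.Lib.Lead Cfsg.Agent.Lib.Helper7

universe u

/-- over a solvable quotient, an invariant irreducible character of degree prime to the index
whose determinant extends has a unique extension with the prescribed determinant -/
theorem det_ext : ∀ (k : ℕ) (G : Type u) [Group G] [Finite G] (N : Subgroup G) [hN : N.Normal],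
    N.index = k → Group.IsSolvable (G ⧸ N) → ∀ (ϑ : N → ℂ), Cfsg.IsIrrCharacter N ϑ →
    (∀ (g : G) (n : N), ϑ ⟨g * n * g⁻¹, hN.conj_mem (n : G) n.2 g⟩ = ϑ n) →
    ∀ d : ℕ, ϑ 1 = d → Nat.Coprime N.index d →
    ∀ μ : G → ℂ, Cfsg.IsCharacter G μ → μ 1 = 1 → (∀ n : N, μ n = Cfsg.detChar ϑ n) →
    ∃ χ : G → ℂ, (Cfsg.IsIrrCharacter G χ ∧ (∀ n : N, χ n = ϑ n) ∧ Cfsg.detChar χ = μ) ∧
      ∀ χ' : G → ℂ, Cfsg.IsIrrCharacter G χ' → (∀ n : N, χ' n = ϑ n) →
        Cfsg.detChar χ' = μ → χ' = χ := by
  intro k
  induction k using Nat.strong_induction_on with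
  | _ k ih =>
    intro G _ _ N hN hidx hsolv ϑ hϑ hinv d hd hcop μ hμ hμ1 hμN
    by_cases hk : N.index = 1
    · have hmem : ∀ g : G, g ∈ N := by
        have htop : N = ⊤ := Subgroup.index_eq_one.1 hk
        intro g; rw [htop]; trivial
      let f : G →* N :=
        { toFun := fun g => ⟨g, hmem g⟩, map_one' := rfl, map_mul' := fun _ _ => rfl }
      have hf : Function.Surjective f := fun x => ⟨x, Subtype.ext rfl⟩
      refine ⟨ϑ ∘ f, ⟨isIrrCharacter_comp_surj f hf hϑ, fun x => ?_, ?_⟩, ?_⟩
      · show ϑ (f x) = ϑ x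
        congr 1
      · rw [detChar_comp f (isCharacter_of_isIrrCharacter hϑ)]
        funext g
        show Cfsg.detChar ϑ (f g) = μ g
        rw [← hμN (f g)]
        rfl
      · intro χ' _ hχ' _
        funext g
        exact hχ' (f g)
    · haveI : Nontrivial (G ⧸ N) := by
        rw [← Finite.one_lt_card_iff_nontrivial, ← Subgroup.index_eq_card]
        have h0 : N.index ≠ 0 := Subgroup.index_ne_zero_of_finite
        omega
      haveI := hsolv
      obtain ⟨H, hHn, hHidx⟩ := Cfsg.Agent.Lib.Helper1.exists_normal_prime_index (G := G ⧸ N)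
      obtain ⟨q, hq⟩ : ∃ q, q = H.index := ⟨_, rfl⟩
      rw [← hq] at hHidx
      obtain ⟨M, hMn, hNM, hMidx⟩ : ∃ M : Subgroup G, M.Normal ∧ N ≤ M ∧ M.index = q := by
        refine ⟨H.comap (QuotientGroup.mk' N), hHn.comap _, ?_, ?_⟩
        · intro x hx
          rw [Subgroup.mem_comap]
          have h2 : (QuotientGroup.mk' N) x = 1 := (QuotientGroup.eq_one_iff x).2 hx
          rw [h2]; exact H.one_mem
        · rw [Subgroup.index_comap_of_surjective H (QuotientGroup.mk'_surjective N)]
          exact hq.symm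
      haveI := hMn
      have hrel : (N.subgroupOf M).index * q = N.index := by
        have h1 := Subgroup.relIndex_mul_index hNM
        rw [hMidx] at h1
        exact h1
      have hlt : (N.subgroupOf M).index < k := by
        rw [← hidx, ← hrel]
        have h0 : (N.subgroupOf M).index ≠ 0 := Subgroup.index_ne_zero_of_finite
        have h2 := hHidx.two_le
        nlinarith [Nat.pos_of_ne_zero h0]
      have hsolvM : Group.IsSolvable (↥M ⧸ N.subgroupOf M) := by
        let φ : ↥M ⧸ N.subgroupOf M →* G ⧸ N :=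
          QuotientGroup.map (N.subgroupOf M) N M.subtype (le_refl _)
        have hφ : Function.Injective φ := by
          rw [injective_iff_map_eq_one]
          intro x
          induction x using QuotientGroup.induction_on with
          | H a =>
            intro h
            have h1 : φ (QuotientGroup.mk a) = QuotientGroup.mk (a : G) := rfl
            rw [h1, QuotientGroup.eq_one_iff] at h
            exact (QuotientGroup.eq_one_iff a).2 (Subgroup.mem_subgroupOf.2 h)
        exact solvable_of_solvable_injective hφ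
      let e : N.subgroupOf M →* N := (Subgroup.subgroupOfEquivOfLe hNM).toMonoidHom
      have hesurj : Function.Surjective e := (Subgroup.subgroupOfEquivOfLe hNM).surjective
      have hϑ' : Cfsg.IsIrrCharacter (N.subgroupOf M) (ϑ ∘ e) :=
        isIrrCharacter_comp_surj e hesurj hϑ
      have hϑ'inv : ∀ (g : M) (x : N.subgroupOf M),
          (ϑ ∘ e) ⟨g * x * g⁻¹,
            (inferInstance : (N.subgroupOf M).Normal).conj_mem (x : M) x.2 g⟩ = (ϑ ∘ e) x := by
        intro g x
        show ϑ (e ⟨g * x * g⁻¹, _⟩) = ϑ (e x)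
        rw [← hinv (g : G) (e x)]
        congr 1
      have hϑ'1 : (ϑ ∘ e) 1 = d := by
        show ϑ (e 1) = d
        rw [map_one]; exact hd
      have hcop' : Nat.Coprime (N.subgroupOf M).index d :=
        Nat.Coprime.coprime_dvd_left (Dvd.intro _ hrel) hcop
      have hμM : Cfsg.IsCharacter M (fun y : M => μ y) := isCharacter_restrict M hμ
      have hμM1 : (fun y : M => μ y) 1 = 1 := hμ1
      have hμMN : ∀ n : N.subgroupOf M, (fun y : M => μ y) n = Cfsg.detChar (ϑ ∘ e) n := by
        intro n
        rw [detChar_comp e (isCharacter_of_isIrrCharacter hϑ)]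
        show μ ((n : M) : G) = Cfsg.detChar ϑ (e n)
        rw [← hμN (e n)]
        rfl
      obtain ⟨ψ, ⟨hψ, hψN, hψdet⟩, hψuniq⟩ :=
        ih _ hlt M (N.subgroupOf M) rfl hsolvM (ϑ ∘ e) hϑ' hϑ'inv d hϑ'1 hcop'
          (fun y : M => μ y) hμM hμM1 hμMN
      have hμcl := isClassFunction_of_isCharacter hμ
      have hψinv : ∀ (g : G) (x : M),
          ψ ⟨g * x * g⁻¹, hMn.conj_mem (x : G) x.2 g⟩ = ψ x := by
        intro g x
        have h1 : ψ ∘ conjHom M g = ψ := by
          apply hψuniq
          · exact isIrrCharacter_conjHom M g hψ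
          · intro y
            have hmem : conjHom M g (y : M) ∈ N.subgroupOf M := by
              rw [Subgroup.mem_subgroupOf]
              exact hN.conj_mem _ (Subgroup.mem_subgroupOf.1 y.2) g
            have h2 := hψN ⟨conjHom M g (y : M), hmem⟩
            show ψ (conjHom M g (y : M)) = ϑ (e y)
            rw [h2]
            show ϑ (e ⟨conjHom M g (y : M), hmem⟩) = ϑ (e y)
            rw [← hinv g (e y)]
            congr 1
          · rw [detChar_comp (conjHom M g) (isCharacter_of_isIrrCharacter hψ), hψdet]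
            funext y
            show μ ((conjHom M g y : M) : G) = μ (y : G)
            exact hμcl (y : G) g
        exact congrFun h1 x
      have hψ1 : ψ 1 = d := by
        have h2 := hψN 1
        rw [hϑ'1] at h2
        exact h2
      have hcopM : Nat.Coprime M.index d := by
        rw [hMidx]
        exact Nat.Coprime.coprime_dvd_left (Dvd.intro_left _ hrel) hcop
      have hextM := ext_prime_index q hHidx M hMidx ψ hψ hψinv
      obtain ⟨χ, ⟨hχ, hχM, hχdet⟩, hχuniq⟩ :=
        Cfsg.Agent.S0862.result M ψ hψ d hψ1 hcopM hextM μ ⟨hμ, hμ1⟩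
          (fun n => by rw [hψdet])
      have hext : ∀ (φ : G → ℂ), (∀ x : M, φ x = ψ x) → ∀ x : N, φ x = ϑ x := by
        intro φ hφ x
        have h1 := hφ ⟨x, hNM x.2⟩
        have h2 := hψN ⟨⟨x, hNM x.2⟩, Subgroup.mem_subgroupOf.2 x.2⟩
        have h3 : φ (x : G) = ψ ⟨x, hNM x.2⟩ := h1
        rw [h3]
        have h4 : ψ ⟨x, hNM x.2⟩ = ϑ (e ⟨⟨x, hNM x.2⟩, Subgroup.mem_subgroupOf.2 x.2⟩) := h2
        rw [h4]
        congr 1
      refine ⟨χ, ⟨hχ, hext χ hχM, hχdet⟩, ?_⟩
      intro χ' hχ' hχ'N hχ'det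
      have hχ'c := isCharacter_of_isIrrCharacter hχ'
      have hres : (fun y : M => χ' y) = ψ := by
        apply hψuniq
        · apply irr_of_restrict_irr (N.subgroupOf M) (isCharacter_restrict M hχ'c)
          have h1 : (fun h : N.subgroupOf M => (fun y : M => χ' y) h) = ϑ ∘ e := by
            funext h
            show χ' ((h : M) : G) = ϑ (e h)
            exact hχ'N (e h)
          rw [h1]; exact hϑ'
        · intro y
          show χ' ((y : M) : G) = ϑ (e y)
          exact hχ'N (e y)
        · funext x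
          rw [detChar_restrict M hχ'c x, hχ'det]
      exact hχuniq χ' ⟨hχ', fun x => congrFun hres x, hχ'det⟩

/-- Let N be a normal subgroup of the finite group G with G / N solvable, and ϑ an irreducible character of N, invariant under conjugation by G, of degree d coprime to the index of N. Then ϑ is the restriction of an irreducible character of G if and only if the determinantal character of ϑ is the restriction of a character of G of degree 1. -/
theorem result {G : Type*} [Group G] [Finite G] (N : Subgroup G) [hN : N.Normal] (hsolv : Group.IsSolvable (G ⧸ N)) (ϑ : N → ℂ) (hϑ : Cfsg.IsIrrCharacter N ϑ) (hinv : ∀ (g : G) (n : N), ϑ ⟨g * n * g⁻¹, hN.conj_mem (n : G) n.2 g⟩ = ϑ n) (d : ℕ) (hd : ϑ 1 = d) (hcop : Nat.Coprime N.index d) : (∃ χ : G → ℂ, Cfsg.IsIrrCharacter G χ ∧ (∀ n : N, χ n = ϑ n)) ↔ ∃ μ : G → ℂ, Cfsg.IsCharacter G μ ∧ μ 1 = 1 ∧ ∀ n : N, μ n = Cfsg.detChar ϑ n := by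
  constructor
  · rintro ⟨χ, hχ, hχN⟩
    have hχc := isCharacter_of_isIrrCharacter hχ
    obtain ⟨δ, hδ⟩ := exists_detHom hχc
    refine ⟨Cfsg.detChar χ, ?_, detChar_one hχc, ?_⟩
    · have h1 := isCharacter_of_isIrrCharacter (isIrr_twist δ (isIrrCharacter_one G))
      have h2 : Cfsg.detChar χ = fun g => (δ g : ℂ) * (fun _ => (1 : ℂ)) g := by
        funext g
        rw [hδ, mul_one]
      rw [h2]; exact h1
    · intro n
      have h1 := detChar_restrict N hχc n
      rw [show (fun n : N => χ n) = ϑ from funext hχN] at h1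
      exact h1.symm
  · rintro ⟨μ, hμ, hμ1, hμN⟩
    obtain ⟨χ, ⟨hχ, hχN, -⟩, -⟩ :=
      det_ext N.index G N rfl hsolv ϑ hϑ hinv d hd hcop μ hμ hμ1 hμN
    exact ⟨χ, hχ, hχN⟩

end Cfsg.Agent.S0863
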