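import Cfsg.Statements.S0869
import Mathlib


set_option autoImplicit false
open Cfsg

namespace Cfsg.Agent.S0869

/-- Let S be a nonempty finite type and R an additive subgroup of the integer-valued functions on S that is closed under pointwise multiplication. If the constant function 1 is not in R, then there exist a point x of S and a prime p such that p divides f x for every f in R. -/
theorem result {S : Type*} [Finite S] [Nonempty S] (R : AddSubgroup (S → ℤ)) (hmul : ∀ f ∈ R, ∀ g ∈ R, f * g ∈ R) (h1 : (1 : S → ℤ) ∉ R) : ∃ (x : S) (p : ℕ), p.Prime ∧ ∀ f ∈ R, (p : ℤ) ∣ f x := by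
  classical
  haveI := Fintype.ofFinite S
  by_contra h
  push Not at h
  have key : ∀ x : S, ∃ f ∈ R, f x = 1 := by
    intro x
    obtain ⟨n, hn⟩ := Int.subgroup_cyclic (R.map (Pi.evalAddMonoidHom (fun _ : S => ℤ) x))
    have hmem : ∀ f ∈ R, f x ∈ AddSubgroup.closure ({n} : Set ℤ) := by
      intro f hf
      rw [← hn]
      exact ⟨f, hf, rfl⟩
    by_cases h1 : n.natAbs = 1
    · have hnmem : n ∈ R.map (Pi.evalAddMonoidHom (fun _ : S => ℤ) x) := by
        rw [hn]; exact AddSubgroup.subset_closure (Set.mem_singleton n)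
      obtain ⟨f, hf, hfx⟩ := hnmem
      have hfx' : f x = n := hfx
      rcases Int.natAbs_eq n with h2 | h2
      · refine ⟨f, hf, ?_⟩
        rw [hfx', h2, h1]; rfl
      · refine ⟨-f, R.neg_mem hf, ?_⟩
        rw [Pi.neg_apply, hfx', h2, h1]; simp
    · exfalso
      obtain ⟨p, hp, hpd⟩ := Nat.exists_prime_and_dvd h1
      obtain ⟨f, hf, hfx⟩ := h x p hp
      apply hfx
      have h3 := hmem f hf
      rw [AddSubgroup.mem_closure_singleton] at h3
      obtain ⟨k, hk⟩ := h3
      rw [← hk]
      have h4 : (p : ℤ) ∣ n := Int.natCast_dvd.2 hpd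
      exact Dvd.dvd.mul_left h4 k |>.trans (by simp)
  choose F hFR hF1 using key
  have hind : ∀ T : Finset S, (1 - ∏ x ∈ T, (1 - F x)) ∈ R := by
    intro T
    induction T using Finset.induction_on with
    | empty => simp
    | insert a T ha ih =>
      rw [Finset.prod_insert ha]
      have e : (1 - (1 - F a) * ∏ x ∈ T, (1 - F x)) =
          (1 - ∏ x ∈ T, (1 - F x)) + F a - F a * (1 - ∏ x ∈ T, (1 - F x)) := by ring
      rw [e]
      exact R.sub_mem (R.add_mem ih (hFR a)) (hmul _ (hFR a) _ ih)
  have hzero : ∏ x : S, (1 - F x) = 0 := by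
    funext y
    rw [Finset.prod_apply]
    apply Finset.prod_eq_zero (Finset.mem_univ y)
    simp [hF1 y]
  have := hind Finset.univ
  rw [hzero, sub_zero] at this
  exact h1 this
end Cfsg.Agent.S0869
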