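import Cfsg.Statements.S0870
import Mathlib
import Cfsg.Agent.Lib.Lead.SylowAux2
import Cfsg.Agent.Lib.Lead.CharInd

set_option autoImplicit false
open Cfsg Cfsg.Agent.Lib.Lead

namespace Cfsg.Agent.S0870

open scoped Pointwise commutatorElement

/-- For subgroups H and K of a finite group G, the pointwise product of the functions induced from the constant function 1 on H and on K is a sum, over subgroups U of H with natural-number coefficients, of the functions induced from the constant function 1 on U. -/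
theorem result {G : Type*} [Group G] [Fintype G] (H K : Subgroup G) : ∃ a : Subgroup G → ℕ, (∀ U, a U ≠ 0 → U ≤ H) ∧ Cfsg.indFun H (fun _ => 1) * Cfsg.indFun K (fun _ => 1) = ∑ U : Subgroup G, (a U : ℂ) • Cfsg.indFun U (fun _ => 1) := by
  classical
  letI act : MulAction (H × K) G :=
    { smul := fun hk w => (hk.1 : G) * w * ((hk.2 : G))⁻¹
      one_smul := fun w => by
        show ((1 : H × K).1 : G) * w * (((1 : H × K).2 : G))⁻¹ = w
        simp
      mul_smul := fun a b w => by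
        show ((a * b).1 : G) * w * (((a * b).2 : G))⁻¹
          = (a.1 : G) * ((b.1 : G) * w * ((b.2 : G))⁻¹) * ((a.2 : G))⁻¹
        simp [mul_assoc] }
  have hsmul : ∀ (hk : H × K) (w : G), hk • w = (hk.1 : G) * w * ((hk.2 : G))⁻¹ :=
    fun _ _ => rfl
  let T : G → Subgroup G := fun w => H ⊓ K.comap (MulAut.conj w⁻¹).toMonoidHom
  have hT : ∀ (w y : G), y ∈ T w ↔ y ∈ H ∧ w⁻¹ * y * w ∈ K := by
    intro w y
    show y ∈ H ⊓ K.comap (MulAut.conj w⁻¹).toMonoidHom ↔ _
    rw [Subgroup.mem_inf, Subgroup.mem_comap]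
    have : (MulAut.conj w⁻¹).toMonoidHom y = w⁻¹ * y * w := by
      show w⁻¹ * y * (w⁻¹)⁻¹ = _
      rw [inv_inv]
    rw [this]
  let cnt : Subgroup G → G → ℂ := fun U g => ∑ x : G, if x⁻¹ * g * x ∈ U then (1:ℂ) else 0
  have hind : ∀ (U : Subgroup G) (g : G),
      Cfsg.indFun U (fun _ => (1:ℂ)) g = (Nat.card U : ℂ)⁻¹ * cnt U g := by
    intro U g
    unfold Cfsg.indFun
    show _ = (Nat.card U : ℂ)⁻¹ * ∑ x : G, if x⁻¹ * g * x ∈ U then (1:ℂ) else 0
    congr 1
    refine Finset.sum_congr rfl (fun x _ => ?_)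
    by_cases hx : x⁻¹ * g * x ∈ U
    · rw [if_pos hx, extendByZero_mem U _ hx]
    · rw [if_neg hx, extendByZero_not_mem U _ hx]
  have hprod : ∀ g : G, cnt H g * cnt K g = ∑ w : G, cnt (T w) g := by
    intro g
    show (∑ x : G, if x⁻¹ * g * x ∈ H then (1:ℂ) else 0)
        * (∑ y : G, if y⁻¹ * g * y ∈ K then (1:ℂ) else 0)
      = ∑ w : G, ∑ x : G, if x⁻¹ * g * x ∈ T w then (1:ℂ) else 0
    rw [Finset.sum_comm, Finset.sum_mul]
    refine Finset.sum_congr rfl (fun x _ => ?_)
    have hre : (∑ y : G, if y⁻¹ * g * y ∈ K then (1:ℂ) else 0)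
        = ∑ w : G, if (x * w)⁻¹ * g * (x * w) ∈ K then (1:ℂ) else 0 :=
      (Equiv.sum_comp (Equiv.mulLeft x) (fun y => if y⁻¹ * g * y ∈ K then (1:ℂ) else 0)).symm
    rw [hre, Finset.mul_sum]
    refine Finset.sum_congr rfl (fun w _ => ?_)
    have hw : (x * w)⁻¹ * g * (x * w) = w⁻¹ * (x⁻¹ * g * x) * w := by group
    rw [hw]
    by_cases h1 : x⁻¹ * g * x ∈ H
    · by_cases h2 : w⁻¹ * (x⁻¹ * g * x) * w ∈ K
      · rw [if_pos h1, if_pos h2, if_pos ((hT w _).mpr ⟨h1, h2⟩), mul_one]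
      · rw [if_pos h1, if_neg h2, if_neg (fun h => h2 ((hT w _).mp h).2), mul_zero]
    · rw [if_neg h1, if_neg (fun h => h1 ((hT w _).mp h).1), zero_mul]
  have hTconj : ∀ (hk : H × K) (w y : G),
      y ∈ T (hk • w) ↔ (hk.1 : G)⁻¹ * y * (hk.1 : G) ∈ T w := by
    intro hk w y
    rw [hT, hT, hsmul]
    have e1 : ((hk.1 : G) * w * ((hk.2 : G))⁻¹)⁻¹ * y * ((hk.1 : G) * w * ((hk.2 : G))⁻¹)
        = (hk.2 : G) * (w⁻¹ * ((hk.1 : G)⁻¹ * y * (hk.1 : G)) * w) * ((hk.2 : G))⁻¹ := by group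
    rw [e1]
    constructor
    · rintro ⟨h1, h2⟩
      refine ⟨H.mul_mem (H.mul_mem (H.inv_mem hk.1.2) h1) hk.1.2, ?_⟩
      have h3 := K.mul_mem (K.mul_mem (K.inv_mem hk.2.2) h2) hk.2.2
      have e2 : ((hk.2 : G))⁻¹ * ((hk.2 : G) * (w⁻¹ * ((hk.1 : G)⁻¹ * y * (hk.1 : G)) * w)
          * ((hk.2 : G))⁻¹) * (hk.2 : G) = w⁻¹ * ((hk.1 : G)⁻¹ * y * (hk.1 : G)) * w := by group
      rw [e2] at h3
      exact h3
    · rintro ⟨h1, h2⟩
      refine ⟨?_, K.mul_mem (K.mul_mem hk.2.2 h2) (K.inv_mem hk.2.2)⟩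
      have h3 := H.mul_mem (H.mul_mem hk.1.2 h1) (H.inv_mem hk.1.2)
      have e3 : (hk.1 : G) * ((hk.1 : G)⁻¹ * y * (hk.1 : G)) * ((hk.1 : G))⁻¹ = y := by group
      rw [e3] at h3
      exact h3
  have hcnt_orb : ∀ (hk : H × K) (w g : G), cnt (T (hk • w)) g = cnt (T w) g := by
    intro hk w g
    show (∑ x : G, if x⁻¹ * g * x ∈ T (hk • w) then (1:ℂ) else 0)
      = ∑ x : G, if x⁻¹ * g * x ∈ T w then (1:ℂ) else 0
    refine Eq.trans ?_ (Equiv.sum_comp (Equiv.mulRight (hk.1 : G))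
      (fun x => if x⁻¹ * g * x ∈ T w then (1:ℂ) else 0))
    refine Finset.sum_congr rfl (fun x _ => ?_)
    show (if x⁻¹ * g * x ∈ T (hk • w) then (1:ℂ) else 0)
      = if (x * (hk.1 : G))⁻¹ * g * (x * (hk.1 : G)) ∈ T w then (1:ℂ) else 0
    have e : (x * (hk.1 : G))⁻¹ * g * (x * (hk.1 : G))
        = (hk.1 : G)⁻¹ * (x⁻¹ * g * x) * (hk.1 : G) := by group
    rw [e]
    exact if_congr (hTconj hk w _) rfl rfl
  have hstab : ∀ t : G, Nat.card (MulAction.stabilizer (H × K) t) = Nat.card (T t) := by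
    intro t
    have hmem : ∀ s : H × K, s ∈ MulAction.stabilizer (H × K) t
        ↔ (s.2 : G) = t⁻¹ * (s.1 : G) * t := by
      intro s
      rw [MulAction.mem_stabilizer_iff, hsmul]
      constructor
      · intro h
        have h' := mul_inv_eq_iff_eq_mul.mp h
        rw [mul_assoc, h', inv_mul_cancel_left]
      · intro h
        rw [h]; group
    refine Nat.card_congr
      { toFun := fun s => ⟨(s.1.1 : G), (hT t _).mpr ⟨s.1.1.2, by
            have h := (hmem s.1).mp s.2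
            rw [← h]; exact s.1.2.2⟩⟩
        invFun := fun u => ⟨(⟨(u : G), ((hT t _).mp u.2).1⟩,
            ⟨t⁻¹ * (u : G) * t, ((hT t _).mp u.2).2⟩), (hmem _).mpr rfl⟩
        left_inv := fun s => by
          apply Subtype.ext
          apply Prod.ext
          · rfl
          · apply Subtype.ext
            exact ((hmem s.1).mp s.2).symm
        right_inv := fun u => Subtype.ext rfl }
  have horb : ∀ t : G, Nat.card (MulAction.orbit (H × K) t) * Nat.card (T t)
      = Nat.card H * Nat.card K := by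
    intro t
    rw [← hstab t, Nat.card_congr (MulAction.orbitEquivQuotientStabilizer (H × K) t)]
    have h := Subgroup.card_eq_card_quotient_mul_card_subgroup
      (MulAction.stabilizer (H × K) t)
    rw [← h, Nat.card_prod]
  let rep : G → G := fun w => (Quotient.mk (MulAction.orbitRel (H × K) G) w).out
  have hrep_mem : ∀ w : G, rep w ∈ MulAction.orbit (H × K) w := by
    intro w
    have h1 : Quotient.mk (MulAction.orbitRel (H × K) G) (rep w)
        = Quotient.mk (MulAction.orbitRel (H × K) G) w := Quotient.out_eq _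
    exact Quotient.exact h1
  have hrep_eq : ∀ w t : G, w ∈ MulAction.orbit (H × K) t → rep w = rep t := by
    intro w t hw
    have h1 : Quotient.mk (MulAction.orbitRel (H × K) G) w
        = Quotient.mk (MulAction.orbitRel (H × K) G) t := Quotient.sound hw
    show (Quotient.mk (MulAction.orbitRel (H × K) G) w).out
      = (Quotient.mk (MulAction.orbitRel (H × K) G) t).out
    rw [h1]
  let R : Finset G := Finset.univ.image rep
  have hfib : ∀ t ∈ R, (Finset.univ.filter (fun w => rep w = t)).card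
      = Nat.card (MulAction.orbit (H × K) t) := by
    intro t ht
    obtain ⟨w₀, -, rfl⟩ := Finset.mem_image.mp ht
    have hidem : rep (rep w₀) = rep w₀ := hrep_eq _ _ (hrep_mem w₀)
    have hset : MulAction.orbit (H × K) (rep w₀)
        = ↑(Finset.univ.filter (fun w => rep w = rep w₀)) := by
      ext w
      rw [Finset.mem_coe, Finset.mem_filter]
      constructor
      · intro hw
        exact ⟨Finset.mem_univ _, (hrep_eq w _ hw).trans hidem⟩
      · rintro ⟨-, hw⟩
        have h1 : rep w ∈ MulAction.orbit (H × K) w := hrep_mem w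
        rw [hw] at h1
        obtain ⟨hk, hhk⟩ := MulAction.mem_orbit_iff.mp h1
        exact MulAction.mem_orbit_iff.mpr ⟨hk⁻¹, by rw [← hhk, inv_smul_smul]⟩
    calc (Finset.univ.filter (fun w => rep w = rep w₀)).card
        = (↑(Finset.univ.filter (fun w => rep w = rep w₀)) : Set G).ncard :=
          (Set.ncard_coe_finset _).symm
      _ = (MulAction.orbit (H × K) (rep w₀)).ncard := by rw [hset]
      _ = Nat.card (MulAction.orbit (H × K) (rep w₀)) := (Nat.card_coe_set_eq _).symm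
  have hcnt_rep : ∀ (w g : G), cnt (T (rep w)) g = cnt (T w) g := by
    intro w g
    obtain ⟨hk, hhk⟩ := MulAction.mem_orbit_iff.mp (hrep_mem w)
    rw [← hhk]
    exact hcnt_orb hk w g
  have hsum : ∀ g : G, ∑ w : G, cnt (T w) g
      = ∑ t ∈ R, (Nat.card (MulAction.orbit (H × K) t) : ℂ) * cnt (T t) g := by
    intro g
    have h1 : ∑ w : G, cnt (T w) g = ∑ w : G, cnt (T (rep w)) g :=
      Finset.sum_congr rfl (fun w _ => (hcnt_rep w g).symm)
    have h2 : ∑ w : G, cnt (T (rep w)) g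
        = ∑ t ∈ R, (Finset.univ.filter (fun w => rep w = t)).card • cnt (T t) g :=
      Finset.sum_comp (fun t => cnt (T t) g) rep
    rw [h1, h2]
    refine Finset.sum_congr rfl (fun t ht => ?_)
    rw [hfib t ht, nsmul_eq_mul]
  refine ⟨fun U => (R.filter (fun t => T t = U)).card, ?_, ?_⟩
  · intro U hU
    obtain ⟨t, ht⟩ := Finset.card_ne_zero.mp hU
    have htU : T t = U := (Finset.mem_filter.mp ht).2
    rw [← htU]
    intro y hy
    exact ((hT t y).mp hy).1
  · funext g
    have hL : Cfsg.indFun H (fun _ => (1:ℂ)) g * Cfsg.indFun K (fun _ => (1:ℂ)) g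
        = ∑ t ∈ R, (Nat.card (T t) : ℂ)⁻¹ * cnt (T t) g := by
      rw [hind H g, hind K g]
      have e1 : (Nat.card H : ℂ)⁻¹ * cnt H g * ((Nat.card K : ℂ)⁻¹ * cnt K g)
          = (Nat.card H : ℂ)⁻¹ * (Nat.card K : ℂ)⁻¹ * (cnt H g * cnt K g) := by ring
      rw [e1, hprod g, hsum g, Finset.mul_sum]
      refine Finset.sum_congr rfl (fun t _ => ?_)
      have hH : (Nat.card H : ℂ) ≠ 0 := Nat.cast_ne_zero.mpr Nat.card_pos.ne'
      have hK : (Nat.card K : ℂ) ≠ 0 := Nat.cast_ne_zero.mpr Nat.card_pos.ne'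
      have hTt : (Nat.card (T t) : ℂ) ≠ 0 := Nat.cast_ne_zero.mpr Nat.card_pos.ne'
      have ho : (Nat.card (MulAction.orbit (H × K) t) : ℂ) * (Nat.card (T t) : ℂ)
          = (Nat.card H : ℂ) * (Nat.card K : ℂ) := by exact_mod_cast horb t
      have ho' : (Nat.card (MulAction.orbit (H × K) t) : ℂ)
          = (Nat.card H : ℂ) * (Nat.card K : ℂ) * (Nat.card (T t) : ℂ)⁻¹ := by
        rw [← ho, mul_assoc, mul_inv_cancel₀ hTt, mul_one]
      rw [ho']
      have e2 : (Nat.card H : ℂ)⁻¹ * (Nat.card K : ℂ)⁻¹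
            * ((Nat.card H : ℂ) * (Nat.card K : ℂ) * (Nat.card (T t) : ℂ)⁻¹ * cnt (T t) g)
          = ((Nat.card H : ℂ)⁻¹ * (Nat.card H : ℂ)) * ((Nat.card K : ℂ)⁻¹ * (Nat.card K : ℂ))
            * ((Nat.card (T t) : ℂ)⁻¹ * cnt (T t) g) := by ring
      rw [e2, inv_mul_cancel₀ hH, inv_mul_cancel₀ hK, one_mul, one_mul]
    have hRs : (∑ U : Subgroup G, (((R.filter (fun t => T t = U)).card : ℕ) : ℂ)
          • Cfsg.indFun U (fun _ => (1:ℂ))) g
        = ∑ t ∈ R, (Nat.card (T t) : ℂ)⁻¹ * cnt (T t) g := by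
      rw [Finset.sum_apply]
      have e1 : ∀ U : Subgroup G, ((((R.filter (fun t => T t = U)).card : ℕ) : ℂ)
            • Cfsg.indFun U (fun _ => (1:ℂ))) g
          = ∑ t ∈ R, if T t = U then (Nat.card U : ℂ)⁻¹ * cnt U g else 0 := by
        intro U
        rw [Pi.smul_apply, smul_eq_mul, hind U g, Finset.card_filter, Nat.cast_sum,
          Finset.sum_mul]
        refine Finset.sum_congr rfl (fun t _ => ?_)
        by_cases h : T t = U
        · rw [if_pos h, if_pos h, Nat.cast_one, one_mul]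
        · rw [if_neg h, if_neg h, Nat.cast_zero, zero_mul]
      have e2 : ∑ U : Subgroup G, ((((R.filter (fun t => T t = U)).card : ℕ) : ℂ)
            • Cfsg.indFun U (fun _ => (1:ℂ))) g
          = ∑ U : Subgroup G, ∑ t ∈ R, if T t = U then (Nat.card U : ℂ)⁻¹ * cnt U g else 0 :=
        Finset.sum_congr rfl (fun U _ => e1 U)
      rw [e2, Finset.sum_comm]
      refine Finset.sum_congr rfl (fun t _ => ?_)
      rw [Finset.sum_ite_eq, if_pos (Finset.mem_univ _)]
    exact hL.trans hRs.symm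

end Cfsg.Agent.S0870
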