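import Cfsg.Statements.S0875
import Mathlib
import Cfsg.Agent.Lib.Lead.SylowAux2
import Cfsg.Agent.Lib.Lead.BrauerR
import Cfsg.Agent.Lib.Lead.CharComplete
import Cfsg.Agent.Lib.Lead.CharCongr

set_option autoImplicit false
open Cfsg Cfsg.Agent.Lib.Lead

namespace Cfsg.Agent.S0875

open scoped Pointwise commutatorElement

/-- Let G be a finite group of order m * n with m and n coprime, and g an element whose order is coprime to m. Every x in G factors uniquely as x = u * v with u, v commuting, the order of u coprime to n and the order of v coprime to m; let ϑ be the function on G equal to n at those x whose factor v is conjugate to g and equal to 0 elsewhere. Then ϑ is a linear combination of the irreducible characters of G with algebraic-integer coefficients. -/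
theorem result {G : Type*} [Group G] [Fintype G] (m n : ℕ) (hmn : Nat.card G = m * n) (hcop : Nat.Coprime m n) (g : G) (hg : Nat.Coprime (orderOf g) m) (ϑ : G → ℂ) (hϑ1 : ∀ x : G, (∃ v : G, IsConj v g ∧ (∃ u : G, x = u * v ∧ Commute u v ∧ Nat.Coprime (orderOf u) n ∧ Nat.Coprime (orderOf v) m)) → ϑ x = n) (hϑ0 : ∀ x : G, (¬ ∃ v : G, IsConj v g ∧ (∃ u : G, x = u * v ∧ Commute u v ∧ Nat.Coprime (orderOf u) n ∧ Nat.Coprime (orderOf v) m)) → ϑ x = 0) : ∃ c : Cfsg.IrrCharacter G → ℂ, (∀ χ, c χ ∈ Cfsg.AlgInt) ∧ ϑ = ∑ᶠ χ : Cfsg.IrrCharacter G, c χ • (χ : G → ℂ) := by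
  classical
  haveI : Fintype (Cfsg.IrrCharacter G) := Fintype.ofFinite _
  obtain ⟨c, hc0, hc1⟩ := Nat.chineseRemainder hcop 0 1
  obtain ⟨c', hc'1, hc'0⟩ := Nat.chineseRemainder hcop 1 0
  have hmc : m ∣ c := Nat.modEq_zero_iff_dvd.mp hc0
  have hnc' : n ∣ c' := Nat.modEq_zero_iff_dvd.mp hc'0
  have hsumG : ∀ x : G, x ^ c * x ^ c' = x := by
    intro x
    have h1 : c + c' ≡ 1 [MOD m * n] := by
      apply (Nat.modEq_and_modEq_iff_modEq_mul hcop).mp
      constructor
      · have h3 : c + c' ≡ 0 + 1 [MOD m] := Nat.ModEq.add hc0 hc'1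
        rwa [zero_add] at h3
      · have h3 : c + c' ≡ 1 + 0 [MOD n] := Nat.ModEq.add hc1 hc'0
        rwa [add_zero] at h3
    have h2 : x ^ (c + c') = x ^ 1 := by
      rw [pow_eq_pow_iff_modEq]
      exact Nat.ModEq.of_dvd (by rw [← hmn]; exact orderOf_dvd_natCard x) h1
    rw [← pow_add, h2, pow_one]
  have hvn : ∀ x : G, (x ^ c) ^ n = 1 := by
    intro x
    obtain ⟨d, hd⟩ := hmc
    rw [← pow_mul, hd, mul_assoc, mul_comm d n, ← mul_assoc, ← hmn, pow_mul, pow_card_eq_one',
      one_pow]
  have hum : ∀ x : G, (x ^ c') ^ m = 1 := by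
    intro x
    obtain ⟨d, hd⟩ := hnc'
    rw [← pow_mul, hd, mul_comm (n * d) m, ← mul_assoc, ← hmn, pow_mul, pow_card_eq_one',
      one_pow]
  have hiff : ∀ x : G, (∃ v : G, IsConj v g ∧ (∃ u : G, x = u * v ∧ Commute u v ∧
      Nat.Coprime (orderOf u) n ∧ Nat.Coprime (orderOf v) m)) ↔ IsConj (x ^ c) g := by
    intro x
    constructor
    · rintro ⟨v, hv, u, rfl, hcomm, hu, hv'⟩
      have h1 : orderOf u ∣ m := by
        have h2 : orderOf u ∣ m * n := by rw [← hmn]; exact orderOf_dvd_natCard u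
        exact hu.dvd_of_dvd_mul_right h2
      have h3 : orderOf v ∣ n := by
        have h2 : orderOf v ∣ m * n := by rw [← hmn]; exact orderOf_dvd_natCard v
        exact hv'.dvd_of_dvd_mul_left h2
      have h4 : u ^ c = 1 := orderOf_dvd_iff_pow_eq_one.mp (dvd_trans h1 hmc)
      have h5 : v ^ c = v := by
        have h6 : v ^ c = v ^ 1 := by
          rw [pow_eq_pow_iff_modEq]
          exact Nat.ModEq.of_dvd h3 hc1
        rw [h6, pow_one]
      rw [hcomm.mul_pow, h4, h5, one_mul]
      exact hv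
    · intro h
      refine ⟨x ^ c, h, x ^ c', ?_, (Commute.refl x).pow_pow c' c, ?_, ?_⟩
      · rw [← pow_add, add_comm, pow_add]; exact (hsumG x).symm
      · exact Nat.Coprime.coprime_dvd_left (orderOf_dvd_of_pow_eq_one (hum x)) hcop
      · exact Nat.Coprime.coprime_dvd_left (orderOf_dvd_of_pow_eq_one (hvn x)) hcop.symm
  have hϑ : ∀ x : G, ϑ x = if IsConj (x ^ c) g then (n : ℂ) else 0 := by
    intro x
    by_cases h : IsConj (x ^ c) g
    · rw [if_pos h]; exact hϑ1 x ((hiff x).mpr h)
    · rw [if_neg h]; exact hϑ0 x (fun h' => h ((hiff x).mp h'))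
  have hcl : Cfsg.IsClassFunction G ϑ := by
    intro x h
    rw [hϑ, hϑ]
    have h2 : IsConj ((h * x * h⁻¹) ^ c) g ↔ IsConj (x ^ c) g := by
      rw [conj_pow]
      exact isConj_conj_left_iff_lead (x ^ c) h g
    by_cases h3 : IsConj (x ^ c) g
    · rw [if_pos h3, if_pos (h2.mpr h3)]
    · rw [if_neg h3, if_neg (fun h4 => h3 (h2.mp h4))]
  have hint : ∀ χ : G → ℂ, Cfsg.IsIrrCharacter G χ → IsIntegral ℤ (Cfsg.classInner ϑ χ) := by
    apply rbrauer_lead ϑ hcl
    intro E q hq hEl _ β hβ
    have hcardE : Nat.card E ∣ m * n := by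
      rw [← hmn]; exact Subgroup.card_subgroup_dvd_card E
    have hsumE : ∀ x : E, x ^ c * x ^ c' = x := by
      intro x
      apply Subtype.ext
      rw [Subgroup.coe_mul, Subgroup.coe_pow, Subgroup.coe_pow]
      exact hsumG (x : G)
    have hmul := pow_crt_mul_lead q hq hEl m n c c' hcop hcardE hmc hnc' hsumE
    obtain ⟨fE, hfE⟩ : ∃ fE : E →* E, ∀ x : E, fE x = x ^ c :=
      ⟨⟨⟨fun x => x ^ c, one_pow c⟩, hmul⟩, fun x => rfl⟩
    haveI : Fintype fE.range := Fintype.ofFinite _
    haveI : Fintype (Cfsg.IrrCharacter fE.range) := Fintype.ofFinite _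
    have hsurj : Function.Surjective fE.rangeRestrict := fE.rangeRestrict_surjective
    have hval : ∀ x : E, ((fE.rangeRestrict x : fE.range) : E) = x ^ c := fun x => hfE x
    obtain ⟨ψ, hψdef⟩ : ∃ ψ : fE.range → ℂ, ψ = fun y : fE.range =>
        if IsConj (((y : E) : G)) g then (n : ℂ) else 0 := ⟨_, rfl⟩
    have hψcl : Cfsg.IsClassFunction fE.range ψ := by
      intro y h
      rw [hψdef]
      show (if IsConj ((((h * y * h⁻¹ : fE.range) : E) : G)) g then (n : ℂ) else 0) =
        if IsConj (((y : E) : G)) g then (n : ℂ) else 0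
      have h2 : IsConj ((((h * y * h⁻¹ : fE.range) : E) : G)) g ↔ IsConj (((y : E) : G)) g :=
        isConj_conj_left_iff_lead ((y : E) : G) ((h : E) : G) g
      by_cases h3 : IsConj (((y : E) : G)) g
      · rw [if_pos h3, if_pos (h2.mpr h3)]
      · rw [if_neg h3, if_neg (fun h4 => h3 (h2.mp h4))]
    have hcomp : (fun e : E => ϑ e) = ψ ∘ fE.rangeRestrict := by
      funext e
      show ϑ (e : G) = ψ (fE.rangeRestrict e)
      rw [hϑ, hψdef]
      show (if IsConj ((e : G) ^ c) g then (n : ℂ) else 0) =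
        if IsConj ((((fE.rangeRestrict e : fE.range) : E) : G)) g then (n : ℂ) else 0
      rw [hval e, Subgroup.coe_pow]
    rw [hcomp]
    have hexp := classFunction_expansion_sum ψ hψcl
    have hcomp2 : ψ ∘ fE.rangeRestrict = ∑ γ : Cfsg.IrrCharacter fE.range,
        Cfsg.classInner ψ (γ : fE.range → ℂ) • ((γ : fE.range → ℂ) ∘ fE.rangeRestrict) := by
      funext e
      have h1 := congrFun hexp (fE.rangeRestrict e)
      rw [Finset.sum_apply] at h1 ⊢
      exact h1
    rw [hcomp2, classInner_sum_left]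
    apply IsIntegral.sum
    intro γ _
    rw [classInner_smul_left]
    apply IsIntegral.mul
    · have hcardQ : Nat.card fE.range ∣ n := by
        have h1 : Nat.card fE.range ∣ m * n :=
          dvd_trans (Subgroup.card_subgroup_dvd_card _) hcardE
        have h2 : Nat.Coprime (Nat.card fE.range) m := by
          by_contra hnc
          obtain ⟨r, hr, hr1, hr2⟩ := Nat.Prime.not_coprime_iff_dvd.mp hnc
          haveI : Fact r.Prime := ⟨hr⟩
          obtain ⟨y, hy⟩ := exists_prime_orderOf_dvd_card' r hr1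
          obtain ⟨e, he⟩ := MonoidHom.mem_range.mp y.2
          have h3 : (y : E) ^ n = 1 := by
            rw [← he, hfE]
            apply Subtype.ext
            rw [Subgroup.coe_pow, Subgroup.coe_pow, Subgroup.coe_one]
            exact hvn (e : G)
          have h4 : r ∣ n := by
            rw [← hy, ← Subgroup.orderOf_coe]
            exact orderOf_dvd_of_pow_eq_one h3
          have h5 : r ∣ Nat.gcd m n := Nat.dvd_gcd hr2 h4
          rw [Nat.Coprime.gcd_eq_one hcop] at h5
          exact hr.one_lt.ne' (Nat.dvd_one.mp h5)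
        exact h2.dvd_of_dvd_mul_left h1
      obtain ⟨d, hd⟩ := hcardQ
      have hQ0 : (Nat.card fE.range : ℂ) ≠ 0 := Nat.cast_ne_zero.mpr Nat.card_pos.ne'
      have hγch := isCharacter_of_isIrrCharacter γ.2
      have e1 : Cfsg.classInner ψ (γ : fE.range → ℂ) = ∑ y : fE.range,
          (if IsConj (((y : E) : G)) g then (d : ℂ) else 0) *
            (starRingEnd ℂ) ((γ : fE.range → ℂ) y) := by
        have e2 : Cfsg.classInner ψ (γ : fE.range → ℂ) = (Nat.card fE.range : ℂ)⁻¹ *
            ∑ y : fE.range, ψ y * (starRingEnd ℂ) ((γ : fE.range → ℂ) y) := rfl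
        rw [e2, Finset.mul_sum]
        apply Finset.sum_congr rfl
        intro y _
        rw [hψdef]
        show (Nat.card fE.range : ℂ)⁻¹ * ((if IsConj (((y : E) : G)) g then (n : ℂ) else 0) *
          (starRingEnd ℂ) ((γ : fE.range → ℂ) y)) =
          (if IsConj (((y : E) : G)) g then (d : ℂ) else 0) *
            (starRingEnd ℂ) ((γ : fE.range → ℂ) y)
        by_cases h3 : IsConj (((y : E) : G)) g
        · rw [if_pos h3, if_pos h3, hd, Nat.cast_mul, ← mul_assoc, ← mul_assoc,
            inv_mul_cancel₀ hQ0, one_mul]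
        · rw [if_neg h3, if_neg h3, zero_mul, mul_zero]
      rw [e1]
      apply IsIntegral.sum
      intro y _
      apply IsIntegral.mul
      · split_ifs
        · exact isIntegral_natCast _
        · exact isIntegral_zero
      · exact isIntegral_isCharacter (isCharacter_conj hγch) y
    · rw [classInner_irr (isIrrCharacter_comp_surj fE.rangeRestrict hsurj γ.2) hβ]
      split_ifs
      · exact isIntegral_one
      · exact isIntegral_zero
  refine ⟨fun χ => Cfsg.classInner ϑ (χ : G → ℂ), fun χ => ?_, ?_⟩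
  · show IsIntegral ℤ (Cfsg.classInner ϑ (χ : G → ℂ))
    exact hint _ χ.2
  · rw [finsum_eq_sum_of_fintype]
    exact classFunction_expansion_sum ϑ hcl

end Cfsg.Agent.S0875
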