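import Cfsg.Statements.S0876
import Mathlib
import Cfsg.Agent.Lib.Lead.SylowAux2
import Cfsg.Agent.Lib.Lead.BrauerR2

set_option autoImplicit false
open Cfsg Cfsg.Agent.Lib.Lead

namespace Cfsg.Agent.S0876

open scoped Pointwise commutatorElement

/-- Let G be a finite group, p a prime and M a maximal ideal of the ring of algebraic integers containing p. Let x, y be elements with p-parts a and b (so a⁻¹ * x and b⁻¹ * y are their p-regular parts). Then a⁻¹ * x and b⁻¹ * y are conjugate in G if and only if, for every irreducible character χ, the difference χ x - χ y lies in the local ideal at M. -/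
theorem result {G : Type*} [Group G] [Finite G] (p : ℕ) (M : Ideal Cfsg.AlgInt) (hM : Cfsg.IsPModular p M) (x y a b : G) (ha : Cfsg.IsPPart p x a) (hb : Cfsg.IsPPart p y b) : IsConj (a⁻¹ * x) (b⁻¹ * y) ↔ ∀ χ : Cfsg.IrrCharacter G, Cfsg.MemLocalIdeal M ((χ : G → ℂ) x - (χ : G → ℂ) y) := by
  classical
  haveI : Fintype G := Fintype.ofFinite _
  haveI : Fintype (Cfsg.IrrCharacter G) := Fintype.ofFinite _
  obtain ⟨hp, hMmax, hpM⟩ := hM
  have hMprime : M.IsPrime := hMmax.isPrime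
  have hMtop : M ≠ ⊤ := hMprime.ne_top
  obtain ⟨x', hx1, hx2, ⟨k, hk⟩, hx4⟩ := ha
  obtain ⟨y', hy1, hy2, ⟨l, hl⟩, hy4⟩ := hb
  have hax : a⁻¹ * x = x' := by rw [← hx1]; group
  have hby : b⁻¹ * y = y' := by rw [← hy1]; group
  rw [hax, hby]
  have hGpos : Nat.card G ≠ 0 := Nat.card_pos.ne'
  obtain ⟨n, hndef⟩ : ∃ n : ℕ, n = Nat.card G / p ^ (Nat.card G).factorization p := ⟨_, rfl⟩
  obtain ⟨A, hAdef⟩ : ∃ A : ℕ, A = (Nat.card G).factorization p := ⟨_, rfl⟩
  rw [← hAdef] at hndef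
  have hcardG : Nat.card G = p ^ A * n := by
    rw [hndef, hAdef]; exact (Nat.ordProj_mul_ordCompl_eq_self (Nat.card G) p).symm
  have hpn : ¬ p ∣ n := by rw [hndef, hAdef]; exact Nat.not_dvd_ordCompl hp hGpos
  have hcop : Nat.Coprime (p ^ A) n :=
    Nat.Coprime.pow_left A ((Nat.Prime.coprime_iff_not_dvd hp).mpr hpn)
  have hpow : ∀ (z w z' : G), w * z' = z → Commute w z' → (∃ k : ℕ, orderOf w = p ^ k) →
      z ^ p ^ A = z' ^ p ^ A := by
    intro z w z' h1 hcomm hk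
    obtain ⟨k, hk⟩ := hk
    have h1' : p ^ k ∣ Nat.card G := by rw [← hk]; exact orderOf_dvd_natCard _
    have h2 : k ≤ A := by
      rw [hAdef]; exact (Nat.Prime.pow_dvd_iff_le_factorization hp hGpos).mp h1'
    have h3 : w ^ p ^ A = 1 := by
      apply orderOf_dvd_iff_pow_eq_one.mp
      rw [hk]; exact pow_dvd_pow p h2
    rw [← h1, hcomm.mul_pow, h3, one_mul]
  have hxp := hpow x a x' hx1 hx2 ⟨k, hk⟩
  have hyp := hpow y b y' hy1 hy2 ⟨l, hl⟩
  have hL : ∀ (χ : Cfsg.IrrCharacter G) (z z' : G), z ^ p ^ A = z' ^ p ^ A →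
      Cfsg.MemLocalIdeal M ((χ : G → ℂ) z - (χ : G → ℂ) z') := by
    intro χ z z' hzz
    obtain ⟨r, hr, hr'⟩ := char_sub_ppart_mem_lead (isCharacter_of_isIrrCharacter χ.2) p hp M
      hMprime hpM z z' A hzz
    rw [hr']
    exact memLocalIdeal_of_mem_lead hMtop r hr
  constructor
  · intro hconj χ
    have h1 := hL χ x x' hxp
    have h2 := memLocalIdeal_neg_lead (hL χ y y' hyp)
    have h3 : (χ : G → ℂ) x' = (χ : G → ℂ) y' := by
      obtain ⟨w, hw⟩ := isConj_iff.mp hconj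
      rw [← hw]
      exact (isClassFunction_of_isCharacter (isCharacter_of_isIrrCharacter χ.2) _ w).symm
    have h4 := memLocalIdeal_add_lead hMprime h1 h2
    have e : (χ : G → ℂ) x - (χ : G → ℂ) y =
        (χ : G → ℂ) x - (χ : G → ℂ) x' + -((χ : G → ℂ) y - (χ : G → ℂ) y') := by
      rw [h3]; ring
    rw [e]; exact h4
  · intro hall
    by_contra hnot
    obtain ⟨c, hc0, hc1⟩ := Nat.chineseRemainder hcop 0 1
    have hmc : p ^ A ∣ c := Nat.modEq_zero_iff_dvd.mp hc0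
    have hreg : ∀ z : G, ¬ p ∣ orderOf z → z ^ c = z := by
      intro z hz
      have h1 : orderOf z ∣ n := by
        have h2 : orderOf z ∣ p ^ A * n := by rw [← hcardG]; exact orderOf_dvd_natCard z
        have h3 : Nat.Coprime (orderOf z) (p ^ A) :=
          Nat.Coprime.pow_right A ((Nat.Prime.coprime_iff_not_dvd hp).mpr hz).symm
        exact h3.dvd_of_dvd_mul_left h2
      have h6 : z ^ c = z ^ 1 := by
        rw [pow_eq_pow_iff_modEq]
        exact Nat.ModEq.of_dvd h1 hc1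
      rw [h6, pow_one]
    obtain ⟨ϑ, hϑdef⟩ : ∃ ϑ : G → ℂ, ϑ = fun z : G =>
        if IsConj (z ^ c) x' then (n : ℂ) else 0 := ⟨_, rfl⟩
    have hϑ1 : ∀ z : G, IsConj (z ^ c) x' → ϑ z = n := by
      intro z hz; rw [hϑdef]; exact if_pos hz
    have hϑ0 : ∀ z : G, ¬ IsConj (z ^ c) x' → ϑ z = 0 := by
      intro z hz; rw [hϑdef]; exact if_neg hz
    obtain ⟨hcl, hint⟩ := theta_rgen_lead (p ^ A) n c hcardG hcop hmc hc1 x' ϑ hϑ1 hϑ0
    have hXc : x' ^ c = x' := hreg x' hx4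
    have hYc : y' ^ c = y' := hreg y' hy4
    have hϑX : ϑ x' = n :=
      hϑ1 x' ((congrArg (fun t => IsConj t x') hXc).mpr (IsConj.refl x'))
    have hϑY : ϑ y' = 0 :=
      hϑ0 y' (fun h => hnot ((congrArg (fun t => IsConj t x') hYc).mp h).symm)
    have hev := classFun_eval_sub_lead ϑ hcl x' y'
    rw [hϑX, hϑY, sub_zero] at hev
    have hloc : Cfsg.MemLocalIdeal M (n : ℂ) := by
      rw [hev]
      apply memLocalIdeal_sum_lead hMprime
      intro χ _
      have h1 := memLocalIdeal_neg_lead (hL χ x x' hxp)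
      have h2 := hL χ y y' hyp
      have h3 := memLocalIdeal_add_lead hMprime (memLocalIdeal_add_lead hMprime h1 (hall χ)) h2
      have e : (χ : G → ℂ) x' - (χ : G → ℂ) y' =
          -((χ : G → ℂ) x - (χ : G → ℂ) x') + ((χ : G → ℂ) x - (χ : G → ℂ) y) +
            ((χ : G → ℂ) y - (χ : G → ℂ) y') := by ring
      rw [e]
      exact memLocalIdeal_smul_lead ⟨_, hint _ χ.2⟩ h3
    have hnM : (n : Cfsg.AlgInt) ∈ M := mem_of_memLocalIdeal_lead hMprime (n : Cfsg.AlgInt) hloc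
    exact natCast_not_mem_lead hMtop p n ((Nat.Prime.coprime_iff_not_dvd hp).mpr hpn).symm hpM hnM

end Cfsg.Agent.S0876
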