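import Cfsg.Statements.S0877
import Mathlib
import Cfsg.Agent.Lib.Lead.SylowAux2
import Cfsg.Agent.Lib.Lead.BrauerR2
import Cfsg.Agent.Lib.Lead.CharCount
import Cfsg.Agent.Lib.Lead.CharFrob
import Cfsg.Agent.Lib.Lead.CharArtin
import Cfsg.Agent.Lib.Lead.CharInd3
import Cfsg.Agent.S0164

set_option autoImplicit false
open Cfsg Cfsg.Agent.Lib.Lead

namespace Cfsg.Agent.S0877

open scoped Pointwise commutatorElement

universe u

theorem exists_conj_mem_of_cyclic_lead {G : Type u} [Group G] [Finite G] (H : Subgroup G)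
    (helem : ∀ (E : Subgroup G) (p : ℕ), p.Prime → Cfsg.IsElementary p E →
      Nat.card E ∣ Nat.card H → ∃ g : G, E.map (MulAut.conj g).toMonoidHom ≤ H)
    (w : G) (hw : orderOf w ∣ Nat.card H) : ∃ h : H, IsConj w (h : G) := by
  obtain ⟨p, hpge, hp⟩ := Nat.exists_infinite_primes (orderOf w + 1)
  have hpw : ¬ p ∣ orderOf w := by
    intro h
    have := Nat.le_of_dvd (orderOf_pos w) h
    omega
  obtain ⟨z, hzdef⟩ : ∃ z : Subgroup.zpowers w, z = ⟨w, Subgroup.mem_zpowers w⟩ := ⟨_, rfl⟩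
  have hzcoe : (z : G) = w := by rw [hzdef]
  have hzord : orderOf z = orderOf w := by rw [← Subgroup.orderOf_coe, hzcoe]
  have hzcen : Subgroup.zpowers z ≤ Subgroup.center (Subgroup.zpowers w) := by
    rw [Subgroup.zpowers_le, Subgroup.mem_center_iff]
    intro y
    obtain ⟨i, hi⟩ := Subgroup.mem_zpowers_iff.mp y.2
    apply Subtype.ext
    rw [Subgroup.coe_mul, Subgroup.coe_mul, hzcoe, ← hi]
    exact (Commute.zpow_self w i).eq
  have hcardZ : Nat.card (Subgroup.zpowers z) = orderOf w := by rw [Nat.card_zpowers, hzord]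
  have hcardA : Nat.card (Subgroup.zpowers w) = orderOf w := Nat.card_zpowers w
  have hidx : (Subgroup.zpowers z).index = p ^ 0 := by
    have h1 := Subgroup.card_mul_index (Subgroup.zpowers z)
    rw [hcardZ, hcardA] at h1
    rw [pow_zero]
    exact Nat.eq_of_mul_eq_mul_left (orderOf_pos w) (by rw [h1, mul_one])
  have hEl : Cfsg.IsElementary p (Subgroup.zpowers w) :=
    elementary_of_central_cyclic (Subgroup.zpowers z) hzcen
      (by rw [hcardZ]; exact ((Nat.Prime.coprime_iff_not_dvd hp).mpr hpw).symm) 0 hidx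
  obtain ⟨g, hg⟩ := helem (Subgroup.zpowers w) p hp hEl (by rw [hcardA]; exact hw)
  have hmem : g * w * g⁻¹ ∈ H :=
    hg (Subgroup.mem_map.mpr ⟨w, Subgroup.mem_zpowers w, rfl⟩)
  exact ⟨⟨g * w * g⁻¹, hmem⟩, isConj_iff.mpr ⟨g, rfl⟩⟩

/-- Let H be a subgroup of the finite group G whose order is coprime to its index. Suppose that elements of H conjugate in G are conjugate in H, and that every subgroup E of G that is elementary for some prime (in the sense used for Brauer's characterisation of characters) and whose order divides the order of H is conjugate to a subgroup of H. Then there is a normal subgroup K with K ⊔ H = ⊤ and K ⊓ H trivial. -/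
theorem result {G : Type*} [Group G] [Finite G] (H : Subgroup G) (hHall : Nat.Coprime (Nat.card H) H.index) (hfus : ∀ x ∈ H, ∀ y ∈ H, IsConj x y → ∃ h ∈ H, h * x * h⁻¹ = y) (helem : ∀ (E : Subgroup G) (p : ℕ), p.Prime → Cfsg.IsElementary p E → Nat.card E ∣ Nat.card H → ∃ g : G, E.map (MulAut.conj g).toMonoidHom ≤ H) : ∃ K : Subgroup G, K.Normal ∧ K ⊔ H = ⊤ ∧ K ⊓ H = ⊥ := by
  classical
  haveI : Fintype G := Fintype.ofFinite _
  haveI : Fintype H := Fintype.ofFinite _
  haveI : Fintype (Cfsg.IrrCharacter H) := Fintype.ofFinite _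
  obtain ⟨n, hndef⟩ : ∃ n : ℕ, n = Nat.card H := ⟨_, rfl⟩
  obtain ⟨m, hmdef⟩ : ∃ m : ℕ, m = H.index := ⟨_, rfl⟩
  have hmn : Nat.card G = m * n := by
    rw [hmdef, hndef, mul_comm]; exact (Subgroup.card_mul_index H).symm
  have hcop : m.Coprime n := by rw [hmdef, hndef]; exact hHall.symm
  obtain ⟨c, hc0, hc1⟩ := Nat.chineseRemainder hcop 0 1
  obtain ⟨c', hc'1, hc'0⟩ := Nat.chineseRemainder hcop 1 0
  have hmc : m ∣ c := Nat.modEq_zero_iff_dvd.mp hc0
  have hnc' : n ∣ c' := Nat.modEq_zero_iff_dvd.mp hc'0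
  have hsumG : ∀ x : G, x ^ c * x ^ c' = x := by
    intro x
    have h1 : c + c' ≡ 1 [MOD m * n] := by
      apply (Nat.modEq_and_modEq_iff_modEq_mul hcop).mp
      constructor
      · have h3 : c + c' ≡ 0 + 1 [MOD m] := Nat.ModEq.add hc0 hc'1
        rwa [zero_add] at h3
      · have h3 : c + c' ≡ 1 + 0 [MOD n] := Nat.ModEq.add hc1 hc'0
        rwa [add_zero] at h3
    have h2 : x ^ (c + c') = x ^ 1 := by
      rw [pow_eq_pow_iff_modEq]
      exact Nat.ModEq.of_dvd (by rw [← hmn]; exact orderOf_dvd_natCard x) h1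
    rw [← pow_add, h2, pow_one]
  have hvn : ∀ x : G, (x ^ c) ^ n = 1 := by
    intro x
    obtain ⟨d, hd⟩ := hmc
    rw [← pow_mul, hd, mul_assoc, mul_comm d n, ← mul_assoc, ← hmn, pow_mul, pow_card_eq_one',
      one_pow]
  have hG0 : (Nat.card G : ℂ) ≠ 0 := Nat.cast_ne_zero.mpr Nat.card_pos.ne'
  have hH0 : (Nat.card H : ℂ) ≠ 0 := Nat.cast_ne_zero.mpr Nat.card_pos.ne'
  have hHc : ∀ h : G, h ∈ H → h ^ c = h := by
    intro h hh
    have h1 : orderOf h ∣ n := by
      rw [hndef]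
      have h2 := orderOf_dvd_natCard (⟨h, hh⟩ : H)
      rw [← Subgroup.orderOf_coe] at h2
      exact h2
    have h6 : h ^ c = h ^ 1 := by
      rw [pow_eq_pow_iff_modEq]
      exact Nat.ModEq.of_dvd h1 hc1
    rw [h6, pow_one]
  have hconjH : ∀ x : G, ∃ h : H, IsConj (x ^ c) (h : G) := by
    intro x
    apply exists_conj_mem_of_cyclic_lead H helem
    rw [← hndef]
    exact orderOf_dvd_of_pow_eq_one (hvn x)
  choose sel hsel using hconjH
  have hT1 : ∀ (ψ : H → ℂ), Cfsg.IsClassFunction H ψ → ∀ (x : G) (h : H),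
      IsConj (x ^ c) (h : G) → ψ (sel x) = ψ h := by
    intro ψ hψ x h hxh
    have h1 : IsConj ((sel x : H) : G) (h : G) := (hsel x).symm.trans hxh
    obtain ⟨k, hk, hk'⟩ := hfus _ (sel x).2 _ h.2 h1
    have h2 : h = (⟨k, hk⟩ : H) * sel x * (⟨k, hk⟩ : H)⁻¹ := Subtype.ext hk'.symm
    rw [h2]
    exact (hψ (sel x) ⟨k, hk⟩).symm
  have hselH : ∀ (ψ : H → ℂ), Cfsg.IsClassFunction H ψ → ∀ h : H, ψ (sel (h : G)) = ψ h :=
    fun ψ hψ h => hT1 ψ hψ (h : G) h
      ((congrArg (fun t => IsConj t (h : G)) (hHc (h : G) h.2)).mpr (IsConj.refl _))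
  have hsel1 : sel 1 = 1 := by
    have h1 := hsel 1
    rw [one_pow] at h1
    exact Subtype.ext (isConj_one_right.mp h1)
  have hT2 : ∀ ψ : H → ℂ, Cfsg.IsCharacter H ψ →
      Cfsg.IsGeneralizedCharacter G (ψ ∘ sel) := by
    intro ψ hψ
    have hψcl := isClassFunction_of_isCharacter hψ
    apply Cfsg.Agent.S0164.result
    · intro x g
      show ψ (sel (g * x * g⁻¹)) = ψ (sel x)
      apply hT1 ψ hψcl
      rw [conj_pow]
      exact (isConj_conj_left_iff_lead (x ^ c) g _).mpr (hsel x)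
    · intro E q hq hEl
      have hcardE : Nat.card E ∣ m * n := by
        rw [← hmn]; exact Subgroup.card_subgroup_dvd_card E
      have hsumE : ∀ x : E, x ^ c * x ^ c' = x := by
        intro x
        apply Subtype.ext
        rw [Subgroup.coe_mul, Subgroup.coe_pow, Subgroup.coe_pow]
        exact hsumG (x : G)
      have hmul := pow_crt_mul_lead q hq hEl m n c c' hcop hcardE hmc hnc' hsumE
      obtain ⟨fE, hfE⟩ : ∃ fE : E →* E, ∀ x : E, fE x = x ^ c :=
        ⟨⟨⟨fun x => x ^ c, one_pow c⟩, hmul⟩, fun x => rfl⟩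
      have hcardQ : Nat.card fE.range ∣ n := by
        have h1 : Nat.card fE.range ∣ m * n :=
          dvd_trans (Subgroup.card_subgroup_dvd_card _) hcardE
        have h2 : Nat.Coprime (Nat.card fE.range) m := by
          by_contra hnc
          obtain ⟨r, hr, hr1, hr2⟩ := Nat.Prime.not_coprime_iff_dvd.mp hnc
          haveI : Fact r.Prime := ⟨hr⟩
          obtain ⟨y, hy⟩ := exists_prime_orderOf_dvd_card' r hr1
          obtain ⟨e, he⟩ := MonoidHom.mem_range.mp y.2
          have h3 : (y : E) ^ n = 1 := by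
            rw [← he, hfE]
            apply Subtype.ext
            rw [Subgroup.coe_pow, Subgroup.coe_pow, Subgroup.coe_one]
            exact hvn (e : G)
          have h4 : r ∣ n := by
            rw [← hy, ← Subgroup.orderOf_coe]
            exact orderOf_dvd_of_pow_eq_one h3
          have h5 : r ∣ Nat.gcd m n := Nat.dvd_gcd hr2 h4
          rw [Nat.Coprime.gcd_eq_one hcop] at h5
          exact hr.one_lt.ne' (Nat.dvd_one.mp h5)
        exact h2.dvd_of_dvd_mul_left h1
      have hQel : Cfsg.IsElementary q fE.range := isElementary_subgroup hq hEl fE.range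
      have hQ'el : Cfsg.IsElementary q (fE.range.map E.subtype) :=
        isElementary_of_mulEquiv
          (fE.range.equivMapOfInjective E.subtype E.subtype_injective) hQel
      have hQ'card : Nat.card (fE.range.map E.subtype) ∣ Nat.card H := by
        have e := Nat.card_congr
          (fE.range.equivMapOfInjective E.subtype E.subtype_injective).toEquiv
        rw [← hndef, ← e]
        exact hcardQ
      obtain ⟨g, hg⟩ := helem (fE.range.map E.subtype) q hq hQ'el hQ'card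
      have hmemH : ∀ e : E, g * ((fE e : E) : G) * g⁻¹ ∈ H := by
        intro e
        apply hg
        refine Subgroup.mem_map.mpr ⟨((fE e : E) : G), ?_, rfl⟩
        exact Subgroup.mem_map.mpr ⟨fE e, MonoidHom.mem_range.mpr ⟨e, rfl⟩, rfl⟩
      obtain ⟨F, hF⟩ : ∃ F : E →* H, ∀ e : E,
          ((F e : H) : G) = g * ((fE e : E) : G) * g⁻¹ :=
        ⟨⟨⟨fun e => ⟨g * ((fE e : E) : G) * g⁻¹, hmemH e⟩, by
            apply Subtype.ext
            show g * ((fE 1 : E) : G) * g⁻¹ = 1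
            rw [map_one, Subgroup.coe_one]; group⟩, by
          intro e₁ e₂
          apply Subtype.ext
          show g * ((fE (e₁ * e₂) : E) : G) * g⁻¹ =
            (g * ((fE e₁ : E) : G) * g⁻¹) * (g * ((fE e₂ : E) : G) * g⁻¹)
          rw [map_mul, Subgroup.coe_mul]; group⟩, fun e => rfl⟩
      have hcompE : (fun e : E => (ψ ∘ sel) (e : G)) = ψ ∘ F := by
        funext e
        show ψ (sel (e : G)) = ψ (F e)
        apply hT1 ψ hψcl
        rw [hF e, hfE e, Subgroup.coe_pow]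
        exact isConj_iff.mpr ⟨g, rfl⟩
      rw [hcompE]
      exact isGenChar_of_char (isCharacter_comp F hψ)
  have hT3 : ∀ ψ : H → ℂ, Cfsg.IsCharacter H ψ →
      ∃ z : ℤ, ∑ x : G, ψ (sel x) = (Nat.card G : ℂ) * (z : ℂ) := by
    intro ψ hψ
    obtain ⟨χ₁, χ₂, h₁, h₂, heq⟩ := hT2 ψ hψ
    obtain ⟨n₁, hn₁⟩ := classInner_char_char_nat h₁ (isCharacter_one (G := G))
    obtain ⟨n₂, hn₂⟩ := classInner_char_char_nat h₂ (isCharacter_one (G := G))
    refine ⟨(n₁ : ℤ) - (n₂ : ℤ), ?_⟩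
    have e1 : ∀ f : G → ℂ, Cfsg.classInner f (fun _ => (1 : ℂ)) =
        (Nat.card G : ℂ)⁻¹ * ∑ x : G, f x := by
      intro f
      unfold Cfsg.classInner
      congr 1
      apply Finset.sum_congr rfl
      intro x _
      show f x * (starRingEnd ℂ) 1 = f x
      rw [map_one, mul_one]
    rw [e1] at hn₁ hn₂
    have e2 : ∑ x : G, ψ (sel x) = ∑ x : G, χ₁ x - ∑ x : G, χ₂ x := by
      rw [← Finset.sum_sub_distrib]
      apply Finset.sum_congr rfl
      intro x _
      exact congrFun heq x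
    have h3 : ∑ x : G, χ₁ x = (Nat.card G : ℂ) * n₁ := by
      rw [← hn₁, ← mul_assoc, mul_inv_cancel₀ hG0, one_mul]
    have h4 : ∑ x : G, χ₂ x = (Nat.card G : ℂ) * n₂ := by
      rw [← hn₂, ← mul_assoc, mul_inv_cancel₀ hG0, one_mul]
    rw [e2, h3, h4]
    push_cast
    ring
  choose zf hzf using fun θ : Cfsg.IrrCharacter H =>
    hT3 (θ : H → ℂ) (isCharacter_of_isIrrCharacter θ.2)
  have hS : ∀ h₀ : H, ((∑ x : G, Nat.card {y : H // y * h₀ * y⁻¹ = sel x} : ℕ) : ℂ) =
      (Nat.card G : ℂ) * ∑ θ : Cfsg.IrrCharacter H,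
        (starRingEnd ℂ) ((θ : H → ℂ) h₀) * (zf θ : ℂ) := by
    intro h₀
    rw [Nat.cast_sum]
    have e1 : ∀ x : G, ((Nat.card {y : H // y * h₀ * y⁻¹ = sel x} : ℕ) : ℂ) =
        ∑ θ : Cfsg.IrrCharacter H, (θ : H → ℂ) (sel x) * (starRingEnd ℂ) ((θ : H → ℂ) h₀) :=
      fun x => (column_orthogonality_sum (sel x) h₀).symm
    rw [Finset.sum_congr rfl (fun x _ => e1 x), Finset.sum_comm, Finset.mul_sum]
    apply Finset.sum_congr rfl
    intro θ _
    rw [← Finset.sum_mul, hzf θ]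
    ring
  have hNdvd : ∀ h₀ : H, Nat.card G ∣ ∑ x : G, Nat.card {y : H // y * h₀ * y⁻¹ = sel x} := by
    intro h₀
    apply dvd_of_isIntegral_div _ _ Nat.card_pos.ne'
    rw [hS h₀, mul_div_cancel_left₀ _ hG0]
    apply IsIntegral.sum
    intro θ _
    apply IsIntegral.mul
    · exact isIntegral_isCharacter (isCharacter_conj (isCharacter_of_isIrrCharacter θ.2)) h₀
    · exact isIntegral_intCast _
  have hNpos : ∀ h₀ : H, 0 < ∑ x : G, Nat.card {y : H // y * h₀ * y⁻¹ = sel x} := by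
    intro h₀
    have h1 : 0 < Nat.card {y : H // y * h₀ * y⁻¹ = sel (h₀ : G)} := by
      have h2 : IsConj ((h₀ : G)) ((sel (h₀ : G) : H) : G) := by
        have h3 := hsel (h₀ : G)
        rw [hHc (h₀ : G) h₀.2] at h3
        exact h3
      obtain ⟨k, hk, hk'⟩ := hfus _ h₀.2 _ (sel (h₀ : G)).2 h2
      exact Nat.card_pos_iff.mpr ⟨⟨⟨⟨k, hk⟩, Subtype.ext hk'⟩⟩, inferInstance⟩
    exact lt_of_lt_of_le h1 (Finset.single_le_sum
      (f := fun x : G => Nat.card {y : H // y * h₀ * y⁻¹ = sel x})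
      (fun i _ => Nat.zero_le _) (Finset.mem_univ (h₀ : G)))
  have hNge : ∀ h₀ : H, Nat.card G ≤ ∑ x : G, Nat.card {y : H // y * h₀ * y⁻¹ = sel x} :=
    fun h₀ => Nat.le_of_dvd (hNpos h₀) (hNdvd h₀)
  have hcountψ : ∀ (ψ : H → ℂ), Cfsg.IsClassFunction H ψ → ∀ s : H,
      ∑ h₀ : H, ψ h₀ * (Nat.card {y : H // y * h₀ * y⁻¹ = s} : ℂ) =
        (Nat.card H : ℂ) * ψ s := by
    intro ψ hψ s
    have h1 : ∀ h₀ : H, (Nat.card {y : H // y * h₀ * y⁻¹ = s} : ℂ) =
        ∑ y : H, if y * h₀ * y⁻¹ = s then (1 : ℂ) else 0 := by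
      intro h₀
      rw [Nat.card_eq_fintype_card, Fintype.card_subtype, Finset.card_filter, Nat.cast_sum]
      apply Finset.sum_congr rfl
      intro y _
      split_ifs <;> simp
    have h1' : ∀ h₀ : H, ψ h₀ * (Nat.card {y : H // y * h₀ * y⁻¹ = s} : ℂ) =
        ∑ y : H, if y * h₀ * y⁻¹ = s then ψ h₀ else 0 := by
      intro h₀
      rw [h1 h₀, Finset.mul_sum]
      apply Finset.sum_congr rfl
      intro y _
      rw [mul_ite, mul_one, mul_zero]
    rw [Finset.sum_congr rfl (fun h₀ _ => h1' h₀), Finset.sum_comm]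
    have h2 : ∀ y : H, ∑ h₀ : H, (if y * h₀ * y⁻¹ = s then ψ h₀ else 0) = ψ s := by
      intro y
      rw [Finset.sum_eq_single (y⁻¹ * s * y)]
      · rw [if_pos (by group)]
        have h3 := hψ s y⁻¹
        rw [inv_inv] at h3
        exact h3
      · intro b _ hb
        rw [if_neg]
        intro h3
        apply hb
        rw [← h3]; group
      · intro h3; exact absurd (Finset.mem_univ _) h3
    rw [Finset.sum_congr rfl (fun y _ => h2 y), Finset.sum_const, Finset.card_univ,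
      nsmul_eq_mul, ← Nat.card_eq_fintype_card]
  have htotal : ∑ h₀ : H, ∑ x : G, Nat.card {y : H // y * h₀ * y⁻¹ = sel x} =
      Nat.card H * Nat.card G := by
    have h1cl : Cfsg.IsClassFunction H (fun _ : H => (1 : ℂ)) := fun _ _ => rfl
    have h2 : ∀ s : H, ∑ h₀ : H, (Nat.card {y : H // y * h₀ * y⁻¹ = s} : ℂ) =
        (Nat.card H : ℂ) := by
      intro s
      have h3 := hcountψ _ h1cl s
      simp only [one_mul, mul_one] at h3
      exact h3
    have h4 : ((∑ h₀ : H, ∑ x : G, Nat.card {y : H // y * h₀ * y⁻¹ = sel x} : ℕ) : ℂ) =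
        ((Nat.card H * Nat.card G : ℕ) : ℂ) := by
      push_cast
      rw [Finset.sum_comm, Finset.sum_congr rfl (fun x _ => h2 (sel x)), Finset.sum_const,
        Finset.card_univ, nsmul_eq_mul, ← Nat.card_eq_fintype_card, mul_comm]
    exact_mod_cast h4
  have hNeq : ∀ h₀ : H, ∑ x : G, Nat.card {y : H // y * h₀ * y⁻¹ = sel x} = Nat.card G := by
    intro h₀
    by_contra hne
    have hlt : Nat.card G < ∑ x : G, Nat.card {y : H // y * h₀ * y⁻¹ = sel x} :=
      lt_of_le_of_ne (hNge h₀) (Ne.symm hne)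
    have h1 : ∑ _h : H, Nat.card G <
        ∑ h : H, ∑ x : G, Nat.card {y : H // y * h * y⁻¹ = sel x} :=
      Finset.sum_lt_sum (fun h _ => hNge h) ⟨h₀, Finset.mem_univ _, hlt⟩
    rw [htotal, Finset.sum_const, Finset.card_univ, smul_eq_mul,
      ← Nat.card_eq_fintype_card] at h1
    exact lt_irrefl _ h1
  have hT6 : ∀ (ψ : H → ℂ), Cfsg.IsClassFunction H ψ →
      (Nat.card H : ℂ) * ∑ x : G, ψ (sel x) = (Nat.card G : ℂ) * ∑ h₀ : H, ψ h₀ := by
    intro ψ hψ
    rw [Finset.mul_sum, Finset.sum_congr rfl (fun x _ => (hcountψ ψ hψ (sel x)).symm),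
      Finset.sum_comm, Finset.mul_sum]
    apply Finset.sum_congr rfl
    intro h₀ _
    rw [← Finset.mul_sum, ← Nat.cast_sum, hNeq h₀, mul_comm]
  have hT7 : ∀ θ : Cfsg.IrrCharacter H, Cfsg.IsIrrCharacter G ((θ : H → ℂ) ∘ sel) := by
    intro θ
    have hθch := isCharacter_of_isIrrCharacter θ.2
    have hθcl := isClassFunction_of_isCharacter hθch
    apply isIrrCharacter_of_genChar (hT2 _ hθch)
    · have hcl2 : Cfsg.IsClassFunction H
          (fun h => (θ : H → ℂ) h * (starRingEnd ℂ) ((θ : H → ℂ) h)) := by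
        intro g h
        show (θ : H → ℂ) (h * g * h⁻¹) * (starRingEnd ℂ) ((θ : H → ℂ) (h * g * h⁻¹)) =
          (θ : H → ℂ) g * (starRingEnd ℂ) ((θ : H → ℂ) g)
        rw [hθcl g h]
      have h1 : (Nat.card H : ℂ) *
          ∑ x : G, (θ : H → ℂ) (sel x) * (starRingEnd ℂ) ((θ : H → ℂ) (sel x)) =
          (Nat.card G : ℂ) *
            ∑ h₀ : H, (θ : H → ℂ) h₀ * (starRingEnd ℂ) ((θ : H → ℂ) h₀) := hT6 _ hcl2
      have h2' : (Nat.card H : ℂ)⁻¹ *
          ∑ h : H, (θ : H → ℂ) h * (starRingEnd ℂ) ((θ : H → ℂ) h) = 1 :=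
        classInner_irr_self θ.2
      have h3 : ∑ h : H, (θ : H → ℂ) h * (starRingEnd ℂ) ((θ : H → ℂ) h) =
          (Nat.card H : ℂ) := by
        calc ∑ h : H, (θ : H → ℂ) h * (starRingEnd ℂ) ((θ : H → ℂ) h)
            = (Nat.card H : ℂ) * ((Nat.card H : ℂ)⁻¹ *
                ∑ h : H, (θ : H → ℂ) h * (starRingEnd ℂ) ((θ : H → ℂ) h)) := by
              rw [← mul_assoc, mul_inv_cancel₀ hH0, one_mul]
          _ = (Nat.card H : ℂ) := by rw [h2', mul_one]
      have h4 : ∑ x : G, (θ : H → ℂ) (sel x) * (starRingEnd ℂ) ((θ : H → ℂ) (sel x)) =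
          (Nat.card G : ℂ) := by
        have h5 : (Nat.card H : ℂ) *
            ∑ x : G, (θ : H → ℂ) (sel x) * (starRingEnd ℂ) ((θ : H → ℂ) (sel x)) =
            (Nat.card H : ℂ) * (Nat.card G : ℂ) := by
          rw [h1, h3, mul_comm]
        exact mul_left_cancel₀ hH0 h5
      show (Nat.card G : ℂ)⁻¹ *
        ∑ x : G, (θ : H → ℂ) (sel x) * (starRingEnd ℂ) ((θ : H → ℂ) (sel x)) = 1
      rw [h4, inv_mul_cancel₀ hG0]
    · obtain ⟨d, hd0, hd⟩ := irr_one θ.2
      have h1 : ((θ : H → ℂ) ∘ sel) 1 = (d : ℂ) := by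
        show (θ : H → ℂ) (sel 1) = (d : ℂ)
        rw [hsel1, hd]
      rw [h1, Complex.natCast_re]
      exact_mod_cast Nat.pos_of_ne_zero hd0
  choose dθ ρθ hρirr hρchar using hT7
  have hsep : ∀ h : H, (∀ θ : Cfsg.IrrCharacter H, (θ : H → ℂ) h = (θ : H → ℂ) 1) → h = 1 := by
    intro h hall
    by_contra hne
    have h1 := column_orthogonality_sum h (1 : H)
    have h2 := column_orthogonality_sum (1 : H) (1 : H)
    rw [conjCount_apply_of_not_isConj (fun hc => hne (isConj_one_left.mp hc))] at h1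
    rw [conjCount_apply_of_isConj (IsConj.refl 1), card_centralizer_one] at h2
    have h3 : ∑ θ : Cfsg.IrrCharacter H, (θ : H → ℂ) h * (starRingEnd ℂ) ((θ : H → ℂ) 1) =
        ∑ θ : Cfsg.IrrCharacter H, (θ : H → ℂ) 1 * (starRingEnd ℂ) ((θ : H → ℂ) 1) :=
      Finset.sum_congr rfl (fun θ _ => by rw [hall θ])
    rw [h3, h2] at h1
    exact hH0 h1
  obtain ⟨K, hKdef⟩ : ∃ K : Subgroup G, K = ⨅ θ : Cfsg.IrrCharacter H, (ρθ θ).ker := ⟨_, rfl⟩
  have hKn : K.Normal := by
    rw [hKdef]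
    exact Subgroup.normal_iInf_normal (fun θ => MonoidHom.normal_ker (ρθ θ))
  have hKmem : ∀ x : G, x ∈ K ↔ sel x = 1 := by
    intro x
    rw [hKdef, Subgroup.mem_iInf]
    constructor
    · intro h
      have h1 : ∀ θ : Cfsg.IrrCharacter H, (θ : H → ℂ) (sel x) = (θ : H → ℂ) 1 := by
        intro θ
        have h2 : (ρθ θ) x = 1 := MonoidHom.mem_ker.mp (h θ)
        have h3 : (ρθ θ).character x = (ρθ θ).character 1 := by
          show LinearMap.trace ℂ (Fin (dθ θ) → ℂ) ((ρθ θ) x) =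
            LinearMap.trace ℂ (Fin (dθ θ) → ℂ) ((ρθ θ) 1)
          rw [h2, map_one (ρθ θ)]
        rw [hρchar θ] at h3
        have h4 : (θ : H → ℂ) (sel x) = (θ : H → ℂ) (sel 1) := h3
        rw [hsel1] at h4
        exact h4
      exact hsep (sel x) h1
    · intro h θ
      rw [MonoidHom.mem_ker]
      have h3 : (ρθ θ).character x = (Module.finrank ℂ (Fin (dθ θ) → ℂ) : ℂ) := by
        have h4 : (ρθ θ).character x = (ρθ θ).character 1 := by
          rw [hρchar θ]
          show (θ : H → ℂ) (sel x) = (θ : H → ℂ) (sel 1)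
          rw [h, hsel1]
        rw [h4, Representation.char_one]
      exact (char_eq_finrank_iff (ρθ θ) x).mp h3
  have hKH : K ⊓ H = ⊥ := by
    rw [eq_bot_iff]
    intro x hx
    obtain ⟨hxK, hxH⟩ := Subgroup.mem_inf.mp hx
    rw [Subgroup.mem_bot]
    have h1 := hsel x
    rw [hHc x hxH, (hKmem x).mp hxK, Subgroup.coe_one] at h1
    exact isConj_one_left.mp h1
  have hcardK : Nat.card H * Nat.card K = Nat.card G := by
    have hδcl : Cfsg.IsClassFunction H (fun h : H => if h = 1 then (1 : ℂ) else 0) := by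
      intro g h
      show (if h * g * h⁻¹ = 1 then (1 : ℂ) else 0) = if g = 1 then (1 : ℂ) else 0
      have hiff : h * g * h⁻¹ = 1 ↔ g = 1 := by
        constructor
        · intro h1
          have h2 : g = h⁻¹ * (h * g * h⁻¹) * h := by group
          rw [h2, h1]; group
        · intro h1; rw [h1]; group
      by_cases hg : g = 1
      · rw [if_pos hg, if_pos (hiff.mpr hg)]
      · rw [if_neg hg, if_neg (fun h' => hg (hiff.mp h'))]
    have h1 : (Nat.card H : ℂ) * ∑ x : G, (if sel x = 1 then (1 : ℂ) else 0) =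
        (Nat.card G : ℂ) * ∑ h₀ : H, (if h₀ = 1 then (1 : ℂ) else 0) := hT6 _ hδcl
    have h2 : ∑ h₀ : H, (if h₀ = 1 then (1 : ℂ) else 0) = 1 := by simp
    have h3 : (Nat.card K : ℂ) = ∑ x : G, (if sel x = 1 then (1 : ℂ) else 0) := by
      rw [Nat.card_congr (Equiv.subtypeEquivRight hKmem), Nat.card_eq_fintype_card,
        Fintype.card_subtype, Finset.card_filter, Nat.cast_sum]
      apply Finset.sum_congr rfl
      intro x _
      split_ifs <;> simp
    rw [← h3, h2, mul_one] at h1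
    exact_mod_cast h1
  have hdisj : Disjoint H K := by rw [disjoint_iff, inf_comm]; exact hKH
  have hcompl := Subgroup.isComplement'_of_card_mul_and_disjoint hcardK hdisj
  have hsup : K ⊔ H = ⊤ := by rw [sup_comm]; exact hcompl.sup_eq_top
  exact ⟨K, hKn, hsup, hKH⟩

end Cfsg.Agent.S0877
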