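import Cfsg.Statements.S0878
import Mathlib
import Cfsg.Agent.Lib.Helper6.Zass
-- import your own Cfsg.Agent.* helpers here

set_option autoImplicit false
open Cfsg

namespace Cfsg.Agent.S0878



/-- Let G be a Zassenhaus group on the finite set Ω, a a point, and let H be the subgroup of the stabilizer of a consisting of the identity and the elements fixing no point other than a (given here as a subgroup of the stabilizer of order one less than the number of points whose non-identity elements fix only a; it is the Frobenius kernel of the stabilizer). Then an element outside the stabilizer of a conjugates no non-identity element of H into H, and the normalizer of H is exactly the stabilizer of a. -/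
theorem result {G Ω : Type*} [Group G] [Finite G] [MulAction G Ω] [Fintype Ω] (hZ : Cfsg.IsZassenhausGroup G Ω) (a : Ω) (H : Subgroup G) (hHa : H ≤ MulAction.stabilizer G a) (hHcard : Nat.card H + 1 = Fintype.card Ω) (hHfix : ∀ u ∈ H, u ≠ 1 → ∀ c : Ω, u • c = c → c = a) : (∀ g : G, g ∉ MulAction.stabilizer G a → ∀ u ∈ H, g * u * g⁻¹ ∈ H → u = 1) ∧ Subgroup.normalizer (H : Set G) = MulAction.stabilizer G a := by
  classical
  obtain ⟨hfaith, h2t, h3, hex, hN⟩ := hZ
  have h2 : ∀ {a b c d : Ω}, a ≠ b → c ≠ d → ∃ g : G, g • a = c ∧ g • b = d :=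
    fun h h' => (MulAction.is_two_pretransitive_iff (G := G) (α := Ω)).mp h2t h h'
  haveI : Fintype G := Fintype.ofFinite G
  have hn3 : 3 ≤ Fintype.card Ω := by
    obtain ⟨g, hg1, a', b', hab', hga, hgb⟩ := hex
    obtain ⟨c, hc⟩ : ∃ c : Ω, g • c ≠ c := by
      by_contra hcon
      push_neg at hcon
      apply hg1
      haveI := hfaith
      exact FaithfulSMul.eq_of_smul_eq_smul (α := Ω) (fun x => by rw [hcon x, one_smul])
    have h1 : a' ≠ c := by rintro rfl; exact hc hga
    have h2' : b' ≠ c := by rintro rfl; exact hc hgb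
    have h4 : 2 < (Finset.univ : Finset Ω).card := Finset.two_lt_card.mpr
      ⟨a', Finset.mem_univ _, b', Finset.mem_univ _, c, Finset.mem_univ _, hab', h1, h2'⟩
    rw [Finset.card_univ] at h4
    omega
  have hHa' : ∀ u ∈ H, u • a = a := fun u hu => MulAction.mem_stabilizer_iff.mp (hHa hu)
  have hpart1 : ∀ g : G, g ∉ MulAction.stabilizer G a → ∀ u ∈ H, g * u * g⁻¹ ∈ H → u = 1 := by
    intro g hg u hu hgu
    by_contra hu1
    have hne : g * u * g⁻¹ ≠ 1 := by
      intro h
      apply hu1
      have e : u = g⁻¹ * (g * u * g⁻¹) * g := by group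
      rw [e, h]; group
    have hfix : (g * u * g⁻¹) • (g • a) = g • a := by
      rw [mul_smul, mul_smul, inv_smul_smul, hHa' u hu]
    have h5 := hHfix _ hgu hne (g • a) hfix
    exact hg (MulAction.mem_stabilizer_iff.mpr h5)
  obtain ⟨u₀, hu₀H, hu₀1⟩ : ∃ u ∈ H, u ≠ 1 := by
    by_contra hcon
    push_neg at hcon
    have h5 : H = ⊥ := (Subgroup.eq_bot_iff_forall H).mpr hcon
    rw [h5, Subgroup.card_bot] at hHcard
    omega
  have hclaim : ∀ v : G, v • a = a → (∀ c : Ω, v • c = c → c = a) → v ∈ H := by
    intro v hva hvfix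
    by_contra hvH
    set m := Fintype.card Ω - 1 with hm
    set T := Finset.univ.filter (fun x : G => x • a = a) with hT
    have hTb : ∀ b : Ω, a ≠ b →
        T.card = m * (Finset.univ.filter (fun x : G => x • a = a ∧ x • b = b)).card :=
      fun b hb => Cfsg.Agent.Lib.Helper6.zass_card_stab_eq h2 a b hb
    obtain ⟨b₀, hb₀⟩ : ∃ b₀ : Ω, a ≠ b₀ := by
      by_contra hcon
      push_neg at hcon
      have h5 : Fintype.card Ω ≤ 1 :=
        Fintype.card_le_one_iff.mpr (fun x y => by rw [← hcon x, ← hcon y])
      omega
    set e := (Finset.univ.filter (fun x : G => x • a = a ∧ x • b₀ = b₀)).card with he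
    have hmpos : 0 < m := by omega
    have hTe : T.card = m * e := hTb b₀ hb₀
    have hbe : ∀ b : Ω, a ≠ b →
        (Finset.univ.filter (fun x : G => x • a = a ∧ x • b = b)).card = e := by
      intro b hb
      have h5 := hTb b hb
      rw [hTe] at h5
      exact (Nat.eq_of_mul_eq_mul_left hmpos h5).symm
    have he1 : 1 ≤ e := by
      rw [he]; apply Finset.card_pos.mpr; exact ⟨1, by simp⟩
    set U := (Finset.univ.erase a).biUnion
      (fun b => (Finset.univ.filter (fun x : G => x • a = a ∧ x • b = b)).erase 1) with hU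
    have hUcard : U.card = m * (e - 1) := by
      rw [hU, Finset.card_biUnion]
      · have h5 : ∀ b ∈ Finset.univ.erase a,
            ((Finset.univ.filter (fun x : G => x • a = a ∧ x • b = b)).erase 1).card = e - 1 := by
          intro b hb
          rw [Finset.mem_erase] at hb
          rw [Finset.card_erase_of_mem (by simp), hbe b (Ne.symm hb.1)]
        rw [Finset.sum_congr rfl h5, Finset.sum_const,
          Finset.card_erase_of_mem (Finset.mem_univ a), Finset.card_univ, smul_eq_mul]
      · intro b hb b' hb' hbb'
        rw [Function.onFun, Finset.disjoint_left]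
        intro x hx hx'
        rw [Finset.mem_erase, Finset.mem_filter] at hx hx'
        rw [Finset.mem_coe, Finset.mem_erase] at hb hb'
        exact hx.1 (h3 x a b b' (Ne.symm hb.1) hbb' (Ne.symm hb'.1) hx.2.2.1 hx.2.2.2 hx'.2.2.2)
    set HF := Finset.univ.filter (fun x : G => x ∈ H) with hHF
    have hHFcard : HF.card = m := by
      have h5 : Nat.card H = HF.card := Nat.subtype_card HF (by intro x; simp [hHF])
      omega
    have hvHF : v ∉ HF := by rw [hHF, Finset.mem_filter]; exact fun h => hvH h.2
    have hsub : U ∪ insert v HF ⊆ T := by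
      intro x hx
      rw [Finset.mem_union] at hx
      rw [hT, Finset.mem_filter]
      refine ⟨Finset.mem_univ _, ?_⟩
      rcases hx with hx | hx
      · rw [hU, Finset.mem_biUnion] at hx
        obtain ⟨b, _, hxb⟩ := hx
        rw [Finset.mem_erase, Finset.mem_filter] at hxb
        exact hxb.2.2.1
      · rw [Finset.mem_insert] at hx
        rcases hx with hx | hx
        · rw [hx]; exact hva
        · rw [hHF, Finset.mem_filter] at hx
          exact hHa' x hx.2
    have hdisj : Disjoint U (insert v HF) := by
      rw [Finset.disjoint_left]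
      intro x hxU hx
      rw [hU, Finset.mem_biUnion] at hxU
      obtain ⟨b, hb, hxb⟩ := hxU
      rw [Finset.mem_erase, Finset.mem_filter] at hxb
      rw [Finset.mem_erase] at hb
      rw [Finset.mem_insert] at hx
      rcases hx with hx | hx
      · rw [hx] at hxb
        exact hb.1 (hvfix b hxb.2.2.2)
      · rw [hHF, Finset.mem_filter] at hx
        exact hb.1 (hHfix x hx.2 hxb.1 b hxb.2.2.2)
    have hcount := Finset.card_le_card hsub
    rw [Finset.card_union_of_disjoint hdisj, Finset.card_insert_of_notMem hvHF, hUcard, hHFcard,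
      hTe] at hcount
    obtain ⟨e', he'⟩ : ∃ e', e = e' + 1 := ⟨e - 1, by omega⟩
    rw [he'] at hcount
    simp only [Nat.add_sub_cancel] at hcount
    rw [Nat.mul_succ] at hcount
    omega
  refine ⟨hpart1, ?_⟩
  apply le_antisymm
  · intro g hg
    by_contra hga
    have h5 := (Subgroup.mem_normalizer_iff.mp hg u₀).mp hu₀H
    exact hu₀1 (hpart1 g hga u₀ hu₀H h5)
  · have hconjH : ∀ g : G, g • a = a → ∀ u ∈ H, g * u * g⁻¹ ∈ H := by
      intro g hga u hu
      by_cases hu1 : u = 1
      · rw [hu1, mul_one, mul_inv_cancel]; exact Subgroup.one_mem _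
      · apply hclaim
        · rw [mul_smul, mul_smul, inv_smul_eq_iff.mpr hga.symm, hHa' u hu, hga]
        · intro c hc
          have h5 : u • (g⁻¹ • c) = g⁻¹ • c :=
            eq_inv_smul_iff.mpr (by rw [← mul_smul, ← mul_smul]; exact hc)
          have h6 := hHfix u hu hu1 _ h5
          rw [inv_smul_eq_iff] at h6
          rw [h6, hga]
    intro g hg
    have hga : g • a = a := MulAction.mem_stabilizer_iff.mp hg
    rw [Subgroup.mem_normalizer_iff]
    intro x
    constructor
    · exact hconjH g hga x
    · intro hx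
      have h7 := hconjH g⁻¹ (inv_smul_eq_iff.mpr hga.symm) _ hx
      have e : g⁻¹ * (g * x * g⁻¹) * g⁻¹⁻¹ = x := by group
      rwa [e] at h7

end Cfsg.Agent.S0878
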