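import Cfsg.Statements.S0879
import Mathlib
-- import your own Cfsg.Agent.* helpers here

set_option autoImplicit false
open Cfsg

namespace Cfsg.Agent.S0879



/-- Let G be a Zassenhaus group on the finite set Ω and E the stabilizer of two distinct points a, b. Then an element outside the normalizer of E conjugates no non-identity element of E into E, and E has index 2 in its normalizer. -/
theorem result {G Ω : Type*} [Group G] [Finite G] [MulAction G Ω] [Fintype Ω] (hZ : Cfsg.IsZassenhausGroup G Ω) {a b : Ω} (hab : a ≠ b) : (∀ g : G, g ∉ Subgroup.normalizer ((MulAction.stabilizer G a ⊓ MulAction.stabilizer G b : Subgroup G) : Set G) → ∀ x ∈ (MulAction.stabilizer G a ⊓ MulAction.stabilizer G b : Subgroup G), g * x * g⁻¹ ∈ (MulAction.stabilizer G a ⊓ MulAction.stabilizer G b : Subgroup G) → x = 1) ∧ ((MulAction.stabilizer G a ⊓ MulAction.stabilizer G b : Subgroup G).subgroupOf (Subgroup.normalizer ((MulAction.stabilizer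 G a ⊓ MulAction.stabilizer G b : Subgroup G) : Set G))).index = 2 := by
  classical
  obtain ⟨hfaith, h2t, h3, hex, hN⟩ := hZ
  have h2 : ∀ {a b c d : Ω}, a ≠ b → c ≠ d → ∃ g : G, g • a = c ∧ g • b = d :=
    fun h h' => (MulAction.is_two_pretransitive_iff (G := G) (α := Ω)).mp h2t h h'
  set E : Subgroup G := MulAction.stabilizer G a ⊓ MulAction.stabilizer G b with hE
  have hmemE : ∀ x : G, x ∈ E ↔ x • a = a ∧ x • b = b := by
    intro x
    rw [hE, Subgroup.mem_inf, MulAction.mem_stabilizer_iff, MulAction.mem_stabilizer_iff]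
  have hPinv : ∀ g : G, ((g • a = a ∧ g • b = b) ∨ (g • a = b ∧ g • b = a)) →
      ((g⁻¹ • a = a ∧ g⁻¹ • b = b) ∨ (g⁻¹ • a = b ∧ g⁻¹ • b = a)) := by
    intro g hg
    rcases hg with ⟨h1, h2'⟩ | ⟨h1, h2'⟩
    · left; exact ⟨inv_smul_eq_iff.mpr h1.symm, inv_smul_eq_iff.mpr h2'.symm⟩
    · right; exact ⟨inv_smul_eq_iff.mpr h2'.symm, inv_smul_eq_iff.mpr h1.symm⟩
  have hPconj : ∀ g : G, ((g • a = a ∧ g • b = b) ∨ (g • a = b ∧ g • b = a)) →
      ∀ x ∈ E, g * x * g⁻¹ ∈ E := by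
    intro g hg x hx
    rw [hmemE] at hx ⊢
    rcases hg with ⟨h1, h2'⟩ | ⟨h1, h2'⟩
    · have i1 : g⁻¹ • a = a := inv_smul_eq_iff.mpr h1.symm
      have i2 : g⁻¹ • b = b := inv_smul_eq_iff.mpr h2'.symm
      constructor
      · rw [mul_smul, mul_smul, i1, hx.1, h1]
      · rw [mul_smul, mul_smul, i2, hx.2, h2']
    · have i1 : g⁻¹ • a = b := inv_smul_eq_iff.mpr h2'.symm
      have i2 : g⁻¹ • b = a := inv_smul_eq_iff.mpr h1.symm
      constructor
      · rw [mul_smul, mul_smul, i1, hx.2, h2']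
      · rw [mul_smul, mul_smul, i2, hx.1, h1]
  have hL : ∀ g : G, ∀ x ∈ E, x ≠ 1 → g * x * g⁻¹ ∈ E →
      ((g • a = a ∧ g • b = b) ∨ (g • a = b ∧ g • b = a)) := by
    intro g x hx hx1 hgx
    rw [hmemE] at hx hgx
    have hfa : x • (g⁻¹ • a) = g⁻¹ • a :=
      eq_inv_smul_iff.mpr (by rw [← mul_smul, ← mul_smul]; exact hgx.1)
    have hfb : x • (g⁻¹ • b) = g⁻¹ • b :=
      eq_inv_smul_iff.mpr (by rw [← mul_smul, ← mul_smul]; exact hgx.2)
    have hca : g⁻¹ • a = a ∨ g⁻¹ • a = b := by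
      by_contra hcon
      push_neg at hcon
      exact hx1 (h3 x a b (g⁻¹ • a) hab (Ne.symm hcon.2) (Ne.symm hcon.1) hx.1 hx.2 hfa)
    have hcb : g⁻¹ • b = a ∨ g⁻¹ • b = b := by
      by_contra hcon
      push_neg at hcon
      exact hx1 (h3 x a b (g⁻¹ • b) hab (Ne.symm hcon.2) (Ne.symm hcon.1) hx.1 hx.2 hfb)
    have hne : g⁻¹ • a ≠ g⁻¹ • b := fun h => hab (MulAction.injective g⁻¹ h)
    have hP : (g⁻¹ • a = a ∧ g⁻¹ • b = b) ∨ (g⁻¹ • a = b ∧ g⁻¹ • b = a) := by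
      rcases hca with h1 | h1 <;> rcases hcb with h2' | h2'
      · exact absurd (h1.trans h2'.symm) hne
      · left; exact ⟨h1, h2'⟩
      · right; exact ⟨h1, h2'⟩
      · exact absurd (h1.trans h2'.symm) hne
    have h4 := hPinv g⁻¹ hP
    rwa [inv_inv] at h4
  have hPN : ∀ g : G, ((g • a = a ∧ g • b = b) ∨ (g • a = b ∧ g • b = a)) →
      g ∈ Subgroup.normalizer (E : Set G) := by
    intro g hg
    rw [Subgroup.mem_normalizer_iff]
    intro x
    constructor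
    · exact hPconj g hg x
    · intro hx
      have h4 := hPconj g⁻¹ (hPinv g hg) _ hx
      have e : g⁻¹ * (g * x * g⁻¹) * g⁻¹⁻¹ = x := by group
      rwa [e] at h4
  obtain ⟨x₀, hx₀E, hx₀1⟩ : ∃ x ∈ E, x ≠ 1 := by
    obtain ⟨g, hg1, a', b', hab', hga, hgb⟩ := hex
    obtain ⟨h, hha, hhb⟩ := h2 hab' hab
    refine ⟨h * g * h⁻¹, ?_, ?_⟩
    · rw [hmemE]
      have e1 : h⁻¹ • a = a' := by rw [← hha, inv_smul_smul]
      have e2 : h⁻¹ • b = b' := by rw [← hhb, inv_smul_smul]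
      exact ⟨by rw [mul_smul, mul_smul, e1, hga, hha], by rw [mul_smul, mul_smul, e2, hgb, hhb]⟩
    · intro h1
      apply hg1
      have e3 : g = h⁻¹ * (h * g * h⁻¹) * h := by group
      rw [e3, h1]; group
  have hNP : ∀ g ∈ Subgroup.normalizer (E : Set G),
      ((g • a = a ∧ g • b = b) ∨ (g • a = b ∧ g • b = a)) := by
    intro g hg
    exact hL g x₀ hx₀E hx₀1 ((Subgroup.mem_normalizer_iff.mp hg x₀).mp hx₀E)
  refine ⟨?_, ?_⟩
  · intro g hg x hx hgx
    by_contra hx1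
    exact hg (hPN g (hL g x hx hx1 hgx))
  · rw [Subgroup.index_eq_two_iff]
    obtain ⟨s₀, hs₀a, hs₀b⟩ := h2 hab hab.symm
    have hs₀N : s₀ ∈ Subgroup.normalizer (E : Set G) := hPN s₀ (Or.inr ⟨hs₀a, hs₀b⟩)
    refine ⟨⟨s₀, hs₀N⟩, ?_⟩
    intro n
    rw [Subgroup.mem_subgroupOf, Subgroup.mem_subgroupOf, hmemE, hmemE]
    have hcoe : ((n * ⟨s₀, hs₀N⟩ : Subgroup.normalizer (E : Set G)) : G) = (n : G) * s₀ := rfl
    rw [hcoe]
    rcases hNP n.1 n.2 with ⟨h1, h2'⟩ | ⟨h1, h2'⟩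
    · right
      refine ⟨⟨h1, h2'⟩, ?_⟩
      rintro ⟨h3', -⟩
      rw [mul_smul, hs₀a, h2'] at h3'
      exact hab h3'.symm
    · left
      refine ⟨⟨?_, ?_⟩, ?_⟩
      · rw [mul_smul, hs₀a, h2']
      · rw [mul_smul, hs₀b, h1]
      · rintro ⟨h3', -⟩
        rw [h1] at h3'
        exact hab h3'.symm

end Cfsg.Agent.S0879
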