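import Cfsg.Statements.S0886
import Mathlib
import Cfsg.Agent.Lib.Helper7.ExtGrp

set_option autoImplicit false
open Cfsg

namespace Cfsg.Agent.S0886

open Cfsg.Agent.Lib.Lead Cfsg.Agent.Lib.Helper7

/-- Let N be a normal subgroup of the finite group G with G / N cyclic, and ϑ an irreducible character of N invariant under conjugation by G. Then ϑ is the restriction of some irreducible character of G. -/
theorem result {G : Type*} [Group G] [Finite G] (N : Subgroup G) [hN : N.Normal] (hcyc : IsCyclic (G ⧸ N)) (ϑ : N → ℂ) (hϑ : Cfsg.IsIrrCharacter N ϑ) (hinv : ∀ (g : G) (n : N), ϑ ⟨g * n * g⁻¹, hN.conj_mem (n : G) n.2 g⟩ = ϑ n) : ∃ χ : G → ℂ, Cfsg.IsIrrCharacter G χ ∧ ∀ n : N, χ n = ϑ n := by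
  classical
  obtain ⟨n, ρ, hρ, rfl⟩ := hϑ
  haveI := hρ
  have hinv' : ∀ (g : G) (m : N), ρ.character (conjHom N g m) = ρ.character m :=
    fun g m => hinv g m
  obtain ⟨q₀, hq₀⟩ := hcyc.exists_generator
  obtain ⟨g₀, rfl⟩ := QuotientGroup.mk_surjective q₀
  obtain ⟨mm, hmm⟩ : ∃ mm, mm = N.index := ⟨_, rfl⟩
  have hmm0 : 0 < mm := by
    rw [hmm]; exact Nat.pos_of_ne_zero Subgroup.index_ne_zero_of_finite
  have hg₀mem : g₀ ^ mm ∈ N := by rw [hmm]; exact Subgroup.pow_index_mem N g₀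
  obtain ⟨P₀, hP₀⟩ := liftGrp_surj N ρ hinv' g₀
  have hpow : ((g₀, P₀) : G × (Endn n)ˣ) ^ mm ∈ liftGrp N ρ := Subgroup.pow_mem _ hP₀ mm
  have hpow' : ((g₀ ^ mm, P₀ ^ mm) : G × (Endn n)ˣ) ∈ liftGrp N ρ := by
    rw [Prod.pow_mk] at hpow; exact hpow
  obtain ⟨c, hc⟩ := liftGrp_scalar N ρ ⟨g₀ ^ mm, hg₀mem⟩ (P₀ ^ mm) hpow'
  have hn0 : 0 < n := by
    have h1 := finrank_pos_of_irr ρ
    rw [Module.finrank_fin_fun] at h1
    exact h1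
  haveI : Nonempty (Fin n) := ⟨⟨0, hn0⟩⟩
  haveI : Nontrivial (Endn n) := inferInstance
  have hc0 : c ≠ 0 := by
    rintro rfl
    rw [zero_smul] at hc
    exact (Units.ne_zero (P₀ ^ mm)) hc
  obtain ⟨a, ha⟩ := IsAlgClosed.exists_pow_nat_eq c hmm0
  have ha0 : a ≠ 0 := by
    rintro rfl
    rw [zero_pow hmm0.ne'] at ha
    exact hc0 ha.symm
  obtain ⟨s, hs⟩ : ∃ s : (Endn n)ˣ, s = scalarUnit n (Units.mk0 a ha0)⁻¹ := ⟨_, rfl⟩
  obtain ⟨P₁, hP₁def⟩ : ∃ P₁ : (Endn n)ˣ, P₁ = s * P₀ := ⟨_, rfl⟩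
  have hP₁ : ((g₀, P₁) : G × (Endn n)ˣ) ∈ liftGrp N ρ := by
    have h1 := Subgroup.mul_mem _ (scalarUnit_mem N ρ (Units.mk0 a ha0)⁻¹) hP₀
    have h2 : (((1 : G), scalarUnit n (Units.mk0 a ha0)⁻¹) : G × (Endn n)ˣ) *
        ((g₀, P₀) : G × (Endn n)ˣ) = (g₀, P₁) := by
      rw [Prod.mk_mul_mk, one_mul, hP₁def, hs]
    rw [h2] at h1; exact h1
  have hP₁pow : P₁ ^ mm = MonoidHom.toHomUnits ρ ⟨g₀ ^ mm, hg₀mem⟩ := by
    have hcomm : Commute s P₀ := by rw [hs]; exact scalarUnit_commute _ P₀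
    apply Units.ext
    rw [hP₁def, hcomm.mul_pow, Units.val_mul, hc, MonoidHom.coe_toHomUnits,
      Units.val_pow_eq_pow_val, hs, scalarUnit_val, smul_pow, one_pow, smul_mul_assoc, one_mul,
      smul_smul]
    have h3 : ((((Units.mk0 a ha0)⁻¹ : ℂˣ) : ℂ)) ^ mm * c = 1 := by
      rw [Units.val_inv_eq_inv_val, Units.val_mk0, inv_pow, ha, inv_mul_cancel₀ hc0]
    rw [h3, one_smul]
  obtain ⟨x₁, hx₁⟩ : ∃ x₁ : liftGrp N ρ, x₁ = ⟨(g₀, P₁), hP₁⟩ := ⟨_, rfl⟩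
  have hx₁proj : liftProj N ρ x₁ = g₀ := by rw [hx₁]; rfl
  have hx₁pow : x₁ ^ mm = liftIncl N ρ ⟨g₀ ^ mm, hg₀mem⟩ := by
    apply Subtype.ext
    rw [hx₁]
    show ((g₀, P₁) : G × (Endn n)ˣ) ^ mm =
      ((g₀ ^ mm : G), MonoidHom.toHomUnits ρ ⟨g₀ ^ mm, hg₀mem⟩)
    rw [Prod.pow_mk, hP₁pow]
  haveI hNh : ((liftIncl N ρ).range).Normal := liftIncl_range_normal N ρ
  obtain ⟨K, hK⟩ : ∃ K : Subgroup (liftGrp N ρ),
      K = (liftIncl N ρ).range ⊔ Subgroup.zpowers x₁ := ⟨_, rfl⟩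
  have hNK : (liftIncl N ρ).range ≤ K := by rw [hK]; exact le_sup_left
  have hxK : Subgroup.zpowers x₁ ≤ K := by rw [hK]; exact le_sup_right
  apply ext_of_section N ρ (liftProj N ρ) (liftRep N ρ) (liftIncl N ρ) (liftProj_incl N ρ)
    (liftRep_incl N ρ) K
  · intro m; exact hNK ⟨m, rfl⟩
  · intro g
    obtain ⟨i, hi⟩ := Subgroup.mem_zpowers_iff.1 (hq₀ (QuotientGroup.mk g))
    have hmem : (g₀ ^ i)⁻¹ * g ∈ N := by
      rw [← QuotientGroup.eq, QuotientGroup.mk_zpow]; exact hi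
    refine ⟨x₁ ^ i * liftIncl N ρ ⟨_, hmem⟩,
      Subgroup.mul_mem _ (hxK (Subgroup.zpow_mem_zpowers x₁ i)) (hNK ⟨_, rfl⟩), ?_⟩
    rw [map_mul, map_zpow, liftProj_incl, hx₁proj]
    show g₀ ^ i * ((g₀ ^ i)⁻¹ * g) = g
    rw [mul_inv_cancel_left]
  · intro k hk hπk
    have hk' : k ∈ (((liftIncl N ρ).range ⊔ Subgroup.zpowers x₁ : Subgroup _) : Set _) := by
      rw [← hK]; exact hk
    rw [Subgroup.normal_mul] at hk'
    obtain ⟨a', ha', b', hb', rfl⟩ := Set.mem_mul.1 hk'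
    obtain ⟨m, rfl⟩ := ha'
    obtain ⟨i, rfl⟩ := Subgroup.mem_zpowers_iff.1 hb'
    rw [map_mul, map_zpow, liftProj_incl, hx₁proj] at hπk
    have hgi : g₀ ^ i ∈ N := by
      have h1 : g₀ ^ i = (m : G)⁻¹ := eq_inv_of_mul_eq_one_right hπk
      rw [h1]; exact N.inv_mem m.2
    have hdvd : (mm : ℤ) ∣ i := by
      have h1 : (QuotientGroup.mk g₀ : G ⧸ N) ^ i = 1 := by
        rw [← QuotientGroup.mk_zpow]; exact (QuotientGroup.eq_one_iff _).2 hgi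
      have h2 : orderOf (QuotientGroup.mk g₀ : G ⧸ N) = mm := by
        rw [orderOf_eq_card_of_forall_mem_zpowers hq₀, hmm, Subgroup.index_eq_card]
      rw [← h2]
      exact orderOf_dvd_iff_zpow_eq_one.2 h1
    obtain ⟨j, rfl⟩ := hdvd
    have hx : x₁ ^ ((mm : ℤ) * j) = liftIncl N ρ (⟨g₀ ^ mm, hg₀mem⟩ ^ j) := by
      rw [zpow_mul, zpow_natCast, hx₁pow, map_zpow]
    rw [hx, ← map_mul]
    have hone : m * (⟨g₀ ^ mm, hg₀mem⟩ : N) ^ j = 1 := by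
      apply Subtype.ext
      rw [Subgroup.coe_mul, Subgroup.coe_zpow]
      show (m : G) * (g₀ ^ mm) ^ j = 1
      rw [← zpow_natCast, ← zpow_mul]; exact hπk
    rw [hone, map_one]

end Cfsg.Agent.S0886
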