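import Cfsg.Statements.S0901
import Mathlib
import Cfsg.Agent.Lib.Lead.SylowAux2
import Cfsg.Agent.Lib.Lead.BlockOsima

set_option autoImplicit false
open Cfsg Cfsg.Agent.Lib.Lead

namespace Cfsg.Agent.S0901

open scoped Pointwise commutatorElement

/-- Let M be a maximal ideal of the ring of algebraic integers containing the prime p, and let U be the set of complex roots of unity of order prime to p. Then reduction modulo M is injective on U, and every algebraic integer not in M is congruent modulo M to an element of U (so U maps bijectively onto the nonzero residues). -/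
theorem result (p : ℕ) [Fact p.Prime] (M : Ideal Cfsg.AlgInt) (hM : Cfsg.IsPModular p M) : (∀ ε₁ ε₂ : Cfsg.AlgInt, (∃ m : ℕ, ¬ p ∣ m ∧ (ε₁ : ℂ) ^ m = 1) → (∃ m : ℕ, ¬ p ∣ m ∧ (ε₂ : ℂ) ^ m = 1) → ε₁ - ε₂ ∈ M → ε₁ = ε₂) ∧ (∀ a : Cfsg.AlgInt, a ∉ M → ∃ ε : Cfsg.AlgInt, (∃ m : ℕ, ¬ p ∣ m ∧ (ε : ℂ) ^ m = 1) ∧ a - ε ∈ M) := by
  classical
  obtain ⟨hp, hMmax, hpM⟩ := hM
  have hMprime : M.IsPrime := hMmax.isPrime
  have hMtop : M ≠ ⊤ := hMprime.ne_top
  constructor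
  · rintro ε₁ ε₂ ⟨m₁, hm₁, h₁⟩ ⟨m₂, hm₂, h₂⟩ hmem
    have e₁ : ε₁ ^ m₁ = 1 := Subtype.ext h₁
    have e₂ : ε₂ ^ m₂ = 1 := Subtype.ext h₂
    obtain ⟨m, hmdef⟩ : ∃ m : ℕ, m = m₁ * m₂ := ⟨_, rfl⟩
    have hpm : ¬ p ∣ m := by
      rw [hmdef]
      intro h
      rcases (Nat.Prime.dvd_mul hp).mp h with h | h
      · exact hm₁ h
      · exact hm₂ h
    have hm0 : m ≠ 0 := by
      intro h
      rw [h] at hpm
      exact hpm (dvd_zero p)
    have f₁ : ε₁ ^ m = 1 := by rw [hmdef, pow_mul, e₁, one_pow]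
    have f₂ : ε₂ ^ m = 1 := by rw [hmdef, mul_comm, pow_mul, e₂, one_pow]
    have h3 : ε₂ * ε₂ ^ (m - 1) = 1 := by
      rw [← pow_succ', Nat.sub_add_cancel (Nat.one_le_iff_ne_zero.mpr hm0), f₂]
    obtain ⟨ζ, hζ⟩ : ∃ ζ : Cfsg.AlgInt, ζ = ε₁ * ε₂ ^ (m - 1) := ⟨_, rfl⟩
    have hζm : ζ ^ m = 1 := by
      rw [hζ, mul_pow, f₁, one_mul, ← pow_mul, mul_comm, pow_mul, f₂, one_pow]
    have h1ζ : 1 - ζ ∈ M := by
      have e : 1 - ζ = (ε₂ - ε₁) * ε₂ ^ (m - 1) := by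
        rw [hζ, sub_mul, h3]
      rw [e]
      have h4 : ε₂ - ε₁ ∈ M := by
        have h5 := M.neg_mem hmem
        rw [neg_sub] at h5
        exact h5
      exact M.mul_mem_right _ h4
    by_cases hζ1 : ζ = 1
    · calc ε₁ = ε₁ * (ε₂ * ε₂ ^ (m - 1)) := by rw [h3, mul_one]
        _ = ε₂ * (ε₁ * ε₂ ^ (m - 1)) := by ring
        _ = ε₂ := by rw [← hζ, hζ1, mul_one]
    · exfalso
      have hsum : ∑ j ∈ Finset.range m, ζ ^ j = 0 := by
        have h6 := geom_sum_mul ζ m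
        rw [hζm, sub_self] at h6
        rcases mul_eq_zero.mp h6 with h7 | h7
        · exact h7
        · exact absurd (sub_eq_zero.mp h7) hζ1
      have hmM : ((m : ℕ) : Cfsg.AlgInt) ∈ M := by
        have e : ((m : ℕ) : Cfsg.AlgInt) =
            (1 - ζ) * ∑ j ∈ Finset.range m, ∑ i ∈ Finset.range j, ζ ^ i := by
          rw [Finset.mul_sum]
          have h8 : ∀ j ∈ Finset.range m,
              (1 - ζ) * ∑ i ∈ Finset.range j, ζ ^ i = 1 - ζ ^ j := by
            intro j _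
            exact mul_neg_geom_sum ζ j
          rw [Finset.sum_congr rfl h8, Finset.sum_sub_distrib, hsum, sub_zero, Finset.sum_const,
            Finset.card_range, nsmul_eq_mul, mul_one]
        rw [e]
        exact M.mul_mem_right _ h1ζ
      exact natCast_not_mem_lead hMtop p m ((Nat.Prime.coprime_iff_not_dvd hp).mpr hpm).symm hpM
        hmM
  · intro a ha
    obtain ⟨i, j, hj, c, hc⟩ := pow_mul_one_sub_pow_lead p hp a
    have h1 : a ^ i * (1 - a ^ j) ∈ M := by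
      rw [hc]
      exact M.mul_mem_right _ hpM
    have h2 : 1 - a ^ j ∈ M := by
      rcases hMprime.mem_or_mem h1 with h | h
      · exact absurd (hMprime.mem_of_pow_mem i h) ha
      · exact h
    obtain ⟨e, j', hj', hje⟩ := Nat.exists_eq_pow_mul_and_not_dvd (n := j) hj.ne' p hp.ne_one
    have hj'0 : 0 < j' := by
      rcases Nat.eq_zero_or_pos j' with h | h
      · rw [h] at hj'
        exact absurd (dvd_zero p) hj'
      · exact h
    have h3 : a ^ j' - 1 ∈ M := by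
      obtain ⟨r, hr⟩ := sub_pow_prime_pow_lead p hp e (a ^ j') (1 : Cfsg.AlgInt)
      apply hMprime.mem_of_pow_mem (p ^ e)
      rw [hr, one_pow, ← pow_mul, mul_comm j' (p ^ e), ← hje]
      have h4 : a ^ j - 1 ∈ M := by
        have h5 := M.neg_mem h2
        rw [neg_sub] at h5
        exact h5
      exact M.add_mem h4 (M.mul_mem_right _ hpM)
    have hprim := Complex.isPrimitiveRoot_exp j' hj'0.ne'
    have hfac := Polynomial.X_pow_sub_one_eq_prod hj'0 hprim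
    have hev := congrArg (Polynomial.eval (a : ℂ)) hfac
    rw [Polynomial.eval_prod] at hev
    simp only [Polynomial.eval_sub, Polynomial.eval_pow, Polynomial.eval_X, Polynomial.eval_one,
      Polynomial.eval_C] at hev
    obtain ⟨f, hf⟩ : ∃ f : ℂ → Cfsg.AlgInt, ∀ ζ : ℂ, IsIntegral ℤ ζ → (f ζ : ℂ) = ζ := by
      refine ⟨fun ζ => if h : IsIntegral ℤ ζ then ⟨ζ, h⟩ else 0, ?_⟩
      intro ζ h
      show ((if h : IsIntegral ℤ ζ then (⟨ζ, h⟩ : Cfsg.AlgInt) else 0 : Cfsg.AlgInt) : ℂ) = ζ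
      rw [dif_pos h]
    have hint : ∀ ζ ∈ Polynomial.nthRootsFinset j' (1 : ℂ), IsIntegral ℤ ζ := by
      intro ζ hζ
      have h5 := (Polynomial.mem_nthRootsFinset hj'0 (1 : ℂ)).mp hζ
      apply IsIntegral.of_pow hj'0
      rw [h5]
      exact isIntegral_one
    have hprod : ∏ ζ ∈ Polynomial.nthRootsFinset j' (1 : ℂ), (a - f ζ) = a ^ j' - 1 := by
      apply Subtype.ext
      have h6 := map_prod (Subalgebra.val Cfsg.AlgInt) (fun ζ : ℂ => a - f ζ)
        (Polynomial.nthRootsFinset j' (1 : ℂ))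
      have h7 : ((∏ ζ ∈ Polynomial.nthRootsFinset j' (1 : ℂ), (a - f ζ) : Cfsg.AlgInt) : ℂ) =
          ∏ ζ ∈ Polynomial.nthRootsFinset j' (1 : ℂ), ((a : ℂ) - (f ζ : ℂ)) := h6
      have h8 : ∏ ζ ∈ Polynomial.nthRootsFinset j' (1 : ℂ), ((a : ℂ) - (f ζ : ℂ)) =
          ∏ ζ ∈ Polynomial.nthRootsFinset j' (1 : ℂ), ((a : ℂ) - ζ) := by
        apply Finset.prod_congr rfl
        intro ζ hζ
        rw [hf ζ (hint ζ hζ)]
      rw [h7, h8, ← hev]
      rfl
    have hmem : ∏ ζ ∈ Polynomial.nthRootsFinset j' (1 : ℂ), (a - f ζ) ∈ M := by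
      rw [hprod]
      exact h3
    haveI := hMprime
    obtain ⟨ζ, hζ, hζM⟩ := Ideal.IsPrime.prod_mem_iff.mp hmem
    refine ⟨f ζ, ⟨j', hj', ?_⟩, hζM⟩
    rw [hf ζ (hint ζ hζ)]
    exact (Polynomial.mem_nthRootsFinset hj'0 (1 : ℂ)).mp hζ

end Cfsg.Agent.S0901
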