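import Cfsg.Statements.S0903
import Mathlib


set_option autoImplicit false
open Cfsg

namespace Cfsg.Agent.S0903

/-- Let P be a p-subgroup of the finite group G, let c centralize P and let g, h ∈ G. The number of pairs (x, y) with x conjugate to g, y conjugate to h and x * y = c is congruent modulo p to the number of such pairs in which x and y both centralize P. (This is why the Brauer map on class sums is multiplicative.) -/
theorem result {G : Type*} [Group G] [Finite G] (p : ℕ) [Fact p.Prime] (P : Subgroup G) (hP : IsPGroup p P) (c : G) (hc : c ∈ Subgroup.centralizer (P : Set G)) (g h : G) : Nat.card {xy : G × G // IsConj g xy.1 ∧ IsConj h xy.2 ∧ xy.1 * xy.2 = c} ≡ Nat.card {xy : G × G // IsConj g xy.1 ∧ IsConj h xy.2 ∧ xy.1 * xy.2 = c ∧ xy.1 ∈ Subgroup.centralizer (P : Set G) ∧ xy.2 ∈ Subgroup.centralizer (P : Set G)} [MOD p] := by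
  classical
  letI act : MulAction P {xy : G × G // IsConj g xy.1 ∧ IsConj h xy.2 ∧ xy.1 * xy.2 = c} :=
    { smul := fun u xy => ⟨((u : G) * xy.1.1 * (u : G)⁻¹, (u : G) * xy.1.2 * (u : G)⁻¹), by
        refine ⟨?_, ?_, ?_⟩
        · exact xy.2.1.trans (isConj_iff.mpr ⟨u, rfl⟩)
        · exact xy.2.2.1.trans (isConj_iff.mpr ⟨u, rfl⟩)
        · show (u : G) * xy.1.1 * (u : G)⁻¹ * ((u : G) * xy.1.2 * (u : G)⁻¹) = c
          have e : (u : G) * xy.1.1 * (u : G)⁻¹ * ((u : G) * xy.1.2 * (u : G)⁻¹) =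
              (u : G) * (xy.1.1 * xy.1.2) * (u : G)⁻¹ := by group
          rw [e, xy.2.2.2]
          have hcu := (Subgroup.mem_centralizer_iff.1 hc) (u : G) u.2
          rw [hcu]; group⟩
      one_smul := fun xy => by
        apply Subtype.ext
        show (((1 : P) : G) * xy.1.1 * ((1 : P) : G)⁻¹, ((1 : P) : G) * xy.1.2 * ((1 : P) : G)⁻¹) = xy.1
        simp
      mul_smul := fun u v xy => by
        apply Subtype.ext
        show (((u * v : P) : G) * xy.1.1 * ((u * v : P) : G)⁻¹,
            ((u * v : P) : G) * xy.1.2 * ((u * v : P) : G)⁻¹) =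
          ((u : G) * ((v : G) * xy.1.1 * (v : G)⁻¹) * (u : G)⁻¹,
            (u : G) * ((v : G) * xy.1.2 * (v : G)⁻¹) * (u : G)⁻¹)
        rw [Subgroup.coe_mul]
        apply Prod.ext <;> simp [mul_assoc] }
  have hsmul : ∀ (u : P) (xy : {xy : G × G // IsConj g xy.1 ∧ IsConj h xy.2 ∧ xy.1 * xy.2 = c}),
      ((u • xy : {xy : G × G // IsConj g xy.1 ∧ IsConj h xy.2 ∧ xy.1 * xy.2 = c}) : G × G) =
        ((u : G) * xy.1.1 * (u : G)⁻¹, (u : G) * xy.1.2 * (u : G)⁻¹) := fun u xy => rfl
  have h1 := hP.card_modEq_card_fixedPoints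
    {xy : G × G // IsConj g xy.1 ∧ IsConj h xy.2 ∧ xy.1 * xy.2 = c}
  have h2 : Nat.card (MulAction.fixedPoints P
      {xy : G × G // IsConj g xy.1 ∧ IsConj h xy.2 ∧ xy.1 * xy.2 = c}) =
      Nat.card {xy : G × G // IsConj g xy.1 ∧ IsConj h xy.2 ∧ xy.1 * xy.2 = c ∧
        xy.1 ∈ Subgroup.centralizer (P : Set G) ∧ xy.2 ∈ Subgroup.centralizer (P : Set G)} := by
    have hfix : ∀ xy : {xy : G × G // IsConj g xy.1 ∧ IsConj h xy.2 ∧ xy.1 * xy.2 = c},
        xy ∈ MulAction.fixedPoints P
          {xy : G × G // IsConj g xy.1 ∧ IsConj h xy.2 ∧ xy.1 * xy.2 = c} ↔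
        (xy.1.1 ∈ Subgroup.centralizer (P : Set G) ∧ xy.1.2 ∈ Subgroup.centralizer (P : Set G)) := by
      intro xy
      rw [MulAction.mem_fixedPoints]
      constructor
      · intro hf
        have hf' : ∀ u : P, (u : G) * xy.1.1 * (u : G)⁻¹ = xy.1.1 ∧
            (u : G) * xy.1.2 * (u : G)⁻¹ = xy.1.2 := by
          intro u
          have h3 := congrArg Subtype.val (hf u)
          rw [hsmul] at h3
          exact Prod.ext_iff.1 h3
        constructor
        · rw [Subgroup.mem_centralizer_iff]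
          intro u hu
          have h4 := (hf' ⟨u, hu⟩).1
          simp only at h4
          calc u * xy.1.1 = (u * xy.1.1 * u⁻¹) * u := by group
            _ = xy.1.1 * u := by rw [h4]
        · rw [Subgroup.mem_centralizer_iff]
          intro u hu
          have h4 := (hf' ⟨u, hu⟩).2
          simp only at h4
          calc u * xy.1.2 = (u * xy.1.2 * u⁻¹) * u := by group
            _ = xy.1.2 * u := by rw [h4]
      · rintro ⟨hx, hy⟩ u
        apply Subtype.ext
        rw [hsmul]
        have h5 := (Subgroup.mem_centralizer_iff.1 hx) (u : G) u.2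
        have h6 := (Subgroup.mem_centralizer_iff.1 hy) (u : G) u.2
        apply Prod.ext
        · show (u : G) * xy.1.1 * (u : G)⁻¹ = xy.1.1
          rw [h5]; group
        · show (u : G) * xy.1.2 * (u : G)⁻¹ = xy.1.2
          rw [h6]; group
    apply Nat.card_congr
    refine
      { toFun := fun z => ⟨z.1.1, z.1.2.1, z.1.2.2.1, z.1.2.2.2, ((hfix z.1).1 z.2).1, ((hfix z.1).1 z.2).2⟩
        invFun := fun z => ⟨⟨z.1, z.2.1, z.2.2.1, z.2.2.2.1⟩, (hfix _).2 ⟨z.2.2.2.2.1, z.2.2.2.2.2⟩⟩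
        left_inv := fun z => rfl
        right_inv := fun z => rfl }
  rw [h2] at h1
  exact h1
end Cfsg.Agent.S0903
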