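import Cfsg.Statements.S0909
import Mathlib
import Cfsg.Agent.Lib.Lead.SylowAux2
import Cfsg.Agent.Lib.Lead.BlockAux2

set_option autoImplicit false
open Cfsg Cfsg.Agent.Lib.Lead

namespace Cfsg.Agent.S0909

open scoped Pointwise commutatorElement

/-- Let A be a set of irreducible characters of the finite group G such that, for every g, the inverse of the group order times the sum over χ ∈ A of χ 1 * conj (χ g) is a local integer at the maximal ideal M (containing the prime p) of the algebraic integers. Then A is a union of blocks relative to M: it contains the whole block of each of its members. -/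
theorem result {G : Type*} [Group G] [Finite G] (p : ℕ) [Fact p.Prime] (M : Ideal Cfsg.AlgInt) (hM : Cfsg.IsPModular p M) (A : Set (Cfsg.IrrCharacter G)) (hA : ∀ g : G, Cfsg.MemLocalRing M (Cfsg.blockCoeff A g)) (χ : Cfsg.IrrCharacter G) (hχ : χ ∈ A) : Cfsg.blockOf M (χ : G → ℂ) ⊆ A := by
  classical
  haveI : Fintype G := Fintype.ofFinite G
  haveI : Fintype (ConjClasses G) := Fintype.ofFinite _
  obtain ⟨-, hMmax, hpM⟩ := hM
  have hMprime : M.IsPrime := hMmax.isPrime
  have hMtop : M ≠ ⊤ := hMprime.ne_top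
  intro ψ hψ
  have hSB : Cfsg.SameBlock M (χ : G → ℂ) (ψ : G → ℂ) := hψ
  by_contra hψA
  obtain ⟨d, hd0, hd⟩ := irr_one χ.2
  have hχ1 : (χ : G → ℂ) 1 ≠ 0 := by
    rw [hd]
    exact_mod_cast hd0
  have hsum : ∑ g : G, Cfsg.blockCoeff A g *
      ((χ : G → ℂ) g / (χ : G → ℂ) 1 - (ψ : G → ℂ) g / (ψ : G → ℂ) 1) = 1 := by
    have e : ∀ g : G, Cfsg.blockCoeff A g *
        ((χ : G → ℂ) g / (χ : G → ℂ) 1 - (ψ : G → ℂ) g / (ψ : G → ℂ) 1) =
        (Cfsg.blockCoeff A g * (χ : G → ℂ) g) / (χ : G → ℂ) 1 -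
          (Cfsg.blockCoeff A g * (ψ : G → ℂ) g) / (ψ : G → ℂ) 1 := by
      intro g
      ring
    rw [Finset.sum_congr rfl (fun g _ => e g), Finset.sum_sub_distrib, ← Finset.sum_div,
      ← Finset.sum_div, blockCoeff_sum_lead A χ, blockCoeff_sum_lead A ψ, if_pos hχ,
      if_neg hψA, div_self hχ1, zero_div, sub_zero]
  have hF : ∀ g h : G, Cfsg.blockCoeff A (h * g * h⁻¹) *
      ((χ : G → ℂ) (h * g * h⁻¹) / (χ : G → ℂ) 1 - (ψ : G → ℂ) (h * g * h⁻¹) / (ψ : G → ℂ) 1) =
      Cfsg.blockCoeff A g *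
      ((χ : G → ℂ) g / (χ : G → ℂ) 1 - (ψ : G → ℂ) g / (ψ : G → ℂ) 1) := by
    intro g h
    rw [blockCoeff_classFun_lead A g h, isClassFunction_of_irr χ.2 g h,
      isClassFunction_of_irr ψ.2 g h]
  have hreg : ∑ g : G, Cfsg.blockCoeff A g *
      ((χ : G → ℂ) g / (χ : G → ℂ) 1 - (ψ : G → ℂ) g / (ψ : G → ℂ) 1) =
      ∑ c : ConjClasses G, ((Subgroup.centralizer ({Quotient.out c} : Set G)).index : ℂ) *
        (Cfsg.blockCoeff A (Quotient.out c) *
          ((χ : G → ℂ) (Quotient.out c) / (χ : G → ℂ) 1 -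
            (ψ : G → ℂ) (Quotient.out c) / (ψ : G → ℂ) 1)) :=
    sum_classFun_regroup_lead (fun g : G => Cfsg.blockCoeff A g *
      ((χ : G → ℂ) g / (χ : G → ℂ) 1 - (ψ : G → ℂ) g / (ψ : G → ℂ) 1)) hF
  have hmem : Cfsg.MemLocalIdeal M (∑ c : ConjClasses G,
      ((Subgroup.centralizer ({Quotient.out c} : Set G)).index : ℂ) *
        (Cfsg.blockCoeff A (Quotient.out c) *
          ((χ : G → ℂ) (Quotient.out c) / (χ : G → ℂ) 1 -
            (ψ : G → ℂ) (Quotient.out c) / (ψ : G → ℂ) 1))) := by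
    apply memLocalIdeal_sum_lead hMprime
    intro c _
    obtain ⟨a, b, hb, hab⟩ := hA (Quotient.out c)
    have h := memLocalIdeal_div_mul_lead hMprime a b hb (hSB (Quotient.out c))
    have e : ((Subgroup.centralizer ({Quotient.out c} : Set G)).index : ℂ) *
        (Cfsg.blockCoeff A (Quotient.out c) *
          ((χ : G → ℂ) (Quotient.out c) / (χ : G → ℂ) 1 -
            (ψ : G → ℂ) (Quotient.out c) / (ψ : G → ℂ) 1)) =
        (a : ℂ) / (b : ℂ) * (Cfsg.centralChar (χ : G → ℂ) (Quotient.out c) -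
          Cfsg.centralChar (ψ : G → ℂ) (Quotient.out c)) := by
      rw [hab]
      unfold Cfsg.centralChar
      ring
    rw [e]
    exact h
  rw [← hreg, hsum] at hmem
  exact hMtop ((Ideal.eq_top_iff_one M).mpr (mem_of_memLocalIdeal_lead hMprime 1 hmem))

end Cfsg.Agent.S0909
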