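import Cfsg.Statements.S0910
import Mathlib
import Cfsg.Agent.Lib.Lead.SylowAux2
import Cfsg.Agent.Lib.Lead.CharBurnside
import Cfsg.Agent.Lib.Lead.CharInt
import Cfsg.Agent.Lib.Lead.CharBasic
import Cfsg.Agent.Lib.Lead.CharCenter
import Cfsg.Agent.Lib.Lead.BrauerR2
import Cfsg.Agent.Lib.Lead.CharOrtho
import Cfsg.Agent.Lib.Lead.CharGalois

set_option autoImplicit false
open Cfsg Cfsg.Agent.Lib.Lead

namespace Cfsg.Agent.S0910

open scoped Pointwise commutatorElement

/-- Let G be a non-abelian finite simple group and p a prime. If an irreducible character χ lies in the principal block (relative to a maximal ideal of the algebraic integers containing p) and χ 1 is a power of p, then χ is the principal character. -/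
theorem result {G : Type*} [Group G] [Finite G] (p : ℕ) [Fact p.Prime] (M : Ideal Cfsg.AlgInt) (hM : Cfsg.IsPModular p M) [IsSimpleGroup G] (hna : ∃ a b : G, a * b ≠ b * a) (χ : Cfsg.IrrCharacter G) (hχ : χ ∈ Cfsg.principalBlock M G) (k : ℕ) (hdeg : (χ : G → ℂ) 1 = (p : ℂ) ^ k) : (χ : G → ℂ) = fun _ => 1 := by
  classical
  haveI := Fintype.ofFinite G
  obtain ⟨hp, hMmax, hpM⟩ := hM
  have hMprime : M.IsPrime := hMmax.isPrime
  have hMtop : M ≠ ⊤ := hMprime.ne_top
  have hSB : Cfsg.SameBlock M (fun _ : G => (1 : ℂ)) (χ : G → ℂ) := hχ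
  obtain ⟨n, ρ, hρ, hρχ⟩ := χ.2
  haveI := hρ
  have hfin : Module.finrank ℂ (Fin n → ℂ) = n := Module.finrank_fin_fun ℂ
  have hn1 : (χ : G → ℂ) 1 = n := by
    rw [← hρχ, Representation.char_one, hfin]
  have hnpk : n = p ^ k := by
    have h : (n : ℂ) = ((p ^ k : ℕ) : ℂ) := by
      rw [← hn1, hdeg, Nat.cast_pow]
    exact_mod_cast h
  rcases IsSimpleGroup.eq_bot_or_eq_top_of_normal (MonoidHom.ker ρ) inferInstance
    with hker | hker
  swap
  · have hχn : (χ : G → ℂ) = fun _ => (n : ℂ) := by
      funext x
      have hx : x ∈ MonoidHom.ker ρ := by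
        rw [hker]
        exact Subgroup.mem_top x
      rw [← hρχ]
      show LinearMap.trace ℂ _ (ρ x) = n
      rw [MonoidHom.mem_ker.mp hx, LinearMap.trace_one, Module.finrank_fin_fun]
    have hself := classInner_irr_self χ.2
    rw [hχn] at hself
    unfold Cfsg.classInner at hself
    simp only [map_natCast, Finset.sum_const, Finset.card_univ, nsmul_eq_mul] at hself
    rw [← Nat.card_eq_fintype_card, ← mul_assoc,
      inv_mul_cancel₀ (by exact_mod_cast Nat.card_pos.ne'), one_mul] at hself
    have h1 : n * n = 1 := by exact_mod_cast hself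
    have h2 : n = 1 := Nat.eq_one_of_mul_eq_one_right h1
    rw [hχn, h2, Nat.cast_one]
  · exfalso
    have hinj : Function.Injective ρ := (MonoidHom.ker_eq_bot_iff ρ).mp hker
    have hZ : Subgroup.center G = ⊥ := by
      rcases IsSimpleGroup.eq_bot_or_eq_top_of_normal (Subgroup.center G) inferInstance
        with hZ | hZ
      · exact hZ
      · exfalso
        obtain ⟨a, b, hab⟩ := hna
        apply hab
        have h1 : b ∈ Subgroup.center G := by
          rw [hZ]
          exact Subgroup.mem_top b
        exact Subgroup.mem_center_iff.mp h1 a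
    by_cases hk : k = 0
    · obtain ⟨a, b, hab⟩ := hna
      apply hab
      have hχ1 : (χ : G → ℂ) 1 = 1 := by rw [hdeg, hk, pow_zero]
      have h1 := linear_char_commutator χ.2 hχ1 a b
      have h2 : ρ (a * b * a⁻¹ * b⁻¹) = LinearMap.id := by
        rw [← char_eq_finrank_iff, hρχ, h1, hfin, hnpk, hk, pow_zero, Nat.cast_one]
      have h3 : a * b * a⁻¹ * b⁻¹ = 1 := hinj (h2.trans (map_one ρ).symm)
      calc a * b = (a * b * a⁻¹ * b⁻¹) * (b * a) := by group
        _ = b * a := by rw [h3, one_mul]
    · have hpn : p ∣ n := by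
        rw [hnpk]
        exact dvd_pow_self p hk
      have hndvd : n ∣ Nat.card G := by
        have := degree_dvd_card ρ
        rwa [hfin] at this
      have hpdvd : p ∣ Nat.card G := hpn.trans hndvd
      obtain ⟨Q⟩ : Nonempty (Sylow p G) := inferInstance
      have hQne : (Q : Subgroup G) ≠ ⊥ := Sylow.ne_bot_of_dvd_card Q hpdvd
      haveI : Nontrivial (Q : Subgroup G) := (Subgroup.nontrivial_iff_ne_bot _).mpr hQne
      haveI : Nontrivial (Subgroup.center (Q : Subgroup G)) := Q.2.center_nontrivial
      obtain ⟨z, hz1⟩ := exists_ne (1 : Subgroup.center (Q : Subgroup G))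
      have hg : ((z : (Q : Subgroup G)) : G) ≠ 1 := by
        intro h
        apply hz1
        apply Subtype.ext
        apply Subtype.ext
        exact h
      have hQle : (Q : Subgroup G) ≤
          Subgroup.centralizer ({((z : (Q : Subgroup G)) : G)} : Set G) := by
        intro x hx
        rw [Subgroup.mem_centralizer_singleton_iff]
        have h1 := Subgroup.mem_center_iff.mp z.2 ⟨x, hx⟩
        exact congrArg Subtype.val h1
      obtain ⟨g, hgdef⟩ : ∃ g : G, g = ((z : (Q : Subgroup G)) : G) := ⟨_, rfl⟩
      rw [← hgdef] at hg hQle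
      have hidx : ¬ p ∣ (Subgroup.centralizer ({g} : Set G)).index :=
        fun h => Q.not_dvd_index (h.trans (Subgroup.index_dvd_of_le hQle))
      have hcop : Nat.Coprime (Module.finrank ℂ (Fin n → ℂ))
          (Subgroup.centralizer ({g} : Set G)).index := by
        rw [hfin, hnpk]
        exact Nat.Coprime.pow_left k ((Nat.Prime.coprime_iff_not_dvd hp).mpr hidx)
      rcases char_zero_or_norm_of_coprime ρ g hcop with h0 | hnorm
      · have h1 := hSB g
        have h2 : Cfsg.centralChar (fun _ : G => (1 : ℂ)) g - Cfsg.centralChar (χ : G → ℂ) g =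
            ((Subgroup.centralizer ({g} : Set G)).index : ℂ) := by
          unfold Cfsg.centralChar
          rw [← hρχ, h0]
          simp
        rw [h2] at h1
        have h1' : Cfsg.MemLocalIdeal M
            ((((Subgroup.centralizer ({g} : Set G)).index : ℕ) : Cfsg.AlgInt) : ℂ) := h1
        have h3 := mem_of_memLocalIdeal_lead hMprime _ h1'
        exact natCast_not_mem_lead hMtop p _
          ((Nat.Prime.coprime_iff_not_dvd hp).mpr hidx).symm hpM h3
      · obtain ⟨ω, hω⟩ := (norm_char_eq_iff ρ g).mp hnorm
        apply hg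
        have h1 : g ∈ Subgroup.center G := by
          rw [Subgroup.mem_center_iff]
          intro x
          apply hinj
          rw [map_mul, map_mul, hω]
          ext v
          simp
        rw [hZ, Subgroup.mem_bot] at h1
        exact h1

end Cfsg.Agent.S0910
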