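import Cfsg.Statements.S0911
import Mathlib
import Cfsg.Agent.Lib.Lead.SylowAux2
import Cfsg.Agent.Lib.Lead.BlockMinMax

set_option autoImplicit false
open Cfsg Cfsg.Agent.Lib.Lead

namespace Cfsg.Agent.S0911

open scoped Pointwise commutatorElement

/-- The min–max Theorem for defect classes. Let B be a block of the finite group G relative to a maximal ideal M of the algebraic integers containing the prime p, let g represent a defect class of B and let D be a Sylow p-subgroup of the centralizer of g (viewed in G). For any h: (a) if the idempotent coefficient of B at h is a local integer outside the local ideal, then some conjugate of D contains a Sylow p-subgroup of the centralizer of h; (b) if the central character of some member of B at h is outside the local ideal, then some conjugate of D is contained in a Sylow p-subgroup of the centralizer of h. -/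
theorem result {G : Type*} [Group G] [Finite G] (p : ℕ) [Fact p.Prime] (M : Ideal Cfsg.AlgInt) (hM : Cfsg.IsPModular p M) (B : Set (Cfsg.IrrCharacter G)) (hB : Cfsg.IsPBlock M B) (g : G) (hg : Cfsg.IsDefectClass M B g) (D : Sylow p (Subgroup.centralizer ({g} : Set G))) (h : G) : (Cfsg.MemLocalRing M (Cfsg.blockCoeff B h) → ¬ Cfsg.MemLocalIdeal M (Cfsg.blockCoeff B h) → ∃ (x : G) (Q : Sylow p (Subgroup.centralizer ({h} : Set G))), (Q : Subgroup (Subgroup.centralizer ({h} : Set G))).map (Subgroup.centralizer ({h} : Set G)).subtype ≤ ((D : Subgroup (Subgroup.centralizer ({g} : Set G))).map (Subgroup.centralizer ({g} : Set G)).subtype).map (MulAut.conj x).toMonoidHom) ∧ ((∃ χ ∈ B, ¬ Cfsg.MemLocalIdeal M (Cfsg.centralChar (χ : G → ℂ) h)) → ∃ (x : G) (Q : Sylow p (Subgroup.centralizer ({h} : Set G))), ((D : Subgroup (Subgroup.centralizer ({g} : Set G))).map (Subgroup.centralizer ({g} : Set G)).subtype).map (MulAut.conj x).toMonoidHom ≤ (Q : Subgroup (Subgroup.centralizer ({h} : Set G))).map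 (Subgroup.centralizer ({h} : Set G)).subtype) := by
  classical
  haveI : Fintype G := Fintype.ofFinite G
  obtain ⟨hp, hMmax, hpM⟩ := hM
  have hMprime : M.IsPrime := hMmax.isPrime
  have hMtop : M ≠ ⊤ := hMprime.ne_top
  obtain ⟨χ₀, rfl⟩ := hB
  obtain ⟨hgR, hgI, hgω⟩ := hg
  have hχ₀B : χ₀ ∈ Cfsg.blockOf M (χ₀ : G → ℂ) := sameBlock_refl_lead hMtop (χ₀ : G → ℂ)
  have htrans : ∀ (χ : Cfsg.IrrCharacter G) (k : G), χ ∈ Cfsg.blockOf M (χ₀ : G → ℂ) →
      ¬ Cfsg.MemLocalIdeal M (Cfsg.centralChar (χ : G → ℂ) k) →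
      ¬ Cfsg.MemLocalIdeal M (Cfsg.centralChar (χ₀ : G → ℂ) k) := by
    intro χ k hχ hnot h0
    apply hnot
    have hSB : Cfsg.SameBlock M (χ₀ : G → ℂ) (χ : G → ℂ) := hχ
    have h1 := memLocalIdeal_sub_lead hMprime h0 (hSB k)
    have e : Cfsg.centralChar (χ₀ : G → ℂ) k - (Cfsg.centralChar (χ₀ : G → ℂ) k -
        Cfsg.centralChar (χ : G → ℂ) k) = Cfsg.centralChar (χ : G → ℂ) k := by ring
    rw [e] at h1
    exact h1
  have hcentral : ∀ (P : Subgroup G) (x y k : G), y * x * y⁻¹ = k →
      (∀ d ∈ P, d * x * d⁻¹ = x) →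
      ∀ w ∈ P, y * w * y⁻¹ ∈ Subgroup.centralizer ({k} : Set G) := by
    intro P x y k hk hfix w hw
    subst hk
    rw [Subgroup.mem_centralizer_iff]
    intro a ha
    rw [Set.mem_singleton_iff] at ha
    rw [ha]
    have h1 : w * x = x * w := by
      have h2 := hfix w hw
      calc w * x = w * x * w⁻¹ * w := by group
        _ = x * w := by rw [h2]
    calc y * x * y⁻¹ * (y * w * y⁻¹) = y * (x * w) * y⁻¹ := by group
      _ = y * (w * x) * y⁻¹ := by rw [h1]
      _ = y * w * y⁻¹ * (y * x * y⁻¹) := by group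
  constructor
  · intro _ hnot
    obtain ⟨Q₀⟩ : Nonempty (Sylow p (Subgroup.centralizer ({h} : Set G))) := inferInstance
    have hP : IsPGroup p ((Q₀ : Subgroup (Subgroup.centralizer ({h} : Set G))).map
        (Subgroup.centralizer ({h} : Set G)).subtype) := Q₀.isPGroup'.map _
    have hPz : ∀ d ∈ (Q₀ : Subgroup (Subgroup.centralizer ({h} : Set G))).map
        (Subgroup.centralizer ({h} : Set G)).subtype, d * h = h * d := by
      intro d hd
      obtain ⟨c, -, rfl⟩ := Subgroup.mem_map.mp hd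
      exact (Subgroup.mem_centralizer_iff.mp c.2 h (Set.mem_singleton h)).symm
    obtain ⟨x, hxg, hxfix⟩ := minmax_key_lead p hp M hMprime hpM χ₀ g h (hgω χ₀ hχ₀B) hnot
      _ hP hPz
    obtain ⟨y, hy⟩ := isConj_iff.mp hxg
    have hcent := hcentral _ x y g hy hxfix
    have hR : IsPGroup p ((((Q₀ : Subgroup (Subgroup.centralizer ({h} : Set G))).map
        (Subgroup.centralizer ({h} : Set G)).subtype).map
          (MulAut.conj y).toMonoidHom).subgroupOf (Subgroup.centralizer ({g} : Set G))) :=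
      (hP.map _).comap_of_injective _ (Subgroup.subtype_injective _)
    obtain ⟨c, hc⟩ := sylow_conj_mem D _ hR
    refine ⟨((c : G) * y)⁻¹, Q₀, ?_⟩
    intro w hw
    have hw' : y * w * y⁻¹ ∈ Subgroup.centralizer ({g} : Set G) := hcent w hw
    have hq : (⟨y * w * y⁻¹, hw'⟩ : Subgroup.centralizer ({g} : Set G)) ∈
        (((Q₀ : Subgroup (Subgroup.centralizer ({h} : Set G))).map
          (Subgroup.centralizer ({h} : Set G)).subtype).map
            (MulAut.conj y).toMonoidHom).subgroupOf (Subgroup.centralizer ({g} : Set G)) := by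
      rw [Subgroup.mem_subgroupOf]
      exact Subgroup.mem_map.mpr ⟨w, hw, rfl⟩
    have h3 : c * ⟨y * w * y⁻¹, hw'⟩ * c⁻¹ ∈
        (D : Subgroup (Subgroup.centralizer ({g} : Set G))) := hc _ hq
    refine Subgroup.mem_map.mpr ⟨(c : G) * (y * w * y⁻¹) * (c : G)⁻¹,
      Subgroup.mem_map.mpr ⟨_, h3, rfl⟩, ?_⟩
    show ((c : G) * y)⁻¹ * ((c : G) * (y * w * y⁻¹) * (c : G)⁻¹) * ((c : G) * y)⁻¹⁻¹ = w
    group
  · rintro ⟨χ, hχB, hχ⟩
    have hP : IsPGroup p ((D : Subgroup (Subgroup.centralizer ({g} : Set G))).map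
        (Subgroup.centralizer ({g} : Set G)).subtype) := D.isPGroup'.map _
    have hPz : ∀ d ∈ (D : Subgroup (Subgroup.centralizer ({g} : Set G))).map
        (Subgroup.centralizer ({g} : Set G)).subtype, d * g = g * d := by
      intro d hd
      obtain ⟨c, -, rfl⟩ := Subgroup.mem_map.mp hd
      exact (Subgroup.mem_centralizer_iff.mp c.2 g (Set.mem_singleton g)).symm
    obtain ⟨x, hxh, hxfix⟩ := minmax_key_lead p hp M hMprime hpM χ₀ h g (htrans χ h hχB hχ)
      hgI _ hP hPz
    obtain ⟨y, hy⟩ := isConj_iff.mp hxh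
    have hcent := hcentral _ x y h hy hxfix
    have hR : IsPGroup p ((((D : Subgroup (Subgroup.centralizer ({g} : Set G))).map
        (Subgroup.centralizer ({g} : Set G)).subtype).map
          (MulAut.conj y).toMonoidHom).subgroupOf (Subgroup.centralizer ({h} : Set G))) :=
      (hP.map _).comap_of_injective _ (Subgroup.subtype_injective _)
    obtain ⟨Q, hQ⟩ := hR.exists_le_sylow
    refine ⟨y, Q, ?_⟩
    intro v hv
    obtain ⟨w, hw, rfl⟩ := Subgroup.mem_map.mp hv
    have hw' : y * w * y⁻¹ ∈ Subgroup.centralizer ({h} : Set G) := hcent w hw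
    have hq : (⟨y * w * y⁻¹, hw'⟩ : Subgroup.centralizer ({h} : Set G)) ∈
        (((D : Subgroup (Subgroup.centralizer ({g} : Set G))).map
          (Subgroup.centralizer ({g} : Set G)).subtype).map
            (MulAut.conj y).toMonoidHom).subgroupOf (Subgroup.centralizer ({h} : Set G)) := by
      rw [Subgroup.mem_subgroupOf]
      exact Subgroup.mem_map.mpr ⟨w, hw, rfl⟩
    exact Subgroup.mem_map.mpr ⟨⟨y * w * y⁻¹, hw'⟩, hQ hq, rfl⟩

end Cfsg.Agent.S0911
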