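import Cfsg.Statements.S0914
import Mathlib
import Cfsg.Agent.Lib.Lead.SylowAux2
import Cfsg.Agent.Lib.Lead.BlockOsimaSupp
import Cfsg.Agent.Lib.Lead.BlockAux2
import Cfsg.Agent.Lib.Lead.BlockKer
import Cfsg.Agent.Lib.Lead.CharMichler2
import Cfsg.Agent.Lib.Lead.CharZeros
import Cfsg.Agent.Lib.Lead.CharInt
import Cfsg.Agent.Lib.Lead.CharRing
import Cfsg.Agent.Lib.Lead.CharBurnside
import Cfsg.Agent.Lib.Lead.CharInd3
import Cfsg.Agent.Lib.Lead.CharCongr
import Cfsg.Agent.Lib.Lead.BrauerR2
import Cfsg.Agent.Lib.Lead.BlockAux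

set_option autoImplicit false
open Cfsg Cfsg.Agent.Lib.Lead

namespace Cfsg.Agent.S0914

open scoped Pointwise commutatorElement

/-- Let χ be an irreducible character of the finite group G, p a prime and M a maximal ideal of the algebraic integers containing p. Then p does not divide the integer (Nat.card G) / χ(1) if and only if the block of χ relative to M consists of χ alone. -/
theorem result {G : Type*} [Group G] [Finite G] (p : ℕ) [Fact p.Prime] (M : Ideal Cfsg.AlgInt) (hM : Cfsg.IsPModular p M) (χ : Cfsg.IrrCharacter G) : ¬ p ∣ Nat.card G / Cfsg.charDegree (χ : G → ℂ) ↔ Cfsg.blockOf M (χ : G → ℂ) = {χ} := by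
  classical
  haveI : Fintype G := Fintype.ofFinite G
  haveI : Fintype (ConjClasses G) := Fintype.ofFinite _
  haveI : Fintype (Cfsg.IrrCharacter G) := Fintype.ofFinite _
  obtain ⟨hp, hMmax, hpM⟩ := hM
  have hMprime : M.IsPrime := hMmax.isPrime
  have hMtop : M ≠ ⊤ := hMprime.ne_top
  have hone : ¬ Cfsg.MemLocalIdeal M (1 : ℂ) := by
    intro h
    have h1 : (1 : Cfsg.AlgInt) ∈ M := mem_of_memLocalIdeal_lead hMprime 1 h
    exact hMtop ((Ideal.eq_top_iff_one M).mpr h1)
  have hχc := isCharacter_of_isIrrCharacter χ.2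
  obtain ⟨hd1, hd0⟩ := charDegree_irr χ.2
  have hdG : Cfsg.charDegree (χ : G → ℂ) ∣ Nat.card G := by
    obtain ⟨n, ρ, hρ, hρχ⟩ := χ.2
    haveI := hρ
    have h1 := degree_dvd_card ρ
    rw [← hρχ, charDegree_eq_finrank ρ]; exact h1
  obtain ⟨d, hd⟩ : ∃ d : ℕ, d = Cfsg.charDegree (χ : G → ℂ) := ⟨_, rfl⟩
  rw [← hd] at hd1 hd0 hdG ⊢
  have hdC : (d : ℂ) ≠ 0 := by exact_mod_cast hd0
  obtain ⟨s, hs⟩ := hdG
  have hG0 : Nat.card G ≠ 0 := Nat.card_pos.ne'
  have hs0 : s ≠ 0 := by
    rintro rfl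
    rw [mul_zero] at hs
    exact hG0 hs
  have hquot : Nat.card G / d = s := by
    rw [hs]
    exact Nat.mul_div_cancel_left s (Nat.pos_of_ne_zero hd0)
  rw [hquot]
  have hGC : (Nat.card G : ℂ) = (d : ℂ) * (s : ℂ) := by
    rw [hs]
    push_cast
    ring
  have hsC : (s : ℂ) ≠ 0 := by exact_mod_cast hs0
  have hcoef : ∀ g : G, Cfsg.blockCoeff ({χ} : Set (Cfsg.IrrCharacter G)) g =
      (s : ℂ)⁻¹ * (starRingEnd ℂ) ((χ : G → ℂ) g) := by
    intro g
    unfold Cfsg.blockCoeff
    rw [finsum_mem_singleton, hd1, hGC, mul_inv]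
    calc (d : ℂ)⁻¹ * (s : ℂ)⁻¹ * ((d : ℂ) * (starRingEnd ℂ) ((χ : G → ℂ) g))
        = (s : ℂ)⁻¹ * (starRingEnd ℂ) ((χ : G → ℂ) g) * ((d : ℂ)⁻¹ * (d : ℂ)) := by ring
      _ = (s : ℂ)⁻¹ * (starRingEnd ℂ) ((χ : G → ℂ) g) := by
          rw [inv_mul_cancel₀ hdC, mul_one]
  have hcl : Cfsg.IsClassFunction G (Cfsg.blockCoeff ({χ} : Set (Cfsg.IrrCharacter G))) :=
    fun g h => blockCoeff_classFun_lead _ g h
  constructor
  · intro hdiv
    have hcop : Nat.Coprime s p := ((Nat.Prime.coprime_iff_not_dvd hp).mpr hdiv).symm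
    have hsM : ((s : ℕ) : Cfsg.AlgInt) ∉ M := natCast_not_mem_lead hMtop p s hcop hpM
    have hcR : ∀ g : G, Cfsg.MemLocalRing M
        (Cfsg.blockCoeff ({χ} : Set (Cfsg.IrrCharacter G)) g) := by
      intro g
      rw [hcoef g, ← isCharacter_inv hχc g]
      have h1 : Cfsg.MemLocalRing M ((s : ℂ)⁻¹) := memLocalRing_inv_lead hsM
      exact memLocalRing_mul_lead hMprime h1
        (memLocalRing_isIntegral_lead hMtop (isIntegral_isCharacter hχc g⁻¹))
    ext ψ
    constructor
    · intro hψ
      rw [Set.mem_singleton_iff]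
      by_contra hne
      have hψn : ψ ∉ ({χ} : Set (Cfsg.IrrCharacter G)) := by
        rw [Set.mem_singleton_iff]
        exact hne
      have h1 := blockCoeff_sum_lead ({χ} : Set (Cfsg.IrrCharacter G)) χ
      rw [if_pos (Set.mem_singleton χ)] at h1
      have h2 := blockCoeff_sum_lead ({χ} : Set (Cfsg.IrrCharacter G)) ψ
      rw [if_neg hψn] at h2
      have e1 := transform_formula_lead _ hcl χ 1 (by rw [h1, one_mul])
      have e2 := transform_formula_lead _ hcl ψ 0 (by rw [h2, zero_mul])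
      apply hone
      have e3 : (1 : ℂ) = ∑ L : ConjClasses G,
          Cfsg.blockCoeff ({χ} : Set (Cfsg.IrrCharacter G)) (Quotient.out L) *
            (Cfsg.centralChar (χ : G → ℂ) (Quotient.out L) -
              Cfsg.centralChar (ψ : G → ℂ) (Quotient.out L)) := by
        calc (1 : ℂ) = (∑ L : ConjClasses G,
              Cfsg.blockCoeff ({χ} : Set (Cfsg.IrrCharacter G)) (Quotient.out L) *
                Cfsg.centralChar (χ : G → ℂ) (Quotient.out L)) -
            (∑ L : ConjClasses G,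
              Cfsg.blockCoeff ({χ} : Set (Cfsg.IrrCharacter G)) (Quotient.out L) *
                Cfsg.centralChar (ψ : G → ℂ) (Quotient.out L)) := by
              rw [← e1, ← e2, sub_zero]
          _ = _ := by
              rw [← Finset.sum_sub_distrib]
              apply Finset.sum_congr rfl
              intro L _
              ring
      rw [e3]
      exact memLocalIdeal_sum_lead hMprime _ _ (fun L _ =>
        memLocalIdeal_mul_ring_lead hMprime (hcR _) (hψ _))
    · intro hψ
      rw [Set.mem_singleton_iff] at hψ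
      rw [hψ]
      exact sameBlock_refl_lead hMtop _
  · intro hB
    have hcR : ∀ g : G, Cfsg.MemLocalRing M
        (Cfsg.blockCoeff ({χ} : Set (Cfsg.IrrCharacter G)) g) := by
      intro g
      have h := osima_lead p hp M hMprime hpM χ g
      rw [hB] at h
      exact h
    have hvan : ∀ y : G, p ∣ orderOf y → (χ : G → ℂ) y = 0 := by
      intro y hy
      have h := idem_psingular_lead p hp hMprime hpM _ hcl hcR
        (fun g => (blockCoeff_conv_lead _ g).symm) y hy
      rw [hcoef y] at h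
      rcases mul_eq_zero.mp h with h' | h'
      · exact absurd h' (inv_ne_zero hsC)
      · exact (map_eq_zero (starRingEnd ℂ)).mp h'
    obtain ⟨P⟩ : Nonempty (Sylow p G) := inferInstance
    haveI : Fintype (P : Subgroup G) := Fintype.ofFinite _
    have hχP := isCharacter_restrict (P : Subgroup G) hχc
    obtain ⟨n, hn⟩ := classInner_char_irr_nat hχP (isIrrCharacter_one (P : Subgroup G))
    unfold Cfsg.classInner at hn
    have hsum : ∑ u : (P : Subgroup G), (χ : G → ℂ) u = (d : ℂ) := by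
      rw [Finset.sum_eq_single (1 : (P : Subgroup G))]
      · exact hd1
      · intro u _ hu
        apply hvan
        rw [Subgroup.orderOf_coe]
        obtain ⟨k, hk⟩ := P.isPGroup' u
        obtain ⟨j, -, hj⟩ := (Nat.dvd_prime_pow hp).mp (orderOf_dvd_of_pow_eq_one hk)
        rw [hj]
        apply dvd_pow_self
        rintro rfl
        rw [pow_zero] at hj
        exact hu (orderOf_eq_one_iff.mp hj)
      · intro h
        exact absurd (Finset.mem_univ _) h
    have hn' : ∑ u : (P : Subgroup G), (χ : G → ℂ) u =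
        (Nat.card (P : Subgroup G) : ℂ) * n := by
      have hP0 : (Nat.card (P : Subgroup G) : ℂ) ≠ 0 := by
        exact_mod_cast Nat.card_pos.ne'
      rw [← hn, ← mul_assoc, mul_inv_cancel₀ hP0, one_mul]
      apply Finset.sum_congr rfl
      intro u _
      simp
    have hdn : d = Nat.card (P : Subgroup G) * n := by
      have h : (d : ℂ) = (Nat.card (P : Subgroup G) : ℂ) * n := by rw [← hsum, hn']
      exact_mod_cast h
    rw [Sylow.card_eq_multiplicity] at hdn
    obtain ⟨a, ha⟩ : ∃ a : ℕ, a = (Nat.card G).factorization p := ⟨_, rfl⟩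
    have hnd := Nat.pow_succ_factorization_not_dvd hG0 hp
    rw [← ha] at hnd hdn
    intro hps
    obtain ⟨t, ht⟩ := hps
    apply hnd
    rw [hs, hdn, ht]
    exact ⟨n * t, by ring⟩

end Cfsg.Agent.S0914
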