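import Cfsg.Statements.S0916
import Mathlib
import Cfsg.Agent.Lib.Lead.CharInt
import Cfsg.Agent.Lib.Helper1.Basic

set_option autoImplicit false
open Cfsg

namespace Cfsg.Agent.S0916

open Cfsg.Agent.Lib.Helper1
open scoped Pointwise

theorem sylow_of_card {G : Type*} [Group G] [Finite G] {p : ℕ} [Fact p.Prime] (C P : Subgroup G)
    (hPC : P ≤ C) (hP : IsPGroup p P) (hcard : Nat.card P = p ^ (Nat.card C).factorization p) :
    ∃ S : Sylow p C, (S : Subgroup C).map C.subtype = P := by
  have hP0 : IsPGroup p (P.subgroupOf C) := hP.comap_subtype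
  obtain ⟨T, hT⟩ := hP0.exists_le_sylow
  have h1 : Nat.card (P.subgroupOf C) = Nat.card P :=
    Nat.card_congr (Subgroup.subgroupOfEquivOfLe hPC).toEquiv
  have h2 : Nat.card (T : Subgroup C) = p ^ (Nat.card C).factorization p :=
    Sylow.card_eq_multiplicity T
  have h3 : P.subgroupOf C = T := Subgroup.eq_of_le_of_card_ge hT (by rw [h1, h2, hcard])
  refine ⟨T, ?_⟩
  rw [← h3]; exact Subgroup.map_subgroupOf_eq_of_le hPC

theorem card_centralizer_conj {G : Type*} [Group G] [Finite G] {g c : G} (h : IsConj g c) :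
    Nat.card (Subgroup.centralizer ({c} : Set G)) =
      Nat.card (Subgroup.centralizer ({g} : Set G)) := by
  have h1 := Cfsg.Agent.Lib.Lead.card_class_mul_card_centralizer g
  have h2 := Cfsg.Agent.Lib.Lead.card_class_mul_card_centralizer c
  have h3 : Nat.card {x : G // IsConj x g} = Nat.card {x : G // IsConj x c} :=
    Nat.card_congr (Equiv.subtypeEquivRight
      (fun x => ⟨fun hx => hx.trans h, fun hx => hx.trans h.symm⟩))
  haveI : Nonempty {x : G // IsConj x c} := ⟨⟨c, IsConj.refl c⟩⟩
  have h4 : 0 < Nat.card {x : G // IsConj x c} := Nat.card_pos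
  rw [h3] at h1
  exact Nat.eq_of_mul_eq_mul_left h4 (h2.trans h1.symm)

theorem mem_cent_iff {G : Type*} [Group G] (P : Subgroup G) (c : G) :
    c ∈ Subgroup.centralizer (P : Set G) ↔ P ≤ Subgroup.centralizer ({c} : Set G) := by
  constructor
  · intro hc u hu
    rw [Subgroup.mem_centralizer_iff]
    intro y hy
    rw [Set.mem_singleton_iff] at hy
    rw [hy]
    exact ((Subgroup.mem_centralizer_iff.1 hc) u hu).symm
  · intro h
    rw [Subgroup.mem_centralizer_iff]
    intro u hu
    exact ((Subgroup.mem_centralizer_iff.1 (h hu)) c rfl).symm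

/-- Let P be a p-subgroup of the finite group G, C its centralizer and N its normalizer. Say that a conjugacy class (of G, or of N) has defect group P when P is a Sylow p-subgroup of the centralizer (in G, respectively in N) of some element of the class. Then: (i) if the class of g in G has defect group P, the elements of that class lying in C form a single N-class, again with defect group P; (ii) every N-class with defect group P arises this way from exactly one G-class with defect group P. -/
theorem result {G : Type*} [Group G] [Finite G] (p : ℕ) [Fact p.Prime] (P : Subgroup G) (hP : IsPGroup p P) : (∀ g : G, (∃ S : Sylow p (Subgroup.centralizer ({g} : Set G)), (S : Subgroup (Subgroup.centralizer ({g} : Set G))).map (Subgroup.centralizer ({g} : Set G)).subtype = P) → (∃ c : G, IsConj g c ∧ c ∈ Subgroup.centralizer (P : Set G)) ∧ (∀ c₁ c₂ : G, IsConj g c₁ → IsConj g c₂ → c₁ ∈ Subgroup.centralizer (P : Set G) → c₂ ∈ Subgroup.centralizer (P : Set G) → ∃ n ∈ Subgroup.normalizer (P : Set G), n * c₁ *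 n⁻¹ = c₂)) ∧ (∀ c : G, c ∈ Subgroup.centralizer (P : Set G) → (∃ S : Sylow p (Subgroup.centralizer ({c} : Set G) ⊓ Subgroup.normalizer (P : Set G) : Subgroup G), (S : Subgroup ↥(Subgroup.centralizer ({c} : Set G) ⊓ Subgroup.normalizer (P : Set G))).map (Subgroup.centralizer ({c} : Set G) ⊓ Subgroup.normalizer (P : Set G)).subtype = P) → ∃ S : Sylow p (Subgroup.centralizer ({c} : Set G)), (S : Subgroup (Subgroup.centralizer ({c} : Set G))).map (Subgroup.centralizer ({c} : Set G)).subtype = P) := by
  classical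
  refine ⟨?_, ?_⟩
  · rintro g ⟨S, hS⟩
    have hPg : P ≤ Subgroup.centralizer ({g} : Set G) := by
      rw [← hS]; exact Subgroup.map_subtype_le _
    have hcardP : Nat.card P =
        p ^ (Nat.card (Subgroup.centralizer ({g} : Set G))).factorization p := by
      rw [← Sylow.card_eq_multiplicity S, ← hS]
      exact (Nat.card_congr (Subgroup.equivMapOfInjective _ _
        (Subgroup.subtype_injective _)).toEquiv).symm
    refine ⟨⟨g, IsConj.refl g, (mem_cent_iff P g).2 hPg⟩, ?_⟩
    intro c₁ c₂ h1 h2 hc1 hc2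
    have hP1 := (mem_cent_iff P c₁).1 hc1
    have hP2 := (mem_cent_iff P c₂).1 hc2
    obtain ⟨S₂, hS₂⟩ := sylow_of_card (Subgroup.centralizer ({c₂} : Set G)) P hP2 hP
      (by rw [card_centralizer_conj h2]; exact hcardP)
    obtain ⟨y, hy⟩ := isConj_iff.mp (h1.symm.trans h2)
    have hQ : IsPGroup p (P.map (MulAut.conj y).toMonoidHom) := hP.map _
    have hQ0 : IsPGroup p ((P.map (MulAut.conj y).toMonoidHom).subgroupOf
        (Subgroup.centralizer ({c₂} : Set G))) := hQ.comap_subtype
    obtain ⟨T, hT⟩ := hQ0.exists_le_sylow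
    obtain ⟨z, hz⟩ := MulAction.exists_smul_eq (Subgroup.centralizer ({c₂} : Set G)) S₂ T
    have hz' : MulAut.conj z • (S₂ : Subgroup (Subgroup.centralizer ({c₂} : Set G))) =
        (T : Subgroup (Subgroup.centralizer ({c₂} : Set G))) := by
      have h := congrArg (fun S : Sylow p (Subgroup.centralizer ({c₂} : Set G)) =>
        (S : Subgroup (Subgroup.centralizer ({c₂} : Set G)))) hz
      simp only [Sylow.coe_subgroup_smul] at h
      exact h
    refine ⟨(z : G)⁻¹ * y, ?_, ?_⟩
    · apply mem_normalizer_of_finite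
      intro u hu
      have h3 : y * u * y⁻¹ ∈ Subgroup.centralizer ({c₂} : Set G) := by
        rw [Subgroup.mem_centralizer_iff]
        intro w hw
        rw [Set.mem_singleton_iff] at hw
        rw [hw, ← hy]
        have h4 : c₁ * u = u * c₁ := (Subgroup.mem_centralizer_iff.1 (hP1 hu)) c₁ rfl
        calc y * c₁ * y⁻¹ * (y * u * y⁻¹) = y * (c₁ * u) * y⁻¹ := by group
          _ = y * (u * c₁) * y⁻¹ := by rw [h4]
          _ = y * u * y⁻¹ * (y * c₁ * y⁻¹) := by group
      have h5 : (⟨y * u * y⁻¹, h3⟩ : Subgroup.centralizer ({c₂} : Set G)) ∈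
          (T : Subgroup (Subgroup.centralizer ({c₂} : Set G))) := by
        apply hT
        rw [Subgroup.mem_subgroupOf]
        exact ⟨u, hu, rfl⟩
      rw [← hz', mem_conj_smul] at h5
      have h7 : (((z⁻¹ * ⟨y * u * y⁻¹, h3⟩ * z :
          Subgroup.centralizer ({c₂} : Set G))) : G) ∈ P := by
        rw [← hS₂]; exact ⟨_, h5, rfl⟩
      have e : (z : G)⁻¹ * y * u * ((z : G)⁻¹ * y)⁻¹ = (z : G)⁻¹ * (y * u * y⁻¹) * z := by group
      rw [e]
      exact h7
    · have e : (z : G)⁻¹ * y * c₁ * ((z : G)⁻¹ * y)⁻¹ = (z : G)⁻¹ * (y * c₁ * y⁻¹) * z := by group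
      rw [e, hy]
      have hzc : c₂ * (z : G) = z * c₂ := (Subgroup.mem_centralizer_iff.1 z.2) c₂ rfl
      calc (z : G)⁻¹ * c₂ * z = (z : G)⁻¹ * (c₂ * z) := by group
        _ = (z : G)⁻¹ * (z * c₂) := by rw [hzc]
        _ = c₂ := by group
  · rintro c hc ⟨S, hS⟩
    have hPC := (mem_cent_iff P c).1 hc
    have hP0 : IsPGroup p (P.subgroupOf (Subgroup.centralizer ({c} : Set G))) := hP.comap_subtype
    obtain ⟨T, hT⟩ := hP0.exists_le_sylow
    obtain ⟨T', hT'⟩ : ∃ T' : Subgroup G, T' = (T : Subgroup (Subgroup.centralizer ({c} : Set G))).map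
        (Subgroup.centralizer ({c} : Set G)).subtype := ⟨_, rfl⟩
    have hT'p : IsPGroup p T' := by rw [hT']; exact T.2.map _
    have hT'C : T' ≤ Subgroup.centralizer ({c} : Set G) := by
      rw [hT']; exact Subgroup.map_subtype_le _
    have hPT' : P ≤ T' := by
      intro u hu
      rw [hT']
      exact ⟨⟨u, hPC hu⟩, hT (by rw [Subgroup.mem_subgroupOf]; exact hu), rfl⟩
    refine ⟨T, ?_⟩
    rw [← hT']
    by_contra hne
    haveI : Group.IsNilpotent T' := hT'p.isNilpotent
    have hlt : P.subgroupOf T' < ⊤ := by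
      rw [lt_top_iff_ne_top]
      intro h
      rw [Subgroup.subgroupOf_eq_top] at h
      exact hne (le_antisymm h hPT')
    have hnc := Group.normalizerCondition_of_isNilpotent (G := T') _ hlt
    obtain ⟨x, hxn, hxP⟩ := SetLike.exists_of_lt hnc
    have hxN : (x : G) ∈ Subgroup.normalizer (P : Set G) := by
      apply mem_normalizer_of_finite
      intro h hh
      exact (Subgroup.mem_normalizer_iff.1 hxn ⟨h, hPT' hh⟩).1 hh
    have hz : IsPGroup p (Subgroup.zpowers (x : G)) :=
      hT'p.to_le (by rw [Subgroup.zpowers_le]; exact x.2)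
    have hzn : Subgroup.zpowers (x : G) ≤ Subgroup.normalizer (P : Set G) := by
      rw [Subgroup.zpowers_le]; exact hxN
    have hsup : IsPGroup p (P ⊔ Subgroup.zpowers (x : G) : Subgroup G) :=
      IsPGroup.to_sup_of_normal_left' hP hz hzn
    have hxM : (x : G) ∈ Subgroup.centralizer ({c} : Set G) ⊓ Subgroup.normalizer (P : Set G) :=
      ⟨hT'C x.2, hxN⟩
    have hmax := S.is_maximal' (Q := (P ⊔ Subgroup.zpowers (x : G)).subgroupOf
      (Subgroup.centralizer ({c} : Set G) ⊓ Subgroup.normalizer (P : Set G)))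
      hsup.comap_subtype (by
        intro y hy
        rw [Subgroup.mem_subgroupOf]
        apply Subgroup.mem_sup_left
        exact hS.le ⟨y, hy, rfl⟩)
    apply hxP
    rw [Subgroup.mem_subgroupOf]
    have hx1 : (⟨(x : G), hxM⟩ : ↥(Subgroup.centralizer ({c} : Set G) ⊓
        Subgroup.normalizer (P : Set G))) ∈ (P ⊔ Subgroup.zpowers (x : G)).subgroupOf
        (Subgroup.centralizer ({c} : Set G) ⊓ Subgroup.normalizer (P : Set G)) := by
      rw [Subgroup.mem_subgroupOf]; exact Subgroup.mem_sup_right (Subgroup.mem_zpowers _)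
    rw [hmax] at hx1
    exact hS.le ⟨_, hx1, rfl⟩
end Cfsg.Agent.S0916
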