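import Cfsg.Statements.S0918
import Mathlib
import Cfsg.Agent.Lib.Helper7.BlockQuot
-- import your own Cfsg.Agent.* helpers here

set_option autoImplicit false
open Cfsg
open Cfsg.Agent.Lib.Helper7 Cfsg.Agent.Lib.Lead
open scoped ComplexConjugate

namespace Cfsg.Agent.S0918

theorem brauer_congr_aux {G : Type*} [Group G] [Finite G] (p : ℕ) [Fact p.Prime]
    (M : Ideal Cfsg.AlgInt) (hM : Cfsg.IsPModular p M) (P H : Subgroup G) (hP : IsPGroup p P)
    (hPH : P ≤ H) (hHN : H ≤ Subgroup.normalizer (P : Set G)) (ξ : Cfsg.IrrCharacter H)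
    (g : G) :
    Cfsg.MemLocalIdeal M (Cfsg.inducedCentralChar H (ξ : H → ℂ) g -
      Cfsg.brauerCentralChar P H (ξ : H → ℂ) g) := by
  classical
  haveI : Fintype H := Fintype.ofFinite _
  haveI : Fintype (ConjClasses H) := Fintype.ofFinite _
  have hMprime : M.IsPrime := hM.2.1.isPrime
  have hMtop : M ≠ ⊤ := hMprime.ne_top
  haveI hQn : (P.subgroupOf H).Normal :=
    (Subgroup.normal_subgroupOf_iff_le_normalizer hPH).2 hHN
  have hQ : IsPGroup p (P.subgroupOf H) := hP.comap_subtype
  obtain ⟨F, hF⟩ : ∃ F : H → ℂ, ∀ m : H, F m =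
      if (IsConj g (m : G) ∧ (m : G) ∉ Subgroup.centralizer (P : Set G)) then
        (ξ : H → ℂ) m / (ξ : H → ℂ) 1 else 0 := ⟨_, fun _ => rfl⟩
  have hdiff : Cfsg.inducedCentralChar H (ξ : H → ℂ) g -
      Cfsg.brauerCentralChar P H (ξ : H → ℂ) g = ∑ m : H, F m := by
    have h2 : Cfsg.brauerCentralChar P H (ξ : H → ℂ) g = ∑ m : H,
        Set.indicator {h : H | IsConj g (h : G) ∧
          (h : G) ∈ Subgroup.centralizer (P : Set G)}
          (fun h => (ξ : H → ℂ) h / (ξ : H → ℂ) 1) m := by
      unfold Cfsg.brauerCentralChar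
      rw [finsum_mem_def, finsum_eq_sum_of_fintype]
    rw [inducedCentralChar_sum_lead, h2, ← Finset.sum_sub_distrib]
    apply Finset.sum_congr rfl
    intro m _
    rw [hF]
    by_cases h1 : IsConj g (m : G)
    · by_cases h3 : (m : G) ∈ Subgroup.centralizer (P : Set G)
      · rw [Set.indicator_of_mem (show m ∈ {h : H | IsConj g (h : G)} from h1),
          Set.indicator_of_mem (show m ∈ {h : H | IsConj g (h : G) ∧
            (h : G) ∈ Subgroup.centralizer (P : Set G)} from ⟨h1, h3⟩), sub_self,
          if_neg (fun h => h.2 h3)]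
      · rw [Set.indicator_of_mem (show m ∈ {h : H | IsConj g (h : G)} from h1),
          Set.indicator_of_notMem (show m ∉ {h : H | IsConj g (h : G) ∧
            (h : G) ∈ Subgroup.centralizer (P : Set G)} from fun h => h3 h.2), sub_zero,
          if_pos ⟨h1, h3⟩]
    · rw [Set.indicator_of_notMem (show m ∉ {h : H | IsConj g (h : G)} from h1),
        Set.indicator_of_notMem (show m ∉ {h : H | IsConj g (h : G) ∧
          (h : G) ∈ Subgroup.centralizer (P : Set G)} from fun h => h1 h.1), sub_zero,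
        if_neg (fun h => h1 h.1)]
  have hFcl : ∀ m t : H, F (t * m * t⁻¹) = F m := by
    intro m t
    rw [hF, hF]
    have e1 : IsConj g ((t * m * t⁻¹ : H) : G) ↔ IsConj g (m : G) := by
      have hc : IsConj (m : G) ((t * m * t⁻¹ : H) : G) :=
        isConj_iff.2 ⟨(t : G), by simp⟩
      constructor
      · intro h; exact h.trans hc.symm
      · intro h; exact h.trans hc
    have htN : (t : G) ∈ Subgroup.normalizer (P : Set G) := hHN t.2
    have e2 : ((t * m * t⁻¹ : H) : G) ∈ Subgroup.centralizer (P : Set G) ↔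
        (m : G) ∈ Subgroup.centralizer (P : Set G) := by
      constructor
      · intro h
        rw [Subgroup.mem_centralizer_iff] at h ⊢
        intro u hu
        have hu' : (t : G) * u * (t : G)⁻¹ ∈ (P : Set G) :=
          (Subgroup.mem_normalizer_iff.1 htN u).1 hu
        have h1 := h _ hu'
        have h1' : (t : G) * u * (t : G)⁻¹ * ((t : G) * (m : G) * (t : G)⁻¹) =
            (t : G) * (m : G) * (t : G)⁻¹ * ((t : G) * u * (t : G)⁻¹) := by
          simpa using h1
        have h5 : (t : G) * (u * m) * (t : G)⁻¹ = (t : G) * (m * u) * (t : G)⁻¹ := by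
          calc (t : G) * (u * m) * (t : G)⁻¹
              = (t : G) * u * (t : G)⁻¹ * ((t : G) * (m : G) * (t : G)⁻¹) := by group
            _ = (t : G) * (m : G) * (t : G)⁻¹ * ((t : G) * u * (t : G)⁻¹) := h1'
            _ = (t : G) * (m * u) * (t : G)⁻¹ := by group
        exact mul_left_cancel (mul_right_cancel h5)
      · intro h
        rw [Subgroup.mem_centralizer_iff] at h ⊢
        intro u hu
        have hu' : (t : G)⁻¹ * u * (t : G) ∈ (P : Set G) := by
          apply (Subgroup.mem_normalizer_iff.1 htN ((t : G)⁻¹ * u * (t : G))).2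
          have e : (t : G) * ((t : G)⁻¹ * u * (t : G)) * (t : G)⁻¹ = u := by group
          rw [e]
          exact hu
        have h1 := h _ hu'
        show u * ((t : G) * (m : G) * (t : G)⁻¹) = (t : G) * (m : G) * (t : G)⁻¹ * u
        calc u * ((t : G) * (m : G) * (t : G)⁻¹)
            = (t : G) * ((t : G)⁻¹ * u * (t : G) * (m : G)) * (t : G)⁻¹ := by group
          _ = (t : G) * ((m : G) * ((t : G)⁻¹ * u * (t : G))) * (t : G)⁻¹ := by rw [h1]
          _ = (t : G) * (m : G) * (t : G)⁻¹ * u := by group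
    have hcond : (IsConj g ((t * m * t⁻¹ : H) : G) ∧
        ((t * m * t⁻¹ : H) : G) ∉ Subgroup.centralizer (P : Set G)) ↔
        (IsConj g (m : G) ∧ (m : G) ∉ Subgroup.centralizer (P : Set G)) :=
      and_congr e1 (not_congr e2)
    by_cases hc : IsConj g (m : G) ∧ (m : G) ∉ Subgroup.centralizer (P : Set G)
    · rw [if_pos hc, if_pos (hcond.2 hc), isClassFunction_of_irr ξ.2 m t]
    · rw [if_neg hc, if_neg (fun h => hc (hcond.1 h))]
  rw [hdiff, sum_classFun_regroup_lead F hFcl]
  apply memLocalIdeal_sum_lead hMprime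
  intro c _
  rw [hF]
  by_cases hc : IsConj g ((Quotient.out c : H) : G) ∧
      ((Quotient.out c : H) : G) ∉ Subgroup.centralizer (P : Set G)
  · rw [if_pos hc]
    have hx : (Quotient.out c : H) ∉
        Subgroup.centralizer ((P.subgroupOf H : Subgroup H) : Set H) := by
      intro hcen
      apply hc.2
      rw [Subgroup.mem_centralizer_iff] at hcen ⊢
      intro u hu
      have h1 := hcen ⟨u, hPH hu⟩ (by
        show (⟨u, hPH hu⟩ : H) ∈ P.subgroupOf H
        rw [Subgroup.mem_subgroupOf]
        exact hu)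
      exact congrArg Subtype.val h1
    have h2 := central_mem_h7 p M hM (P.subgroupOf H) hQ (Quotient.out c) hx ξ
    have e : ((Subgroup.centralizer ({Quotient.out c} : Set H)).index : ℂ) *
        ((ξ : H → ℂ) (Quotient.out c) / (ξ : H → ℂ) 1) =
        Cfsg.centralChar (ξ : H → ℂ) (Quotient.out c) := by
      unfold Cfsg.centralChar
      ring
    rw [e]
    exact h2
  · rw [if_neg hc, mul_zero]
    exact memLocalIdeal_zero_lead hMtop

/-- Let P be a p-subgroup of the finite group G and H a subgroup with P·C_G(P) ≤ H ≤ N_G(P); let b be a block of H and B a block of G relative to a maximal ideal M of the algebraic integers containing p. Then b induces B if and only if, for every g ∈ G, every ξ ∈ b and every χ ∈ B, the central character of χ at g is congruent modulo the local ideal at M to the sum of ξ h / ξ 1 over the elements h of H conjugate in G to g and centralizing P. -/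
theorem result {G : Type*} [Group G] [Finite G] (p : ℕ) [Fact p.Prime] (M : Ideal Cfsg.AlgInt) (hM : Cfsg.IsPModular p M) (P H : Subgroup G) (hP : IsPGroup p P) (hPH : P ≤ H) (hCH : Subgroup.centralizer (P : Set G) ≤ H) (hHN : H ≤ Subgroup.normalizer (P : Set G)) (b : Set (Cfsg.IrrCharacter H)) (hb : Cfsg.IsPBlock M b) (B : Set (Cfsg.IrrCharacter G)) (hB : Cfsg.IsPBlock M B) : Cfsg.IsInducedBlock M H b B ↔ ∀ ξ ∈ b, ∀ χ ∈ B, ∀ g : G, Cfsg.MemLocalIdeal M (Cfsg.brauerCentralChar P H (ξ : H → ℂ) g - Cfsg.centralChar (χ : G → ℂ) g) := by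
  have hMprime : M.IsPrime := hM.2.1.isPrime
  constructor
  · intro hind ξ hξ χ hχ g
    have h1 := hind.2.2 ξ hξ χ hχ g
    have h2 := brauer_congr_aux p M hM P H hP hPH hHN ξ g
    have h3 := memLocalIdeal_sub_lead hMprime h1 h2
    have e : (Cfsg.inducedCentralChar H (ξ : H → ℂ) g - Cfsg.centralChar (χ : G → ℂ) g) -
        (Cfsg.inducedCentralChar H (ξ : H → ℂ) g - Cfsg.brauerCentralChar P H (ξ : H → ℂ) g) =
        Cfsg.brauerCentralChar P H (ξ : H → ℂ) g - Cfsg.centralChar (χ : G → ℂ) g := by ring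
    rw [e] at h3
    exact h3
  · intro h
    refine ⟨hb, hB, fun ξ hξ χ hχ g => ?_⟩
    have h1 := h ξ hξ χ hχ g
    have h2 := brauer_congr_aux p M hM P H hP hPH hHN ξ g
    have h3 := memLocalIdeal_add_lead hMprime h1 h2
    have e : (Cfsg.brauerCentralChar P H (ξ : H → ℂ) g - Cfsg.centralChar (χ : G → ℂ) g) +
        (Cfsg.inducedCentralChar H (ξ : H → ℂ) g - Cfsg.brauerCentralChar P H (ξ : H → ℂ) g) =
        Cfsg.inducedCentralChar H (ξ : H → ℂ) g - Cfsg.centralChar (χ : G → ℂ) g := by ring
    rw [e] at h3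
    exact h3


end Cfsg.Agent.S0918
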