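import Cfsg.Statements.S0921
import Mathlib
import Cfsg.Agent.Lib.Lead.SylowAux2
import Cfsg.Agent.Lib.Lead.CharCliffordCorr
import Cfsg.Agent.Lib.Lead.CharPerm
import Cfsg.Agent.Lib.Lead.CharCount
import Cfsg.Agent.Lib.Lead.CharNormal
import Cfsg.Agent.Lib.Lead.CharOrbit
import Cfsg.Agent.Lib.Lead.BrauerR2
import Cfsg.Agent.Lib.Lead.CharInt
import Cfsg.Agent.Lib.Lead.CharCongr
import Cfsg.Agent.Lib.Helper3.PPrimeCore

set_option autoImplicit false
open Cfsg Cfsg.Agent.Lib.Lead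

namespace Cfsg.Agent.S0921

open scoped Pointwise commutatorElement

universe u

theorem memLocalIdeal_div_mul_lead {M : Ideal Cfsg.AlgInt} (hM : M.IsPrime) (a b : Cfsg.AlgInt)
    (hb : b ∉ M) {z : ℂ} (h : Cfsg.MemLocalIdeal M z) :
    Cfsg.MemLocalIdeal M ((a : ℂ) / (b : ℂ) * z) := by
  obtain ⟨a', b', ha', hb', rfl⟩ := h
  refine ⟨a * a', b * b', M.mul_mem_left a ha', ?_, ?_⟩
  · intro h
    rcases hM.mem_or_mem h with h' | h'
    · exact hb h'
    · exact hb' h'
  · show ((a : ℂ) * (a' : ℂ)) / ((b : ℂ) * (b' : ℂ)) = (a : ℂ) / (b : ℂ) * ((a' : ℂ) / (b' : ℂ))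
    rw [mul_div_mul_comm]

/-- a sum of a class function over the group, regrouped by conjugacy classes -/
theorem sum_classFun_regroup_lead {G : Type*} [Group G] [Fintype G] [Fintype (ConjClasses G)]
    (F : G → ℂ) (hF : ∀ g h : G, F (h * g * h⁻¹) = F g) :
    ∑ g : G, F g = ∑ c : ConjClasses G,
      ((Subgroup.centralizer ({Quotient.out c} : Set G)).index : ℂ) * F (Quotient.out c) := by
  have hrep : ∀ g : G, IsConj (Quotient.out (ConjClasses.mk g)) g := fun g =>
    ConjClasses.mk_eq_mk_iff_isConj.mp (Quotient.out_eq (ConjClasses.mk g))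
  have h1 : ∀ g : G, F g = F (Quotient.out (ConjClasses.mk g)) := by
    intro g
    obtain ⟨c, hc⟩ := isConj_iff.mp (hrep g)
    have h := hF (Quotient.out (ConjClasses.mk g)) c
    rw [hc] at h
    exact h
  rw [Finset.sum_congr rfl (fun g _ => h1 g), sum_comp_mk (fun c => F (Quotient.out c))]
  apply Finset.sum_congr rfl
  intro c _
  have h2 : Nat.card {x : G // ConjClasses.mk x = c} =
      Nat.card {x : G // IsConj x (Quotient.out c)} := by
    apply Nat.card_congr
    apply Equiv.subtypeEquivRight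
    intro x
    exact ⟨fun h => ConjClasses.mk_eq_mk_iff_isConj.mp (h.trans (Quotient.out_eq c).symm),
      fun h => (ConjClasses.mk_eq_mk_iff_isConj.mpr h).trans (Quotient.out_eq c)⟩
  have h3 := card_class_mul_card_centralizer (Quotient.out c)
  have h4 := Subgroup.card_mul_index (Subgroup.centralizer ({Quotient.out c} : Set G))
  have h5 : Nat.card {x : G // IsConj x (Quotient.out c)} =
      (Subgroup.centralizer ({Quotient.out c} : Set G)).index := by
    have hpos : 0 < Nat.card (Subgroup.centralizer ({Quotient.out c} : Set G)) := Nat.card_pos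
    apply Nat.eq_of_mul_eq_mul_right hpos
    rw [h3, mul_comm, h4]
  rw [h2, h5]

/-- two irreducible constituents of the restriction of an irreducible character to a normal
subgroup are conjugate -/
theorem orbit_constituent_lead {G : Type u} [Group G] [Fintype G] (N : Subgroup G)
    [hN : N.Normal] [Fintype N] (χ : G → ℂ) (hχ : Cfsg.IsIrrCharacter G χ) (θ θ' : N → ℂ)
    (hθ : Cfsg.IsIrrCharacter N θ) (hθ' : Cfsg.IsIrrCharacter N θ')
    (h : Cfsg.classInner (fun n : N => χ n) θ ≠ 0)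
    (h' : Cfsg.classInner (fun n : N => χ n) θ' ≠ 0) : ∃ g : G, θ' = θ ∘ conjHom N g := by
  classical
  haveI : Fintype (Cfsg.IrrCharacter G) := Fintype.ofFinite _
  have hχcl := isClassFunction_of_irr hχ
  have hθch := isCharacter_of_isIrrCharacter hθ
  have hθ'ch := isCharacter_of_isIrrCharacter hθ'
  obtain ⟨nn, hnn, hnn'⟩ := isCharacter_expansion (isCharacter_indFun N θ' hθ'ch)
  obtain ⟨mm, hmm, hmm'⟩ := isCharacter_expansion (isCharacter_indFun N θ hθch)
  have e1 : Cfsg.classInner (Cfsg.indFun N θ') χ = (nn ⟨χ, hχ⟩ : ℂ) := hnn' ⟨χ, hχ⟩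
  have e2 : Cfsg.classInner (Cfsg.indFun N θ) χ = (mm ⟨χ, hχ⟩ : ℂ) := hmm' ⟨χ, hχ⟩
  have h1 : (nn ⟨χ, hχ⟩ : ℂ) ≠ 0 := by
    rw [← e1, frobenius_reciprocity N θ' χ hχcl, ← classInner_conj_symm]
    intro h0
    apply h'
    have h3 := congrArg (starRingEnd ℂ) h0
    rw [Complex.conj_conj, map_zero] at h3
    exact h3
  have h2 : (mm ⟨χ, hχ⟩ : ℂ) ≠ 0 := by
    rw [← e2, frobenius_reciprocity N θ χ hχcl, ← classInner_conj_symm]
    intro h0
    apply h
    have h3 := congrArg (starRingEnd ℂ) h0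
    rw [Complex.conj_conj, map_zero] at h3
    exact h3
  have h3 : Cfsg.classInner (Cfsg.indFun N θ') (Cfsg.indFun N θ) =
      ((∑ ξ, nn ξ * mm ξ : ℕ) : ℂ) := by
    rw [hnn, hmm]
    refine (classInner_comb (fun ξ : Cfsg.IrrCharacter G => (nn ξ : ℂ))
      (fun ξ : Cfsg.IrrCharacter G => (mm ξ : ℂ))).trans ?_
    rw [Nat.cast_sum]
    apply Finset.sum_congr rfl
    intro ξ _
    show (nn ξ : ℂ) * (starRingEnd ℂ) (mm ξ : ℂ) = ((nn ξ * mm ξ : ℕ) : ℂ)
    rw [map_natCast, Nat.cast_mul]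
  have h7 : 0 < ∑ ξ, nn ξ * mm ξ := by
    have h8 : nn ⟨χ, hχ⟩ * mm ⟨χ, hχ⟩ ≤ ∑ ξ, nn ξ * mm ξ :=
      Finset.single_le_sum (f := fun ξ => nn ξ * mm ξ) (fun i _ => Nat.zero_le _)
        (Finset.mem_univ (⟨χ, hχ⟩ : Cfsg.IrrCharacter G))
    have h9 : 0 < nn ⟨χ, hχ⟩ * mm ⟨χ, hχ⟩ :=
      Nat.mul_pos (Nat.pos_of_ne_zero (by exact_mod_cast h1))
        (Nat.pos_of_ne_zero (by exact_mod_cast h2))
    omega
  have h10 := classInner_indFun_normal N θ' θ hθ' hθ
  rw [h3] at h10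
  have h11 : Nat.card {g : G // θ' = θ ∘ conjHom N g} ≠ 0 := by
    intro h0
    rw [h0, Nat.cast_zero] at h10
    have hN0 : (Nat.card N : ℂ) ≠ 0 := Nat.cast_ne_zero.mpr Nat.card_pos.ne'
    have h12 : ((∑ ξ, nn ξ * mm ξ : ℕ) : ℂ) ≠ 0 := Nat.cast_ne_zero.mpr h7.ne'
    exact (mul_ne_zero hN0 h12) h10
  obtain ⟨⟨g, hg⟩⟩ := (Nat.card_ne_zero.mp h11).1
  exact ⟨g, hg⟩

/-- characters in the same block lie over the same characters of a normal `p'`-subgroup -/
theorem same_block_constituent_lead {G : Type u} [Group G] [Fintype G] (p : ℕ)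
    (M : Ideal Cfsg.AlgInt) (hM : Cfsg.IsPModular p M) (N : Subgroup G) [hN : N.Normal]
    [Fintype N] (hcop : (Nat.card N).Coprime p) (χ ψ : Cfsg.IrrCharacter G)
    (h : Cfsg.SameBlock M (χ : G → ℂ) (ψ : G → ℂ)) (θ : Cfsg.IrrCharacter N)
    (hχθ : Cfsg.classInner (fun n : N => (χ : G → ℂ) n) (θ : N → ℂ) ≠ 0) :
    Cfsg.classInner (fun n : N => (ψ : G → ℂ) n) (θ : N → ℂ) ≠ 0 := by
  classical
  haveI : Fintype (Cfsg.IrrCharacter N) := Fintype.ofFinite _
  haveI : Fintype (ConjClasses G) := Fintype.ofFinite _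
  obtain ⟨hp, hMmax, hpM⟩ := hM
  have hMprime : M.IsPrime := hMmax.isPrime
  have hMtop : M ≠ ⊤ := hMprime.ne_top
  have hNM : ((Nat.card N : ℕ) : Cfsg.AlgInt) ∉ M :=
    natCast_not_mem_lead hMtop p (Nat.card N) hcop hpM
  have hN0 : (Nat.card N : ℂ) ≠ 0 := by exact_mod_cast Nat.card_pos.ne'
  obtain ⟨dχ, hdχ0, hdχ⟩ := irr_one χ.2
  obtain ⟨dψ, hdψ0, hdψ⟩ := irr_one ψ.2
  have hχ1 : (χ : G → ℂ) 1 ≠ 0 := by
    rw [hdχ]
    exact_mod_cast hdχ0
  have hψ1 : (ψ : G → ℂ) 1 ≠ 0 := by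
    rw [hdψ]
    exact_mod_cast hdψ0
  have hχcl := isClassFunction_of_irr χ.2
  have hψcl := isClassFunction_of_irr ψ.2
  obtain ⟨m, hm, hm'⟩ := isCharacter_expansion
    (isCharacter_restrict N (isCharacter_of_isIrrCharacter χ.2))
  by_contra hψθ
  have hψθ' : Cfsg.classInner (fun n : N => (ψ : G → ℂ) n) (θ : N → ℂ) = 0 := hψθ
  choose deg hdeg0 hdeg using fun θ' : Cfsg.IrrCharacter N => irr_one θ'.2
  obtain ⟨W, hW⟩ : ∃ W : Cfsg.IrrCharacter N → ℕ,
      ∀ θ', W θ' = if m θ' ≠ 0 then deg θ' else 0 := ⟨_, fun _ => rfl⟩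
  obtain ⟨A, hA⟩ : ∃ A : G → ℂ, ∀ x, A x = (Nat.card N : ℂ)⁻¹ *
      ∑ θ' : Cfsg.IrrCharacter N,
        (W θ' : ℂ) * (starRingEnd ℂ) (Cfsg.extendByZero N (θ' : N → ℂ) x) :=
    ⟨_, fun _ => rfl⟩
  obtain ⟨D, hD'⟩ : ∃ D : G → ℂ, ∀ x, D x =
      (χ : G → ℂ) x / (χ : G → ℂ) 1 - (ψ : G → ℂ) x / (ψ : G → ℂ) 1 := ⟨_, fun _ => rfl⟩
  -- conjugation invariance of multiplicities
  have hD : ∀ (φ : G → ℂ), Cfsg.IsClassFunction G φ → ∀ (g : G) (θ' : N → ℂ),
      Cfsg.classInner (fun n : N => φ n) (θ' ∘ conjHom N g) =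
        Cfsg.classInner (fun n : N => φ n) θ' := by
    intro φ hφ g θ'
    have h1 := classInner_comp_equiv (MulEquiv.ofBijective (conjHom N g)
      ⟨(Finite.injective_iff_surjective).mpr (conjHom_surjective N g),
        conjHom_surjective N g⟩) (fun n : N => φ n) θ'
    have h2 : (fun n : N => φ n) ∘ conjHom N g = (fun n : N => φ n) := by
      funext n
      exact hφ (n : G) g
    have h3 : Cfsg.classInner ((fun n : N => φ n) ∘ conjHom N g) (θ' ∘ conjHom N g) =
        Cfsg.classInner (fun n : N => φ n) θ' := h1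
    rw [h2] at h3
    exact h3
  -- pairing with class functions
  have hE : ∀ φ : G → ℂ, ∑ x : G, A x * φ x = ∑ θ' : Cfsg.IrrCharacter N,
      (W θ' : ℂ) * Cfsg.classInner (fun n : N => φ n) (θ' : N → ℂ) := by
    intro φ
    have h1 : ∀ θ' : Cfsg.IrrCharacter N,
        ∑ x : G, (starRingEnd ℂ) (Cfsg.extendByZero N (θ' : N → ℂ) x) * φ x =
          (Nat.card N : ℂ) * Cfsg.classInner (fun n : N => φ n) (θ' : N → ℂ) := by
      intro θ'
      have h2 := sum_extendByZero N (θ' : N → ℂ) (fun g => (starRingEnd ℂ) (φ g))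
      have h3 := congrArg (starRingEnd ℂ) h2
      rw [map_sum, map_sum] at h3
      unfold Cfsg.classInner
      rw [← mul_assoc, mul_inv_cancel₀ hN0, one_mul]
      refine Eq.trans ?_ (h3.trans ?_)
      · apply Finset.sum_congr rfl
        intro x _
        simp only [map_mul, Complex.conj_conj]
      · apply Finset.sum_congr rfl
        intro n _
        simp only [map_mul, Complex.conj_conj]
        rw [mul_comm]
    calc ∑ x : G, A x * φ x = ∑ x : G, ∑ θ' : Cfsg.IrrCharacter N, (Nat.card N : ℂ)⁻¹ *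
          ((W θ' : ℂ) * ((starRingEnd ℂ) (Cfsg.extendByZero N (θ' : N → ℂ) x) * φ x)) := by
          apply Finset.sum_congr rfl
          intro x _
          rw [hA, Finset.mul_sum, Finset.sum_mul]
          apply Finset.sum_congr rfl
          intro θ' _
          ring
      _ = ∑ θ' : Cfsg.IrrCharacter N, (Nat.card N : ℂ)⁻¹ * ((W θ' : ℂ) *
          ∑ x : G, (starRingEnd ℂ) (Cfsg.extendByZero N (θ' : N → ℂ) x) * φ x) := by
          rw [Finset.sum_comm]
          apply Finset.sum_congr rfl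
          intro θ' _
          rw [Finset.mul_sum, Finset.mul_sum]
      _ = ∑ θ' : Cfsg.IrrCharacter N,
          (W θ' : ℂ) * Cfsg.classInner (fun n : N => φ n) (θ' : N → ℂ) := by
          apply Finset.sum_congr rfl
          intro θ' _
          rw [h1 θ', mul_left_comm (W θ' : ℂ), inv_mul_cancel_left₀ hN0]
  have hscal : ∀ (φ : G → ℂ) (c : ℂ), (fun n : N => φ n / c) = c⁻¹ • (fun n : N => φ n) := by
    intro φ c
    funext n
    show φ n / c = c⁻¹ * φ n
    rw [div_eq_inv_mul]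
  have hEχ : ∑ x : G, A x * ((χ : G → ℂ) x / (χ : G → ℂ) 1) = 1 := by
    rw [hE (fun x => (χ : G → ℂ) x / (χ : G → ℂ) 1)]
    have h1 : ∀ θ' : Cfsg.IrrCharacter N, (W θ' : ℂ) *
        Cfsg.classInner (fun n : N => (χ : G → ℂ) n / (χ : G → ℂ) 1) (θ' : N → ℂ) =
          ((χ : G → ℂ) 1)⁻¹ * ((m θ' : ℂ) * (θ' : N → ℂ) 1) := by
      intro θ'
      rw [hscal (χ : G → ℂ) ((χ : G → ℂ) 1), classInner_smul_left, hm' θ', hW θ', hdeg θ']
      by_cases h0 : m θ' = 0
      · rw [if_neg (not_not.mpr h0), h0]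
        simp
      · rw [if_pos h0]
        ring
    rw [Finset.sum_congr rfl (fun θ' _ => h1 θ'), ← Finset.mul_sum]
    have h2 : ∑ θ' : Cfsg.IrrCharacter N, (m θ' : ℂ) * (θ' : N → ℂ) 1 = (χ : G → ℂ) 1 := by
      have h3 := congrFun hm 1
      rw [Finset.sum_apply] at h3
      exact h3.symm
    rw [h2, inv_mul_cancel₀ hχ1]
  have hEψ : ∑ x : G, A x * ((ψ : G → ℂ) x / (ψ : G → ℂ) 1) = 0 := by
    rw [hE (fun x => (ψ : G → ℂ) x / (ψ : G → ℂ) 1)]
    apply Finset.sum_eq_zero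
    intro θ' _
    rw [hscal (ψ : G → ℂ) ((ψ : G → ℂ) 1), classInner_smul_left, hW θ']
    by_cases h0 : m θ' = 0
    · rw [if_neg (not_not.mpr h0)]
      simp
    · rw [if_pos h0]
      have hcon' : Cfsg.classInner (fun n : N => (χ : G → ℂ) n) (θ' : N → ℂ) ≠ 0 := by
        rw [hm' θ']
        exact_mod_cast h0
      obtain ⟨g, hg⟩ := orbit_constituent_lead N (χ : G → ℂ) χ.2 (θ : N → ℂ) (θ' : N → ℂ)
        θ.2 θ'.2 hχθ hcon'
      rw [hg, hD (ψ : G → ℂ) hψcl g (θ : N → ℂ), hψθ']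
      ring
  -- invariance of the coefficient function
  have hext : ∀ (θ' : N → ℂ) (g z : G), Cfsg.extendByZero N θ' (z * g * z⁻¹) =
      Cfsg.extendByZero N (θ' ∘ conjHom N z) g := by
    intro θ' g z
    by_cases hg : g ∈ N
    · have e1 := extendByZero_mem N θ' (hN.conj_mem g hg z)
      have e2 := extendByZero_mem N (θ' ∘ conjHom N z) hg
      exact e1.trans e2.symm
    · have hg' : z * g * z⁻¹ ∉ N := by
        intro h1
        apply hg
        have h2 := hN.conj_mem _ h1 z⁻¹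
        have h3 : z⁻¹ * (z * g * z⁻¹) * z⁻¹⁻¹ = g := by group
        rw [h3] at h2
        exact h2
      rw [extendByZero_not_mem N θ' hg', extendByZero_not_mem N _ hg]
  have hAcl : ∀ g z : G, A (z * g * z⁻¹) = A g := by
    intro g z
    obtain ⟨π, hπ⟩ : ∃ π : Cfsg.IrrCharacter N → Cfsg.IrrCharacter N,
        ∀ θ', (π θ' : N → ℂ) = (θ' : N → ℂ) ∘ conjHom N z :=
      ⟨fun θ' => ⟨_, isIrrCharacter_conjHom N z θ'.2⟩, fun _ => rfl⟩
    have hinj : Function.Injective π := by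
      intro a b hab
      have h1 : (π a : N → ℂ) = (π b : N → ℂ) := congrArg Subtype.val hab
      rw [hπ, hπ] at h1
      exact Subtype.ext ((conjHom_surjective N z).injective_comp_right h1)
    have hWπ : ∀ θ' : Cfsg.IrrCharacter N, W (π θ') = W θ' := by
      intro θ'
      have hdegπ : deg (π θ') = deg θ' := by
        have h1 := hdeg (π θ')
        have h2 : ((θ' : N → ℂ) ∘ conjHom N z) 1 = (θ' : N → ℂ) 1 := by
          show (θ' : N → ℂ) (conjHom N z 1) = (θ' : N → ℂ) 1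
          rw [map_one]
        rw [hπ θ', h2, hdeg θ'] at h1
        exact_mod_cast h1.symm
      have hmπ : m (π θ') = m θ' := by
        have h3 := hm' (π θ')
        rw [hπ θ', hD (χ : G → ℂ) hχcl z, hm' θ'] at h3
        exact_mod_cast h3.symm
      rw [hW, hW, hdegπ, hmπ]
    rw [hA, hA]
    congr 1
    refine Fintype.sum_bijective π (Finite.injective_iff_bijective.mp hinj) _ _ ?_
    intro θ'
    show (W θ' : ℂ) * (starRingEnd ℂ) (Cfsg.extendByZero N (θ' : N → ℂ) (z * g * z⁻¹)) =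
      (W (π θ') : ℂ) * (starRingEnd ℂ) (Cfsg.extendByZero N (π θ' : N → ℂ) g)
    rw [hext, ← hπ θ', hWπ θ']
  have hAint : ∀ x : G, ∃ a : Cfsg.AlgInt,
      A x = (a : ℂ) / ((Nat.card N : Cfsg.AlgInt) : ℂ) := by
    intro x
    have hint : IsIntegral ℤ (∑ θ' : Cfsg.IrrCharacter N,
        (W θ' : ℂ) * (starRingEnd ℂ) (Cfsg.extendByZero N (θ' : N → ℂ) x)) := by
      apply IsIntegral.sum
      intro θ' _
      apply IsIntegral.mul (isIntegral_natCast _)
      apply map_isIntegral_int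
      by_cases hx : x ∈ N
      · rw [extendByZero_mem N _ hx]
        exact isIntegral_isCharacter (isCharacter_of_isIrrCharacter θ'.2) _
      · rw [extendByZero_not_mem N _ hx]
        exact isIntegral_zero
    refine ⟨⟨_, hint⟩, ?_⟩
    rw [hA x, div_eq_inv_mul]
    rfl
  -- the regrouped sum lies in the local ideal
  have hreg := sum_classFun_regroup_lead (fun x : G => A x * D x) (by
    intro g z
    show A (z * g * z⁻¹) * D (z * g * z⁻¹) = A g * D g
    rw [hAcl g z, hD', hD', hχcl g z, hψcl g z])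
  have hmem : Cfsg.MemLocalIdeal M (∑ c : ConjClasses G,
      ((Subgroup.centralizer ({Quotient.out c} : Set G)).index : ℂ) *
        (A (Quotient.out c) * D (Quotient.out c))) := by
    apply memLocalIdeal_sum_lead hMprime
    intro c _
    obtain ⟨a, ha⟩ := hAint (Quotient.out c)
    have h1 : ((Subgroup.centralizer ({Quotient.out c} : Set G)).index : ℂ) *
        (A (Quotient.out c) * D (Quotient.out c)) =
        (a : ℂ) / ((Nat.card N : Cfsg.AlgInt) : ℂ) *
          (Cfsg.centralChar (χ : G → ℂ) (Quotient.out c) -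
            Cfsg.centralChar (ψ : G → ℂ) (Quotient.out c)) := by
      rw [ha, hD']
      unfold Cfsg.centralChar
      ring
    have h2 := memLocalIdeal_div_mul_lead hMprime a _ hNM (h (Quotient.out c))
    rw [← h1] at h2
    exact h2
  have hsum : ∑ x : G, A x * D x = 1 := by
    rw [Finset.sum_congr rfl (fun x _ => by rw [hD', mul_sub]), Finset.sum_sub_distrib,
      hEχ, hEψ, sub_zero]
  have hreg' : ∑ x : G, A x * D x = ∑ c : ConjClasses G,
      ((Subgroup.centralizer ({Quotient.out c} : Set G)).index : ℂ) *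
        (A (Quotient.out c) * D (Quotient.out c)) := hreg
  rw [← hreg', hsum] at hmem
  have h1M : (1 : Cfsg.AlgInt) ∈ M := mem_of_memLocalIdeal_lead hMprime 1 hmem
  exact hMtop ((Ideal.eq_top_iff_one M).mpr h1M)

/-- Let N = O_p'(G) be the largest normal subgroup of the finite group G of order prime to p, and fix a maximal ideal M of the algebraic integers containing p. If two irreducible characters χ, ψ of G lie in the same block relative to M, then an irreducible character of N occurs in the restriction of χ exactly when it occurs in the restriction of ψ. -/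
theorem result {G : Type*} [Group G] [Finite G] (p : ℕ) [Fact p.Prime] (M : Ideal Cfsg.AlgInt) (hM : Cfsg.IsPModular p M) [Fintype G] (χ ψ : Cfsg.IrrCharacter G) (h : Cfsg.SameBlock M (χ : G → ℂ) (ψ : G → ℂ)) (θ : Cfsg.IrrCharacter (Cfsg.pPrimeCore p G)) [Fintype (Cfsg.pPrimeCore p G)] : Cfsg.classInner (fun n : Cfsg.pPrimeCore p G => (χ : G → ℂ) n) (θ : Cfsg.pPrimeCore p G → ℂ) ≠ 0 ↔ Cfsg.classInner (fun n : Cfsg.pPrimeCore p G => (ψ : G → ℂ) n) (θ : Cfsg.pPrimeCore p G → ℂ) ≠ 0 := by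
  classical
  haveI := Cfsg.Agent.Lib.Helper3.pPrimeCore_normal p G
  have hcop := Cfsg.Agent.Lib.Helper3.pPrimeCore_coprime (Fact.out : p.Prime) G
  have hsymm : Cfsg.SameBlock M (ψ : G → ℂ) (χ : G → ℂ) := by
    intro g
    have h1 := memLocalIdeal_neg_lead (h g)
    rw [neg_sub] at h1
    exact h1
  exact ⟨same_block_constituent_lead p M hM _ hcop χ ψ h θ,
    same_block_constituent_lead p M hM _ hcop ψ χ hsymm θ⟩

end Cfsg.Agent.S0921
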