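import Cfsg.Statements.S4430
import Mathlib
import Cfsg.Agent.S4431
-- import your own Cfsg.Agent.* helpers here

set_option autoImplicit false
open Cfsg
open Cfsg.Agent.Lib.Helper7 Cfsg.Agent.Lib.Lead
open scoped ComplexConjugate

namespace Cfsg.Agent.S4430

theorem blockPart_eq_aux {G : Type*} [Group G] [Fintype G] [Fintype (Cfsg.IrrCharacter G)]
    (B : Set (Cfsg.IrrCharacter G)) [DecidablePred (· ∈ B)] (ϑ : G → ℂ) (g : G) :
    Cfsg.blockPart B ϑ g = ∑ χ : Cfsg.IrrCharacter G,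
      if χ ∈ B then Cfsg.classInner ϑ (χ : G → ℂ) * (χ : G → ℂ) g else 0 := by
  classical
  have e : (Fintype.ofFinite G) = (inferInstance : Fintype G) := Subsingleton.elim _ _
  show ∑ᶠ χ ∈ B, @Cfsg.classInner G _ (Fintype.ofFinite G) ϑ (χ : G → ℂ) * (χ : G → ℂ) g = _
  rw [e]
  rw [finsum_mem_eq_finite_toFinset_sum _ (Set.toFinite B)]
  have hset : (Set.toFinite B).toFinset = Finset.univ.filter (· ∈ B) := by ext z; simp
  rw [hset, Finset.sum_filter]

theorem val_aux (p : ℕ) [Fact p.Prime] (M : Ideal Cfsg.AlgInt) (hM : Cfsg.IsPModular p M)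
    (N D : ℕ) (hD : D ≠ 0) (m : ℂ) (hm : Cfsg.MemLocalIdeal M m) :
    ((N : ℂ) = (D : ℂ) * (1 + m) → N ≠ 0 ∧ N.factorization p = D.factorization p) ∧
    ((N : ℂ) = (D : ℂ) * m → N = 0 ∨ D.factorization p < N.factorization p) := by
  have hp : p.Prime := Fact.out
  have hMprime : M.IsPrime := hM.2.1.isPrime
  have hMtop : M ≠ ⊤ := hMprime.ne_top
  constructor
  · intro h
    have hxR : Cfsg.MemLocalRing M (1 + m) :=
      memLocalRing_add_lead hMprime (memLocalRing_one_lead hMtop) (memLocalRing_of_ideal_lead hm)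
    have hk := key_val_h7 p M hM (1 + m) hxR D hD 1 (Nat.coprime_one_left p) (N : ℤ)
      (by rw [Nat.cast_one, one_mul, Int.cast_natCast]; exact h.symm)
    have hnot : ¬ Cfsg.MemLocalIdeal M (1 + m) := by
      intro h1
      have h2 := memLocalIdeal_sub_lead hMprime h1 hm
      have e : (1 + m) - m = ((1 : ℤ) : ℂ) := by push_cast; ring
      rw [e] at h2
      have h3 := int_mem_dvd_h7 p M hM 1 h2
      have h4 : p ∣ 1 := by exact_mod_cast h3
      exact hp.one_lt.ne' (Nat.dvd_one.1 h4)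
    have h5 : ¬ (p : ℤ) ^ (D.factorization p + 1) ∣ (N : ℤ) := fun h6 => hnot (hk.2.2 h6)
    have hN0 : N ≠ 0 := by
      rintro rfl
      exact h5 (by simp)
    refine ⟨hN0, ?_⟩
    have h6 : p ^ (D.factorization p) ∣ N := by exact_mod_cast hk.1
    have h7 : ¬ p ^ (D.factorization p + 1) ∣ N := fun h => h5 (by exact_mod_cast h)
    have h8 := (hp.pow_dvd_iff_le_factorization hN0).1 h6
    have h9 : ¬ (D.factorization p + 1 ≤ N.factorization p) :=
      fun h => h7 ((hp.pow_dvd_iff_le_factorization hN0).2 h)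
    omega
  · intro h
    have hk := key_val_h7 p M hM m (memLocalRing_of_ideal_lead hm) D hD 1
      (Nat.coprime_one_left p) (N : ℤ)
      (by rw [Nat.cast_one, one_mul, Int.cast_natCast]; exact h.symm)
    have h5 := hk.2.1 hm
    by_cases hN0 : N = 0
    · left; exact hN0
    · right
      have h7 : p ^ (D.factorization p + 1) ∣ N := by exact_mod_cast h5
      have := (hp.pow_dvd_iff_le_factorization hN0).1 h7
      omega

theorem core_aux {G : Type*} [Group G] [Fintype G] (p : ℕ) [Fact p.Prime]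
    (M : Ideal Cfsg.AlgInt) (hM : Cfsg.IsPModular p M) (H : Subgroup G) [Fintype H]
    (b : Set (Cfsg.IrrCharacter H)) (B₀ : Set (Cfsg.IrrCharacter G))
    (hind : Cfsg.IsInducedBlock M H b B₀) (ξ : Cfsg.IrrCharacter H) (hξ : ξ ∈ b)
    (B : Set (Cfsg.IrrCharacter G)) (hB : Cfsg.IsPBlock M B)
    (n : Cfsg.IrrCharacter G → ℕ)
    (hn : ∀ χ : Cfsg.IrrCharacter G,
      Cfsg.classInner (Cfsg.indFun H (ξ : H → ℂ)) (χ : G → ℂ) = n χ) :
    ∃ (m δ : ℂ), Cfsg.MemLocalIdeal M m ∧ (B = B₀ → δ = 1) ∧ (B ≠ B₀ → δ = 0) ∧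
      Cfsg.blockPart B (Cfsg.indFun H (ξ : H → ℂ)) 1 =
        ((H.index * Cfsg.charDegree (ξ : H → ℂ) : ℕ) : ℂ) * (δ + m) := by
  classical
  haveI : Fintype (Cfsg.IrrCharacter G) := Fintype.ofFinite _
  haveI : Fintype (ConjClasses G) := Fintype.ofFinite _
  have hp : p.Prime := Fact.out
  have hMprime : M.IsPrime := hM.2.1.isPrime
  have hMtop : M ≠ ⊤ := hMprime.ne_top
  have hpM : (p : Cfsg.AlgInt) ∈ M := hM.2.2
  obtain ⟨hb, hB₀, hcong⟩ := hind
  obtain ⟨hξ1, hξ0⟩ := charDegree_irr ξ.2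
  have hξ0' : (ξ : H → ℂ) 1 ≠ 0 := by rw [hξ1]; exact_mod_cast hξ0
  obtain ⟨χ₀, hχ₀B, -, -⟩ := exists_min_h7 p M hMprime B₀ hB₀
  have hpart := blockPart_eq_aux B (Cfsg.indFun H (ξ : H → ℂ)) 1
  have hfcl : ∀ g h : G, (fun g : G => Cfsg.blockCoeff B g) (h * g * h⁻¹) =
      (fun g : G => Cfsg.blockCoeff B g) g := fun g h => blockCoeff_classFun_lead B g h
  have hsum := Cfsg.Agent.S4431.induced_sum_aux H (ξ : H → ℂ) (fun g => Cfsg.blockCoeff B g) hfcl
  have hfrob : ∀ χ : Cfsg.IrrCharacter G,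
      Cfsg.classInner (Cfsg.indFun H (ξ : H → ℂ)) (χ : G → ℂ) =
      (Nat.card H : ℂ)⁻¹ * ∑ m : H, (ξ : H → ℂ) m * conj ((χ : G → ℂ) m) := by
    intro χ
    rw [frobenius_reciprocity H _ _ (isClassFunction_of_irr χ.2)]
    rfl
  have hcard : (Nat.card G : ℂ) = (H.index : ℂ) * (Nat.card H : ℂ) := by
    rw [← Nat.cast_mul, Subgroup.index_mul_card]
  have hH0 : (Nat.card H : ℂ) ≠ 0 := by exact_mod_cast Nat.card_pos.ne'
  have hI0 : (H.index : ℂ) ≠ 0 := by exact_mod_cast (Subgroup.index_ne_zero_of_finite (H := H))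
  have hmain : Cfsg.blockPart B (Cfsg.indFun H (ξ : H → ℂ)) 1 =
      (H.index : ℂ) * (ξ : H → ℂ) 1 * ∑ c : ConjClasses G,
        Cfsg.blockCoeff B (Quotient.out c) *
        Cfsg.inducedCentralChar H (ξ : H → ℂ) (Quotient.out c) := by
    rw [hsum, hpart]
    have e1 : ∀ m : H, Cfsg.blockCoeff B (m : G) = (Nat.card G : ℂ)⁻¹ *
        ∑ φ : Cfsg.IrrCharacter G,
        if φ ∈ B then (φ : G → ℂ) 1 * conj ((φ : G → ℂ) m) else 0 :=
      fun m => blockCoeff_eq_sum_lead B m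
    calc ∑ χ : Cfsg.IrrCharacter G, (if χ ∈ B then
          Cfsg.classInner (Cfsg.indFun H (ξ : H → ℂ)) (χ : G → ℂ) * (χ : G → ℂ) 1 else 0)
        = ∑ χ : Cfsg.IrrCharacter G, ∑ m : H, (Nat.card H : ℂ)⁻¹ *
            (if χ ∈ B then (χ : G → ℂ) 1 * conj ((χ : G → ℂ) m) else 0) * (ξ : H → ℂ) m := by
          apply Finset.sum_congr rfl
          intro χ _
          by_cases h : χ ∈ B
          · rw [if_pos h, hfrob χ, Finset.mul_sum, Finset.sum_mul]
            apply Finset.sum_congr rfl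
            intro m _
            rw [if_pos h]; ring
          · rw [if_neg h]
            symm
            apply Finset.sum_eq_zero
            intro m _
            rw [if_neg h]; ring
      _ = ∑ m : H, ∑ χ : Cfsg.IrrCharacter G, (Nat.card H : ℂ)⁻¹ *
            (if χ ∈ B then (χ : G → ℂ) 1 * conj ((χ : G → ℂ) m) else 0) * (ξ : H → ℂ) m :=
          Finset.sum_comm
      _ = _ := by
          rw [Finset.mul_sum]
          apply Finset.sum_congr rfl
          intro m _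
          show _ = (H.index : ℂ) * (ξ : H → ℂ) 1 *
            (Cfsg.blockCoeff B (m : G) * ((ξ : H → ℂ) m / (ξ : H → ℂ) 1))
          rw [e1 m, hcard]
          rw [← Finset.sum_mul, ← Finset.mul_sum]
          field_simp
  have hBring : ∀ g : G, Cfsg.MemLocalRing M (Cfsg.blockCoeff B g) := by
    obtain ⟨χ', hB'⟩ := hB
    intro g
    rw [hB']
    exact osima_lead p hp M hMprime hpM χ' g
  obtain ⟨m, hmdef⟩ : ∃ m : ℂ, m = ∑ c : ConjClasses G, Cfsg.blockCoeff B (Quotient.out c) *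
      (Cfsg.inducedCentralChar H (ξ : H → ℂ) (Quotient.out c) -
        Cfsg.centralChar (χ₀ : G → ℂ) (Quotient.out c)) := ⟨_, rfl⟩
  have hmI : Cfsg.MemLocalIdeal M m := by
    rw [hmdef]
    apply memLocalIdeal_sum_lead hMprime
    intro c _
    exact memLocalIdeal_mul_ring_lead hMprime (hBring _)
      (hcong ξ hξ χ₀ hχ₀B (Quotient.out c))
  have hsplit : ∑ c : ConjClasses G, Cfsg.blockCoeff B (Quotient.out c) *
      Cfsg.inducedCentralChar H (ξ : H → ℂ) (Quotient.out c) =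
      (if χ₀ ∈ B then 1 else 0) + m := by
    rw [← blockCoeff_class_sum_h7 B χ₀, hmdef, ← Finset.sum_add_distrib]
    apply Finset.sum_congr rfl
    intro c _
    ring
  refine ⟨m, if χ₀ ∈ B then 1 else 0, hmI, ?_, ?_, ?_⟩
  · intro h
    rw [if_pos (h ▸ hχ₀B)]
  · intro h
    have h' : χ₀ ∉ B := by
      intro hc
      apply h
      rw [blockOf_eq_h7 M hMprime B hB χ₀ hc]
      exact (blockOf_eq_h7 M hMprime B₀ hB₀ χ₀ hχ₀B).symm
    rw [if_neg h']
  · rw [hmain, hsplit, Nat.cast_mul, hξ1]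

/-- Let H be a subgroup of the finite group G, b a block of H whose induced block B₀ in G is defined (relative to a maximal ideal M of the algebraic integers containing p), and ξ ∈ b. For a block B of G let n_B be the value at 1 of the B-part of the induced character ξ^G (a natural number: the sum over χ ∈ B of the multiplicity of χ in ξ^G times χ(1)). Then for B = B₀ the exact power of p dividing n_B equals the exact power of p dividing ξ^G(1), while for every other block B either n_B = 0 or n_B is divisible by a strictly higher power of p than ξ^G(1). -/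
theorem result {G : Type*} [Group G] [Fintype G] (p : ℕ) [Fact p.Prime] (M : Ideal Cfsg.AlgInt) (hM : Cfsg.IsPModular p M) (H : Subgroup G) [Fintype H] (b : Set (Cfsg.IrrCharacter H)) (B₀ : Set (Cfsg.IrrCharacter G)) (hind : Cfsg.IsInducedBlock M H b B₀) (ξ : Cfsg.IrrCharacter H) (hξ : ξ ∈ b) : (∃ n : ℕ, Cfsg.blockPart B₀ (Cfsg.indFun H (ξ : H → ℂ)) 1 = (n : ℂ) ∧ n ≠ 0 ∧ n.factorization p = (Cfsg.charDegree (Cfsg.indFun H (ξ : H → ℂ))).factorization p) ∧ ∀ B : Set (Cfsg.IrrCharacter G), Cfsg.IsPBlock M B → B ≠ B₀ → ∃ n : ℕ, Cfsg.blockPart B (Cfsg.indFun H (ξ : H → ℂ)) 1 = (n : ℂ) ∧ (n = 0 ∨ (Cfsg.charDegree (Cfsg.indFun H (ξ : H → ℂ))).factorization p < n.factorization p) := by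
  classical
  haveI : Fintype (Cfsg.IrrCharacter G) := Fintype.ofFinite _
  obtain ⟨hξ1, hξ0⟩ := charDegree_irr ξ.2
  obtain ⟨n, hexp, hn⟩ := isCharacter_expansion
    (isCharacter_indFun H (ξ : H → ℂ) (isCharacter_of_isIrrCharacter ξ.2))
  have hnat : ∀ B : Set (Cfsg.IrrCharacter G),
      Cfsg.blockPart B (Cfsg.indFun H (ξ : H → ℂ)) 1 =
      ((∑ χ : Cfsg.IrrCharacter G,
        if χ ∈ B then n χ * Cfsg.charDegree (χ : G → ℂ) else 0 : ℕ) : ℂ) := by
    intro B
    rw [blockPart_eq_aux B (Cfsg.indFun H (ξ : H → ℂ)) 1, Nat.cast_sum]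
    apply Finset.sum_congr rfl
    intro χ _
    by_cases h : χ ∈ B
    · rw [if_pos h, if_pos h, hn χ, (charDegree_irr χ.2).1, Nat.cast_mul]
    · rw [if_neg h, if_neg h, Nat.cast_zero]
  have hD : Cfsg.charDegree (Cfsg.indFun H (ξ : H → ℂ)) =
      H.index * Cfsg.charDegree (ξ : H → ℂ) := by
    have h1 : Cfsg.indFun H (ξ : H → ℂ) 1 =
        ((H.index * Cfsg.charDegree (ξ : H → ℂ) : ℕ) : ℂ) := by
      rw [indFun_one, hξ1, Nat.cast_mul]
    show ⌊(Cfsg.indFun H (ξ : H → ℂ) 1).re⌋₊ = _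
    rw [h1, Complex.natCast_re, Nat.floor_natCast]
  have hD0 : H.index * Cfsg.charDegree (ξ : H → ℂ) ≠ 0 :=
    Nat.mul_ne_zero Subgroup.index_ne_zero_of_finite hξ0
  have hB₀ : Cfsg.IsPBlock M B₀ := hind.2.1
  constructor
  · obtain ⟨m, δ, hmI, hδ1, -, heq⟩ := core_aux p M hM H b B₀ hind ξ hξ B₀ hB₀ n hn
    rw [hδ1 rfl, hnat B₀] at heq
    have hv := (val_aux p M hM _ _ hD0 m hmI).1 heq
    refine ⟨_, hnat B₀, hv.1, ?_⟩
    rw [hD]
    exact hv.2
  · intro B hB hne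
    obtain ⟨m, δ, hmI, -, hδ0, heq⟩ := core_aux p M hM H b B₀ hind ξ hξ B hB n hn
    rw [hδ0 hne, hnat B, zero_add] at heq
    have hv := (val_aux p M hM _ _ hD0 m hmI).2 heq
    refine ⟨_, hnat B, ?_⟩
    rw [hD]
    exact hv


end Cfsg.Agent.S4430
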