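import Cfsg.Statements.S0923
import Mathlib
import Cfsg.Agent.S0919
import Cfsg.Agent.S0922
import Cfsg.Agent.S4430
import Cfsg.Agent.Lib.Helper7.DefectOrd
import Cfsg.Agent.Lib.Lead.CharRing
import Cfsg.Agent.Lib.Lead.BlockAux2
-- import your own Cfsg.Agent.* helpers here

set_option autoImplicit false
open Cfsg
open Cfsg.Agent.Lib.Helper7 Cfsg.Agent.Lib.Lead
open scoped ComplexConjugate

namespace Cfsg.Agent.S0923

universe u

theorem ppart_unique2_aux {G : Type*} [Group G] (p : ℕ) [hp : Fact p.Prime]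
    (g x z : G) (hx : Cfsg.IsPPart p g x) (hz : Cfsg.IsPPart p g z) : z = x := by
  obtain ⟨y, hxy, hc, ⟨k, hk⟩, hy⟩ := hx
  obtain ⟨y', hzy, hc', ⟨j, hj⟩, hy'⟩ := hz
  have hp' := hp.out
  obtain ⟨n, hn⟩ : ∃ n, n = orderOf y * orderOf y' := ⟨_, rfl⟩
  obtain ⟨q, hq⟩ : ∃ q, q = p ^ (k + j) := ⟨_, rfl⟩
  have h1 : g ^ n = x ^ n := by
    rw [← hxy, hc.mul_pow, hn, pow_mul y, pow_orderOf_eq_one, one_pow, mul_one]
  have h2 : g ^ n = z ^ n := by
    rw [← hzy, hc'.mul_pow, hn, mul_comm (orderOf y), pow_mul y', pow_orderOf_eq_one, one_pow,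
      mul_one]
  have h3 : x ^ n = z ^ n := by rw [← h1, h2]
  have e1 : x ^ q = 1 := by
    rw [hq, pow_add, pow_mul, ← hk, pow_orderOf_eq_one, one_pow]
  have e2 : z ^ q = 1 := by
    rw [hq, pow_add, mul_comm, pow_mul, ← hj, pow_orderOf_eq_one, one_pow]
  have hcop : Nat.gcd n q = 1 := by
    have h : Nat.Coprime q n := by
      rw [hq]
      apply Nat.Coprime.pow_left
      rw [hp'.coprime_iff_not_dvd, hn]
      intro hd
      rcases hp'.dvd_mul.1 hd with h | h
      · exact hy h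
      · exact hy' h
    exact h.symm
  have hb : (1 : ℤ) = (n : ℤ) * Nat.gcdA n q + (q : ℤ) * Nat.gcdB n q := by
    have h := Nat.gcd_eq_gcd_ab n q
    rw [hcop] at h
    exact_mod_cast h
  have key : ∀ w : G, w ^ q = 1 → w = (w ^ n) ^ (Nat.gcdA n q) := by
    intro w hw
    have h : w ^ (1 : ℤ) = w ^ ((n : ℤ) * Nat.gcdA n q + (q : ℤ) * Nat.gcdB n q) := by
      rw [← hb]
    rw [zpow_one, zpow_add, zpow_mul, zpow_mul, zpow_natCast, zpow_natCast, hw, one_zpow,
      mul_one] at h
    exact h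
  rw [key z e2, key x e1, h3]

theorem part_eq_aux {C : Type u} [Group C] [Fintype C] [Fintype (Cfsg.IrrCharacter C)]
    (b : Set (Cfsg.IrrCharacter C)) (ϑ : C → ℂ) (hϑ : Cfsg.IsClassFunction C ϑ) (y : C) :
    Cfsg.blockPart b ϑ y = ∑ k : C, Cfsg.blockCoeff b k * ϑ (k * y) := by
  classical
  rw [Cfsg.Agent.S4430.blockPart_eq_aux]
  have e : ∀ k : C, Cfsg.blockCoeff b k * ϑ (k * y) = ∑ φ : Cfsg.IrrCharacter C,
      if φ ∈ b then (Nat.card C : ℂ)⁻¹ * ((φ : C → ℂ) 1 * conj ((φ : C → ℂ) k)) * ϑ (k * y)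
      else 0 := by
    intro k
    rw [blockCoeff_eq_sum_lead, Finset.mul_sum, Finset.sum_mul]
    apply Finset.sum_congr rfl
    intro φ _
    by_cases h : φ ∈ b
    · rw [if_pos h, if_pos h]
    · rw [if_neg h, if_neg h, mul_zero, zero_mul]
  rw [Finset.sum_congr rfl (fun k _ => e k), Finset.sum_comm]
  apply Finset.sum_congr rfl
  intro φ _
  by_cases h : φ ∈ b
  · rw [if_pos h, Finset.sum_congr rfl (fun k _ => if_pos h)]
    have hη : Cfsg.IsIrrCharacter C (fun g => conj ((φ : C → ℂ) g)) := isIrrCharacter_conj φ.2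
    have hs : ∑ x : C, ϑ x * conj ((φ : C → ℂ) (x * y⁻¹)) =
        (∑ x : C, ϑ x * conj ((φ : C → ℂ) x)) * conj ((φ : C → ℂ) y⁻¹) /
          conj ((φ : C → ℂ) 1) :=
      sum_mul_char_shift_lead ϑ hϑ (fun g => conj ((φ : C → ℂ) g)) hη y⁻¹
    obtain ⟨d, hd0, hd⟩ := irr_one φ.2
    have hφ1 : (φ : C → ℂ) 1 ≠ 0 := by
      rw [hd]
      exact_mod_cast hd0
    have hc1 : conj ((φ : C → ℂ) 1) = (φ : C → ℂ) 1 := by
      rw [hd]
      exact Complex.conj_natCast d
    have hcy : conj ((φ : C → ℂ) y⁻¹) = (φ : C → ℂ) y := by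
      rw [irr_inv φ.2 y, Complex.conj_conj]
    rw [hc1, hcy] at hs
    have hre : ∑ k : C, (Nat.card C : ℂ)⁻¹ * ((φ : C → ℂ) 1 * conj ((φ : C → ℂ) k)) *
        ϑ (k * y) = ∑ c : C, (Nat.card C : ℂ)⁻¹ *
          ((φ : C → ℂ) 1 * conj ((φ : C → ℂ) (c * y⁻¹))) * ϑ c := by
      rw [← Equiv.sum_comp (Equiv.mulRight y⁻¹) (fun k => (Nat.card C : ℂ)⁻¹ *
        ((φ : C → ℂ) 1 * conj ((φ : C → ℂ) k)) * ϑ (k * y))]
      apply Finset.sum_congr rfl
      intro c _
      show (Nat.card C : ℂ)⁻¹ * ((φ : C → ℂ) 1 * conj ((φ : C → ℂ) (c * y⁻¹))) *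
        ϑ (c * y⁻¹ * y) = _
      rw [inv_mul_cancel_right]
    have hfin : ∑ c : C, (Nat.card C : ℂ)⁻¹ *
        ((φ : C → ℂ) 1 * conj ((φ : C → ℂ) (c * y⁻¹))) * ϑ c =
        (Nat.card C : ℂ)⁻¹ * (φ : C → ℂ) 1 *
          ∑ x : C, ϑ x * conj ((φ : C → ℂ) (x * y⁻¹)) := by
      rw [Finset.mul_sum]
      apply Finset.sum_congr rfl
      intro c _
      ring
    have harith : ∀ a S v w : ℂ, w ≠ 0 → a * S * v = a * w * (S * v / w) := by
      intro a S v w hw
      field_simp
    rw [hre, hfin, hs]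
    unfold Cfsg.classInner
    exact harith _ _ _ _ hφ1
  · rw [if_neg h, Finset.sum_congr rfl (fun k _ => if_neg h), Finset.sum_const_zero]

/-- Brauer's Second Main Theorem, in terms of ordinary characters. Let x be a p-element of the finite group G with centralizer C, let χ lie in the block B of G and let b be a block of C that does not induce B (relative to a maximal ideal M of the algebraic integers containing p). Form the class function ϑ(c) = χ(x c) on C and its b-part (the sum over ψ ∈ b of the inner product of ϑ with ψ, times ψ). Then the b-part of ϑ vanishes at every p-regular element of C. (Equivalently, the generalized decomposition numbers of χ with respect to b are zero.) -/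
theorem result {G : Type*} [Group G] [Finite G] (p : ℕ) [Fact p.Prime] (M : Ideal Cfsg.AlgInt) (hM : Cfsg.IsPModular p M) (x : G) (hx : ∃ k : ℕ, orderOf x = p ^ k) (B : Set (Cfsg.IrrCharacter G)) (hB : Cfsg.IsPBlock M B) (χ : Cfsg.IrrCharacter G) (hχ : χ ∈ B) (b : Set (Cfsg.IrrCharacter (Subgroup.centralizer ({x} : Set G)))) (hb : Cfsg.IsPBlock M b) (hnot : ¬ Cfsg.IsInducedBlock M (Subgroup.centralizer ({x} : Set G)) b B) (y : Subgroup.centralizer ({x} : Set G)) (hy : ¬ p ∣ orderOf y) : Cfsg.blockPart b (fun c : Subgroup.centralizer ({x} : Set G) => (χ : G → ℂ) (x * (c : G))) y = 0 := by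
  classical
  haveI : Fintype G := Fintype.ofFinite G
  have hMprime : M.IsPrime := hM.2.1.isPrime
  obtain ⟨kx, hkx⟩ := hx
  have hxC : x ∈ Subgroup.centralizer ({x} : Set G) := by
    rw [Subgroup.mem_centralizer_iff]
    intro h hh
    rw [Set.mem_singleton_iff.1 hh]
  have hP : IsPGroup p (Subgroup.zpowers x) :=
    IsPGroup.of_card (n := kx) (by rw [Nat.card_zpowers, hkx])
  have hPC : Subgroup.zpowers x ≤ Subgroup.centralizer ({x} : Set G) := by
    rw [Subgroup.zpowers_le]
    exact hxC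
  have hCC : Subgroup.centralizer ((Subgroup.zpowers x : Subgroup G) : Set G) ≤
      Subgroup.centralizer ({x} : Set G) :=
    Subgroup.centralizer_le (Set.singleton_subset_iff.2 (Subgroup.mem_zpowers x))
  have hCcent : Subgroup.centralizer ({x} : Set G) ≤
      Subgroup.centralizer ((Subgroup.zpowers x : Subgroup G) : Set G) := by
    intro g hg
    rw [Subgroup.mem_centralizer_iff] at hg ⊢
    intro h hh
    obtain ⟨n, rfl⟩ := Subgroup.mem_zpowers_iff.1 hh
    have hc : Commute x g := hg x (Set.mem_singleton x)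
    exact (hc.zpow_left n).eq
  have hCN : Subgroup.centralizer ({x} : Set G) ≤
      Subgroup.normalizer ((Subgroup.zpowers x : Subgroup G) : Set G) := by
    intro g hg
    have hg' := Subgroup.mem_centralizer_iff.1 (hCcent hg)
    rw [Subgroup.mem_normalizer_iff]
    intro h
    constructor
    · intro hh
      have e : g * h * g⁻¹ = h := by rw [← hg' h hh, mul_inv_cancel_right]
      rw [e]
      exact hh
    · intro hh
      have e1 : g * h * g⁻¹ * g = g * (g * h * g⁻¹) := hg' _ hh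
      have h2 : g * h = g * (g * h * g⁻¹) := by
        rw [← e1]
        group
      have e : h = g * h * g⁻¹ := mul_left_cancel h2
      rw [e]
      exact hh
  obtain ⟨B', hb', hB', hcong⟩ := Cfsg.Agent.S0919.result p M hM (Subgroup.zpowers x)
    (Subgroup.centralizer ({x} : Set G)) hP hPC hCC hCN b hb
  have hχB' : χ ∉ B' := by
    intro h
    apply hnot
    have e1 := blockOf_eq_h7 M hMprime B hB χ hχ
    have e2 := blockOf_eq_h7 M hMprime B' hB' χ h
    rw [e1, ← e2]
    exact ⟨hb', hB', hcong⟩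
  obtain ⟨xC, hxCdef⟩ : ∃ xC : Subgroup.centralizer ({x} : Set G), (xC : G) = x :=
    ⟨⟨x, hxC⟩, rfl⟩
  have hpp : Cfsg.IsPPart p ((xC * y : Subgroup.centralizer ({x} : Set G)) : G) x := by
    refine ⟨(y : G), ?_, ?_, ⟨kx, hkx⟩, ?_⟩
    · show x * (y : G) = (xC : G) * (y : G)
      rw [hxCdef]
    · exact Subgroup.mem_centralizer_iff.1 y.2 x (Set.mem_singleton x)
    · rw [Subgroup.orderOf_coe]
      exact hy
  have h922 := Cfsg.Agent.S0922.result p M hM (Subgroup.centralizer ({x} : Set G)) b B'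
    ⟨hb', hB', hcong⟩ (xC * y) (by
      intro z hz
      have hzx : z = x := ppart_unique2_aux p _ x z hpp hz
      subst hzx
      exact le_rfl) χ hχB'
  haveI : Fintype (Subgroup.centralizer ({x} : Set G)) := Fintype.ofFinite _
  haveI : Fintype (Cfsg.IrrCharacter (Subgroup.centralizer ({x} : Set G))) :=
    Fintype.ofFinite _
  rw [finsum_eq_sum_of_fintype] at h922
  have hcl : Cfsg.IsClassFunction (Subgroup.centralizer ({x} : Set G))
      (fun c : Subgroup.centralizer ({x} : Set G) => (χ : G → ℂ) (x * (c : G))) := by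
    intro c t
    show (χ : G → ℂ) (x * ((t * c * t⁻¹ : Subgroup.centralizer ({x} : Set G)) : G)) =
      (χ : G → ℂ) (x * (c : G))
    have ht : x * (t : G) = (t : G) * x :=
      Subgroup.mem_centralizer_iff.1 t.2 x (Set.mem_singleton x)
    have e : x * ((t * c * t⁻¹ : Subgroup.centralizer ({x} : Set G)) : G) =
        (t : G) * (x * (c : G)) * (t : G)⁻¹ := by
      show x * ((t : G) * (c : G) * (t : G)⁻¹) = (t : G) * (x * (c : G)) * (t : G)⁻¹
      calc x * ((t : G) * (c : G) * (t : G)⁻¹) = (x * (t : G)) * (c : G) * (t : G)⁻¹ := by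
            group
        _ = ((t : G) * x) * (c : G) * (t : G)⁻¹ := by rw [ht]
        _ = (t : G) * (x * (c : G)) * (t : G)⁻¹ := by group
    rw [e]
    exact isClassFunction_of_irr χ.2 _ _
  rw [part_eq_aux b _ hcl y]
  refine Eq.trans ?_ h922
  apply Finset.sum_congr rfl
  intro k _
  congr 1
  show (χ : G → ℂ) (x * ((k * y : Subgroup.centralizer ({x} : Set G)) : G)) =
    (χ : G → ℂ) ((k : G) * ((xC * y : Subgroup.centralizer ({x} : Set G)) : G))
  have hk' : x * (k : G) = (k : G) * x :=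
    Subgroup.mem_centralizer_iff.1 k.2 x (Set.mem_singleton x)
  have e : x * ((k * y : Subgroup.centralizer ({x} : Set G)) : G) =
      (k : G) * ((xC * y : Subgroup.centralizer ({x} : Set G)) : G) := by
    show x * ((k : G) * (y : G)) = (k : G) * ((xC : G) * (y : G))
    rw [hxCdef, ← mul_assoc, hk', mul_assoc]
  rw [e]


end Cfsg.Agent.S0923
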