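import Cfsg.Statements.S0924
import Mathlib
import Cfsg.Agent.Lib.Lead.SylowAux2
import Cfsg.Agent.Lib.Lead.PermIdem
import Cfsg.Agent.Lib.Lead.BlockMinMax
import Cfsg.Agent.Lib.Lead.BlockOsima2
import Cfsg.Agent.Lib.Lead.BlockOrtho2
import Cfsg.Agent.Lib.Lead.BlockDefect
import Cfsg.Agent.Lib.Lead.BlockKer
import Cfsg.Agent.Lib.Lead.BlockAux
import Cfsg.Agent.Lib.Lead.BlockAux2
import Cfsg.Agent.Lib.Lead.BlockOsima
import Cfsg.Agent.Lib.Lead.CharRing
import Cfsg.Agent.Lib.Lead.CharOrtho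

set_option autoImplicit false
open Cfsg Cfsg.Agent.Lib.Lead

namespace Cfsg.Agent.S0924

open scoped Pointwise commutatorElement

/-- Let χ be an irreducible character of the finite group G and g ∈ G, and fix a maximal ideal M of the algebraic integers containing the prime p. If the p-part of g is contained in no defect group of the block of χ, then χ g = 0. -/
theorem result {G : Type*} [Group G] [Finite G] (p : ℕ) [Fact p.Prime] (M : Ideal Cfsg.AlgInt) (hM : Cfsg.IsPModular p M) (χ : Cfsg.IrrCharacter G) (g x : G) (hx : Cfsg.IsPPart p g x) (hD : ∀ D : Subgroup G, Cfsg.IsDefectGroup p M (Cfsg.blockOf M (χ : G → ℂ)) D → x ∉ D) : (χ : G → ℂ) g = 0 := by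
  classical
  haveI : Fintype G := Fintype.ofFinite G
  haveI : Fintype (Cfsg.IrrCharacter G) := Fintype.ofFinite _
  obtain ⟨hp, hMmax, hpM⟩ := hM
  have hMprime : M.IsPrime := hMmax.isPrime
  have hMtop : M ≠ ⊤ := hMprime.ne_top
  obtain ⟨y, hxy, hcomm, ⟨a, ha⟩, hy⟩ := hx
  have hχB : χ ∈ Cfsg.blockOf M (χ : G → ℂ) := sameBlock_refl_lead hMtop (χ : G → ℂ)
  -- conjugation by the powers of g
  obtain ⟨τ, hτ⟩ : ∃ τ : ℤ → G → G, ∀ k r, τ k r = g ^ k * r * (g ^ k)⁻¹ :=
    ⟨fun k r => g ^ k * r * (g ^ k)⁻¹, fun _ _ => rfl⟩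
  have hτ0 : ∀ r, τ 0 r = r := by
    intro r
    rw [hτ, zpow_zero, one_mul, inv_one, mul_one]
  have hτadd : ∀ i j r, τ (i + j) r = τ i (τ j r) := by
    intro i j r
    simp only [hτ, zpow_add, mul_inv_rev, mul_assoc]
  have hτ1 : ∀ r, τ 1 r = g * r * g⁻¹ := by
    intro r
    rw [hτ, zpow_one]
  have hgxc : Commute g x := by
    rw [← hxy]
    exact (Commute.refl x).mul_left hcomm.symm
  have hQ : ∀ (i : ℤ) (r : G), (x * τ i r = τ i r * x) ↔ (x * r = r * x) := by
    intro i r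
    have hxc : Commute x (g ^ i) := (hgxc.zpow_left i).symm
    rw [hτ]
    constructor
    · intro h
      have h' : Commute x (g ^ i * r * (g ^ i)⁻¹) := h
      have h1 : Commute x ((g ^ i)⁻¹ * (g ^ i * r * (g ^ i)⁻¹) * g ^ i) :=
        (hxc.inv_right.mul_right h').mul_right hxc
      have e : (g ^ i)⁻¹ * (g ^ i * r * (g ^ i)⁻¹) * g ^ i = r := by
        simp only [mul_assoc, inv_mul_cancel, mul_one, inv_mul_cancel_left]
      rw [e] at h1
      exact h1.eq
    · intro h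
      have h' : Commute x r := h
      exact ((hxc.mul_right h').mul_right hxc.inv_right).eq
  -- the idempotent matrix of the block
  obtain ⟨E, hE⟩ : ∃ E : Matrix G G ℂ,
      ∀ r s, E r s = Cfsg.blockCoeff (Cfsg.blockOf M (χ : G → ℂ)) (r * s⁻¹) :=
    ⟨fun r s => Cfsg.blockCoeff (Cfsg.blockOf M (χ : G → ℂ)) (r * s⁻¹), fun _ _ => rfl⟩
  have hER : ∀ r s, Cfsg.MemLocalRing M (E r s) := by
    intro r s
    rw [hE]
    exact osima_lead p hp M hMprime hpM χ _
  have hEE : E * E = E := by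
    ext r s
    rw [Matrix.mul_apply, hE r s,
      blockCoeff_conv_lead (Cfsg.blockOf M (χ : G → ℂ)) (r * s⁻¹)]
    symm
    refine Fintype.sum_equiv ((Equiv.inv G).trans (Equiv.mulRight r)) _ _ ?_
    intro t
    show Cfsg.blockCoeff _ t * Cfsg.blockCoeff _ (t⁻¹ * (r * s⁻¹)) =
      E r (t⁻¹ * r) * E (t⁻¹ * r) s
    rw [hE, hE]
    have e1 : r * (t⁻¹ * r)⁻¹ = t := by group
    rw [e1, mul_assoc]
  have hET : ∀ r s, E (τ 1 r) (τ 1 s) = E r s := by
    intro r s
    rw [hE, hE, hτ1, hτ1]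
    have e : g * r * g⁻¹ * (g * s * g⁻¹)⁻¹ = g * (r * s⁻¹) * g⁻¹ := by group
    rw [e, blockCoeff_classFun_lead]
  have hEQ : ∀ r s, x * r = r * x → x * s = s * x → Cfsg.MemLocalIdeal M (E r s) := by
    intro r s hr hs
    rw [hE]
    by_contra hz
    obtain ⟨y₀, hy₀⟩ := exists_defectClass_lead p hp M hMprime hpM χ
    have hk : ¬ Cfsg.MemLocalIdeal M (Cfsg.centralChar (χ : G → ℂ) y₀) := hy₀.2.2 χ hχB
    have hP : IsPGroup p (Subgroup.zpowers x) := by
      apply IsPGroup.of_card (n := a)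
      rw [Nat.card_zpowers, ha]
    have hr' : Commute x r := hr
    have hs' : Commute x s := hs
    have hxz : Commute x (r * s⁻¹) := hr'.mul_right hs'.inv_right
    have hPz : ∀ d ∈ Subgroup.zpowers x, d * (r * s⁻¹) = r * s⁻¹ * d := by
      intro d hd
      obtain ⟨m, rfl⟩ := Subgroup.mem_zpowers_iff.mp hd
      exact (hxz.zpow_left m).eq
    obtain ⟨y', hy'conj, hy'c⟩ := minmax_key_lead p hp M hMprime hpM χ y₀ (r * s⁻¹) hk hz
      (Subgroup.zpowers x) hP hPz
    obtain ⟨c, hc⟩ := isConj_iff.mp hy'conj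
    have hy'eq : y' = c⁻¹ * y₀ * c⁻¹⁻¹ := by
      rw [← hc]
      group
    have hy'def : Cfsg.IsDefectClass M (Cfsg.blockOf M (χ : G → ℂ)) y' := by
      rw [hy'eq]
      exact isDefectClass_conj_lead hy₀ c⁻¹
    have hxy' : x ∈ Subgroup.centralizer ({y'} : Set G) := by
      rw [Subgroup.mem_centralizer_iff]
      intro w hw
      rw [Set.mem_singleton_iff] at hw
      rw [hw]
      have h1 := hy'c x (Subgroup.mem_zpowers x)
      calc y' * x = x * y' * x⁻¹ * x := by rw [h1]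
        _ = x * y' := by group
    have hPx : IsPGroup p (Subgroup.zpowers
        (⟨x, hxy'⟩ : Subgroup.centralizer ({y'} : Set G))) := by
      apply IsPGroup.of_card (n := a)
      rw [Nat.card_zpowers, Subgroup.orderOf_mk, ha]
    obtain ⟨P, hPle⟩ := hPx.exists_le_sylow
    have hDG : Cfsg.IsDefectGroup p M (Cfsg.blockOf M (χ : G → ℂ))
        ((P : Subgroup (Subgroup.centralizer ({y'} : Set G))).map
          (Subgroup.centralizer ({y'} : Set G)).subtype) := ⟨y', hy'def, P, rfl⟩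
    apply hD _ hDG
    exact Subgroup.mem_map.mpr ⟨⟨x, hxy'⟩, hPle (Subgroup.mem_zpowers _), rfl⟩
  have hfix : ∀ (k : ℤ) (r : G), ¬ (x * r = r * x) → τ k r = r → (p : ℤ) ∣ k := by
    intro k r hQr hk
    by_contra hpk
    apply hQr
    rw [hτ] at hk
    have hgk : Commute (g ^ k) r := by
      show g ^ k * r = r * g ^ k
      calc g ^ k * r = g ^ k * r * (g ^ k)⁻¹ * g ^ k := by
            simp only [mul_assoc, inv_mul_cancel, mul_one]
        _ = r * g ^ k := by rw [hk]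
    have hyk : y ^ (k * (orderOf y : ℤ)) = 1 := by
      rw [mul_comm, zpow_mul, zpow_natCast, pow_orderOf_eq_one, one_zpow]
    have hgkm : g ^ (k * (orderOf y : ℤ)) = x ^ (k * (orderOf y : ℤ)) := by
      rw [← hxy, hcomm.mul_zpow, hyk, mul_one]
    have hxn : Commute (x ^ (k * (orderOf y : ℤ))) r := by
      rw [← hgkm, zpow_mul]
      exact hgk.zpow_left _
    have hpn : ¬ (p : ℤ) ∣ k * (orderOf y : ℤ) := by
      intro h
      rcases (Nat.prime_iff_prime_int.mp hp).dvd_or_dvd h with h1 | h1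
      · exact hpk h1
      · exact hy (Int.natCast_dvd_natCast.mp h1)
    have hcop : IsCoprime ((p : ℤ) ^ a) (k * (orderOf y : ℤ)) :=
      IsCoprime.pow_left (((Nat.prime_iff_prime_int.mp hp).coprime_iff_not_dvd).mpr hpn)
    obtain ⟨u, v, huv⟩ := hcop
    have hxa : x ^ ((p : ℤ) ^ a) = 1 := by
      have h1 : ((p : ℤ) ^ a) = ((p ^ a : ℕ) : ℤ) := (Nat.cast_pow p a).symm
      rw [h1, zpow_natCast, ← ha, pow_orderOf_eq_one]
    have hx1 : x = (x ^ (k * (orderOf y : ℤ))) ^ v := by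
      calc x = x ^ (1 : ℤ) := (zpow_one x).symm
        _ = x ^ (u * (p : ℤ) ^ a + v * (k * (orderOf y : ℤ))) := by rw [huv]
        _ = (x ^ (k * (orderOf y : ℤ))) ^ v := by
          rw [zpow_add, mul_comm u, zpow_mul, hxa, one_zpow, one_mul, mul_comm v, zpow_mul]
    have hfin : Commute x r := by
      rw [hx1]
      exact hxn.zpow_left v
    exact hfin.eq
  have hsum := perm_idem_trace_schur_lead p hp hMprime hpM τ hτ0 hτadd
    (fun r => x * r = r * x) hQ E hER hEE hET hEQ hfix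
  have hsum2 : ∑ r : G, Cfsg.blockCoeff (Cfsg.blockOf M (χ : G → ℂ))
      (g⁻¹⁻¹ * r * g⁻¹ * r⁻¹) = 0 := by
    have e : ∀ r : G, Cfsg.blockCoeff (Cfsg.blockOf M (χ : G → ℂ))
        (g⁻¹⁻¹ * r * g⁻¹ * r⁻¹) = E (τ 1 r) r := by
      intro r
      rw [hE, hτ1, inv_inv]
    rw [Finset.sum_congr rfl (fun r _ => e r)]
    exact hsum
  rw [blockCoeff_twist_sum_lead (Cfsg.blockOf M (χ : G → ℂ)) g⁻¹ g⁻¹] at hsum2
  have hre : ∀ φ : Cfsg.IrrCharacter G, 0 ≤ (if φ ∈ Cfsg.blockOf M (χ : G → ℂ) then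
      (φ : G → ℂ) g⁻¹ * (starRingEnd ℂ) ((φ : G → ℂ) g⁻¹) else 0).re := by
    intro φ
    split_ifs
    · rw [Complex.mul_conj, Complex.ofReal_re]
      exact Complex.normSq_nonneg _
    · simp
  have h0 := congrArg Complex.re hsum2
  rw [Complex.re_sum, Complex.zero_re] at h0
  have h1 := (Finset.sum_eq_zero_iff_of_nonneg (fun φ _ => hre φ)).mp h0 χ (Finset.mem_univ χ)
  rw [if_pos hχB, Complex.mul_conj, Complex.ofReal_re] at h1
  have h3 : (χ : G → ℂ) g⁻¹ = 0 := Complex.normSq_eq_zero.mp h1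
  rw [isCharacter_inv (isCharacter_of_isIrrCharacter χ.2) g] at h3
  have h4 := congrArg (starRingEnd ℂ) h3
  rw [Complex.conj_conj, map_zero] at h4
  exact h4

end Cfsg.Agent.S0924
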