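import Cfsg.Statements.S0925
import Mathlib
import Cfsg.Agent.Lib.Lead.SylowAux2
import Cfsg.Agent.Lib.Lead.BlockOrtho2
import Cfsg.Agent.Lib.Lead.BlockAux2
import Cfsg.Agent.Lib.Lead.BlockKer
import Cfsg.Agent.Lib.Lead.CharRing
import Cfsg.Agent.Lib.Lead.CharCount
import Cfsg.Agent.Lib.Lead.CharOrtho

set_option autoImplicit false
open Cfsg Cfsg.Agent.Lib.Lead

namespace Cfsg.Agent.S0925

open scoped Pointwise commutatorElement

/-- (i) Let ϑ be a class function on the finite group G and x a p-element, and suppose ϑ vanishes at every element whose p-part is conjugate to x. Then for every block B (relative to a maximal ideal M of the algebraic integers containing p) the B-part of ϑ — the sum over χ ∈ B of the inner product of ϑ with χ, times χ — also vanishes at every such element. (ii) Block orthogonality, its corollary: if the p-parts of g and h are not conjugate, then the sum over χ ∈ B of χ g * χ h⁻¹ is zero for every block B. -/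
theorem result {G : Type*} [Group G] [Finite G] (p : ℕ) [Fact p.Prime] (M : Ideal Cfsg.AlgInt) (hM : Cfsg.IsPModular p M) : (∀ (ϑ : G → ℂ), Cfsg.IsClassFunction G ϑ → ∀ x : G, (∃ k : ℕ, orderOf x = p ^ k) → (∀ u z : G, Cfsg.IsPPart p u z → IsConj x z → ϑ u = 0) → ∀ B : Set (Cfsg.IrrCharacter G), Cfsg.IsPBlock M B → ∀ u z : G, Cfsg.IsPPart p u z → IsConj x z → Cfsg.blockPart B ϑ u = 0) ∧ (∀ g h x y : G, Cfsg.IsPPart p g x → Cfsg.IsPPart p h y → ¬ IsConj x y → ∀ B : Set (Cfsg.IrrCharacter G), Cfsg.IsPBlock M B → ∑ᶠ χ ∈ B, (χ : G → ℂ) g * (χ : G → ℂ) h⁻¹ = 0) := by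
  classical
  letI : Fintype G := Fintype.ofFinite G
  haveI : Fintype (Cfsg.IrrCharacter G) := Fintype.ofFinite _
  obtain ⟨hp, hMmax, hpM⟩ := hM
  have hMprime : M.IsPrime := hMmax.isPrime
  have hG0 : (Nat.card G : ℂ) ≠ 0 := by exact_mod_cast Nat.card_pos.ne'
  have hpZ : _root_.Prime (p : ℤ) := Nat.prime_iff_prime_int.mp hp
  -- block orthogonality as a finite sum
  have hii : ∀ g h x y : G, Cfsg.IsPPart p g x → Cfsg.IsPPart p h y → ¬ IsConj x y →
      ∀ χ₀ : Cfsg.IrrCharacter G, ∑ φ : Cfsg.IrrCharacter G,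
        (if φ ∈ Cfsg.blockOf M (χ₀ : G → ℂ) then (φ : G → ℂ) g * (φ : G → ℂ) h⁻¹ else 0) = 0 := by
    intro g h x y hgx hhy hxy χ₀
    obtain ⟨u, hxu, hcxu, ⟨a, hxa⟩, hu⟩ := hgx
    obtain ⟨v, hyv, hcyv, ⟨b, hyb⟩, hv⟩ := hhy
    have hfix : ∀ (i : ℤ) (k : G), g⁻¹ ^ i * k * h ^ i = k → (p : ℤ) ∣ i := by
      intro i k hik
      by_contra hpi
      apply hxy
      have h1 : g ^ i = k * h ^ i * k⁻¹ := by
        rw [inv_zpow] at hik
        have h2 : k * h ^ i = g ^ i * k := by
          have h3 : g ^ i * ((g ^ i)⁻¹ * k * h ^ i) = g ^ i * k := by rw [hik]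
          rw [← h3]
          simp only [mul_assoc, mul_inv_cancel_left]
        rw [h2, mul_inv_cancel_right]
      obtain ⟨N, hN⟩ : ∃ N : ℤ, N = (orderOf u : ℤ) * (orderOf v : ℤ) := ⟨_, rfl⟩
      have huN : u ^ (i * N) = 1 := by
        have e : i * N = (orderOf u : ℤ) * (i * (orderOf v : ℤ)) := by
          rw [hN]
          ring
        rw [e, zpow_mul, zpow_natCast, pow_orderOf_eq_one, one_zpow]
      have hvN : v ^ (i * N) = 1 := by
        have e : i * N = (orderOf v : ℤ) * (i * (orderOf u : ℤ)) := by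
          rw [hN]
          ring
        rw [e, zpow_mul, zpow_natCast, pow_orderOf_eq_one, one_zpow]
      have hgN : g ^ (i * N) = x ^ (i * N) := by
        rw [← hxu, hcxu.mul_zpow, huN, mul_one]
      have hhN : h ^ (i * N) = y ^ (i * N) := by
        rw [← hyv, hcyv.mul_zpow, hvN, mul_one]
      have h4 : x ^ (i * N) = k * y ^ (i * N) * k⁻¹ := by
        rw [← hgN, ← hhN, zpow_mul, zpow_mul, h1, conj_zpow]
      have hpe : ¬ (p : ℤ) ∣ i * N := by
        intro hd
        rcases hpZ.dvd_or_dvd hd with h5 | h5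
        · exact hpi h5
        · rw [hN] at h5
          rcases hpZ.dvd_or_dvd h5 with h6 | h6
          · exact hu (Int.natCast_dvd_natCast.mp h6)
          · exact hv (Int.natCast_dvd_natCast.mp h6)
      have hcop : IsCoprime (i * N) ((p : ℤ) ^ (a + b)) :=
        ((hpZ.coprime_iff_not_dvd.mpr hpe).symm).pow_right
      obtain ⟨j, m, hjm⟩ := hcop
      have hxq : x ^ ((p : ℤ) ^ (a + b)) = 1 := by
        have e : ((p : ℤ) ^ (a + b)) = ((p ^ a : ℕ) : ℤ) * ((p ^ b : ℕ) : ℤ) := by
          rw [Nat.cast_pow, Nat.cast_pow, pow_add]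
        rw [e, ← hxa, zpow_mul, zpow_natCast x (orderOf x), pow_orderOf_eq_one, one_zpow]
      have hyq : y ^ ((p : ℤ) ^ (a + b)) = 1 := by
        have e : ((p : ℤ) ^ (a + b)) = ((p ^ b : ℕ) : ℤ) * ((p ^ a : ℕ) : ℤ) := by
          rw [Nat.cast_pow, Nat.cast_pow, pow_add, mul_comm]
        rw [e, ← hyb, zpow_mul, zpow_natCast y (orderOf y), pow_orderOf_eq_one, one_zpow]
      have e : i * N * j = 1 + (p : ℤ) ^ (a + b) * (-m) := by
        linear_combination hjm
      have hx1 : (x ^ (i * N)) ^ j = x := by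
        rw [← zpow_mul, e, zpow_add, zpow_one, zpow_mul, hxq, one_zpow, mul_one]
      have hy1 : (y ^ (i * N)) ^ j = y := by
        rw [← zpow_mul, e, zpow_add, zpow_one, zpow_mul, hyq, one_zpow, mul_one]
      rw [isConj_iff]
      refine ⟨k⁻¹, ?_⟩
      rw [inv_inv, ← hx1, h4, conj_zpow, hy1]
      simp only [mul_assoc, inv_mul_cancel_left, inv_mul_cancel, mul_one]
    have hcl : Cfsg.IsClassFunction G (Cfsg.blockCoeff (Cfsg.blockOf M (χ₀ : G → ℂ))) :=
      fun g h => blockCoeff_classFun_lead _ g h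
    have h0 := idem_twist_gen_lead p hp hMprime hpM _ hcl
      (fun g => osima_lead p hp M hMprime hpM χ₀ g)
      (fun g => (blockCoeff_conv_lead _ g).symm) g⁻¹ h hfix
    rw [blockCoeff_twist_sum_lead] at h0
    refine Eq.trans ?_ h0
    apply Finset.sum_congr rfl
    intro φ _
    by_cases hφ : φ ∈ Cfsg.blockOf M (χ₀ : G → ℂ)
    · rw [if_pos hφ, if_pos hφ, isCharacter_inv (isCharacter_of_isIrrCharacter φ.2) h]
    · rw [if_neg hφ, if_neg hφ]
  refine ⟨?_, ?_⟩
  · intro ϑ hϑ x hxord hvan B hB u z huz hxz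
    obtain ⟨χ₀, rfl⟩ := hB
    have hpp : ∀ v : G, ∃ zv : G, Cfsg.IsPPart p v zv := by
      intro v
      obtain ⟨e, m, hm, hvm⟩ :=
        Nat.exists_eq_pow_mul_and_not_dvd (n := orderOf v) (orderOf_pos v).ne' p hp.ne_one
      have hcop : IsCoprime ((p : ℤ) ^ e) (m : ℤ) := by
        have h1 : IsCoprime (p : ℤ) (m : ℤ) :=
          hpZ.coprime_iff_not_dvd.mpr (fun h' => hm (Int.natCast_dvd_natCast.mp h'))
        exact h1.pow_left
      obtain ⟨s, t, hst⟩ := hcop
      refine ⟨v ^ (t * (m : ℤ)), v ^ (s * (p : ℤ) ^ e), ?_, ?_, ?_, ?_⟩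
      · rw [← zpow_add, add_comm, hst, zpow_one]
      · exact (Commute.refl v).zpow_zpow _ _
      · have h1 : (v ^ (t * (m : ℤ))) ^ (p ^ e) = 1 := by
          rw [← zpow_natCast, ← zpow_mul]
          have e1 : t * (m : ℤ) * ((p ^ e : ℕ) : ℤ) = (orderOf v : ℤ) * t := by
            rw [hvm]
            push_cast
            ring
          rw [e1, zpow_mul, zpow_natCast, pow_orderOf_eq_one, one_zpow]
        obtain ⟨k, -, hk⟩ := (Nat.dvd_prime_pow hp).mp (orderOf_dvd_of_pow_eq_one h1)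
        exact ⟨k, hk⟩
      · intro hdiv
        have h1 : (v ^ (s * (p : ℤ) ^ e)) ^ m = 1 := by
          rw [← zpow_natCast, ← zpow_mul]
          have e1 : s * (p : ℤ) ^ e * (m : ℤ) = (orderOf v : ℤ) * s := by
            rw [hvm]
            push_cast
            ring
          rw [e1, zpow_mul, zpow_natCast, pow_orderOf_eq_one, one_zpow]
        exact hm (dvd_trans hdiv (orderOf_dvd_of_pow_eq_one h1))
    have hterm : ∀ v : G, ϑ v * ∑ φ : Cfsg.IrrCharacter G,
        (if φ ∈ Cfsg.blockOf M (χ₀ : G → ℂ) then (φ : G → ℂ) u * (φ : G → ℂ) v⁻¹ else 0) = 0 := by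
      intro v
      obtain ⟨zv, hzv⟩ := hpp v
      by_cases hc : IsConj x zv
      · rw [hvan v zv hzv hc, zero_mul]
      · have hne : ¬ IsConj z zv := fun h' => hc (hxz.trans h')
        rw [hii u v z zv huz hzv hne χ₀, mul_zero]
    show (∑ᶠ χ ∈ Cfsg.blockOf M (χ₀ : G → ℂ),
      Cfsg.classInner ϑ (χ : G → ℂ) * (χ : G → ℂ) u) = 0
    rw [finsum_mem_def, finsum_eq_sum_of_fintype]
    calc ∑ φ : Cfsg.IrrCharacter G, Set.indicator (Cfsg.blockOf M (χ₀ : G → ℂ))
          (fun χ => Cfsg.classInner ϑ (χ : G → ℂ) * (χ : G → ℂ) u) φ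
        = ∑ φ : Cfsg.IrrCharacter G, ∑ v : G, (Nat.card G : ℂ)⁻¹ * (ϑ v *
            (if φ ∈ Cfsg.blockOf M (χ₀ : G → ℂ) then
              (φ : G → ℂ) u * (φ : G → ℂ) v⁻¹ else 0)) := by
          apply Finset.sum_congr rfl
          intro φ _
          by_cases hφ : φ ∈ Cfsg.blockOf M (χ₀ : G → ℂ)
          · rw [Set.indicator_of_mem hφ]
            unfold Cfsg.classInner
            rw [Finset.mul_sum, Finset.sum_mul]
            apply Finset.sum_congr rfl
            intro v _
            rw [if_pos hφ, isCharacter_inv (isCharacter_of_isIrrCharacter φ.2) v]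
            ring
          · rw [Set.indicator_of_notMem hφ]
            symm
            apply Finset.sum_eq_zero
            intro v _
            rw [if_neg hφ, mul_zero, mul_zero]
      _ = ∑ v : G, (Nat.card G : ℂ)⁻¹ * (ϑ v * ∑ φ : Cfsg.IrrCharacter G,
            (if φ ∈ Cfsg.blockOf M (χ₀ : G → ℂ) then
              (φ : G → ℂ) u * (φ : G → ℂ) v⁻¹ else 0)) := by
          rw [Finset.sum_comm]
          apply Finset.sum_congr rfl
          intro v _
          rw [Finset.mul_sum, Finset.mul_sum]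
      _ = 0 := by
          apply Finset.sum_eq_zero
          intro v _
          rw [hterm v, mul_zero]
  · intro g h x y hgx hhy hxy B hB
    obtain ⟨χ₀, rfl⟩ := hB
    rw [finsum_mem_def, finsum_eq_sum_of_fintype]
    refine Eq.trans ?_ (hii g h x y hgx hhy hxy χ₀)
    apply Finset.sum_congr rfl
    intro φ _
    by_cases hφ : φ ∈ Cfsg.blockOf M (χ₀ : G → ℂ)
    · rw [Set.indicator_of_mem hφ, if_pos hφ]
    · rw [Set.indicator_of_notMem hφ, if_neg hφ]

end Cfsg.Agent.S0925
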