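import Cfsg.Statements.S0927
import Mathlib
import Cfsg.Agent.Lib.Lead.SylowAux2
import Cfsg.Agent.Lib.Lead.BlockDefCls
import Cfsg.Agent.Lib.Lead.BlockDefCount
import Cfsg.Agent.Lib.Lead.BlockOsima
import Cfsg.Agent.Lib.Lead.BlockAux
import Cfsg.Agent.Lib.Lead.BlockAux2
import Cfsg.Agent.Lib.Lead.BrauerR2
import Cfsg.Agent.Lib.Lead.CharZeros
import Cfsg.Agent.Lib.Lead.CharOrtho

set_option autoImplicit false
open Cfsg Cfsg.Agent.Lib.Lead

namespace Cfsg.Agent.S0927

open scoped Pointwise commutatorElement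

/-- Let B be a block of the finite group G relative to a maximal ideal M of the algebraic integers containing p, let y represent a defect class of B and let P be a Sylow p-subgroup of the centralizer of y. (a) If x ∈ P and χ ∈ B has height zero, then χ (x * y) is not in the local ideal at M. (b) If x lies in the centre of P, then for every χ ∈ B the central character of χ at x * y is not in the local ideal at M. -/
theorem result {G : Type*} [Group G] [Finite G] (p : ℕ) [Fact p.Prime] (M : Ideal Cfsg.AlgInt) (hM : Cfsg.IsPModular p M) (B : Set (Cfsg.IrrCharacter G)) (hB : Cfsg.IsPBlock M B) (y : G) (hy : Cfsg.IsDefectClass M B y) (P : Sylow p (Subgroup.centralizer ({y} : Set G))) (x : Subgroup.centralizer ({y} : Set G)) (hx : x ∈ (P : Subgroup (Subgroup.centralizer ({y} : Set G)))) : (∀ χ ∈ B, Cfsg.blockHeight p B (χ : G → ℂ) = 0 → ¬ Cfsg.MemLocalIdeal M ((χ : G → ℂ) ((x : G) * y))) ∧ ((∀ w ∈ (P : Subgroup (Subgroup.centralizer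 ({y} : Set G))), x * w = w * x) → ∀ χ ∈ B, ¬ Cfsg.MemLocalIdeal M (Cfsg.centralChar (χ : G → ℂ) ((x : G) * y))) := by
  classical
  haveI : Fintype G := Fintype.ofFinite G
  haveI : Fintype (Cfsg.IrrCharacter G) := Fintype.ofFinite _
  obtain ⟨hp, hMmax, hpM⟩ := hM
  have hMprime : M.IsPrime := hMmax.isPrime
  have hMtop : M ≠ ⊤ := hMprime.ne_top
  obtain ⟨χ₀, rfl⟩ := hB
  obtain ⟨δ, e, c', r, hc', hr, hδ, hCcard, her, hGcard, hreg, hinf⟩ :=
    defect_data_lead p hMprime hpM χ₀ y hy P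
  obtain ⟨hgR, hgI, hgω⟩ := hy
  have hnatint : ∀ k : ℕ, IsIntegral ℤ (k : ℂ) := fun k => isIntegral_natCast k
  have hp0 : (p : ℂ) ≠ 0 := by exact_mod_cast hp.ne_zero
  have hc'0 : c' ≠ 0 := by
    rintro rfl
    exact hc' (dvd_zero p)
  have hr0 : r ≠ 0 := by
    rintro rfl
    exact hr (dvd_zero p)
  have hxy : (x : G) * y = y * (x : G) := by
    have h1 := x.2
    rw [Subgroup.mem_centralizer_iff] at h1
    exact (h1 y (Set.mem_singleton y)).symm
  obtain ⟨k, hk⟩ := P.isPGroup' ⟨x, hx⟩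
  have hxk : (x : G) ^ p ^ k = 1 := by
    have h2 := congrArg (fun w : (P : Subgroup (Subgroup.centralizer ({y} : Set G))) =>
      ((w : Subgroup.centralizer ({y} : Set G)) : G)) hk
    simpa using h2
  have hcong : ∀ χ : Cfsg.IrrCharacter G,
      Cfsg.MemLocalIdeal M ((χ : G → ℂ) ((x : G) * y) - (χ : G → ℂ) y) :=
    fun χ => char_mul_pelt_congr_lead p hp hMprime hpM (χ : G → ℂ)
      (isCharacter_of_isIrrCharacter χ.2) (x : G) y hxy k hxk
  have hkey : ∀ χ ∈ Cfsg.blockOf M (χ₀ : G → ℂ),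
      Cfsg.blockHeight p (Cfsg.blockOf M (χ₀ : G → ℂ)) (χ : G → ℂ) = 0 →
      ∃ d' : ℕ, ¬ p ∣ d' ∧ (χ : G → ℂ) 1 = ((p ^ e * d' : ℕ) : ℂ) ∧
        ¬ Cfsg.MemLocalIdeal M ((χ : G → ℂ) ((x : G) * y)) := by
    intro χ hχ h0
    obtain ⟨hd1, hd0⟩ := charDegree_irr χ.2
    have hIχ : e ≤ (Cfsg.charDegree (χ : G → ℂ)).factorization p :=
      centralChar_val_lead p hp hMprime hpM χ y e r her (hgω χ hχ)
    unfold Cfsg.blockHeight at h0
    rw [hinf] at h0
    have hv : (Cfsg.charDegree (χ : G → ℂ)).factorization p = e := by omega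
    obtain ⟨j, d', hd', hdj⟩ := Nat.exists_eq_pow_mul_and_not_dvd hd0 p hp.ne_one
    have hd'0 : d' ≠ 0 := by
      rintro rfl
      exact hd' (dvd_zero p)
    rw [hdj, Nat.factorization_mul (pow_ne_zero _ hp.ne_zero) hd'0, Finsupp.add_apply,
      Nat.Prime.factorization_pow hp, Finsupp.single_eq_same,
      Nat.factorization_eq_zero_of_not_dvd hd', add_zero] at hv
    rw [hv] at hdj
    have hχ1 : (χ : G → ℂ) 1 = ((p ^ e * d' : ℕ) : ℂ) := by rw [hd1, hdj]
    have hcop : Nat.Coprime d' p := ((Nat.Prime.coprime_iff_not_dvd hp).mpr hd').symm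
    have hd'M : ((d' : ℕ) : Cfsg.AlgInt) ∉ M := natCast_not_mem_lead hMtop p d' hcop hpM
    have h1 : Cfsg.MemLocalRing M ((d' : ℂ)⁻¹) := memLocalRing_inv_lead hd'M
    have hχy : ¬ Cfsg.MemLocalIdeal M ((χ : G → ℂ) y) := by
      intro h
      apply hgω χ hχ
      have h2 : Cfsg.MemLocalRing M ((d' : ℂ)⁻¹ * (r : ℂ)) :=
        memLocalRing_mul_lead hMprime h1 (memLocalRing_isIntegral_lead hMtop (hnatint r))
      have h3 := memLocalIdeal_mul_ring_lead hMprime h2 h
      have heq : Cfsg.centralChar (χ : G → ℂ) y =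
          (d' : ℂ)⁻¹ * (r : ℂ) * (χ : G → ℂ) y := by
        unfold Cfsg.centralChar
        rw [hχ1, her]
        have hpe : ((p : ℂ) ^ e)⁻¹ * (p : ℂ) ^ e = 1 := inv_mul_cancel₀ (pow_ne_zero e hp0)
        push_cast
        rw [div_eq_mul_inv]
        linear_combination ((d' : ℂ)⁻¹ * (r : ℂ) * (χ : G → ℂ) y) * hpe
      rw [heq]
      exact h3
    refine ⟨d', hd', hχ1, ?_⟩
    intro h
    apply hχy
    have h4 := memLocalIdeal_sub_lead hMprime h (hcong χ)
    rw [sub_sub_cancel] at h4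
    exact h4
  constructor
  · intro χ hχ h0
    obtain ⟨d', -, -, h⟩ := hkey χ hχ h0
    exact h
  · intro hcent χ hχ
    have hne : ((fun χ : Cfsg.IrrCharacter G =>
        (Cfsg.charDegree (χ : G → ℂ)).factorization p) ''
        Cfsg.blockOf M (χ₀ : G → ℂ)).Nonempty :=
      ⟨_, ⟨χ₀, sameBlock_refl_lead hMtop _, rfl⟩⟩
    obtain ⟨χ₁, hχ₁, hχ₁v⟩ := Nat.sInf_mem hne
    have h0 : Cfsg.blockHeight p (Cfsg.blockOf M (χ₀ : G → ℂ)) (χ₁ : G → ℂ) = 0 := by
      unfold Cfsg.blockHeight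
      have hχ₁v' : (Cfsg.charDegree (χ₁ : G → ℂ)).factorization p =
          sInf ((fun χ : Cfsg.IrrCharacter G =>
            (Cfsg.charDegree (χ : G → ℂ)).factorization p) ''
            Cfsg.blockOf M (χ₀ : G → ℂ)) := hχ₁v
      omega
    obtain ⟨d', hd', hχ1, hnot⟩ := hkey χ₁ hχ₁ h0
    intro hω
    apply hnot
    have hS : Cfsg.SameBlock M (χ₀ : G → ℂ) (χ : G → ℂ) := hχ
    have hS₁ : Cfsg.SameBlock M (χ₀ : G → ℂ) (χ₁ : G → ℂ) := hχ₁
    have hω₀ := memLocalIdeal_add_lead hMprime (hS ((x : G) * y)) hω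
    rw [sub_add_cancel] at hω₀
    have hω₁ := memLocalIdeal_sub_lead hMprime hω₀ (hS₁ ((x : G) * y))
    rw [sub_sub_cancel] at hω₁
    have hcardD : Nat.card ((P : Subgroup (Subgroup.centralizer ({y} : Set G))).map
        (Subgroup.centralizer ({y} : Set G)).subtype) =
        Nat.card (P : Subgroup (Subgroup.centralizer ({y} : Set G))) :=
      Nat.card_congr ((P : Subgroup (Subgroup.centralizer ({y} : Set G))).equivMapOfInjective _
        (Subgroup.subtype_injective _)).toEquiv.symm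
    have hle : (P : Subgroup (Subgroup.centralizer ({y} : Set G))).map
        (Subgroup.centralizer ({y} : Set G)).subtype ≤
        Subgroup.centralizer ({(x : G) * y} : Set G) := by
      intro u hu
      obtain ⟨w, hwP, rfl⟩ := Subgroup.mem_map.mp hu
      have hxw : (x : G) * (w : G) = (w : G) * (x : G) :=
        congrArg Subtype.val (hcent w hwP)
      have hyw : y * (w : G) = (w : G) * y := by
        have h1 := w.2
        rw [Subgroup.mem_centralizer_iff] at h1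
        exact h1 y (Set.mem_singleton y)
      rw [Subgroup.mem_centralizer_iff]
      intro h hh
      rw [Set.mem_singleton_iff] at hh
      rw [hh]
      show (x : G) * y * (w : G) = (w : G) * ((x : G) * y)
      rw [mul_assoc, hyw, ← mul_assoc, hxw, mul_assoc]
    obtain ⟨m, hm⟩ := Subgroup.card_dvd_of_le hle
    rw [hcardD, hδ] at hm
    have hcm : p ^ δ * m * (Subgroup.centralizer ({(x : G) * y} : Set G)).index =
        p ^ δ * c' * (p ^ e * r) := by
      rw [← hm, ← hGcard]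
      exact Subgroup.card_mul_index _
    have hpδ0 : (p : ℂ) ^ δ ≠ 0 := pow_ne_zero δ hp0
    have hpe0 : (p : ℂ) ^ e ≠ 0 := pow_ne_zero e hp0
    have hd'0 : d' ≠ 0 := by
      rintro rfl
      exact hd' (dvd_zero p)
    have hd'C : (d' : ℂ) ≠ 0 := by exact_mod_cast hd'0
    have hcrC : ((c' : ℂ) * (r : ℂ)) ≠ 0 := by
      have h5 : c' * r ≠ 0 := mul_ne_zero hc'0 hr0
      exact_mod_cast h5
    have hC : (p : ℂ) ^ δ * (m : ℂ) *
        ((Subgroup.centralizer ({(x : G) * y} : Set G)).index : ℂ) =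
        (p : ℂ) ^ δ * (c' : ℂ) * ((p : ℂ) ^ e * (r : ℂ)) := by
      exact_mod_cast hcm
    have hIm : ((Subgroup.centralizer ({(x : G) * y} : Set G)).index : ℂ) * (m : ℂ) =
        (c' : ℂ) * (p : ℂ) ^ e * (r : ℂ) := by
      apply mul_left_cancel₀ hpδ0
      linear_combination hC
    have hcinv : ((c' : ℂ) * (r : ℂ))⁻¹ * ((c' : ℂ) * (r : ℂ)) = 1 := inv_mul_cancel₀ hcrC
    have hbinv : ((p : ℂ) ^ e)⁻¹ * (p : ℂ) ^ e = 1 := inv_mul_cancel₀ hpe0
    have hdinv : (d' : ℂ)⁻¹ * (d' : ℂ) = 1 := inv_mul_cancel₀ hd'C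
    have heq : (χ₁ : G → ℂ) ((x : G) * y) = ((c' : ℂ) * (r : ℂ))⁻¹ * ((d' : ℂ) * (m : ℂ)) *
        Cfsg.centralChar (χ₁ : G → ℂ) ((x : G) * y) := by
      unfold Cfsg.centralChar
      rw [hχ1]
      push_cast
      rw [div_eq_mul_inv]
      linear_combination
        (-((χ₁ : G → ℂ) ((x : G) * y))) * hcinv +
        (-(((c' : ℂ) * (r : ℂ))⁻¹ * (c' : ℂ) * (r : ℂ) *
          (χ₁ : G → ℂ) ((x : G) * y))) * hbinv +
        (-(((c' : ℂ) * (r : ℂ))⁻¹ * (χ₁ : G → ℂ) ((x : G) * y) *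
          ((p : ℂ) ^ e)⁻¹)) * hIm +
        (-(((c' : ℂ) * (r : ℂ))⁻¹ * (m : ℂ) *
          ((Subgroup.centralizer ({(x : G) * y} : Set G)).index : ℂ) *
          (χ₁ : G → ℂ) ((x : G) * y) * ((p : ℂ) ^ e)⁻¹)) * hdinv
    rw [heq]
    have hnd : ¬ p ∣ c' * r := fun h => (hp.dvd_mul.mp h).elim hc' hr
    have hcop : Nat.Coprime (c' * r) p := ((Nat.Prime.coprime_iff_not_dvd hp).mpr hnd).symm
    have hcrM : ((c' * r : ℕ) : Cfsg.AlgInt) ∉ M :=
      natCast_not_mem_lead hMtop p (c' * r) hcop hpM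
    have h1 : Cfsg.MemLocalRing M (((c' * r : ℕ) : ℂ)⁻¹) := memLocalRing_inv_lead hcrM
    have h1' : Cfsg.MemLocalRing M (((c' : ℂ) * (r : ℂ))⁻¹) := by
      have e1 : ((c' * r : ℕ) : ℂ) = (c' : ℂ) * (r : ℂ) := Nat.cast_mul c' r
      rw [← e1]
      exact h1
    have h2 : Cfsg.MemLocalRing M ((d' : ℂ) * (m : ℂ)) :=
      memLocalRing_isIntegral_lead hMtop ((hnatint d').mul (hnatint m))
    exact memLocalIdeal_mul_ring_lead hMprime (memLocalRing_mul_lead hMprime h1' h2) hω₁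

end Cfsg.Agent.S0927
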