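import Cfsg.Statements.S0926
import Mathlib
import Cfsg.Agent.Lib.Lead.SylowAux2
import Cfsg.Agent.Lib.Lead.BlockMinMax
import Cfsg.Agent.Lib.Lead.BlockDefCls
import Cfsg.Agent.Lib.Lead.BlockAux
import Cfsg.Agent.Lib.Lead.BlockOsima
import Cfsg.Agent.Lib.Lead.BrauerR2
import Cfsg.Agent.S0924
import Cfsg.Agent.S0927

set_option autoImplicit false
open Cfsg Cfsg.Agent.Lib.Lead

namespace Cfsg.Agent.S0926

open scoped Pointwise commutatorElement

/-- Let B be a block of the finite group G with defect group D (relative to a maximal ideal M of the algebraic integers containing p), let χ ∈ B have height zero, and let x be a p-element. Then some conjugate of x lies in D if and only if χ does not vanish on the whole p-section of x (the elements whose p-part is conjugate to x). -/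
theorem result {G : Type*} [Group G] [Finite G] (p : ℕ) [Fact p.Prime] (M : Ideal Cfsg.AlgInt) (hM : Cfsg.IsPModular p M) (B : Set (Cfsg.IrrCharacter G)) (hB : Cfsg.IsPBlock M B) (D : Subgroup G) (hD : Cfsg.IsDefectGroup p M B D) (χ : Cfsg.IrrCharacter G) (hχ : χ ∈ B) (h0 : Cfsg.blockHeight p B (χ : G → ℂ) = 0) (x : G) (hx : ∃ k : ℕ, orderOf x = p ^ k) : (∃ g : G, g * x * g⁻¹ ∈ D) ↔ ∃ u : G, (∃ z : G, Cfsg.IsPPart p u z ∧ IsConj x z) ∧ (χ : G → ℂ) u ≠ 0 := by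
  classical
  haveI : Fintype G := Fintype.ofFinite G
  haveI : Fintype (Cfsg.IrrCharacter G) := Fintype.ofFinite _
  have hM' := hM
  obtain ⟨hp, hMmax, hpM⟩ := hM
  have hMprime : M.IsPrime := hMmax.isPrime
  have hMtop : M ≠ ⊤ := hMprime.ne_top
  obtain ⟨χ₀, rfl⟩ := hB
  have hχ₀B : χ₀ ∈ Cfsg.blockOf M (χ₀ : G → ℂ) := sameBlock_refl_lead hMtop (χ₀ : G → ℂ)
  have hχ' : Cfsg.SameBlock M (χ₀ : G → ℂ) (χ : G → ℂ) := hχ
  have hBχ : Cfsg.blockOf M (χ : G → ℂ) = Cfsg.blockOf M (χ₀ : G → ℂ) := by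
    ext ψ
    constructor
    · intro h
      have h' : Cfsg.SameBlock M (χ : G → ℂ) (ψ : G → ℂ) := h
      exact sameBlock_trans_lead hMprime hχ' h'
    · intro h
      have h' : Cfsg.SameBlock M (χ₀ : G → ℂ) (ψ : G → ℂ) := h
      exact sameBlock_trans_lead hMprime (sameBlock_symm_lead hχ') h'
  obtain ⟨y₁, hy₁, P₁, hDeq⟩ := hD
  obtain ⟨k, hk⟩ := hx
  constructor
  · rintro ⟨g, hg⟩
    rw [hDeq] at hg
    obtain ⟨xc, hxc, hxceq⟩ := Subgroup.mem_map.mp hg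
    have h1 := (Cfsg.Agent.S0927.result p M hM' (Cfsg.blockOf M (χ₀ : G → ℂ)) ⟨χ₀, rfl⟩ y₁ hy₁
      P₁ xc hxc).1 χ hχ h0
    have hxc' : (xc : G) = g * x * g⁻¹ := hxceq
    refine ⟨(xc : G) * y₁, ⟨(xc : G), ⟨y₁, rfl, ?_, ⟨k, ?_⟩, ?_⟩, ?_⟩, ?_⟩
    · have h2 := xc.2
      rw [Subgroup.mem_centralizer_iff] at h2
      exact (h2 y₁ (Set.mem_singleton y₁)).symm
    · rw [hxc', orderOf_conj_eq, hk]
    · obtain ⟨δ, e, c', r, hc', hr, hδ, hCcard, her, hGcard, hreg, hinf⟩ :=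
        defect_data_lead p hMprime hpM χ₀ y₁ hy₁ P₁
      exact hreg
    · rw [hxc']
      exact isConj_iff.mpr ⟨g, rfl⟩
    · intro h
      apply h1
      rw [h]
      exact memLocalIdeal_zero_lead hMtop
  · rintro ⟨u, ⟨z, hz, hxz⟩, hu⟩
    have hex : ∃ D' : Subgroup G,
        Cfsg.IsDefectGroup p M (Cfsg.blockOf M (χ : G → ℂ)) D' ∧ z ∈ D' := by
      by_contra hcon
      push_neg at hcon
      exact hu (Cfsg.Agent.S0924.result p M hM' χ u z hz hcon)
    obtain ⟨D', hD', hzD'⟩ := hex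
    rw [hBχ] at hD'
    obtain ⟨y₂, hy₂, P₂, hD'eq⟩ := hD'
    rw [hD'eq] at hzD'
    obtain ⟨zc, hzc, hzceq⟩ := Subgroup.mem_map.mp hzD'
    have hzc' : (zc : G) = z := hzceq
    have hzy₂ : Commute z y₂ := by
      have h2 := zc.2
      rw [Subgroup.mem_centralizer_iff] at h2
      rw [← hzc']
      exact (h2 y₂ (Set.mem_singleton y₂)).symm
    obtain ⟨y, hzy, hcomm, ⟨a, ha⟩, hyreg⟩ := hz
    have hPz : IsPGroup p (Subgroup.zpowers z) := by
      apply IsPGroup.of_card (n := a)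
      rw [Nat.card_zpowers, ha]
    have hk1 : ¬ Cfsg.MemLocalIdeal M (Cfsg.centralChar (χ₀ : G → ℂ) y₁) :=
      hy₁.2.2 χ₀ hχ₀B
    have hz2 : ¬ Cfsg.MemLocalIdeal M
        (Cfsg.blockCoeff (Cfsg.blockOf M (χ₀ : G → ℂ)) y₂) := hy₂.2.1
    have hPzc : ∀ d ∈ Subgroup.zpowers z, d * y₂ = y₂ * d := by
      intro d hd
      obtain ⟨m, rfl⟩ := Subgroup.mem_zpowers_iff.mp hd
      exact (hzy₂.zpow_left m).eq
    obtain ⟨y', hy'conj, hy'c⟩ := minmax_key_lead p hp M hMprime hpM χ₀ y₁ y₂ hk1 hz2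
      (Subgroup.zpowers z) hPz hPzc
    obtain ⟨c, hc⟩ := isConj_iff.mp hy'conj
    have h1 := hy'c z (Subgroup.mem_zpowers z)
    have hczc : c * z * c⁻¹ ∈ Subgroup.centralizer ({y₁} : Set G) := by
      rw [Subgroup.mem_centralizer_iff]
      intro w hw
      rw [Set.mem_singleton_iff] at hw
      rw [hw, ← hc]
      have h2 : y' * z = z * y' := by
        calc y' * z = z * y' * z⁻¹ * z := by rw [h1]
          _ = z * y' := by simp only [mul_assoc, inv_mul_cancel, mul_one]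
      calc c * y' * c⁻¹ * (c * z * c⁻¹) = c * (y' * z) * c⁻¹ := by group
        _ = c * (z * y') * c⁻¹ := by rw [h2]
        _ = c * z * c⁻¹ * (c * y' * c⁻¹) := by group
    have hPcz : IsPGroup p (Subgroup.zpowers
        (⟨c * z * c⁻¹, hczc⟩ : Subgroup.centralizer ({y₁} : Set G))) := by
      apply IsPGroup.of_card (n := a)
      rw [Nat.card_zpowers, Subgroup.orderOf_mk, orderOf_conj_eq, ha]
    obtain ⟨w, hw⟩ := sylow_conj_mem P₁ _ hPcz
    have h3 := hw _ (Subgroup.mem_zpowers _)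
    have h3' : (w * ⟨c * z * c⁻¹, hczc⟩ * w⁻¹ : Subgroup.centralizer ({y₁} : Set G)) ∈
        (P₁ : Subgroup (Subgroup.centralizer ({y₁} : Set G))) := h3
    obtain ⟨t, ht⟩ := isConj_iff.mp hxz
    refine ⟨(w : G) * c * t, ?_⟩
    rw [hDeq]
    refine Subgroup.mem_map.mpr ⟨_, h3', ?_⟩
    show (w : G) * (c * z * c⁻¹) * (w : G)⁻¹ = (w : G) * c * t * x * ((w : G) * c * t)⁻¹
    rw [← ht]
    group

end Cfsg.Agent.S0926
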