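import Cfsg.Statements.S0929
import Mathlib
import Cfsg.Agent.Lib.Lead.SylowAux2
import Cfsg.Agent.Lib.Helper4.PCore
import Cfsg.Agent.Lib.Lead.SecondMainAux
import Cfsg.Agent.Lib.Lead.BlockMinMax
import Cfsg.Agent.Lib.Lead.BlockDefect
import Cfsg.Agent.Lib.Lead.BlockAux
import Cfsg.Agent.Lib.Lead.CharComplete
import Cfsg.Agent.S0958
import Cfsg.Agent.S0919
import Cfsg.Agent.S0924
import Cfsg.Agent.S0917
import Cfsg.Agent.S0912
import Cfsg.Agent.S0908
import Cfsg.Agent.S0906

set_option autoImplicit false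
open Cfsg Cfsg.Agent.Lib.Lead

namespace Cfsg.Agent.S0929

open scoped Pointwise commutatorElement

/-- Let B be a block of the finite group G with defect group P (relative to a maximal ideal M of the algebraic integers containing p), and let g be an element at which the central character of some member of B is not in the local ideal at M. Then some conjugate x of g centralizes P and has its p-part in the centre of P. -/
theorem result {G : Type*} [Group G] [Finite G] (p : ℕ) [Fact p.Prime] (M : Ideal Cfsg.AlgInt) (hM : Cfsg.IsPModular p M) (B : Set (Cfsg.IrrCharacter G)) (hB : Cfsg.IsPBlock M B) (P : Subgroup G) (hP : Cfsg.IsDefectGroup p M B P) (g : G) (hg : ∃ χ ∈ B, ¬ Cfsg.MemLocalIdeal M (Cfsg.centralChar (χ : G → ℂ) g)) : ∃ x : G, IsConj g x ∧ x ∈ Subgroup.centralizer (P : Set G) ∧ ∀ z : G, Cfsg.IsPPart p x z → z ∈ P ∧ ∀ w ∈ P, z * w = w * z := by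
  classical
  haveI : Fintype G := Fintype.ofFinite G
  have hM' := hM
  obtain ⟨hp, hMmax, hpM⟩ := hM'
  have hMprime : M.IsPrime := hMmax.isPrime
  have hMtop : M ≠ ⊤ := hMprime.ne_top
  obtain ⟨N, hN⟩ : ∃ N : Subgroup G, N = Subgroup.normalizer (P : Set G) := ⟨_, rfl⟩
  haveI : Fintype N := Fintype.ofFinite N
  have hP' := hP
  obtain ⟨g₀, hg₀, Q₀, hPQ⟩ := hP'
  have hPp : IsPGroup p P := by
    rw [hPQ]
    exact Q₀.isPGroup'.map _
  have hPN : P ≤ N := by
    rw [hN]
    exact Subgroup.le_normalizer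
  have hCN : Subgroup.centralizer (P : Set G) ≤ N := by
    rw [hN]
    exact Subgroup.centralizer_le_normalizer _
  have hNN : N ≤ Subgroup.normalizer (P : Set G) := le_of_eq hN
  have hex : ∃ D' : Subgroup G, Cfsg.IsDefectGroup p M B D' ∧
      ∃ x : G, P.map (MulAut.conj x).toMonoidHom ≤ D' := by
    refine ⟨P, hP, 1, ?_⟩
    intro w hw
    obtain ⟨w', hw', rfl⟩ := Subgroup.mem_map.mp hw
    have e1 : (MulAut.conj (1 : G)).toMonoidHom w' = w' := by
      show (1 : G) * w' * (1 : G)⁻¹ = w'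
      rw [one_mul, inv_one, mul_one]
    rw [e1]
    exact hw'
  obtain ⟨b, hind⟩ :=
    (Cfsg.Agent.S0958.result p M hM P N hPp (sup_le hPN hCN) hNN B hB).mpr hex
  obtain ⟨ξ, hbξ⟩ := hind.1
  rw [hbξ] at hind
  have hξb : ξ ∈ Cfsg.blockOf M (ξ : N → ℂ) := sameBlock_refl_lead hMtop (ξ : N → ℂ)
  obtain ⟨χ, hχB, hχg⟩ := hg
  have hcong := hind.2.2 ξ hξb χ hχB g
  have hindg : ¬ Cfsg.MemLocalIdeal M (Cfsg.inducedCentralChar N (ξ : N → ℂ) g) := by
    intro h
    apply hχg
    have e : Cfsg.centralChar (χ : G → ℂ) g = Cfsg.inducedCentralChar N (ξ : N → ℂ) g -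
        (Cfsg.inducedCentralChar N (ξ : N → ℂ) g - Cfsg.centralChar (χ : G → ℂ) g) := by ring
    rw [e]
    exact memLocalIdeal_sub_lead hMprime h hcong
  have hmemS : ∀ a : N, a ∈ {h : N | IsConj g (h : G)} ↔ IsConj g (a : G) := fun a => Iff.rfl
  have hm : ∃ m : N, IsConj g (m : G) ∧
      ¬ Cfsg.MemLocalIdeal M (Cfsg.centralChar (ξ : N → ℂ) m) := by
    by_contra hcon
    apply hindg
    rw [inducedCentralChar_sum_lead]
    have hf : ∀ a t : N,
        Set.indicator {h : N | IsConj g (h : G)} (fun _ => (1 : ℂ)) (t * a * t⁻¹) =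
        Set.indicator {h : N | IsConj g (h : G)} (fun _ => (1 : ℂ)) a := by
      intro a t
      have h1 : IsConj (a : G) ((t * a * t⁻¹ : N) : G) := isConj_iff.mpr ⟨(t : G), rfl⟩
      by_cases ha : IsConj g (a : G)
      · rw [Set.indicator_of_mem ((hmemS a).mpr ha),
          Set.indicator_of_mem ((hmemS _).mpr (ha.trans h1))]
      · rw [Set.indicator_of_notMem (fun h => ha ((hmemS a).mp h)),
          Set.indicator_of_notMem (fun h => ha (((hmemS _).mp h).trans h1.symm))]
    have hall : ∀ m : N, Cfsg.MemLocalIdeal M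
        (Set.indicator {h : N | IsConj g (h : G)} (fun _ => (1 : ℂ)) m *
          Cfsg.centralChar (ξ : N → ℂ) m) := by
      intro m
      by_cases hmc : IsConj g (m : G)
      · rw [Set.indicator_of_mem ((hmemS m).mpr hmc), one_mul]
        by_contra hh
        exact hcon ⟨m, hmc, hh⟩
      · rw [Set.indicator_of_notMem (fun h => hmc ((hmemS m).mp h)), zero_mul]
        exact memLocalIdeal_zero_lead hMtop
    have key := Cfsg.Agent.S0919.om_J_aux hMprime ξ
      (Set.indicator {h : N | IsConj g (h : G)} (fun _ => (1 : ℂ))) hf hall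
    have e : ∑ m : N, Set.indicator {h : N | IsConj g (h : G)}
          (fun h => (ξ : N → ℂ) h / (ξ : N → ℂ) 1) m =
        ∑ m : N, Set.indicator {h : N | IsConj g (h : G)} (fun _ => (1 : ℂ)) m *
          ((ξ : N → ℂ) m / (ξ : N → ℂ) 1) := by
      refine Finset.sum_congr rfl (fun m _ => ?_)
      by_cases hmc : IsConj g (m : G)
      · rw [Set.indicator_of_mem ((hmemS m).mpr hmc),
          Set.indicator_of_mem ((hmemS m).mpr hmc), one_mul]
      · rw [Set.indicator_of_notMem (fun h => hmc ((hmemS m).mp h)),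
          Set.indicator_of_notMem (fun h => hmc ((hmemS m).mp h)), zero_mul]
    rw [e]
    exact key
  obtain ⟨m, hmg, hmω⟩ := hm
  obtain ⟨zb, hzb⟩ := exists_defectClass_lead p hp M hMprime hpM ξ
  obtain ⟨Qb⟩ : Nonempty (Sylow p (Subgroup.centralizer ({zb} : Set N))) := inferInstance
  have hDb : Cfsg.IsDefectGroup p M (Cfsg.blockOf M (ξ : N → ℂ))
      ((Qb : Subgroup (Subgroup.centralizer ({zb} : Set N))).map
        (Subgroup.centralizer ({zb} : Set N)).subtype) := ⟨zb, hzb, Qb, rfl⟩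
  have hbN : Cfsg.IsPBlock M (Cfsg.blockOf M (ξ : N → ℂ)) := ⟨ξ, rfl⟩
  have hPn : (P.subgroupOf N).Normal := by
    constructor
    intro n hn t
    rw [Subgroup.mem_subgroupOf] at hn ⊢
    exact (Subgroup.mem_set_normalizer_iff.mp (hNN t.2) (n : G)).mp hn
  have hle : P.subgroupOf N ≤ Cfsg.pCore p N :=
    Cfsg.Agent.Lib.Helper4.le_pCore hPn hPp.comap_subtype
  have hcoreb := Cfsg.Agent.S0912.result p M hM (Cfsg.blockOf M (ξ : N → ℂ)) hbN _ hDb
  have hPzb : ∀ d ∈ P.subgroupOf N, d * zb = zb * d := by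
    intro d hd
    have h1 := hcoreb (hle hd)
    obtain ⟨q, hq, hqe⟩ := Subgroup.mem_map.mp h1
    have h2 : zb * (q : N) = (q : N) * zb :=
      (Subgroup.mem_centralizer_iff.mp q.2) zb (Set.mem_singleton zb)
    have h3 : (q : N) = d := hqe
    rw [h3] at h2
    exact h2.symm
  obtain ⟨xN, hxconj, hxfix⟩ := minmax_key_lead p hp M hMprime hpM ξ m zb hmω hzb.2.1
    (P.subgroupOf N) hPp.comap_subtype hPzb
  have hxc : ∀ w ∈ P, w * (xN : G) = (xN : G) * w := by
    intro w hw
    have hwN : w ∈ N := hPN hw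
    have h1 := hxfix ⟨w, hwN⟩ (by rw [Subgroup.mem_subgroupOf]; exact hw)
    have h2 := congrArg (fun t : N => (t : G)) h1
    have h3 : w * (xN : G) * w⁻¹ = (xN : G) := h2
    calc w * (xN : G) = w * (xN : G) * w⁻¹ * w := by
          simp only [mul_assoc, inv_mul_cancel, mul_one]
      _ = (xN : G) * w := by rw [h3]
  have hgx : IsConj g (xN : G) := by
    obtain ⟨c, hc⟩ := isConj_iff.mp hxconj
    have h1 : IsConj (xN : G) (m : G) :=
      isConj_iff.mpr ⟨(c : G), congrArg (fun t : N => (t : G)) hc⟩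
    exact hmg.trans h1.symm
  refine ⟨(xN : G), hgx, ?_, ?_⟩
  · rw [Subgroup.mem_centralizer_iff]
    intro w hw
    exact hxc w hw
  · intro z hz
    have hzP : ∀ w ∈ P, z * w = w * z := by
      intro w hw
      have h1 : Commute ((xN : G) ^ (1 : ℤ)) w := by
        rw [zpow_one]
        exact (hxc w hw).symm
      have hp1 : ¬ (p : ℤ) ∣ 1 := by
        intro h
        have h2 : p ∣ 1 := by exact_mod_cast h
        exact hp.one_lt.ne' (Nat.dvd_one.mp h2)
      exact (ppart_commute_lead p hp (xN : G) z hz 1 hp1 w h1).eq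
    refine ⟨?_, hzP⟩
    have hzN : z ∈ N := hCN (by
      rw [Subgroup.mem_centralizer_iff]
      intro w hw
      exact (hzP w hw).symm)
    obtain ⟨y, hzy, hzycomm, hzord, hyord⟩ := hz
    have hyN : y ∈ N := by
      have e : y = z⁻¹ * (xN : G) := by
        rw [← hzy, inv_mul_cancel_left]
      rw [e]
      exact N.mul_mem (N.inv_mem hzN) xN.2
    have hzPN : Cfsg.IsPPart p xN (⟨z, hzN⟩ : N) := by
      unfold Cfsg.IsPPart
      refine ⟨⟨y, hyN⟩, Subtype.ext hzy, ?_, ?_, ?_⟩
      · show (⟨z, hzN⟩ : N) * ⟨y, hyN⟩ = ⟨y, hyN⟩ * ⟨z, hzN⟩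
        exact Subtype.ext hzycomm.eq
      · obtain ⟨k, hk⟩ := hzord
        exact ⟨k, by rw [Subgroup.orderOf_mk]; exact hk⟩
      · rw [Subgroup.orderOf_mk]
        exact hyord
    have hξx : (ξ : N → ℂ) xN ≠ 0 := by
      intro h0
      apply hmω
      obtain ⟨c, hc⟩ := isConj_iff.mp hxconj
      have h1 : (ξ : N → ℂ) m = 0 := by
        rw [← hc, isClassFunction_of_irr ξ.2 xN c]
        exact h0
      unfold Cfsg.centralChar
      rw [h1, mul_zero, zero_div]
      exact memLocalIdeal_zero_lead hMtop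
    have hexD : ∃ D' : Subgroup N, Cfsg.IsDefectGroup p M (Cfsg.blockOf M (ξ : N → ℂ)) D' ∧
        (⟨z, hzN⟩ : N) ∈ D' := by
      by_contra hcon
      apply hξx
      refine Cfsg.Agent.S0924.result p M hM ξ xN ⟨z, hzN⟩ hzPN ?_
      intro D' hD' hmem
      exact hcon ⟨D', hD', hmem⟩
    obtain ⟨D', hD', hzD'⟩ := hexD
    obtain ⟨E, hE, hDE⟩ := Cfsg.Agent.S0917.result p M hM N (Cfsg.blockOf M (ξ : N → ℂ)) hbN
      B hB hind D' hD'
    have hcardE := Cfsg.Agent.S0908.result p M hM B hB E hE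
    have hcardP := Cfsg.Agent.S0908.result p M hM B hB P hP
    have hcoreD' := Cfsg.Agent.S0912.result p M hM (Cfsg.blockOf M (ξ : N → ℂ)) hbN D' hD'
    have hPE : P ≤ E := by
      intro w hw
      apply hDE
      have hwN : w ∈ N := hPN hw
      exact Subgroup.mem_map.mpr
        ⟨⟨w, hwN⟩, hcoreD' (hle (by rw [Subgroup.mem_subgroupOf]; exact hw)), rfl⟩
    have hPE' : P = E :=
      Subgroup.eq_of_le_of_card_ge hPE (le_of_eq (by rw [hcardE, hcardP]))
    rw [hPE']
    apply hDE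
    exact Subgroup.mem_map.mpr ⟨⟨z, hzN⟩, hzD', rfl⟩

end Cfsg.Agent.S0929
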