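import Cfsg.Statements.S0931
import Mathlib
import Cfsg.Agent.Lib.Lead.SylowAux2
import Cfsg.Agent.Lib.Lead.BlockInd
import Cfsg.Agent.Lib.Lead.BlockDefCls
import Cfsg.Agent.Lib.Lead.BlockDefCount
import Cfsg.Agent.Lib.Lead.BlockDefect
import Cfsg.Agent.Lib.Lead.BlockOsima2
import Cfsg.Agent.Lib.Helper7.DefZero
import Cfsg.Agent.S0927
import Cfsg.Agent.Lib.Lead.BlockAux
import Cfsg.Agent.Lib.Lead.BrauerR2
import Cfsg.Agent.Lib.Lead.CharComplete
import Cfsg.Agent.Lib.Lead.CharZeros

set_option autoImplicit false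
open Cfsg Cfsg.Agent.Lib.Lead

namespace Cfsg.Agent.S0931

open scoped Pointwise commutatorElement

/-- Let H be a subgroup of the finite group G and fix a maximal ideal M of the algebraic integers containing the prime p. If the block b of H induces the block B of G, then b has defect 0 if and only if B has defect 0. -/
theorem result {G : Type*} [Group G] [Finite G] (p : ℕ) [Fact p.Prime] (M : Ideal Cfsg.AlgInt) (hM : Cfsg.IsPModular p M) (H : Subgroup G) (b : Set (Cfsg.IrrCharacter H)) (B : Set (Cfsg.IrrCharacter G)) (hind : Cfsg.IsInducedBlock M H b B) : Cfsg.blockDefect p b = 0 ↔ Cfsg.blockDefect p B = 0 := by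
  classical
  haveI : Fintype G := Fintype.ofFinite G
  haveI : Fintype H := Fintype.ofFinite H
  haveI : Fintype (Cfsg.IrrCharacter G) := Fintype.ofFinite _
  have hM' := hM
  obtain ⟨hp, hMmax, hpM⟩ := hM
  have hMprime : M.IsPrime := hMmax.isPrime
  have hMtop : M ≠ ⊤ := hMprime.ne_top
  obtain ⟨hb, hB, hcong⟩ := hind
  obtain ⟨ξ₀, rfl⟩ := hb
  obtain ⟨χ₀, rfl⟩ := hB
  have hξ₀b : ξ₀ ∈ Cfsg.blockOf M (ξ₀ : H → ℂ) := sameBlock_refl_lead hMtop _
  have hχ₀B : χ₀ ∈ Cfsg.blockOf M (χ₀ : G → ℂ) := sameBlock_refl_lead hMtop _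
  have hc := hcong ξ₀ hξ₀b χ₀ hχ₀B
  have hdefB : ∀ (g : G), Cfsg.IsDefectClass M (Cfsg.blockOf M (χ₀ : G → ℂ)) g →
      ∀ P : Sylow p (Subgroup.centralizer ({g} : Set G)),
      ∃ δ c' : ℕ, ¬ p ∣ c' ∧
        Nat.card (P : Subgroup (Subgroup.centralizer ({g} : Set G))) = p ^ δ ∧
        Nat.card (Subgroup.centralizer ({g} : Set G)) = p ^ δ * c' ∧ ¬ p ∣ orderOf g ∧
        Cfsg.blockDefect p (Cfsg.blockOf M (χ₀ : G → ℂ)) = δ := by
    intro g hg P
    obtain ⟨δ, e, c', r, hc', hr, hδ, hCcard, her, hGcard, hreg, hinf⟩ :=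
      defect_data_lead p hMprime hpM χ₀ g hg P
    have hc'0 : c' ≠ 0 := by
      rintro rfl
      exact hc' (dvd_zero p)
    have hr0 : r ≠ 0 := by
      rintro rfl
      exact hr (dvd_zero p)
    have hnd : ¬ p ∣ c' * r := fun h => (hp.dvd_mul.mp h).elim hc' hr
    have hfac : (Nat.card G).factorization p = δ + e := by
      have h1 : Nat.card G = p ^ (δ + e) * (c' * r) := by
        rw [hGcard, pow_add]
        ring
      rw [h1, Nat.factorization_mul (pow_ne_zero _ hp.ne_zero) (mul_ne_zero hc'0 hr0),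
        Finsupp.add_apply, Nat.Prime.factorization_pow hp, Finsupp.single_eq_same,
        Nat.factorization_eq_zero_of_not_dvd hnd, add_zero]
    refine ⟨δ, c', hc', hδ, hCcard, hreg, ?_⟩
    unfold Cfsg.blockDefect
    rw [hinf, hfac]
    omega
  constructor
  · intro hb0
    obtain ⟨y, hy⟩ := exists_defectClass_lead p hp M hMprime hpM χ₀
    obtain ⟨P⟩ : Nonempty (Sylow p (Subgroup.centralizer ({y} : Set G))) := inferInstance
    obtain ⟨δ, c', hc', hδ, hCcard, hreg, hdef⟩ := hdefB y hy P
    rw [hdef]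
    by_contra hδ0
    haveI : Fintype (P : Subgroup (Subgroup.centralizer ({y} : Set G))) := Fintype.ofFinite _
    haveI : Nontrivial (P : Subgroup (Subgroup.centralizer ({y} : Set G))) := by
      apply Fintype.one_lt_card_iff_nontrivial.mp
      rw [← Nat.card_eq_fintype_card, hδ]
      exact one_lt_pow₀ hp.one_lt hδ0
    haveI : Nontrivial (Subgroup.center (P : Subgroup (Subgroup.centralizer ({y} : Set G)))) :=
      IsPGroup.center_nontrivial P.isPGroup'
    have hexx : ∃ x : Subgroup.centralizer ({y} : Set G),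
        x ∈ (P : Subgroup (Subgroup.centralizer ({y} : Set G))) ∧ (x : G) ≠ 1 ∧
        ∀ w ∈ (P : Subgroup (Subgroup.centralizer ({y} : Set G))), x * w = w * x := by
      obtain ⟨z, hz1⟩ := exists_ne
        (1 : Subgroup.center (P : Subgroup (Subgroup.centralizer ({y} : Set G))))
      refine ⟨((z : (P : Subgroup (Subgroup.centralizer ({y} : Set G)))) :
        Subgroup.centralizer ({y} : Set G)),
        (z : (P : Subgroup (Subgroup.centralizer ({y} : Set G)))).2, ?_, ?_⟩
      · intro h
        apply hz1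
        apply Subtype.ext
        apply Subtype.ext
        apply Subtype.ext
        exact h
      · intro w hw
        have h1 := Subgroup.mem_center_iff.mp z.2 ⟨w, hw⟩
        exact (congrArg Subtype.val h1).symm
    obtain ⟨x, hx, hx1, hcentral⟩ := hexx
    obtain ⟨k, hk⟩ := P.isPGroup' ⟨x, hx⟩
    have hcomm : Commute (x : G) y := by
      have h1 := x.2
      rw [Subgroup.mem_centralizer_iff] at h1
      exact (h1 y (Set.mem_singleton y)).symm
    have hxpow : (x : G) ^ p ^ k = 1 := by
      have h2 := congrArg (fun w : (P : Subgroup (Subgroup.centralizer ({y} : Set G))) =>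
        ((w : Subgroup.centralizer ({y} : Set G)) : G)) hk
      simpa using h2
    have hdiv : orderOf (x : G) ∣ p ^ k := orderOf_dvd_of_pow_eq_one hxpow
    obtain ⟨m, -, hm⟩ := (Nat.dvd_prime_pow hp).mp hdiv
    have hm0 : m ≠ 0 := by
      rintro rfl
      rw [pow_zero, orderOf_eq_one_iff] at hm
      exact hx1 hm
    have hpo : p ∣ orderOf (x : G) := by
      rw [hm]
      exact dvd_pow_self p hm0
    have hcop : (orderOf (x : G)).Coprime (orderOf y) := by
      rw [hm]
      exact Nat.Coprime.pow_left m ((Nat.Prime.coprime_iff_not_dvd hp).mpr hreg)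
    have hpsing : p ∣ orderOf ((x : G) * y) := by
      rw [hcomm.orderOf_mul_eq_mul_orderOf_of_coprime hcop]
      exact Dvd.dvd.mul_right hpo _
    obtain ⟨hd1, hd0⟩ := charDegree_irr ξ₀.2
    have hdvd : p ^ (Nat.card H).factorization p ∣ Cfsg.charDegree (ξ₀ : H → ℂ) := by
      rw [Nat.Prime.pow_dvd_iff_le_factorization hp hd0]
      unfold Cfsg.blockDefect at hb0
      have h1 : sInf ((fun χ : Cfsg.IrrCharacter H =>
          (Cfsg.charDegree (χ : H → ℂ)).factorization p) '' Cfsg.blockOf M (ξ₀ : H → ℂ)) ≤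
          (Cfsg.charDegree (ξ₀ : H → ℂ)).factorization p := Nat.sInf_le ⟨ξ₀, hξ₀b, rfl⟩
      omega
    have hzero : Cfsg.inducedCentralChar H (ξ₀ : H → ℂ) ((x : G) * y) = 0 := by
      apply inducedCentralChar_zero_lead
      intro a hconj
      obtain ⟨t, ht⟩ := isConj_iff.mp hconj
      have ho : orderOf (a : G) = orderOf ((x : G) * y) := by
        rw [← ht]
        exact orderOf_injective (MulAut.conj t).toMonoidHom (MulAut.conj t).injective
          ((x : G) * y)
      have ha : p ∣ orderOf a := by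
        rw [← Subgroup.orderOf_coe, ho]
        exact hpsing
      exact Cfsg.Agent.Lib.Helper7.defect_zero_vanish p hp ξ₀.2 _ hd1 hdvd a ha
    have hω := (Cfsg.Agent.S0927.result p M hM' (Cfsg.blockOf M (χ₀ : G → ℂ)) ⟨χ₀, rfl⟩ y hy P
      x hx).2 hcentral χ₀ hχ₀B
    apply hω
    have h5 := hc ((x : G) * y)
    rw [hzero, zero_sub] at h5
    have h6 := memLocalIdeal_neg_lead h5
    rw [neg_neg] at h6
    exact h6
  · intro hB0
    obtain ⟨y, hy⟩ := exists_defectClass_lead p hp M hMprime hpM χ₀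
    have hωy : ¬ Cfsg.MemLocalIdeal M (Cfsg.centralChar (χ₀ : G → ℂ) y) := hy.2.2 χ₀ hχ₀B
    have hlam : ¬ Cfsg.MemLocalIdeal M (Cfsg.inducedCentralChar H (ξ₀ : H → ℂ) y) := by
      intro h
      apply hωy
      have h4 := memLocalIdeal_sub_lead hMprime h (hc y)
      rw [sub_sub_cancel] at h4
      exact h4
    have hex : ∃ a : H, IsConj y (a : G) ∧
        ¬ Cfsg.MemLocalIdeal M (Cfsg.centralChar (ξ₀ : H → ℂ) a) := by
      by_contra hcon
      push_neg at hcon
      exact hlam (inducedCentralChar_mem_lead hMprime H (ξ₀ : H → ℂ)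
        (isClassFunction_of_irr ξ₀.2) y hcon)
    obtain ⟨a, hconj, hωa⟩ := hex
    obtain ⟨t, ht⟩ := isConj_iff.mp hconj
    have hy' : Cfsg.IsDefectClass M (Cfsg.blockOf M (χ₀ : G → ℂ)) (a : G) := by
      have h1 := isDefectClass_conj_lead hy t
      rw [ht] at h1
      exact h1
    obtain ⟨P⟩ : Nonempty (Sylow p (Subgroup.centralizer ({(a : G)} : Set G))) := inferInstance
    obtain ⟨δ, c', hc', hδ, hCcard, hreg, hdef⟩ := hdefB (a : G) hy' P
    rw [hB0] at hdef
    have hle := blockDefect_le_of_centralChar_lead p hp hMprime hpM ξ₀ a hωa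
    have hcardmap : Nat.card ((Subgroup.centralizer ({a} : Set H)).map H.subtype) =
        Nat.card (Subgroup.centralizer ({a} : Set H)) :=
      Nat.card_congr ((Subgroup.centralizer ({a} : Set H)).equivMapOfInjective _
        (Subgroup.subtype_injective _)).toEquiv.symm
    have hsub : (Subgroup.centralizer ({a} : Set H)).map H.subtype ≤
        Subgroup.centralizer ({(a : G)} : Set G) := by
      intro u hu
      obtain ⟨w, hw, rfl⟩ := Subgroup.mem_map.mp hu
      rw [Subgroup.mem_centralizer_iff] at hw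
      rw [Subgroup.mem_centralizer_iff]
      intro k hk
      rw [Set.mem_singleton_iff] at hk
      rw [hk]
      exact congrArg Subtype.val (hw a (Set.mem_singleton a))
    have hdvd := Subgroup.card_dvd_of_le hsub
    rw [hcardmap, hCcard, ← hdef, pow_zero, one_mul] at hdvd
    have hnp : ¬ p ∣ Nat.card (Subgroup.centralizer ({a} : Set H)) :=
      fun h => hc' (dvd_trans h hdvd)
    rw [Nat.factorization_eq_zero_of_not_dvd hnp] at hle
    exact Nat.le_zero.mp hle

end Cfsg.Agent.S0931
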