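import Cfsg.Statements.S0932
import Mathlib
import Cfsg.Agent.Lib.Lead.CharMisc
import Cfsg.Agent.Lib.Lead.CharInd


set_option autoImplicit false
open Cfsg

namespace Cfsg.Agent.S0932

theorem cc_eq {G : Type*} [Group G] (a x : G) [Decidable (IsConj a x)] :
    Cfsg.Agent.Lib.Lead.conjCount a x =
    if IsConj a x then (Nat.card (Subgroup.centralizer ({a} : Set G)) : ℂ) else 0 := by
  by_cases h : IsConj a x
  · rw [if_pos h]
    obtain ⟨z, hz⟩ := isConj_iff.mp h
    rw [← hz, Cfsg.Agent.Lib.Lead.conjCount_classFun a a z]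
    exact Cfsg.Agent.Lib.Lead.conjCount_apply_of_isConj (IsConj.refl a)
  · rw [if_neg h]
    exact Cfsg.Agent.Lib.Lead.conjCount_apply_of_not_isConj (fun h' => h h'.symm)

/-- Let H be a subgroup of the finite group G and ξ a character of H. For every g ∈ G, the sum of ξ h / ξ 1 over the elements h ∈ H that are conjugate in G to g equals the central character at g of the character of G induced from ξ (class size times value divided by degree). -/
theorem result {G : Type*} [Group G] [Fintype G] (H : Subgroup G) (ξ : H → ℂ) (hξ : Cfsg.IsCharacter H ξ) (g : G) : Cfsg.inducedCentralChar H ξ g = Cfsg.centralChar (Cfsg.indFun H ξ) g := by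
  classical
  haveI : Fintype H := Fintype.ofFinite H
  have hG : (Nat.card G : ℂ) ≠ 0 := by exact_mod_cast Nat.card_pos.ne'
  have hH : (Nat.card H : ℂ) ≠ 0 := by exact_mod_cast Nat.card_pos.ne'
  obtain ⟨cg, hcg⟩ : ∃ cg : ℂ, cg = (Nat.card (Subgroup.centralizer ({g} : Set G)) : ℂ) := ⟨_, rfl⟩
  have hcg0 : cg ≠ 0 := by rw [hcg]; exact_mod_cast Nat.card_pos.ne'
  obtain ⟨S, hS⟩ : ∃ S : ℂ, S = ∑ h : H, if IsConj g (h : G) then ξ h else 0 := ⟨_, rfl⟩
  have hsum : ∑ x : G, Cfsg.extendByZero H ξ (x⁻¹ * g * x) = cg * S := by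
    have h1 := Cfsg.Agent.Lib.Lead.sum_card_fiber_mul (fun x : G => x⁻¹ * g * x)
      (Cfsg.extendByZero H ξ)
    rw [← h1]
    have h2 : ∀ y : G, (Nat.card {s : G // s⁻¹ * g * s = y} : ℂ) =
        if IsConj g y then cg else 0 := by
      intro y
      rw [hcg, ← cc_eq g y]
      unfold Cfsg.Agent.Lib.Lead.conjCount
      congr 1
      apply Nat.card_congr
      exact (Equiv.inv G).subtypeEquiv (fun s => by
        show s⁻¹ * g * s = y ↔ s⁻¹ * g * (s⁻¹)⁻¹ = y
        rw [inv_inv])
    have h3 := Cfsg.Agent.Lib.Lead.sum_extendByZero H ξ (fun y => if IsConj g y then (1 : ℂ) else 0)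
    have h4 : ∑ y : G, (Nat.card {s : G // s⁻¹ * g * s = y} : ℂ) * Cfsg.extendByZero H ξ y =
        cg * ∑ y : G, Cfsg.extendByZero H ξ y * (if IsConj g y then (1 : ℂ) else 0) := by
      rw [Finset.mul_sum]
      apply Finset.sum_congr rfl
      intro y _
      rw [h2 y]
      by_cases hy : IsConj g y
      · rw [if_pos hy, if_pos hy]; ring
      · rw [if_neg hy, if_neg hy]; ring
    rw [h4, h3, hS]
    congr 1
    apply Finset.sum_congr rfl
    intro h _
    by_cases hy : IsConj g (h : G)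
    · rw [if_pos hy, if_pos hy, mul_one]
    · rw [if_neg hy, if_neg hy, mul_zero]
  have hone : Cfsg.indFun H ξ 1 = (Nat.card H : ℂ)⁻¹ * ((Nat.card G : ℂ) * ξ 1) := by
    unfold Cfsg.indFun
    congr 1
    have : ∀ x : G, Cfsg.extendByZero H ξ (x⁻¹ * 1 * x) = ξ 1 := by
      intro x
      have e : x⁻¹ * 1 * x = (1 : G) := by group
      rw [e, Cfsg.Agent.Lib.Lead.extendByZero_mem H ξ H.one_mem]
      rfl
    rw [Finset.sum_congr rfl (fun x _ => this x), Finset.sum_const, Finset.card_univ,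
      nsmul_eq_mul, Nat.card_eq_fintype_card]
  have hg : Cfsg.indFun H ξ g = (Nat.card H : ℂ)⁻¹ * (cg * S) := by
    unfold Cfsg.indFun
    rw [hsum]
  have hidx : ((Subgroup.centralizer ({g} : Set G)).index : ℂ) * cg = (Nat.card G : ℂ) := by
    rw [hcg, ← Nat.cast_mul, Subgroup.index_mul_card]
  have hL : Cfsg.inducedCentralChar H ξ g = S / ξ 1 := by
    unfold Cfsg.inducedCentralChar
    rw [finsum_mem_def, finsum_eq_sum_of_fintype, hS, Finset.sum_div]
    apply Finset.sum_congr rfl
    intro h _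
    rw [Set.indicator_apply]
    by_cases hy : IsConj g (h : G)
    · rw [if_pos hy, if_pos (show h ∈ {h : H | IsConj g (h : G)} from hy)]
    · rw [if_neg hy, if_neg (show h ∉ {h : H | IsConj g (h : G)} from hy), zero_div]
  rw [hL]
  unfold Cfsg.centralChar
  rw [hg, hone]
  by_cases h1 : ξ 1 = 0
  · rw [h1]; simp
  · rw [← hidx]
    have hi0 : ((Subgroup.centralizer ({g} : Set G)).index : ℂ) ≠ 0 := by
      intro h0
      rw [h0, zero_mul] at hidx
      exact hG hidx.symm
    field_simp
end Cfsg.Agent.S0932
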