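import Cfsg.Statements.S0933
import Mathlib
import Cfsg.Agent.Lib.Lead.SylowAux2
import Cfsg.Agent.Lib.Lead.BlockAux
import Cfsg.Agent.S0932

set_option autoImplicit false
open Cfsg Cfsg.Agent.Lib.Lead

namespace Cfsg.Agent.S0933

open scoped Pointwise commutatorElement

/-- Let H be a subgroup of the finite group G and ξ an irreducible character of H such that the induced function ξ^G is an irreducible character of G. Then, relative to any maximal ideal M of the algebraic integers containing the prime p, the block of ξ induces the block of ξ^G. -/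
theorem result {G : Type*} [Group G] [Fintype G] (p : ℕ) [Fact p.Prime] (M : Ideal Cfsg.AlgInt) (hM : Cfsg.IsPModular p M) (H : Subgroup G) (ξ : Cfsg.IrrCharacter H) (hind : Cfsg.IsIrrCharacter G (Cfsg.indFun H (ξ : H → ℂ))) : Cfsg.IsInducedBlock M H (Cfsg.blockOf M (ξ : H → ℂ)) (Cfsg.blockOf M (Cfsg.indFun H (ξ : H → ℂ))) := by
  classical
  haveI : Fintype H := Fintype.ofFinite H
  haveI : Fintype (ConjClasses H) := Fintype.ofFinite _
  obtain ⟨hp, hMmax, hpM⟩ := hM
  have hMprime : M.IsPrime := hMmax.isPrime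
  have hMtop : M ≠ ⊤ := hMprime.ne_top
  refine ⟨⟨ξ, rfl⟩, ⟨⟨_, hind⟩, rfl⟩, ?_⟩
  intro ξ' hξ' χ' hχ' g
  have h1 : Cfsg.SameBlock M (ξ : H → ℂ) (ξ' : H → ℂ) := hξ'
  have h2 : Cfsg.SameBlock M (Cfsg.indFun H (ξ : H → ℂ)) (χ' : G → ℂ) := hχ'
  have hIC := Cfsg.Agent.S0932.result H (ξ : H → ℂ) (isCharacter_of_isIrrCharacter ξ.2) g
  have hR := inducedCentralChar_regroup_lead H (ξ : H → ℂ)
    (fun a b => isClassFunction_of_irr ξ.2 a b) g
  have hR' := inducedCentralChar_regroup_lead H (ξ' : H → ℂ)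
    (fun a b => isClassFunction_of_irr ξ'.2 a b) g
  have h3 : Cfsg.MemLocalIdeal M (Cfsg.inducedCentralChar H (ξ : H → ℂ) g -
      Cfsg.inducedCentralChar H (ξ' : H → ℂ) g) := by
    rw [hR, hR', ← Finset.sum_sub_distrib]
    apply memLocalIdeal_sum_lead hMprime
    intro c _
    by_cases h : IsConj g ((Quotient.out c : H) : G)
    · rw [if_pos h, if_pos h]
      exact h1 (Quotient.out c)
    · rw [if_neg h, if_neg h, sub_zero]
      exact memLocalIdeal_zero_lead hMtop
  have h4 : Cfsg.inducedCentralChar H (ξ' : H → ℂ) g - Cfsg.centralChar (χ' : G → ℂ) g =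
      -(Cfsg.inducedCentralChar H (ξ : H → ℂ) g - Cfsg.inducedCentralChar H (ξ' : H → ℂ) g) +
        (Cfsg.centralChar (Cfsg.indFun H (ξ : H → ℂ)) g -
          Cfsg.centralChar (χ' : G → ℂ) g) := by
    rw [hIC]
    ring
  rw [h4]
  exact memLocalIdeal_add_lead hMprime (memLocalIdeal_neg_lead h3) (h2 g)

end Cfsg.Agent.S0933
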