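import Cfsg.Statements.S0934
import Mathlib
import Cfsg.Agent.Lib.Lead.SylowAux2
import Cfsg.Agent.Lib.Lead.BlockOsima2
import Cfsg.Agent.S0932
import Cfsg.Agent.Lib.Lead.CharInd
import Cfsg.Agent.Lib.Lead.CharInd3
import Cfsg.Agent.Lib.Lead.CharRing
import Cfsg.Agent.Lib.Lead.CharOrtho

set_option autoImplicit false
open Cfsg Cfsg.Agent.Lib.Lead

namespace Cfsg.Agent.S0934

open scoped Pointwise commutatorElement

/-- Let H be a subgroup of the finite group G and fix a maximal ideal M of the algebraic integers containing the prime p. If the block b of H induces the block B of G and ξ ∈ b, then there is χ ∈ B whose restriction to H has nonzero inner product with ξ. -/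
theorem result {G : Type*} [Group G] [Fintype G] (p : ℕ) [Fact p.Prime] (M : Ideal Cfsg.AlgInt) (hM : Cfsg.IsPModular p M) (H : Subgroup G) [Fintype H] (b : Set (Cfsg.IrrCharacter H)) (B : Set (Cfsg.IrrCharacter G)) (hind : Cfsg.IsInducedBlock M H b B) (ξ : Cfsg.IrrCharacter H) (hξ : ξ ∈ b) : ∃ χ ∈ B, Cfsg.classInner (fun h : H => (χ : G → ℂ) h) (ξ : H → ℂ) ≠ 0 := by
  classical
  haveI : Fintype (Cfsg.IrrCharacter G) := Fintype.ofFinite _
  haveI : Fintype (ConjClasses G) := Fintype.ofFinite _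
  obtain ⟨hp, hMmax, hpM⟩ := hM
  have hMprime : M.IsPrime := hMmax.isPrime
  have hMtop : M ≠ ⊤ := hMprime.ne_top
  unfold Cfsg.IsInducedBlock at hind
  obtain ⟨hbB, hBB, hcong⟩ := hind
  obtain ⟨χ₀, rfl⟩ := hBB
  have hχ₀B : χ₀ ∈ Cfsg.blockOf M (χ₀ : G → ℂ) := sameBlock_refl_lead hMtop (χ₀ : G → ℂ)
  by_contra hno
  push_neg at hno
  have ha := fun g : G => osima_lead p hp M hMprime hpM χ₀ g
  have hψch := isCharacter_indFun H (ξ : H → ℂ) (isCharacter_of_isIrrCharacter ξ.2)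
  have hψcl := indFun_classFun H (ξ : H → ℂ)
  obtain ⟨m, hexp, hm⟩ := isCharacter_expansion hψch
  have hT : ∑ g : G, Cfsg.blockCoeff (Cfsg.blockOf M (χ₀ : G → ℂ)) g *
      Cfsg.indFun H (ξ : H → ℂ) g = 0 := by
    have h1 : ∀ g : G, Cfsg.indFun H (ξ : H → ℂ) g =
        ∑ χ : Cfsg.IrrCharacter G, (m χ : ℂ) * (χ : G → ℂ) g := by
      intro g
      have h2 := congrFun hexp g
      rw [Finset.sum_apply] at h2
      exact h2
    calc ∑ g : G, Cfsg.blockCoeff (Cfsg.blockOf M (χ₀ : G → ℂ)) g *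
          Cfsg.indFun H (ξ : H → ℂ) g
        = ∑ g : G, ∑ χ : Cfsg.IrrCharacter G, (m χ : ℂ) *
            (Cfsg.blockCoeff (Cfsg.blockOf M (χ₀ : G → ℂ)) g * (χ : G → ℂ) g) := by
          apply Finset.sum_congr rfl
          intro g _
          rw [h1 g, Finset.mul_sum]
          apply Finset.sum_congr rfl
          intro χ _
          ring
      _ = ∑ χ : Cfsg.IrrCharacter G, (m χ : ℂ) *
            ∑ g : G, Cfsg.blockCoeff (Cfsg.blockOf M (χ₀ : G → ℂ)) g * (χ : G → ℂ) g := by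
          rw [Finset.sum_comm]
          apply Finset.sum_congr rfl
          intro χ _
          rw [Finset.mul_sum]
      _ = 0 := by
          apply Finset.sum_eq_zero
          intro χ _
          rw [blockCoeff_sum_lead _ χ]
          by_cases hχ : χ ∈ Cfsg.blockOf M (χ₀ : G → ℂ)
          · have h3 : (m χ : ℂ) = 0 := by
              rw [← hm χ, frobenius_reciprocity H (ξ : H → ℂ) (χ : G → ℂ)
                (isClassFunction_of_irr χ.2),
                ← classInner_conj_symm (fun h : H => (χ : G → ℂ) h) (ξ : H → ℂ),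
                hno χ hχ, map_zero]
            rw [h3, zero_mul]
          · rw [if_neg hχ, mul_zero]
  obtain ⟨dξ, hdξ0, hdξ⟩ := irr_one ξ.2
  have hψ1 : Cfsg.indFun H (ξ : H → ℂ) 1 ≠ 0 := by
    rw [indFun_one, hdξ]
    have hidx : (H.index : ℂ) ≠ 0 := by exact_mod_cast Subgroup.index_ne_zero_of_finite
    exact mul_ne_zero hidx (by exact_mod_cast hdξ0)
  have hF1 : ∀ g h : G, Cfsg.blockCoeff (Cfsg.blockOf M (χ₀ : G → ℂ)) (h * g * h⁻¹) *
      Cfsg.indFun H (ξ : H → ℂ) (h * g * h⁻¹) =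
      Cfsg.blockCoeff (Cfsg.blockOf M (χ₀ : G → ℂ)) g * Cfsg.indFun H (ξ : H → ℂ) g := by
    intro g h
    rw [blockCoeff_classFun_lead _ g h, hψcl g h]
  have hreg1 : ∑ g : G, Cfsg.blockCoeff (Cfsg.blockOf M (χ₀ : G → ℂ)) g *
      Cfsg.indFun H (ξ : H → ℂ) g =
      ∑ c : ConjClasses G, ((Subgroup.centralizer ({Quotient.out c} : Set G)).index : ℂ) *
        (Cfsg.blockCoeff (Cfsg.blockOf M (χ₀ : G → ℂ)) (Quotient.out c) *
          Cfsg.indFun H (ξ : H → ℂ) (Quotient.out c)) :=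
    sum_classFun_regroup_lead (fun g : G => Cfsg.blockCoeff (Cfsg.blockOf M (χ₀ : G → ℂ)) g *
      Cfsg.indFun H (ξ : H → ℂ) g) hF1
  have hlam : ∑ c : ConjClasses G,
      Cfsg.blockCoeff (Cfsg.blockOf M (χ₀ : G → ℂ)) (Quotient.out c) *
        Cfsg.inducedCentralChar H (ξ : H → ℂ) (Quotient.out c) = 0 := by
    have e : ∀ c : ConjClasses G,
        ((Subgroup.centralizer ({Quotient.out c} : Set G)).index : ℂ) *
        (Cfsg.blockCoeff (Cfsg.blockOf M (χ₀ : G → ℂ)) (Quotient.out c) *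
          Cfsg.indFun H (ξ : H → ℂ) (Quotient.out c)) =
        Cfsg.indFun H (ξ : H → ℂ) 1 *
          (Cfsg.blockCoeff (Cfsg.blockOf M (χ₀ : G → ℂ)) (Quotient.out c) *
            Cfsg.inducedCentralChar H (ξ : H → ℂ) (Quotient.out c)) := by
      intro c
      rw [Cfsg.Agent.S0932.result H (ξ : H → ℂ) (isCharacter_of_isIrrCharacter ξ.2)
        (Quotient.out c)]
      unfold Cfsg.centralChar
      field_simp
    rw [hT, Finset.sum_congr rfl (fun c _ => e c), ← Finset.mul_sum] at hreg1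
    rcases mul_eq_zero.mp hreg1.symm with h | h
    · exact absurd h hψ1
    · exact h
  obtain ⟨d, hd0, hd⟩ := irr_one χ₀.2
  have hχ1 : (χ₀ : G → ℂ) 1 ≠ 0 := by
    rw [hd]
    exact_mod_cast hd0
  have hsum2 : ∑ g : G, Cfsg.blockCoeff (Cfsg.blockOf M (χ₀ : G → ℂ)) g *
      ((χ₀ : G → ℂ) g / (χ₀ : G → ℂ) 1) = 1 := by
    have e : ∀ g : G, Cfsg.blockCoeff (Cfsg.blockOf M (χ₀ : G → ℂ)) g *
        ((χ₀ : G → ℂ) g / (χ₀ : G → ℂ) 1) =
        Cfsg.blockCoeff (Cfsg.blockOf M (χ₀ : G → ℂ)) g * (χ₀ : G → ℂ) g / (χ₀ : G → ℂ) 1 :=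
      fun g => (mul_div_assoc _ _ _).symm
    rw [Finset.sum_congr rfl (fun g _ => e g), ← Finset.sum_div, blockCoeff_sum_lead _ χ₀,
      if_pos hχ₀B, div_self hχ1]
  have hF2 : ∀ g h : G, Cfsg.blockCoeff (Cfsg.blockOf M (χ₀ : G → ℂ)) (h * g * h⁻¹) *
      ((χ₀ : G → ℂ) (h * g * h⁻¹) / (χ₀ : G → ℂ) 1) =
      Cfsg.blockCoeff (Cfsg.blockOf M (χ₀ : G → ℂ)) g *
        ((χ₀ : G → ℂ) g / (χ₀ : G → ℂ) 1) := by
    intro g h
    rw [blockCoeff_classFun_lead _ g h, isClassFunction_of_irr χ₀.2 g h]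
  have hreg2 : ∑ g : G, Cfsg.blockCoeff (Cfsg.blockOf M (χ₀ : G → ℂ)) g *
      ((χ₀ : G → ℂ) g / (χ₀ : G → ℂ) 1) =
      ∑ c : ConjClasses G, ((Subgroup.centralizer ({Quotient.out c} : Set G)).index : ℂ) *
        (Cfsg.blockCoeff (Cfsg.blockOf M (χ₀ : G → ℂ)) (Quotient.out c) *
          ((χ₀ : G → ℂ) (Quotient.out c) / (χ₀ : G → ℂ) 1)) :=
    sum_classFun_regroup_lead (fun g : G => Cfsg.blockCoeff (Cfsg.blockOf M (χ₀ : G → ℂ)) g *
      ((χ₀ : G → ℂ) g / (χ₀ : G → ℂ) 1)) hF2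
  have hmem : Cfsg.MemLocalIdeal M
      (∑ c : ConjClasses G, Cfsg.blockCoeff (Cfsg.blockOf M (χ₀ : G → ℂ)) (Quotient.out c) *
          Cfsg.inducedCentralChar H (ξ : H → ℂ) (Quotient.out c) -
        ∑ c : ConjClasses G, ((Subgroup.centralizer ({Quotient.out c} : Set G)).index : ℂ) *
          (Cfsg.blockCoeff (Cfsg.blockOf M (χ₀ : G → ℂ)) (Quotient.out c) *
            ((χ₀ : G → ℂ) (Quotient.out c) / (χ₀ : G → ℂ) 1))) := by
    rw [← Finset.sum_sub_distrib]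
    apply memLocalIdeal_sum_lead hMprime
    intro c _
    beta_reduce
    have h := memLocalIdeal_mul_ring_lead hMprime (ha (Quotient.out c))
      (hcong ξ hξ χ₀ hχ₀B (Quotient.out c))
    have e : Cfsg.blockCoeff (Cfsg.blockOf M (χ₀ : G → ℂ)) (Quotient.out c) *
          Cfsg.inducedCentralChar H (ξ : H → ℂ) (Quotient.out c) -
        ((Subgroup.centralizer ({Quotient.out c} : Set G)).index : ℂ) *
          (Cfsg.blockCoeff (Cfsg.blockOf M (χ₀ : G → ℂ)) (Quotient.out c) *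
            ((χ₀ : G → ℂ) (Quotient.out c) / (χ₀ : G → ℂ) 1)) =
        Cfsg.blockCoeff (Cfsg.blockOf M (χ₀ : G → ℂ)) (Quotient.out c) *
          (Cfsg.inducedCentralChar H (ξ : H → ℂ) (Quotient.out c) -
            Cfsg.centralChar (χ₀ : G → ℂ) (Quotient.out c)) := by
      unfold Cfsg.centralChar
      ring
    rw [e]
    exact h
  rw [hlam, ← hreg2, hsum2, zero_sub] at hmem
  have h1 := memLocalIdeal_neg_lead hmem
  rw [neg_neg] at h1
  exact hMtop ((Ideal.eq_top_iff_one M).mpr (mem_of_memLocalIdeal_lead hMprime 1 h1))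

end Cfsg.Agent.S0934
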