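import Cfsg.Statements.S0937
import Mathlib
import Cfsg.Agent.Lib.Helper7.DefectOrd
import Cfsg.Agent.S4431
-- import your own Cfsg.Agent.* helpers here

set_option autoImplicit false
open Cfsg
open Cfsg.Agent.Lib.Helper7 Cfsg.Agent.Lib.Lead
open scoped ComplexConjugate

namespace Cfsg.Agent.S0937

/-- Let H be a subgroup of the finite group G and fix a maximal ideal M of the algebraic integers containing the prime p. If the block b of H induces the block B of G and χ ∈ B has height zero, then there is ξ ∈ b of height zero whose multiplicity in the restriction of χ to H is a natural number not divisible by p. -/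
theorem result {G : Type*} [Group G] [Fintype G] (p : ℕ) [Fact p.Prime] (M : Ideal Cfsg.AlgInt) (hM : Cfsg.IsPModular p M) (H : Subgroup G) [Fintype H] (b : Set (Cfsg.IrrCharacter H)) (B : Set (Cfsg.IrrCharacter G)) (hind : Cfsg.IsInducedBlock M H b B) (χ : Cfsg.IrrCharacter G) (hχ : χ ∈ B) (h0 : Cfsg.blockHeight p B (χ : G → ℂ) = 0) : ∃ ξ ∈ b, Cfsg.blockHeight p b (ξ : H → ℂ) = 0 ∧ ∃ n : ℕ, Cfsg.classInner (fun h : H => (χ : G → ℂ) h) (ξ : H → ℂ) = (n : ℂ) ∧ ¬ p ∣ n := by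
  classical
  haveI : Fintype (Cfsg.IrrCharacter H) := Fintype.ofFinite _
  haveI : Fintype (ConjClasses H) := Fintype.ofFinite _
  have hp : p.Prime := Fact.out
  have hMprime : M.IsPrime := hM.2.1.isPrime
  have hMtop : M ≠ ⊤ := hMprime.ne_top
  have hpM : (p : Cfsg.AlgInt) ∈ M := hM.2.2
  have hb : Cfsg.IsPBlock M b := hind.1
  obtain ⟨ψ, hψb, hψinf, hminψ⟩ := exists_min_h7 p M hMprime b hb
  have hX := (Cfsg.Agent.S4431.result p M hM H b B hind χ ψ hψb).2 hχ h0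
  obtain ⟨n, hexp, hn⟩ := isCharacter_expansion
    (isCharacter_restrict H (isCharacter_of_isIrrCharacter χ.2))
  by_contra hcon
  push_neg at hcon
  have hdiv : ∀ ξ ∈ b, Cfsg.blockHeight p b (ξ : H → ℂ) = 0 → p ∣ n ξ :=
    fun ξ hξ h => hcon ξ hξ h (n ξ) (hn ξ)
  apply hX
  obtain ⟨m, hm⟩ : ∃ m : ℕ, m = (Cfsg.charDegree (ψ : H → ℂ)).factorization p := ⟨_, rfl⟩
  have hχh : ∀ h : H, (χ : G → ℂ) h = ∑ ξ : Cfsg.IrrCharacter H,
      (n ξ : ℂ) * (ξ : H → ℂ) h := by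
    intro h
    have h1 := congrFun hexp h
    rw [Finset.sum_apply] at h1
    exact h1
  have hinner : Cfsg.classInner (fun h : H => if p ∣ orderOf h then (0 : ℂ) else
      ((p ^ (Nat.card H).factorization p : ℕ) : ℂ) * (χ : G → ℂ) h) (ψ : H → ℂ) =
      ((∑ ξ : Cfsg.IrrCharacter H, (n ξ : ℤ) * nn7 p ξ ψ : ℤ) : ℂ) := by
    have e1 : ∀ h : H, (if p ∣ orderOf h then (0 : ℂ) else
        ((p ^ (Nat.card H).factorization p : ℕ) : ℂ) * (χ : G → ℂ) h) *
        conj ((ψ : H → ℂ) h) = ∑ ξ : Cfsg.IrrCharacter H, (n ξ : ℂ) *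
        (((p ^ (Nat.card H).factorization p : ℕ) : ℂ) *
          (tw7 p (ξ : H → ℂ) h * conj ((ψ : H → ℂ) h))) := by
      intro h
      rw [hχh h]
      by_cases hh : p ∣ orderOf h
      · rw [if_pos hh, zero_mul]
        symm
        apply Finset.sum_eq_zero
        intro ξ _
        rw [tw7_apply, if_pos hh]; ring
      · rw [if_neg hh, Finset.mul_sum, Finset.sum_mul]
        apply Finset.sum_congr rfl
        intro ξ _
        rw [tw7_apply, if_neg hh]; ring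
    show (Nat.card H : ℂ)⁻¹ * ∑ h : H, (if p ∣ orderOf h then (0 : ℂ) else
        ((p ^ (Nat.card H).factorization p : ℕ) : ℂ) * (χ : G → ℂ) h) *
        conj ((ψ : H → ℂ) h) = _
    rw [Finset.sum_congr rfl (fun h _ => e1 h), Finset.sum_comm, Finset.mul_sum, Int.cast_sum]
    apply Finset.sum_congr rfl
    intro ξ _
    rw [Int.cast_mul, Int.cast_natCast, nn7_spec p ξ ψ, ← Finset.mul_sum, ← Finset.mul_sum]
    show _ = (n ξ : ℂ) * (((p ^ (Nat.card H).factorization p : ℕ) : ℂ) *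
      ((Nat.card H : ℂ)⁻¹ * ∑ h : H, tw7 p (ξ : H → ℂ) h * conj ((ψ : H → ℂ) h)))
    ring
  have hZdvd : (p : ℤ) ^ (m + 1) ∣ ∑ ξ : Cfsg.IrrCharacter H, (n ξ : ℤ) * nn7 p ξ ψ := by
    apply Finset.dvd_sum
    intro ξ _
    by_cases hξ : ξ ∈ b
    · have h1 := nn7_of_min p M hM b hb ψ hψb hminψ ξ hξ
      rw [nn7_symm p ξ ψ]
      by_cases hh : Cfsg.blockHeight p b (ξ : H → ℂ) = 0
      · obtain ⟨k, hk⟩ := hdiv ξ hξ hh
        have h2 : (p : ℤ) ^ m ∣ nn7 p ψ ξ := by rw [hm]; exact nn7_dvd p ψ ξ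
        obtain ⟨q, hq⟩ := h2
        exact ⟨k * q, by rw [hk, hq]; push_cast; ring⟩
      · have h2 : (p : ℤ) ^ (m + 1) ∣ nn7 p ψ ξ := by
          rw [padicValInt_dvd_iff]
          right
          rw [h1.2]
          unfold Cfsg.blockHeight at hh
          rw [← hψinf, ← hm] at hh
          omega
        exact Dvd.dvd.mul_left h2 _
    · have hz : nn7 p ξ ψ = 0 := by
        have h1 := nn7_spec p ξ ψ
        rw [Cfsg.Agent.S4431.inner_zero_aux p M hM ξ ψ (fun hs => hξ (by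
          rw [blockOf_eq_h7 M hMprime b hb ψ hψb]
          exact sameBlock_symm_lead hs)), mul_zero] at h1
        exact_mod_cast h1
      rw [hz, mul_zero]
      exact dvd_zero _
  obtain ⟨hψ1, hψ0⟩ := charDegree_irr ψ.2
  obtain ⟨s, hs⟩ : ∃ s : ℕ, s = Cfsg.charDegree (ψ : H → ℂ) / p ^ m := ⟨_, rfl⟩
  have hDs : Cfsg.charDegree (ψ : H → ℂ) = p ^ m * s := by
    rw [hs, hm]; exact (Nat.ordProj_mul_ordCompl_eq_self _ p).symm
  have hscop : Nat.Coprime s p := by
    rw [hs, hm]; exact (Nat.coprime_ordCompl hp hψ0).symm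
  have hsM : (s : Cfsg.AlgInt) ∉ M := natCast_not_mem_lead hMtop p s hscop hpM
  have hs0 : (s : ℂ) ≠ 0 := by
    intro h0'
    have : s = 0 := by exact_mod_cast h0'
    rw [this, mul_zero] at hDs
    exact hψ0 hDs
  have hp0 : (p : ℂ) ≠ 0 := by exact_mod_cast hp.ne_zero
  obtain ⟨Q, hQ⟩ := hZdvd
  rw [hinner, hQ, hψ1, hDs]
  have e : (((p : ℤ) ^ (m + 1) * Q : ℤ) : ℂ) / ((p ^ m * s : ℕ) : ℂ) =
      ((s : Cfsg.AlgInt) : ℂ)⁻¹ * ((Q : ℂ) * (p : ℂ)) := by
    rw [algInt_natCast_h7]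
    push_cast
    field_simp
    ring
  rw [e]
  exact memLocalIdeal_mul_ring_lead hMprime (memLocalRing_inv_lead hsM)
    (memLocalIdeal_mul_ring_lead hMprime (memLocalRing_int_h7 M hMtop Q)
      (memLocalIdeal_p_h7 p M hM))


end Cfsg.Agent.S0937
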