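import Cfsg.Statements.S0935
import Mathlib
import Cfsg.Agent.Lib.Helper7.DefectOrd
import Cfsg.Agent.S4431
import Cfsg.Agent.S0937
-- import your own Cfsg.Agent.* helpers here

set_option autoImplicit false
open Cfsg
open Cfsg.Agent.Lib.Helper7 Cfsg.Agent.Lib.Lead
open scoped ComplexConjugate

namespace Cfsg.Agent.S0935

/-- Let H be a subgroup of the finite group G and χ an irreducible character of G whose restriction to H is irreducible; fix a maximal ideal M of the algebraic integers containing the prime p and suppose χ and its restriction have height zero in their blocks B and b. If e is a block of H whose induced block is defined, then e induces B if and only if e = b. -/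
theorem result {G : Type*} [Group G] [Finite G] (p : ℕ) [Fact p.Prime] (M : Ideal Cfsg.AlgInt) (hM : Cfsg.IsPModular p M) (H : Subgroup G) (χ : Cfsg.IrrCharacter G) (hres : Cfsg.IsIrrCharacter H (fun h : H => (χ : G → ℂ) h)) (hχ0 : Cfsg.blockHeight p (Cfsg.blockOf M (χ : G → ℂ)) (χ : G → ℂ) = 0) (hψ0 : Cfsg.blockHeight p (Cfsg.blockOf M (fun h : H => (χ : G → ℂ) h)) (fun h : H => (χ : G → ℂ) h) = 0) (e : Set (Cfsg.IrrCharacter H)) (he : Cfsg.InducedBlockDefined M H e) : Cfsg.IsInducedBlock M H e (Cfsg.blockOf M (χ : G → ℂ)) ↔ e = Cfsg.blockOf M (fun h : H => (χ : G → ℂ) h) := by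
  classical
  haveI : Fintype G := Fintype.ofFinite _
  haveI : Fintype H := Fintype.ofFinite _
  haveI : Fintype (Cfsg.IrrCharacter H) := Fintype.ofFinite _
  haveI : Fintype (ConjClasses H) := Fintype.ofFinite _
  have hp : p.Prime := Fact.out
  have hMprime : M.IsPrime := hM.2.1.isPrime
  have hMtop : M ≠ ⊤ := hMprime.ne_top
  have hpM : (p : Cfsg.AlgInt) ∈ M := hM.2.2
  obtain ⟨ψ, hψ⟩ : ∃ ψ : Cfsg.IrrCharacter H, (ψ : H → ℂ) = fun h : H => (χ : G → ℂ) h :=
    ⟨⟨_, hres⟩, rfl⟩
  rw [← hψ] at hψ0 ⊢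
  have hχB : χ ∈ Cfsg.blockOf M (χ : G → ℂ) := sameBlock_refl_lead hMtop _
  constructor
  · intro hind
    obtain ⟨ξ, hξe, -, n, hn, hpn⟩ :=
      Cfsg.Agent.S0937.result p M hM H e _ hind χ hχB hχ0
    rw [← hψ, classInner_irr' ψ ξ] at hn
    have hψξ : ψ = ξ := by
      by_contra hne
      rw [if_neg hne] at hn
      have : n = 0 := by exact_mod_cast hn.symm
      rw [this] at hpn
      exact hpn (dvd_zero p)
    rw [← hψξ] at hξe
    exact blockOf_eq_h7 M hMprime e hind.1 ψ hξe
  · intro heq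
    obtain ⟨B', hB'⟩ := he
    have hψe : ψ ∈ e := by rw [heq]; exact sameBlock_refl_lead hMtop _
    have heblock : Cfsg.IsPBlock M e := hB'.1
    have hχB' : χ ∈ B' := by
      by_contra hnot
      have h1 := (Cfsg.Agent.S4431.result p M hM H e B' hB' χ ψ hψe).1 hnot
      -- the inner product is nn7 p ψ ψ
      have hΘ : Cfsg.classInner (fun h : H => if p ∣ orderOf h then (0 : ℂ)
          else ((p ^ (Nat.card H).factorization p : ℕ) : ℂ) * (χ : G → ℂ) h) (ψ : H → ℂ) =
          (nn7 p ψ ψ : ℂ) := by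
        rw [nn7_spec p ψ ψ]
        have e1 : ∀ g : H, (fun h : H => if p ∣ orderOf h then (0 : ℂ)
            else ((p ^ (Nat.card H).factorization p : ℕ) : ℂ) * (χ : G → ℂ) h) g *
            conj ((ψ : H → ℂ) g) = ((p ^ (Nat.card H).factorization p : ℕ) : ℂ) *
            (tw7 p (ψ : H → ℂ) g * conj ((ψ : H → ℂ) g)) := by
          intro g
          show (if p ∣ orderOf g then (0 : ℂ)
            else ((p ^ (Nat.card H).factorization p : ℕ) : ℂ) * (χ : G → ℂ) g) *
            conj ((ψ : H → ℂ) g) = ((p ^ (Nat.card H).factorization p : ℕ) : ℂ) *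
            (tw7 p (ψ : H → ℂ) g * conj ((ψ : H → ℂ) g))
          rw [tw7_apply]
          have hψg : (ψ : H → ℂ) g = (χ : G → ℂ) g := congrFun hψ g
          by_cases hg : p ∣ orderOf g
          · rw [if_pos hg, if_pos hg]; ring
          · rw [if_neg hg, if_neg hg, hψg]; ring
        show (Nat.card H : ℂ)⁻¹ * ∑ g : H, (fun h : H => if p ∣ orderOf h then (0 : ℂ)
            else ((p ^ (Nat.card H).factorization p : ℕ) : ℂ) * (χ : G → ℂ) h) g *
            conj ((ψ : H → ℂ) g) = ((p ^ (Nat.card H).factorization p : ℕ) : ℂ) *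
            ((Nat.card H : ℂ)⁻¹ * ∑ g : H, tw7 p (ψ : H → ℂ) g * conj ((ψ : H → ℂ) g))
        rw [Finset.sum_congr rfl (fun g _ => e1 g), ← Finset.mul_sum]
        ring
      rw [hΘ] at h1
      -- valuation of nn7 p ψ ψ
      have hminψ : ∀ φ ∈ e, (Cfsg.charDegree (ψ : H → ℂ)).factorization p ≤
          (Cfsg.charDegree (φ : H → ℂ)).factorization p := by
        intro φ hφ
        obtain ⟨ψ₀, hψ₀e, hψ₀inf, hmin₀⟩ := exists_min_h7 p M hMprime e heblock
        unfold Cfsg.blockHeight at hψ0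
        rw [← heq, ← hψ₀inf] at hψ0
        have := hmin₀ φ hφ
        omega
      obtain ⟨hN0, hNv⟩ := nn7_of_min p M hM e heblock ψ hψe hminψ ψ hψe
      obtain ⟨m, hm⟩ : ∃ m : ℕ, m = (Cfsg.charDegree (ψ : H → ℂ)).factorization p := ⟨_, rfl⟩
      rw [← hm] at hNv
      have hdv : (p : ℤ) ^ m ∣ nn7 p ψ ψ := by
        rw [← hNv]; exact padicValInt_dvd _
      obtain ⟨N', hN'⟩ := hdv
      have hpN' : ¬ (p : ℤ) ∣ N' := by
        rintro ⟨q, hq⟩
        have h2 : (p : ℤ) ^ (m + 1) ∣ nn7 p ψ ψ := ⟨q, by rw [hN', hq]; ring⟩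
        rw [padicValInt_dvd_iff] at h2
        rcases h2 with h2 | h2
        · exact hN0 h2
        · omega
      obtain ⟨hψ1, hψ0'⟩ := charDegree_irr ψ.2
      obtain ⟨s, hs⟩ : ∃ s : ℕ, s = Cfsg.charDegree (ψ : H → ℂ) / p ^ m := ⟨_, rfl⟩
      have hDs : Cfsg.charDegree (ψ : H → ℂ) = p ^ m * s := by
        rw [hs, hm]; exact (Nat.ordProj_mul_ordCompl_eq_self _ p).symm
      have hs0 : (s : ℂ) ≠ 0 := by
        intro h0'
        have : s = 0 := by exact_mod_cast h0'
        rw [this, mul_zero] at hDs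
        exact hψ0' hDs
      have hp0 : (p : ℂ) ≠ 0 := by exact_mod_cast hp.ne_zero
      apply hpN'
      apply int_mem_dvd_h7 p M hM
      have hsR := memLocalRing_int_h7 M hMtop (s : ℤ)
      rw [Int.cast_natCast] at hsR
      have h3 := memLocalIdeal_mul_ring_lead hMprime hsR h1
      have e2 : (s : ℂ) * ((nn7 p ψ ψ : ℂ) / (ψ : H → ℂ) 1) = (N' : ℂ) := by
        rw [hψ1, hDs, hN']
        push_cast
        field_simp
      rw [e2] at h3
      exact h3
    have hBeq : B' = Cfsg.blockOf M (χ : G → ℂ) := blockOf_eq_h7 M hMprime B' hB'.2.1 χ hχB'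
    rw [← hBeq]
    exact hB'


end Cfsg.Agent.S0935
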