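import Cfsg.Statements.S0938
import Mathlib
import Cfsg.Agent.Lib.Lead.SylowAux2
import Cfsg.Agent.Lib.Lead.BlockKer
import Cfsg.Agent.Lib.Lead.BlockAux
import Cfsg.Agent.Lib.Lead.CharFullyRam
import Cfsg.Agent.Lib.Lead.CharBurnside

set_option autoImplicit false
open Cfsg Cfsg.Agent.Lib.Lead

namespace Cfsg.Agent.S0938

open scoped Pointwise commutatorElement

/-- Let B be a block of the finite group G relative to a maximal ideal M of the algebraic integers containing the prime p, and let χ ∈ B. Then the kernel of B (the set of g with ψ g = ψ 1 for all ψ ∈ B) is a normal subgroup of order prime to p contained in the kernel of χ, and it contains every normal subgroup of order prime to p on which χ takes the value χ(1); that is, it is O_p' of the kernel of χ. -/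
theorem result {G : Type*} [Group G] [Finite G] (p : ℕ) [Fact p.Prime] (M : Ideal Cfsg.AlgInt) (hM : Cfsg.IsPModular p M) (B : Set (Cfsg.IrrCharacter G)) (hB : Cfsg.IsPBlock M B) (χ : Cfsg.IrrCharacter G) (hχ : χ ∈ B) : ∃ K : Subgroup G, K.Normal ∧ (K : Set G) = Cfsg.blockKer B ∧ ¬ p ∣ Nat.card K ∧ (∀ g ∈ K, (χ : G → ℂ) g = (χ : G → ℂ) 1) ∧ ∀ N : Subgroup G, N.Normal → ¬ p ∣ Nat.card N → (∀ g ∈ N, (χ : G → ℂ) g = (χ : G → ℂ) 1) → N ≤ K := by
  classical
  haveI : Fintype G := Fintype.ofFinite G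
  have hM' := hM
  obtain ⟨hp, hMmax, hpM⟩ := hM'
  have hMprime : M.IsPrime := hMmax.isPrime
  have hMtop : M ≠ ⊤ := hMprime.ne_top
  obtain ⟨χ₀, rfl⟩ := hB
  obtain ⟨K, hKn, hK⟩ := blockKer_subgroup_lead (Cfsg.blockOf M (χ₀ : G → ℂ))
  haveI := hKn
  refine ⟨K, hKn, hK, blockKer_coprime_lead p hp M hMprime hpM χ₀ K hK, ?_, ?_⟩
  · intro g hg
    have hg' : g ∈ Cfsg.blockKer (Cfsg.blockOf M (χ₀ : G → ℂ)) := by
      rw [← hK]
      exact hg
    have hg'' : ∀ ψ ∈ Cfsg.blockOf M (χ₀ : G → ℂ), (ψ : G → ℂ) g = (ψ : G → ℂ) 1 := hg'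
    exact hg'' χ hχ
  · intro N hNn hNp hNχ
    haveI := hNn
    haveI : Fintype N := Fintype.ofFinite N
    have hcop : (Nat.card N).Coprime p := ((Nat.Prime.coprime_iff_not_dvd hp).mpr hNp).symm
    intro n hn
    have hn' : n ∈ Cfsg.blockKer (Cfsg.blockOf M (χ₀ : G → ℂ)) := by
      show ∀ ψ ∈ Cfsg.blockOf M (χ₀ : G → ℂ), (ψ : G → ℂ) n = (ψ : G → ℂ) 1
      intro ψ hψ
      have h1 : Cfsg.SameBlock M (χ₀ : G → ℂ) (χ : G → ℂ) := hχ
      have h2 : Cfsg.SameBlock M (χ₀ : G → ℂ) (ψ : G → ℂ) := hψ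
      have hSB := sameBlock_trans_lead hMprime (sameBlock_symm_lead h1) h2
      obtain ⟨d, hd0, hd⟩ := irr_one χ.2
      have hχ1 : (χ : G → ℂ) 1 ≠ 0 := by
        rw [hd]
        exact_mod_cast hd0
      have hres : (fun m : N => (χ : G → ℂ) m) =
          ((χ : G → ℂ) 1) • (fun _ : N => (1 : ℂ)) := by
        funext m
        show (χ : G → ℂ) m = (χ : G → ℂ) 1 • (1 : ℂ)
        rw [hNχ m m.2, smul_eq_mul, mul_one]
      have hcon0 : Cfsg.classInner (fun m : N => (χ : G → ℂ) m) (fun _ : N => (1 : ℂ)) ≠ 0 := by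
        rw [hres, classInner_smul_left, classInner_irr_self (isIrrCharacter_one N), mul_one]
        exact hχ1
      have hcon := same_block_constituent_lead p M hM N hcop χ ψ hSB
        ⟨fun _ => 1, isIrrCharacter_one N⟩ hcon0
      obtain ⟨e, he0, -, he⟩ := restrict_eq_smul_of_invariant N (ψ : G → ℂ) ψ.2
        (fun _ : N => (1 : ℂ)) (isIrrCharacter_one N) hcon (fun g n => rfl)
      have h3 := congrFun he ⟨n, hn⟩
      have h4 := congrFun he ⟨1, N.one_mem⟩
      simp only [Pi.smul_apply] at h3 h4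
      exact h3.trans h4.symm
    rw [← hK] at hn'
    exact hn'

end Cfsg.Agent.S0938
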