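import Cfsg.Statements.S0939
import Mathlib
import Cfsg.Agent.Lib.Lead.SylowAux2
import Cfsg.Agent.Lib.Lead.BlockAux
import Cfsg.Agent.Lib.Helper8.CharQuotient
import Cfsg.Agent.Lib.Helper3.PPrimeCore
import Cfsg.Agent.S0963
import Cfsg.Agent.Lib.Lead.CharCentral
import Cfsg.Agent.Lib.Lead.CharCenter

set_option autoImplicit false
open Cfsg Cfsg.Agent.Lib.Lead

namespace Cfsg.Agent.S0939

open scoped Pointwise commutatorElement

universe u

theorem irr_mul_central_lead {G : Type*} [Group G] {χ : G → ℂ} (hχ : Cfsg.IsIrrCharacter G χ)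
    (g z : G) (hz : z ∈ Subgroup.center G) : χ (g * z) = χ z / χ 1 * χ g := by
  obtain ⟨n, ρ, hρ, rfl⟩ := hχ
  haveI := hρ
  rw [char_mul_central ρ g z hz, Representation.char_one]

/-- every irreducible character of a `p`-group lies in the principal block -/
theorem pgroup_block_lead (p : ℕ) [hpf : Fact p.Prime] (M : Ideal Cfsg.AlgInt)
    (hMprime : M.IsPrime) (hpM : (p : Cfsg.AlgInt) ∈ M) :
    ∀ (n : ℕ) (P : Type u) [Group P] [Finite P], Nat.card P = n → IsPGroup p P →
      ∀ φ : P → ℂ, Cfsg.IsIrrCharacter P φ → Cfsg.SameBlock M (fun _ : P => (1 : ℂ)) φ := by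
  intro n
  induction n using Nat.strong_induction_on with
  | _ n ih =>
  intro P _ _ hcard hP φ hφ x
  classical
  haveI : Fintype P := Fintype.ofFinite P
  have hp : p.Prime := hpf.out
  have hMtop : M ≠ ⊤ := hMprime.ne_top
  obtain ⟨d, hd0, hd⟩ := irr_one hφ
  have hφ1 : φ 1 ≠ 0 := by
    rw [hd]
    exact_mod_cast hd0
  show Cfsg.MemLocalIdeal M (Cfsg.centralChar (fun _ : P => (1 : ℂ)) x - Cfsg.centralChar φ x)
  by_cases hx : x ∈ Subgroup.center P
  · have hidx : (Subgroup.centralizer ({x} : Set P)).index = 1 := by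
      have htop : Subgroup.centralizer ({x} : Set P) = ⊤ :=
        Subgroup.centralizer_eq_top_iff_subset.mpr (Set.singleton_subset_iff.mpr hx)
      rw [htop, Subgroup.index_top]
    obtain ⟨μ, hμ⟩ : ∃ μ : ℂ, μ = φ x / φ 1 := ⟨_, rfl⟩
    have hpow : ∀ m : ℕ, φ (x ^ m) / φ 1 = μ ^ m := by
      intro m
      induction m with
      | zero => rw [pow_zero, pow_zero, div_self hφ1]
      | succ m ihm =>
        rw [pow_succ x m, irr_mul_central_lead hφ (x ^ m) x hx, pow_succ μ m, ← ihm, hμ]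
        ring
    obtain ⟨k, hk⟩ := hP x
    have hμk : μ ^ p ^ k = 1 := by
      rw [← hpow, hk, div_self hφ1]
    have hint : IsIntegral ℤ μ := by
      apply IsIntegral.of_pow (pow_pos hp.pos k)
      rw [hμk]
      exact isIntegral_one
    obtain ⟨a, ha⟩ : ∃ a : Cfsg.AlgInt, (a : ℂ) = μ := ⟨⟨μ, hint⟩, rfl⟩
    have ha_pow : a ^ p ^ k = 1 := by
      apply Subtype.ext
      rw [Subalgebra.coe_pow, ha]
      exact hμk
    obtain ⟨r, hr⟩ := sub_pow_prime_pow_lead p hp k a (1 : Cfsg.AlgInt)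
    rw [ha_pow, one_pow, sub_self, zero_add] at hr
    have hmem : (a - 1) ^ p ^ k ∈ M := by
      rw [hr]
      exact M.mul_mem_right r hpM
    have hmem1 : a - 1 ∈ M := hMprime.mem_of_pow_mem _ hmem
    have h1 := memLocalIdeal_neg_lead (memLocalIdeal_of_mem_lead hMtop (a - 1) hmem1)
    have e : Cfsg.centralChar (fun _ : P => (1 : ℂ)) x - Cfsg.centralChar φ x =
        -(((a - 1 : Cfsg.AlgInt)) : ℂ) := by
      show ((Subgroup.centralizer ({x} : Set P)).index : ℂ) * 1 / 1 -
          ((Subgroup.centralizer ({x} : Set P)).index : ℂ) * φ x / φ 1 = -((a : ℂ) - 1)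
      rw [hidx, ha, hμ]
      simp only [Nat.cast_one]
      ring
    rw [e]
    exact h1
  · have hC : Subgroup.centralizer ({x} : Set P) ≠ ⊤ := by
      intro h
      exact hx (Subgroup.centralizer_eq_top_iff_subset.mp h (Set.mem_singleton x))
    obtain ⟨H, hHco, hCH⟩ :=
      (eq_top_or_exists_le_coatom (Subgroup.centralizer ({x} : Set P))).resolve_left hC
    haveI hHn : H.Normal := by
      haveI := hP.isNilpotent
      exact Subgroup.NormalizerCondition.normal_of_coatom H
        Group.normalizerCondition_of_isNilpotent hHco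
    haveI : Fintype H := Fintype.ofFinite H
    haveI : Fintype (ConjClasses H) := Fintype.ofFinite _
    have hxH : x ∈ H := hCH (Subgroup.mem_centralizer_iff.mpr
      (fun y hy => by rw [Set.mem_singleton_iff.mp hy]))
    have hlt : Nat.card H < n := by
      rw [← hcard]
      exact lt_of_le_of_ne (Subgroup.card_le_card_group H)
        (fun h => hHco.1 (Subgroup.eq_top_of_card_eq H h))
    have hres1 : (fun h : H => φ (h : P)) 1 ≠ 0 := hφ1
    obtain ⟨θ, hθ, hcon⟩ :=
      exists_constituent (isCharacter_restrict H (isCharacter_of_isIrrCharacter hφ)) hres1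
    have h2 : Cfsg.centralChar φ x = Cfsg.inducedCentralChar H θ x :=
      (Cfsg.Agent.S0963.result H ⟨φ, hφ⟩ ⟨θ, hθ⟩).mp hcon ⟨x, hxH⟩
    have hcon1 : Cfsg.classInner (fun _ : H => (1 : ℂ)) (fun _ : H => (1 : ℂ)) ≠ 0 := by
      rw [classInner_irr_self (isIrrCharacter_one H)]
      exact one_ne_zero
    have h1 : Cfsg.centralChar (fun _ : P => (1 : ℂ)) x =
        Cfsg.inducedCentralChar H (fun _ : H => (1 : ℂ)) x :=
      (Cfsg.Agent.S0963.result H ⟨fun _ => 1, isIrrCharacter_one P⟩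
        ⟨fun _ => 1, isIrrCharacter_one H⟩).mp hcon1 ⟨x, hxH⟩
    rw [h1, h2, inducedCentralChar_regroup_lead H (fun _ : H => (1 : ℂ)) (fun _ _ => rfl) x,
      inducedCentralChar_regroup_lead H θ (isClassFunction_of_irr hθ) x,
      ← Finset.sum_sub_distrib]
    apply memLocalIdeal_sum_lead hMprime
    intro c _
    beta_reduce
    by_cases hc : IsConj x ((Quotient.out c : H) : P)
    · rw [if_pos hc, if_pos hc]
      exact ih (Nat.card H) hlt H rfl (hP.to_subgroup H) θ hθ (Quotient.out c)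
    · rw [if_neg hc, if_neg hc, sub_zero]
      exact memLocalIdeal_zero_lead hMtop

/-- Let G be a finite group with a normal p-complement (the largest normal subgroup O_p'(G) of order prime to p has p-power index). Then, relative to any maximal ideal M of the algebraic integers containing p, the principal block of G is the set of irreducible characters χ with χ n = χ 1 for every n ∈ O_p'(G). -/
theorem result {G : Type*} [Group G] [Finite G] (p : ℕ) [Fact p.Prime] (M : Ideal Cfsg.AlgInt) (hM : Cfsg.IsPModular p M) (hnc : ∃ k : ℕ, (Cfsg.pPrimeCore p G).index = p ^ k) : Cfsg.principalBlock M G = {χ : Cfsg.IrrCharacter G | ∀ n ∈ Cfsg.pPrimeCore p G, (χ : G → ℂ) n = (χ : G → ℂ) 1} := by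
  classical
  haveI : Fintype G := Fintype.ofFinite G
  have hp : p.Prime := Fact.out
  have hM' := hM
  obtain ⟨-, hMmax, hpM⟩ := hM'
  have hMprime : M.IsPrime := hMmax.isPrime
  have hMtop : M ≠ ⊤ := hMprime.ne_top
  obtain ⟨N, hN⟩ : ∃ N : Subgroup G, N = Cfsg.pPrimeCore p G := ⟨_, rfl⟩
  rw [← hN]
  haveI hNn : N.Normal := by
    rw [hN]
    exact Cfsg.Agent.Lib.Helper3.pPrimeCore_normal p G
  have hcop : (Nat.card N).Coprime p := by
    rw [hN]
    exact Cfsg.Agent.Lib.Helper3.pPrimeCore_coprime hp G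
  haveI : Fintype N := Fintype.ofFinite N
  obtain ⟨k, hk⟩ := hnc
  rw [← hN] at hk
  have hcardQ : Nat.card (G ⧸ N) = p ^ k := by
    rw [← Subgroup.index_eq_card]
    exact hk
  have hPG : IsPGroup p (G ⧸ N) := IsPGroup.of_card hcardQ
  apply Set.eq_of_subset_of_subset
  · intro χ hχ
    have hSB : Cfsg.SameBlock M (fun _ : G => (1 : ℂ)) (χ : G → ℂ) := hχ
    have hcon0 : Cfsg.classInner (fun _ : N => (1 : ℂ)) (fun _ : N => (1 : ℂ)) ≠ 0 := by
      rw [classInner_irr_self (isIrrCharacter_one N)]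
      exact one_ne_zero
    have hcon := same_block_constituent_lead p M hM N hcop ⟨fun _ => 1, isIrrCharacter_one G⟩ χ
      hSB ⟨fun _ => 1, isIrrCharacter_one N⟩ hcon0
    obtain ⟨e, he0, -, he⟩ := restrict_eq_smul_of_invariant N (χ : G → ℂ) χ.2
      (fun _ : N => (1 : ℂ)) (isIrrCharacter_one N) hcon (fun g n => rfl)
    show ∀ n ∈ N, (χ : G → ℂ) n = (χ : G → ℂ) 1
    intro x hx
    have h1 := congrFun he ⟨x, hx⟩
    have h2 := congrFun he ⟨1, N.one_mem⟩
    simp only [Pi.smul_apply] at h1 h2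
    exact h1.trans h2.symm
  · intro χ hχ
    have hχN : ∀ n ∈ N, (χ : G → ℂ) n = (χ : G → ℂ) 1 := hχ
    obtain ⟨φ, hφ, hχφ⟩ := Cfsg.Agent.Lib.Helper8.irr_deflate N χ.2 hχN
    have hpg := pgroup_block_lead p M hMprime hpM (Nat.card (G ⧸ N)) (G ⧸ N) rfl hPG φ hφ
    show Cfsg.SameBlock M (fun _ : G => (1 : ℂ)) (χ : G → ℂ)
    intro g
    have hdvd : (Subgroup.centralizer ({(g : G ⧸ N)} : Set (G ⧸ N))).index ∣
        (Subgroup.centralizer ({g} : Set G)).index := by
      have hle : Subgroup.centralizer ({g} : Set G) ≤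
          (Subgroup.centralizer ({(g : G ⧸ N)} : Set (G ⧸ N))).comap (QuotientGroup.mk' N) := by
        intro c hc
        rw [Subgroup.mem_comap, Subgroup.mem_centralizer_iff]
        intro y hy
        rw [Set.mem_singleton_iff.mp hy]
        have hcg : g * c = c * g := Subgroup.mem_centralizer_iff.mp hc g (Set.mem_singleton g)
        show ((g : G) : G ⧸ N) * ((c : G) : G ⧸ N) = ((c : G) : G ⧸ N) * ((g : G) : G ⧸ N)
        rw [← QuotientGroup.mk_mul, ← QuotientGroup.mk_mul, hcg]
      have h := Subgroup.index_dvd_of_le hle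
      rw [Subgroup.index_comap_of_surjective _ (QuotientGroup.mk'_surjective N)] at h
      exact h
    obtain ⟨r, hr⟩ := hdvd
    have h3 := memLocalIdeal_smul_lead (M := M) ((r : ℕ) : Cfsg.AlgInt) (hpg (g : G ⧸ N))
    have e : Cfsg.centralChar (fun _ : G => (1 : ℂ)) g - Cfsg.centralChar (χ : G → ℂ) g =
        (((r : ℕ) : Cfsg.AlgInt) : ℂ) *
          (Cfsg.centralChar (fun _ : G ⧸ N => (1 : ℂ)) (g : G ⧸ N) -
            Cfsg.centralChar φ (g : G ⧸ N)) := by
      rw [hχφ]
      show ((Subgroup.centralizer ({g} : Set G)).index : ℂ) * 1 / 1 -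
          ((Subgroup.centralizer ({g} : Set G)).index : ℂ) * φ ((g : G) : G ⧸ N) / φ 1 =
        (r : ℂ) * (((Subgroup.centralizer ({(g : G ⧸ N)} : Set (G ⧸ N))).index : ℂ) * 1 / 1 -
          ((Subgroup.centralizer ({(g : G ⧸ N)} : Set (G ⧸ N))).index : ℂ) *
            φ (g : G ⧸ N) / φ 1)
      rw [hr]
      simp only [Nat.cast_mul]
      ring
    rw [e]
    exact h3

end Cfsg.Agent.S0939
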