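import Cfsg.Statements.S0942
import Mathlib
import Cfsg.Agent.S0919
import Cfsg.Agent.S0923
import Cfsg.Agent.S0936
import Cfsg.Agent.S4430
import Cfsg.Agent.Lib.Helper7.Fong
import Cfsg.Agent.Lib.Helper3.PPrimeCore
import Cfsg.Agent.Lib.Lead.CharComplete
import Cfsg.Agent.Lib.Lead.BlockAux
-- import your own Cfsg.Agent.* helpers here

set_option autoImplicit false
open Cfsg
open Cfsg.Agent.Lib.Helper7 Cfsg.Agent.Lib.Lead
open scoped ComplexConjugate

namespace Cfsg.Agent.S0942

/-- Let u be a p-element of the finite group G, let v lie in the largest normal subgroup of C_G(u) of order prime to p, and let χ belong to the principal block (relative to a maximal ideal M of the algebraic integers containing p). Then χ (u * v) = χ u. -/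
theorem result {G : Type*} [Group G] [Finite G] (p : ℕ) [Fact p.Prime] (M : Ideal Cfsg.AlgInt) (hM : Cfsg.IsPModular p M) (u : G) (hu : ∃ k : ℕ, orderOf u = p ^ k) (v : G) (hv : v ∈ Cfsg.centralizerPPrimeCore p u) (χ : Cfsg.IrrCharacter G) (hχ : χ ∈ Cfsg.principalBlock M G) : (χ : G → ℂ) (u * v) = (χ : G → ℂ) u := by
  classical
  have hp : p.Prime := hM.1
  have hMprime : M.IsPrime := hM.2.1.isPrime
  have hMtop : M ≠ ⊤ := hMprime.ne_top
  obtain ⟨w, hw, hwv⟩ := Subgroup.mem_map.1 hv
  haveI : Fintype (Subgroup.centralizer ({u} : Set G)) := Fintype.ofFinite _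
  haveI : Fintype (Cfsg.IrrCharacter (Subgroup.centralizer ({u} : Set G))) :=
    Fintype.ofFinite _
  obtain ⟨kx, hkx⟩ := hu
  have hxC : u ∈ Subgroup.centralizer ({u} : Set G) := by
    rw [Subgroup.mem_centralizer_iff]
    intro h hh
    rw [Set.mem_singleton_iff.1 hh]
  have hP : IsPGroup p (Subgroup.zpowers u) :=
    IsPGroup.of_card (n := kx) (by rw [Nat.card_zpowers, hkx])
  have hPC : Subgroup.zpowers u ≤ Subgroup.centralizer ({u} : Set G) := by
    rw [Subgroup.zpowers_le]
    exact hxC
  have hCC : Subgroup.centralizer ((Subgroup.zpowers u : Subgroup G) : Set G) ≤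
      Subgroup.centralizer ({u} : Set G) :=
    Subgroup.centralizer_le (Set.singleton_subset_iff.2 (Subgroup.mem_zpowers u))
  have hCcent : Subgroup.centralizer ({u} : Set G) ≤
      Subgroup.centralizer ((Subgroup.zpowers u : Subgroup G) : Set G) := by
    intro g hg
    rw [Subgroup.mem_centralizer_iff] at hg ⊢
    intro h hh
    obtain ⟨n, rfl⟩ := Subgroup.mem_zpowers_iff.1 hh
    have hc : Commute u g := hg u (Set.mem_singleton u)
    exact (hc.zpow_left n).eq
  have hCN : Subgroup.centralizer ({u} : Set G) ≤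
      Subgroup.normalizer ((Subgroup.zpowers u : Subgroup G) : Set G) := by
    intro g hg
    have hg' := Subgroup.mem_centralizer_iff.1 (hCcent hg)
    rw [Subgroup.mem_normalizer_iff]
    intro h
    constructor
    · intro hh
      have e : g * h * g⁻¹ = h := by rw [← hg' h hh, mul_inv_cancel_right]
      rw [e]
      exact hh
    · intro hh
      have e1 : g * h * g⁻¹ * g = g * (g * h * g⁻¹) := hg' _ hh
      have h2 : g * h = g * (g * h * g⁻¹) := by
        rw [← e1]
        group
      have e : h = g * h * g⁻¹ := mul_left_cancel h2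
      rw [e]
      exact hh
  have hPB : Cfsg.IsPBlock M (Cfsg.principalBlock M G) :=
    ⟨⟨fun _ => 1, isIrrCharacter_one _⟩, rfl⟩
  have hcl : Cfsg.IsClassFunction (Subgroup.centralizer ({u} : Set G))
      (fun c : Subgroup.centralizer ({u} : Set G) => (χ : G → ℂ) (u * (c : G))) := by
    intro c t
    show (χ : G → ℂ) (u * ((t * c * t⁻¹ : Subgroup.centralizer ({u} : Set G)) : G)) =
      (χ : G → ℂ) (u * (c : G))
    have ht : u * (t : G) = (t : G) * u :=
      Subgroup.mem_centralizer_iff.1 t.2 u (Set.mem_singleton u)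
    have e : u * ((t * c * t⁻¹ : Subgroup.centralizer ({u} : Set G)) : G) =
        (t : G) * (u * (c : G)) * (t : G)⁻¹ := by
      show u * ((t : G) * (c : G) * (t : G)⁻¹) = (t : G) * (u * (c : G)) * (t : G)⁻¹
      calc u * ((t : G) * (c : G) * (t : G)⁻¹) = (u * (t : G)) * (c : G) * (t : G)⁻¹ := by
            group
        _ = ((t : G) * u) * (c : G) * (t : G)⁻¹ := by rw [ht]
        _ = (t : G) * (u * (c : G)) * (t : G)⁻¹ := by group
    rw [e]
    exact isClassFunction_of_irr χ.2 _ _
  obtain ⟨ϑ, hϑ⟩ : ∃ ϑ : Subgroup.centralizer ({u} : Set G) → ℂ,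
      ϑ = fun c : Subgroup.centralizer ({u} : Set G) => (χ : G → ℂ) (u * (c : G)) :=
    ⟨_, rfl⟩
  rw [← hϑ] at hcl
  obtain ⟨R, hR⟩ : ∃ R : Setoid (Cfsg.IrrCharacter (Subgroup.centralizer ({u} : Set G))),
      ∀ a b, R a b ↔ Cfsg.SameBlock M
        (a : Subgroup.centralizer ({u} : Set G) → ℂ) (b : Subgroup.centralizer ({u} : Set G) → ℂ) :=
    ⟨⟨fun a b => Cfsg.SameBlock M
        (a : Subgroup.centralizer ({u} : Set G) → ℂ) (b : Subgroup.centralizer ({u} : Set G) → ℂ),
      ⟨fun a => sameBlock_refl_lead hMtop _, fun h => sameBlock_symm_lead h,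
        fun h1 h2 => sameBlock_trans_lead hMprime h1 h2⟩⟩, fun a b => Iff.rfl⟩
  have key : ∀ y : Subgroup.centralizer ({u} : Set G), ¬ p ∣ orderOf y →
      ϑ y = Cfsg.blockPart (Cfsg.principalBlock M (Subgroup.centralizer ({u} : Set G))) ϑ y := by
    intro y hy
    obtain ⟨t, ht⟩ : ∃ t : Cfsg.IrrCharacter (Subgroup.centralizer ({u} : Set G)) → ℂ,
        ∀ ψ, t ψ = Cfsg.classInner ϑ (ψ : Subgroup.centralizer ({u} : Set G) → ℂ) *
          (ψ : Subgroup.centralizer ({u} : Set G) → ℂ) y := ⟨_, fun _ => rfl⟩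
    have hexp : ϑ y = ∑ ψ : Cfsg.IrrCharacter (Subgroup.centralizer ({u} : Set G)), t ψ := by
      have h := congrFun (classFunction_expansion_sum ϑ hcl) y
      rw [Finset.sum_apply] at h
      rw [h]
      apply Finset.sum_congr rfl
      intro ψ _
      rw [ht]
      rfl
    have hS : ∑ ψ ∈ Finset.univ.filter
        (fun ψ : Cfsg.IrrCharacter (Subgroup.centralizer ({u} : Set G)) =>
          ψ ∉ Cfsg.principalBlock M (Subgroup.centralizer ({u} : Set G))), t ψ = 0 := by
      apply Finset.sum_cancels_of_partition_cancels R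
      intro ψ₀ hψ₀
      have hψ₀' : ψ₀ ∉ Cfsg.principalBlock M (Subgroup.centralizer ({u} : Set G)) :=
        (Finset.mem_filter.1 hψ₀).2
      have hblock : Cfsg.IsPBlock M
          (Cfsg.blockOf M (ψ₀ : Subgroup.centralizer ({u} : Set G) → ℂ)) := ⟨ψ₀, rfl⟩
      have hdef := Cfsg.Agent.S0919.result p M hM (Subgroup.zpowers u)
        (Subgroup.centralizer ({u} : Set G)) hP hPC hCC hCN _ hblock
      have hnot : ¬ Cfsg.IsInducedBlock M (Subgroup.centralizer ({u} : Set G))
          (Cfsg.blockOf M (ψ₀ : Subgroup.centralizer ({u} : Set G) → ℂ))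
          (Cfsg.principalBlock M G) := by
        intro hind
        have e := (Cfsg.Agent.S0936.result p M hM (Subgroup.centralizer ({u} : Set G))
          _ hdef).1 hind
        apply hψ₀'
        rw [← e]
        exact sameBlock_refl_lead hMtop _
      have h923 := Cfsg.Agent.S0923.result p M hM u ⟨kx, hkx⟩ (Cfsg.principalBlock M G) hPB
        χ hχ _ hblock hnot y hy
      rw [← hϑ, Cfsg.Agent.S4430.blockPart_eq_aux] at h923
      simp only [Finset.sum_filter]
      refine Eq.trans (Finset.sum_congr rfl ?_) h923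
      intro a _
      by_cases ha : Cfsg.SameBlock M (ψ₀ : Subgroup.centralizer ({u} : Set G) → ℂ)
          (a : Subgroup.centralizer ({u} : Set G) → ℂ)
      · have ha' : a ∉ Cfsg.principalBlock M (Subgroup.centralizer ({u} : Set G)) := by
          intro h
          exact hψ₀' (sameBlock_trans_lead hMprime h (sameBlock_symm_lead ha))
        have hRa : R a ψ₀ := (hR a ψ₀).2 (sameBlock_symm_lead ha)
        rw [if_pos ha', if_pos hRa,
          if_pos (show a ∈ Cfsg.blockOf M (ψ₀ : Subgroup.centralizer ({u} : Set G) → ℂ)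
            from ha), ht]
      · have hRa : ¬ R a ψ₀ := fun h => ha (sameBlock_symm_lead ((hR a ψ₀).1 h))
        rw [if_neg hRa, ite_self,
          if_neg (show a ∉ Cfsg.blockOf M (ψ₀ : Subgroup.centralizer ({u} : Set G) → ℂ)
            from ha)]
    rw [Cfsg.Agent.S4430.blockPart_eq_aux, hexp]
    have hsplit : ∀ ψ : Cfsg.IrrCharacter (Subgroup.centralizer ({u} : Set G)), t ψ =
        (if ψ ∈ Cfsg.principalBlock M (Subgroup.centralizer ({u} : Set G)) then
          Cfsg.classInner ϑ (ψ : Subgroup.centralizer ({u} : Set G) → ℂ) *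
            (ψ : Subgroup.centralizer ({u} : Set G) → ℂ) y else 0) +
        (if ψ ∉ Cfsg.principalBlock M (Subgroup.centralizer ({u} : Set G)) then t ψ
          else 0) := by
      intro ψ
      by_cases h : ψ ∈ Cfsg.principalBlock M (Subgroup.centralizer ({u} : Set G))
      · rw [if_pos h, if_neg (not_not.2 h), add_zero, ht]
      · rw [if_neg h, if_pos h, zero_add]
    rw [Finset.sum_congr rfl (fun ψ _ => hsplit ψ), Finset.sum_add_distrib,
      ← Finset.sum_filter (fun ψ : Cfsg.IrrCharacter (Subgroup.centralizer ({u} : Set G)) =>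
          ψ ∉ Cfsg.principalBlock M (Subgroup.centralizer ({u} : Set G))) t, hS, add_zero]
  have hw_reg : ¬ p ∣ orderOf w := by
    intro hdvd
    have h1 : orderOf (⟨w, hw⟩ : Cfsg.pPrimeCore p (Subgroup.centralizer ({u} : Set G))) =
        orderOf w := Subgroup.orderOf_mk w hw
    have h2 := orderOf_dvd_natCard
      (⟨w, hw⟩ : Cfsg.pPrimeCore p (Subgroup.centralizer ({u} : Set G)))
    have hcop := Cfsg.Agent.Lib.Helper3.pPrimeCore_coprime hp
      (Subgroup.centralizer ({u} : Set G))
    have h3 : p ∣ Nat.card (Cfsg.pPrimeCore p (Subgroup.centralizer ({u} : Set G))) := by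
      rw [← h1] at hdvd
      exact dvd_trans hdvd h2
    exact (Nat.Prime.coprime_iff_not_dvd hp).1 hcop.symm h3
  have h1reg : ¬ p ∣ orderOf (1 : Subgroup.centralizer ({u} : Set G)) := by
    rw [orderOf_one]
    exact Nat.Prime.not_dvd_one hp
  have hkw := key w hw_reg
  have hk1 := key 1 h1reg
  have hpart : Cfsg.blockPart (Cfsg.principalBlock M (Subgroup.centralizer ({u} : Set G))) ϑ w =
      Cfsg.blockPart (Cfsg.principalBlock M (Subgroup.centralizer ({u} : Set G))) ϑ 1 := by
    rw [Cfsg.Agent.S4430.blockPart_eq_aux, Cfsg.Agent.S4430.blockPart_eq_aux]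
    apply Finset.sum_congr rfl
    intro ψ _
    by_cases h : ψ ∈ Cfsg.principalBlock M (Subgroup.centralizer ({u} : Set G))
    · rw [if_pos h, if_pos h, fong_ker p M hM ψ h w hw]
    · rw [if_neg h, if_neg h]
  have hfin : ϑ w = ϑ 1 := by rw [hkw, hpart, ← hk1]
  rw [hϑ] at hfin
  have hfin' : (χ : G → ℂ) (u * (w : G)) =
      (χ : G → ℂ) (u * ((1 : Subgroup.centralizer ({u} : Set G)) : G)) := hfin
  rw [← hwv]
  show (χ : G → ℂ) (u * (w : G)) = (χ : G → ℂ) u
  rw [hfin']
  show (χ : G → ℂ) (u * (1 : G)) = (χ : G → ℂ) u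
  rw [mul_one]


end Cfsg.Agent.S0942
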