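import Mathlib
import Cfsg.Statements.S0943
import Cfsg.Agent.Lib.Helper8.CharClassProd

set_option autoImplicit false
open Cfsg

namespace Cfsg.Agent.S0943

/-- Let χ be an irreducible character of the finite group G and u, v ∈ G. If χ (x * y) = χ (u * v) whenever x is conjugate to u and y is conjugate to v, then χ u * χ v = χ 1 * χ (u * v). (Multiply the class sums of u and v and apply the central character of χ.) -/
theorem result {G : Type*} [Group G] [Finite G] (χ : Cfsg.IrrCharacter G) (u v : G) (hc : ∀ x y : G, IsConj u x → IsConj v y → (χ : G → ℂ) (x * y) = (χ : G → ℂ) (u * v)) : (χ : G → ℂ) u * (χ : G → ℂ) v = (χ : G → ℂ) 1 * (χ : G → ℂ) (u * v) := by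
  have h := Cfsg.Agent.Lib.Helper8.irr_const_on_products χ u v ((χ : G → ℂ) (u * v)) (by
    intro a b
    exact hc _ _ (isConj_iff.mpr ⟨a, rfl⟩) (isConj_iff.mpr ⟨b, rfl⟩))
  exact h.symm

end Cfsg.Agent.S0943
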