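import Mathlib
import Cfsg.Statements.S0944
import Cfsg.Agent.Lib.Lead.CharFS
import Cfsg.Agent.Lib.Lead.CharZeros

set_option autoImplicit false
open Cfsg

namespace Cfsg.Agent.S0944

/-- Let χ be an irreducible character of the finite group G and u an involution. Then χ u is a rational integer n with n ≡ χ 1 (mod 2). -/
theorem result {G : Type*} [Group G] [Finite G] (χ : Cfsg.IrrCharacter G) (u : G) (hu : orderOf u = 2) : ∃ n : ℤ, (χ : G → ℂ) u = (n : ℂ) ∧ (2 : ℤ) ∣ (Cfsg.charDegree (χ : G → ℂ) : ℤ) - n := by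
  obtain ⟨n, ρ, hρ, hρχ⟩ := χ.2
  obtain ⟨hd1, hd0⟩ := Cfsg.Agent.Lib.Lead.charDegree_irr χ.2
  have huu : u * u = 1 := by
    have h := pow_orderOf_eq_one u
    rw [hu, pow_two] at h
    exact h
  have hTT : ρ u * ρ u = 1 := by rw [← map_mul, huu, map_one]
  obtain ⟨E, hEdef⟩ : ∃ E : (Fin n → ℂ) →ₗ[ℂ] (Fin n → ℂ), E = (1 / 2 : ℂ) • (1 + ρ u) :=
    ⟨_, rfl⟩
  have h1 : (1 + ρ u) * (1 + ρ u) = (2 : ℂ) • (1 + ρ u) := by
    have h2 : (1 + ρ u) * (1 + ρ u) = 1 + ρ u + ρ u + ρ u * ρ u := by noncomm_ring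
    rw [h2, hTT, two_smul]
    abel
  have hEE : E * E = E := by
    rw [hEdef, smul_mul_smul_comm, h1, smul_smul]
    norm_num
  obtain ⟨a, ha⟩ := Cfsg.Agent.Lib.Lead.trace_idempotent_nat E hEE
  have ht1 : LinearMap.trace ℂ (Fin n → ℂ) (1 : (Fin n → ℂ) →ₗ[ℂ] (Fin n → ℂ)) =
      (Cfsg.charDegree (χ : G → ℂ) : ℂ) := by
    rw [← hd1, ← hρχ]
    have hρ1 : ρ 1 = 1 := map_one ρ
    show _ = LinearMap.trace ℂ (Fin n → ℂ) (ρ 1)
    rw [hρ1]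
  have htu : LinearMap.trace ℂ (Fin n → ℂ) (ρ u) = (χ : G → ℂ) u := by
    rw [← hρχ]
    rfl
  have h3 : (1 / 2 : ℂ) * ((Cfsg.charDegree (χ : G → ℂ) : ℂ) + (χ : G → ℂ) u) = (a : ℂ) := by
    rw [← ha, hEdef, map_smul, map_add, ht1, htu, smul_eq_mul]
  refine ⟨2 * (a : ℤ) - (Cfsg.charDegree (χ : G → ℂ) : ℤ), ?_, ?_⟩
  · push_cast
    linear_combination (2 : ℂ) * h3
  · exact ⟨(Cfsg.charDegree (χ : G → ℂ) : ℤ) - (a : ℤ), by ring⟩

end Cfsg.Agent.S0944
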