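import Mathlib
import Cfsg.Statements.S0946
import Cfsg.Agent.Lib.Helper2.Homocyclic

set_option autoImplicit false
open Cfsg

namespace Cfsg.Agent.S0946

/-- Let P be a Sylow 2-subgroup of the finite group G isomorphic to Z/2^m × Z/2^m with m ≥ 1. Then either P has a normal complement in G, or all involutions of G are conjugate. -/
theorem result {G : Type*} [Group G] [Finite G] (P : Sylow 2 G) (m : ℕ) (hm : 1 ≤ m) (e : (P : Subgroup G) ≃* Multiplicative (ZMod (2 ^ m) × ZMod (2 ^ m))) : (∃ N : Subgroup G, N.Normal ∧ Subgroup.IsComplement' N (P : Subgroup G)) ∨ ∀ s t : G, orderOf s = 2 → orderOf t = 2 → IsConj s t := by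
  classical
  haveI : Fact (Nat.Prime 2) := ⟨Nat.prime_two⟩
  obtain ⟨h13, hrest⟩ := Cfsg.Agent.Lib.Helper2.homocyclic_main P m hm e
  by_cases h1 : (Subgroup.centralizer ((P : Subgroup G) : Set G)).relIndex
      (Subgroup.normalizer ((P : Subgroup G) : Set G)) = 1
  · left
    have hNC : Subgroup.normalizer ((P : Subgroup G) : Set G)
        ≤ Subgroup.centralizer ((P : Subgroup G) : Set G) := Subgroup.relIndex_eq_one.mp h1
    exact ⟨_, inferInstance, MonoidHom.ker_transferSylow_isComplement' P hNC⟩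
  · right
    obtain ⟨_, n, hnN, hconj⟩ := hrest h1
    intro s t hs ht
    have hs2 : s ^ 2 = 1 := by rw [← hs]; exact pow_orderOf_eq_one s
    have ht2 : t ^ 2 = 1 := by rw [← ht]; exact pow_orderOf_eq_one t
    obtain ⟨g, hg⟩ := Cfsg.Agent.Lib.Lead.sylow_conj_mem P (Subgroup.zpowers s)
      (Cfsg.Agent.Lib.Helper2.isPGroup_zpowers_of_pow hs2)
    obtain ⟨h, hh⟩ := Cfsg.Agent.Lib.Lead.sylow_conj_mem P (Subgroup.zpowers t)
      (Cfsg.Agent.Lib.Helper2.isPGroup_zpowers_of_pow ht2)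
    have hgs := hg s (Subgroup.mem_zpowers s)
    have hht := hh t (Subgroup.mem_zpowers t)
    obtain ⟨i, hi⟩ := hconj (g * s * g⁻¹) (h * t * h⁻¹) hgs hht
      (by rw [Cfsg.Agent.Lib.Lead.orderOf_conj_eq, hs])
      (by rw [Cfsg.Agent.Lib.Lead.orderOf_conj_eq, ht])
    rw [isConj_iff]
    refine ⟨h⁻¹ * n ^ i * g, ?_⟩
    have e1 : h⁻¹ * n ^ i * g * s * (h⁻¹ * n ^ i * g)⁻¹
        = h⁻¹ * (n ^ i * (g * s * g⁻¹) * (n ^ i)⁻¹) * h := by
      simp only [mul_inv_rev, inv_inv, mul_assoc]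
    rw [e1, ← hi]
    simp only [mul_assoc, inv_mul_cancel_left, inv_mul_cancel, mul_one]

end Cfsg.Agent.S0946
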