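import Cfsg.Statements.S0952
import Mathlib
import Cfsg.Agent.Lib.Lead.SylowAux2
import Cfsg.Agent.S0907
import Cfsg.Agent.Lib.Lead.BlockAux
import Cfsg.Agent.Lib.Lead.CharIsom

set_option autoImplicit false
open scoped ComplexConjugate
open Cfsg Cfsg.Agent.Lib.Lead

namespace Cfsg.Agent.S0952

open scoped Pointwise commutatorElement

/-- Let χ and ψ be irreducible characters of the finite group G lying in different blocks relative to a maximal ideal M of the algebraic integers containing the prime p. Then the sum of χ x * conj (ψ x) over the elements x of order prime to p is zero. -/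
theorem result {G : Type*} [Group G] [Finite G] (p : ℕ) [Fact p.Prime] (M : Ideal Cfsg.AlgInt) (hM : Cfsg.IsPModular p M) (χ ψ : Cfsg.IrrCharacter G) (h : ¬ Cfsg.SameBlock M (χ : G → ℂ) (ψ : G → ℂ)) : ∑ᶠ x ∈ {x : G | ¬ p ∣ orderOf x}, (χ : G → ℂ) x * conj ((ψ : G → ℂ) x) = 0 := by
  classical
  haveI : Fintype G := Fintype.ofFinite G
  haveI : Fintype (Cfsg.IrrCharacter G) := Fintype.ofFinite _
  have hM' := hM
  obtain ⟨hp, hMmax, hpM⟩ := hM
  have hMprime : M.IsPrime := hMmax.isPrime
  have hMtop : M ≠ ⊤ := hMprime.ne_top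
  have hG0 : (Nat.card G : ℂ) ≠ 0 := by exact_mod_cast Nat.card_pos.ne'
  obtain ⟨B, hB⟩ : ∃ B : Set (Cfsg.IrrCharacter G), B = Cfsg.blockOf M (χ : G → ℂ) :=
    ⟨_, rfl⟩
  have hχB : χ ∈ B := by
    rw [hB]
    exact sameBlock_refl_lead hMtop _
  have hψB : ψ ∉ B := by
    rw [hB]
    exact h
  obtain ⟨w, hw⟩ : ∃ w : G → ℂ, ∀ x, w x = if ¬ p ∣ orderOf x then 1 else 0 :=
    ⟨fun x => if ¬ p ∣ orderOf x then 1 else 0, fun _ => rfl⟩
  obtain ⟨I, hI⟩ : ∃ I : Cfsg.IrrCharacter G → ℂ, ∀ φ, I φ = if φ ∈ B then 1 else 0 :=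
    ⟨fun φ => if φ ∈ B then 1 else 0, fun _ => rfl⟩
  obtain ⟨S, hS⟩ : ∃ S : Cfsg.IrrCharacter G → ℂ, ∀ φ, S φ =
      ∑ y : G, w y * ((φ : G → ℂ) y * conj ((ψ : G → ℂ) y)) :=
    ⟨fun φ => ∑ y : G, w y * ((φ : G → ℂ) y * conj ((ψ : G → ℂ) y)), fun _ => rfl⟩
  obtain ⟨W, hW⟩ : ∃ W : G → G → ℂ, ∀ x y, W x y =
      ∑ φ : Cfsg.IrrCharacter G, I φ * (conj ((φ : G → ℂ) x) * (φ : G → ℂ) y) :=
    ⟨fun x y => ∑ φ : Cfsg.IrrCharacter G, I φ * (conj ((φ : G → ℂ) x) * (φ : G → ℂ) y),
      fun _ _ => rfl⟩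
  have hC1 : ∀ x y : G, w x * (w y * W x y) = w x * W x y := by
    intro x y
    by_cases hx : ¬ p ∣ orderOf x
    · by_cases hy : ¬ p ∣ orderOf y
      · rw [hw y, if_pos hy, one_mul]
      · have hy' : p ∣ orderOf y := not_not.mp hy
        have h0 := Cfsg.Agent.S0907.result p M hM' B ⟨χ, hB⟩ x y hx hy'
        have hW0 : W x y = 0 := by
          rw [hW]
          have e : ∑ φ : Cfsg.IrrCharacter G, I φ * (conj ((φ : G → ℂ) x) * (φ : G → ℂ) y) =
              conj (∑ᶠ χ' ∈ B, (χ' : G → ℂ) x * conj ((χ' : G → ℂ) y)) := by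
            rw [finsum_mem_def, finsum_eq_sum_of_fintype, map_sum]
            apply Finset.sum_congr rfl
            intro φ _
            rw [hI]
            by_cases hφ : φ ∈ B
            · rw [Set.indicator_of_mem hφ, if_pos hφ, one_mul, map_mul, Complex.conj_conj]
            · rw [Set.indicator_of_notMem hφ, if_neg hφ, zero_mul, map_zero]
          rw [e, h0, map_zero]
        rw [hW0, mul_zero, mul_zero]
    · rw [hw x, if_neg hx, zero_mul, zero_mul]
  have hortho : ∀ φ : Cfsg.IrrCharacter G,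
      ∑ y : G, (φ : G → ℂ) y * conj ((ψ : G → ℂ) y) =
        (Nat.card G : ℂ) * (if φ = ψ then 1 else 0) := by
    intro φ
    have h := classInner_irr' φ ψ
    unfold Cfsg.classInner at h
    rw [← h, ← mul_assoc, mul_inv_cancel₀ hG0, one_mul]
  have hC2 : ∀ x : G, ∑ y : G, W x y * conj ((ψ : G → ℂ) y) = 0 := by
    intro x
    calc ∑ y : G, W x y * conj ((ψ : G → ℂ) y)
        = ∑ y : G, ∑ φ : Cfsg.IrrCharacter G, I φ * conj ((φ : G → ℂ) x) *
            ((φ : G → ℂ) y * conj ((ψ : G → ℂ) y)) := by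
          apply Finset.sum_congr rfl
          intro y _
          rw [hW, Finset.sum_mul]
          apply Finset.sum_congr rfl
          intro φ _
          ring
      _ = ∑ φ : Cfsg.IrrCharacter G, I φ * conj ((φ : G → ℂ) x) *
            ∑ y : G, (φ : G → ℂ) y * conj ((ψ : G → ℂ) y) := by
          rw [Finset.sum_comm]
          apply Finset.sum_congr rfl
          intro φ _
          rw [Finset.mul_sum]
      _ = 0 := by
          apply Finset.sum_eq_zero
          intro φ _
          rw [hortho φ]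
          by_cases hφψ : φ = ψ
          · rw [hφψ, hI ψ, if_neg hψB, zero_mul, zero_mul]
          · rw [if_neg hφψ, mul_zero, mul_zero]
  have hC3 : ∀ x : G,
      w x * ∑ φ : Cfsg.IrrCharacter G, I φ * (conj ((φ : G → ℂ) x) * S φ) = 0 := by
    intro x
    calc w x * ∑ φ : Cfsg.IrrCharacter G, I φ * (conj ((φ : G → ℂ) x) * S φ)
        = w x * ∑ φ : Cfsg.IrrCharacter G, ∑ y : G,
            w y * (I φ * (conj ((φ : G → ℂ) x) * (φ : G → ℂ) y)) * conj ((ψ : G → ℂ) y) := by
          congr 1
          apply Finset.sum_congr rfl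
          intro φ _
          rw [hS, Finset.mul_sum, Finset.mul_sum]
          apply Finset.sum_congr rfl
          intro y _
          ring
      _ = w x * ∑ y : G, w y * W x y * conj ((ψ : G → ℂ) y) := by
          congr 1
          rw [Finset.sum_comm]
          apply Finset.sum_congr rfl
          intro y _
          rw [hW, Finset.mul_sum, Finset.sum_mul]
      _ = ∑ y : G, (w x * (w y * W x y)) * conj ((ψ : G → ℂ) y) := by
          rw [Finset.mul_sum]
          apply Finset.sum_congr rfl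
          intro y _
          ring
      _ = ∑ y : G, w x * (W x y * conj ((ψ : G → ℂ) y)) := by
          apply Finset.sum_congr rfl
          intro y _
          rw [hC1 x y, mul_assoc]
      _ = 0 := by rw [← Finset.mul_sum, hC2 x, mul_zero]
  have hconjS : ∀ φ : Cfsg.IrrCharacter G, conj (S φ) =
      ∑ x : G, w x * (conj ((φ : G → ℂ) x) * (ψ : G → ℂ) x) := by
    intro φ
    rw [hS, map_sum]
    apply Finset.sum_congr rfl
    intro x _
    have hwc : conj (w x) = w x := by
      rw [hw]
      split_ifs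
      · exact map_zero _
      · exact map_one _
    rw [map_mul, map_mul, Complex.conj_conj, hwc]
  have hC4 : ∑ φ : Cfsg.IrrCharacter G, I φ * (conj (S φ) * S φ) = 0 := by
    calc ∑ φ : Cfsg.IrrCharacter G, I φ * (conj (S φ) * S φ)
        = ∑ φ : Cfsg.IrrCharacter G, ∑ x : G,
            (ψ : G → ℂ) x * (w x * (I φ * (conj ((φ : G → ℂ) x) * S φ))) := by
          apply Finset.sum_congr rfl
          intro φ _
          rw [hconjS, Finset.sum_mul, Finset.mul_sum]
          apply Finset.sum_congr rfl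
          intro x _
          ring
      _ = ∑ x : G, (ψ : G → ℂ) x *
            (w x * ∑ φ : Cfsg.IrrCharacter G, I φ * (conj ((φ : G → ℂ) x) * S φ)) := by
          rw [Finset.sum_comm]
          apply Finset.sum_congr rfl
          intro x _
          rw [Finset.mul_sum, Finset.mul_sum]
      _ = 0 := by
          apply Finset.sum_eq_zero
          intro x _
          rw [hC3 x, mul_zero]
  have hSχ : S χ = 0 := by
    have hre : ∀ φ : Cfsg.IrrCharacter G, I φ * (conj (S φ) * S φ) =
        ((if φ ∈ B then Complex.normSq (S φ) else 0 : ℝ) : ℂ) := by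
      intro φ
      rw [hI, mul_comm (conj (S φ)) (S φ), Complex.mul_conj]
      by_cases hφ : φ ∈ B
      · rw [if_pos hφ, if_pos hφ, one_mul]
      · rw [if_neg hφ, if_neg hφ, zero_mul, Complex.ofReal_zero]
    rw [Finset.sum_congr rfl (fun φ _ => hre φ), ← Complex.ofReal_sum] at hC4
    have hC4' : ∑ φ : Cfsg.IrrCharacter G, (if φ ∈ B then Complex.normSq (S φ) else 0) = 0 := by
      exact_mod_cast hC4
    have hnn : ∀ φ ∈ (Finset.univ : Finset (Cfsg.IrrCharacter G)),
        (0 : ℝ) ≤ (if φ ∈ B then Complex.normSq (S φ) else 0) := by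
      intro φ _
      split_ifs
      · exact Complex.normSq_nonneg _
      · exact le_refl _
    have h0 := (Finset.sum_eq_zero_iff_of_nonneg hnn).mp hC4' χ (Finset.mem_univ _)
    rw [if_pos hχB] at h0
    exact Complex.normSq_eq_zero.mp h0
  rw [finsum_mem_def, finsum_eq_sum_of_fintype]
  refine Eq.trans ?_ hSχ
  rw [hS]
  apply Finset.sum_congr rfl
  intro x _
  rw [hw]
  by_cases hx : ¬ p ∣ orderOf x
  · rw [Set.indicator_of_mem (show x ∈ {x : G | ¬ p ∣ orderOf x} from hx), if_pos hx, one_mul]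
  · rw [Set.indicator_of_notMem (show x ∉ {x : G | ¬ p ∣ orderOf x} from hx), if_neg hx,
      zero_mul]

end Cfsg.Agent.S0952
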