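import Cfsg.Statements.S0966
import Mathlib
import Cfsg.Agent.Lib.Lead.SylowAux2
import Cfsg.Agent.Lib.Lead.BlockPQuot
import Cfsg.Agent.S0965
import Cfsg.Agent.Lib.Lead.CharInd3
import Cfsg.Agent.Lib.Lead.CharCenter
import Cfsg.Agent.Lib.Lead.BlockAux

set_option autoImplicit false
open Cfsg Cfsg.Agent.Lib.Lead

namespace Cfsg.Agent.S0966

open scoped Pointwise commutatorElement

/-- Let N be a normal subgroup of p-power index in the finite group G and b a block of N relative to a maximal ideal M of the algebraic integers containing p. Then there is exactly one block B of G containing a character whose restriction to N has a constituent in b. -/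
theorem result {G : Type*} [Group G] [Fintype G] (p : ℕ) [Fact p.Prime] (M : Ideal Cfsg.AlgInt) (hM : Cfsg.IsPModular p M) (N : Subgroup G) [N.Normal] [Fintype N] (hidx : ∃ k : ℕ, N.index = p ^ k) (b : Set (Cfsg.IrrCharacter N)) (hb : Cfsg.IsPBlock M b) : ∃! B : Set (Cfsg.IrrCharacter G), Cfsg.IsPBlock M B ∧ ∃ χ ∈ B, ∃ θ ∈ b, Cfsg.classInner (fun n : N => (χ : G → ℂ) n) (θ : N → ℂ) ≠ 0 := by
  classical
  haveI : Fintype (Cfsg.IrrCharacter G) := Fintype.ofFinite _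
  haveI : Fintype (ConjClasses G) := Fintype.ofFinite _
  have hM' := hM
  have hb' := hb
  obtain ⟨hp, hMmax, hpM⟩ := hM
  have hMprime : M.IsPrime := hMmax.isPrime
  have hMtop : M ≠ ⊤ := hMprime.ne_top
  have hone : ¬ Cfsg.MemLocalIdeal M (1 : ℂ) := by
    intro h
    have h1 : (1 : Cfsg.AlgInt) ∈ M := mem_of_memLocalIdeal_lead hMprime 1 h
    exact hMtop ((Ideal.eq_top_iff_one M).mpr h1)
  obtain ⟨θ₀, hθ₀b⟩ := hb
  have hθ₀ : θ₀ ∈ b := by
    rw [hθ₀b]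
    exact sameBlock_refl_lead hMtop _
  obtain ⟨χ₀f, hχ₀irr, hχ₀ne⟩ := exists_constituent
    (isCharacter_indFun N (θ₀ : N → ℂ) (isCharacter_of_isIrrCharacter θ₀.2)) (by
      rw [indFun_one]
      obtain ⟨d, hd0, hd⟩ := irr_one θ₀.2
      rw [hd]
      have hi : N.index ≠ 0 := Subgroup.index_ne_zero_of_finite
      exact mul_ne_zero (Nat.cast_ne_zero.mpr hi) (Nat.cast_ne_zero.mpr hd0))
  have hχ₀θ : Cfsg.classInner (fun n : N => χ₀f n) (θ₀ : N → ℂ) ≠ 0 := by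
    rw [frobenius_reciprocity N (θ₀ : N → ℂ) χ₀f (isClassFunction_of_irr hχ₀irr)] at hχ₀ne
    rw [← classInner_conj_symm]
    exact (map_ne_zero _).mpr hχ₀ne
  obtain ⟨χ₀, hχ₀def⟩ : ∃ χ₀ : Cfsg.IrrCharacter G, (χ₀ : G → ℂ) = χ₀f :=
    ⟨⟨χ₀f, hχ₀irr⟩, rfl⟩
  rw [← hχ₀def] at hχ₀θ
  have hχ₀B : χ₀ ∈ Cfsg.blockOf M (χ₀ : G → ℂ) := sameBlock_refl_lead hMtop _
  have hBblock : Cfsg.IsPBlock M (Cfsg.blockOf M (χ₀ : G → ℂ)) := ⟨χ₀, rfl⟩
  refine ⟨Cfsg.blockOf M (χ₀ : G → ℂ), ⟨hBblock, χ₀, hχ₀B, θ₀, hθ₀, hχ₀θ⟩, ?_⟩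
  rintro B' ⟨hB', ψ, hψB', θ', hθ'b, hψθ'⟩
  -- the block idempotent of the block of χ₀
  obtain ⟨ι, hιspec, hι1, hι0⟩ := isLocSpec_block_lead p hp M hMprime hpM χ₀
  obtain ⟨c, hc, hcR, hcT⟩ := hιspec
  have hι01 : ∀ η : Cfsg.IrrCharacter G, ι η * ι η = ι η := by
    intro η
    by_cases hη : η ∈ Cfsg.blockOf M (χ₀ : G → ℂ)
    · rw [hι1 η hη, mul_one]
    · rw [hι0 η hη, mul_zero]
  have hη1 : ∀ η : Cfsg.IrrCharacter G, (η : G → ℂ) 1 ≠ 0 := by
    intro η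
    obtain ⟨d, hd0, hd⟩ := irr_one η.2
    rw [hd]
    exact_mod_cast hd0
  have hidem : ∀ g, ∑ x : G, c x * c (x⁻¹ * g) = c g := by
    intro g
    have hc2 := conv_classFun_lead c c hc hc
    have hc2T : ∀ η : Cfsg.IrrCharacter G,
        ∑ y : G, (fun y => ∑ x : G, c x * c (x⁻¹ * y)) y * (η : G → ℂ) y
          = ι η * (η : G → ℂ) 1 := by
      intro η
      have h1 := conv_transform_lead c c hc (η : G → ℂ) η.2
      rw [hcT η] at h1
      refine h1.trans ?_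
      rw [mul_div_assoc, mul_div_cancel_right₀ _ (hη1 η), mul_comm (ι η * (η : G → ℂ) 1),
        ← mul_assoc, hι01 η]
    have e1 := specT_unique_lead (fun y => ∑ x : G, c x * c (x⁻¹ * y)) hc2 ι hc2T g
    have e2 := specT_unique_lead c hc ι hcT g
    exact e1.trans e2.symm
  have hsupp := idem_support_lead p hp hMprime hpM N.index G N le_rfl hidx c hc hcR hidem
  have hform : ∀ η : Cfsg.IrrCharacter G, ι η = ∑ L : ConjClasses G,
      c (Quotient.out L) * Cfsg.centralChar (η : G → ℂ) (Quotient.out L) :=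
    fun η => transform_formula_lead c hc η (ι η) (hcT η)
  have hP1 := (Cfsg.Agent.S0965.result p M hM' N (Cfsg.blockOf M (χ₀ : G → ℂ)) hBblock b hb').mp
    ⟨χ₀, hχ₀B, θ₀, hθ₀, hχ₀θ⟩
  have hP2 := (Cfsg.Agent.S0965.result p M hM' N B' hB' b hb').mp ⟨ψ, hψB', θ', hθ'b, hψθ'⟩
  have hdiff : Cfsg.MemLocalIdeal M (ι χ₀ - ι ψ) := by
    rw [hform χ₀, hform ψ, ← Finset.sum_sub_distrib]
    refine memLocalIdeal_sum_lead hMprime _ _ (fun L _ => ?_)
    rw [← mul_sub]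
    by_cases hL : Quotient.out L ∈ N
    · have h1 := hP1 χ₀ hχ₀B θ₀ hθ₀ ⟨Quotient.out L, hL⟩
      have h2 := hP2 ψ hψB' θ₀ hθ₀ ⟨Quotient.out L, hL⟩
      have h3 := memLocalIdeal_sub_lead hMprime h1 h2
      rw [sub_sub_sub_cancel_right] at h3
      exact memLocalIdeal_mul_ring_lead hMprime (hcR _) h3
    · rw [hsupp _ hL, zero_mul]
      exact memLocalIdeal_zero_lead hMtop
  have hψB : ψ ∈ Cfsg.blockOf M (χ₀ : G → ℂ) := by
    by_contra hcon
    rw [hι1 χ₀ hχ₀B, hι0 ψ hcon, sub_zero] at hdiff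
    exact hone hdiff
  -- conclude
  obtain ⟨ψ₀, rfl⟩ := hB'
  have h1 : Cfsg.SameBlock M (χ₀ : G → ℂ) (ψ : G → ℂ) := hψB
  have h2 : Cfsg.SameBlock M (ψ₀ : G → ℂ) (ψ : G → ℂ) := hψB'
  have h3 : Cfsg.SameBlock M (ψ₀ : G → ℂ) (χ₀ : G → ℂ) :=
    sameBlock_trans_lead hMprime h2 (sameBlock_symm_lead h1)
  ext η
  constructor
  · intro hη
    exact sameBlock_trans_lead hMprime (sameBlock_symm_lead h3) hη
  · intro hη
    exact sameBlock_trans_lead hMprime h3 hη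

end Cfsg.Agent.S0966
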