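import Cfsg.Statements.S0954
import Mathlib
import Cfsg.Agent.Lib.Lead.SylowAux2
import Cfsg.Agent.S0966
import Cfsg.Agent.S0921
import Cfsg.Agent.Lib.Lead.CharInd3
import Cfsg.Agent.Lib.Lead.CharCenter
import Cfsg.Agent.Lib.Lead.BlockAux

set_option autoImplicit false
open Cfsg Cfsg.Agent.Lib.Lead

namespace Cfsg.Agent.S0954

open scoped Pointwise commutatorElement

/-- Let N be a normal subgroup of the finite group G of order prime to p and of p-power index (a normal p-complement), and fix a maximal ideal M of the algebraic integers containing p. Then two irreducible characters χ, ψ of G lie in the same block if and only if some irreducible character of N has nonzero inner product with both the restriction of χ and the restriction of ψ. -/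
theorem result {G : Type*} [Group G] [Fintype G] (p : ℕ) [Fact p.Prime] (M : Ideal Cfsg.AlgInt) (hM : Cfsg.IsPModular p M) (N : Subgroup G) [N.Normal] [Fintype N] (hN : ¬ p ∣ Nat.card N) (hidx : ∃ k : ℕ, N.index = p ^ k) (χ ψ : Cfsg.IrrCharacter G) : Cfsg.SameBlock M (χ : G → ℂ) (ψ : G → ℂ) ↔ ∃ θ : Cfsg.IrrCharacter N, Cfsg.classInner (fun n : N => (χ : G → ℂ) n) (θ : N → ℂ) ≠ 0 ∧ Cfsg.classInner (fun n : N => (ψ : G → ℂ) n) (θ : N → ℂ) ≠ 0 := by
  classical
  have hM' := hM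
  obtain ⟨hp, hMmax, hpM⟩ := hM
  have hMprime : M.IsPrime := hMmax.isPrime
  have hMtop : M ≠ ⊤ := hMprime.ne_top
  constructor
  · intro h
    have hχ1 : (fun n : N => (χ : G → ℂ) n) 1 ≠ 0 := by
      obtain ⟨d, hd0, hd⟩ := irr_one χ.2
      show (χ : G → ℂ) 1 ≠ 0
      rw [hd]
      exact_mod_cast hd0
    obtain ⟨θf, hθf, hθcon⟩ := exists_constituent
      (isCharacter_restrict N (isCharacter_of_isIrrCharacter χ.2)) hχ1
    have hcop : (Nat.card N).Coprime p :=
      ((Nat.Prime.coprime_iff_not_dvd hp).mpr hN).symm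
    exact ⟨⟨θf, hθf⟩, hθcon,
      Cfsg.Agent.S0921.same_block_constituent_lead p M hM' N hcop χ ψ h ⟨θf, hθf⟩ hθcon⟩
  · rintro ⟨θ, hχθ, hψθ⟩
    obtain ⟨B, -, hBuniq⟩ := Cfsg.Agent.S0966.result p M hM' N hidx
      (Cfsg.blockOf M (θ : N → ℂ)) ⟨θ, rfl⟩
    have hθb : θ ∈ Cfsg.blockOf M (θ : N → ℂ) := sameBlock_refl_lead hMtop _
    have e1 := hBuniq (Cfsg.blockOf M (χ : G → ℂ))
      ⟨⟨χ, rfl⟩, χ, sameBlock_refl_lead hMtop _, θ, hθb, hχθ⟩
    have e2 := hBuniq (Cfsg.blockOf M (ψ : G → ℂ))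
      ⟨⟨ψ, rfl⟩, ψ, sameBlock_refl_lead hMtop _, θ, hθb, hψθ⟩
    have hψ : ψ ∈ Cfsg.blockOf M (χ : G → ℂ) := by
      rw [e1, ← e2]
      exact sameBlock_refl_lead hMtop _
    exact hψ

end Cfsg.Agent.S0954
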