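import Cfsg.Statements.S0959
import Mathlib
import Cfsg.Agent.Lib.Lead.SylowAux2
import Cfsg.Agent.Lib.Lead.BlockDefect

set_option autoImplicit false
open Cfsg Cfsg.Agent.Lib.Lead

namespace Cfsg.Agent.S0959

open scoped Pointwise commutatorElement

/-- Let B be a block of the finite group G with defect group D (relative to a maximal ideal M of the algebraic integers containing the prime p), and let P be a p-subgroup. Then there is an element g whose idempotent coefficient for B is a local integer outside the local ideal at M and which has a conjugate centralizing P, if and only if some conjugate of P is contained in D. -/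
theorem result {G : Type*} [Group G] [Finite G] (p : ℕ) [Fact p.Prime] (M : Ideal Cfsg.AlgInt) (hM : Cfsg.IsPModular p M) (B : Set (Cfsg.IrrCharacter G)) (hB : Cfsg.IsPBlock M B) (D : Subgroup G) (hD : Cfsg.IsDefectGroup p M B D) (P : Subgroup G) (hP : IsPGroup p P) : (∃ g : G, Cfsg.MemLocalRing M (Cfsg.blockCoeff B g) ∧ ¬ Cfsg.MemLocalIdeal M (Cfsg.blockCoeff B g) ∧ ∃ c : G, IsConj g c ∧ c ∈ Subgroup.centralizer (P : Set G)) ↔ ∃ x : G, P.map (MulAut.conj x).toMonoidHom ≤ D := by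
  classical
  haveI : Fintype G := Fintype.ofFinite G
  obtain ⟨hp, hMmax, hpM⟩ := hM
  have hMprime : M.IsPrime := hMmax.isPrime
  have hMtop : M ≠ ⊤ := hMprime.ne_top
  obtain ⟨χ₀, rfl⟩ := hB
  have hχ₀B : χ₀ ∈ Cfsg.blockOf M (χ₀ : G → ℂ) := sameBlock_refl_lead hMtop (χ₀ : G → ℂ)
  obtain ⟨g₀, hg₀, P₀, rfl⟩ := hD
  obtain ⟨hg₀R, hg₀I, hg₀ω⟩ := hg₀
  constructor
  · rintro ⟨g, -, hgI, c, hgc, hcP⟩
    obtain ⟨y₀, hy₀⟩ := isConj_iff.mp hgc
    have hcI : ¬ Cfsg.MemLocalIdeal M (Cfsg.blockCoeff (Cfsg.blockOf M (χ₀ : G → ℂ)) c) := by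
      rw [← hy₀, blockCoeff_classFun_lead]
      exact hgI
    have hPc : ∀ d ∈ P, d * c = c * d := by
      intro d hd
      exact Subgroup.mem_centralizer_iff.mp hcP d hd
    obtain ⟨x, hxg, hxfix⟩ := minmax_key_lead p hp M hMprime hpM χ₀ g₀ c (hg₀ω χ₀ hχ₀B) hcI
      P hP hPc
    obtain ⟨y, hy⟩ := isConj_iff.mp hxg
    have hcent : ∀ w ∈ P, y * w * y⁻¹ ∈ Subgroup.centralizer ({g₀} : Set G) := by
      intro w hw
      rw [Subgroup.mem_centralizer_iff]
      intro a ha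
      rw [Set.mem_singleton_iff.mp ha, ← hy]
      have h1 : w * x = x * w := by
        have h2 := hxfix w hw
        calc w * x = w * x * w⁻¹ * w := by group
          _ = x * w := by rw [h2]
      calc y * x * y⁻¹ * (y * w * y⁻¹) = y * (x * w) * y⁻¹ := by group
        _ = y * (w * x) * y⁻¹ := by rw [h1]
        _ = y * w * y⁻¹ * (y * x * y⁻¹) := by group
    have hR : IsPGroup p ((P.map (MulAut.conj y).toMonoidHom).subgroupOf
        (Subgroup.centralizer ({g₀} : Set G))) :=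
      (hP.map _).comap_of_injective _ (Subgroup.subtype_injective _)
    obtain ⟨c', hc'⟩ := sylow_conj_mem P₀ _ hR
    refine ⟨(c' : G) * y, ?_⟩
    intro v hv
    obtain ⟨w, hw, rfl⟩ := Subgroup.mem_map.mp hv
    have hw' : y * w * y⁻¹ ∈ Subgroup.centralizer ({g₀} : Set G) := hcent w hw
    have hq : (⟨y * w * y⁻¹, hw'⟩ : Subgroup.centralizer ({g₀} : Set G)) ∈
        (P.map (MulAut.conj y).toMonoidHom).subgroupOf
          (Subgroup.centralizer ({g₀} : Set G)) := by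
      rw [Subgroup.mem_subgroupOf]
      exact Subgroup.mem_map.mpr ⟨w, hw, rfl⟩
    have h3 : c' * ⟨y * w * y⁻¹, hw'⟩ * c'⁻¹ ∈
        (P₀ : Subgroup (Subgroup.centralizer ({g₀} : Set G))) := hc' _ hq
    refine Subgroup.mem_map.mpr ⟨_, h3, ?_⟩
    show (c' : G) * (y * w * y⁻¹) * (c' : G)⁻¹ = (c' : G) * y * w * ((c' : G) * y)⁻¹
    group
  · rintro ⟨x, hx⟩
    refine ⟨g₀, hg₀R, hg₀I, x⁻¹ * g₀ * x⁻¹⁻¹, isConj_iff.mpr ⟨x⁻¹, rfl⟩, ?_⟩
    rw [Subgroup.mem_centralizer_iff]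
    intro w hw
    have h1 : x * w * x⁻¹ ∈ (P₀ : Subgroup (Subgroup.centralizer ({g₀} : Set G))).map
        (Subgroup.centralizer ({g₀} : Set G)).subtype :=
      hx (Subgroup.mem_map.mpr ⟨w, hw, rfl⟩)
    obtain ⟨c, -, hc⟩ := Subgroup.mem_map.mp h1
    have h2 := Subgroup.mem_centralizer_iff.mp c.2 g₀ (Set.mem_singleton g₀)
    have hc' : (c : G) = x * w * x⁻¹ := hc
    rw [hc'] at h2
    calc w * (x⁻¹ * g₀ * x⁻¹⁻¹) = x⁻¹ * ((x * w * x⁻¹) * g₀) * x := by group
      _ = x⁻¹ * (g₀ * (x * w * x⁻¹)) * x := by rw [h2]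
      _ = x⁻¹ * g₀ * x⁻¹⁻¹ * w := by group

end Cfsg.Agent.S0959
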