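import Cfsg.Statements.S0961
import Mathlib
import Cfsg.Agent.Lib.Lead.SylowAux2
import Cfsg.Agent.Lib.Lead.PRegular

set_option autoImplicit false
open Cfsg Cfsg.Agent.Lib.Lead

namespace Cfsg.Agent.S0961

open scoped Pointwise commutatorElement

/-- Let χ be an irreducible character of the finite group G and let p ^ a be the largest power of the prime p dividing the order of G. Then the function equal to p ^ a * χ x at elements x of order prime to p and to 0 elsewhere is a generalized character (a difference of characters). -/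
theorem result {G : Type*} [Group G] [Finite G] (p : ℕ) [Fact p.Prime] (χ : Cfsg.IrrCharacter G) : Cfsg.IsGeneralizedCharacter G (fun x : G => if p ∣ orderOf x then 0 else ((p ^ (Nat.card G).factorization p : ℕ) : ℂ) * (χ : G → ℂ) x) := by
  classical
  haveI : Fintype G := Fintype.ofFinite _
  have hp : p.Prime := Fact.out
  have hχ := isCharacter_of_isIrrCharacter χ.2
  apply preg_genChar p (χ : G → ℂ) hχ (p ^ (Nat.card G).factorization p) 1
    (fun h => hp.one_lt.ne' (Nat.dvd_one.mp h))
  intro y k hk
  have hk2 : p ^ k ∣ Nat.card G := dvd_trans hk (Subgroup.card_subgroup_dvd_card _)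
  have hle : k ≤ (Nat.card G).factorization p :=
    (Nat.Prime.pow_dvd_iff_le_factorization hp Nat.card_pos.ne').mp hk2
  have h0 : ((p ^ k : ℕ) : ℂ) ≠ 0 := by exact_mod_cast (pow_pos hp.pos k).ne'
  have h1 : p ^ (Nat.card G).factorization p =
      p ^ ((Nat.card G).factorization p - k) * p ^ k := by
    rw [← pow_add, Nat.sub_add_cancel hle]
  have h1c : ((p ^ (Nat.card G).factorization p : ℕ) : ℂ) =
      ((p ^ ((Nat.card G).factorization p - k) : ℕ) : ℂ) * ((p ^ k : ℕ) : ℂ) := by
    exact_mod_cast h1
  have e : ((1 : ℕ) : ℂ) * ((p ^ (Nat.card G).factorization p : ℕ) : ℂ) * (χ : G → ℂ) y /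
      ((p ^ k : ℕ) : ℂ) = ((p ^ ((Nat.card G).factorization p - k) : ℕ) : ℂ) * (χ : G → ℂ) y := by
    rw [div_eq_iff h0, h1c, Nat.cast_one]
    ring
  rw [e]
  exact IsIntegral.mul (isIntegral_natCast _) (isIntegral_isCharacter hχ y)

end Cfsg.Agent.S0961
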