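import Cfsg.Statements.S0962
import Mathlib
import Cfsg.Agent.Lib.Lead.SylowAux2
import Cfsg.Agent.Lib.Lead.BlockDefCount
import Cfsg.Agent.Lib.Lead.BlockOsima
import Cfsg.Agent.Lib.Lead.BlockOsimaSupp
import Cfsg.Agent.Lib.Lead.BlockKer
import Cfsg.Agent.Lib.Lead.BlockAux
import Cfsg.Agent.Lib.Lead.BlockAux2
import Cfsg.Agent.Lib.Lead.BrauerR2

set_option autoImplicit false
open Cfsg Cfsg.Agent.Lib.Lead

namespace Cfsg.Agent.S0962

open scoped Pointwise commutatorElement

/-- Fix a maximal ideal M of the algebraic integers containing the prime p and a natural number d. The number of blocks of the finite group G of defect at least d is at most the number of conjugacy classes of p-regular elements of G of defect at least d, where the defect of a class is the exponent of p in the order of the centralizer of any of its elements. -/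
theorem result {G : Type*} [Group G] [Finite G] (p : ℕ) [Fact p.Prime] (M : Ideal Cfsg.AlgInt) (hM : Cfsg.IsPModular p M) (d : ℕ) : Nat.card {B : Set (Cfsg.IrrCharacter G) // Cfsg.IsPBlock M B ∧ d ≤ Cfsg.blockDefect p B} ≤ Nat.card {C : ConjClasses G // ∃ g : G, ConjClasses.mk g = C ∧ Cfsg.IsPRegular p g ∧ d ≤ (Nat.card (Subgroup.centralizer ({g} : Set G))).factorization p} := by
  classical
  haveI : Fintype G := Fintype.ofFinite G
  haveI : Fintype (ConjClasses G) := Fintype.ofFinite _
  haveI : Fintype (Cfsg.IrrCharacter G) := Fintype.ofFinite _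
  haveI : Fintype {B : Set (Cfsg.IrrCharacter G) //
      Cfsg.IsPBlock M B ∧ d ≤ Cfsg.blockDefect p B} := Fintype.ofFinite _
  obtain ⟨hp, hMmax, hpM⟩ := hM
  have hMprime : M.IsPrime := hMmax.isPrime
  have hMtop : M ≠ ⊤ := hMprime.ne_top
  choose χ hχ using fun i : {B : Set (Cfsg.IrrCharacter G) //
      Cfsg.IsPBlock M B ∧ d ≤ Cfsg.blockDefect p B} => i.2.1
  have hsing : ∀ (χ₀ : Cfsg.IrrCharacter G) (y : G), p ∣ orderOf y →
      Cfsg.blockCoeff (Cfsg.blockOf M (χ₀ : G → ℂ)) y = 0 := by
    intro χ₀ y hy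
    have hcl : Cfsg.IsClassFunction G (Cfsg.blockCoeff (Cfsg.blockOf M (χ₀ : G → ℂ))) :=
      fun g h => blockCoeff_classFun_lead _ g h
    have hcR : ∀ x : G, Cfsg.MemLocalRing M
        (Cfsg.blockCoeff (Cfsg.blockOf M (χ₀ : G → ℂ)) x) :=
      fun x => osima_lead p hp M hMprime hpM χ₀ x
    have hidem : ∀ x : G, ∑ y : G, Cfsg.blockCoeff (Cfsg.blockOf M (χ₀ : G → ℂ)) y *
        Cfsg.blockCoeff (Cfsg.blockOf M (χ₀ : G → ℂ)) (y⁻¹ * x) =
        Cfsg.blockCoeff (Cfsg.blockOf M (χ₀ : G → ℂ)) x :=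
      fun x => (blockCoeff_conv_lead _ x).symm
    exact idem_psingular_lead p hp hMprime hpM _ hcl hcR hidem y hy
  have hident : ∀ i i' : {B : Set (Cfsg.IrrCharacter G) //
      Cfsg.IsPBlock M B ∧ d ≤ Cfsg.blockDefect p B},
      ∑ c : ConjClasses G, Cfsg.blockCoeff i.1 (Quotient.out c) *
        Cfsg.centralChar (χ i' : G → ℂ) (Quotient.out c) =
      if χ i' ∈ i.1 then 1 else 0 :=
    fun i i' => blockCoeff_class_sum_lead i.1 (χ i')
  have hbad : ∀ (i i' : {B : Set (Cfsg.IrrCharacter G) //
      Cfsg.IsPBlock M B ∧ d ≤ Cfsg.blockDefect p B}) (c : ConjClasses G),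
      ¬ (∃ g : G, ConjClasses.mk g = c ∧ Cfsg.IsPRegular p g ∧
        d ≤ (Nat.card (Subgroup.centralizer ({g} : Set G))).factorization p) →
      Cfsg.MemLocalIdeal M (Cfsg.blockCoeff i.1 (Quotient.out c) *
        Cfsg.centralChar (χ i' : G → ℂ) (Quotient.out c)) := by
    intro i i' c hc
    rw [hχ i]
    by_cases hreg : p ∣ orderOf (Quotient.out c)
    · rw [hsing (χ i) _ hreg, zero_mul]
      exact memLocalIdeal_zero_lead hMtop
    · have hnd : ¬ d ≤ (Nat.card
          (Subgroup.centralizer ({Quotient.out c} : Set G))).factorization p :=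
        fun hd => hc ⟨Quotient.out c, Quotient.out_eq c, hreg, hd⟩
      have hω : Cfsg.MemLocalIdeal M
          (Cfsg.centralChar (χ i' : G → ℂ) (Quotient.out c)) := by
        by_contra hω
        apply hnd
        have h1 := blockDefect_le_of_centralChar_lead p hp hMprime hpM (χ i')
          (Quotient.out c) hω
        have h2 : d ≤ Cfsg.blockDefect p (Cfsg.blockOf M (χ i' : G → ℂ)) := by
          rw [← hχ i']
          exact i'.2.2
        exact le_trans h2 h1
      exact memLocalIdeal_mul_ring_lead hMprime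
        (osima_lead p hp M hMprime hpM (χ i) (Quotient.out c)) hω
  have hoff : ∀ i i' : {B : Set (Cfsg.IrrCharacter G) //
      Cfsg.IsPBlock M B ∧ d ≤ Cfsg.blockDefect p B}, i ≠ i' →
      Cfsg.MemLocalIdeal M (∑ c : ConjClasses G, Cfsg.blockCoeff i.1 (Quotient.out c) *
        Cfsg.centralChar (χ i' : G → ℂ) (Quotient.out c)) := by
    intro i i' hii'
    have hnot : χ i' ∉ i.1 := by
      intro h
      apply hii'
      apply Subtype.ext
      rw [hχ i] at h
      have hS : Cfsg.SameBlock M (χ i : G → ℂ) (χ i' : G → ℂ) := h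
      rw [hχ i, hχ i']
      ext φ
      constructor
      · intro h1
        have h1' : Cfsg.SameBlock M (χ i : G → ℂ) (φ : G → ℂ) := h1
        exact sameBlock_trans_lead hMprime (sameBlock_symm_lead hS) h1'
      · intro h1
        have h1' : Cfsg.SameBlock M (χ i' : G → ℂ) (φ : G → ℂ) := h1
        exact sameBlock_trans_lead hMprime hS h1'
    rw [hident i i', if_neg hnot]
    exact memLocalIdeal_zero_lead hMtop
  have hdiag : ∀ i : {B : Set (Cfsg.IrrCharacter G) //
      Cfsg.IsPBlock M B ∧ d ≤ Cfsg.blockDefect p B},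
      Cfsg.MemLocalIdeal M (∑ c : ConjClasses G, Cfsg.blockCoeff i.1 (Quotient.out c) *
        Cfsg.centralChar (χ i : G → ℂ) (Quotient.out c) - 1) := by
    intro i
    have hmem : χ i ∈ i.1 := by
      rw [hχ i]
      exact sameBlock_refl_lead hMtop _
    rw [hident i i, if_pos hmem, sub_self]
    exact memLocalIdeal_zero_lead hMtop
  have key := card_subtype_le_of_local_dual_lead hMprime
    (fun C : ConjClasses G => ∃ g : G, ConjClasses.mk g = C ∧ Cfsg.IsPRegular p g ∧
      d ≤ (Nat.card (Subgroup.centralizer ({g} : Set G))).factorization p)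
    (fun (i : {B : Set (Cfsg.IrrCharacter G) //
      Cfsg.IsPBlock M B ∧ d ≤ Cfsg.blockDefect p B}) (c : ConjClasses G) =>
        Cfsg.blockCoeff i.1 (Quotient.out c))
    (fun (c : ConjClasses G) (i' : {B : Set (Cfsg.IrrCharacter G) //
      Cfsg.IsPBlock M B ∧ d ≤ Cfsg.blockDefect p B}) =>
        Cfsg.centralChar (χ i' : G → ℂ) (Quotient.out c))
    hbad hoff hdiag
  rw [← Nat.card_eq_fintype_card, ← Nat.card_eq_fintype_card] at key
  exact key

end Cfsg.Agent.S0962
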