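import Cfsg.Statements.S0964
import Mathlib
import Cfsg.Agent.Lib.Lead.SylowAux2
import Cfsg.Agent.Lib.Lead.BlockCover
import Cfsg.Agent.Lib.Lead.CharInd
import Cfsg.Agent.Lib.Lead.CharRing
import Cfsg.Agent.Lib.Lead.CharInd3

set_option autoImplicit false
open Cfsg Cfsg.Agent.Lib.Lead

namespace Cfsg.Agent.S0964

open scoped Pointwise commutatorElement

/-- Let N be a normal subgroup of the finite group G, B a block of G and b a block of N relative to a maximal ideal M of the algebraic integers containing the prime p. Suppose some χ ∈ B has a constituent θ ∈ b on restriction to N. Then for every χ' ∈ B and every constituent ψ of the restriction of χ' to N there are g ∈ G and θ' ∈ b with ψ n = θ' (g n g⁻¹) for all n ∈ N. -/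
theorem result {G : Type*} [Group G] [Fintype G] (p : ℕ) [Fact p.Prime] (M : Ideal Cfsg.AlgInt) (hM : Cfsg.IsPModular p M) (N : Subgroup G) [hN : N.Normal] [Fintype N] (B : Set (Cfsg.IrrCharacter G)) (hB : Cfsg.IsPBlock M B) (b : Set (Cfsg.IrrCharacter N)) (hb : Cfsg.IsPBlock M b) (χ : Cfsg.IrrCharacter G) (hχ : χ ∈ B) (θ : Cfsg.IrrCharacter N) (hθ : θ ∈ b) (hcon : Cfsg.classInner (fun n : N => (χ : G → ℂ) n) (θ : N → ℂ) ≠ 0) (χ' : Cfsg.IrrCharacter G) (hχ' : χ' ∈ B) (ψ : Cfsg.IrrCharacter N) (hψ : Cfsg.classInner (fun n : N => (χ' : G → ℂ) n) (ψ : N → ℂ) ≠ 0) : ∃ g : G, ∃ θ' ∈ b, ∀ n : N, (ψ : N → ℂ) n = (θ' : N → ℂ) ⟨g * n * g⁻¹, hN.conj_mem n n.2 g⟩ := by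
  classical
  haveI : Fintype (Cfsg.IrrCharacter N) := Fintype.ofFinite _
  haveI : Fintype (ConjClasses G) := Fintype.ofFinite _
  obtain ⟨hp, hMmax, hpM⟩ := hM
  have hMprime : M.IsPrime := hMmax.isPrime
  have hMtop : M ≠ ⊤ := hMprime.ne_top
  obtain ⟨χ₀, rfl⟩ := hB
  obtain ⟨θ₀, rfl⟩ := hb
  have hSBχ : Cfsg.SameBlock M (χ : G → ℂ) (χ' : G → ℂ) := by
    have h1 : Cfsg.SameBlock M (χ₀ : G → ℂ) (χ : G → ℂ) := hχ
    have h2 : Cfsg.SameBlock M (χ₀ : G → ℂ) (χ' : G → ℂ) := hχ'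
    exact sameBlock_trans_lead hMprime (sameBlock_symm_lead h1) h2
  obtain ⟨S, hS⟩ : ∃ S : Set (Cfsg.IrrCharacter N), S = {φ | ∃ g : G,
      ∃ θ' ∈ Cfsg.blockOf M (θ₀ : N → ℂ), φ = conjIrr_lead N g θ'} := ⟨_, rfl⟩
  have hSmem : ∀ φ : Cfsg.IrrCharacter N, φ ∈ S ↔ ∃ g : G,
      ∃ θ' ∈ Cfsg.blockOf M (θ₀ : N → ℂ), φ = conjIrr_lead N g θ' := by
    intro φ
    rw [hS]
    exact Iff.rfl
  have hSconj : ∀ (g : G) (φ : Cfsg.IrrCharacter N), φ ∈ S → conjIrr_lead N g φ ∈ S := by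
    intro g φ hφ
    obtain ⟨h, θ', hθ', rfl⟩ := (hSmem φ).mp hφ
    exact (hSmem _).mpr ⟨h * g, θ', hθ', conjIrr_conjIrr_lead N g h θ'⟩
  have hSclosed : ∀ φ ∈ S, ∀ φ' : Cfsg.IrrCharacter N,
      Cfsg.SameBlock M (φ : N → ℂ) (φ' : N → ℂ) → φ' ∈ S := by
    intro φ hφ φ' hφφ'
    obtain ⟨h, θ', hθ', rfl⟩ := (hSmem φ).mp hφ
    have h1 := sameBlock_conjHom_lead N h⁻¹ hφφ'
    have e1 : ((conjIrr_lead N h θ' : Cfsg.IrrCharacter N) : N → ℂ) ∘ conjHom N h⁻¹ =
        (θ' : N → ℂ) := by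
      funext n
      show (θ' : N → ℂ) (conjHom N h (conjHom N h⁻¹ n)) = (θ' : N → ℂ) n
      rw [conjHom_mul, mul_inv_cancel, conjHom_one]
    rw [e1] at h1
    have hθ'' : Cfsg.SameBlock M (θ₀ : N → ℂ) (θ' : N → ℂ) := hθ'
    have h2 : conjIrr_lead N h⁻¹ φ' ∈ Cfsg.blockOf M (θ₀ : N → ℂ) :=
      sameBlock_trans_lead hMprime hθ'' h1
    refine (hSmem φ').mpr ⟨h, conjIrr_lead N h⁻¹ φ', h2, ?_⟩
    rw [conjIrr_conjIrr_lead, inv_mul_cancel, conjIrr_one_lead]
  have hfR : ∀ n : N, Cfsg.MemLocalRing M (Cfsg.blockCoeff S n) :=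
    blockCoeff_union_lead p hp M hMprime hpM _ S rfl hSclosed
  have hfinv : ∀ (g : G) (n : N),
      Cfsg.blockCoeff S (conjHom N g n) = Cfsg.blockCoeff S n := by
    intro g n
    unfold Cfsg.blockCoeff
    congr 1
    apply finsum_mem_eq_of_bijOn (conjIrr_lead N g)
    · refine ⟨fun φ hφ => hSconj g φ hφ, ?_, ?_⟩
      · intro φ₁ _ φ₂ _ h12
        have h := congrArg (conjIrr_lead N g⁻¹) h12
        rw [conjIrr_conjIrr_lead, conjIrr_conjIrr_lead, mul_inv_cancel, conjIrr_one_lead,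
          conjIrr_one_lead] at h
        exact h
      · intro φ hφ
        refine ⟨conjIrr_lead N g⁻¹ φ, hSconj g⁻¹ φ hφ, ?_⟩
        rw [conjIrr_conjIrr_lead, inv_mul_cancel, conjIrr_one_lead]
    · intro φ _
      show (φ : N → ℂ) 1 * (starRingEnd ℂ) ((φ : N → ℂ) (conjHom N g n)) =
        (φ : N → ℂ) (conjHom N g 1) * (starRingEnd ℂ) ((φ : N → ℂ) (conjHom N g n))
      rw [map_one]
  have hT : ∀ η : Cfsg.IrrCharacter G, ∃ m : Cfsg.IrrCharacter N → ℕ,
      (∀ φ : Cfsg.IrrCharacter N,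
        Cfsg.classInner (fun n : N => (η : G → ℂ) n) (φ : N → ℂ) = m φ) ∧
      (η : G → ℂ) 1 = ∑ φ : Cfsg.IrrCharacter N, (m φ : ℂ) * (φ : N → ℂ) 1 ∧
      ∑ n : N, Cfsg.blockCoeff S n * (η : G → ℂ) n =
        ∑ φ : Cfsg.IrrCharacter N, (m φ : ℂ) * (if φ ∈ S then (φ : N → ℂ) 1 else 0) := by
    intro η
    obtain ⟨m, hexp, hm⟩ :=
      isCharacter_expansion (isCharacter_restrict N (isCharacter_of_isIrrCharacter η.2))
    have h1 : ∀ n : N, (η : G → ℂ) n =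
        ∑ φ : Cfsg.IrrCharacter N, (m φ : ℂ) * (φ : N → ℂ) n := by
      intro n
      have h2 := congrFun hexp n
      rw [Finset.sum_apply] at h2
      exact h2
    refine ⟨m, hm, h1 1, ?_⟩
    calc ∑ n : N, Cfsg.blockCoeff S n * (η : G → ℂ) n
        = ∑ n : N, ∑ φ : Cfsg.IrrCharacter N,
            (m φ : ℂ) * (Cfsg.blockCoeff S n * (φ : N → ℂ) n) := by
          apply Finset.sum_congr rfl
          intro n _
          rw [h1 n, Finset.mul_sum]
          apply Finset.sum_congr rfl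
          intro φ _
          ring
      _ = ∑ φ : Cfsg.IrrCharacter N,
            (m φ : ℂ) * ∑ n : N, Cfsg.blockCoeff S n * (φ : N → ℂ) n := by
          rw [Finset.sum_comm]
          apply Finset.sum_congr rfl
          intro φ _
          rw [Finset.mul_sum]
      _ = _ := by
          apply Finset.sum_congr rfl
          intro φ _
          rw [blockCoeff_sum_lead S φ]
  have hθS : θ ∈ S := (hSmem θ).mpr ⟨1, θ, hθ, (conjIrr_one_lead N θ).symm⟩
  obtain ⟨m, hm, hm1, hmT⟩ := hT χ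
  obtain ⟨m', hm', hm1', hmT'⟩ := hT χ'
  have hTχ : ∑ n : N, Cfsg.blockCoeff S n * (χ : G → ℂ) n = (χ : G → ℂ) 1 := by
    rw [hmT, hm1]
    apply Finset.sum_congr rfl
    intro φ _
    by_cases hφ0 : m φ = 0
    · rw [hφ0, Nat.cast_zero, zero_mul, zero_mul]
    · have hφc : Cfsg.classInner (fun n : N => (χ : G → ℂ) n) (φ : N → ℂ) ≠ 0 := by
        rw [hm φ]
        exact_mod_cast hφ0
      obtain ⟨g, hg⟩ := orbit_constituent_lead N (χ : G → ℂ) χ.2 (θ : N → ℂ) (φ : N → ℂ)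
        θ.2 φ.2 hcon hφc
      have hφS : φ ∈ S := by
        have e : φ = conjIrr_lead N g θ := Subtype.ext hg
        rw [e]
        exact hSconj g θ hθS
      rw [if_pos hφS]
  by_contra hψS'
  have hψS : ψ ∉ S := by
    intro h
    obtain ⟨g, θ', hθ', e⟩ := (hSmem ψ).mp h
    exact hψS' ⟨g, θ', hθ', fun n => congrFun (congrArg Subtype.val e) n⟩
  have hTχ' : ∑ n : N, Cfsg.blockCoeff S n * (χ' : G → ℂ) n = 0 := by
    rw [hmT']
    apply Finset.sum_eq_zero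
    intro φ _
    by_cases hφ0 : m' φ = 0
    · rw [hφ0, Nat.cast_zero, zero_mul]
    · have hφc : Cfsg.classInner (fun n : N => (χ' : G → ℂ) n) (φ : N → ℂ) ≠ 0 := by
        rw [hm' φ]
        exact_mod_cast hφ0
      have hφS : φ ∉ S := by
        intro hφS
        obtain ⟨g, hg⟩ := orbit_constituent_lead N (χ' : G → ℂ) χ'.2 (φ : N → ℂ)
          (ψ : N → ℂ) φ.2 ψ.2 hφc hψ
        have e : ψ = conjIrr_lead N g φ := Subtype.ext hg
        apply hψS
        rw [e]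
        exact hSconj g φ hφS
      rw [if_neg hφS, mul_zero]
  obtain ⟨dχ, hdχ0, hdχ⟩ := irr_one χ.2
  have hχ1 : (χ : G → ℂ) 1 ≠ 0 := by
    rw [hdχ]
    exact_mod_cast hdχ0
  have hEcl : ∀ g h : G, Cfsg.extendByZero N (Cfsg.blockCoeff S) (h * g * h⁻¹) =
      Cfsg.extendByZero N (Cfsg.blockCoeff S) g := by
    intro g h
    by_cases hg : g ∈ N
    · have hg' : h * g * h⁻¹ ∈ N := hN.conj_mem g hg h
      rw [extendByZero_mem N _ hg', extendByZero_mem N _ hg]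
      exact hfinv h ⟨g, hg⟩
    · have hg' : h * g * h⁻¹ ∉ N := by
        intro hc
        apply hg
        have h3 := hN.conj_mem _ hc h⁻¹
        have e : h⁻¹ * (h * g * h⁻¹) * h⁻¹⁻¹ = g := by group
        rw [e] at h3
        exact h3
      rw [extendByZero_not_mem N _ hg', extendByZero_not_mem N _ hg]
  have hsum : ∑ g : G, Cfsg.extendByZero N (Cfsg.blockCoeff S) g *
      ((χ : G → ℂ) g / (χ : G → ℂ) 1 - (χ' : G → ℂ) g / (χ' : G → ℂ) 1) = 1 := by
    rw [sum_extendByZero N (Cfsg.blockCoeff S)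
      (fun g => (χ : G → ℂ) g / (χ : G → ℂ) 1 - (χ' : G → ℂ) g / (χ' : G → ℂ) 1)]
    have e : ∀ n : N, Cfsg.blockCoeff S n *
        ((χ : G → ℂ) n / (χ : G → ℂ) 1 - (χ' : G → ℂ) n / (χ' : G → ℂ) 1) =
        Cfsg.blockCoeff S n * (χ : G → ℂ) n / (χ : G → ℂ) 1 -
          Cfsg.blockCoeff S n * (χ' : G → ℂ) n / (χ' : G → ℂ) 1 := by
      intro n
      ring
    rw [Finset.sum_congr rfl (fun n _ => e n), Finset.sum_sub_distrib, ← Finset.sum_div,
      ← Finset.sum_div, hTχ, hTχ', div_self hχ1, zero_div, sub_zero]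
  have hF : ∀ g h : G, Cfsg.extendByZero N (Cfsg.blockCoeff S) (h * g * h⁻¹) *
      ((χ : G → ℂ) (h * g * h⁻¹) / (χ : G → ℂ) 1 -
        (χ' : G → ℂ) (h * g * h⁻¹) / (χ' : G → ℂ) 1) =
      Cfsg.extendByZero N (Cfsg.blockCoeff S) g *
      ((χ : G → ℂ) g / (χ : G → ℂ) 1 - (χ' : G → ℂ) g / (χ' : G → ℂ) 1) := by
    intro g h
    rw [hEcl g h, isClassFunction_of_irr χ.2 g h, isClassFunction_of_irr χ'.2 g h]
  have hreg : ∑ g : G, Cfsg.extendByZero N (Cfsg.blockCoeff S) g *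
      ((χ : G → ℂ) g / (χ : G → ℂ) 1 - (χ' : G → ℂ) g / (χ' : G → ℂ) 1) =
      ∑ c : ConjClasses G, ((Subgroup.centralizer ({Quotient.out c} : Set G)).index : ℂ) *
        (Cfsg.extendByZero N (Cfsg.blockCoeff S) (Quotient.out c) *
          ((χ : G → ℂ) (Quotient.out c) / (χ : G → ℂ) 1 -
            (χ' : G → ℂ) (Quotient.out c) / (χ' : G → ℂ) 1)) :=
    sum_classFun_regroup_lead (fun g : G => Cfsg.extendByZero N (Cfsg.blockCoeff S) g *
      ((χ : G → ℂ) g / (χ : G → ℂ) 1 - (χ' : G → ℂ) g / (χ' : G → ℂ) 1)) hF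
  have hER : ∀ g : G, Cfsg.MemLocalRing M (Cfsg.extendByZero N (Cfsg.blockCoeff S) g) := by
    intro g
    by_cases hg : g ∈ N
    · rw [extendByZero_mem N _ hg]
      exact hfR ⟨g, hg⟩
    · rw [extendByZero_not_mem N _ hg]
      exact memLocalRing_zero_lead hMtop
  have hmem : Cfsg.MemLocalIdeal M (∑ c : ConjClasses G,
      ((Subgroup.centralizer ({Quotient.out c} : Set G)).index : ℂ) *
        (Cfsg.extendByZero N (Cfsg.blockCoeff S) (Quotient.out c) *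
          ((χ : G → ℂ) (Quotient.out c) / (χ : G → ℂ) 1 -
            (χ' : G → ℂ) (Quotient.out c) / (χ' : G → ℂ) 1))) := by
    apply memLocalIdeal_sum_lead hMprime
    intro c _
    have h := memLocalIdeal_mul_ring_lead hMprime (hER (Quotient.out c))
      (hSBχ (Quotient.out c))
    have e : ((Subgroup.centralizer ({Quotient.out c} : Set G)).index : ℂ) *
        (Cfsg.extendByZero N (Cfsg.blockCoeff S) (Quotient.out c) *
          ((χ : G → ℂ) (Quotient.out c) / (χ : G → ℂ) 1 -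
            (χ' : G → ℂ) (Quotient.out c) / (χ' : G → ℂ) 1)) =
        Cfsg.extendByZero N (Cfsg.blockCoeff S) (Quotient.out c) *
          (Cfsg.centralChar (χ : G → ℂ) (Quotient.out c) -
            Cfsg.centralChar (χ' : G → ℂ) (Quotient.out c)) := by
      unfold Cfsg.centralChar
      ring
    rw [e]
    exact h
  rw [← hreg, hsum] at hmem
  exact hMtop ((Ideal.eq_top_iff_one M).mpr (mem_of_memLocalIdeal_lead hMprime 1 hmem))

end Cfsg.Agent.S0964
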