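import Cfsg.Statements.S4428
import Mathlib
import Cfsg.Agent.Lib.Helper7.DefectOrd
import Cfsg.Agent.Lib.Lead.CharCentral
import Cfsg.Agent.S4431
-- import your own Cfsg.Agent.* helpers here

set_option autoImplicit false
open Cfsg
open Cfsg.Agent.Lib.Helper7 Cfsg.Agent.Lib.Lead
open scoped ComplexConjugate

namespace Cfsg.Agent.S4428

theorem root_ppow_aux (p : ℕ) [hp : Fact p.Prime] (M : Ideal Cfsg.AlgInt) (hM : M.IsPrime)
    (hpM : (p : Cfsg.AlgInt) ∈ M) (k : ℕ) (ν : ℂ) (hν : ν ^ p ^ k = 1) :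
    Cfsg.MemLocalIdeal M (ν - 1) := by
  have hint : IsIntegral ℤ ν := by
    apply IsIntegral.of_pow (pow_pos hp.out.pos k)
    rw [hν]
    exact isIntegral_one
  obtain ⟨a, ha⟩ : ∃ a : Cfsg.AlgInt, (a : ℂ) = ν := ⟨⟨ν, hint⟩, rfl⟩
  obtain ⟨r, hr⟩ := sub_pow_prime_pow_lead p hp.out k a 1
  rw [one_pow] at hr
  have hap : a ^ p ^ k = 1 := by
    apply Subtype.ext
    push_cast
    rw [ha, hν]
  rw [hap, sub_self, zero_add] at hr
  have hmem : a - 1 ∈ M := by
    apply hM.mem_of_pow_mem (p ^ k)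
    rw [hr]
    exact M.mul_mem_right r hpM
  have h1 := memLocalIdeal_of_mem_lead hM.ne_top (a - 1) hmem
  have h2 : ((a - 1 : Cfsg.AlgInt) : ℂ) = ν - 1 := by
    push_cast
    rw [ha]
  rw [h2] at h1
  exact h1

theorem central_mul_aux {H : Type*} [Group H] (ξ : Cfsg.IrrCharacter H) (z : H)
    (hz : z ∈ Subgroup.center H) (c : H) :
    (ξ : H → ℂ) (c * z) = (ξ : H → ℂ) z / (ξ : H → ℂ) 1 * (ξ : H → ℂ) c := by
  obtain ⟨n, ρ, hρ, hρξ⟩ := ξ.2
  haveI := hρ
  rw [← hρξ, Representation.char_one]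
  exact char_mul_central ρ c z hz

theorem central_pow_aux {H : Type*} [Group H] (ξ : Cfsg.IrrCharacter H) (z : H)
    (hz : z ∈ Subgroup.center H) (m : ℕ) :
    (ξ : H → ℂ) (z ^ m) = ((ξ : H → ℂ) z / (ξ : H → ℂ) 1) ^ m * (ξ : H → ℂ) 1 := by
  induction m with
  | zero => rw [pow_zero, pow_zero, one_mul]
  | succ m ih =>
    rw [pow_succ, central_mul_aux ξ z hz (z ^ m), ih]
    ring

/-- Let χ be an irreducible character of height zero in the p-block B of the finite group G (relative to a maximal ideal M of the algebraic integers containing p). Let x be a p-element of G with centralizer C, and let b be a block of C that induces B. Form the class function ϑ(c) = χ(x c) on C and its b-part (the sum over ψ ∈ b of the inner product of ϑ with ψ, times ψ). Then the b-part of ϑ does not vanish identically on the p-regular elements of C. (Compare the second main Theorem, which gives vanishing when b does not induce B.) -/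
theorem result {G : Type*} [Group G] [Finite G] (p : ℕ) [Fact p.Prime] (M : Ideal Cfsg.AlgInt) (hM : Cfsg.IsPModular p M) (B : Set (Cfsg.IrrCharacter G)) (hB : Cfsg.IsPBlock M B) (χ : Cfsg.IrrCharacter G) (hχ : χ ∈ B) (h0 : Cfsg.blockHeight p B (χ : G → ℂ) = 0) (x : G) (hx : ∃ k : ℕ, orderOf x = p ^ k) (b : Set (Cfsg.IrrCharacter (Subgroup.centralizer ({x} : Set G)))) (hb : Cfsg.IsInducedBlock M (Subgroup.centralizer ({x} : Set G)) b B) : ∃ y : Subgroup.centralizer ({x} : Set G), ¬ p ∣ orderOf y ∧ Cfsg.blockPart b (fun c : Subgroup.centralizer ({x} : Set G) => (χ : G → ℂ) (x * (c : G))) y ≠ 0 := by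
  classical
  letI instH : Fintype (Subgroup.centralizer ({x} : Set G)) := Fintype.ofFinite _
  haveI : Fintype G := Fintype.ofFinite _
  haveI : Fintype (Cfsg.IrrCharacter (Subgroup.centralizer ({x} : Set G))) := Fintype.ofFinite _
  haveI : Fintype (ConjClasses (Subgroup.centralizer ({x} : Set G))) := Fintype.ofFinite _
  have hp : p.Prime := Fact.out
  have hMprime : M.IsPrime := hM.2.1.isPrime
  have hMtop : M ≠ ⊤ := hMprime.ne_top
  have hpM : (p : Cfsg.AlgInt) ∈ M := hM.2.2
  have hbb : Cfsg.IsPBlock M b := hb.1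
  obtain ⟨ψ, hψb, hψinf, hminψ⟩ := exists_min_h7 p M hMprime b hbb
  have hX := (Cfsg.Agent.S4431.result p M hM (Subgroup.centralizer ({x} : Set G)) b B hb χ ψ
    hψb).2 hχ h0
  obtain ⟨n, hexp, hn⟩ := isCharacter_expansion
    (isCharacter_restrict (Subgroup.centralizer ({x} : Set G))
      (isCharacter_of_isIrrCharacter χ.2))
  have hχh : ∀ h : Subgroup.centralizer ({x} : Set G), (χ : G → ℂ) h =
      ∑ ξ : Cfsg.IrrCharacter (Subgroup.centralizer ({x} : Set G)),
      (n ξ : ℂ) * (ξ : Subgroup.centralizer ({x} : Set G) → ℂ) h := by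
    intro h
    have h1 := congrFun hexp h
    rw [Finset.sum_apply] at h1
    exact h1
  -- the central element
  have hxmem : x ∈ Subgroup.centralizer ({x} : Set G) := by
    rw [Subgroup.mem_centralizer_iff]
    intro h hh
    rw [Set.mem_singleton_iff] at hh
    rw [hh]
  obtain ⟨xH, hxH⟩ : ∃ xH : Subgroup.centralizer ({x} : Set G), (xH : G) = x := ⟨⟨x, hxmem⟩, rfl⟩
  have hxHc : xH ∈ Subgroup.center (Subgroup.centralizer ({x} : Set G)) := by
    rw [Subgroup.mem_center_iff]
    intro c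
    apply Subtype.ext
    have h1 := c.2
    rw [Subgroup.mem_centralizer_iff] at h1
    show (c : G) * (xH : G) = (xH : G) * (c : G)
    rw [hxH]
    exact (h1 x rfl).symm
  obtain ⟨k, hk⟩ := hx
  have hxHpow : xH ^ p ^ k = 1 := by
    apply Subtype.ext
    show (xH : G) ^ p ^ k = 1
    rw [hxH, ← hk]
    exact pow_orderOf_eq_one x
  obtain ⟨lam, hlam⟩ : ∃ lam : Cfsg.IrrCharacter (Subgroup.centralizer ({x} : Set G)) → ℂ,
      lam = fun ξ : Cfsg.IrrCharacter (Subgroup.centralizer ({x} : Set G)) =>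
        (ξ : Subgroup.centralizer ({x} : Set G) → ℂ) xH /
        (ξ : Subgroup.centralizer ({x} : Set G) → ℂ) 1 := ⟨_, rfl⟩
  have hlamI : ∀ ξ, Cfsg.MemLocalIdeal M (lam ξ - 1) := by
    intro ξ
    apply root_ppow_aux p M hMprime hpM k
    obtain ⟨hξ1, hξ0⟩ := charDegree_irr ξ.2
    have hξ0' : (ξ : Subgroup.centralizer ({x} : Set G) → ℂ) 1 ≠ 0 := by
      rw [hξ1]; exact_mod_cast hξ0
    have h1 := central_pow_aux ξ xH hxHc (p ^ k)
    rw [hxHpow] at h1
    rw [hlam]
    have h2 : ((ξ : Subgroup.centralizer ({x} : Set G) → ℂ) xH /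
        (ξ : Subgroup.centralizer ({x} : Set G) → ℂ) 1) ^ p ^ k *
        (ξ : Subgroup.centralizer ({x} : Set G) → ℂ) 1 =
        1 * (ξ : Subgroup.centralizer ({x} : Set G) → ℂ) 1 := by rw [← h1, one_mul]
    exact mul_right_cancel₀ hξ0' h2
  -- ϑ
  have hϑ : ∀ c : Subgroup.centralizer ({x} : Set G), (χ : G → ℂ) (x * (c : G)) =
      ∑ ξ : Cfsg.IrrCharacter (Subgroup.centralizer ({x} : Set G)),
      (n ξ : ℂ) * (lam ξ * (ξ : Subgroup.centralizer ({x} : Set G) → ℂ) c) := by
    intro c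
    have h1 := hχh (c * xH)
    have e : ((c * xH : Subgroup.centralizer ({x} : Set G)) : G) = x * (c : G) := by
      have h2 := Subgroup.mem_center_iff.mp hxHc c
      rw [h2]
      show (xH : G) * (c : G) = x * (c : G)
      rw [hxH]
    rw [e] at h1
    rw [h1]
    apply Finset.sum_congr rfl
    intro ξ _
    rw [central_mul_aux ξ xH hxHc c, hlam]
  have hcoef : ∀ ξ : Cfsg.IrrCharacter (Subgroup.centralizer ({x} : Set G)),
      Cfsg.classInner (fun c : Subgroup.centralizer ({x} : Set G) => (χ : G → ℂ) (x * (c : G)))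
        (ξ : Subgroup.centralizer ({x} : Set G) → ℂ) = (n ξ : ℂ) * lam ξ := by
    intro ξ
    show (Nat.card (Subgroup.centralizer ({x} : Set G)) : ℂ)⁻¹ *
      ∑ c : Subgroup.centralizer ({x} : Set G), (χ : G → ℂ) (x * (c : G)) *
        conj ((ξ : Subgroup.centralizer ({x} : Set G) → ℂ) c) = _
    have e1 : ∀ c : Subgroup.centralizer ({x} : Set G), (χ : G → ℂ) (x * (c : G)) *
        conj ((ξ : Subgroup.centralizer ({x} : Set G) → ℂ) c) =
        ∑ ξ' : Cfsg.IrrCharacter (Subgroup.centralizer ({x} : Set G)),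
        ((n ξ' : ℂ) * lam ξ') * ((ξ' : Subgroup.centralizer ({x} : Set G) → ℂ) c *
          conj ((ξ : Subgroup.centralizer ({x} : Set G) → ℂ) c)) := by
      intro c
      rw [hϑ c, Finset.sum_mul]
      apply Finset.sum_congr rfl
      intro ξ' _
      ring
    rw [Finset.sum_congr rfl (fun c _ => e1 c), Finset.sum_comm, Finset.mul_sum]
    have e2 : ∀ ξ' : Cfsg.IrrCharacter (Subgroup.centralizer ({x} : Set G)),
        (Nat.card (Subgroup.centralizer ({x} : Set G)) : ℂ)⁻¹ *
        ∑ c : Subgroup.centralizer ({x} : Set G), ((n ξ' : ℂ) * lam ξ') *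
          ((ξ' : Subgroup.centralizer ({x} : Set G) → ℂ) c *
          conj ((ξ : Subgroup.centralizer ({x} : Set G) → ℂ) c)) =
        if ξ' = ξ then (n ξ' : ℂ) * lam ξ' else 0 := by
      intro ξ'
      rw [← Finset.mul_sum, mul_left_comm]
      have h2 := classInner_irr' ξ' ξ
      unfold Cfsg.classInner at h2
      rw [h2]
      by_cases h : ξ' = ξ
      · rw [if_pos h, if_pos h, mul_one]
      · rw [if_neg h, if_neg h, mul_zero]
    rw [Finset.sum_congr rfl (fun ξ' _ => e2 ξ'), Finset.sum_ite_eq', if_pos (Finset.mem_univ _)]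
  by_contra hcon
  push_neg at hcon
  apply hX
  -- the block part as a finite sum
  have hpart : ∀ y : Subgroup.centralizer ({x} : Set G),
      Cfsg.blockPart b (fun c : Subgroup.centralizer ({x} : Set G) =>
        (χ : G → ℂ) (x * (c : G))) y =
      ∑ ξ : Cfsg.IrrCharacter (Subgroup.centralizer ({x} : Set G)),
        if ξ ∈ b then ((n ξ : ℂ) * lam ξ) *
          (ξ : Subgroup.centralizer ({x} : Set G) → ℂ) y else 0 := by
    intro y
    show ∑ᶠ ξ ∈ b, Cfsg.classInner (fun c : Subgroup.centralizer ({x} : Set G) =>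
        (χ : G → ℂ) (x * (c : G))) (ξ : Subgroup.centralizer ({x} : Set G) → ℂ) *
        (ξ : Subgroup.centralizer ({x} : Set G) → ℂ) y = _
    rw [finsum_mem_eq_finite_toFinset_sum _ (Set.toFinite b)]
    have hset : (Set.toFinite b).toFinset = Finset.univ.filter (· ∈ b) := by ext z; simp
    rw [hset, Finset.sum_filter]
    apply Finset.sum_congr rfl
    intro ξ _
    by_cases h : ξ ∈ b
    · rw [if_pos h, if_pos h, hcoef ξ]
    · rw [if_neg h, if_neg h]
  -- Z = 0
  have hZ : ∑ ξ : Cfsg.IrrCharacter (Subgroup.centralizer ({x} : Set G)),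
      (if ξ ∈ b then ((n ξ : ℂ) * lam ξ) * (nn7 p ξ ψ : ℂ) else 0) = 0 := by
    have e1 : ∀ ξ : Cfsg.IrrCharacter (Subgroup.centralizer ({x} : Set G)),
        (if ξ ∈ b then ((n ξ : ℂ) * lam ξ) * (nn7 p ξ ψ : ℂ) else 0) =
        ((p ^ (Nat.card (Subgroup.centralizer ({x} : Set G))).factorization p : ℕ) : ℂ) *
        ((Nat.card (Subgroup.centralizer ({x} : Set G)) : ℂ)⁻¹ *
        ∑ y : Subgroup.centralizer ({x} : Set G),
          (if ξ ∈ b then ((n ξ : ℂ) * lam ξ) *
            tw7 p (ξ : Subgroup.centralizer ({x} : Set G) → ℂ) y else 0) *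
          conj ((ψ : Subgroup.centralizer ({x} : Set G) → ℂ) y)) := by
      intro ξ
      by_cases h : ξ ∈ b
      · simp only [if_pos h]
        rw [nn7_spec p ξ ψ]
        show _ = ((p ^ (Nat.card (Subgroup.centralizer ({x} : Set G))).factorization p : ℕ) : ℂ) *
          ((Nat.card (Subgroup.centralizer ({x} : Set G)) : ℂ)⁻¹ *
          ∑ y : Subgroup.centralizer ({x} : Set G),
            ((n ξ : ℂ) * lam ξ) * tw7 p (ξ : Subgroup.centralizer ({x} : Set G) → ℂ) y *
            conj ((ψ : Subgroup.centralizer ({x} : Set G) → ℂ) y))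
        have e3 : ∑ y : Subgroup.centralizer ({x} : Set G),
            ((n ξ : ℂ) * lam ξ) * tw7 p (ξ : Subgroup.centralizer ({x} : Set G) → ℂ) y *
            conj ((ψ : Subgroup.centralizer ({x} : Set G) → ℂ) y) =
            ((n ξ : ℂ) * lam ξ) * ∑ y : Subgroup.centralizer ({x} : Set G),
            tw7 p (ξ : Subgroup.centralizer ({x} : Set G) → ℂ) y *
            conj ((ψ : Subgroup.centralizer ({x} : Set G) → ℂ) y) := by
          rw [Finset.mul_sum]
          apply Finset.sum_congr rfl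
          intro y _
          ring
        rw [e3]
        show ((n ξ : ℂ) * lam ξ) *
          (((p ^ (Nat.card (Subgroup.centralizer ({x} : Set G))).factorization p : ℕ) : ℂ) *
          ((Nat.card (Subgroup.centralizer ({x} : Set G)) : ℂ)⁻¹ *
            ∑ y : Subgroup.centralizer ({x} : Set G),
            tw7 p (ξ : Subgroup.centralizer ({x} : Set G) → ℂ) y *
            conj ((ψ : Subgroup.centralizer ({x} : Set G) → ℂ) y))) = _
        ring
      · simp only [if_neg h, zero_mul, Finset.sum_const_zero, mul_zero]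
    rw [Finset.sum_congr rfl (fun ξ _ => e1 ξ), ← Finset.mul_sum, ← Finset.mul_sum,
      Finset.sum_comm]
    have e4 : ∀ y : Subgroup.centralizer ({x} : Set G),
        ∑ ξ : Cfsg.IrrCharacter (Subgroup.centralizer ({x} : Set G)),
          (if ξ ∈ b then ((n ξ : ℂ) * lam ξ) *
            tw7 p (ξ : Subgroup.centralizer ({x} : Set G) → ℂ) y else 0) *
          conj ((ψ : Subgroup.centralizer ({x} : Set G) → ℂ) y) = 0 := by
      intro y
      rw [← Finset.sum_mul]
      by_cases hy : p ∣ orderOf y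
      · have e5 : ∑ ξ : Cfsg.IrrCharacter (Subgroup.centralizer ({x} : Set G)),
            (if ξ ∈ b then ((n ξ : ℂ) * lam ξ) *
              tw7 p (ξ : Subgroup.centralizer ({x} : Set G) → ℂ) y else 0) = 0 := by
          apply Finset.sum_eq_zero
          intro ξ _
          rw [tw7_apply, if_pos hy, mul_zero, ite_self]
        rw [e5, zero_mul]
      · have e5 : ∑ ξ : Cfsg.IrrCharacter (Subgroup.centralizer ({x} : Set G)),
            (if ξ ∈ b then ((n ξ : ℂ) * lam ξ) *
              tw7 p (ξ : Subgroup.centralizer ({x} : Set G) → ℂ) y else 0) =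
            Cfsg.blockPart b (fun c : Subgroup.centralizer ({x} : Set G) =>
              (χ : G → ℂ) (x * (c : G))) y := by
          rw [hpart y]
          apply Finset.sum_congr rfl
          intro ξ _
          rw [tw7_apply, if_neg hy]
        rw [e5, hcon y hy, zero_mul]
    rw [Finset.sum_congr rfl (fun y _ => e4 y), Finset.sum_const_zero, mul_zero, mul_zero]
  -- the inner product with Θ
  have hinner : Cfsg.classInner (fun h : Subgroup.centralizer ({x} : Set G) =>
      if p ∣ orderOf h then (0 : ℂ) else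
      ((p ^ (Nat.card (Subgroup.centralizer ({x} : Set G))).factorization p : ℕ) : ℂ) *
        (χ : G → ℂ) h) (ψ : Subgroup.centralizer ({x} : Set G) → ℂ) =
      ∑ ξ : Cfsg.IrrCharacter (Subgroup.centralizer ({x} : Set G)),
        (n ξ : ℂ) * (nn7 p ξ ψ : ℂ) := by
    have e1 : ∀ h : Subgroup.centralizer ({x} : Set G), (if p ∣ orderOf h then (0 : ℂ) else
        ((p ^ (Nat.card (Subgroup.centralizer ({x} : Set G))).factorization p : ℕ) : ℂ) *
          (χ : G → ℂ) h) * conj ((ψ : Subgroup.centralizer ({x} : Set G) → ℂ) h) =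
        ∑ ξ : Cfsg.IrrCharacter (Subgroup.centralizer ({x} : Set G)), (n ξ : ℂ) *
        (((p ^ (Nat.card (Subgroup.centralizer ({x} : Set G))).factorization p : ℕ) : ℂ) *
          (tw7 p (ξ : Subgroup.centralizer ({x} : Set G) → ℂ) h *
            conj ((ψ : Subgroup.centralizer ({x} : Set G) → ℂ) h))) := by
      intro h
      rw [hχh h]
      by_cases hh : p ∣ orderOf h
      · rw [if_pos hh, zero_mul]
        symm
        apply Finset.sum_eq_zero
        intro ξ _
        rw [tw7_apply, if_pos hh]; ring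
      · rw [if_neg hh, Finset.mul_sum, Finset.sum_mul]
        apply Finset.sum_congr rfl
        intro ξ _
        rw [tw7_apply, if_neg hh]; ring
    show (Nat.card (Subgroup.centralizer ({x} : Set G)) : ℂ)⁻¹ *
      ∑ h : Subgroup.centralizer ({x} : Set G), (if p ∣ orderOf h then (0 : ℂ) else
        ((p ^ (Nat.card (Subgroup.centralizer ({x} : Set G))).factorization p : ℕ) : ℂ) *
          (χ : G → ℂ) h) * conj ((ψ : Subgroup.centralizer ({x} : Set G) → ℂ) h) = _
    rw [Finset.sum_congr rfl (fun h _ => e1 h), Finset.sum_comm, Finset.mul_sum]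
    apply Finset.sum_congr rfl
    intro ξ _
    rw [nn7_spec p ξ ψ, ← Finset.mul_sum, ← Finset.mul_sum]
    show _ = (n ξ : ℂ) *
      (((p ^ (Nat.card (Subgroup.centralizer ({x} : Set G))).factorization p : ℕ) : ℂ) *
      ((Nat.card (Subgroup.centralizer ({x} : Set G)) : ℂ)⁻¹ *
        ∑ h : Subgroup.centralizer ({x} : Set G),
        tw7 p (ξ : Subgroup.centralizer ({x} : Set G) → ℂ) h *
          conj ((ψ : Subgroup.centralizer ({x} : Set G) → ℂ) h)))
    ring
  -- nn7 vanishes off b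
  have hoff : ∀ ξ : Cfsg.IrrCharacter (Subgroup.centralizer ({x} : Set G)), ξ ∉ b →
      nn7 p ξ ψ = 0 := by
    intro ξ hξ
    have h1 := nn7_spec p ξ ψ
    rw [Cfsg.Agent.S4431.inner_zero_aux p M hM ξ ψ (fun hs => hξ (by
      rw [blockOf_eq_h7 M hMprime b hbb ψ hψb]
      exact sameBlock_symm_lead hs)), mul_zero] at h1
    exact_mod_cast h1
  -- ψ(1)
  obtain ⟨m, hm⟩ : ∃ m : ℕ, m = (Cfsg.charDegree
      (ψ : Subgroup.centralizer ({x} : Set G) → ℂ)).factorization p := ⟨_, rfl⟩
  obtain ⟨hψ1, hψ0⟩ := charDegree_irr ψ.2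
  obtain ⟨s, hs⟩ : ∃ s : ℕ, s = Cfsg.charDegree
      (ψ : Subgroup.centralizer ({x} : Set G) → ℂ) / p ^ m := ⟨_, rfl⟩
  have hDs : Cfsg.charDegree (ψ : Subgroup.centralizer ({x} : Set G) → ℂ) = p ^ m * s := by
    rw [hs, hm]; exact (Nat.ordProj_mul_ordCompl_eq_self _ p).symm
  have hscop : Nat.Coprime s p := by
    rw [hs, hm]; exact (Nat.coprime_ordCompl hp hψ0).symm
  have hsM : (s : Cfsg.AlgInt) ∉ M := natCast_not_mem_lead hMtop p s hscop hpM
  have hs0 : (s : ℂ) ≠ 0 := by
    intro h0'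
    have : s = 0 := by exact_mod_cast h0'
    rw [this, mul_zero] at hDs
    exact hψ0 hDs
  have hp0 : (p : ℂ) ≠ 0 := by exact_mod_cast hp.ne_zero
  -- rewrite X
  have hXeq : Cfsg.classInner (fun h : Subgroup.centralizer ({x} : Set G) =>
      if p ∣ orderOf h then (0 : ℂ) else
      ((p ^ (Nat.card (Subgroup.centralizer ({x} : Set G))).factorization p : ℕ) : ℂ) *
        (χ : G → ℂ) h) (ψ : Subgroup.centralizer ({x} : Set G) → ℂ) /
      (ψ : Subgroup.centralizer ({x} : Set G) → ℂ) 1 =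
      ∑ ξ : Cfsg.IrrCharacter (Subgroup.centralizer ({x} : Set G)),
        (if ξ ∈ b then ((n ξ : ℂ) * (1 - lam ξ)) * ((nn7 p ξ ψ : ℂ) /
          (ψ : Subgroup.centralizer ({x} : Set G) → ℂ) 1) else 0) := by
    have e1 : ∑ ξ : Cfsg.IrrCharacter (Subgroup.centralizer ({x} : Set G)),
        (n ξ : ℂ) * (nn7 p ξ ψ : ℂ) =
        ∑ ξ : Cfsg.IrrCharacter (Subgroup.centralizer ({x} : Set G)),
        (if ξ ∈ b then ((n ξ : ℂ) * (1 - lam ξ)) * (nn7 p ξ ψ : ℂ) else 0) +
        ∑ ξ : Cfsg.IrrCharacter (Subgroup.centralizer ({x} : Set G)),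
        (if ξ ∈ b then ((n ξ : ℂ) * lam ξ) * (nn7 p ξ ψ : ℂ) else 0) := by
      rw [← Finset.sum_add_distrib]
      apply Finset.sum_congr rfl
      intro ξ _
      by_cases h : ξ ∈ b
      · rw [if_pos h, if_pos h]; ring
      · rw [if_neg h, if_neg h, hoff ξ h, Int.cast_zero, mul_zero, add_zero]
    rw [hinner, e1, hZ, add_zero, Finset.sum_div]
    apply Finset.sum_congr rfl
    intro ξ _
    by_cases h : ξ ∈ b
    · rw [if_pos h, if_pos h, mul_div_assoc]
    · rw [if_neg h, if_neg h, zero_div]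
  rw [hXeq]
  apply memLocalIdeal_sum_lead hMprime
  intro ξ _
  by_cases h : ξ ∈ b
  · rw [if_pos h]
    -- nn7 p ξ ψ / ψ 1 in the ring
    have h2 : (p : ℤ) ^ m ∣ nn7 p ψ ξ := by rw [hm]; exact nn7_dvd p ψ ξ
    obtain ⟨q, hq⟩ := h2
    have e : (nn7 p ξ ψ : ℂ) / (ψ : Subgroup.centralizer ({x} : Set G) → ℂ) 1 =
        ((s : Cfsg.AlgInt) : ℂ)⁻¹ * (q : ℂ) := by
      rw [nn7_symm p ξ ψ, hq, hψ1, hDs, algInt_natCast_h7]
      push_cast
      field_simp
    rw [e]
    have hR : Cfsg.MemLocalRing M (((s : Cfsg.AlgInt) : ℂ)⁻¹ * (q : ℂ)) :=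
      memLocalRing_mul_lead hMprime (memLocalRing_inv_lead hsM) (memLocalRing_int_h7 M hMtop q)
    have hnR := memLocalRing_int_h7 M hMtop (n ξ : ℤ)
    rw [Int.cast_natCast] at hnR
    have hI : Cfsg.MemLocalIdeal M (1 - lam ξ) := by
      have h3 := memLocalIdeal_neg_lead (hlamI ξ)
      rw [neg_sub] at h3
      exact h3
    have h4 := memLocalIdeal_mul_ring_lead hMprime
      (memLocalRing_mul_lead hMprime hnR hR) hI
    have e2 : (n ξ : ℂ) * (1 - lam ξ) * (((s : Cfsg.AlgInt) : ℂ)⁻¹ * (q : ℂ)) =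
        (n ξ : ℂ) * (((s : Cfsg.AlgInt) : ℂ)⁻¹ * (q : ℂ)) * (1 - lam ξ) := by ring
    rw [e2]
    exact h4
  · rw [if_neg h]
    exact memLocalIdeal_zero_lead hMtop


end Cfsg.Agent.S4428
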