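import Cfsg.Statements.S0969
import Mathlib
import Cfsg.Agent.S4428
-- import your own Cfsg.Agent.* helpers here

set_option autoImplicit false
open Cfsg
open Cfsg.Agent.Lib.Helper7 Cfsg.Agent.Lib.Lead
open scoped ComplexConjugate

namespace Cfsg.Agent.S0969

theorem ppart_unique_aux {G : Type*} [Group G] (p : ℕ) [hp : Fact p.Prime]
    (x y z y' : G) (hxy : Commute x y) (k : ℕ) (hx : orderOf x = p ^ k) (hy : ¬ p ∣ orderOf y)
    (hz : z ∈ Subgroup.center G) (j : ℕ) (hzj : z ^ p ^ j = 1) (hy' : ¬ p ∣ orderOf y')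
    (heq : x * y = z * y') : x = z := by
  have hp' := hp.out
  have hzc := Subgroup.mem_center_iff.1 hz
  have hzy : Commute z y' := (hzc y').symm
  obtain ⟨n, hn⟩ : ∃ n, n = orderOf y * orderOf y' := ⟨_, rfl⟩
  have h1 : (x * y) ^ n = x ^ n := by
    rw [hxy.mul_pow, hn, pow_mul y, pow_orderOf_eq_one, one_pow, mul_one]
  have h2 : (z * y') ^ n = z ^ n := by
    rw [hzy.mul_pow, hn, mul_comm (orderOf y), pow_mul y', pow_orderOf_eq_one, one_pow, mul_one]
  have h3 : x ^ n = z ^ n := by rw [← h1, heq, h2]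
  have hxz : Commute x z⁻¹ := (show Commute x z from hzc x).inv_right
  have hw1 : (x * z⁻¹) ^ n = 1 := by
    rw [hxz.mul_pow, inv_pow, h3, mul_inv_cancel]
  have hw2 : (x * z⁻¹) ^ (p ^ (k + j)) = 1 := by
    rw [hxz.mul_pow, inv_pow]
    have e1 : x ^ p ^ (k + j) = 1 := by
      rw [pow_add, pow_mul, ← hx, pow_orderOf_eq_one, one_pow]
    have e2 : z ^ p ^ (k + j) = 1 := by
      rw [pow_add, mul_comm, pow_mul, hzj, one_pow]
    rw [e1, e2, inv_one, mul_one]
  have hcop : Nat.Coprime (p ^ (k + j)) n := by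
    apply Nat.Coprime.pow_left
    rw [hp'.coprime_iff_not_dvd, hn]
    intro hd
    rcases hp'.dvd_mul.1 hd with h | h
    · exact hy h
    · exact hy' h
  have ho : orderOf (x * z⁻¹) = 1 :=
    Nat.Coprime.eq_one_of_dvd (Nat.Coprime.coprime_dvd_left (orderOf_dvd_of_pow_eq_one hw2) hcop)
      (orderOf_dvd_of_pow_eq_one hw1)
  exact mul_inv_eq_one.1 (orderOf_eq_one_iff.1 ho)

theorem central_norm_aux {G : Type*} [Group G] [Finite G] (χ : Cfsg.IrrCharacter G) (z : G)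
    (hz : z ∈ Subgroup.center G) (y : G) :
    Complex.normSq ((χ : G → ℂ) (z * y)) = Complex.normSq ((χ : G → ℂ) y) := by
  obtain ⟨hχ1, hχ0⟩ := charDegree_irr χ.2
  have hχ0' : (χ : G → ℂ) 1 ≠ 0 := by rw [hχ1]; exact_mod_cast hχ0
  have hzc := Subgroup.mem_center_iff.1 hz
  rw [← hzc y, Cfsg.Agent.S4428.central_mul_aux χ z hz y, Complex.normSq_mul]
  have hpow := Cfsg.Agent.S4428.central_pow_aux χ z hz (orderOf z)
  rw [pow_orderOf_eq_one] at hpow
  have h1 : ((χ : G → ℂ) z / (χ : G → ℂ) 1) ^ orderOf z = 1 := by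
    have h2 : ((χ : G → ℂ) z / (χ : G → ℂ) 1) ^ orderOf z * (χ : G → ℂ) 1 =
        1 * (χ : G → ℂ) 1 := by rw [← hpow, one_mul]
    exact mul_right_cancel₀ hχ0' h2
  have h3 : ‖(χ : G → ℂ) z / (χ : G → ℂ) 1‖ = 1 :=
    Complex.norm_eq_one_of_pow_eq_one h1 (orderOf_pos z).ne'
  rw [Complex.normSq_eq_norm_sq, h3, one_pow, one_mul]

/-- Let D be a central p-subgroup of the finite group G and χ an irreducible character with the exponent of p in χ(1) equal to the exponent of p in the index of D; fix a maximal ideal M of the algebraic integers containing p. Then D is a defect group of the block of χ, and χ g = 0 whenever the p-part of g does not lie in D. -/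
theorem result {G : Type*} [Group G] [Finite G] (p : ℕ) [Fact p.Prime] (M : Ideal Cfsg.AlgInt) (hM : Cfsg.IsPModular p M) (D : Subgroup G) (hD : IsPGroup p D) (hDZ : D ≤ Subgroup.center G) (χ : Cfsg.IrrCharacter G) (hdeg : (Cfsg.charDegree (χ : G → ℂ)).factorization p = D.index.factorization p) : Cfsg.IsDefectGroup p M (Cfsg.blockOf M (χ : G → ℂ)) D ∧ ∀ g x : G, Cfsg.IsPPart p g x → x ∉ D → (χ : G → ℂ) g = 0 := by
  classical
  haveI : Fintype G := Fintype.ofFinite _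
  haveI : Fintype (Cfsg.IrrCharacter G) := Fintype.ofFinite _
  haveI : Fintype (ConjClasses G) := Fintype.ofFinite _
  haveI : Fintype D := Fintype.ofFinite _
  have hp : p.Prime := Fact.out
  have hMprime : M.IsPrime := hM.2.1.isPrime
  have hMtop : M ≠ ⊤ := hMprime.ne_top
  have hpM : (p : Cfsg.AlgInt) ∈ M := hM.2.2
  obtain ⟨hχ1, hχ0⟩ := charDegree_irr χ.2
  have hχ0' : (χ : G → ℂ) 1 ≠ 0 := by rw [hχ1]; exact_mod_cast hχ0
  obtain ⟨δ, hδ⟩ := IsPGroup.iff_card.1 hD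
  obtain ⟨a, ha⟩ : ∃ a, a = (Nat.card G).factorization p := ⟨_, rfl⟩
  obtain ⟨v, hv⟩ : ∃ v, v = (Cfsg.charDegree (χ : G → ℂ)).factorization p := ⟨_, rfl⟩
  have hav : a = δ + v := by
    rw [ha, hv, hdeg, ← Subgroup.card_mul_index D,
      Nat.factorization_mul Nat.card_pos.ne' Subgroup.index_ne_zero_of_finite, hδ,
      Finsupp.add_apply, hp.factorization_pow, Finsupp.single_eq_same]
  have hGpos : (0 : ℝ) < (Nat.card G : ℝ) := by exact_mod_cast Nat.card_pos
  have hall : ∑ x : G, Complex.normSq ((χ : G → ℂ) x) = (Nat.card G : ℝ) := by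
    have h1 := classInner_irr' χ χ
    rw [if_pos rfl] at h1
    unfold Cfsg.classInner at h1
    have h2 : (((Nat.card G : ℝ)⁻¹ * ∑ x : G, Complex.normSq ((χ : G → ℂ) x) : ℝ) : ℂ) =
        ((1 : ℝ) : ℂ) := by
      push_cast
      rw [← h1]
      congr 1
      apply Finset.sum_congr rfl
      intro x _
      rw [Complex.mul_conj]
    have h3 : (Nat.card G : ℝ)⁻¹ * ∑ x : G, Complex.normSq ((χ : G → ℂ) x) = 1 := by
      exact_mod_cast h2
    have h4 := congrArg (fun z : ℝ => (Nat.card G : ℝ) * z) h3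
    beta_reduce at h4
    rw [← mul_assoc, mul_inv_cancel₀ hGpos.ne', one_mul, mul_one] at h4
    exact h4
  obtain ⟨S, hS⟩ : ∃ S : ℝ, S = ∑ x : G,
      (if p ∣ orderOf x then 0 else Complex.normSq ((χ : G → ℂ) x)) := ⟨_, rfl⟩
  obtain ⟨N, hNdef⟩ : ∃ N : ℤ, N = nn7 p χ χ := ⟨_, rfl⟩
  have hNS : ((N : ℤ) : ℝ) = (p : ℝ) ^ a * ((Nat.card G : ℝ)⁻¹ * S) := by
    have h1 := nn7_spec p χ χ
    have h2 : Cfsg.classInner (tw7 p (χ : G → ℂ)) (χ : G → ℂ) =
        (((Nat.card G : ℝ)⁻¹ * S : ℝ) : ℂ) := by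
      rw [hS]
      unfold Cfsg.classInner
      push_cast
      congr 1
      apply Finset.sum_congr rfl
      intro x _
      rw [tw7_apply]
      by_cases hx : p ∣ orderOf x
      · simp [hx]
      · simp [hx, Complex.mul_conj]
    rw [h2, ← ha, ← hNdef] at h1
    exact_mod_cast h1
  -- the counting function
  obtain ⟨c, hc⟩ : ∃ c : G → ℝ, ∀ g, c g = ∑ z : D,
      (if p ∣ orderOf ((z : G)⁻¹ * g) then (0 : ℝ) else 1) := ⟨_, fun _ => rfl⟩
  have hDpow : ∀ z : D, ∃ j : ℕ, (z : G) ^ p ^ j = 1 := by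
    intro z
    obtain ⟨j, hj⟩ := hD z
    refine ⟨j, ?_⟩
    have := congrArg Subtype.val hj
    simpa using this
  have huniq : ∀ (g : G) (z z' : D), ¬ p ∣ orderOf ((z : G)⁻¹ * g) →
      ¬ p ∣ orderOf ((z' : G)⁻¹ * g) → z = z' := by
    intro g z z' hz hz'
    obtain ⟨j, hj⟩ := hDpow z'
    have hx1 : orderOf (1 : G) = p ^ 0 := by rw [orderOf_one, pow_zero]
    -- z * (z⁻¹ g) = z' * (z'⁻¹ g); compare via 1 * (z'⁻¹ z y) ...
    obtain ⟨j2, hj2⟩ := hDpow z
    have hzc := Subgroup.mem_center_iff.1 (hDZ z.2)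
    have hcomm : Commute (z : G) ((z : G)⁻¹ * g) := (hzc _).symm
    obtain ⟨i, hi⟩ := (Nat.dvd_prime_pow hp).1 (orderOf_dvd_of_pow_eq_one hj2)
    have h := ppart_unique_aux p (z : G) ((z : G)⁻¹ * g) (z' : G) ((z' : G)⁻¹ * g) hcomm
      i hi.2 hz (hDZ z'.2) j hj hz' (by rw [mul_inv_cancel_left, mul_inv_cancel_left])
    exact Subtype.ext h
  have hc_le : ∀ g, c g ≤ 1 := by
    intro g
    rw [hc]
    by_cases hex : ∃ z : D, ¬ p ∣ orderOf ((z : G)⁻¹ * g)
    · obtain ⟨z₀, hz₀⟩ := hex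
      have e : ∑ z : D, (if p ∣ orderOf ((z : G)⁻¹ * g) then (0 : ℝ) else 1) =
          ∑ z : D, (if z = z₀ then (1 : ℝ) else 0) := by
        apply Finset.sum_congr rfl
        intro z _
        by_cases hz : p ∣ orderOf ((z : G)⁻¹ * g)
        · rw [if_pos hz, if_neg]
          rintro rfl
          exact hz₀ hz
        · rw [if_neg hz, if_pos (huniq g z z₀ hz hz₀)]
      rw [e, Finset.sum_ite_eq' Finset.univ z₀ (fun _ => (1 : ℝ)), if_pos (Finset.mem_univ _)]
    · push_neg at hex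
      rw [Finset.sum_eq_zero (fun z _ => by rw [if_pos (hex z)])]
      exact zero_le_one
  have hsum1 : ∑ g : G, c g * Complex.normSq ((χ : G → ℂ) g) = (Nat.card D : ℝ) * S := by
    have e1 : ∀ g : G, c g * Complex.normSq ((χ : G → ℂ) g) = ∑ z : D,
        (if p ∣ orderOf ((z : G)⁻¹ * g) then (0 : ℝ) else 1) *
          Complex.normSq ((χ : G → ℂ) g) := by
      intro g
      rw [hc, Finset.sum_mul]
    rw [Finset.sum_congr rfl (fun g _ => e1 g), Finset.sum_comm]
    have e2 : ∀ z : D, ∑ g : G, (if p ∣ orderOf ((z : G)⁻¹ * g) then (0 : ℝ) else 1) *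
        Complex.normSq ((χ : G → ℂ) g) = S := by
      intro z
      rw [← Equiv.sum_comp (Equiv.mulLeft (z : G)), hS]
      apply Finset.sum_congr rfl
      intro y _
      show (if p ∣ orderOf ((z : G)⁻¹ * ((z : G) * y)) then (0 : ℝ) else 1) *
        Complex.normSq ((χ : G → ℂ) ((z : G) * y)) = _
      rw [inv_mul_cancel_left, central_norm_aux χ (z : G) (hDZ z.2) y]
      by_cases hy : p ∣ orderOf y
      · rw [if_pos hy, if_pos hy, zero_mul]
      · rw [if_neg hy, if_neg hy, one_mul]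
    rw [Finset.sum_congr rfl (fun z _ => e2 z), Finset.sum_const, Finset.card_univ,
      nsmul_eq_mul, Nat.card_eq_fintype_card]
  have hle : (Nat.card D : ℝ) * S ≤ (Nat.card G : ℝ) := by
    rw [← hsum1, ← hall]
    apply Finset.sum_le_sum
    intro g _
    exact mul_le_of_le_one_left (Complex.normSq_nonneg _) (hc_le g)
  have hNpos : 0 < N := by rw [hNdef]; exact (nn7_self p χ).1
  have hNdvd : (p : ℤ) ^ v ∣ N := by rw [hNdef, hv]; exact nn7_dvd p χ χ
  have hDr : (Nat.card D : ℝ) = (p : ℝ) ^ δ := by rw [hδ]; push_cast; rfl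
  have hp0 : (0 : ℝ) < (p : ℝ) := by exact_mod_cast hp.pos
  have hpδ : (0 : ℝ) < (p : ℝ) ^ δ := pow_pos hp0 _
  have hpv : (0 : ℝ) < (p : ℝ) ^ v := pow_pos hp0 _
  have hNr_le : ((N : ℤ) : ℝ) ≤ (p : ℝ) ^ v := by
    rw [hNS, hav, pow_add]
    have h1 : (p : ℝ) ^ δ * S ≤ (Nat.card G : ℝ) := by rw [← hDr]; exact hle
    calc (p : ℝ) ^ δ * (p : ℝ) ^ v * ((Nat.card G : ℝ)⁻¹ * S)
        = (p : ℝ) ^ v * ((Nat.card G : ℝ)⁻¹ * ((p : ℝ) ^ δ * S)) := by ring
      _ ≤ (p : ℝ) ^ v * ((Nat.card G : ℝ)⁻¹ * (Nat.card G : ℝ)) := by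
          apply mul_le_mul_of_nonneg_left _ hpv.le
          exact mul_le_mul_of_nonneg_left h1 (inv_pos.2 hGpos).le
      _ = (p : ℝ) ^ v := by rw [inv_mul_cancel₀ hGpos.ne', mul_one]
  have hNle : N ≤ (p : ℤ) ^ v := by exact_mod_cast hNr_le
  have hNeq : N = (p : ℤ) ^ v := le_antisymm hNle (Int.le_of_dvd hNpos hNdvd)
  have hDS : (Nat.card D : ℝ) * S = (Nat.card G : ℝ) := by
    have h1 : (p : ℝ) ^ v = (p : ℝ) ^ (δ + v) * ((Nat.card G : ℝ)⁻¹ * S) := by
      rw [← hav, ← hNS, hNeq]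
      push_cast
      rfl
    rw [pow_add] at h1
    have h2 : (p : ℝ) ^ v * (Nat.card G : ℝ) = (p : ℝ) ^ v * ((p : ℝ) ^ δ * S) := by
      calc (p : ℝ) ^ v * (Nat.card G : ℝ)
          = ((p : ℝ) ^ δ * (p : ℝ) ^ v * ((Nat.card G : ℝ)⁻¹ * S)) * (Nat.card G : ℝ) := by
            rw [← h1]
        _ = (p : ℝ) ^ v * ((p : ℝ) ^ δ * S) * ((Nat.card G : ℝ)⁻¹ * (Nat.card G : ℝ)) := by
            ring
        _ = _ := by rw [inv_mul_cancel₀ hGpos.ne', mul_one]
    have h3 := mul_left_cancel₀ hpv.ne' h2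
    rw [hDr]
    exact h3.symm
  constructor
  · have hB : Cfsg.IsPBlock M (Cfsg.blockOf M (χ : G → ℂ)) := ⟨χ, rfl⟩
    have hχB : χ ∈ Cfsg.blockOf M (χ : G → ℂ) := sameBlock_refl_lead hMtop _
    obtain ⟨χ₀, hχ₀B, hχ₀inf, hmin⟩ := exists_min_h7 p M hMprime _ hB
    have hvmin : (Cfsg.charDegree (χ : G → ℂ)).factorization p =
        (Cfsg.charDegree (χ₀ : G → ℂ)).factorization p := by
      by_contra hne
      have h1 := nn7_of_not_min p M hM _ hB χ χ₀ hχB hχ₀B hmin hne χ hχB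
      rw [← hv, ← hNdef, hNeq] at h1
      have h2 : (p : ℤ) ^ (v + 1) ≤ (p : ℤ) ^ v :=
        Int.le_of_dvd (pow_pos (by exact_mod_cast hp.pos) _) h1
      have h3 : (p : ℤ) ^ v < (p : ℤ) ^ (v + 1) :=
        pow_lt_pow_right₀ (by exact_mod_cast hp.one_lt) (Nat.lt_succ_self v)
      omega
    have hdefect : Cfsg.blockDefect p (Cfsg.blockOf M (χ : G → ℂ)) = δ := by
      unfold Cfsg.blockDefect
      rw [← hχ₀inf, ← hvmin, ← ha, ← hv, hav]
      omega
    obtain ⟨g₀, hg₀⟩ := exists_defectClass_lead p hp M hMprime hpM χ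
    have hord := defectClass_ord_h7 p M hM _ hB g₀ hg₀
    rw [hdefect] at hord
    refine ⟨g₀, hg₀, ?_⟩
    have hDC : D ≤ Subgroup.centralizer ({g₀} : Set G) := by
      intro z hz
      rw [Subgroup.mem_centralizer_iff]
      intro h hh
      rw [Set.mem_singleton_iff] at hh
      rw [hh]
      exact Subgroup.mem_center_iff.1 (hDZ hz) g₀
    have hD' : IsPGroup p (D.subgroupOf (Subgroup.centralizer ({g₀} : Set G))) :=
      hD.comap_subtype
    obtain ⟨Q, hQ⟩ := hD'.exists_le_sylow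
    refine ⟨Q, ?_⟩
    have hcardQ : Nat.card Q = p ^ δ := by rw [Sylow.card_eq_multiplicity, hord]
    have hcardD' : Nat.card (D.subgroupOf (Subgroup.centralizer ({g₀} : Set G))) = p ^ δ := by
      rw [Nat.card_congr (Subgroup.subgroupOfEquivOfLe hDC).toEquiv, hδ]
    have hEq : D.subgroupOf (Subgroup.centralizer ({g₀} : Set G)) = (Q : Subgroup _) :=
      Subgroup.eq_of_le_of_card_ge hQ (by rw [hcardQ, hcardD'])
    rw [← hEq, Subgroup.map_subgroupOf_eq_of_le hDC]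
  · have hzero : ∀ g : G, (1 - c g) * Complex.normSq ((χ : G → ℂ) g) = 0 := by
      have hs : ∑ g : G, (1 - c g) * Complex.normSq ((χ : G → ℂ) g) = 0 := by
        have e : ∀ g : G, (1 - c g) * Complex.normSq ((χ : G → ℂ) g) =
            Complex.normSq ((χ : G → ℂ) g) - c g * Complex.normSq ((χ : G → ℂ) g) :=
          fun g => by ring
        rw [Finset.sum_congr rfl (fun g _ => e g), Finset.sum_sub_distrib, hall, hsum1, hDS,
          sub_self]
      intro g
      exact (Finset.sum_eq_zero_iff_of_nonneg (fun g _ =>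
        mul_nonneg (sub_nonneg.2 (hc_le g)) (Complex.normSq_nonneg _))).1 hs g
        (Finset.mem_univ g)
    intro g x hpp hxD
    obtain ⟨y, hxy, hcomm, ⟨k, hk⟩, hy⟩ := hpp
    have hcg : c g = 0 := by
      rw [hc]
      apply Finset.sum_eq_zero
      intro z _
      rw [if_pos]
      by_contra hnd
      apply hxD
      obtain ⟨j, hj⟩ := hDpow z
      have h := ppart_unique_aux p x y (z : G) ((z : G)⁻¹ * g) hcomm k hk hy (hDZ z.2) j hj hnd
        (by rw [hxy, mul_inv_cancel_left])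
      rw [h]
      exact z.2
    have h := hzero g
    rw [hcg, sub_zero, one_mul] at h
    exact Complex.normSq_eq_zero.1 h


end Cfsg.Agent.S0969
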