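import Mathlib
import Cfsg.Statements.S0985
import Cfsg.Agent.Lib.Helper2.Orbits

set_option autoImplicit false
open Cfsg

namespace Cfsg.Agent.S0985

/-- If the number of Sylow p-subgroups of a finite group is not congruent to 1 modulo p^k, then there are two distinct Sylow p-subgroups P and R such that the index of P ∩ R in P is at most p^(k-1). -/
theorem result {G : Type*} [Group G] [Finite G] (p k : ℕ) [Fact p.Prime] (h : ¬ Nat.card (Sylow p G) ≡ 1 [MOD p ^ k]) : ∃ P R : Sylow p G, P ≠ R ∧ ((R : Subgroup G).subgroupOf (P : Subgroup G)).index ≤ p ^ (k - 1) := by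
  classical
  by_contra hcon
  push Not at hcon
  apply h
  obtain ⟨P⟩ := (Sylow.nonempty : Nonempty (Sylow p G))
  refine Cfsg.Agent.Lib.Helper2.card_modEq_one_of_orbits (M := ↥(P : Subgroup G)) P (p ^ k) ?_ ?_
  · intro m
    exact Sylow.smul_eq_iff_mem_normalizer.mpr (Subgroup.le_normalizer m.2)
  · intro R hR
    have hstab : MulAction.stabilizer ↥(P : Subgroup G) R = (R : Subgroup G).subgroupOf (P : Subgroup G) := by
      ext x
      rw [MulAction.mem_stabilizer_iff, Subgroup.mem_subgroupOf]
      have h1 : x • R = R ↔ (x : G) ∈ Subgroup.normalizer (R : Set G) := Sylow.smul_eq_iff_mem_normalizer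
      rw [h1]
      have h2 := P.2.inf_normalizer_sylow R
      constructor
      · intro hx
        have h3 : (x : G) ∈ (P : Subgroup G) ⊓ Subgroup.normalizer (R : Set G) := ⟨x.2, hx⟩
        rw [h2] at h3
        exact h3.2
      · intro hx
        exact Subgroup.le_normalizer hx
    rw [hstab]
    have hlt := hcon P R (Ne.symm hR)
    obtain ⟨n, hn⟩ := (IsPGroup.iff_card.mp P.2)
    have hdvd : ((R : Subgroup G).subgroupOf (P : Subgroup G)).index ∣ p ^ n := by
      rw [← hn]; exact Subgroup.index_dvd_card _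
    obtain ⟨j, hj, hj2⟩ := (Nat.dvd_prime_pow (Fact.out : p.Prime)).mp hdvd
    rw [hj2] at hlt ⊢
    have h4 : k - 1 < j := (Nat.pow_lt_pow_iff_right (Fact.out : p.Prime).one_lt).mp hlt
    exact pow_dvd_pow p (by omega)

end Cfsg.Agent.S0985
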