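import Mathlib
import Cfsg.Statements.S0986
import Cfsg.Agent.Lib.Helper2.SylowInter

set_option autoImplicit false
open Cfsg

namespace Cfsg.Agent.S0986

/-- Let P and Q be distinct Sylow p-subgroups of a finite group G chosen so that the order of P ∩ Q is as large as possible among intersections of two distinct Sylow p-subgroups, and let N be the normalizer of P ∩ Q. Then N has more than one Sylow p-subgroup, any two distinct Sylow p-subgroups of N intersect exactly in P ∩ Q, and each Sylow p-subgroup of N lies in exactly one Sylow p-subgroup of G. -/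
theorem result {G : Type*} [Group G] [Finite G] (p : ℕ) [Fact p.Prime] (P Q : Sylow p G) (hPQ : P ≠ Q) (hmax : ∀ P' Q' : Sylow p G, P' ≠ Q' → Nat.card ↥((P' : Subgroup G) ⊓ (Q' : Subgroup G)) ≤ Nat.card ↥((P : Subgroup G) ⊓ (Q : Subgroup G))) : 1 < Nat.card (Sylow p ↥(Subgroup.normalizer (((P : Subgroup G) ⊓ (Q : Subgroup G) : Subgroup G) : Set G))) ∧ (∀ S T : Sylow p ↥(Subgroup.normalizer (((P : Subgroup G) ⊓ (Q : Subgroup G) : Subgroup G) : Set G)), S ≠ T → (S : Subgroup _) ⊓ (T : Subgroup _) = ((P : Subgroup G) ⊓ (Q : Subgroup G)).subgroupOf (Subgroup.normalizer (((P : Subgroup G) ⊓ (Q : Subgroup G) : Subgroup G) : Set G))) ∧ ∀ S : Sylow p ↥(Subgroup.normalizer (((P : Subgroup G) ⊓ (Q : Subgroup G) : Subgroup G) : Set G)), ∃! T : Sylow p G, (S : Subgroup _).map (Subgroup.normalizer (((P : Subgroup G) ⊓ (Q : Subgroup G) : Subgroup G) : Set G)).subtype ≤ (T : Subgroup G) := by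
  classical
  set D : Subgroup G := (P : Subgroup G) ⊓ (Q : Subgroup G) with hD
  set N : Subgroup G := Subgroup.normalizer (D : Set G) with hN
  have hDP : D ≤ P := inf_le_left
  have hDQ : D ≤ Q := inf_le_right
  have hDN : D ≤ N := Subgroup.le_normalizer
  have hDp : IsPGroup p D := P.2.to_le hDP
  have hDneP : D ≠ (P : Subgroup G) := by
    intro h
    apply hPQ
    have h1 : (P : Subgroup G) ≤ Q := h ▸ hDQ
    exact Sylow.ext (P.is_maximal' Q.2 h1).symm
  have hDneQ : D ≠ (Q : Subgroup G) := by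
    intro h
    apply hPQ
    have h1 : (Q : Subgroup G) ≤ P := h ▸ hDP
    exact Sylow.ext (Q.is_maximal' P.2 h1)
  obtain ⟨x, hxP, hxD, hxN⟩ :=
    Cfsg.Agent.Lib.Helper2.normalizer_grows (P : Subgroup G) P.2 D hDP hDneP
  obtain ⟨y, hyQ, hyD, hyN⟩ :=
    Cfsg.Agent.Lib.Helper2.normalizer_grows (Q : Subgroup G) Q.2 D hDQ hDneQ
  have hbig : ∀ S : Sylow p ↥N, Nat.card D < Nat.card (S : Subgroup ↥N) := by
    intro S
    have h1 : IsPGroup p ((P : Subgroup G) ⊓ N : Subgroup G) := P.2.to_le inf_le_left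
    have h2 : Nat.card (((P : Subgroup G) ⊓ N).subgroupOf N) ≤ Nat.card (S : Subgroup ↥N) :=
      Cfsg.Agent.Lib.Helper2.card_le_sylow S _ h1.comap_subtype
    rw [Nat.card_congr (Subgroup.subgroupOfEquivOfLe inf_le_right).toEquiv] at h2
    have h3 : Nat.card D < Nat.card ((P : Subgroup G) ⊓ N : Subgroup G) :=
      Cfsg.Agent.Lib.Helper2.card_lt_of_le_of_mem (le_inf hDP hDN) x ⟨hxP, hxN⟩ hxD
    omega
  have h3 : ∀ S : Sylow p ↥N, ∃! T : Sylow p G,
      (S : Subgroup ↥N).map N.subtype ≤ (T : Subgroup G) := by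
    intro S
    have hSp : IsPGroup p ((S : Subgroup ↥N).map N.subtype) := S.2.map _
    obtain ⟨T, hT⟩ := hSp.exists_le_sylow
    refine ⟨T, hT, ?_⟩
    intro T' hT'
    by_contra hne
    have h4 := hmax T' T hne
    have h5 : Nat.card ((S : Subgroup ↥N).map N.subtype)
        ≤ Nat.card ((T' : Subgroup G) ⊓ (T : Subgroup G) : Subgroup G) :=
      Subgroup.card_le_of_le (le_inf hT' hT)
    rw [Subgroup.card_subtype] at h5
    have h6 := hbig S
    omega
  have h1 : 1 < Nat.card (Sylow p ↥N) := by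
    by_contra hle
    push Not at hle
    have hsub : Subsingleton (Sylow p ↥N) := by
      have hpos : 0 < Nat.card (Sylow p ↥N) := Nat.card_pos
      exact (Nat.card_eq_one_iff_unique.mp (by omega)).1
    obtain ⟨S⟩ : Nonempty (Sylow p ↥N) := inferInstance
    obtain ⟨T, hT, _⟩ := h3 S
    have hPT : ∀ R : Sylow p G, D ≤ R → ∀ z ∈ (R : Subgroup G), z ∉ D → z ∈ N → R = T := by
      intro R hDR z hzR hzD hzN
      by_contra hne
      have h4 := hmax R T hne
      have h5 : IsPGroup p (((R : Subgroup G) ⊓ N).subgroupOf N) :=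
        (R.2.to_le inf_le_left).comap_subtype
      obtain ⟨S', hS'⟩ := h5.exists_le_sylow
      rw [Subsingleton.elim S' S] at hS'
      have h6 : (R : Subgroup G) ⊓ N ≤ (R : Subgroup G) ⊓ (T : Subgroup G) := by
        intro w hw
        refine ⟨hw.1, hT ?_⟩
        exact ⟨⟨w, hw.2⟩, hS' (show (⟨w, hw.2⟩ : ↥N) ∈ ((R : Subgroup G) ⊓ N).subgroupOf N from hw),
          rfl⟩
      have h7 : Nat.card D < Nat.card ((R : Subgroup G) ⊓ N : Subgroup G) :=
        Cfsg.Agent.Lib.Helper2.card_lt_of_le_of_mem (le_inf hDR hDN) z ⟨hzR, hzN⟩ hzD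
      have h8 := Subgroup.card_le_of_le h6
      omega
    have e1 := hPT P hDP x hxP hxD hxN
    have e2 := hPT Q hDQ y hyQ hyD hyN
    exact hPQ (e1.trans e2.symm)
  have h2 : ∀ S T : Sylow p ↥N, S ≠ T →
      (S : Subgroup ↥N) ⊓ (T : Subgroup ↥N) = D.subgroupOf N := by
    intro S T hST
    have hD' : IsPGroup p (D.subgroupOf N) := hDp.comap_subtype
    have hDS : D.subgroupOf N ≤ S := Cfsg.Agent.Lib.Helper2.sylow_ge_normal S _ hD'
    have hDT : D.subgroupOf N ≤ T := Cfsg.Agent.Lib.Helper2.sylow_ge_normal T _ hD'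
    obtain ⟨S', hS', _⟩ := h3 S
    obtain ⟨T', hT', _⟩ := h3 T
    have hne : S' ≠ T' := by
      intro h
      apply hST
      rw [← h] at hT'
      have hK : IsPGroup p (((S' : Subgroup G) ⊓ N).subgroupOf N) :=
        (S'.2.to_le inf_le_left).comap_subtype
      have hSK : (S : Subgroup ↥N) ≤ ((S' : Subgroup G) ⊓ N).subgroupOf N := by
        intro w hw
        exact Subgroup.mem_subgroupOf.mpr (Subgroup.mem_inf.mpr ⟨hS' ⟨w, hw, rfl⟩, w.2⟩)
      have hTK : (T : Subgroup ↥N) ≤ ((S' : Subgroup G) ⊓ N).subgroupOf N := by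
        intro w hw
        exact Subgroup.mem_subgroupOf.mpr (Subgroup.mem_inf.mpr ⟨hT' ⟨w, hw, rfl⟩, w.2⟩)
      have e1 := S.is_maximal' hK hSK
      have e2 := T.is_maximal' hK hTK
      exact Sylow.ext (e1.symm.trans e2)
    have h4 := hmax S' T' hne
    apply (Subgroup.eq_of_le_of_card_ge (le_inf hDS hDT) ?_).symm
    rw [Nat.card_congr (Subgroup.subgroupOfEquivOfLe hDN).toEquiv]
    have h5 : Nat.card (((S : Subgroup ↥N) ⊓ (T : Subgroup ↥N)).map N.subtype)
        ≤ Nat.card ((S' : Subgroup G) ⊓ (T' : Subgroup G) : Subgroup G) := by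
      apply Subgroup.card_le_of_le
      rintro _ ⟨w, hw, rfl⟩
      exact ⟨hS' ⟨w, hw.1, rfl⟩, hT' ⟨w, hw.2, rfl⟩⟩
    rw [Subgroup.card_subtype] at h5
    exact h5.trans h4
  exact ⟨h1, h2, h3⟩

end Cfsg.Agent.S0986
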