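import Mathlib
import Cfsg.Statements.S0987
import Cfsg.Agent.Lib.Helper2.SimpleOrder2

set_option autoImplicit false
open Cfsg

namespace Cfsg.Agent.S0987

/-- If a finite group has order pqr for primes p < q < r, then its Sylow r-subgroups are normal. -/
theorem result {G : Type*} [Group G] [Finite G] (p q r : ℕ) (hp : p.Prime) (hq : q.Prime) [Fact r.Prime] (hpq : p < q) (hqr : q < r) (hG : Nat.card G = p * q * r) (R : Sylow r G) : (R : Subgroup G).Normal := by
  classical
  have hr : r.Prime := Fact.out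
  haveI : Fact p.Prime := ⟨hp⟩
  haveI : Fact q.Prime := ⟨hq⟩
  have hp1 := hp.one_lt
  have hq1 := hq.one_lt
  have hr1 := hr.one_lt
  have hmin : (Nat.card G).minFac = p := by
    rw [hG]
    have h1 : (p * q * r).minFac ∣ p * q * r := Nat.minFac_dvd _
    have hne : p * q * r ≠ 1 := by
      intro h
      have h2 : p ∣ 1 := h ▸ ⟨q * r, by ring⟩
      have := Nat.le_of_dvd Nat.one_pos h2
      omega
    have h2 : (p * q * r).minFac.Prime := Nat.minFac_prime hne
    have h3 : (p * q * r).minFac ≤ p := Nat.minFac_le_of_dvd hp.two_le ⟨q * r, by ring⟩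
    rcases (Nat.Prime.dvd_mul h2).mp h1 with h4 | h4
    · rcases (Nat.Prime.dvd_mul h2).mp h4 with h5 | h5
      · exact (Nat.prime_dvd_prime_iff_eq h2 hp).mp h5
      · have := (Nat.prime_dvd_prime_iff_eq h2 hq).mp h5; omega
    · have := (Nat.prime_dvd_prime_iff_eq h2 hr).mp h4; omega
  have hpq' : ¬ p ∣ q := fun h => by
    have := (Nat.prime_dvd_prime_iff_eq hp hq).mp h; omega
  have hpr' : ¬ p ∣ r := fun h => by
    have := (Nat.prime_dvd_prime_iff_eq hp hr).mp h; omega
  have hrp' : ¬ r ∣ p := fun h => by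
    have := (Nat.prime_dvd_prime_iff_eq hr hp).mp h; omega
  have hrq' : ¬ r ∣ q := fun h => by
    have := (Nat.prime_dvd_prime_iff_eq hr hq).mp h; omega
  obtain ⟨P⟩ : Nonempty (Sylow p G) := inferInstance
  have hPc := Cfsg.Agent.Lib.Helper2.sylow_card_of_eq p P (q * r) (by rw [hG]; ring)
    (fun h => by rcases (Nat.Prime.dvd_mul hp).mp h with h | h; exacts [hpq' h, hpr' h])
  haveI hcyc : IsCyclic (P : Subgroup G) := isCyclic_of_prime_card hPc.1
  have hcompl := IsCyclic.isComplement' hmin hcyc
  have hKcard : Nat.card (MonoidHom.transferSylow P (hcyc.normalizer_le_centralizer hmin)).ker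
      = q * r := by
    have h1 := hcompl.card_mul
    rw [hPc.1, hG] at h1
    apply Nat.eq_of_mul_eq_mul_right hp.pos
    rw [h1]; ring
  have hRc : ∀ R' : Sylow r G, Nat.card (R' : Subgroup G) = r := fun R' =>
    (Cfsg.Agent.Lib.Helper2.sylow_card_of_eq r R' (p * q) (by rw [hG]; ring)
      (fun h => by rcases (Nat.Prime.dvd_mul hr).mp h with h | h; exacts [hrp' h, hrq' h])).1
  have hRK : ∀ R' : Sylow r G, (R' : Subgroup G)
      ≤ (MonoidHom.transferSylow P (hcyc.normalizer_le_centralizer hmin)).ker := by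
    intro R' x hx
    rw [MonoidHom.mem_ker]
    have h1 : orderOf (MonoidHom.transferSylow P (hcyc.normalizer_le_centralizer hmin) x) ∣ r := by
      have h2 : orderOf (MonoidHom.transferSylow P (hcyc.normalizer_le_centralizer hmin) x)
          ∣ orderOf x := orderOf_map_dvd _ x
      have h3 : orderOf (⟨x, hx⟩ : ↥(R' : Subgroup G)) ∣ Nat.card ↥(R' : Subgroup G) :=
        orderOf_dvd_natCard _
      rw [Subgroup.orderOf_mk, hRc R'] at h3
      exact h2.trans h3
    have h4 : orderOf (MonoidHom.transferSylow P (hcyc.normalizer_le_centralizer hmin) x) ∣ p := by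
      have := orderOf_dvd_natCard (MonoidHom.transferSylow P (hcyc.normalizer_le_centralizer hmin) x)
      rwa [hPc.1] at this
    have h5 := Nat.dvd_gcd h1 h4
    have h6 : Nat.gcd r p = 1 := (Nat.coprime_primes hr hp).mpr (by omega)
    rw [h6, Nat.dvd_one] at h5
    exact orderOf_eq_one_iff.mp h5
  obtain ⟨R0⟩ : Nonempty (Sylow r
    ↥(MonoidHom.transferSylow P (hcyc.normalizer_le_centralizer hmin)).ker) := inferInstance
  have hR0 := Cfsg.Agent.Lib.Helper2.sylow_card_of_eq r R0 q (by rw [hKcard]; ring) hrq'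
  haveI hsub : Subsingleton (Sylow r
      ↥(MonoidHom.transferSylow P (hcyc.normalizer_le_centralizer hmin)).ker) := by
    obtain ⟨hmod, hdvd, _⟩ := Cfsg.Agent.Lib.Helper2.sylow_count r R0
    rw [hR0.2] at hdvd
    have h1 : Nat.card (Sylow r
        ↥(MonoidHom.transferSylow P (hcyc.normalizer_le_centralizer hmin)).ker) = 1 := by
      rcases (Nat.dvd_prime hq).mp hdvd with h | h
      · exact h
      · rw [h, Nat.mod_eq_of_lt hqr] at hmod; omega
    exact (Nat.card_eq_one_iff_unique.mp h1).1
  have hall : ∀ R' : Sylow r G, (R' : Subgroup G).subgroupOf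
      (MonoidHom.transferSylow P (hcyc.normalizer_le_centralizer hmin)).ker
        = (R0 : Subgroup _) := by
    intro R'
    obtain ⟨S, hS⟩ := (R'.2.comap_subtype (K :=
      (MonoidHom.transferSylow P (hcyc.normalizer_le_centralizer hmin)).ker)).exists_le_sylow
    rw [Subsingleton.elim S R0] at hS
    have hc : Nat.card ((R' : Subgroup G).subgroupOf
        (MonoidHom.transferSylow P (hcyc.normalizer_le_centralizer hmin)).ker) = r := by
      rw [Nat.card_congr (Subgroup.subgroupOfEquivOfLe (hRK R')).toEquiv, hRc R']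
    apply Subgroup.eq_of_le_of_card_ge hS
    rw [hR0.1]; exact hc.ge
  haveI : Subsingleton (Sylow r G) := by
    refine ⟨fun R1 R2 => ?_⟩
    apply Sylow.ext
    have h3 := (hall R1).trans (hall R2).symm
    have h4 := congrArg (Subgroup.map
      (MonoidHom.transferSylow P (hcyc.normalizer_le_centralizer hmin)).ker.subtype) h3
    rwa [Subgroup.map_subgroupOf_eq_of_le (hRK R1), Subgroup.map_subgroupOf_eq_of_le (hRK R2)] at h4
  exact Sylow.normal_of_subsingleton R

end Cfsg.Agent.S0987
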