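import Mathlib
import Cfsg.Statements.S0988
import Cfsg.Agent.Lib.Helper2.P2QR

set_option autoImplicit false
open Cfsg

namespace Cfsg.Agent.S0988

/-- If a finite simple group has order p^2 * q * r with p, q and r prime, then its order is 60. -/
theorem result {G : Type*} [Group G] [Finite G] [IsSimpleGroup G] (p q r : ℕ) (hp : p.Prime) (hq : q.Prime) (hr : r.Prime) (hG : Nat.card G = p ^ 2 * q * r) : Nat.card G = 60 := by
  have hnp : ¬ (Nat.card G).Prime := by
    rw [hG]; exact Cfsg.Agent.Lib.Helper2.p2qr_not_prime p q r hp hq hr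
  by_cases hpq : p = q
  · exfalso
    apply hnp
    apply Cfsg.Agent.Lib.Helper2.simple_solvable_prime
    exact Cfsg.Agent.Lib.Lead.burnside_paqb (Nat.card G) G p r 3 1 hp hr rfl
      (by rw [hG, ← hpq]; ring)
  by_cases hpr : p = r
  · exfalso
    apply hnp
    apply Cfsg.Agent.Lib.Helper2.simple_solvable_prime
    exact Cfsg.Agent.Lib.Lead.burnside_paqb (Nat.card G) G p q 3 1 hp hq rfl
      (by rw [hG, ← hpr]; ring)
  rcases lt_trichotomy q r with h | h | h
  · exact Cfsg.Agent.Lib.Helper2.simple_p2qr_distinct p q r hp hq hr hpq hpr h hG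
  · exfalso
    apply hnp
    apply Cfsg.Agent.Lib.Helper2.simple_solvable_prime
    exact Cfsg.Agent.Lib.Lead.burnside_paqb (Nat.card G) G p q 2 2 hp hq rfl
      (by rw [hG, ← h]; ring)
  · exact Cfsg.Agent.Lib.Helper2.simple_p2qr_distinct p r q hp hr hq hpr hpq h
      (hG.trans (by ring))

end Cfsg.Agent.S0988
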