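import Mathlib
import Cfsg.Statements.S0989
import Cfsg.Agent.Lib.Helper2.SylowMisc

set_option autoImplicit false
open Cfsg

namespace Cfsg.Agent.S0989

/-- In the symmetric group on p or p + 1 letters, p a prime, the normalizer of a Sylow p-subgroup has order p * (p - 1). -/
theorem result {α : Type*} [Fintype α] [DecidableEq α] (p : ℕ) [Fact p.Prime] (hα : Fintype.card α = p ∨ Fintype.card α = p + 1) (P : Sylow p (Equiv.Perm α)) : Nat.card ↥(Subgroup.normalizer ((P : Subgroup (Equiv.Perm α)) : Set (Equiv.Perm α))) = p * (p - 1) := by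
  classical
  have hp : p.Prime := Fact.out
  have hGcard : Nat.card (Equiv.Perm α) = (Fintype.card α).factorial := by
    rw [Nat.card_perm, Nat.card_eq_fintype_card]
  have hm : ∃ m, Nat.card (Equiv.Perm α) = p * m ∧ ¬ p ∣ m := by
    have hpred : ¬ p ∣ (p - 1).factorial := by
      intro h
      have h1 := (Nat.Prime.dvd_factorial hp).mp h
      have h2 := hp.one_lt
      omega
    rcases hα with h | h
    · refine ⟨(p - 1).factorial, ?_, hpred⟩
      rw [hGcard, h, Nat.mul_factorial_pred hp.ne_zero]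
    · refine ⟨(p + 1) * (p - 1).factorial, ?_, ?_⟩
      · rw [hGcard, h, Nat.factorial_succ, ← Nat.mul_factorial_pred hp.ne_zero]; ring
      · intro hd
        rcases (Nat.Prime.dvd_mul hp).mp hd with h1 | h1
        · have h2 : p ∣ 1 := (Nat.dvd_add_right (dvd_refl p)).mp h1
          have h3 := Nat.le_of_dvd Nat.one_pos h2
          have h4 := hp.one_lt
          omega
        · exact hpred h1
  obtain ⟨m, hGm, hmp⟩ := hm
  have hPc := (Cfsg.Agent.Lib.Helper2.sylow_card_of_eq p P m hGm hmp).1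
  obtain ⟨σ', hσ'⟩ := exists_prime_orderOf_dvd_card' p
    (show p ∣ Nat.card ↥(P : Subgroup (Equiv.Perm α)) by rw [hPc])
  obtain ⟨σ, hσP, hσo⟩ : ∃ σ : Equiv.Perm α, σ ∈ (P : Subgroup (Equiv.Perm α)) ∧
      orderOf σ = p := ⟨(σ' : Equiv.Perm α), σ'.2, (Subgroup.orderOf_coe σ').trans hσ'⟩
  have hσ1 : σ ≠ 1 := by
    rintro rfl
    rw [orderOf_one] at hσo
    exact hp.one_lt.ne hσo
  have hzp := Cfsg.Agent.Lib.Helper2.zpowers_eq_of_card_prime (P : Subgroup (Equiv.Perm α)) hp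
    hPc σ hσP hσ1
  have hp2 := hp.two_le
  have hαlt : Fintype.card α < 2 * p := by
    rcases hα with h | h <;> omega
  have hct : ∀ τ : Equiv.Perm α, orderOf τ = p → τ.cycleType = {p} := by
    intro τ hτ
    obtain ⟨n, hn⟩ := Equiv.Perm.cycleType_prime_order (σ := τ) (by rw [hτ]; exact hp)
    rw [hτ] at hn
    have h1 := τ.sum_cycleType_le
    rw [hn, Multiset.sum_replicate, smul_eq_mul] at h1
    have hn0 : n = 0 := by
      by_contra h
      have h2 : 2 * p ≤ (n + 1) * p := Nat.mul_le_mul_right p (by omega)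
      omega
    rw [hn, hn0]; rfl
  have hCcard : Nat.card (Subgroup.centralizer ({σ} : Set (Equiv.Perm α))) = p := by
    rw [Equiv.Perm.nat_card_centralizer, hct σ hσo]
    have h1 : (Fintype.card α - p).factorial = 1 := by
      rcases hα with h | h
      · rw [h, Nat.sub_self]; rfl
      · rw [h, Nat.add_sub_cancel_left]; rfl
    simp [h1]
  have hPC : (P : Subgroup (Equiv.Perm α)) = Subgroup.centralizer ({σ} : Set (Equiv.Perm α)) := by
    apply Subgroup.eq_of_le_of_card_ge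
    · rw [← hzp, Subgroup.zpowers_le, Subgroup.mem_centralizer_iff]
      intro h hh
      rw [Set.mem_singleton_iff] at hh
      rw [hh]
    · rw [hCcard, hPc]
  have hPN : (P : Subgroup (Equiv.Perm α)) ≤ Subgroup.normalizer
      ((P : Subgroup (Equiv.Perm α)) : Set (Equiv.Perm α)) := Subgroup.le_normalizer
  obtain ⟨N, hN⟩ : ∃ N : Subgroup (Equiv.Perm α), N = Subgroup.normalizer
      ((P : Subgroup (Equiv.Perm α)) : Set (Equiv.Perm α)) := ⟨_, rfl⟩
  rw [← hN] at hPN ⊢
  have hconj : ∀ n ∈ N, n * σ * n⁻¹ ∈ (P : Subgroup (Equiv.Perm α)) ∧ n * σ * n⁻¹ ≠ 1 := by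
    intro n hn
    rw [hN] at hn
    refine ⟨(Subgroup.mem_normalizer_iff.mp hn σ).mp hσP, ?_⟩
    intro h
    apply hσ1
    have e : σ = n⁻¹ * (n * σ * n⁻¹) * n := by group
    rw [e, h]; group
  have hfib : ∀ b : {v : Equiv.Perm α // v ∈ (P : Subgroup (Equiv.Perm α)) ∧ v ≠ 1},
      Nat.card {n : ↥N // (⟨(n : Equiv.Perm α) * σ * (n : Equiv.Perm α)⁻¹, hconj n n.2⟩ :
        {v : Equiv.Perm α // v ∈ (P : Subgroup (Equiv.Perm α)) ∧ v ≠ 1}) = b} = p := by
    rintro ⟨v, hvP, hv1⟩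
    have hvo : orderOf v = p := by
      have h1 : orderOf (⟨v, hvP⟩ : ↥(P : Subgroup (Equiv.Perm α)))
          ∣ Nat.card ↥(P : Subgroup (Equiv.Perm α)) := orderOf_dvd_natCard _
      rw [Subgroup.orderOf_mk, hPc] at h1
      rcases (Nat.dvd_prime hp).mp h1 with h | h
      · exact absurd (orderOf_eq_one_iff.mp h) hv1
      · exact h
    have hconj' : IsConj σ v :=
      Equiv.Perm.isConj_iff_cycleType_eq.mpr (by rw [hct σ hσo, hct v hvo])
    obtain ⟨g, hg⟩ := isConj_iff.mp hconj'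
    have hgN : g ∈ N := by
      rw [hN]
      exact Cfsg.Agent.Lib.Helper2.mem_normalizer_of_conj_gen (P : Subgroup (Equiv.Perm α)) hp
        hPc g σ hσP hσ1 (by rw [hg]; exact hvP)
    have h1 := Cfsg.Agent.Lib.Helper2.card_conj_fiber N σ v g hgN hg
    have h2 : Nat.card {n : ↥N // (⟨(n : Equiv.Perm α) * σ * (n : Equiv.Perm α)⁻¹, hconj n n.2⟩ :
        {v : Equiv.Perm α // v ∈ (P : Subgroup (Equiv.Perm α)) ∧ v ≠ 1}) = ⟨v, hvP, hv1⟩}
        = Nat.card {n : ↥N // (n : Equiv.Perm α) * σ * (n : Equiv.Perm α)⁻¹ = v} :=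
      Nat.card_congr (Equiv.subtypeEquivRight
        (fun n => ⟨fun h => congrArg Subtype.val h, fun h => Subtype.ext h⟩))
    have h3 : Subgroup.centralizer ({σ} : Set (Equiv.Perm α)) ⊓ N
        = (P : Subgroup (Equiv.Perm α)) := by
      rw [← hPC]; exact inf_eq_left.mpr hPN
    rw [h2, h1, h3, hPc]
  have h4 := Cfsg.Agent.Lib.Helper2.card_eq_mul_of_fibers _ p hfib
  rw [h4, Cfsg.Agent.Lib.Helper2.card_ne_one_subgroup, hPc, mul_comm]

end Cfsg.Agent.S0989
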