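import Mathlib
import Cfsg.Statements.S0990


set_option autoImplicit false
open Cfsg

namespace Cfsg.Agent.S0990

/-- Let p be an odd prime and P a Sylow p-subgroup of the symmetric group on a finite set with at least two elements. Then P is contained in the alternating group, and twice the order of the normalizer of P inside the alternating group equals the order of the normalizer of P in the symmetric group. -/
theorem result {α : Type*} [Fintype α] [DecidableEq α] (hα : 2 ≤ Fintype.card α) (p : ℕ) [Fact p.Prime] (hp : p ≠ 2) (P : Sylow p (Equiv.Perm α)) : (P : Subgroup (Equiv.Perm α)) ≤ alternatingGroup α ∧ 2 * Nat.card ↥(Subgroup.normalizer ((((P : Subgroup (Equiv.Perm α)).subgroupOf (alternatingGroup α) : Subgroup ↥(alternatingGroup α)) : Set ↥(alternatingGroup α)))) = Nat.card ↥(Subgroup.normalizer ((P : Subgroup (Equiv.Perm α)) : Set (Equiv.Perm α))) := by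
  classical
  have hp' : p.Prime := Fact.out
  have hodd : Odd p := hp'.odd_of_ne_two hp
  have hPA : (P : Subgroup (Equiv.Perm α)) ≤ alternatingGroup α := by
    intro x hx
    rw [Equiv.Perm.mem_alternatingGroup]
    obtain ⟨k, hk⟩ := P.2 ⟨x, hx⟩
    have hk' : x ^ p ^ k = 1 := congrArg Subtype.val hk
    rcases Int.units_eq_one_or (Equiv.Perm.sign x) with h | h
    · exact h
    · exfalso
      have h1 : (Equiv.Perm.sign x) ^ p ^ k = 1 := by rw [← map_pow, hk', map_one]
      rw [h, (hodd.pow).neg_one_pow] at h1
      exact absurd h1 (by decide)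
  refine ⟨hPA, ?_⟩
  haveI : Nontrivial α := Fintype.one_lt_card_iff_nontrivial.mp (by omega)
  have hAidx : (alternatingGroup α).index = 2 := alternatingGroup.index_eq_two
  have hfrat : Subgroup.normalizer ((P : Subgroup (Equiv.Perm α)) : Set (Equiv.Perm α))
      ⊔ alternatingGroup α = ⊤ := Sylow.normalizer_sup_eq_top' P hPA
  have hrel : (alternatingGroup α).relIndex
      (Subgroup.normalizer ((P : Subgroup (Equiv.Perm α)) : Set (Equiv.Perm α))) = 2 := by
    rw [← Subgroup.relIndex_sup_right, hfrat, Subgroup.relIndex_top_right, hAidx]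
  have hcard1 : Nat.card (Subgroup.normalizer ((P : Subgroup (Equiv.Perm α)) : Set (Equiv.Perm α)))
      = 2 * Nat.card ((alternatingGroup α).subgroupOf
        (Subgroup.normalizer ((P : Subgroup (Equiv.Perm α)) : Set (Equiv.Perm α)))) := by
    have h1 := ((alternatingGroup α).subgroupOf
        (Subgroup.normalizer ((P : Subgroup (Equiv.Perm α)) : Set (Equiv.Perm α)))).card_mul_index
    have h2 : ((alternatingGroup α).subgroupOf
        (Subgroup.normalizer ((P : Subgroup (Equiv.Perm α)) : Set (Equiv.Perm α)))).index = 2 := hrel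
    rw [h2] at h1; omega
  have hNA : Subgroup.normalizer ((((P : Subgroup (Equiv.Perm α)).subgroupOf (alternatingGroup α)
      : Subgroup ↥(alternatingGroup α)) : Set ↥(alternatingGroup α)))
      = (Subgroup.normalizer ((P : Subgroup (Equiv.Perm α)) : Set (Equiv.Perm α))).subgroupOf
        (alternatingGroup α) := by
    ext a
    rw [Subgroup.mem_subgroupOf, Subgroup.mem_normalizer_iff, Subgroup.mem_normalizer_iff]
    constructor
    · intro h g
      by_cases hg : g ∈ alternatingGroup α
      · exact h ⟨g, hg⟩
      · constructor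
        · intro hgP; exact absurd (hPA hgP) hg
        · intro hgP
          exfalso; apply hg
          have h1 : (a : Equiv.Perm α) * g * (a : Equiv.Perm α)⁻¹ ∈ alternatingGroup α := hPA hgP
          have h2 : g = (a : Equiv.Perm α)⁻¹ * ((a : Equiv.Perm α) * g * (a : Equiv.Perm α)⁻¹)
              * (a : Equiv.Perm α) := by group
          rw [h2]
          exact (alternatingGroup α).mul_mem
            ((alternatingGroup α).mul_mem ((alternatingGroup α).inv_mem a.2) h1) a.2
    · intro h g
      exact h (g : Equiv.Perm α)
  rw [hNA, hcard1]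
  congr 1
  exact Nat.card_congr ⟨fun x => ⟨⟨x.1.1, x.2⟩, x.1.2⟩, fun y => ⟨⟨y.1.1, y.2⟩, y.1.2⟩,
    fun _ => rfl, fun _ => rfl⟩

end Cfsg.Agent.S0990
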