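import Mathlib
import Cfsg.Statements.S0991

set_option autoImplicit false
open Cfsg

namespace Cfsg.Agent.S0991

/-- A non-abelian finite simple group with a proper subgroup of index n embeds in the alternating group of degree n. -/
theorem result {G : Type*} [Group G] [Finite G] [IsSimpleGroup G] (hG : ¬ IsMulCommutative G) (H : Subgroup G) (hH : H ≠ ⊤) : ∃ f : G →* ↥(alternatingGroup (Fin H.index)), Function.Injective f := by
  classical
  -- the coset action
  let e : (G ⧸ H) ≃ Fin H.index := Finite.equivFinOfCardEq (Subgroup.index_eq_card H).symm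
  let φ : G →* Equiv.Perm (Fin H.index) :=
    (Equiv.permCongrHom e).toMonoidHom.comp (MulAction.toPermHom G (G ⧸ H))
  have hker : (MulAction.toPermHom G (G ⧸ H)).ker = ⊥ := by
    have hn : (MulAction.toPermHom G (G ⧸ H)).ker.Normal := inferInstance
    rcases hn.eq_bot_or_eq_top with h | h
    · exact h
    · exfalso
      apply hH
      rw [← Subgroup.normalCore_eq_ker] at h
      exact eq_top_iff.mpr (h ▸ Subgroup.normalCore_le H)
  have hφinj : Function.Injective φ := by
    have h1 : Function.Injective (MulAction.toPermHom G (G ⧸ H)) :=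
      (MonoidHom.ker_eq_bot_iff _).mp hker
    exact (Equiv.permCongrHom e).injective.comp h1
  -- the sign of the action is trivial
  have hsign : ∀ g : G, Equiv.Perm.sign (φ g) = 1 := by
    have hn : ((Equiv.Perm.sign).comp φ).ker.Normal := inferInstance
    rcases hn.eq_bot_or_eq_top with h | h
    · exfalso
      apply hG
      have hinj : Function.Injective ((Equiv.Perm.sign).comp φ) :=
        (MonoidHom.ker_eq_bot_iff _).mp h
      refine ⟨⟨fun a b => hinj ?_⟩⟩
      rw [map_mul, map_mul, mul_comm]
    · intro g
      have : g ∈ ((Equiv.Perm.sign).comp φ).ker := by rw [h]; trivial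
      exact MonoidHom.mem_ker.mp this
  refine ⟨φ.codRestrict (alternatingGroup (Fin H.index))
    (fun g => Equiv.Perm.mem_alternatingGroup.mpr (hsign g)), ?_⟩
  intro a b hab
  apply hφinj
  have := congrArg Subtype.val hab
  exact this

end Cfsg.Agent.S0991
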