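import Mathlib
import Cfsg.Statements.S0992
import Cfsg.Agent.Lib.Helper2.SylowMisc

set_option autoImplicit false
open Cfsg

namespace Cfsg.Agent.S0992

/-- Let G be a non-abelian finite simple group of even order not divisible by 8, and T a Sylow 2-subgroup. Then T is a Klein four-group and the centralizer of T has index 3 in the normalizer of T. -/
theorem result {G : Type*} [Group G] [Finite G] [IsSimpleGroup G] (hG : ¬ IsMulCommutative G) (h2 : Even (Nat.card G)) (h8 : ¬ 8 ∣ Nat.card G) (T : Sylow 2 G) : IsKleinFour ↥(T : Subgroup G) ∧ (Subgroup.centralizer ((T : Subgroup G) : Set G)).relIndex (Subgroup.normalizer ((T : Subgroup G) : Set G)) = 3 := by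
  classical
  haveI : Fact (Nat.Prime 2) := ⟨Nat.prime_two⟩
  have h2' : 2 ∣ Nat.card G := even_iff_two_dvd.mp h2
  have hmin : (Nat.card G).minFac = 2 := (Nat.minFac_eq_two_iff _).mpr h2'
  obtain ⟨k, hk⟩ := T.2.exists_card_eq
  have hTidx := (T : Subgroup G).card_mul_index
  have hodd : ¬ 2 ∣ (T : Subgroup G).index := T.not_dvd_index
  have hk2 : k ≤ 2 := by
    by_contra h
    apply h8
    have h1 : 2 ^ 3 ∣ 2 ^ k := pow_dvd_pow 2 (by omega)
    have h3 : 2 ^ k ∣ Nat.card G := by
      rw [← hk]; exact Subgroup.card_subgroup_dvd_card _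
    exact h1.trans h3
  have hk1 : 1 ≤ k := by
    by_contra h
    have hk0 : k = 0 := by omega
    rw [hk0, pow_zero] at hk
    rw [hk, one_mul] at hTidx
    apply hodd
    rw [hTidx]; exact h2'
  have hTne : (T : Subgroup G) ≠ ⊥ := by
    intro h
    rw [h, Subgroup.card_bot] at hk
    have h1 : 2 ^ 1 ≤ 2 ^ k := Nat.pow_le_pow_right (by norm_num) hk1
    omega
  have hTab : ∀ a ∈ (T : Subgroup G), ∀ b ∈ (T : Subgroup G), a * b = b * a := by
    interval_cases k
    · exact Cfsg.Agent.Lib.Helper2.comm_of_card_prime (T : Subgroup G) Nat.prime_two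
        (hk.trans (by norm_num))
    · intro a ha b hb
      exact congrArg Subtype.val
        ((IsPGroup.isMulCommutative_of_card_eq_prime_sq (p := 2) hk).is_comm.comm
          (⟨a, ha⟩ : ↥(T : Subgroup G)) ⟨b, hb⟩)
  have hncyc : ¬ IsCyclic ↥(T : Subgroup G) := by
    intro hcyc
    have hcompl := IsCyclic.isComplement' hmin hcyc
    exact Cfsg.Agent.Lib.Helper2.no_normal_complement hG _ _ hcompl hTne hTab
  have hk_eq : k = 2 := by
    by_contra h
    have hk1' : k = 1 := by omega
    apply hncyc
    rw [hk1', pow_one] at hk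
    exact isCyclic_of_prime_card hk
  rw [hk_eq] at hk
  have hexp : Monoid.exponent ↥(T : Subgroup G) = 2 :=
    (not_isCyclic_iff_exponent_eq_prime Nat.prime_two hk).mp hncyc
  have hK4 : IsKleinFour ↥(T : Subgroup G) := ⟨hk.trans (by norm_num), hexp⟩
  refine ⟨hK4, ?_⟩
  have key := Subgroup.card_dvd_of_injective _
    (QuotientGroup.kerLift_injective (T : Subgroup G).normalizerMonoidHom)
  rw [Subgroup.normalizerMonoidHom_ker, ← Subgroup.index, ← Subgroup.relIndex] at key
  have h6 : (Subgroup.centralizer ((T : Subgroup G) : Set G)).relIndex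
      (Subgroup.normalizer ((T : Subgroup G) : Set G)) ∣ 6 :=
    key.trans (Cfsg.Agent.Lib.Helper2.card_mulAut_dvd_six (hk.trans (by norm_num)))
  have hTC : (T : Subgroup G) ≤ Subgroup.centralizer ((T : Subgroup G) : Set G) := by
    intro a ha
    rw [Subgroup.mem_centralizer_iff]
    intro b hb
    exact hTab b hb a ha
  have hoddrel : ¬ 2 ∣ (Subgroup.centralizer ((T : Subgroup G) : Set G)).relIndex
      (Subgroup.normalizer ((T : Subgroup G) : Set G)) := by
    intro h
    have h1 := Subgroup.relIndex_dvd_of_le_left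
      (Subgroup.normalizer ((T : Subgroup G) : Set G)) hTC
    have h3 := Subgroup.relIndex_dvd_index_of_le (Subgroup.le_normalizer (H := (T : Subgroup G)))
    exact hodd (h.trans (h1.trans h3))
  have hne1 : (Subgroup.centralizer ((T : Subgroup G) : Set G)).relIndex
      (Subgroup.normalizer ((T : Subgroup G) : Set G)) ≠ 1 := by
    intro h
    have hNC : Subgroup.normalizer ((T : Subgroup G) : Set G)
        ≤ Subgroup.centralizer ((T : Subgroup G) : Set G) := Subgroup.relIndex_eq_one.mp h
    have hcompl := MonoidHom.ker_transferSylow_isComplement' T hNC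
    exact Cfsg.Agent.Lib.Helper2.no_normal_complement hG _ _ hcompl hTne hTab
  generalize (Subgroup.centralizer ((T : Subgroup G) : Set G)).relIndex
      (Subgroup.normalizer ((T : Subgroup G) : Set G)) = r at h6 hoddrel hne1 ⊢
  have hmem : r ∈ Nat.divisors 6 := Nat.mem_divisors.mpr ⟨h6, by norm_num⟩
  have hdiv : Nat.divisors 6 = {1, 2, 3, 6} := by decide
  rw [hdiv] at hmem
  simp only [Finset.mem_insert, Finset.mem_singleton] at hmem
  omega

end Cfsg.Agent.S0992
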