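import Mathlib
import Cfsg.Statements.S0995
import Cfsg.Agent.Lib.Lead.SylowAux
import Cfsg.Agent.Lib.Helper2.SylowMisc

set_option autoImplicit false
open Cfsg

namespace Cfsg.Agent.S0995

/-- Let G be a finite perfect group containing an element z of prime order p whose centralizer is the cyclic group it generates. Let t be the number of conjugacy classes of elements of order p. Then t divides p - 1, the number of Sylow p-subgroups has the form 1 + n * p, and |G| * t = (p - 1) * p * (1 + n * p). -/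
theorem result {G : Type*} [Group G] [Finite G] (hperf : commutator G = ⊤) (p : ℕ) [Fact p.Prime] (z : G) (hz : orderOf z = p) (hC : Subgroup.centralizer ({z} : Set G) = Subgroup.zpowers z) : ∃ n t : ℕ, t = Nat.card {c : ConjClasses G // ∃ g : G, ConjClasses.mk g = c ∧ orderOf g = p} ∧ t ∣ p - 1 ∧ Nat.card (Sylow p G) = 1 + n * p ∧ Nat.card G * t = (p - 1) * p * (1 + n * p) := by
  classical
  have hp : p.Prime := Fact.out
  have hz1 : z ≠ 1 := by
    rintro rfl
    rw [orderOf_one] at hz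
    exact hp.one_lt.ne hz
  have hzp : z ^ p = 1 := by
    have h := pow_orderOf_eq_one z
    rwa [hz] at h
  have hZcard : Nat.card (Subgroup.zpowers z) = p := by rw [Nat.card_zpowers, hz]
  obtain ⟨P, hZP⟩ := (Cfsg.Agent.Lib.Helper2.isPGroup_zpowers_of_pow hzp).exists_le_sylow
  have hzP : z ∈ (P : Subgroup G) := hZP (Subgroup.mem_zpowers z)
  have hPZ : (P : Subgroup G) = Subgroup.zpowers z := by
    apply le_antisymm _ hZP
    haveI : Nontrivial ↥(P : Subgroup G) :=
      ⟨⟨⟨z, hzP⟩, 1, fun h => hz1 (congrArg Subtype.val h)⟩⟩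
    haveI := P.2.center_nontrivial
    obtain ⟨⟨c, hc⟩, hcne⟩ := exists_ne (1 : Subgroup.center ↥(P : Subgroup G))
    have hc1 : (c : G) ≠ 1 := by
      intro h
      apply hcne
      apply Subtype.ext
      apply Subtype.ext
      exact h
    have hcz : z * (c : G) = (c : G) * z := by
      have h1 := (Subgroup.mem_center_iff.mp hc) ⟨z, hzP⟩
      exact congrArg Subtype.val h1
    have hcZ : (c : G) ∈ Subgroup.zpowers z := by
      rw [← hC, Subgroup.mem_centralizer_iff]
      intro h hh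
      rw [Set.mem_singleton_iff] at hh
      rw [hh]; exact hcz
    have hzc := Cfsg.Agent.Lib.Helper2.zpowers_eq_of_card_prime (Subgroup.zpowers z) hp hZcard
      (c : G) hcZ hc1
    have hzc' : z ∈ Subgroup.zpowers (c : G) := by rw [hzc]; exact Subgroup.mem_zpowers z
    obtain ⟨i, hi⟩ := Subgroup.mem_zpowers_iff.mp hzc'
    intro y hy
    rw [← hC, Subgroup.mem_centralizer_iff]
    intro h hh
    rw [Set.mem_singleton_iff] at hh
    rw [hh, ← hi]
    have hyc : (c : G) * y = y * (c : G) := by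
      have h1 := (Subgroup.mem_center_iff.mp hc) ⟨y, hy⟩
      exact (congrArg Subtype.val h1).symm
    exact (Commute.zpow_left (show Commute (c : G) y from hyc) i).eq
  have hPc : Nat.card (P : Subgroup G) = p := by rw [hPZ]; exact hZcard
  have hPab := Cfsg.Agent.Lib.Helper2.comm_of_card_prime (P : Subgroup G) hp hPc
  obtain ⟨hmod, _, hNmul⟩ := Cfsg.Agent.Lib.Helper2.sylow_count p P
  obtain ⟨N, hN⟩ : ∃ N : Subgroup G, N = Subgroup.normalizer ((P : Subgroup G) : Set G) :=
    ⟨_, rfl⟩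
  rw [← hN] at hNmul
  have hPN : (P : Subgroup G) ≤ N := by rw [hN]; exact Subgroup.le_normalizer
  have hCu : ∀ u ∈ (P : Subgroup G), u ≠ 1 →
      Subgroup.centralizer ({u} : Set G) ⊓ N = (P : Subgroup G) := by
    intro u hu hu1
    apply le_antisymm
    · intro x hx'
      have hx := (Subgroup.mem_inf.mp hx').1
      have hxu : u * x = x * u := Subgroup.mem_centralizer_iff.mp hx u (Set.mem_singleton u)
      have hzu : z ∈ Subgroup.zpowers u := by
        rw [Cfsg.Agent.Lib.Helper2.zpowers_eq_of_card_prime (P : Subgroup G) hp hPc u hu hu1]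
        exact hzP
      obtain ⟨i, hi⟩ := Subgroup.mem_zpowers_iff.mp hzu
      rw [hPZ, ← hC, Subgroup.mem_centralizer_iff]
      intro h hh
      rw [Set.mem_singleton_iff] at hh
      rw [hh, ← hi]
      exact (Commute.zpow_left (show Commute u x from hxu) i).eq
    · intro x hx
      have m1 : x ∈ Subgroup.centralizer ({u} : Set G) := by
        rw [Subgroup.mem_centralizer_iff]
        intro h hh
        rw [Set.mem_singleton_iff] at hh
        rw [hh]; exact hPab u hu x hx
      exact Subgroup.mem_inf.mpr ⟨m1, hPN hx⟩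
  have horb : ∀ u ∈ (P : Subgroup G), u ≠ 1 →
      Nat.card ↥N = Nat.card {v : G // ∃ n : ↥N, (n : G) * u * (n : G)⁻¹ = v} * p := by
    intro u hu hu1
    apply Cfsg.Agent.Lib.Helper2.card_eq_mul_of_fibers (fun n : ↥N =>
      (⟨(n : G) * u * (n : G)⁻¹, n, rfl⟩ : {v : G // ∃ n : ↥N, (n : G) * u * (n : G)⁻¹ = v}))
    rintro ⟨v, n₀, h0⟩
    have h1 := Cfsg.Agent.Lib.Helper2.card_conj_fiber N u v (n₀ : G) n₀.2 h0
    have h2 : Nat.card {n : ↥N // (⟨(n : G) * u * (n : G)⁻¹, n, rfl⟩ :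
        {v : G // ∃ n : ↥N, (n : G) * u * (n : G)⁻¹ = v}) = ⟨v, n₀, h0⟩}
        = Nat.card {n : ↥N // (n : G) * u * (n : G)⁻¹ = v} :=
      Nat.card_congr (Equiv.subtypeEquivRight
        (fun n => ⟨fun h => congrArg Subtype.val h, fun h => Subtype.ext h⟩))
    rw [h2, h1, hCu u hu hu1, hPc]
  obtain ⟨m, hm⟩ : ∃ m, Nat.card ↥N = m * p := ⟨_, horb z hzP hz1⟩
  have horb' : ∀ u ∈ (P : Subgroup G), u ≠ 1 →
      Nat.card {v : G // ∃ n : ↥N, (n : G) * u * (n : G)⁻¹ = v} = m := by
    intro u hu hu1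
    have h1 := horb u hu hu1
    rw [hm] at h1
    exact (Nat.eq_of_mul_eq_mul_right hp.pos h1).symm
  have hPord : ∀ u ∈ (P : Subgroup G), u ≠ 1 → orderOf u = p := by
    intro u hu hu1
    have h1 : orderOf (⟨u, hu⟩ : ↥(P : Subgroup G)) ∣ Nat.card ↥(P : Subgroup G) :=
      orderOf_dvd_natCard _
    rw [Subgroup.orderOf_mk, hPc] at h1
    rcases (Nat.dvd_prime hp).mp h1 with h | h
    · exact absurd (orderOf_eq_one_iff.mp h) hu1
    · exact h
  have hfib : ∀ b : {c : ConjClasses G // ∃ g : G, ConjClasses.mk g = c ∧ orderOf g = p},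
      Nat.card {a : {v : G // v ∈ (P : Subgroup G) ∧ v ≠ 1} //
        (⟨ConjClasses.mk (a : G), (a : G), rfl, hPord a.1 a.2.1 a.2.2⟩ :
          {c : ConjClasses G // ∃ g : G, ConjClasses.mk g = c ∧ orderOf g = p}) = b} = m := by
    rintro ⟨c, g, rfl, hgo⟩
    have hgp : g ^ p = 1 := by
      have h := pow_orderOf_eq_one g
      rwa [hgo] at h
    obtain ⟨x, hx⟩ := Cfsg.Agent.Lib.Lead.sylow_conj_mem P (Subgroup.zpowers g)
      (Cfsg.Agent.Lib.Helper2.isPGroup_zpowers_of_pow hgp)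
    obtain ⟨u, hu⟩ : ∃ u, u = x * g * x⁻¹ := ⟨_, rfl⟩
    have huP : u ∈ (P : Subgroup G) := by rw [hu]; exact hx g (Subgroup.mem_zpowers g)
    have hgu : IsConj g u := isConj_iff.mpr ⟨x, hu.symm⟩
    have hu1 : u ≠ 1 := by
      intro h
      have hg1 : g = 1 := by
        have e : g = x⁻¹ * (x * g * x⁻¹) * x := by group
        rw [e, ← hu, h]; group
      rw [hg1, orderOf_one] at hgo
      exact hp.one_lt.ne hgo
    rw [← horb' u huP hu1]
    have hmemP : ∀ v : {v : G // ∃ n : ↥N, (n : G) * u * (n : G)⁻¹ = v},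
        (v : G) ∈ (P : Subgroup G) ∧ (v : G) ≠ 1 := by
      rintro ⟨v, n, hn⟩
      have hnN : (n : G) ∈ Subgroup.normalizer ((P : Subgroup G) : Set G) := hN ▸ n.2
      show v ∈ (P : Subgroup G) ∧ v ≠ 1
      rw [← hn]
      refine ⟨(Subgroup.mem_normalizer_iff.mp hnN _).mp huP, ?_⟩
      intro h
      apply hu1
      have e : u = (n : G)⁻¹ * ((n : G) * u * (n : G)⁻¹) * (n : G) := by group
      rw [e, h]; group
    have hcls : ∀ v : {v : G // ∃ n : ↥N, (n : G) * u * (n : G)⁻¹ = v},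
        ConjClasses.mk (v : G) = ConjClasses.mk g := by
      rintro ⟨v, n, hn⟩
      show ConjClasses.mk v = ConjClasses.mk g
      rw [ConjClasses.mk_eq_mk_iff_isConj, ← hn]
      have h5 : IsConj u ((n : G) * u * (n : G)⁻¹) := isConj_iff.mpr ⟨(n : G), rfl⟩
      exact (hgu.trans h5).symm
    have hfwd : ∀ a : {a : {v : G // v ∈ (P : Subgroup G) ∧ v ≠ 1} //
        (⟨ConjClasses.mk (a : G), (a : G), rfl, hPord a.1 a.2.1 a.2.2⟩ :
          {c : ConjClasses G // ∃ g : G, ConjClasses.mk g = c ∧ orderOf g = p})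
          = ⟨ConjClasses.mk g, g, rfl, hgo⟩},
        ∃ n : ↥N, (n : G) * u * (n : G)⁻¹ = (a.1 : G) := by
      intro a
      have h1 : ConjClasses.mk (a.1 : G) = ConjClasses.mk g := congrArg Subtype.val a.2
      have h3 : IsConj g (a.1 : G) := (ConjClasses.mk_eq_mk_iff_isConj.mp h1).symm
      obtain ⟨y, hy⟩ := isConj_iff.mp (hgu.symm.trans h3)
      have hyN : y ∈ N := by
        rw [hN]
        exact Cfsg.Agent.Lib.Helper2.mem_normalizer_of_conj_gen (P : Subgroup G) hp hPc y u huP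
          hu1 (by rw [hy]; exact a.1.2.1)
      exact ⟨⟨y, hyN⟩, hy⟩
    exact Nat.card_congr ⟨fun a => ⟨(a.1 : G), hfwd a⟩,
      fun v => ⟨⟨(v : G), hmemP v⟩, Subtype.ext (hcls v)⟩,
      fun a => Subtype.ext (Subtype.ext rfl), fun v => Subtype.ext rfl⟩
  have hcount := Cfsg.Agent.Lib.Helper2.card_eq_mul_of_fibers _ m hfib
  rw [Cfsg.Agent.Lib.Helper2.card_ne_one_subgroup, hPc] at hcount
  have hdm : p * (Nat.card (Sylow p G) / p) + 1 = Nat.card (Sylow p G) := by
    have h := Nat.div_add_mod (Nat.card (Sylow p G)) p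
    rwa [hmod] at h
  have h1 : 1 + Nat.card (Sylow p G) / p * p = Nat.card (Sylow p G) := by
    rw [add_comm, mul_comm]; exact hdm
  refine ⟨Nat.card (Sylow p G) / p,
    Nat.card {c : ConjClasses G // ∃ g : G, ConjClasses.mk g = c ∧ orderOf g = p}, rfl,
    Dvd.intro _ hcount.symm, h1.symm, ?_⟩
  rw [h1, ← hNmul, hm, hcount]
  ring

end Cfsg.Agent.S0995
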