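import Mathlib
import Cfsg.Statements.S1005
import Cfsg.Agent.Lib.Helper2.Order168b

set_option autoImplicit false
open Cfsg

namespace Cfsg.Agent.S1005

/-- In a simple group of order 168 every element has order 1, 2, 3, 4 or 7; there are exactly 21 elements of order 2, and any two of them are conjugate. -/
theorem result {G : Type*} [Group G] [Finite G] [IsSimpleGroup G] (h : Nat.card G = 168) : (∀ g : G, orderOf g = 1 ∨ orderOf g = 2 ∨ orderOf g = 3 ∨ orderOf g = 4 ∨ orderOf g = 7) ∧ Nat.card {g : G // orderOf g = 2} = 21 ∧ ∀ s t : G, orderOf s = 2 → orderOf t = 2 → IsConj s t := by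
  haveI : Fact (Nat.Prime 2) := ⟨Nat.prime_two⟩
  obtain ⟨T⟩ : Nonempty (Sylow 2 G) := inferInstance
  obtain ⟨a, haT, hao, hconj, hC⟩ := Cfsg.Agent.Lib.Helper2.o168_exists_central_invol h T
  have hT8 := Cfsg.Agent.Lib.Helper2.o168_sylow_two_card h T
  have hz2 : orderOf (a ^ 2) = 2 := by
    rw [orderOf_pow' a (by norm_num : (2 : ℕ) ≠ 0), hao]
    decide
  refine ⟨Cfsg.Agent.Lib.Helper2.o168_orders h, ?_, ?_⟩
  · have hCc : Nat.card (Subgroup.centralizer ({a ^ 2} : Set G)) = 8 := by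
      rw [hC]; exact hT8
    have hmem : ∀ g : G, orderOf (g * a ^ 2 * g⁻¹) = 2 := fun g => by
      rw [Cfsg.Agent.Lib.Lead.orderOf_conj_eq, hz2]
    have hfib : ∀ v : {v : G // orderOf v = 2},
        Nat.card {g : G // (⟨g * a ^ 2 * g⁻¹, hmem g⟩ : {v : G // orderOf v = 2}) = v} = 8 := by
      intro v
      obtain ⟨g₀, hg₀⟩ := hconj v.1 v.2
      have h0 : g₀⁻¹ * a ^ 2 * g₀⁻¹⁻¹ = v.1 := by rw [← hg₀]; group
      have e1 : Nat.card {g : G // (⟨g * a ^ 2 * g⁻¹, hmem g⟩ : {v : G // orderOf v = 2}) = v}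
          = Nat.card {g : G // g * a ^ 2 * g⁻¹ = v.1} :=
        Nat.card_congr (Equiv.subtypeEquivRight (fun g => Subtype.ext_iff))
      rw [e1, Cfsg.Agent.Lib.Helper2.card_conj_fiber_top (a ^ 2) v.1 g₀⁻¹ h0, hCc]
    have hcount := Cfsg.Agent.Lib.Helper2.card_eq_mul_of_fibers
      (fun g : G => (⟨g * a ^ 2 * g⁻¹, hmem g⟩ : {v : G // orderOf v = 2})) 8 hfib
    rw [h] at hcount
    omega
  · intro s t hs ht
    obtain ⟨g1, hg1⟩ := hconj s hs
    obtain ⟨g2, hg2⟩ := hconj t ht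
    have h1 : IsConj s (a ^ 2) := isConj_iff.mpr ⟨g1, hg1⟩
    have h2 : IsConj t (a ^ 2) := isConj_iff.mpr ⟨g2, hg2⟩
    exact h1.trans h2.symm

end Cfsg.Agent.S1005
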