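import Mathlib
import Cfsg.Statements.S1006
import Cfsg.Agent.S1005
import Cfsg.Agent.Lib.Helper2.Order168c

set_option autoImplicit false
open Cfsg

namespace Cfsg.Agent.S1006

/-- In a simple group of order 168 there are 56 elements of order 3, all conjugate; 42 elements of order 4, all conjugate; and 48 elements of order 7 falling into two conjugacy classes of size 24, an element of order 7 not being conjugate to its inverse. -/
theorem result {G : Type*} [Group G] [Finite G] [IsSimpleGroup G] (h : Nat.card G = 168) : Nat.card {g : G // orderOf g = 3} = 56 ∧ (∀ s t : G, orderOf s = 3 → orderOf t = 3 → IsConj s t) ∧ Nat.card {g : G // orderOf g = 4} = 42 ∧ (∀ s t : G, orderOf s = 4 → orderOf t = 4 → IsConj s t) ∧ Nat.card {g : G // orderOf g = 7} = 48 ∧ ∀ x : G, orderOf x = 7 → Nat.card {g : G // IsConj x g} = 24 ∧ ¬ IsConj x x⁻¹ := by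
  haveI : Fact (Nat.Prime 2) := ⟨Nat.prime_two⟩
  haveI : Fact (Nat.Prime 3) := ⟨Nat.prime_three⟩
  obtain ⟨y, hy⟩ := exists_prime_orderOf_dvd_card' (G := G) 3 (by rw [h]; norm_num)
  obtain ⟨T⟩ : Nonempty (Sylow 2 G) := inferInstance
  obtain ⟨a, haT, hao, _, _⟩ := Cfsg.Agent.Lib.Helper2.o168_exists_central_invol h T
  have h3count : Nat.card {g : G // orderOf g = 3} = 56 := by
    have h0 := Cfsg.Agent.Lib.Helper2.card_order_class y 3 hy
      (fun v hv => Cfsg.Agent.Lib.Helper2.o168_three_conj h y v hy hv)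
    rw [h, Cfsg.Agent.Lib.Helper2.o168_card_centralizer_three h y hy] at h0
    omega
  have h4count : Nat.card {g : G // orderOf g = 4} = 42 := by
    have h0 := Cfsg.Agent.Lib.Helper2.card_order_class a 4 hao
      (fun v hv => Cfsg.Agent.Lib.Helper2.o168_four_conj h a v hao hv)
    rw [h, Cfsg.Agent.Lib.Helper2.o168_card_centralizer_four h a hao] at h0
    omega
  have h2count := (Cfsg.Agent.S1005.result h).2.1
  refine ⟨h3count, ?_, h4count, ?_,
    Cfsg.Agent.Lib.Helper2.o168_count_seven h h2count h3count h4count, ?_⟩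
  · intro s t hs ht
    obtain ⟨g, hg⟩ := Cfsg.Agent.Lib.Helper2.o168_three_conj h t s ht hs
    exact isConj_iff.mpr ⟨g, hg⟩
  · intro s t hs ht
    obtain ⟨g, hg⟩ := Cfsg.Agent.Lib.Helper2.o168_four_conj h t s ht hs
    exact isConj_iff.mpr ⟨g, hg⟩
  · intro x hx
    refine ⟨?_, Cfsg.Agent.Lib.Helper2.o168_seven_not_conj_inv h x hx⟩
    have h0 := Cfsg.Agent.Lib.Helper2.card_conj_class x
    rw [h, Cfsg.Agent.Lib.Helper2.o168_card_centralizer_seven h x hx] at h0
    omega

end Cfsg.Agent.S1006
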