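import Mathlib
import Cfsg.Statements.S1009
import Cfsg.Agent.Lib.Lead.SylowAux

set_option autoImplicit false
open Cfsg

namespace Cfsg.Agent.S1009

/-- Brodkey's Theorem: if a finite group has abelian Sylow p-subgroups, then there are two Sylow p-subgroups whose intersection equals the intersection of all Sylow p-subgroups. -/
theorem result {G : Type*} [Group G] [Finite G] (p : ℕ) [Fact p.Prime] (hab : ∀ P : Sylow p G, IsMulCommutative ↥(P : Subgroup G)) : ∃ P Q : Sylow p G, (P : Subgroup G) ⊓ (Q : Subgroup G) = ⨅ R : Sylow p G, (R : Subgroup G) := by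
  classical
  obtain ⟨⟨P, Q⟩, hmin⟩ : ∃ PQ : Sylow p G × Sylow p G, ∀ PQ' : Sylow p G × Sylow p G,
      Nat.card ↥((PQ.1 : Subgroup G) ⊓ PQ.2) ≤ Nat.card ↥((PQ'.1 : Subgroup G) ⊓ PQ'.2) :=
    Finite.exists_min (fun PQ : Sylow p G × Sylow p G => Nat.card ↥((PQ.1 : Subgroup G) ⊓ PQ.2))
  refine ⟨P, Q, le_antisymm (le_iInf fun R => ?_) (le_inf (iInf_le _ P) (iInf_le _ Q))⟩
  have hnorm : ∀ S : Sylow p G, ((P : Subgroup G) ⊓ (Q : Subgroup G)) ≤ S →
      (S : Subgroup G) ≤ Subgroup.normalizer (((P : Subgroup G) ⊓ (Q : Subgroup G) : Subgroup G) : Set G) := by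
    intro S hS x hx
    have hc : ∀ d ∈ ((P : Subgroup G) ⊓ (Q : Subgroup G)), x * d * x⁻¹ = d := by
      intro d hd
      haveI := hab S
      have h1 : (⟨x, hx⟩ : ↥(S : Subgroup G)) * ⟨d, hS hd⟩ = ⟨d, hS hd⟩ * ⟨x, hx⟩ := (hab S).is_comm.comm _ _
      have h2 : x * d = d * x := congrArg Subtype.val h1
      rw [h2]; group
    rw [Subgroup.mem_normalizer_iff]
    intro d
    constructor
    · intro hd
      rw [hc d hd]; exact hd
    · intro hd
      have h3 := hc _ hd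
      have h4 : d = x⁻¹ * (x * d * x⁻¹) * x := by group
      rw [h4, ← h3]
      have h5 : x⁻¹ * (x * (x * d * x⁻¹) * x⁻¹) * x = x * d * x⁻¹ := by group
      rw [h5]; exact hd
  have hPN := hnorm P inf_le_left
  have hQN := hnorm Q inf_le_right
  set N := Subgroup.normalizer (((P : Subgroup G) ⊓ (Q : Subgroup G) : Subgroup G) : Set G) with hN
  have hRN : IsPGroup p ↥(((R : Subgroup G) ⊓ N).subgroupOf N) := by
    have h1 : IsPGroup p ↥((R : Subgroup G) ⊓ N) := R.2.to_le inf_le_left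
    exact h1.comap_subtype
  obtain ⟨n, hn⟩ := Cfsg.Agent.Lib.Lead.sylow_conj_mem (P.subtype hPN) _ hRN
  have hsub : ((MulAut.conj (n : G) • R : Sylow p G) : Subgroup G) ⊓ (Q : Subgroup G) ≤ (P : Subgroup G) ⊓ (Q : Subgroup G) := by
    intro x hx
    open scoped Pointwise in
    have hx1 : x ∈ MulAut.conj (n : G) • (R : Subgroup G) := hx.1
    have hx2 : x ∈ (Q : Subgroup G) := hx.2
    rw [Cfsg.Agent.Lib.Lead.mem_conj_smul] at hx1
    have hxN : x ∈ N := hQN hx2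
    have h1 : (n : G)⁻¹ * x * n ∈ N := N.mul_mem (N.mul_mem (N.inv_mem n.2) hxN) n.2
    have h2 := hn ⟨(n : G)⁻¹ * x * n, h1⟩ (by
      rw [Subgroup.mem_subgroupOf]; exact ⟨hx1, h1⟩)
    have h3 : ((n * ⟨(n : G)⁻¹ * x * n, h1⟩ * n⁻¹ : ↥N) : G) ∈ (P : Subgroup G) := by
      have h2' : (n * ⟨(n : G)⁻¹ * x * n, h1⟩ * n⁻¹ : ↥N) ∈ ((P.subtype hPN : Sylow p ↥N) : Subgroup ↥N) := h2
      rw [Sylow.coe_subtype, Subgroup.mem_subgroupOf] at h2'
      exact h2'
    have h4 : ((n * ⟨(n : G)⁻¹ * x * n, h1⟩ * n⁻¹ : ↥N) : G) = x := by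
      simp only [Subgroup.coe_mul, Subgroup.coe_inv]; group
    rw [h4] at h3
    exact ⟨h3, hx2⟩
  have hcard := hmin (MulAut.conj (n : G) • R, Q)
  have heq : ((MulAut.conj (n : G) • R : Sylow p G) : Subgroup G) ⊓ (Q : Subgroup G) = (P : Subgroup G) ⊓ (Q : Subgroup G) :=
    Subgroup.eq_of_le_of_card_ge hsub hcard
  intro d hd
  have hd' : (n : G) * d * (n : G)⁻¹ ∈ (P : Subgroup G) ⊓ (Q : Subgroup G) := by
    have := (Subgroup.mem_normalizer_iff.mp n.2 d).mp hd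
    exact this
  rw [← heq] at hd'
  open scoped Pointwise in
  have h5 : (n : G) * d * (n : G)⁻¹ ∈ MulAut.conj (n : G) • (R : Subgroup G) := hd'.1
  rw [Cfsg.Agent.Lib.Lead.mem_conj_smul] at h5
  have h6 : (n : G)⁻¹ * ((n : G) * d * (n : G)⁻¹) * n = d := by group
  rw [h6] at h5
  exact h5

end Cfsg.Agent.S1009
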