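import Mathlib
import Cfsg.Statements.S1012
import Cfsg.Agent.Lib.Helper2.PrimeDegree

set_option autoImplicit false
open Cfsg

namespace Cfsg.Agent.S1012

/-- A group of order 24 containing no element of order 6 is isomorphic to the symmetric group of degree 4. -/
theorem result {G : Type*} [Group G] [Finite G] (h : Nat.card G = 24) (h6 : ∀ g : G, orderOf g ≠ 6) : Nonempty (G ≃* Equiv.Perm (Fin 4)) := by
  classical
  haveI : Fact (Nat.Prime 2) := ⟨Nat.prime_two⟩
  haveI : Fact (Nat.Prime 3) := ⟨Nat.prime_three⟩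
  obtain ⟨Q⟩ : Nonempty (Sylow 3 G) := inferInstance
  have hQc := Cfsg.Agent.Lib.Helper2.sylow_card_of_eq 3 Q 8 (by rw [h]) (by norm_num)
  obtain ⟨hmod, hdvd, hNmul⟩ := Cfsg.Agent.Lib.Helper2.sylow_count 3 Q
  rw [hQc.2] at hdvd
  have hno6 : ∀ t y : G, orderOf t = 2 → orderOf y = 3 → t * y = y * t → False := by
    intro t y ht hy hc
    have h1 := (show Commute t y from hc).orderOf_mul_eq_mul_orderOf_of_coprime
      (by rw [ht, hy]; decide)
    rw [ht, hy] at h1
    exact h6 (t * y) h1
  have hy3 : ∀ Q' : Sylow 3 G, ∃ y ∈ (Q' : Subgroup G), orderOf y = 3 := by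
    intro Q'
    have hQ'c := Cfsg.Agent.Lib.Helper2.sylow_card_of_eq 3 Q' 8 (by rw [h]) (by norm_num)
    obtain ⟨y, hy⟩ := exists_prime_orderOf_dvd_card' 3
      (show 3 ∣ Nat.card ↥(Q' : Subgroup G) by rw [hQ'c.1])
    exact ⟨(y : G), y.2, (Subgroup.orderOf_coe y).trans hy⟩
  have hn : Nat.card (Sylow 3 G) = 1 ∨ Nat.card (Sylow 3 G) = 4 := by
    have h1 : Nat.card (Sylow 3 G) ∈ Nat.divisors 8 := Nat.mem_divisors.mpr ⟨hdvd, by norm_num⟩
    have h2 : Nat.divisors 8 = {1, 2, 4, 8} := by decide
    rw [h2] at h1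
    simp only [Finset.mem_insert, Finset.mem_singleton] at h1
    omega
  rcases hn with hn | hn
  · exfalso
    rw [hn, mul_one] at hNmul
    have hNtop : Subgroup.normalizer ((Q : Subgroup G) : Set G) = ⊤ :=
      Subgroup.eq_top_of_card_eq _ hNmul
    haveI hcyc : IsCyclic (Q : Subgroup G) := isCyclic_of_prime_card hQc.1
    have key := Subgroup.card_dvd_of_injective _
      (QuotientGroup.kerLift_injective (Q : Subgroup G).normalizerMonoidHom)
    rw [Subgroup.normalizerMonoidHom_ker, ← Subgroup.index, ← Subgroup.relIndex, hNtop,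
      Subgroup.relIndex_top_right, hcyc.card_mulAut, hQc.1, Nat.totient_prime Nat.prime_three] at key
    have hC := (Subgroup.centralizer ((Q : Subgroup G) : Set G)).card_mul_index
    rw [h] at hC
    have h2 : 2 ∣ Nat.card (Subgroup.centralizer ((Q : Subgroup G) : Set G)) := by
      have h3 : (Subgroup.centralizer ((Q : Subgroup G) : Set G)).index ∈ Nat.divisors 2 :=
        Nat.mem_divisors.mpr ⟨key, by norm_num⟩
      have h4 : Nat.divisors 2 = {1, 2} := by decide
      rw [h4] at h3
      simp only [Finset.mem_insert, Finset.mem_singleton] at h3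
      rcases h3 with h3 | h3
      · rw [h3] at hC; omega
      · rw [h3] at hC; omega
    obtain ⟨t, ht⟩ := exists_prime_orderOf_dvd_card' 2 h2
    obtain ⟨y, hyQ, hy⟩ := hy3 Q
    have htc := Subgroup.mem_centralizer_iff.mp t.2 y hyQ
    exact hno6 (t : G) y ((Subgroup.orderOf_coe t).trans ht) hy htc.symm
  · have hN6 : ∀ Q' : Sylow 3 G,
        Nat.card (Subgroup.normalizer ((Q' : Subgroup G) : Set G)) = 6 := by
      intro Q'
      obtain ⟨_, _, hm⟩ := Cfsg.Agent.Lib.Helper2.sylow_count 3 Q'
      rw [hn, h] at hm; omega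
    have hkerN : ∀ k ∈ (MulAction.toPermHom G (Sylow 3 G)).ker, ∀ Q' : Sylow 3 G,
        k ∈ Subgroup.normalizer ((Q' : Subgroup G) : Set G) := by
      intro k hk Q'
      have h1 : MulAction.toPermHom G (Sylow 3 G) k = 1 := MonoidHom.mem_ker.mp hk
      have h2 : k • Q' = Q' := by
        have h3 := congrArg (fun σ : Equiv.Perm (Sylow 3 G) => σ Q') h1
        simpa using h3
      exact Sylow.smul_eq_iff_mem_normalizer.mp h2
    have hno3 : ∀ k' ∈ (MulAction.toPermHom G (Sylow 3 G)).ker, orderOf k' ≠ 3 := by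
      intro k' hk' ho
      have hk'N : ∀ Q' : Sylow 3 G, k' ∈ (Q' : Subgroup G) := fun Q' =>
        Cfsg.Agent.Lib.Lead.mem_sylow_of_normalizes Q'
          (Cfsg.Agent.Lib.Helper2.isPGroup_zpowers_of_pow
            (by have h9 := pow_orderOf_eq_one k'; rwa [ho] at h9)) (hkerN k' hk' Q')
      have hk'1 : k' ≠ 1 := by
        rintro rfl
        rw [orderOf_one] at ho; omega
      have hall : ∀ Q' : Sylow 3 G, (Q' : Subgroup G) = Subgroup.zpowers k' := by
        intro Q'
        have hQ'c := Cfsg.Agent.Lib.Helper2.sylow_card_of_eq 3 Q' 8 (by rw [h]) (by norm_num)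
        exact (Cfsg.Agent.Lib.Helper2.zpowers_eq_of_card_prime (Q' : Subgroup G) Nat.prime_three
          hQ'c.1 k' (hk'N Q') hk'1).symm
      have hsub : Subsingleton (Sylow 3 G) :=
        ⟨fun A B => Sylow.ext ((hall A).trans (hall B).symm)⟩
      have h5 : Nat.card (Sylow 3 G) ≤ 1 := Finite.card_le_one_iff_subsingleton.mpr hsub
      omega
    have hker : (MulAction.toPermHom G (Sylow 3 G)).ker = ⊥ := by
      rw [eq_bot_iff]
      intro k hk
      rw [Subgroup.mem_bot]
      by_contra hk1
      have hord : orderOf k ∣ 6 := by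
        have h1 : orderOf (⟨k, hkerN k hk Q⟩ : ↥(Subgroup.normalizer ((Q : Subgroup G) : Set G)))
            ∣ Nat.card ↥(Subgroup.normalizer ((Q : Subgroup G) : Set G)) := orderOf_dvd_natCard _
        rwa [Subgroup.orderOf_mk, hN6 Q] at h1
      have hord' : orderOf k = 2 := by
        have h1 : orderOf k ∈ Nat.divisors 6 := Nat.mem_divisors.mpr ⟨hord, by norm_num⟩
        have h2 : Nat.divisors 6 = {1, 2, 3, 6} := by decide
        rw [h2] at h1
        simp only [Finset.mem_insert, Finset.mem_singleton] at h1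
        rcases h1 with h1 | h1 | h1 | h1
        · exact absurd (orderOf_eq_one_iff.mp h1) hk1
        · exact h1
        · exact absurd h1 (hno3 k hk)
        · exact absurd h1 (h6 k)
      have hKcard : Nat.card (MulAction.toPermHom G (Sylow 3 G)).ker = 2 := by
        have h1 : Nat.card (MulAction.toPermHom G (Sylow 3 G)).ker ∣ 6 := by
          have hKN : (MulAction.toPermHom G (Sylow 3 G)).ker
              ≤ Subgroup.normalizer ((Q : Subgroup G) : Set G) := fun k' hk' => hkerN k' hk' Q
          have h7 := Subgroup.card_dvd_of_le hKN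
          rwa [hN6 Q] at h7
        have h3 : ¬ 3 ∣ Nat.card (MulAction.toPermHom G (Sylow 3 G)).ker := by
          intro h3
          obtain ⟨k', hk'⟩ := exists_prime_orderOf_dvd_card' 3 h3
          exact hno3 (k' : G) k'.2 ((Subgroup.orderOf_coe k').trans hk')
        have h4 : 2 ∣ Nat.card (MulAction.toPermHom G (Sylow 3 G)).ker := by
          have h7 := orderOf_dvd_natCard (⟨k, hk⟩ : ↥(MulAction.toPermHom G (Sylow 3 G)).ker)
          rwa [Subgroup.orderOf_mk, hord'] at h7
        have h5 : Nat.card (MulAction.toPermHom G (Sylow 3 G)).ker ∈ Nat.divisors 6 :=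
          Nat.mem_divisors.mpr ⟨h1, by norm_num⟩
        have h2 : Nat.divisors 6 = {1, 2, 3, 6} := by decide
        rw [h2] at h5
        simp only [Finset.mem_insert, Finset.mem_singleton] at h5
        omega
      obtain ⟨y, hyQ, hy⟩ := hy3 Q
      have hzp : Subgroup.zpowers k = (MulAction.toPermHom G (Sylow 3 G)).ker :=
        Subgroup.eq_of_le_of_card_ge ((Subgroup.zpowers_le).mpr hk)
          (by rw [hKcard, Nat.card_zpowers, hord'])
      have hw : y * k * y⁻¹ ∈ Subgroup.zpowers k := by
        rw [hzp]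
        exact (inferInstance : (MulAction.toPermHom G (Sylow 3 G)).ker.Normal).conj_mem k hk y
      obtain ⟨i, hi⟩ := Subgroup.mem_zpowers_iff.mp hw
      have hk2 : k ^ (2 : ℤ) = 1 := by
        have h7 : k ^ 2 = 1 := by have h9 := pow_orderOf_eq_one k; rwa [hord'] at h9
        rw [zpow_ofNat]; exact h7
      have hconj : y * k * y⁻¹ = k := by
        rcases Int.emod_two_eq_zero_or_one i with hi2 | hi2
        · exfalso
          have h7 : k ^ i = 1 := by
            obtain ⟨j, hj⟩ : (2 : ℤ) ∣ i := Int.dvd_of_emod_eq_zero hi2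
            rw [hj, zpow_mul, hk2, one_zpow]
          rw [h7] at hi
          apply hk1
          have e : k = y⁻¹ * (y * k * y⁻¹) * y := by group
          rw [e, ← hi]; group
        · have h7 : k ^ i = k := by
            have h8 : i = 2 * (i / 2) + 1 := by omega
            rw [h8, zpow_add, zpow_mul, hk2, one_zpow, one_mul, zpow_one]
          rw [← hi, h7]
      apply hno6 k y hord' hy
      have e : y * k = (y * k * y⁻¹) * y := by group
      rw [e, hconj]
    have hinj : Function.Injective (MulAction.toPermHom G (Sylow 3 G)) :=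
      (MonoidHom.ker_eq_bot_iff _).mp hker
    have hcard : Nat.card G = Nat.card (Equiv.Perm (Sylow 3 G)) := by
      rw [Nat.card_perm, hn, h]; rfl
    have hbij : Function.Bijective (MulAction.toPermHom G (Sylow 3 G)) :=
      (Nat.bijective_iff_injective_and_card _).mpr ⟨hinj, hcard⟩
    exact ⟨(MulEquiv.ofBijective _ hbij).trans (Equiv.permCongrHom (Finite.equivFinOfCardEq hn))⟩

end Cfsg.Agent.S1012
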