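import Mathlib
import Cfsg.Statements.S1013
import Cfsg.Agent.Lib.Helper2.PrimeDegree

set_option autoImplicit false
open Cfsg

namespace Cfsg.Agent.S1013

/-- Let G be a transitive permutation group of prime degree p having more than one Sylow p-subgroup, and suppose a Sylow p-subgroup P has prime index in its normalizer. Then G is simple. -/
theorem result {α : Type*} [Fintype α] [DecidableEq α] {p : ℕ} [Fact p.Prime] (hα : Fintype.card α = p) (G : Subgroup (Equiv.Perm α)) [MulAction.IsPretransitive ↥G α] (P : Sylow p ↥G) (hn : 1 < Nat.card (Sylow p ↥G)) (ht : (((P : Subgroup ↥G).subgroupOf (Subgroup.normalizer ((P : Subgroup ↥G) : Set ↥G))).index).Prime) : IsSimpleGroup ↥G := by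
  classical
  have hp : p.Prime := Fact.out
  have hα' : Nat.card α = p := by rw [Nat.card_eq_fintype_card, hα]
  haveI : Nonempty α := by
    have h1 : 0 < Nat.card α := by rw [hα']; exact hp.pos
    exact (Nat.card_pos_iff.mp h1).1
  obtain ⟨a0⟩ := ‹Nonempty α›
  have hfact : Nat.card ↥G ∣ p.factorial := by
    have h1 : Nat.card ↥G ∣ Nat.card (Equiv.Perm α) := Subgroup.card_subgroup_dvd_card G
    rwa [Nat.card_perm, hα'] at h1
  have hGc : Nat.card (MulAction.stabilizer ↥G a0) * Nat.card α = Nat.card ↥G := by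
    rw [← MulAction.index_stabilizer_of_transitive ↥G a0]; exact Subgroup.card_mul_index _
  rw [hα'] at hGc
  have hm : ¬ p ∣ Nat.card (MulAction.stabilizer ↥G a0) := by
    rintro ⟨c, hc⟩
    rw [← hGc, hc, ← Nat.mul_factorial_pred hp.ne_zero] at hfact
    have h2 : p * (c * p) ∣ p * (p - 1).factorial := by rwa [mul_assoc] at hfact
    have h3 := Nat.dvd_of_mul_dvd_mul_left hp.pos h2
    have h4 : p ∣ (p - 1).factorial := Dvd.dvd.trans (Dvd.intro_left c rfl) h3
    have h5 := (Nat.Prime.dvd_factorial hp).mp h4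
    have := hp.one_lt
    omega
  have hPc := (Cfsg.Agent.Lib.Helper2.sylow_card_of_eq p P _ (by rw [← hGc, mul_comm]) hm).1
  haveI : FaithfulSMul ↥G α := ⟨fun {g₁ g₂} h => Subtype.ext (Equiv.ext h)⟩
  exact Cfsg.Agent.Lib.Helper2.simple_of_prime_degree hα' P hPc hn ht

end Cfsg.Agent.S1013
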