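import Mathlib
import Cfsg.Statements.S1014
import Cfsg.Agent.Lib.Helper2.SimpleOrder3

set_option autoImplicit false
open Cfsg

namespace Cfsg.Agent.S1014

/-- No finite simple group has order 1104 = 2^4 * 3 * 23. -/
theorem result {G : Type*} [Group G] [Finite G] [IsSimpleGroup G] : Nat.card G ≠ 1104 := by
  intro hcard
  haveI : Fact (Nat.Prime 23) := ⟨by norm_num⟩
  obtain ⟨P⟩ : Nonempty (Sylow 23 G) := inferInstance
  have hPc := Cfsg.Agent.Lib.Helper2.sylow_card_of_eq 23 P 48 (by rw [hcard]) (by norm_num)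
  obtain ⟨hmod, hdvd, hNmul⟩ := Cfsg.Agent.Lib.Helper2.sylow_count 23 P
  rw [hPc.2] at hdvd
  have hn1 : Nat.card (Sylow 23 G) ≠ 1 :=
    Cfsg.Agent.Lib.Helper2.sylow_not_normal_of_simple 23 P (by rw [hPc.1]; norm_num)
      (by rw [hPc.1, hcard]; norm_num)
  have hn : Nat.card (Sylow 23 G) = 24 := by
    have h1 : Nat.card (Sylow 23 G) ∈ Nat.divisors 48 := Nat.mem_divisors.mpr ⟨hdvd, by norm_num⟩
    have h2 : Nat.divisors 48 = {1, 2, 3, 4, 6, 8, 12, 16, 24, 48} := by decide
    rw [h2] at h1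
    simp only [Finset.mem_insert, Finset.mem_singleton] at h1
    omega
  rw [hn, hcard] at hNmul
  have hN : Nat.card (Subgroup.normalizer ((P : Subgroup G) : Set G)) = 2 * 23 := by omega
  exact Cfsg.Agent.Lib.Helper2.not_simple_sylow_dihedral 23 P hPc.1 hN hn (by norm_num)

end Cfsg.Agent.S1014
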