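import Mathlib
import Cfsg.Statements.S1015
import Cfsg.Agent.Lib.Helper2.SimpleOrder4

set_option autoImplicit false
open Cfsg

namespace Cfsg.Agent.S1015

/-- No finite simple group has order 1200 = 2^4 * 3 * 5^2. -/
theorem result {G : Type*} [Group G] [Finite G] [IsSimpleGroup G] : Nat.card G ≠ 1200 := by
  intro hcard
  haveI : Fact (Nat.Prime 5) := ⟨by norm_num⟩
  obtain ⟨P⟩ : Nonempty (Sylow 5 G) := inferInstance
  have hPc := Cfsg.Agent.Lib.Helper2.sylow_card_of_eq_pow 5 P 2 48 (by rw [hcard]; norm_num) (by norm_num)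
  obtain ⟨hmod, hdvd, hNmul⟩ := Cfsg.Agent.Lib.Helper2.sylow_count 5 P
  rw [hPc.2] at hdvd
  have hn1 : Nat.card (Sylow 5 G) ≠ 1 :=
    Cfsg.Agent.Lib.Helper2.sylow_not_normal_of_simple 5 P (by rw [hPc.1]; norm_num)
      (by rw [hPc.1, hcard]; norm_num)
  have hn : Nat.card (Sylow 5 G) = 6 ∨ Nat.card (Sylow 5 G) = 16 := by
    have h1 : Nat.card (Sylow 5 G) ∈ Nat.divisors 48 := Nat.mem_divisors.mpr ⟨hdvd, by norm_num⟩
    have h2 : Nat.divisors 48 = {1, 2, 3, 4, 6, 8, 12, 16, 24, 48} := by decide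
    rw [h2] at h1
    simp only [Finset.mem_insert, Finset.mem_singleton] at h1
    omega
  rcases hn with hn | hn
  · have hidx : (Subgroup.normalizer ((P : Subgroup G) : Set G)).index = 6 := by
      have h0 := P.card_eq_index_normalizer
      rw [hn] at h0; exact h0.symm
    have hne : Subgroup.normalizer ((P : Subgroup G) : Set G) ≠ ⊤ := by
      intro h; rw [h, Subgroup.index_top] at hidx; omega
    have h1 := Cfsg.Agent.Lib.Helper2.simple_card_dvd_factorial _ hne
    rw [hidx, hcard] at h1
    exact absurd h1 (by decide)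
  · obtain ⟨Q, hQP⟩ : ∃ Q : Sylow 5 G, Q ≠ P := by
      by_contra hall
      push Not at hall
      have hsub : Subsingleton (Sylow 5 G) := ⟨fun A B => (hall A).trans (hall B).symm⟩
      have h0 := Finite.card_le_one_iff_subsingleton.mpr hsub
      omega
    have hQc : Nat.card (Q : Subgroup G) = 5 ^ 2 :=
      (Cfsg.Agent.Lib.Helper2.sylow_card_of_eq_pow 5 Q 2 48 (by rw [hcard]; norm_num) (by norm_num)).1
    have h1 := Cfsg.Agent.Lib.Helper2.sylow_orbit_le P Q hQP
    rw [hn] at h1
    have h2 := MulAction.index_stabilizer ↥(P : Subgroup G) Q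
    have h3 := (MulAction.stabilizer ↥(P : Subgroup G) Q).card_mul_index
    rw [h2, hPc.1, Cfsg.Agent.Lib.Helper2.sylow_stab_card P Q] at h3
    have hDcard : Nat.card ((P : Subgroup G) ⊓ (Q : Subgroup G) : Subgroup G) = 5 := by
      have h5 : Nat.card ((P : Subgroup G) ⊓ (Q : Subgroup G) : Subgroup G) ∣ 25 :=
        Dvd.intro _ h3
      have h6 : Nat.card ((P : Subgroup G) ⊓ (Q : Subgroup G) : Subgroup G) ∈ Nat.divisors 25 :=
        Nat.mem_divisors.mpr ⟨h5, by norm_num⟩
      have h7 : Nat.divisors 25 = {1, 5, 25} := by decide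
      rw [h7] at h6
      simp only [Finset.mem_insert, Finset.mem_singleton] at h6
      rcases h6 with h6 | h6 | h6
      · rw [h6] at h3; omega
      · exact h6
      · exfalso
        have h8 : (P : Subgroup G) ⊓ (Q : Subgroup G) = (P : Subgroup G) :=
          Subgroup.eq_of_le_of_card_ge inf_le_left (by rw [h6, hPc.1]; norm_num)
        have h9 : (P : Subgroup G) ≤ Q := h8 ▸ inf_le_right
        exact hQP (Sylow.ext (P.is_maximal' Q.2 h9))
    have hPab : ∀ a ∈ (P : Subgroup G), ∀ b ∈ (P : Subgroup G), a * b = b * a := by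
      intro a ha b hb
      exact congrArg Subtype.val
        ((IsPGroup.isMulCommutative_of_card_eq_prime_sq (p := 5) hPc.1).is_comm.comm
          (⟨a, ha⟩ : ↥(P : Subgroup G)) ⟨b, hb⟩)
    have hQab : ∀ a ∈ (Q : Subgroup G), ∀ b ∈ (Q : Subgroup G), a * b = b * a := by
      intro a ha b hb
      exact congrArg Subtype.val
        ((IsPGroup.isMulCommutative_of_card_eq_prime_sq (p := 5) hQc).is_comm.comm
          (⟨a, ha⟩ : ↥(Q : Subgroup G)) ⟨b, hb⟩)
    obtain ⟨M, hM⟩ : ∃ M : Subgroup G, M = Subgroup.normalizer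
        (((P : Subgroup G) ⊓ (Q : Subgroup G) : Subgroup G) : Set G) := ⟨_, rfl⟩
    have hPM : (P : Subgroup G) ≤ M := by
      rw [hM]; exact Cfsg.Agent.Lib.Helper2.le_normalizer_of_comm inf_le_left hPab
    have hQM : (Q : Subgroup G) ≤ M := by
      rw [hM]; exact Cfsg.Agent.Lib.Helper2.le_normalizer_of_comm inf_le_right hQab
    have hne' : (P.subtype hPM) ≠ Q.subtype hQM := by
      intro h
      apply hQP
      have h6 : (P : Subgroup G).subgroupOf M = (Q : Subgroup G).subgroupOf M :=
        congrArg Sylow.toSubgroup h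
      have h7 := congrArg (Subgroup.map M.subtype) h6
      rw [Subgroup.map_subgroupOf_eq_of_le hPM, Subgroup.map_subgroupOf_eq_of_le hQM] at h7
      exact (Sylow.ext h7).symm
    obtain ⟨hmod', hdvd', hNmul'⟩ := Cfsg.Agent.Lib.Helper2.sylow_count 5 (P.subtype hPM)
    have hn2 : 2 ≤ Nat.card (Sylow 5 ↥M) := by
      by_contra hlt
      push Not at hlt
      have hsub : Subsingleton (Sylow 5 ↥M) :=
        Finite.card_le_one_iff_subsingleton.mp (by omega)
      exact hne' (Subsingleton.elim _ _)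
    have hP'card : Nat.card ((P.subtype hPM : Sylow 5 ↥M) : Subgroup ↥M) = 25 := by
      have h5 : ((P.subtype hPM : Sylow 5 ↥M) : Subgroup ↥M) = (P : Subgroup G).subgroupOf M := rfl
      rw [h5, Nat.card_congr (Subgroup.subgroupOfEquivOfLe hPM).toEquiv, hPc.1]; norm_num
    have hNP' := Subgroup.card_le_of_le
      (Subgroup.le_normalizer (H := ((P.subtype hPM : Sylow 5 ↥M) : Subgroup ↥M)))
    rw [hP'card] at hNP'
    have hMcard : 150 ≤ Nat.card M := by
      rw [← hNmul']
      have hn6 : 6 ≤ Nat.card (Sylow 5 ↥M) := by omega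
      nlinarith
    have hMidx := M.card_mul_index
    rw [hcard] at hMidx
    have hidx8 : M.index ≤ 8 := by
      by_contra h
      push Not at h
      nlinarith
    by_cases hMtop : M = ⊤
    · have hDn : ((P : Subgroup G) ⊓ (Q : Subgroup G) : Subgroup G).Normal :=
        Subgroup.normalizer_eq_top_iff.mp (hM.symm.trans hMtop)
      rcases hDn.eq_bot_or_eq_top with h5 | h5
      · rw [h5, Subgroup.card_bot] at hDcard; omega
      · rw [h5, Subgroup.card_top, hcard] at hDcard; omega
    · have h5 := Cfsg.Agent.Lib.Helper2.simple_card_dvd_factorial M hMtop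
      have h6 := Nat.factorial_dvd_factorial hidx8
      have h7 := h5.trans h6
      rw [hcard] at h7
      exact absurd h7 (by decide)

end Cfsg.Agent.S1015
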