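import Mathlib
import Cfsg.Statements.S1018
import Cfsg.Agent.Lib.Lead.SylowAux

set_option autoImplicit false
open Cfsg

namespace Cfsg.Agent.S1018

/-- Let P be a Sylow p-subgroup of order p of a finite group G, and consider the action of G on the left cosets of the normalizer N of P. Then every element of order p fixes exactly one coset, and an element of N that does not centralize P fixes at most as many cosets as there are orbits of P. -/
theorem result {G : Type*} [Group G] [Finite G] (p : ℕ) [Fact p.Prime] (P : Sylow p G) (hP : Nat.card ↥(P : Subgroup G) = p) : (∀ y : G, orderOf y = p → Nat.card (MulAction.fixedBy (G ⧸ Subgroup.normalizer ((P : Subgroup G) : Set G)) y) = 1) ∧ ∀ x : G, x ∈ Subgroup.normalizer ((P : Subgroup G) : Set G) → x ∉ Subgroup.centralizer ((P : Subgroup G) : Set G) → Nat.card (MulAction.fixedBy (G ⧸ Subgroup.normalizer ((P : Subgroup G) : Set G)) x) ≤ Nat.card (MulAction.orbitRel.Quotient ↥(P : Subgroup G) (G ⧸ Subgroup.normalizer ((P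 : Subgroup G) : Set G))) := by
  classical
  have hp : p.Prime := Fact.out
  have hPN : (P : Subgroup G) ≤ Subgroup.normalizer ((P : Subgroup G) : Set G) :=
    Subgroup.le_normalizer
  have hpg : ∀ z : G, z ^ p = 1 → IsPGroup p (Subgroup.zpowers z) := by
    intro z hz
    rintro ⟨g, hg⟩
    obtain ⟨i, rfl⟩ := Subgroup.mem_zpowers_iff.mp hg
    refine ⟨1, ?_⟩
    apply Subtype.ext
    show (z ^ i) ^ p ^ 1 = 1
    rw [pow_one, ← zpow_natCast, ← zpow_mul, mul_comm, zpow_mul, zpow_natCast, hz, one_zpow]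
  have L1 : ∀ z ∈ Subgroup.normalizer ((P : Subgroup G) : Set G), z ^ p = 1 →
      z ∈ (P : Subgroup G) := fun z hz hzp =>
    Cfsg.Agent.Lib.Lead.mem_sylow_of_normalizes P (hpg z hzp) hz
  have hPpow : ∀ u ∈ (P : Subgroup G), u ^ p = 1 := by
    intro u hu
    have h1 : orderOf (⟨u, hu⟩ : ↥(P : Subgroup G)) ∣ Nat.card ↥(P : Subgroup G) :=
      orderOf_dvd_natCard _
    rw [Subgroup.orderOf_mk, hP] at h1
    exact orderOf_dvd_iff_pow_eq_one.mp h1
  have L2 : ∀ u ∈ (P : Subgroup G), u ≠ 1 → Subgroup.zpowers u = (P : Subgroup G) := by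
    intro u hu hu1
    have h1 : orderOf u ∣ p := orderOf_dvd_of_pow_eq_one (hPpow u hu)
    have h2 : orderOf u = p := by
      rcases (Nat.dvd_prime hp).mp h1 with h | h
      · exact absurd (orderOf_eq_one_iff.mp h) hu1
      · exact h
    apply Subgroup.eq_of_le_of_card_ge ((Subgroup.zpowers_le).mpr hu)
    rw [Nat.card_zpowers, h2, hP]
  have L3 : ∀ c u : G, u ∈ (P : Subgroup G) → u ≠ 1 → c * u * c⁻¹ ∈ (P : Subgroup G) →
      c ∈ Subgroup.normalizer ((P : Subgroup G) : Set G) := by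
    intro c u hu hu1 hc
    apply Subgroup.mem_normalizer_fintype
    intro n hn
    have hn' : n ∈ Subgroup.zpowers u := by rw [L2 u hu hu1]; exact hn
    obtain ⟨i, rfl⟩ := Subgroup.mem_zpowers_iff.mp hn'
    have e : c * u ^ i * c⁻¹ = (c * u * c⁻¹) ^ i := (conj_zpow).symm
    rw [e]
    exact (P : Subgroup G).zpow_mem hc i
  have hfix : ∀ y g : G, y • (QuotientGroup.mk g : G ⧸ Subgroup.normalizer ((P : Subgroup G) : Set G))
      = QuotientGroup.mk g ↔ g⁻¹ * y * g ∈ Subgroup.normalizer ((P : Subgroup G) : Set G) := by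
    intro y g
    have h1 : y • (QuotientGroup.mk g : G ⧸ Subgroup.normalizer ((P : Subgroup G) : Set G))
        = QuotientGroup.mk (y * g) := rfl
    rw [h1, QuotientGroup.eq]
    constructor
    · intro h
      have e : g⁻¹ * y * g = ((y * g)⁻¹ * g)⁻¹ := by group
      rw [e]; exact Subgroup.inv_mem _ h
    · intro h
      have e : (y * g)⁻¹ * g = (g⁻¹ * y * g)⁻¹ := by group
      rw [e]; exact Subgroup.inv_mem _ h
  refine ⟨?_, ?_⟩
  · intro y hy
    have hyp : y ^ p = 1 := by rw [← hy]; exact pow_orderOf_eq_one y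
    have hy1 : y ≠ 1 := by
      rintro rfl
      rw [orderOf_one] at hy
      exact hp.one_lt.ne hy
    obtain ⟨g, hg⟩ := Cfsg.Agent.Lib.Lead.sylow_conj_mem P (Subgroup.zpowers y) (hpg y hyp)
    have hgy : g * y * g⁻¹ ∈ (P : Subgroup G) := hg y (Subgroup.mem_zpowers y)
    rw [Nat.card_eq_one_iff_unique]
    refine ⟨⟨?_⟩, ⟨⟨QuotientGroup.mk g⁻¹, ?_⟩⟩⟩
    · rintro ⟨a, ha⟩ ⟨b, hb⟩
      obtain ⟨a', rfl⟩ := QuotientGroup.mk_surjective a
      obtain ⟨b', rfl⟩ := QuotientGroup.mk_surjective b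
      have ha' := (hfix y a').mp ha
      have hb' := (hfix y b').mp hb
      have hconj_pow : ∀ c : G, (c⁻¹ * y * c) ^ p = 1 := by
        intro c
        have e : c⁻¹ * y * c = c⁻¹ * y * c⁻¹⁻¹ := by rw [inv_inv]
        rw [e, conj_pow, hyp]; group
      have haP := L1 _ ha' (hconj_pow a')
      have hbP := L1 _ hb' (hconj_pow b')
      have hne : a'⁻¹ * y * a' ≠ 1 := by
        intro h
        apply hy1
        have e : y = a' * (a'⁻¹ * y * a') * a'⁻¹ := by group
        rw [e, h]; group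
      have hc : b'⁻¹ * a' ∈ Subgroup.normalizer ((P : Subgroup G) : Set G) := by
        apply L3 (b'⁻¹ * a') (a'⁻¹ * y * a') haP hne
        have e : b'⁻¹ * a' * (a'⁻¹ * y * a') * (b'⁻¹ * a')⁻¹ = b'⁻¹ * y * b' := by group
        rw [e]; exact hbP
      apply Subtype.ext
      show (QuotientGroup.mk a' : G ⧸ Subgroup.normalizer ((P : Subgroup G) : Set G))
        = QuotientGroup.mk b'
      rw [QuotientGroup.eq]
      have e : a'⁻¹ * b' = (b'⁻¹ * a')⁻¹ := by group
      rw [e]; exact Subgroup.inv_mem _ hc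
    · show y • (QuotientGroup.mk g⁻¹ : G ⧸ Subgroup.normalizer ((P : Subgroup G) : Set G))
        = QuotientGroup.mk g⁻¹
      rw [hfix, inv_inv]
      exact hPN hgy
  · intro x hxN hxC
    have hxC' : ∀ u ∈ (P : Subgroup G), u ≠ 1 → x * u ≠ u * x := by
      intro u hu hu1 hcomm
      apply hxC
      rw [Subgroup.mem_centralizer_iff]
      intro v hv
      have hv' : v ∈ Subgroup.zpowers u := by rw [L2 u hu hu1]; exact hv
      obtain ⟨i, rfl⟩ := Subgroup.mem_zpowers_iff.mp hv'
      exact ((Commute.zpow_right (show Commute x u from hcomm) i).eq).symm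
    apply Nat.card_le_card_of_injective
      (fun a : MulAction.fixedBy (G ⧸ Subgroup.normalizer ((P : Subgroup G) : Set G)) x =>
        (Quotient.mk'' (a : G ⧸ Subgroup.normalizer ((P : Subgroup G) : Set G)) :
          MulAction.orbitRel.Quotient ↥(P : Subgroup G)
            (G ⧸ Subgroup.normalizer ((P : Subgroup G) : Set G))))
    rintro ⟨a, ha⟩ ⟨b, hb⟩ hab
    apply Subtype.ext
    show a = b
    have hab' : (MulAction.orbitRel ↥(P : Subgroup G)
        (G ⧸ Subgroup.normalizer ((P : Subgroup G) : Set G))) a b := Quotient.eq''.mp hab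
    rw [MulAction.orbitRel_apply] at hab'
    obtain ⟨u, hu⟩ := hab'
    obtain ⟨g, rfl⟩ := QuotientGroup.mk_surjective b
    have hu' : a = QuotientGroup.mk ((u : G) * g) := hu.symm
    subst hu'
    have hb' := (hfix x g).mp hb
    have ha' := (hfix x ((u : G) * g)).mp ha
    by_cases hu1 : (u : G) = 1
    · rw [hu1, one_mul]
    · have hxu : x * (u : G) * x⁻¹ ∈ (P : Subgroup G) :=
        (Subgroup.mem_normalizer_iff.mp hxN _).mp u.2
      have hw : (u : G)⁻¹ * (x * (u : G) * x⁻¹) ∈ (P : Subgroup G) :=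
        (P : Subgroup G).mul_mem ((P : Subgroup G).inv_mem u.2) hxu
      have hw1 : (u : G)⁻¹ * (x * (u : G) * x⁻¹) ≠ 1 := by
        intro h
        apply hxC' (u : G) u.2 hu1
        have e : x * (u : G) = (u : G) * ((u : G)⁻¹ * (x * (u : G) * x⁻¹)) * x := by group
        rw [e, h, mul_one]
      have hgw : g⁻¹ * ((u : G)⁻¹ * (x * (u : G) * x⁻¹)) * g
          ∈ Subgroup.normalizer ((P : Subgroup G) : Set G) := by
        have e : g⁻¹ * ((u : G)⁻¹ * (x * (u : G) * x⁻¹)) * g
            = (((u : G) * g)⁻¹ * x * ((u : G) * g)) * (g⁻¹ * x * g)⁻¹ := by group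
        rw [e]; exact Subgroup.mul_mem _ ha' (Subgroup.inv_mem _ hb')
      have hgwP : g⁻¹ * ((u : G)⁻¹ * (x * (u : G) * x⁻¹)) * g ∈ (P : Subgroup G) := by
        apply L1 _ hgw
        have e : g⁻¹ * ((u : G)⁻¹ * (x * (u : G) * x⁻¹)) * g
            = g⁻¹ * ((u : G)⁻¹ * (x * (u : G) * x⁻¹)) * g⁻¹⁻¹ := by rw [inv_inv]
        rw [e, conj_pow, hPpow _ hw]; group
      have hgN : g⁻¹ ∈ Subgroup.normalizer ((P : Subgroup G) : Set G) := by
        apply L3 g⁻¹ _ hw hw1
        rw [inv_inv]; exact hgwP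
      rw [QuotientGroup.eq]
      have e : ((u : G) * g)⁻¹ * g = g⁻¹ * (u : G)⁻¹ * g⁻¹⁻¹ := by group
      rw [e]
      exact Subgroup.mul_mem _ (Subgroup.mul_mem _ hgN (Subgroup.inv_mem _ (hPN u.2)))
        (Subgroup.inv_mem _ hgN)

end Cfsg.Agent.S1018
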