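import Mathlib
import Cfsg.Statements.S1019


set_option autoImplicit false
open Cfsg

namespace Cfsg.Agent.S1019

/-- Let H be a subgroup of a finite group G and x an element of H. In the action of G on the left cosets of H, the number of cosets fixed by x, multiplied by the size of the conjugacy class of x, equals the index of H multiplied by the number of conjugates of x that lie in H. -/
theorem result {G : Type*} [Group G] [Finite G] (H : Subgroup G) (x : G) (hx : x ∈ H) : Nat.card (MulAction.fixedBy (G ⧸ H) x) * Nat.card {g : G // IsConj x g} = H.index * Nat.card {g : G // IsConj x g ∧ g ∈ H} := by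
  classical
  haveI : Fintype G := Fintype.ofFinite G
  have key : ∀ (y : G) (g₀ : G), y • (g₀ : G ⧸ H) = (g₀ : G ⧸ H) ↔ g₀⁻¹ * y * g₀ ∈ H := by
    intro y g₀
    have h0 : y • (g₀ : G ⧸ H) = ((y * g₀ : G) : G ⧸ H) := rfl
    rw [h0, QuotientGroup.eq]
    have h1 : (y * g₀)⁻¹ * g₀ = (g₀⁻¹ * y * g₀)⁻¹ := by group
    rw [h1, inv_mem_iff]
  have h1 : ∀ y : {g : G // IsConj x g}, Nat.card (MulAction.fixedBy (G ⧸ H) y.1) =
      Nat.card (MulAction.fixedBy (G ⧸ H) x) := by
    rintro ⟨y, hy⟩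
    obtain ⟨g, rfl⟩ := isConj_iff.mp hy
    refine Nat.card_congr ⟨fun c => ⟨g⁻¹ • c.1, ?_⟩, fun c => ⟨g • c.1, ?_⟩, ?_, ?_⟩
    · have hc : (g * x * g⁻¹) • c.1 = c.1 := c.2
      show x • g⁻¹ • c.1 = g⁻¹ • c.1
      have h2 : g⁻¹ • ((g * x * g⁻¹) • c.1) = g⁻¹ • c.1 := by rw [hc]
      rw [smul_smul] at h2
      have h3 : g⁻¹ * (g * x * g⁻¹) = x * g⁻¹ := by group
      rw [h3, mul_smul] at h2
      exact h2
    · have hc : x • c.1 = c.1 := c.2
      show (g * x * g⁻¹) • g • c.1 = g • c.1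
      rw [smul_smul]
      have h3 : g * x * g⁻¹ * g = g * x := by group
      rw [h3, mul_smul, hc]
    · intro c; apply Subtype.ext; simp
    · intro c; apply Subtype.ext; simp
  have h2 : ∀ c : G ⧸ H, Nat.card {y : {g : G // IsConj x g} // y.1 • c = c} =
      Nat.card {g : G // IsConj x g ∧ g ∈ H} := by
    intro c
    obtain ⟨g₀, rfl⟩ := QuotientGroup.mk_surjective c
    refine Nat.card_congr ⟨fun y => ⟨g₀⁻¹ * y.1.1 * g₀, ?_, ?_⟩,
      fun z => ⟨⟨g₀ * z.1 * g₀⁻¹, ?_⟩, ?_⟩, ?_, ?_⟩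
    · exact y.1.2.trans (isConj_iff.mpr ⟨g₀⁻¹, by group⟩)
    · exact (key _ _).mp y.2
    · exact z.2.1.trans (isConj_iff.mpr ⟨g₀, rfl⟩)
    · refine (key _ _).mpr ?_
      have h3 : g₀⁻¹ * (g₀ * z.1 * g₀⁻¹) * g₀ = z.1 := by group
      show g₀⁻¹ * (g₀ * z.1 * g₀⁻¹) * g₀ ∈ H
      rw [h3]; exact z.2.2
    · intro y; apply Subtype.ext; apply Subtype.ext
      show g₀ * (g₀⁻¹ * y.1.1 * g₀) * g₀⁻¹ = y.1.1
      group
    · intro z; apply Subtype.ext
      show g₀⁻¹ * (g₀ * z.1 * g₀⁻¹) * g₀ = z.1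
      group
  have h3 : ∑ y : {g : G // IsConj x g}, Nat.card (MulAction.fixedBy (G ⧸ H) y.1) =
      ∑ c : G ⧸ H, Nat.card {y : {g : G // IsConj x g} // y.1 • c = c} := by
    have e1 : ∀ y : {g : G // IsConj x g}, Nat.card (MulAction.fixedBy (G ⧸ H) y.1) =
        ∑ c : G ⧸ H, if y.1 • c = c then 1 else 0 := by
      intro y
      rw [← Finset.card_filter]
      have : Nat.card (MulAction.fixedBy (G ⧸ H) y.1) = Nat.card {c : G ⧸ H // y.1 • c = c} := rfl
      rw [this, Nat.card_eq_fintype_card, Fintype.card_subtype]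
    have e2 : ∀ c : G ⧸ H, Nat.card {y : {g : G // IsConj x g} // y.1 • c = c} =
        ∑ y : {g : G // IsConj x g}, if y.1 • c = c then 1 else 0 := by
      intro c
      rw [← Finset.card_filter, Nat.card_eq_fintype_card, Fintype.card_subtype]
    simp_rw [e1, e2]
    exact Finset.sum_comm
  simp_rw [h1, h2] at h3
  rw [Finset.sum_const, Finset.sum_const, smul_eq_mul, smul_eq_mul, Finset.card_univ, Finset.card_univ,
    ← Nat.card_eq_fintype_card, ← Nat.card_eq_fintype_card] at h3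
  rw [mul_comm, h3]
  rfl

end Cfsg.Agent.S1019
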