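import Mathlib
import Cfsg.Statements.S1024
import Cfsg.Agent.Lib.Helper2.Chev

set_option autoImplicit false
open Cfsg

namespace Cfsg.Agent.S1024

/-- `x_r(0) = 1`, and `x_r(t) = 1` forces `t = 0`: the map `t ↦ x_r(t)` is injective. -/
theorem result {F : Type*} [Field F] (D : Cfsg.Lie.ChevalleyDatum) (hD : D ∈ [Cfsg.Lie.chevG2, Cfsg.Lie.chevB2, Cfsg.Lie.chevD4, Cfsg.Lie.chevF4, Cfsg.Lie.chevE6, Cfsg.Lie.chevE7, Cfsg.Lie.chevE8]) (r : ℕ) (hr : r < D.nroots) (t : F) :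
    D.x F r t = 1 ↔ t = 0 := by
  unfold Cfsg.Lie.ChevalleyDatum.x
  rw [dif_pos hr]
  constructor
  · intro h1
    obtain ⟨hs, hne⟩ := Cfsg.Agent.Lib.Helper2.chev_neg_facts D hD r hr
    have hne' : (⟨D.negIdx.getD r 0, hs⟩ : Fin D.nroots) ≠ ⟨r, hr⟩ := by
      intro h
      exact hne (congrArg Fin.val h)
    have h2 := congrFun (congrFun h1 (Sum.inr ⟨r, hr⟩)) (Sum.inr ⟨D.negIdx.getD r 0, hs⟩)
    rw [Cfsg.Agent.Lib.Helper2.xMat_apply_neg D F ⟨r, hr⟩ ⟨D.negIdx.getD r 0, hs⟩ t hne' rfl,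
      Matrix.one_apply_ne (by
        intro h
        exact hne' (Sum.inr.inj h).symm)] at h2
    have h3 : t ^ 2 = 0 := neg_eq_zero.mp h2
    exact (pow_eq_zero_iff (two_ne_zero)).mp h3
  · intro ht
    rw [ht]
    exact Cfsg.Agent.Lib.Helper2.xMat_zero D F ⟨r, hr⟩

end Cfsg.Agent.S1024
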