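import Mathlib
import Cfsg.Statements.S1080
import Cfsg.Agent.Lib.Helper2.Chev

set_option autoImplicit false
open Cfsg

namespace Cfsg.Agent.S1080

/-- Field automorphisms: for every field automorphism `f` there is a group automorphism sending each `x_r(t)` to `x_r(f t)`. -/
theorem result {F : Type*} [Field F] (D : Cfsg.Lie.ChevalleyDatum) (hD : D ∈ [Cfsg.Lie.chevG2, Cfsg.Lie.chevB2, Cfsg.Lie.chevD4, Cfsg.Lie.chevF4, Cfsg.Lie.chevE6, Cfsg.Lie.chevE7, Cfsg.Lie.chevE8]) (f : F ≃+* F) :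
    ∃ α : ↥(D.group F) ≃* ↥(D.group F), ∀ (g : ↥(D.group F)) (r : ℕ) (t : F), r < D.nroots →
      ((g : GL D.Idx F) : Matrix D.Idx D.Idx F) = D.x F r t → ((α g : GL D.Idx F) : Matrix D.Idx D.Idx F) = D.x F r (f t) := by
  let φ : GL D.Idx F ≃* GL D.Idx F := Units.mapEquiv (RingEquiv.mapMatrix f).toMulEquiv
  have hφ : ∀ g : GL D.Idx F, ((φ g : GL D.Idx F) : Matrix D.Idx D.Idx F)
      = (g : Matrix D.Idx D.Idx F).map f := fun g => rfl
  have hφs : ∀ g : GL D.Idx F, ((φ.symm g : GL D.Idx F) : Matrix D.Idx D.Idx F)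
      = (g : Matrix D.Idx D.Idx F).map f.symm := fun g => rfl
  have hmap : (D.group F).map φ.toMonoidHom = D.group F := by
    unfold Cfsg.Lie.ChevalleyDatum.group
    rw [MonoidHom.map_closure]
    congr 1
    ext g
    constructor
    · rintro ⟨g0, ⟨r, t, hg0⟩, rfl⟩
      refine ⟨r, f t, ?_⟩
      show ((φ g0 : GL D.Idx F) : Matrix D.Idx D.Idx F) = _
      rw [hφ, hg0, Cfsg.Agent.Lib.Helper2.xMat_map]
    · rintro ⟨r, t, hg⟩
      refine ⟨φ.symm g, ⟨r, f.symm t, ?_⟩, ?_⟩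
      · rw [hφs, hg, Cfsg.Agent.Lib.Helper2.xMat_map D f.symm]
      · show φ (φ.symm g) = g
        exact φ.apply_symm_apply g
  refine ⟨(φ.subgroupMap (D.group F)).trans (MulEquiv.subgroupCongr hmap), ?_⟩
  intro g r t hr hg
  show ((φ (g : GL D.Idx F) : GL D.Idx F) : Matrix D.Idx D.Idx F) = _
  rw [hφ, hg]
  unfold Cfsg.Lie.ChevalleyDatum.x
  rw [dif_pos hr, dif_pos hr, Cfsg.Agent.Lib.Helper2.xMat_map]

end Cfsg.Agent.S1080
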