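import Mathlib
import Cfsg.Statements.S1118
import Cfsg.Agent.Lib.Helper2.RankOne

set_option autoImplicit false
open Cfsg

namespace Cfsg.Agent.S1118

/-- In the rank-one set-up (`G` finite and doubly transitive on `Ω`, `t` an involution moving `a`, `Q` normal in `G_a` with `G_a = Q D`, `Q ⊓ D = 1` for the two-point stabiliser `D = G_a ⊓ G_{t • a}`, `|Q|` even, `|D|` odd), the normaliser of a subset of `Q` containing a non-identity element lies in `G_a`; consequently `N_G(Q) = N_G(G_a) = G_a`. -/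
theorem result {G Ω : Type*} [Group G] [Finite G] [MulAction G Ω] {a : Ω} {t : G} {Q : Subgroup G}
    (hS : Cfsg.IsRankOneSetup G Ω a t Q) :
    (∀ X : Set G, X ⊆ (Q : Set G) → (∃ x ∈ X, x ≠ 1) → Subgroup.normalizer X ≤ MulAction.stabilizer G a) ∧
      Subgroup.normalizer (Q : Set G) = MulAction.stabilizer G a ∧
      Subgroup.normalizer (MulAction.stabilizer G a : Set G) = MulAction.stabilizer G a := by
  have part1 : ∀ X : Set G, X ⊆ (Q : Set G) → (∃ x ∈ X, x ≠ 1) →
      Subgroup.normalizer X ≤ MulAction.stabilizer G a := by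
    intro X hXQ ⟨x, hxX, hx1⟩ n hn
    rw [Subgroup.mem_set_normalizer_iff] at hn
    have h1 : n * x * n⁻¹ ∈ Q := hXQ ((hn x).1 hxX)
    have hxQ : x ∈ Q := hXQ hxX
    by_contra hna
    have hna' : n • a ≠ a := hna
    have h2 : (n * x * n⁻¹) • (n • a) = n • a := by
      rw [mul_smul, mul_smul, inv_smul_smul, Cfsg.Agent.Lib.Helper2.RankOne.Q_mem_stab hS hxQ]
    have h3 := Cfsg.Agent.Lib.Helper2.RankOne.Q_semireg hS h1 hna' h2
    apply hx1
    calc x = n⁻¹ * (n * x * n⁻¹) * n := by group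
      _ = 1 := by rw [h3]; group
  have : Fact (Nat.Prime 2) := ⟨Nat.prime_two⟩
  obtain ⟨s, hs⟩ := exists_prime_orderOf_dvd_card' (G := Q) 2 (even_iff_two_dvd.mp hS.even_card)
  have hs2 : (s : G) * s = 1 := by
    have : s * s = 1 := by rw [← pow_two, ← hs, pow_orderOf_eq_one]
    exact congrArg Subtype.val this
  have hs1 : (s : G) ≠ 1 := by
    intro h
    have : s = 1 := Subtype.ext h
    rw [this, orderOf_one] at hs; omega
  have hQ : Subgroup.normalizer (Q : Set G) = MulAction.stabilizer G a := by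
    apply le_antisymm (part1 _ subset_rfl ⟨s, s.2, hs1⟩)
    exact Cfsg.Agent.Lib.Helper4.le_normalizer_of_conj_mem (fun s hs d hd => hS.conj_mem s hs d hd)
  refine ⟨part1, hQ, ?_⟩
  apply le_antisymm
  · intro n hn
    rw [Subgroup.mem_normalizer_iff] at hn
    have h1 : n * s * n⁻¹ ∈ MulAction.stabilizer G a := (hn s).1 (hS.le s.2)
    have h2 : (n * s * n⁻¹) * (n * s * n⁻¹) = 1 := by
      calc (n * s * n⁻¹) * (n * s * n⁻¹) = n * ((s : G) * s) * n⁻¹ := by group
        _ = 1 := by rw [hs2]; group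
    have h3 := Cfsg.Agent.Lib.Helper2.RankOne.invol_mem_Q hS h1 h2
    by_contra hna
    have hna' : n • a ≠ a := hna
    have h4 : (n * s * n⁻¹) • (n • a) = n • a := by
      rw [mul_smul, mul_smul, inv_smul_smul, Cfsg.Agent.Lib.Helper2.RankOne.Q_mem_stab hS s.2]
    have h5 := Cfsg.Agent.Lib.Helper2.RankOne.Q_semireg hS h3 hna' h4
    apply hs1
    calc (s : G) = n⁻¹ * (n * s * n⁻¹) * n := by group
      _ = 1 := by rw [h5]; group
  · exact Subgroup.le_normalizer

end Cfsg.Agent.S1118
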