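import Mathlib
import Cfsg.Statements.S1119
import Cfsg.Agent.Lib.Helper2.RankOne

set_option autoImplicit false
open Cfsg

namespace Cfsg.Agent.S1119

/-- In the rank-one set-up (`G` finite and doubly transitive on `Ω`, `t` an involution moving `a`, `Q` normal in `G_a` with `G_a = Q D`, `Q ⊓ D = 1` for the two-point stabiliser `D = G_a ⊓ G_{t • a}`, `|Q|` even, `|D|` odd): `Q` acts regularly on `Ω` minus `a`; hence `|Ω| = |Q| + 1`, `|G| = |Q| |D| (|Q| + 1)`, some Sylow 2-subgroup of `G` lies in `Q`, and each `g ∉ G_a` is uniquely `x t y` with `x ∈ G_a`, `y ∈ Q` (canonical form). -/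
theorem result {G Ω : Type*} [Group G] [Finite G] [MulAction G Ω] {a : Ω} {t : G} {Q : Subgroup G}
    (hS : Cfsg.IsRankOneSetup G Ω a t Q) :
    (∀ b c : Ω, b ≠ a → c ≠ a → ∃! x : Q, (x : G) • b = c) ∧
      Nat.card Ω = Nat.card Q + 1 ∧
      Nat.card G = Nat.card Q * Nat.card ↥(MulAction.stabilizer G a ⊓ MulAction.stabilizer G (t • a)) * (Nat.card Q + 1) ∧
      (∃ P : Sylow 2 G, (P : Subgroup G) ≤ Q) ∧
      ∀ g : G, g ∉ MulAction.stabilizer G a → ∃! p : G × G, p.1 ∈ MulAction.stabilizer G a ∧ p.2 ∈ Q ∧ g = p.1 * t * p.2 := by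
  obtain ⟨hcardΩ, hfin⟩ := Cfsg.Agent.Lib.Helper2.RankOne.card_eq hS
  haveI := hfin
  haveI := Cfsg.Agent.Lib.Helper2.RankOne.pretrans hS
  have : Fact (Nat.Prime 2) := ⟨Nat.prime_two⟩
  have hGa : Nat.card (MulAction.stabilizer G a) = Nat.card Q * Nat.card ↥(MulAction.stabilizer G a ⊓ MulAction.stabilizer G (t • a)) := by
    rw [← Nat.card_prod]
    symm
    apply Nat.card_congr
    refine Equiv.ofBijective (fun p : ↥Q × ↥(MulAction.stabilizer G a ⊓ MulAction.stabilizer G (t • a)) =>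
      (⟨(p.1 : G) * (p.2 : G), Subgroup.mul_mem _ (hS.le p.1.2) p.2.2.1⟩ :
        MulAction.stabilizer G a)) ⟨?_, ?_⟩
    · rintro ⟨⟨x, hx⟩, ⟨d, hd⟩⟩ ⟨⟨x', hx'⟩, ⟨d', hd'⟩⟩ h
      have h0 := Subtype.ext_iff.mp h
      have h1 : x * d = x' * d' := h0
      have h2 : x'⁻¹ * x = d' * d⁻¹ := by
        calc x'⁻¹ * x = x'⁻¹ * (x * d) * d⁻¹ := by group
          _ = x'⁻¹ * (x' * d') * d⁻¹ := by rw [h1]
          _ = d' * d⁻¹ := by group
      have h3 : x'⁻¹ * x ∈ Q := Q.mul_mem (Q.inv_mem hx') hx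
      have h3' : x'⁻¹ * x ∈ MulAction.stabilizer G (t • a) := by
        rw [h2]; exact (Subgroup.mul_mem _ hd' (Subgroup.inv_mem _ hd)).2
      have h4 : x'⁻¹ * x ∈ Q ⊓ MulAction.stabilizer G (t • a) := ⟨h3, h3'⟩
      rw [hS.inf_eq_bot, Subgroup.mem_bot] at h4
      have hxx : x = x' := by
        calc x = x' * (x'⁻¹ * x) := by group
          _ = x' := by rw [h4, mul_one]
      subst hxx
      have hdd : d = d' := mul_left_cancel h1
      subst hdd
      rfl
    · rintro ⟨g, hg⟩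
      obtain ⟨x, hx, d, hd, rfl⟩ := Cfsg.Agent.Lib.Helper2.RankOne.decomp hS hg
      exact ⟨(⟨x, hx⟩, ⟨d, hd⟩), rfl⟩
  have hG : Nat.card G = Nat.card Q * Nat.card ↥(MulAction.stabilizer G a ⊓ MulAction.stabilizer G (t • a)) * (Nat.card Q + 1) := by
    rw [← Subgroup.card_mul_index (MulAction.stabilizer G a),
      MulAction.index_stabilizer_of_transitive, hGa, hcardΩ]
  have hsyl : ∃ P : Sylow 2 G, (P : Subgroup G) ≤ Q := by
    obtain ⟨P0⟩ := (inferInstance : Nonempty (Sylow 2 ↥Q))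
    have hP0 : Nat.card P0 = 2 ^ (Nat.card Q).factorization 2 := Sylow.card_eq_multiplicity P0
    have hQ0 : Nat.card Q ≠ 0 := Nat.card_pos.ne'
    have hD0 : Nat.card ↥(MulAction.stabilizer G a ⊓ MulAction.stabilizer G (t • a)) ≠ 0 := Nat.card_pos.ne'
    have hDodd : ¬ 2 ∣ Nat.card ↥(MulAction.stabilizer G a ⊓ MulAction.stabilizer G (t • a)) := by
      have := hS.odd_card
      rw [← Nat.not_even_iff_odd, even_iff_two_dvd] at this; exact this
    have hQ1odd : ¬ 2 ∣ Nat.card Q + 1 := by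
      have := even_iff_two_dvd.mp hS.even_card; omega
    have hfac : (Nat.card G).factorization 2 = (Nat.card Q).factorization 2 := by
      rw [hG, Nat.factorization_mul (Nat.mul_ne_zero hQ0 hD0) (Nat.succ_ne_zero _),
        Nat.factorization_mul hQ0 hD0]
      simp only [Finsupp.add_apply]
      rw [Nat.factorization_eq_zero_of_not_dvd hDodd, Nat.factorization_eq_zero_of_not_dvd hQ1odd,
        add_zero, add_zero]
    have hPc : Nat.card ((P0 : Subgroup Q).map Q.subtype) = 2 ^ (Nat.card G).factorization 2 := by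
      rw [Subgroup.card_subtype, hfac]; exact hP0
    refine ⟨Sylow.ofCard _ hPc, ?_⟩
    rw [Sylow.coe_ofCard]
    exact Subgroup.map_subtype_le _
  refine ⟨fun b c hb hc => Cfsg.Agent.Lib.Helper2.RankOne.Q_unique hS hb hc, hcardΩ, hG, hsyl, ?_⟩
  intro g hg
  have hga : g⁻¹ • a ≠ a := by
    intro h
    apply hg
    show g • a = a
    calc g • a = g • (g⁻¹ • a) := by rw [h]
      _ = a := smul_inv_smul g a
  obtain ⟨y, hy, hyc⟩ := Cfsg.Agent.Lib.Helper2.RankOne.Q_trans hS hga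
  refine ⟨(g * y * t, y⁻¹), ⟨?_, Q.inv_mem hy, ?_⟩, ?_⟩
  · show (g * y * t) • a = a
    rw [mul_smul, mul_smul, hyc, smul_inv_smul]
  · show g = g * y * t * t * y⁻¹
    calc g = g * y * (t * t) * y⁻¹ := by rw [hS.mul_self]; group
      _ = _ := by group
  · rintro ⟨x', y'⟩ ⟨hx', hy', hgeq⟩
    have hgeq' : g = x' * t * y' := hgeq
    have hx'a : x'⁻¹ • a = a := Subgroup.inv_mem _ hx'
    have h1 : g⁻¹ • a = y'⁻¹ • t • a := by
      have e : g⁻¹ = y'⁻¹ * t⁻¹ * x'⁻¹ := by rw [hgeq']; group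
      rw [e, mul_smul, mul_smul, hx'a, Cfsg.Agent.Lib.Helper2.RankOne.t_inv hS]
    have h2 : (y' * y) • (t • a) = t • a := by
      rw [mul_smul, hyc, h1, smul_inv_smul]
    have h3 := Cfsg.Agent.Lib.Helper2.RankOne.Q_semireg hS (Q.mul_mem hy' hy) (Cfsg.Agent.Lib.Helper2.RankOne.ta_ne hS) h2
    have hy'eq : y' = y⁻¹ := eq_inv_of_mul_eq_one_left h3
    have hx'eq : x' = g * y * t := by
      rw [hgeq', hy'eq]
      calc x' = x' * (t * t) := by rw [hS.mul_self, mul_one]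
        _ = x' * t * y⁻¹ * y * t := by group
    rw [hx'eq, hy'eq]

end Cfsg.Agent.S1119
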