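import Mathlib
import Cfsg.Statements.S1120
import Cfsg.Agent.Lib.Helper2.RankOne
import Cfsg.Agent.Lib.Helper2.GenCoprime3
import Cfsg.Agent.Lib.Helper3.PPrimeCore

set_option autoImplicit false
open Cfsg

namespace Cfsg.Agent.S1120

/-- In the rank-one set-up (`G` finite and doubly transitive on `Ω`, `t` an involution moving `a`, `Q` normal in `G_a` with `G_a = Q D`, `Q ⊓ D = 1` for the two-point stabiliser `D = G_a ⊓ G_{t • a}`, `|Q|` even, `|D|` odd), if `G` has 2-rank at least 2 then `O_{2'}(G)` equals the normal core of `G_a`. -/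
theorem result {G Ω : Type*} [Group G] [Finite G] [MulAction G Ω] {a : Ω} {t : G} {Q : Subgroup G}
    (hS : Cfsg.IsRankOneSetup G Ω a t Q)
    (h2 : ∃ x y : G, x ≠ 1 ∧ y ≠ 1 ∧ x ≠ y ∧ x * x = 1 ∧ y * y = 1 ∧ x * y = y * x) :
    Cfsg.pPrimeCore 2 G = (MulAction.stabilizer G a).normalCore := by
  have hfix := Cfsg.Agent.Lib.Helper2.RankOne.invol_fix hS
  haveI := Cfsg.Agent.Lib.Helper2.RankOne.pretrans hS
  have : Fact (Nat.Prime 2) := ⟨Nat.prime_two⟩
  obtain ⟨x, y, hx1, hy1, hxy, hx2, hy2, hcomm⟩ := h2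
  have hOn : (Cfsg.pPrimeCore 2 G).Normal := Cfsg.Agent.Lib.Helper3.pPrimeCore_normal 2 G
  have hxo := Cfsg.Agent.Lib.Helper2.orderOf_eq_two_of hx1 hx2
  obtain ⟨c, hc, hcu⟩ := hfix x hxo
  have hAcomm0 : ∀ w ∈ Subgroup.closure ({x, y} : Set G), w * x = x * w ∧ w * y = y * w := by
    intro w hw
    have h1 : Subgroup.closure ({x, y} : Set G) ≤ Subgroup.centralizer ({x, y} : Set G) := by
      rw [Subgroup.closure_le]
      intro z hz
      rw [SetLike.mem_coe, Subgroup.mem_centralizer_iff]
      intro h hh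
      rcases hz with rfl | rfl
      · rcases hh with rfl | rfl
        · rfl
        · exact hcomm.symm
      · rcases hh with rfl | rfl
        · exact hcomm
        · rfl
    have h2 := Subgroup.mem_centralizer_iff.mp (h1 hw)
    exact ⟨(h2 x (Set.mem_insert _ _)).symm, (h2 y (Set.mem_insert_of_mem _ rfl)).symm⟩
  have hAc : ∀ u ∈ Subgroup.closure ({x, y} : Set G), ∀ v ∈ Subgroup.closure ({x, y} : Set G),
      u * v = v * u := by
    intro u hu v hv
    have h1 : Subgroup.closure ({x, y} : Set G) ≤ Subgroup.centralizer ({u} : Set G) := by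
      rw [Subgroup.closure_le]
      intro z hz
      rw [SetLike.mem_coe, Subgroup.mem_centralizer_iff]
      intro h hh
      rw [Set.mem_singleton_iff] at hh
      subst hh
      rcases hz with rfl | rfl
      · exact (hAcomm0 h hu).1
      · exact (hAcomm0 h hu).2
    exact Subgroup.mem_centralizer_iff.mp (h1 hv) u rfl
  have hAp : ∀ u ∈ Subgroup.closure ({x, y} : Set G), u ^ 2 = 1 := by
    intro u hu
    refine Subgroup.closure_induction (p := fun u _ => u ^ 2 = 1) ?_ ?_ ?_ ?_ hu
    · intro z hz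
      rcases hz with rfl | rfl
      · rw [pow_two, hx2]
      · rw [pow_two, hy2]
    · exact one_pow 2
    · intro u v hu hv hu2 hv2
      rw [(show Commute u v from hAc u hu v hv).mul_pow 2, hu2, hv2, one_mul]
    · intro u hu hu2
      rw [inv_pow, hu2, inv_one]
  have hxA : x ∈ Subgroup.closure ({x, y} : Set G) := Subgroup.subset_closure (Set.mem_insert _ _)
  have hyA : y ∈ Subgroup.closure ({x, y} : Set G) :=
    Subgroup.subset_closure (Set.mem_insert_of_mem _ rfl)
  have hOodd : ¬ 2 ∣ Nat.card ↥(Cfsg.pPrimeCore 2 G) := by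
    have h := Cfsg.Agent.Lib.Helper3.pPrimeCore_coprime Nat.prime_two G
    intro hd
    have h3 : (2 : ℕ) ∣ Nat.gcd (Nat.card ↥(Cfsg.pPrimeCore 2 G)) 2 := Nat.dvd_gcd hd dvd_rfl
    rw [Nat.Coprime] at h
    rw [h] at h3
    omega
  have hOc : Cfsg.pPrimeCore 2 G ≤ MulAction.stabilizer G c := by
    apply Cfsg.Agent.Lib.Helper2.gen_coprime 2 (Subgroup.closure ({x, y} : Set G)) _ _ hAc hAp hOodd
    · rw [Subgroup.normalizer_eq_top]; exact le_top
    · rintro B hBA ⟨x', hx'A, hAB⟩
      have hx'2 := hAp x' hx'A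
      have hz : ∀ w ∈ Subgroup.zpowers x', w = 1 ∨ w = x' := by
        intro w hw
        obtain ⟨k, rfl⟩ := Subgroup.mem_zpowers_iff.mp hw
        obtain ⟨m, hm | hm⟩ := Int.even_or_odd' k
        · left; rw [hm, zpow_mul, zpow_two, ← pow_two, hx'2, one_zpow]
        · right; rw [hm, zpow_add, zpow_mul, zpow_two, ← pow_two, hx'2, one_zpow, one_mul, zpow_one]
      have hB : ∃ v ∈ B, v ≠ 1 := by
        by_contra hB
        push Not at hB
        have hBbot : B = ⊥ := (Subgroup.eq_bot_iff_forall B).mpr hB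
        rw [hBbot, bot_sup_eq] at hAB
        have e1 : x = x' := (hz x (hAB hxA)).resolve_left hx1
        have e2 : y = x' := (hz y (hAB hyA)).resolve_left hy1
        exact hxy (e1.trans e2.symm)
      obtain ⟨v, hvB, hv1⟩ := hB
      have hvA := hBA hvB
      have hv2 : v * v = 1 := by rw [← pow_two]; exact hAp v hvA
      have hvo := Cfsg.Agent.Lib.Helper2.orderOf_eq_two_of hv1 hv2
      have hvx : v * x = x * v := hAc v hvA x hxA
      have hvc : v • c = c := by
        apply hcu
        rw [smul_smul, ← hvx, mul_smul, hc]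
      intro o ho
      have hov : v * o = o * v := Subgroup.mem_centralizer_iff.mp ho.2 v hvB
      have h1 : v • (o • c) = o • c := by
        rw [smul_smul, hov, mul_smul, hvc]
      exact (hfix v hvo).unique h1 hvc
  apply le_antisymm
  · rw [Subgroup.normal_le_normalCore]
    obtain ⟨g, hg⟩ := MulAction.exists_smul_eq G c a
    intro o ho
    have h1 : (g⁻¹ * o * g⁻¹⁻¹) • c = c := hOc (hOn.conj_mem o ho g⁻¹)
    rw [inv_inv, mul_smul, mul_smul, inv_smul_eq_iff, hg] at h1
    exact h1
  · apply Cfsg.Agent.Lib.Helper3.le_pPrimeCore (Subgroup.normalCore_normal _)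
    have hle : (MulAction.stabilizer G a).normalCore ≤ (MulAction.stabilizer G a ⊓ MulAction.stabilizer G (t • a)) := by
      intro n hn
      have h1 : n ∈ MulAction.stabilizer G a := Subgroup.normalCore_le _ hn
      have h2 : (t⁻¹ * n * t⁻¹⁻¹) • a = a :=
        Subgroup.normalCore_le _ ((Subgroup.normalCore_normal _).conj_mem n hn t⁻¹)
      rw [inv_inv, mul_smul, mul_smul, inv_smul_eq_iff] at h2
      exact ⟨h1, h2⟩
    have hodd : Odd (Nat.card ↥(MulAction.stabilizer G a).normalCore) :=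
      Odd.of_dvd_nat hS.odd_card (Subgroup.card_dvd_of_le hle)
    exact Nat.coprime_two_right.mpr hodd

end Cfsg.Agent.S1120
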