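import Mathlib
import Cfsg.Statements.S1121
import Cfsg.Agent.Lib.Helper2.RankOne

set_option autoImplicit false
open Cfsg

namespace Cfsg.Agent.S1121

/-- In the rank-one set-up (`G` finite and doubly transitive on `Ω`, `t` an involution moving `a`, `Q` normal in `G_a` with `G_a = Q D`, `Q ⊓ D = 1` for the two-point stabiliser `D = G_a ⊓ G_{t • a}`, `|Q|` even, `|D|` odd): if `s` is an involution of `G_a` and `u` an involution outside `G_a`, then `s u` has odd order; and any two involutions of `G` are conjugate. -/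
theorem result {G Ω : Type*} [Group G] [Finite G] [MulAction G Ω] {a : Ω} {t : G} {Q : Subgroup G}
    (hS : Cfsg.IsRankOneSetup G Ω a t Q) :
    (∀ s u : G, s ∈ MulAction.stabilizer G a → s ≠ 1 → s * s = 1 → u ∉ MulAction.stabilizer G a → u ≠ 1 → u * u = 1 → Odd (orderOf (s * u))) ∧
      ∀ u v : G, u ≠ 1 → u * u = 1 → v ≠ 1 → v * v = 1 → ∃ g : G, g * u * g⁻¹ = v := by
  have hfix := Cfsg.Agent.Lib.Helper2.RankOne.invol_fix hS
  haveI := Cfsg.Agent.Lib.Helper2.RankOne.pretrans hS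
  constructor
  · intro s u hsa hs1 hs2 hua hu1 hu2
    have hs := Cfsg.Agent.Lib.Helper2.orderOf_eq_two_of hs1 hs2
    have hu := Cfsg.Agent.Lib.Helper2.orderOf_eq_two_of hu1 hu2
    obtain ⟨y, hy, -⟩ := hfix u hu
    have hay : a ≠ y := by
      intro h; apply hua; show u • a = a; rw [h]; exact hy
    exact Cfsg.Agent.Lib.Helper2.invol_prod_odd hfix hs hu (show s • a = a from hsa) hy hay
  · intro u v hu1 hu2 hv1 hv2
    have hu := Cfsg.Agent.Lib.Helper2.orderOf_eq_two_of hu1 hu2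
    have hv := Cfsg.Agent.Lib.Helper2.orderOf_eq_two_of hv1 hv2
    obtain ⟨x, hx, -⟩ := hfix u hu
    obtain ⟨y, hy, -⟩ := hfix v hv
    by_cases hxy : x = y
    · subst hxy
      obtain ⟨z, hz⟩ : ∃ z : Ω, z ≠ x := by
        by_cases h : x = a
        · exact ⟨t • a, by rw [h]; exact Cfsg.Agent.Lib.Helper2.RankOne.ta_ne hS⟩
        · exact ⟨a, fun h' => h h'.symm⟩
      obtain ⟨g, hg⟩ := MulAction.exists_smul_eq G x z
      have hu' := Cfsg.Agent.Lib.Helper2.orderOf_conj_two g hu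
      have hu'z : (g * u * g⁻¹) • z = z := by
        rw [← hg, mul_smul, mul_smul, inv_smul_smul, hx]
      obtain ⟨w, hw, hws, -⟩ := Cfsg.Agent.Lib.Helper2.exists_invol_conj hfix hv hu' hy hu'z hz.symm
      refine ⟨w⁻¹ * g, ?_⟩
      calc w⁻¹ * g * u * (w⁻¹ * g)⁻¹ = w⁻¹ * (g * u * g⁻¹) * w := by group
        _ = w⁻¹ * (w * v * w⁻¹) * w := by rw [hws]
        _ = v := by group
    · obtain ⟨w, hw, hws, -⟩ := Cfsg.Agent.Lib.Helper2.exists_invol_conj hfix hu hv hx hy hxy
      exact ⟨w, hws⟩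

end Cfsg.Agent.S1121
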