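import Mathlib
import Cfsg.Statements.S1124
import Cfsg.Agent.Lib.Lead.CoprimeAction2
import Cfsg.Agent.Lib.Lead.SylowAux

set_option autoImplicit false
open scoped Pointwise
open Cfsg

namespace Cfsg.Agent.S1124

/-- Let `t` be an element of order 2 of a finite group normalising a subgroup `X` of odd order, `Y = C_X(t)` and `Z` the set of elements of `X` inverted by `t`. Then `(y, z) ↦ y z` is a bijection `Y × Z → X`, so `|X| = |Y| |Z|`, and the subgroup generated by `Z` is normal in `X`. -/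
theorem result {M : Type*} [Group M] [Finite M]
    (t : M) (ht : orderOf t = 2) (X : Subgroup M) (hodd : Odd (Nat.card X))
    (hnorm : ∀ x ∈ X, t * x * t⁻¹ ∈ X) :
    (∀ x ∈ X, ∃! p : M × M, p.1 ∈ X ⊓ Subgroup.centralizer {t} ∧ p.2 ∈ Cfsg.invertedBy X t ∧ x = p.1 * p.2) ∧
      Nat.card X = Nat.card ↥(X ⊓ Subgroup.centralizer {t}) * Nat.card (Cfsg.invertedBy X t) ∧
      ∀ x ∈ X, MulAut.conj x • Subgroup.closure (Cfsg.invertedBy X t) = Subgroup.closure (Cfsg.invertedBy X t) := by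
  classical
  obtain ⟨k, hk⟩ := hodd
  have ht2 : t * t = 1 := by
    have h0 := pow_orderOf_eq_one t
    rw [ht, pow_two] at h0; exact h0
  have htinv : t⁻¹ = t := inv_eq_of_mul_eq_one_left ht2
  have hXpow : ∀ a ∈ X, a ^ (2 * k + 1) = 1 := by
    intro a ha
    have h1 : (⟨a, ha⟩ : X) ^ Nat.card X = 1 := pow_card_eq_one'
    rw [hk] at h1
    exact congrArg Subtype.val h1
  have hsqrt : ∀ a ∈ X, (a * a) ^ (k + 1) = a := by
    intro a ha
    have h0 : (a * a) ^ (k + 1) = a ^ (2 * k + 1) * a := by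
      rw [← pow_two, ← pow_mul, ← pow_succ]; congr 1
    rw [h0, hXpow a ha, one_mul]
  have hcent : ∀ y ∈ X ⊓ Subgroup.centralizer {t}, t * y * t⁻¹ = y := by
    intro y hy
    have h0 := Subgroup.mem_centralizer_iff.mp hy.2 t (Set.mem_singleton t)
    rw [h0]; group
  have hzz : ∀ y ∈ X ⊓ Subgroup.centralizer {t}, ∀ z ∈ Cfsg.invertedBy X t,
      (t * (y * z) * t⁻¹)⁻¹ * (y * z) = z * z := by
    intro y hy z hz
    have h1 : t * (y * z) * t⁻¹ = (t * y * t⁻¹) * (t * z * t⁻¹) := by group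
    rw [h1, hcent y hy, hz.2]; group
  have huniq : ∀ y ∈ X ⊓ Subgroup.centralizer {t}, ∀ z ∈ Cfsg.invertedBy X t,
      ∀ y' ∈ X ⊓ Subgroup.centralizer {t}, ∀ z' ∈ Cfsg.invertedBy X t,
      y * z = y' * z' → y = y' ∧ z = z' := by
    intro y hy z hz y' hy' z' hz' heq
    have h1 := hzz y hy z hz
    have h2 := hzz y' hy' z' hz'
    rw [heq, h2] at h1
    have h3 : z = z' := by
      rw [← hsqrt z hz.1, ← hsqrt z' hz'.1, h1]
    refine ⟨?_, h3⟩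
    rw [h3] at heq
    exact mul_right_cancel heq
  have hex : ∀ x ∈ X, ∃ y z : M, y ∈ X ⊓ Subgroup.centralizer {t} ∧ z ∈ Cfsg.invertedBy X t ∧
      x = y * z := by
    intro x hx
    have huX : t * x⁻¹ * t⁻¹ * x ∈ X := X.mul_mem (hnorm _ (X.inv_mem hx)) hx
    have huinv : t * (t * x⁻¹ * t⁻¹ * x) * t⁻¹ = (t * x⁻¹ * t⁻¹ * x)⁻¹ := by
      rw [htinv]
      have e1 : t * (t * x⁻¹ * t * x) * t = (t * t) * x⁻¹ * t * x * t := by group
      rw [e1, ht2]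
      have e2 : (t * x⁻¹ * t * x)⁻¹ = x⁻¹ * t⁻¹ * x * t⁻¹ := by group
      rw [e2, htinv]; group
    have hzX : (t * x⁻¹ * t⁻¹ * x) ^ (k + 1) ∈ X := X.pow_mem huX _
    have hzinv : t * (t * x⁻¹ * t⁻¹ * x) ^ (k + 1) * t⁻¹ = ((t * x⁻¹ * t⁻¹ * x) ^ (k + 1))⁻¹ := by
      rw [← conj_pow, huinv, inv_pow]
    have hzsq : (t * x⁻¹ * t⁻¹ * x) ^ (k + 1) * (t * x⁻¹ * t⁻¹ * x) ^ (k + 1) = t * x⁻¹ * t⁻¹ * x := by
      rw [← pow_add]
      have e3 : k + 1 + (k + 1) = (2 * k + 1) + 1 := by ring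
      rw [e3, pow_succ, hXpow _ huX, one_mul]
    refine ⟨x * ((t * x⁻¹ * t⁻¹ * x) ^ (k + 1))⁻¹, (t * x⁻¹ * t⁻¹ * x) ^ (k + 1), ?_, ⟨hzX, hzinv⟩, by group⟩
    have hyX : x * ((t * x⁻¹ * t⁻¹ * x) ^ (k + 1))⁻¹ ∈ X := X.mul_mem hx (X.inv_mem hzX)
    have hcen : x * ((t * x⁻¹ * t⁻¹ * x) ^ (k + 1))⁻¹ ∈ Subgroup.centralizer {t} := by
      rw [Subgroup.mem_centralizer_iff]
      intro h hh
      rw [Set.mem_singleton_iff] at hh
      rw [hh]
      generalize hzdef : (t * x⁻¹ * t⁻¹ * x) ^ (k + 1) = z at hzinv hzsq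
      have e1 : t * z⁻¹ * t⁻¹ = z := by
        have e0 : t * z⁻¹ * t⁻¹ = (t * z * t⁻¹)⁻¹ := by group
        rw [e0, hzinv, inv_inv]
      have e2 : t * x * t⁻¹ = x * (t * x⁻¹ * t⁻¹ * x)⁻¹ := by group
      calc t * (x * z⁻¹) = (t * x * t⁻¹) * (t * z⁻¹ * t⁻¹) * t := by group
        _ = x * (t * x⁻¹ * t⁻¹ * x)⁻¹ * z * t := by rw [e1, e2]
        _ = x * (z * z)⁻¹ * z * t := by rw [hzsq]
        _ = x * z⁻¹ * t := by group
    exact ⟨hyX, hcen⟩
  refine ⟨?_, ?_, ?_⟩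
  · intro x hx
    obtain ⟨y, z, hy, hz, hxyz⟩ := hex x hx
    refine ⟨(y, z), ⟨hy, hz, hxyz⟩, ?_⟩
    rintro ⟨y', z'⟩ ⟨hy', hz', hx'⟩
    have h1 := huniq y' hy' z' hz' y hy z hz (by rw [← hx', ← hxyz])
    exact Prod.ext h1.1 h1.2
  · have hbij : Function.Bijective (fun p : ↥(X ⊓ Subgroup.centralizer {t}) × ↥(Cfsg.invertedBy X t) =>
        (⟨p.1.1 * p.2.1, X.mul_mem p.1.2.1 p.2.2.1⟩ : ↥X)) := by
      constructor
      · rintro ⟨⟨y, hy⟩, ⟨z, hz⟩⟩ ⟨⟨y', hy'⟩, ⟨z', hz'⟩⟩ heq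
        have heq' : y * z = y' * z' := congrArg Subtype.val heq
        have h1 := huniq y hy z hz y' hy' z' hz' heq'
        obtain ⟨rfl, rfl⟩ := h1
        rfl
      · rintro ⟨x, hx⟩
        obtain ⟨y, z, hy, hz, hxyz⟩ := hex x hx
        exact ⟨(⟨y, hy⟩, ⟨z, hz⟩), Subtype.ext hxyz.symm⟩
    rw [← Nat.card_prod]
    exact (Nat.card_congr (Equiv.ofBijective _ hbij)).symm
  · have hconjC : ∀ y ∈ X ⊓ Subgroup.centralizer {t}, ∀ w ∈ Subgroup.closure (Cfsg.invertedBy X t),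
        y * w * y⁻¹ ∈ Subgroup.closure (Cfsg.invertedBy X t) := by
      intro y hy
      apply Cfsg.Agent.Lib.Lead.conj_mem_closure
      intro z hz
      apply Subgroup.subset_closure
      refine ⟨X.mul_mem (X.mul_mem hy.1 hz.1) (X.inv_mem hy.1), ?_⟩
      have h1 : t * (y * z * y⁻¹) * t⁻¹ = (t * y * t⁻¹) * (t * z * t⁻¹) * (t * y * t⁻¹)⁻¹ := by group
      rw [h1, hcent y hy, hz.2]; group
    have hconj : ∀ x ∈ X, ∀ w ∈ Subgroup.closure (Cfsg.invertedBy X t),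
        x * w * x⁻¹ ∈ Subgroup.closure (Cfsg.invertedBy X t) := by
      intro x hx w hw
      obtain ⟨y, z, hy, hz, hxyz⟩ := hex x hx
      have hzc : z ∈ Subgroup.closure (Cfsg.invertedBy X t) := Subgroup.subset_closure hz
      have h1 : x * w * x⁻¹ = y * (z * w * z⁻¹) * y⁻¹ := by rw [hxyz]; group
      rw [h1]
      exact hconjC y hy _ (Subgroup.mul_mem _ (Subgroup.mul_mem _ hzc hw) (Subgroup.inv_mem _ hzc))
    intro x hx
    ext w
    rw [Cfsg.Agent.Lib.Lead.mem_conj_smul]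
    constructor
    · intro hw
      have h1 := hconj x hx _ hw
      have h2 : x * (x⁻¹ * w * x) * x⁻¹ = w := by group
      rw [h2] at h1; exact h1
    · intro hw
      have h1 := hconj x⁻¹ (X.inv_mem hx) _ hw
      rw [inv_inv] at h1; exact h1

end Cfsg.Agent.S1124
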