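import Mathlib
import Cfsg.Statements.S1125
import Cfsg.Agent.Lib.Helper2.RankOne4

set_option autoImplicit false
open Cfsg

namespace Cfsg.Agent.S1125

/-- In the rank-one set-up (`G` finite and doubly transitive on `Ω`, `t` an involution moving `a`, `Q` normal in `G_a` with `G_a = Q D`, `Q ⊓ D = 1` for the two-point stabiliser `D = G_a ⊓ G_{t • a}`, `|Q|` even, `|D|` odd), let `X ⊆ D` fix at least three points of `Ω`. Then `C_G(X)` is doubly transitive on the fixed-point set of `X`, `|C_Q(X)|` is even, and `C_{G_a}(X) = C_Q(X) C_D(X)`. -/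
theorem result {G Ω : Type*} [Group G] [Finite G] [MulAction G Ω] {a : Ω} {t : G} {Q : Subgroup G}
    (hS : Cfsg.IsRankOneSetup G Ω a t Q)
    (X : Set G) (hX : X ⊆ ((MulAction.stabilizer G a ⊓ MulAction.stabilizer G (t • a)) : Set G))
    (h3 : ∃ b c d : Ω, b ≠ c ∧ b ≠ d ∧ c ≠ d ∧ ∀ x ∈ X, x • b = b ∧ x • c = c ∧ x • d = d) :
    (∀ b₁ b₂ c₁ c₂ : Ω, (∀ x ∈ X, x • b₁ = b₁ ∧ x • b₂ = b₂ ∧ x • c₁ = c₁ ∧ x • c₂ = c₂) →
        b₁ ≠ b₂ → c₁ ≠ c₂ → ∃ g ∈ Subgroup.centralizer X, g • b₁ = c₁ ∧ g • b₂ = c₂) ∧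
      Even (Nat.card ↥(Subgroup.centralizer X ⊓ Q)) ∧
      (Subgroup.centralizer X ⊓ Q) ⊔ (Subgroup.centralizer X ⊓ (MulAction.stabilizer G a ⊓ MulAction.stabilizer G (t • a))) = Subgroup.centralizer X ⊓ MulAction.stabilizer G a := by
  obtain ⟨b, c, d, hbc, hbd, hcd, hfix3⟩ := h3
  have hpre := Cfsg.Agent.Lib.Helper2.RankOne.pretrans hS
  have hfix := Cfsg.Agent.Lib.Helper2.RankOne.invol_fix hS
  have hFa : ∀ x ∈ X, x • a = a := fun x hx => (hX hx).1
  have hFta : ∀ x ∈ X, x • (t • a) = t • a := fun x hx => (hX hx).2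
  have L1 : ∀ e b c : Ω, (∀ x ∈ X, x • e = e) → b ≠ e → c ≠ e → (∀ x ∈ X, x • b = b) →
      (∀ x ∈ X, x • c = c) → ∃ g ∈ Subgroup.centralizer X, g • e = e ∧ g • b = c := by
    intro e b c hXe hb hc hXb hXc
    obtain ⟨g0, rfl⟩ := MulAction.exists_smul_eq G a e
    obtain ⟨q, hq, hcent, hqb⟩ := Cfsg.Agent.Lib.Helper2.RankOne.cent_trans hS hXe hb hc hXb hXc
    refine ⟨_, hcent, ?_, hqb⟩
    rw [mul_smul, mul_smul, inv_smul_smul, Cfsg.Agent.Lib.Helper2.RankOne.Q_mem_stab hS hq]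
  have part1 : ∀ b₁ b₂ c₁ c₂ : Ω,
      (∀ x ∈ X, x • b₁ = b₁ ∧ x • b₂ = b₂ ∧ x • c₁ = c₁ ∧ x • c₂ = c₂) →
      b₁ ≠ b₂ → c₁ ≠ c₂ → ∃ g ∈ Subgroup.centralizer X, g • b₁ = c₁ ∧ g • b₂ = c₂ := by
    intro b₁ b₂ c₁ c₂ hF hb hc
    have step1 : ∃ g1 ∈ Subgroup.centralizer X, g1 • b₁ = c₁ := by
      by_cases h : b₁ = c₁
      · exact ⟨1, Subgroup.one_mem _, by rw [one_smul, h]⟩
      · have he : ∃ e : Ω, (∀ x ∈ X, x • e = e) ∧ b₁ ≠ e ∧ c₁ ≠ e := by
          by_contra hcon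
          push Not at hcon
          have hb' := hcon b (fun x hx => (hfix3 x hx).1)
          have hc' := hcon c (fun x hx => (hfix3 x hx).2.1)
          have hd' := hcon d (fun x hx => (hfix3 x hx).2.2)
          by_cases e1 : b₁ = b
          · have e2 : c₁ = c := hc' (by rw [e1]; exact hbc)
            have e3 : c₁ = d := hd' (by rw [e1]; exact hbd)
            exact hcd (e2.symm.trans e3)
          · have e2 : c₁ = b := hb' e1
            by_cases e3 : b₁ = c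
            · have e4 : c₁ = d := hd' (by rw [e3]; exact hcd)
              exact hbd (e2.symm.trans e4)
            · have e4 : c₁ = c := hc' e3
              exact hbc (e2.symm.trans e4)
        obtain ⟨e, hXe, hb₁e, hc₁e⟩ := he
        obtain ⟨g1, hg1, -, hg1b⟩ := L1 e b₁ c₁ hXe hb₁e hc₁e (fun x hx => (hF x hx).1)
          (fun x hx => (hF x hx).2.2.1)
        exact ⟨g1, hg1, hg1b⟩
    obtain ⟨g1, hg1, hg1b⟩ := step1
    have hb2'F : ∀ x ∈ X, x • (g1 • b₂) = g1 • b₂ := by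
      intro x hx
      have hcomm : x * g1 = g1 * x := Subgroup.mem_centralizer_iff.mp hg1 x hx
      rw [smul_smul, hcomm, mul_smul, (hF x hx).2.1]
    have hb2'ne : g1 • b₂ ≠ c₁ := by
      intro h
      rw [← hg1b] at h
      exact hb (smul_left_cancel g1 h).symm
    obtain ⟨g2, hg2, hg2c, hg2b⟩ := L1 c₁ (g1 • b₂) c₂ (fun x hx => (hF x hx).2.2.1) hb2'ne
      hc.symm hb2'F (fun x hx => (hF x hx).2.2.2)
    refine ⟨g2 * g1, Subgroup.mul_mem _ hg2 hg1, ?_, ?_⟩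
    · rw [mul_smul, hg1b, hg2c]
    · rw [mul_smul, hg2b]
  have part2 : Even (Nat.card ↥(Subgroup.centralizer X ⊓ Q)) := by
    obtain ⟨g, hg, hga, hgta⟩ := part1 a (t • a) (t • a) a
      (fun x hx => ⟨hFa x hx, hFta x hx, hFta x hx, hFa x hx⟩) (Cfsg.Agent.Lib.Helper2.RankOne.ta_ne hS).symm (Cfsg.Agent.Lib.Helper2.RankOne.ta_ne hS)
    have heven : Even (orderOf g) := by
      rw [← Nat.not_odd_iff_even]
      exact Cfsg.Agent.Lib.Helper2.even_orderOf_of_swap (Cfsg.Agent.Lib.Helper2.RankOne.ta_ne hS).symm hga hgta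
    obtain ⟨k, hi⟩ := Cfsg.Agent.Lib.Helper2.exists_pow_invol heven (orderOf_pos g)
    have hiC : g ^ k ∈ Subgroup.centralizer X := Subgroup.pow_mem _ hg _
    obtain ⟨p, hp, hpu⟩ := hfix (g ^ k) hi
    have hpF : ∀ x ∈ X, x • p = p := by
      intro x hx
      apply hpu
      have hcomm : x * g ^ k = g ^ k * x := Subgroup.mem_centralizer_iff.mp hiC x hx
      rw [smul_smul, ← hcomm, mul_smul, hp]
    obtain ⟨h, hh, hhp⟩ : ∃ h ∈ Subgroup.centralizer X, h • p = a := by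
      by_cases hpa : p = a
      · exact ⟨1, Subgroup.one_mem _, by rw [one_smul, hpa]⟩
      · obtain ⟨h, hh, h1, -⟩ := part1 p a a p
          (fun x hx => ⟨hpF x hx, hFa x hx, hFa x hx, hpF x hx⟩) hpa (Ne.symm hpa)
        exact ⟨h, hh, h1⟩
    have hi' := Cfsg.Agent.Lib.Helper2.orderOf_conj_two h hi
    have hi'C : h * g ^ k * h⁻¹ ∈ Subgroup.centralizer X :=
      Subgroup.mul_mem _ (Subgroup.mul_mem _ hh hiC) (Subgroup.inv_mem _ hh)
    have hi'a : h * g ^ k * h⁻¹ ∈ MulAction.stabilizer G a := by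
      show (h * g ^ k * h⁻¹) • a = a
      rw [← hhp, mul_smul, mul_smul, inv_smul_smul, hp]
    have hi'Q := Cfsg.Agent.Lib.Helper2.RankOne.invol_mem_Q hS hi'a (Cfsg.Agent.Lib.Helper2.invol_mul_self hi')
    have hmem : h * g ^ k * h⁻¹ ∈ Subgroup.centralizer X ⊓ Q := ⟨hi'C, hi'Q⟩
    have hdvd := orderOf_dvd_natCard (⟨h * g ^ k * h⁻¹, hmem⟩ : ↥(Subgroup.centralizer X ⊓ Q))
    rw [Subgroup.orderOf_mk, hi'] at hdvd
    exact even_iff_two_dvd.mpr hdvd
  refine ⟨part1, part2, ?_⟩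
  apply le_antisymm
  · apply sup_le
    · exact inf_le_inf_left _ hS.le
    · exact inf_le_inf_left _ inf_le_left
  · rintro g ⟨hgC, hga⟩
    have hga' : g • a = a := hga
    have hgC' := Subgroup.mem_centralizer_iff.mp hgC
    have hcF : ∀ x ∈ X, x • (g • (t • a)) = g • (t • a) := by
      intro x hx
      rw [smul_smul, hgC' x hx, mul_smul, hFta x hx]
    have hcne : g • (t • a) ≠ a := by
      intro h
      have h' : g • (t • a) = g • a := h.trans hga'.symm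
      exact Cfsg.Agent.Lib.Helper2.RankOne.ta_ne hS (smul_left_cancel g h')
    obtain ⟨q, hq, hqC, hqb⟩ := Cfsg.Agent.Lib.Helper2.RankOne.cent_trans_a hS hFa (Cfsg.Agent.Lib.Helper2.RankOne.ta_ne hS) hcne hFta hcF
    have m1 : q⁻¹ * g ∈ Subgroup.centralizer X :=
      Subgroup.mul_mem _ (Subgroup.inv_mem _ hqC) hgC
    have m2 : q⁻¹ * g ∈ MulAction.stabilizer G a :=
      Subgroup.mul_mem _ (Subgroup.inv_mem _ (hS.le hq)) hga
    have m3 : q⁻¹ * g ∈ MulAction.stabilizer G (t • a) := by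
      show (q⁻¹ * g) • (t • a) = t • a
      rw [mul_smul, ← hqb, inv_smul_smul]
    have hd : q⁻¹ * g ∈ Subgroup.centralizer X ⊓ (MulAction.stabilizer G a ⊓ MulAction.stabilizer G (t • a)) := ⟨m1, m2, m3⟩
    have hq' : q ∈ Subgroup.centralizer X ⊓ Q := ⟨hqC, hq⟩
    have e : g = q * (q⁻¹ * g) := by group
    rw [e]
    exact Subgroup.mul_mem_sup hq' hd

end Cfsg.Agent.S1125
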