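import Mathlib
import Cfsg.Statements.S1126
import Cfsg.Agent.Lib.Helper2.RankOne5
import Cfsg.Agent.S1125

set_option autoImplicit false
open Cfsg

namespace Cfsg.Agent.S1126

/-- In the rank-one set-up (`G` finite and doubly transitive on `Ω`, `t` an involution moving `a`, `Q` normal in `G_a` with `G_a = Q D`, `Q ⊓ D = 1` for the two-point stabiliser `D = G_a ⊓ G_{t • a}`, `|Q|` even, `|D|` odd), a subset `X ⊆ D` fixing at least three points of `Ω` is conjugate by an element of `D` into `V = C_D(t)`. -/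
theorem result {G Ω : Type*} [Group G] [Finite G] [MulAction G Ω] {a : Ω} {t : G} {Q : Subgroup G}
    (hS : Cfsg.IsRankOneSetup G Ω a t Q)
    (X : Set G) (hX : X ⊆ ((MulAction.stabilizer G a ⊓ MulAction.stabilizer G (t • a)) : Set G))
    (h3 : ∃ b c d : Ω, b ≠ c ∧ b ≠ d ∧ c ≠ d ∧ ∀ x ∈ X, x • b = b ∧ x • c = c ∧ x • d = d) :
    ∃ k ∈ (MulAction.stabilizer G a ⊓ MulAction.stabilizer G (t • a)), ∀ x ∈ X, (k * x * k⁻¹) * t = t * (k * x * k⁻¹) := by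
  have hfix := Cfsg.Agent.Lib.Helper2.RankOne.invol_fix hS
  have hFa : ∀ x ∈ X, x • a = a := fun x hx => (hX hx).1
  have hFta : ∀ x ∈ X, x • (t • a) = t • a := fun x hx => (hX hx).2
  have h2t := (Cfsg.Agent.S1125.result hS X hX h3).1
  obtain ⟨g, hg, hga, hgta⟩ := h2t a (t • a) (t • a) a
    (fun x hx => ⟨hFa x hx, hFta x hx, hFta x hx, hFa x hx⟩) (Cfsg.Agent.Lib.Helper2.RankOne.ta_ne hS).symm (Cfsg.Agent.Lib.Helper2.RankOne.ta_ne hS)
  have heven : Even (orderOf g) := by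
    rw [← Nat.not_odd_iff_even]
    exact Cfsg.Agent.Lib.Helper2.even_orderOf_of_swap (Cfsg.Agent.Lib.Helper2.RankOne.ta_ne hS).symm hga hgta
  obtain ⟨k, hi0⟩ := Cfsg.Agent.Lib.Helper2.exists_pow_invol heven (orderOf_pos g)
  have hiC0 : g ^ k ∈ Subgroup.centralizer X := Subgroup.pow_mem _ hg _
  obtain ⟨i, hi, hiC⟩ : ∃ i : G, orderOf i = 2 ∧ i ∈ Subgroup.centralizer X := ⟨_, hi0, hiC0⟩
  obtain ⟨p, hp, hpu⟩ := hfix i hi
  obtain ⟨e, heF, hep⟩ : ∃ e : Ω, (∀ x ∈ X, x • e = e) ∧ e ≠ p := by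
    by_cases h : a = p
    · exact ⟨t • a, hFta, by rw [← h]; exact Cfsg.Agent.Lib.Helper2.RankOne.ta_ne hS⟩
    · exact ⟨a, hFa, h⟩
  have hie : i • e ≠ e := fun h => hep (hpu e h)
  have hieF : ∀ x ∈ X, x • (i • e) = i • e := by
    intro x hx
    have hcomm : x * i = i * x := Subgroup.mem_centralizer_iff.mp hiC x hx
    rw [smul_smul, hcomm, mul_smul, heF x hx]
  obtain ⟨h, hh, hhe, hhie⟩ := h2t e (i • e) a (t • a)
    (fun x hx => ⟨heF x hx, hieF x hx, hFa x hx, hFta x hx⟩) hie.symm (Cfsg.Agent.Lib.Helper2.RankOne.ta_ne hS).symm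
  have hj := Cfsg.Agent.Lib.Helper2.orderOf_conj_two h hi
  have hjC : h * i * h⁻¹ ∈ Subgroup.centralizer X :=
    Subgroup.mul_mem _ (Subgroup.mul_mem _ hh hiC) (Subgroup.inv_mem _ hh)
  have hinv : h⁻¹ • a = e := by rw [← hhe, inv_smul_smul]
  have hja : (h * i * h⁻¹) • a = t • a := by
    rw [mul_smul, mul_smul, hinv, hhie]
  obtain ⟨k', hk', hkj⟩ := Cfsg.Agent.Lib.Helper2.RankOne.invol_swap_conj hS hj hja
  refine ⟨k', hk', ?_⟩
  intro x hx
  have hcomm : x * (h * i * h⁻¹) = (h * i * h⁻¹) * x := Subgroup.mem_centralizer_iff.mp hjC x hx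
  rw [← hkj]
  calc k' * x * k'⁻¹ * (k' * (h * i * h⁻¹) * k'⁻¹)
      = k' * (x * (h * i * h⁻¹)) * k'⁻¹ := by group
    _ = k' * ((h * i * h⁻¹) * x) * k'⁻¹ := by rw [hcomm]
    _ = k' * (h * i * h⁻¹) * k'⁻¹ * (k' * x * k'⁻¹) := by group

end Cfsg.Agent.S1126
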