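import Mathlib
import Cfsg.Statements.S1127
import Cfsg.Agent.Lib.Helper2.RankOne3

set_option autoImplicit false
open Cfsg

namespace Cfsg.Agent.S1127

/-- In the rank-one set-up (`G` finite and doubly transitive on `Ω`, `t` an involution moving `a`, `Q` normal in `G_a` with `G_a = Q D`, `Q ⊓ D = 1` for the two-point stabiliser `D = G_a ⊓ G_{t • a}`, `|Q|` even, `|D|` odd): if `s` is an involution of `G_a` and `r ∈ Q` satisfy `t s t = r⁻¹ t r`, then `C_D(t) = C_D(s)`; moreover `C_D(t) ⊓ C_D(K) = C_D(I ∩ G_a)`, where `K` is the set of elements of `D` inverted by `t` and `I ∩ G_a` the set of involutions of `G_a`. -/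
theorem result {G Ω : Type*} [Group G] [Finite G] [MulAction G Ω] {a : Ω} {t : G} {Q : Subgroup G}
    (hS : Cfsg.IsRankOneSetup G Ω a t Q) :
    (∀ s r : G, s ∈ Cfsg.involutionsIn (MulAction.stabilizer G a : Set G) → r ∈ Q → t * s * t = r⁻¹ * t * r →
        (MulAction.stabilizer G a ⊓ MulAction.stabilizer G (t • a)) ⊓ Subgroup.centralizer {t} = (MulAction.stabilizer G a ⊓ MulAction.stabilizer G (t • a)) ⊓ Subgroup.centralizer {s}) ∧
      (MulAction.stabilizer G a ⊓ MulAction.stabilizer G (t • a)) ⊓ Subgroup.centralizer {t} ⊓ Subgroup.centralizer (Cfsg.invertedBy (MulAction.stabilizer G a ⊓ MulAction.stabilizer G (t • a)) t) =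
        (MulAction.stabilizer G a ⊓ MulAction.stabilizer G (t • a)) ⊓ Subgroup.centralizer (Cfsg.involutionsIn (MulAction.stabilizer G a : Set G)) := by
  have hto := Cfsg.Agent.Lib.Helper2.orderOf_eq_two_of hS.ne_one hS.mul_self
  have part1 : ∀ s r : G, s ∈ Cfsg.involutionsIn (MulAction.stabilizer G a : Set G) → r ∈ Q →
      t * s * t = r⁻¹ * t * r →
      (MulAction.stabilizer G a ⊓ MulAction.stabilizer G (t • a)) ⊓ Subgroup.centralizer {t} = (MulAction.stabilizer G a ⊓ MulAction.stabilizer G (t • a)) ⊓ Subgroup.centralizer {s} := by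
    intro s r hs hr he
    obtain ⟨hso, hsa⟩ := Cfsg.Agent.Lib.Helper2.RankOne.mem_involutionsIn_iff.mp hs
    apply le_antisymm
    · rintro d ⟨hd, hc⟩
      have hdt : d * t = t * d := (Subgroup.mem_centralizer_iff.mp hc t rfl).symm
      have hds := Cfsg.Agent.Lib.Helper2.RankOne.comm_pair_of_comm_invol hS hto rfl hso hsa hr he hd hdt
      have m : d ∈ Subgroup.centralizer {s} := by
        rw [Subgroup.mem_centralizer_iff]
        intro h hh
        rw [Set.mem_singleton_iff.mp hh]
        exact hds.symm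
      exact ⟨hd, m⟩
    · rintro d ⟨hd, hc⟩
      have hds : d * s = s * d := (Subgroup.mem_centralizer_iff.mp hc s rfl).symm
      have hdt := Cfsg.Agent.Lib.Helper2.RankOne.comm_invol_of_comm_pair hS hto rfl hso hsa hr he hd hds
      have m : d ∈ Subgroup.centralizer {t} := by
        rw [Subgroup.mem_centralizer_iff]
        intro h hh
        rw [Set.mem_singleton_iff.mp hh]
        exact hdt.symm
      exact ⟨hd, m⟩
  refine ⟨part1, ?_⟩
  obtain ⟨s0, r0, hs0, hs0a, hr0, he0⟩ := Cfsg.Agent.Lib.Helper2.RankOne.pair_exists hS hto rfl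
  apply le_antisymm
  · rintro d ⟨⟨hd, hc⟩, hcK⟩
    have hdt : d * t = t * d := (Subgroup.mem_centralizer_iff.mp hc t rfl).symm
    have hds0 := Cfsg.Agent.Lib.Helper2.RankOne.comm_pair_of_comm_invol hS hto rfl hs0 hs0a hr0 he0 hd hdt
    refine ⟨hd, ?_⟩
    show d ∈ Subgroup.centralizer (Cfsg.involutionsIn (MulAction.stabilizer G a : Set G))
    rw [Subgroup.mem_centralizer_iff]
    intro s hs
    obtain ⟨k, hk, hks⟩ := (Cfsg.Agent.S1122.result hS).2 s0
      (Cfsg.Agent.Lib.Helper2.RankOne.mem_involutionsIn_iff.mpr ⟨hs0, hs0a⟩) s hs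
    have hdk : k * d = d * k := Subgroup.mem_centralizer_iff.mp hcK k hk
    rw [← hks]
    have hdk' : k⁻¹ * d = d * k⁻¹ := by
      calc k⁻¹ * d = k⁻¹ * (d * k) * k⁻¹ := by group
        _ = k⁻¹ * (k * d) * k⁻¹ := by rw [hdk]
        _ = d * k⁻¹ := by group
    calc k⁻¹ * s0 * k * d = k⁻¹ * s0 * (k * d) := by group
      _ = k⁻¹ * s0 * (d * k) := by rw [hdk]
      _ = k⁻¹ * (s0 * d) * k := by group
      _ = k⁻¹ * (d * s0) * k := by rw [hds0]
      _ = (k⁻¹ * d) * s0 * k := by group
      _ = (d * k⁻¹) * s0 * k := by rw [hdk']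
      _ = d * (k⁻¹ * s0 * k) := by group
  · rintro d ⟨hd, hcI⟩
    have hcI' := Subgroup.mem_centralizer_iff.mp hcI
    have hds0 : d * s0 = s0 * d := (hcI' s0 (Cfsg.Agent.Lib.Helper2.RankOne.mem_involutionsIn_iff.mpr ⟨hs0, hs0a⟩)).symm
    have hdt := Cfsg.Agent.Lib.Helper2.RankOne.comm_invol_of_comm_pair hS hto rfl hs0 hs0a hr0 he0 hd hds0
    have m1 : d ∈ Subgroup.centralizer {t} := by
      rw [Subgroup.mem_centralizer_iff]
      intro h hh
      rw [Set.mem_singleton_iff.mp hh]
      exact hdt.symm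
    have m2 : d ∈ Subgroup.centralizer (Cfsg.invertedBy (MulAction.stabilizer G a ⊓ MulAction.stabilizer G (t • a)) t) := by
      rw [Subgroup.mem_centralizer_iff]
      intro k hk
      obtain ⟨hjo, hja⟩ := Cfsg.Agent.Lib.Helper2.RankOne.invertedBy_mul hS hk
      obtain ⟨s, r, hs, hsa, hr, he⟩ := Cfsg.Agent.Lib.Helper2.RankOne.pair_exists hS hjo hja
      have hds : d * s = s * d := (hcI' s (Cfsg.Agent.Lib.Helper2.RankOne.mem_involutionsIn_iff.mpr ⟨hs, hsa⟩)).symm
      have hdj := Cfsg.Agent.Lib.Helper2.RankOne.comm_invol_of_comm_pair hS hjo hja hs hsa hr he hd hds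
      have h3 : t * (k * d) = t * (d * k) := by
        calc t * (k * d) = (t * k) * d := by group
          _ = d * (t * k) := hdj.symm
          _ = (d * t) * k := by group
          _ = (t * d) * k := by rw [hdt]
          _ = t * (d * k) := by group
      exact mul_left_cancel h3
    exact ⟨⟨hd, m1⟩, m2⟩

end Cfsg.Agent.S1127
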