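import Mathlib
import Cfsg.Statements.S1128
import Cfsg.Agent.Lib.Helper2.RankOne5
import Cfsg.Agent.S1126

set_option autoImplicit false
open Cfsg

namespace Cfsg.Agent.S1128

/-- In the rank-one set-up (`G` finite and doubly transitive on `Ω`, `t` an involution moving `a`, `Q` normal in `G_a` with `G_a = Q D`, `Q ⊓ D = 1` for the two-point stabiliser `D = G_a ⊓ G_{t • a}`, `|Q|` even, `|D|` odd), with the action faithful and `G` containing two distinct commuting involutions: every non-identity element of `D` inverted by `t` acts fixed-point-freely on `Q`. -/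
theorem result {G Ω : Type*} [Group G] [Finite G] [MulAction G Ω] [FaithfulSMul G Ω] {a : Ω} {t : G} {Q : Subgroup G}
    (hS : Cfsg.IsRankOneSetup G Ω a t Q)
    (h2 : ∃ x y : G, x ≠ 1 ∧ y ≠ 1 ∧ x ≠ y ∧ x * x = 1 ∧ y * y = 1 ∧ x * y = y * x)
    (x : G) (hx : x ∈ Cfsg.invertedBy (MulAction.stabilizer G a ⊓ MulAction.stabilizer G (t • a)) t) (hx1 : x ≠ 1) :
    Q ⊓ Subgroup.centralizer {x} = ⊥ := by
  obtain ⟨hxD, hxt⟩ := hx
  rw [Subgroup.eq_bot_iff_forall]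
  rintro q ⟨hqQ, hqC⟩
  by_contra hq1
  have hqx : x * q = q * x := Subgroup.mem_centralizer_iff.mp hqC x rfl
  have hxa : x • a = a := hxD.1
  have hxta : x • (t • a) = t • a := hxD.2
  have hX : ({x} : Set G) ⊆ ((MulAction.stabilizer G a ⊓ MulAction.stabilizer G (t • a)) : Set G) := by
    intro y hy
    rw [Set.mem_singleton_iff.mp hy]; exact hxD
  have h3 : ∃ b c d : Ω, b ≠ c ∧ b ≠ d ∧ c ≠ d ∧
      ∀ y ∈ ({x} : Set G), y • b = b ∧ y • c = c ∧ y • d = d := by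
    refine ⟨a, t • a, q • (t • a), (Cfsg.Agent.Lib.Helper2.RankOne.ta_ne hS).symm, ?_, ?_, ?_⟩
    · intro h
      have h' : q • a = q • (t • a) := by rw [Cfsg.Agent.Lib.Helper2.RankOne.Q_mem_stab hS hqQ]; exact h
      exact Cfsg.Agent.Lib.Helper2.RankOne.ta_ne hS (smul_left_cancel q h').symm
    · intro h
      exact hq1 (Cfsg.Agent.Lib.Helper2.RankOne.Q_semireg hS hqQ (Cfsg.Agent.Lib.Helper2.RankOne.ta_ne hS) h.symm)
    · intro y hy
      rw [Set.mem_singleton_iff.mp hy]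
      refine ⟨hxa, hxta, ?_⟩
      rw [smul_smul, hqx, mul_smul, hxta]
  obtain ⟨k, hk, hkc⟩ := Cfsg.Agent.S1126.result hS {x} hX h3
  have hkx := hkc x rfl
  have hto := Cfsg.Agent.Lib.Helper2.orderOf_eq_two_of hS.ne_one hS.mul_self
  have ht' := Cfsg.Agent.Lib.Helper2.RankOne.conj_invol_swap hS hto rfl hk
  have hy := (Cfsg.Agent.Lib.Helper2.RankOne.mul_mem_invertedBy hS ht'.1 ht'.2).1
  have hx'D : k * x * k⁻¹ ∈ (MulAction.stabilizer G a ⊓ MulAction.stabilizer G (t • a)) :=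
    Subgroup.mul_mem _ (Subgroup.mul_mem _ hk hxD) (Subgroup.inv_mem _ hk)
  have hinv : (t * (k * t * k⁻¹)) * (k * x * k⁻¹) * (t * (k * t * k⁻¹))⁻¹ = (k * x * k⁻¹)⁻¹ := by
    calc (t * (k * t * k⁻¹)) * (k * x * k⁻¹) * (t * (k * t * k⁻¹))⁻¹
        = t * (k * (t * x * t⁻¹) * k⁻¹) * t⁻¹ := by group
      _ = t * (k * x * k⁻¹)⁻¹ * t⁻¹ := by rw [hxt]; group
      _ = (t * (k * x * k⁻¹) * t⁻¹)⁻¹ := by group
      _ = ((k * x * k⁻¹) * t * t⁻¹)⁻¹ := by rw [← hkx]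
      _ = (k * x * k⁻¹)⁻¹ := by group
  obtain ⟨m, hm⟩ := Cfsg.Agent.Lib.Helper2.RankOne.D_odd_pow hS
  have h1 := Cfsg.Agent.Lib.Helper2.eq_one_of_odd_inverts (hm _ hy) (hm _ hx'D) hinv
  apply hx1
  calc x = k⁻¹ * (k * x * k⁻¹) * k := by group
    _ = 1 := by rw [h1]; group

end Cfsg.Agent.S1128
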