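import Mathlib
import Cfsg.Statements.S1134
import Cfsg.Agent.Lib.Helper2.RankOne6
import Cfsg.Agent.S1125

set_option autoImplicit false
open Cfsg

namespace Cfsg.Agent.S1134

/-- In the rank-one set-up (`G` finite and doubly transitive on `Ω`, `t` an involution moving `a`, `Q` normal in `G_a` with `G_a = Q D`, `Q ⊓ D = 1` for the two-point stabiliser `D = G_a ⊓ G_{t • a}`, `|Q|` even, `|D|` odd), with the action faithful and `G` containing two distinct commuting involutions, with `V = C_D(t)`: subsets of `V` conjugate in `G` are conjugate in `V`. -/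
theorem result {G Ω : Type*} [Group G] [Finite G] [MulAction G Ω] [FaithfulSMul G Ω] {a : Ω} {t : G} {Q : Subgroup G}
    (hS : Cfsg.IsRankOneSetup G Ω a t Q)
    (h2 : ∃ x y : G, x ≠ 1 ∧ y ≠ 1 ∧ x ≠ y ∧ x * x = 1 ∧ y * y = 1 ∧ x * y = y * x)
    (X : Set G) (hX : X ⊆ (((MulAction.stabilizer G a ⊓ MulAction.stabilizer G (t • a)) ⊓ Subgroup.centralizer {t} : Subgroup G) : Set G)) (g : G)
    (hY : (fun x => g * x * g⁻¹) '' X ⊆ (((MulAction.stabilizer G a ⊓ MulAction.stabilizer G (t • a)) ⊓ Subgroup.centralizer {t} : Subgroup G) : Set G)) :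
    ∃ v ∈ (MulAction.stabilizer G a ⊓ MulAction.stabilizer G (t • a)) ⊓ Subgroup.centralizer {t}, (fun x => v * x * v⁻¹) '' X = (fun x => g * x * g⁻¹) '' X := by
  have hfix := Cfsg.Agent.Lib.Helper2.RankOne.invol_fix hS
  have hto := Cfsg.Agent.Lib.Helper2.orderOf_eq_two_of hS.ne_one hS.mul_self
  obtain ⟨c, hc, hcu⟩ := hfix t hto
  have hca : c ≠ a := by
    intro h; rw [h] at hc; exact Cfsg.Agent.Lib.Helper2.RankOne.ta_ne hS hc
  have hcta : c ≠ t • a := by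
    intro h; rw [h] at hc
    exact Cfsg.Agent.Lib.Helper2.RankOne.ta_ne hS (smul_left_cancel t hc)
  have hXD : ∀ x ∈ X, x ∈ (MulAction.stabilizer G a ⊓ MulAction.stabilizer G (t • a)) := fun x hx => (hX hx).1
  have hXt : ∀ x ∈ X, x * t = t * x := fun x hx =>
    (Subgroup.mem_centralizer_iff.mp (hX hx).2 t rfl).symm
  have hXD' : X ⊆ ((MulAction.stabilizer G a ⊓ MulAction.stabilizer G (t • a)) : Set G) := fun x hx => hXD x hx
  have h3 : ∃ b c d : Ω, b ≠ c ∧ b ≠ d ∧ c ≠ d ∧ ∀ x ∈ X, x • b = b ∧ x • c = c ∧ x • d = d := by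
    refine ⟨a, t • a, c, (Cfsg.Agent.Lib.Helper2.RankOne.ta_ne hS).symm, hca.symm, hcta.symm, ?_⟩
    intro x hx
    refine ⟨(hXD x hx).1, (hXD x hx).2, ?_⟩
    apply hcu
    rw [smul_smul, ← hXt x hx, mul_smul, hc]
  have h2t := (Cfsg.Agent.S1125.result hS X hXD' h3).1
  have hYmem : ∀ x ∈ X, g * x * g⁻¹ ∈ (MulAction.stabilizer G a ⊓ MulAction.stabilizer G (t • a)) ⊓ Subgroup.centralizer {t} :=
    fun x hx => hY ⟨x, hx, rfl⟩
  have hF1 : ∀ x ∈ X, x • (g⁻¹ • a) = g⁻¹ • a := by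
    intro x hx
    have h : (g * x * g⁻¹) • a = a := (hYmem x hx).1.1
    rw [mul_smul, mul_smul] at h
    exact eq_inv_smul_iff.mpr h
  have hF2 : ∀ x ∈ X, x • (g⁻¹ • (t • a)) = g⁻¹ • (t • a) := by
    intro x hx
    have h : (g * x * g⁻¹) • (t • a) = t • a := (hYmem x hx).1.2
    rw [mul_smul, mul_smul] at h
    exact eq_inv_smul_iff.mpr h
  have hne : g⁻¹ • a ≠ g⁻¹ • (t • a) := fun h => Cfsg.Agent.Lib.Helper2.RankOne.ta_ne hS (smul_left_cancel g⁻¹ h).symm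
  obtain ⟨h, hh, hha, hhta⟩ := h2t (g⁻¹ • a) (g⁻¹ • (t • a)) a (t • a)
    (fun x hx => ⟨hF1 x hx, hF2 x hx, (hXD x hx).1, (hXD x hx).2⟩) hne (Cfsg.Agent.Lib.Helper2.RankOne.ta_ne hS).symm
  have hn : g * h⁻¹ ∈ (MulAction.stabilizer G a ⊓ MulAction.stabilizer G (t • a)) := by
    have e1 : h⁻¹ • a = g⁻¹ • a := inv_smul_eq_iff.mpr hha.symm
    have e2 : h⁻¹ • (t • a) = g⁻¹ • (t • a) := inv_smul_eq_iff.mpr hhta.symm
    have m1 : (g * h⁻¹) • a = a := by rw [mul_smul, e1, smul_inv_smul]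
    have m2 : (g * h⁻¹) • (t • a) = t • a := by rw [mul_smul, e2, smul_inv_smul]
    exact ⟨m1, m2⟩
  have hconj : ∀ x ∈ X, (g * h⁻¹) * x * (g * h⁻¹)⁻¹ = g * x * g⁻¹ := by
    intro x hx
    have hcomm : x * h = h * x := Subgroup.mem_centralizer_iff.mp hh x hx
    calc (g * h⁻¹) * x * (g * h⁻¹)⁻¹ = g * (h⁻¹ * (x * h)) * g⁻¹ := by group
      _ = g * (h⁻¹ * (h * x)) * g⁻¹ := by rw [hcomm]
      _ = g * x * g⁻¹ := by group
  have ht' := Cfsg.Agent.Lib.Helper2.RankOne.conj_invol_swap hS hto rfl hn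
  have hYD : ∀ y ∈ (fun x => g * x * g⁻¹) '' X, y ∈ (MulAction.stabilizer G a ⊓ MulAction.stabilizer G (t • a)) := by
    rintro y ⟨x, hx, rfl⟩
    exact (hYmem x hx).1
  have hYt : ∀ y ∈ (fun x => g * x * g⁻¹) '' X, y * t = t * y := by
    rintro y ⟨x, hx, rfl⟩
    exact (Subgroup.mem_centralizer_iff.mp (hYmem x hx).2 t rfl).symm
  have hYj : ∀ y ∈ (fun x => g * x * g⁻¹) '' X,
      y * ((g * h⁻¹) * t * (g * h⁻¹)⁻¹) = ((g * h⁻¹) * t * (g * h⁻¹)⁻¹) * y := by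
    rintro y ⟨x, hx, rfl⟩
    show g * x * g⁻¹ * ((g * h⁻¹) * t * (g * h⁻¹)⁻¹) = ((g * h⁻¹) * t * (g * h⁻¹)⁻¹) * (g * x * g⁻¹)
    rw [← hconj x hx]
    calc (g * h⁻¹) * x * (g * h⁻¹)⁻¹ * ((g * h⁻¹) * t * (g * h⁻¹)⁻¹)
        = (g * h⁻¹) * (x * t) * (g * h⁻¹)⁻¹ := by group
      _ = (g * h⁻¹) * (t * x) * (g * h⁻¹)⁻¹ := by rw [hXt x hx]
      _ = ((g * h⁻¹) * t * (g * h⁻¹)⁻¹) * ((g * h⁻¹) * x * (g * h⁻¹)⁻¹) := by group
  obtain ⟨m, hm, hmt, hmY⟩ := Cfsg.Agent.Lib.Helper2.RankOne.invol_swap_conj_cent hS ht'.1 ht'.2 hYD hYt hYj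
  have mV : m * (g * h⁻¹) ∈ Subgroup.centralizer {t} := by
    rw [Subgroup.mem_centralizer_iff]
    intro z hz
    rw [Set.mem_singleton_iff.mp hz]
    calc t * (m * (g * h⁻¹))
        = (m * ((g * h⁻¹) * t * (g * h⁻¹)⁻¹) * m⁻¹) * (m * (g * h⁻¹)) := by rw [hmt]
      _ = m * (g * h⁻¹) * t := by group
  refine ⟨m * (g * h⁻¹), ⟨Subgroup.mul_mem _ hm hn, mV⟩, ?_⟩
  apply Set.image_congr
  intro x hx
  show m * (g * h⁻¹) * x * (m * (g * h⁻¹))⁻¹ = g * x * g⁻¹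
  have hy : g * x * g⁻¹ * m = m * (g * x * g⁻¹) := hmY _ ⟨x, hx, rfl⟩
  calc m * (g * h⁻¹) * x * (m * (g * h⁻¹))⁻¹
      = m * ((g * h⁻¹) * x * (g * h⁻¹)⁻¹) * m⁻¹ := by group
    _ = m * (g * x * g⁻¹) * m⁻¹ := by rw [hconj x hx]
    _ = (g * x * g⁻¹ * m) * m⁻¹ := by rw [hy]
    _ = g * x * g⁻¹ := by group

end Cfsg.Agent.S1134
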