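import Cfsg.Statements.S1140
import Mathlib
-- import your own Cfsg.Agent.* helpers here

set_option autoImplicit false
open Cfsg

namespace Cfsg.Agent.S1140


universe u
theorem card_addHom_le {A B : Type*} [AddCommGroup A] [Module (ZMod 2) A] [AddCommGroup B]
    [Finite B] {n : ℕ} (b : Module.Basis (Fin n) (ZMod 2) A) :
    Nat.card (A →+ B) ≤ Nat.card B ^ n := by
  classical
  have hinj : Function.Injective (fun (f : A →+ B) (i : Fin n) => f (b i)) := by
    intro f g hfg
    have h1 : ∀ i, f (b i) = g (b i) := fun i => congrFun hfg i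
    have h2 : (AddSubgroup.toZModSubmodule 2 (AddMonoidHom.eqLocus f g)) = ⊤ := by
      rw [eq_top_iff, ← b.span_eq, Submodule.span_le]
      rintro _ ⟨i, rfl⟩
      exact h1 i
    ext x
    have : x ∈ AddSubgroup.toZModSubmodule 2 (AddMonoidHom.eqLocus f g) := by
      rw [h2]
      trivial
    exact this
  have := Nat.card_le_card_of_injective _ hinj
  rwa [Nat.card_fun, Nat.card_fin] at this

theorem li1 (F : Type*) [Field F] :
    LinearIndependent F (fun σ : F ≃+* F => ((σ : F →+* F) : F → F)) := by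
  refine (linearIndependent_monoidHom F F).comp
    (fun σ : F ≃+* F => ((σ : F →+* F) : F →* F)) ?_
  intro σ τ h
  exact RingEquiv.ext fun x => DFunLike.congr_fun h x

theorem li2 (F : Type*) [Field F] :
    LinearIndependent F (fun p : (F ≃+* F) × (F ≃+* F) =>
      (fun z : F × F => p.1 z.1 * p.2 z.2)) := by
  have := (linearIndependent_monoidHom (F × F) F).comp
    (fun p : (F ≃+* F) × (F ≃+* F) =>
      MonoidHom.coprod ((p.1 : F →+* F) : F →* F) ((p.2 : F →+* F) : F →* F)) (by
      intro p p' h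
      apply Prod.ext
      · apply RingEquiv.ext
        intro x
        have := DFunLike.congr_fun h (x, 1)
        simpa using this
      · apply RingEquiv.ext
        intro y
        have := DFunLike.congr_fun h (1, y)
        simpa using this)
  exact this

theorem galcard (F : Type u) [Field F] [Fintype F] [CharP F 2] :
    ∃ n : ℕ, (∀ (B : Type u) [AddCommGroup B] [Finite B], Nat.card (F →+ B) ≤ Nat.card B ^ n) ∧
      n ≤ Nat.card (F ≃+* F) := by
  classical
  letI : Algebra (ZMod 2) F := ZMod.algebra F 2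
  haveI : Finite (F ≃+* F) := DFunLike.finite _
  refine ⟨Module.finrank (ZMod 2) F,
    fun B _ _ => card_addHom_le (Module.finBasis (ZMod 2) F), ?_⟩
  rw [← IsGalois.card_aut_eq_finrank (ZMod 2) F]
  refine Nat.card_le_card_of_injective (fun e : F ≃ₐ[ZMod 2] F => e.toRingEquiv) ?_
  intro e e' h
  exact AlgEquiv.ext fun x => RingEquiv.congr_fun h x

theorem span1 (F : Type u) [Field F] [Fintype F] [CharP F 2] [Fintype (F ≃+* F)] :
    ∀ f : F →+ F, ∃ c : (F ≃+* F) → F, ∀ x : F, f x = ∑ σ, c σ * σ x := by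
  classical
  haveI : Finite (F →+ F) := DFunLike.finite _
  obtain ⟨n, hb, hΓ⟩ := galcard F
  have hli := li1 F
  let Φ : ((F ≃+* F) → F) → (F →+ F) := fun c =>
    { toFun := fun x => ∑ σ, c σ * σ x
      map_zero' := by simp
      map_add' := fun x y => by simp [mul_add, Finset.sum_add_distrib] }
  have hΦ : Function.Injective Φ := by
    intro c c' h
    have h0 : ∑ σ, (c σ - c' σ) • ((σ : F →+* F) : F → F) = 0 := by
      funext x
      have hx : ∑ σ, c σ * σ x = ∑ σ, c' σ * σ x := DFunLike.congr_fun h x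
      simp only [Finset.sum_apply, Pi.smul_apply, smul_eq_mul, Pi.zero_apply, sub_mul,
        Finset.sum_sub_distrib]
      exact sub_eq_zero.mpr hx
    have := Fintype.linearIndependent_iff.mp hli (fun σ => c σ - c' σ) h0
    funext σ
    exact sub_eq_zero.mp (this σ)
  have hcard : Nat.card (F →+ F) ≤ Nat.card ((F ≃+* F) → F) := by
    calc Nat.card (F →+ F) ≤ Nat.card F ^ n := hb F
      _ ≤ Nat.card F ^ Nat.card (F ≃+* F) := Nat.pow_le_pow_right Nat.card_pos hΓ
      _ = Nat.card ((F ≃+* F) → F) := Nat.card_fun.symm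
  have hbij := hΦ.bijective_of_nat_card_le hcard
  intro f
  obtain ⟨c, hc⟩ := hbij.2 f
  exact ⟨c, fun x => by rw [← hc]; rfl⟩

theorem span2 (F : Type u) [Field F] [Fintype F] [CharP F 2] [Fintype (F ≃+* F)] :
    ∀ B : F →+ F →+ F, ∃ c : (F ≃+* F) × (F ≃+* F) → F,
      ∀ x y : F, B x y = ∑ p, c p * (p.1 x * p.2 y) := by
  classical
  haveI : Finite (F →+ F) := DFunLike.finite _
  haveI : Finite (F →+ F →+ F) := DFunLike.finite _
  obtain ⟨n, hb, hΓ⟩ := galcard F
  have hli2 := li2 F
  let Ψ : ((F ≃+* F) × (F ≃+* F) → F) → (F →+ F →+ F) := fun c =>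
    { toFun := fun x =>
        { toFun := fun y => ∑ p, c p * (p.1 x * p.2 y)
          map_zero' := by simp
          map_add' := fun y y' => by simp [mul_add, Finset.sum_add_distrib] }
      map_zero' := by ext y; simp
      map_add' := fun x x' => by ext y; simp [mul_add, add_mul, Finset.sum_add_distrib] }
  have hΨ : Function.Injective Ψ := by
    intro c c' h
    have h0 : ∑ p, (c p - c' p) • (fun z : F × F => p.1 z.1 * p.2 z.2) = 0 := by
      funext z
      have hx : ∑ p, c p * (p.1 z.1 * p.2 z.2) = ∑ p, c' p * (p.1 z.1 * p.2 z.2) :=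
        DFunLike.congr_fun (DFunLike.congr_fun h z.1) z.2
      simp only [Finset.sum_apply, Pi.smul_apply, smul_eq_mul, Pi.zero_apply, sub_mul,
        Finset.sum_sub_distrib]
      exact sub_eq_zero.mpr hx
    have := Fintype.linearIndependent_iff.mp hli2 (fun p => c p - c' p) h0
    funext p
    exact sub_eq_zero.mp (this p)
  have hcard : Nat.card (F →+ F →+ F) ≤ Nat.card ((F ≃+* F) × (F ≃+* F) → F) := by
    calc Nat.card (F →+ F →+ F) ≤ Nat.card (F →+ F) ^ n := hb (F →+ F)
      _ ≤ (Nat.card F ^ n) ^ n := Nat.pow_le_pow_left (hb F) n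
      _ = Nat.card F ^ (n * n) := (pow_mul _ _ _).symm
      _ ≤ Nat.card F ^ (Nat.card (F ≃+* F) * Nat.card (F ≃+* F)) :=
          Nat.pow_le_pow_right Nat.card_pos (Nat.mul_le_mul hΓ hΓ)
      _ = Nat.card ((F ≃+* F) × (F ≃+* F) → F) := by rw [Nat.card_fun, Nat.card_prod]
  have hbij := hΨ.bijective_of_nat_card_le hcard
  intro B
  obtain ⟨c, hc⟩ := hbij.2 B
  exact ⟨c, fun x y => by rw [← hc]; rfl⟩

/-- For a finite field `F` of characteristic 2, the automorphisms of `F`, viewed as additive maps `F → F`, are linearly independent over `F` (acting on values) every additive endomorphism of `F` is an `F`-linear combination of them, and every biadditive map `F → F → F` is an `F`-combination of the maps `(x, y) ↦ σ(x) τ(y)`. -/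
theorem result {F : Type*} [Field F] [Fintype F] [CharP F 2] :
    LinearIndependent F (fun σ : F ≃+* F => ((σ : F →+* F) : F → F)) ∧
      (∀ f : F →+ F, ∃ (s : Finset (F ≃+* F)) (c : (F ≃+* F) → F), ∀ x : F, f x = ∑ σ ∈ s, c σ * σ x) ∧
      ∀ B : F →+ F →+ F, ∃ (s : Finset ((F ≃+* F) × (F ≃+* F))) (c : (F ≃+* F) × (F ≃+* F) → F),
        ∀ x y : F, B x y = ∑ p ∈ s, c p * (p.1 x * p.2 y) := by
  classical
  haveI : Finite (F ≃+* F) := DFunLike.finite _
  haveI : Fintype (F ≃+* F) := Fintype.ofFinite _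
  refine ⟨li1 F, fun f => ?_, fun B => ?_⟩
  · obtain ⟨c, hc⟩ := span1 F f
    exact ⟨Finset.univ, c, hc⟩
  · obtain ⟨c, hc⟩ := span2 F B
    exact ⟨Finset.univ, c, hc⟩

end Cfsg.Agent.S1140
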