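import Mathlib
import Cfsg.Statements.S1165
import Cfsg.Agent.Lib.Helper2.RankOne

set_option autoImplicit false
open Cfsg

namespace Cfsg.Agent.S1165

/-- In the rank-one set-up (`G` finite and doubly transitive on `Ω`, `t` an involution moving `a`, `Q` normal in `G_a` with `G_a = Q D`, `Q ⊓ D = 1` for the two-point stabiliser `D = G_a ⊓ G_{t • a}`, `|Q|` even, `|D|` odd): every `x ∈ Q`, `x ≠ 1`, determines unique `g, f ∈ Q`, `h ∈ D` with `t x t = g h t f` (a consequence of the canonical form). For these: (H1) the `f`-part of `x⁻¹` is `g⁻¹`; (H2) the `f`-part of `f` is `x`; (H3) for `a ∈ D` the `f`-part of `a⁻¹ x a` is `(t a t)⁻¹ f (t a t)`; (H4) the `h`-part of `a⁻¹ x a` is `(t a t)⁻¹ h a`, that of `x⁻¹` is `t h⁻¹ t`, and that of `f` is `h⁻¹`. -/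
theorem result {G Ω : Type*} [Group G] [Finite G] [MulAction G Ω] {a : Ω} {t : G} {Q : Subgroup G}
    (hS : Cfsg.IsRankOneSetup G Ω a t Q)
    (x g h f : G) (hx : x ∈ Q) (hx1 : x ≠ 1) (hg : g ∈ Q) (hh : h ∈ (MulAction.stabilizer G a ⊓ MulAction.stabilizer G (t • a))) (hf : f ∈ Q)
    (heq : t * x * t = g * h * t * f) :
    (∀ g₁ h₁ f₁ : G, g₁ ∈ Q → h₁ ∈ (MulAction.stabilizer G a ⊓ MulAction.stabilizer G (t • a)) → f₁ ∈ Q → t * x⁻¹ * t = g₁ * h₁ * t * f₁ →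
        f₁ = g⁻¹ ∧ h₁ = t * h⁻¹ * t) ∧
      (∀ g₂ h₂ f₂ : G, g₂ ∈ Q → h₂ ∈ (MulAction.stabilizer G a ⊓ MulAction.stabilizer G (t • a)) → f₂ ∈ Q → t * f * t = g₂ * h₂ * t * f₂ →
        f₂ = x ∧ h₂ = h⁻¹) ∧
      ∀ c ∈ (MulAction.stabilizer G a ⊓ MulAction.stabilizer G (t • a)), ∀ g₃ h₃ f₃ : G, g₃ ∈ Q → h₃ ∈ (MulAction.stabilizer G a ⊓ MulAction.stabilizer G (t • a)) → f₃ ∈ Q →
        t * (c⁻¹ * x * c) * t = g₃ * h₃ * t * f₃ →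
          f₃ = (t * c * t)⁻¹ * f * (t * c * t) ∧ h₃ = (t * c * t)⁻¹ * h * c := by
  have ht := Cfsg.Agent.Lib.Helper2.RankOne.t_inv hS
  have hhinv : h⁻¹ ∈ (MulAction.stabilizer G a ⊓ MulAction.stabilizer G (t • a)) := Subgroup.inv_mem _ hh
  have ex' : x = t⁻¹ * (g * h * t * f) * t⁻¹ := by rw [← heq]; group
  have ef : f = (g * h * t)⁻¹ * (t * x * t) := by rw [heq]; group
  have heq' : t⁻¹ * x * t = g * h * t * f := by rw [ht]; exact heq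
  have ex'' : x = t * (g * h * t * f) * t⁻¹ := by rw [← heq']; group
  refine ⟨?_, ?_, ?_⟩
  · intro g₁ h₁ f₁ hg₁ hh₁ hf₁ e₁
    have A : t⁻¹ * x⁻¹ * t⁻¹ = f⁻¹ * (t⁻¹ * h⁻¹ * t) * t⁻¹ * g⁻¹ := by
      rw [ex']; group
    rw [ht] at A
    have key := Cfsg.Agent.Lib.Helper2.RankOne.form_unique hS hg₁ hh₁ hf₁ (Q.inv_mem hf) (Cfsg.Agent.Lib.Helper2.RankOne.tDt hS hhinv) (Q.inv_mem hg)
      (e₁.symm.trans A)
    exact ⟨key.2.2, key.2.1⟩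
  · intro g₂ h₂ f₂ hg₂ hh₂ hf₂ e₂
    have B : t * f * t⁻¹ = h⁻¹ * g⁻¹ * h⁻¹⁻¹ * h⁻¹ * t * x := by
      rw [ef]; group
    rw [ht] at B
    have key := Cfsg.Agent.Lib.Helper2.RankOne.form_unique hS hg₂ hh₂ hf₂ (hS.conj_mem h⁻¹ hhinv.1 g⁻¹ (Q.inv_mem hg)) hhinv hx
      (e₂.symm.trans B)
    exact ⟨key.2.2, key.2.1⟩
  · intro c hc g₃ h₃ f₃ hg₃ hh₃ hf₃ e₃
    have hc' : t * c * t ∈ (MulAction.stabilizer G a ⊓ MulAction.stabilizer G (t • a)) := Cfsg.Agent.Lib.Helper2.RankOne.tDt hS hc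
    have hc'inv : (t * c * t)⁻¹ ∈ (MulAction.stabilizer G a ⊓ MulAction.stabilizer G (t • a)) := Subgroup.inv_mem _ hc'
    have C : t⁻¹ * (c⁻¹ * x * c) * t = ((t⁻¹ * c * t)⁻¹ * g * (t⁻¹ * c * t)) *
        ((t⁻¹ * c * t)⁻¹ * h * c) * t * ((t⁻¹ * c * t)⁻¹ * f * (t⁻¹ * c * t)) := by
      rw [ex'']; group
    rw [ht] at C
    have m1 : (t * c * t)⁻¹ * g * (t * c * t) ∈ Q := by
      have := hS.conj_mem (t * c * t)⁻¹ hc'inv.1 g hg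
      rwa [inv_inv] at this
    have m3 : (t * c * t)⁻¹ * f * (t * c * t) ∈ Q := by
      have := hS.conj_mem (t * c * t)⁻¹ hc'inv.1 f hf
      rwa [inv_inv] at this
    have m2 : (t * c * t)⁻¹ * h * c ∈ (MulAction.stabilizer G a ⊓ MulAction.stabilizer G (t • a)) :=
      Subgroup.mul_mem _ (Subgroup.mul_mem _ hc'inv hh) hc
    have key := Cfsg.Agent.Lib.Helper2.RankOne.form_unique hS hg₃ hh₃ hf₃ m1 m2 m3 (e₃.symm.trans C)
    exact ⟨key.2.2, key.2.1⟩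

end Cfsg.Agent.S1165
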