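import Mathlib
import Cfsg.Statements.S1166
import Cfsg.Agent.Lib.Helper2.RankOne

set_option autoImplicit false
open Cfsg

namespace Cfsg.Agent.S1166

/-- In the rank-one set-up (`G` finite and doubly transitive on `Ω`, `t` an involution moving `a`, `Q` normal in `G_a` with `G_a = Q D`, `Q ⊓ D = 1` for the two-point stabiliser `D = G_a ⊓ G_{t • a}`, `|Q|` even, `|D|` odd), with `t x t = g_x h_x t f_x` and `t y t = g_y h_y t f_y` (`g, f ∈ Q`, `h ∈ D`) for `x, y ∈ Q ∖ 1` with `x y ≠ 1`: then `z = f_x g_y ≠ 1`, and if `t z t = g_z h_z t f_z` and `t (x y) t = g' h' t f'` then `f' = (t h_y t)⁻¹ f_z (t h_y t) f_y` and `h' = h_x h_z h_y` (H6). -/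
theorem result {G Ω : Type*} [Group G] [Finite G] [MulAction G Ω] {a : Ω} {t : G} {Q : Subgroup G}
    (hS : Cfsg.IsRankOneSetup G Ω a t Q)
    (x y gx hx fx gy hy fy : G) (hxQ : x ∈ Q) (hx1 : x ≠ 1) (hyQ : y ∈ Q) (hy1 : y ≠ 1) (hxy : x * y ≠ 1)
    (hgx : gx ∈ Q) (hhx : hx ∈ (MulAction.stabilizer G a ⊓ MulAction.stabilizer G (t • a))) (hfx : fx ∈ Q) (ex : t * x * t = gx * hx * t * fx)
    (hgy : gy ∈ Q) (hhy : hy ∈ (MulAction.stabilizer G a ⊓ MulAction.stabilizer G (t • a))) (hfy : fy ∈ Q) (ey : t * y * t = gy * hy * t * fy) :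
    fx * gy ≠ 1 ∧
      ∀ gz hz fz g' h' f' : G, gz ∈ Q → hz ∈ (MulAction.stabilizer G a ⊓ MulAction.stabilizer G (t • a)) → fz ∈ Q → t * (fx * gy) * t = gz * hz * t * fz →
        g' ∈ Q → h' ∈ (MulAction.stabilizer G a ⊓ MulAction.stabilizer G (t • a)) → f' ∈ Q → t * (x * y) * t = g' * h' * t * f' →
          f' = (t * hy * t)⁻¹ * fz * (t * hy * t) * fy ∧ h' = hx * hz * hy := by
  have ht := Cfsg.Agent.Lib.Helper2.RankOne.t_inv hS
  have hDt : t * hy * t ∈ (MulAction.stabilizer G a ⊓ MulAction.stabilizer G (t • a)) := Cfsg.Agent.Lib.Helper2.RankOne.tDt hS hhy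
  have ex' : x = t⁻¹ * (gx * hx * t * fx) * t⁻¹ := by rw [← ex]; group
  have ey' : y = t * (gy * hy * t * fy) * t⁻¹ := by
    rw [← ey, show t * (t * y * t) * t⁻¹ = (t * t) * y by group, hS.mul_self, one_mul]
  constructor
  · intro hz1
    have h1 : t * (x * y) * t = gx * hx * t * (fx * gy) * hy * t * fy := by
      rw [ex', ey']; group
    rw [hz1, mul_one] at h1
    have h1' : (t * (x * y) * t) • a = a := by
      rw [h1, show gx * hx * t * hy * t * fy = gx * (hx * ((t * hy * t) * fy)) by group,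
        mul_smul gx, mul_smul hx, mul_smul (t * hy * t) fy a, Cfsg.Agent.Lib.Helper2.RankOne.Q_mem_stab hS hfy]
      have e1 : (t * hy * t) • a = a := hDt.1
      have e2 : hx • a = a := hhx.1
      rw [e1, e2, Cfsg.Agent.Lib.Helper2.RankOne.Q_mem_stab hS hgx]
    have e1 : (t * (x * y) * t) • a = t • ((x * y) • (t • a)) := by
      rw [mul_smul (t * (x * y)) t a, mul_smul t (x * y) (t • a)]
    have h2 : t • ((x * y) • (t • a)) = a := by rw [← e1]; exact h1'
    have h3 : (x * y) • (t • a) = t • a := by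
      calc (x * y) • (t • a) = t • (t • ((x * y) • (t • a))) := by
            rw [smul_smul t t, hS.mul_self, one_smul]
        _ = t • a := by rw [h2]
    exact hxy (Cfsg.Agent.Lib.Helper2.RankOne.Q_semireg hS (Q.mul_mem hxQ hyQ) (Cfsg.Agent.Lib.Helper2.RankOne.ta_ne hS) h3)
  · intro gz hz fz g' h' f' hgz hhz hfz ez hg' hh' hf' e'
    have ez' : fz = t * hz⁻¹ * gz⁻¹ * (t * (fx * gy) * t⁻¹) := by
      rw [ht, ez, show t * hz⁻¹ * gz⁻¹ * (gz * hz * t * fz) = (t * t) * fz by group,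
        hS.mul_self, one_mul]
    have F : t * (x * y) * t = gx * (hx * gz * hx⁻¹) * (hx * hz * hy) * t *
        ((t * hy * t)⁻¹ * fz * (t * hy * t) * fy) := by
      rw [ex', ey', ez']; group
    have hDtinv : (t * hy * t)⁻¹ ∈ (MulAction.stabilizer G a ⊓ MulAction.stabilizer G (t • a)) := Subgroup.inv_mem _ hDt
    have m1 : gx * (hx * gz * hx⁻¹) ∈ Q := Q.mul_mem hgx (hS.conj_mem hx hhx.1 gz hgz)
    have m2 : hx * hz * hy ∈ (MulAction.stabilizer G a ⊓ MulAction.stabilizer G (t • a)) := Subgroup.mul_mem _ (Subgroup.mul_mem _ hhx hhz) hhy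
    have m3 : (t * hy * t)⁻¹ * fz * (t * hy * t) * fy ∈ Q := by
      have := hS.conj_mem (t * hy * t)⁻¹ hDtinv.1 fz hfz
      rw [inv_inv] at this
      exact Q.mul_mem this hfy
    have key := Cfsg.Agent.Lib.Helper2.RankOne.form_unique hS hg' hh' hf' m1 m2 m3 (e'.symm.trans F)
    exact ⟨key.2.2, key.2.1⟩

end Cfsg.Agent.S1166
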