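import Cfsg.Statements.S1168
import Mathlib
import Cfsg.Agent.S1140
-- import your own Cfsg.Agent.* helpers here

set_option autoImplicit false
open Cfsg

namespace Cfsg.Agent.S1168


universe u

theorem li3 (F : Type*) [Field F] [CharP F 2] :
    LinearIndependent F (fun σ : F ≃+* F => (fun x : F => σ x * σ x)) := by
  have := (linearIndependent_monoidHom F F).comp
    (fun σ : F ≃+* F => ((σ : F →+* F) : F →* F) * ((σ : F →+* F) : F →* F)) (by
      intro σ τ h
      apply RingEquiv.ext
      intro x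
      have h1 : σ x * σ x = τ x * τ x := DFunLike.congr_fun h x
      have h2 : (σ x + τ x) * (σ x + τ x) = 0 := by
        have : (σ x + τ x) * (σ x + τ x) = σ x * σ x + τ x * τ x + 2 * (σ x * τ x) := by ring
        rw [this, h1, CharTwo.two_eq_zero, zero_mul, add_zero, CharTwo.add_self_eq_zero]
      have h3 : σ x + τ x = 0 := by simpa using h2
      exact (CharTwo.add_eq_zero.mp h3))
  exact this

theorem main (F : Type u) [Field F] [Fintype F] [CharP F 2] [Fintype (F ≃+* F)] (q : F → F)
    (hq : ∀ x y z : F, q (x + y + z) + q (x + y) + q (x + z) + q (y + z) + q x + q y + q z = 0) :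
    ∃ c : (F ≃+* F) × (F ≃+* F) → F, ∀ x : F, q x = ∑ p, c p * (p.1 x * p.2 x) := by
  classical
  have c2 : ∀ a : F, a + a = 0 := CharTwo.add_self_eq_zero
  have h2 : (2 : F) = 0 := CharTwo.two_eq_zero
  have hq0 : q 0 = 0 := by
    have := hq 0 0 0
    simp only [add_zero] at this
    linear_combination this - (3 * q 0) * h2
  have hβadd : ∀ x x' y : F, q (x + x' + y) + q (x + x') + q y =
      (q (x + y) + q x + q y) + (q (x' + y) + q x' + q y) := by
    intro x x' y
    linear_combination hq x x' y - (q (x + y) + q (x' + y) + q x + q x' + q y) * h2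
  have hβsymm : ∀ x y : F, q (x + y) + q x + q y = q (y + x) + q y + q x := by
    intro x y
    rw [add_comm x y]
    ring
  let B : F →+ F →+ F := AddMonoidHom.mk' (fun x => AddMonoidHom.mk'
    (fun y => q (x + y) + q x + q y) (by
      intro y y'
      have := hβadd y y' x
      rw [hβsymm x (y + y'), hβsymm x y, hβsymm x y']
      exact this)) (by
      intro x x'
      ext y
      exact hβadd x x' y)
  have hB : ∀ x y, B x y = q (x + y) + q x + q y := fun x y => rfl
  obtain ⟨d, hd⟩ := Cfsg.Agent.S1140.span2 F B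
  have hdsymm : ∀ p : (F ≃+* F) × (F ≃+* F), d p = d p.swap := by
    have h0 : ∑ p : (F ≃+* F) × (F ≃+* F),
        (d p - d p.swap) • (fun z : F × F => p.1 z.1 * p.2 z.2) = 0 := by
      funext z
      simp only [Finset.sum_apply, Pi.smul_apply, smul_eq_mul, Pi.zero_apply, sub_mul,
        Finset.sum_sub_distrib]
      rw [sub_eq_zero, ← hd z.1 z.2]
      have : B z.1 z.2 = B z.2 z.1 := hβsymm z.1 z.2
      rw [this, hd z.2 z.1]
      rw [← Equiv.sum_comp (Equiv.prodComm _ _)
        (fun p : (F ≃+* F) × (F ≃+* F) => d p.swap * (p.1 z.1 * p.2 z.2))]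
      refine Finset.sum_congr rfl fun p _ => ?_
      simp [mul_comm]
    intro p
    exact sub_eq_zero.mp
      (Fintype.linearIndependent_iff.mp (Cfsg.Agent.S1140.li2 F) (fun p => d p - d p.swap) h0 p)
  let e : (F ≃+* F) ≃ Fin (Fintype.card (F ≃+* F)) := Fintype.equivFin _
  let w : (F ≃+* F) × (F ≃+* F) → F := fun p => if e p.1 < e p.2 then d p else 0
  have hw : ∀ p, w p = if e p.1 < e p.2 then d p else 0 := fun p => rfl
  let q' : F → F := fun x => ∑ p, w p * (p.1 x * p.2 x)
  have hq' : ∀ x, q' x = ∑ p, w p * (p.1 x * p.2 x) := fun x => rfl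
  have hq'pol : ∀ x y, q' (x + y) + q' x + q' y = ∑ p, (w p + w p.swap) * (p.1 x * p.2 y) := by
    intro x y
    have e1 : ∑ p : (F ≃+* F) × (F ≃+* F), w p.swap * (p.1 x * p.2 y) =
        ∑ p, w p * (p.1 y * p.2 x) := by
      rw [← Equiv.sum_comp (Equiv.prodComm _ _)
        (fun p : (F ≃+* F) × (F ≃+* F) => w p * (p.1 y * p.2 x))]
      refine Finset.sum_congr rfl fun p _ => ?_
      simp [mul_comm]
    have e2 : ∑ p, (w p + w p.swap) * (p.1 x * p.2 y) =
        ∑ p, w p * (p.1 x * p.2 y) + ∑ p, w p * (p.1 y * p.2 x) := by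
      rw [← e1, ← Finset.sum_add_distrib]
      refine Finset.sum_congr rfl fun p _ => ?_
      ring
    rw [e2, hq', hq', hq', ← Finset.sum_add_distrib, ← Finset.sum_add_distrib,
      ← Finset.sum_add_distrib]
    refine Finset.sum_congr rfl fun p _ => ?_
    rw [map_add, map_add]
    linear_combination (w p * (p.1 x * p.2 x + p.1 y * p.2 y)) * h2
  have hsum : ∀ p : (F ≃+* F) × (F ≃+* F),
      d p + (w p + w p.swap) = if p.1 = p.2 then d p else 0 := by
    intro p
    rw [hw, hw, Prod.fst_swap, Prod.snd_swap]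
    rcases lt_trichotomy (e p.1) (e p.2) with h | h | h
    · have h' : ¬ e p.2 < e p.1 := not_lt.mpr h.le
      have hne : p.1 ≠ p.2 := fun hh => (ne_of_lt h) (congrArg e hh)
      rw [if_pos h, if_neg h', if_neg hne, add_zero, c2]
    · have heq : p.1 = p.2 := e.injective h
      have h1 : ¬ e p.1 < e p.2 := by rw [h]; exact lt_irrefl _
      have h1' : ¬ e p.2 < e p.1 := by rw [h]; exact lt_irrefl _
      rw [if_neg h1, if_neg h1', if_pos heq, add_zero, add_zero]
    · have h' : ¬ e p.1 < e p.2 := not_lt.mpr h.le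
      have hne : p.1 ≠ p.2 := fun hh => (ne_of_gt h) (congrArg e hh)
      rw [if_neg h', if_pos h, if_neg hne, zero_add, ← hdsymm p, c2]
  let r : F → F := fun x => q x + q' x
  have hr : ∀ x, r x = q x + q' x := fun x => rfl
  have hrpol : ∀ x y, r (x + y) + r x + r y =
      ∑ p : (F ≃+* F) × (F ≃+* F), (if p.1 = p.2 then d p else 0) * (p.1 x * p.2 y) := by
    intro x y
    have e1 : r (x + y) + r x + r y =
        (q (x + y) + q x + q y) + (q' (x + y) + q' x + q' y) := by
      rw [hr, hr, hr]
      ring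
    rw [e1, ← hB, hd, hq'pol, ← Finset.sum_add_distrib]
    refine Finset.sum_congr rfl fun p _ => ?_
    rw [← hsum p]
    ring
  have hr0 : r 0 = 0 := by
    rw [hr, hq0, hq', zero_add]
    apply Finset.sum_eq_zero
    intro p _
    rw [map_zero, zero_mul, mul_zero]
  have hdiag : ∀ σ : F ≃+* F, d (σ, σ) = 0 := by
    have h0 : ∑ σ : F ≃+* F, d (σ, σ) • (fun x : F => σ x * σ x) = 0 := by
      funext x
      simp only [Finset.sum_apply, Pi.smul_apply, smul_eq_mul, Pi.zero_apply]
      have h1 := hrpol x x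
      rw [c2, hr0, zero_add, c2, Fintype.sum_prod_type] at h1
      rw [h1]
      refine Finset.sum_congr rfl fun σ _ => ?_
      simp only [ite_mul, zero_mul]
      rw [Finset.sum_ite_eq]
      simp
    intro σ
    exact Fintype.linearIndependent_iff.mp (li3 F) (fun σ => d (σ, σ)) h0 σ
  have hradd : ∀ x y, r (x + y) = r x + r y := by
    intro x y
    have h1 := hrpol x y
    have h3 : ∑ p : (F ≃+* F) × (F ≃+* F), (if p.1 = p.2 then d p else 0) * (p.1 x * p.2 y)
        = 0 := by
      apply Finset.sum_eq_zero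
      rintro ⟨σ, τ⟩ _
      by_cases hστ : σ = τ
      · subst hστ
        simp [hdiag σ]
      · simp [hστ]
    rw [h3] at h1
    linear_combination h1 - (r x + r y) * h2
  obtain ⟨e1, he1⟩ := Cfsg.Agent.S1140.span1 F (AddMonoidHom.mk' r hradd)
  have he1' : ∀ x, r x = ∑ σ, e1 σ * σ x := he1
  let ρ : (F ≃+* F) → (F ≃+* F) := fun σ => σ.trans (frobeniusEquiv F 2).symm
  have hρ : ∀ σ x, ρ σ x * ρ σ x = σ x := by
    intro σ x
    have := frobeniusEquiv_symm_pow_p F 2 (σ x)
    rw [pow_two] at this
    exact this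
  refine ⟨fun p => w p + ∑ σ, (if p = (ρ σ, ρ σ) then e1 σ else 0), fun x => ?_⟩
  have hqx : q x = q' x + r x := by
    rw [hr]
    linear_combination (- q' x) * h2
  rw [hqx, hq', he1']
  simp only [add_mul, Finset.sum_add_distrib, Finset.sum_mul]
  congr 1
  rw [Finset.sum_comm]
  refine Finset.sum_congr rfl fun σ _ => ?_
  simp only [ite_mul, zero_mul]
  rw [Finset.sum_ite_eq']
  simp only [Finset.mem_univ, if_true]
  rw [hρ]

/-- For a finite field `F` of characteristic 2: if `q : F → F` is quadratic over the prime field, i.e. `(x, y) ↦ q (x + y) + q x + q y` is additive in each variable, then `q x = Σ c_{σ,τ} σ(x) τ(x)` for some coefficients indexed by pairs of field automorphisms. -/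
theorem result {F : Type*} [Field F] [Fintype F] [CharP F 2]
    (q : F → F)
    (hq : ∀ x y z : F, q (x + y + z) + q (x + y) + q (x + z) + q (y + z) + q x + q y + q z = 0) :
    ∃ (s : Finset ((F ≃+* F) × (F ≃+* F))) (c : (F ≃+* F) × (F ≃+* F) → F),
      ∀ x : F, q x = ∑ p ∈ s, c p * (p.1 x * p.2 x) := by
  classical
  haveI : Finite (F ≃+* F) := DFunLike.finite _
  haveI : Fintype (F ≃+* F) := Fintype.ofFinite _
  obtain ⟨c, hc⟩ := main F q hq
  exact ⟨Finset.univ, c, hc⟩

end Cfsg.Agent.S1168
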