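import Mathlib
import Cfsg.Statements.S1176


set_option autoImplicit false
open Cfsg

namespace Cfsg.Agent.S1176

/-- Let x₀ be an involution of the finite group G and D its conjugacy class. Assume (a) for each x ∈ D the subgroup W(x) generated by the members of D commuting with x is a 2-group of nilpotency class at most 2, and (b) the product of two distinct commuting members of D again lies in D. Then for all x, y ∈ D, if xy has even order greater than 2, its order is 4. -/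
theorem result {G : Type*} [Group G] [Finite G] (x₀ : G) (hx₀ : orderOf x₀ = 2) (ha : ∀ x : G, IsConj x₀ x → IsPGroup 2 ↥(Subgroup.closure {y : G | IsConj x₀ y ∧ Commute y x}) ∧ ⁅⁅Subgroup.closure {y : G | IsConj x₀ y ∧ Commute y x}, Subgroup.closure {y : G | IsConj x₀ y ∧ Commute y x}⁆, Subgroup.closure {y : G | IsConj x₀ y ∧ Commute y x}⁆ = ⊥) (hb : ∀ x y : G, IsConj x₀ x → IsConj x₀ y → x ≠ y → Commute x y → IsConj x₀ (x * y)) (x y : G) (hx : IsConj x₀ x) (hy : IsConj x₀ y) (heven : Even (orderOf (x * y))) (hgt : 2 < orderOf (x * y)) : orderOf (x * y) = 4 := by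
  have hx₀2 : x₀ ^ 2 = 1 := by rw [← hx₀]; exact pow_orderOf_eq_one x₀
  have hinv : ∀ w : G, IsConj x₀ w → w * w = 1 := by
    intro w hw
    obtain ⟨c, hc⟩ := isConj_iff.mp hw
    rw [← hc]
    rw [← pow_two, conj_pow, hx₀2]; group
  have hxx := hinv x hx
  have hyy := hinv y hy
  have hxi : x⁻¹ = x := inv_eq_of_mul_eq_one_right hxx
  have hyi : y⁻¹ = y := inv_eq_of_mul_eq_one_right hyy
  set u := x * y with hu
  have hui : u⁻¹ = y * x := by rw [hu, mul_inv_rev, hxi, hyi]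
  have hxu : x * u * x⁻¹ = u⁻¹ := by
    rw [hui, hu, hxi, ← mul_assoc, hxx, one_mul]
  have hyu : y * u * y⁻¹ = u⁻¹ := by
    rw [hui, hu, hyi, mul_assoc, mul_assoc, hyy, mul_one]
  have key : ∀ a : G, a * u * a⁻¹ = u⁻¹ → ∀ k : ℕ, (u ^ k)⁻¹ * a * u ^ k = a * u ^ (2 * k) := by
    intro a h k
    have h1 : a * u ^ k * a⁻¹ = (u ^ k)⁻¹ := by rw [← conj_pow, h, inv_pow]
    have h2 : a * u ^ k = (u ^ k)⁻¹ * a := by rw [← h1]; group
    rw [← h2, mul_assoc, ← pow_add, two_mul]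
  obtain ⟨m, hm⟩ := heven
  have hm0 : 0 < m := by omega
  have hz1 : u ^ m ≠ 1 := pow_ne_one_of_lt_orderOf (by omega) (by omega)
  have hzz : u ^ m * u ^ m = 1 := by rw [← pow_add, ← hm]; exact pow_orderOf_eq_one u
  have hzi : (u ^ m)⁻¹ = u ^ m := inv_eq_of_mul_eq_one_right hzz
  have hxz : x * u ^ m * x⁻¹ = u ^ m := by rw [← conj_pow, hxu, inv_pow, hzi]
  have hyz : y * u ^ m * y⁻¹ = u ^ m := by rw [← conj_pow, hyu, inv_pow, hzi]
  have hcxz : Commute x (u ^ m) := by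
    show x * u ^ m = u ^ m * x
    have : x * u ^ m = (x * u ^ m * x⁻¹) * x := by group
    rw [this, hxz]
  have hcyz : Commute y (u ^ m) := by
    show y * u ^ m = u ^ m * y
    have : y * u ^ m = (y * u ^ m * y⁻¹) * y := by group
    rw [this, hyz]
  have hxzD : IsConj x₀ (x * u ^ m) := by
    rcases Nat.even_or_odd' m with ⟨k, hk | hk⟩
    · have h1 := key x hxu k
      rw [hk, ← h1]
      exact hx.trans (isConj_iff.mpr ⟨(u ^ k)⁻¹, by rw [inv_inv]⟩)
    · have h1 := key y hyu k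
      have h2 : x * u ^ (2 * k + 1) = y * u ^ (2 * k) := by
        have h3 : x * u = y := by rw [hu, ← mul_assoc, hxx, one_mul]
        rw [pow_succ', ← mul_assoc, h3]
      rw [hk, h2, ← h1]
      exact hy.trans (isConj_iff.mpr ⟨(u ^ k)⁻¹, by rw [inv_inv]⟩)
  have hne : x ≠ x * u ^ m := by
    intro h
    exact hz1 (mul_left_cancel (a := x) (h.symm.trans (mul_one x).symm))
  have hc2 : Commute x (x * u ^ m) := (Commute.refl x).mul_right hcxz
  have hzD : IsConj x₀ (u ^ m) := by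
    have h1 := hb x (x * u ^ m) hx hxzD hne hc2
    rwa [← mul_assoc, hxx, one_mul] at h1
  have h3 := (ha (u ^ m) hzD).2
  have hxW : x ∈ Subgroup.closure {w : G | IsConj x₀ w ∧ Commute w (u ^ m)} :=
    Subgroup.subset_closure ⟨hx, hcxz⟩
  have hyW : y ∈ Subgroup.closure {w : G | IsConj x₀ w ∧ Commute w (u ^ m)} :=
    Subgroup.subset_closure ⟨hy, hcyz⟩
  have h4 : (x * y * x⁻¹ * y⁻¹) * x * (x * y * x⁻¹ * y⁻¹)⁻¹ * x⁻¹ ∈ (⊥ : Subgroup G) := by
    rw [← h3]
    exact Subgroup.commutator_mem_commutator (Subgroup.commutator_mem_commutator hxW hyW) hxW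
  rw [Subgroup.mem_bot] at h4
  have h5 : x * y * x⁻¹ * y⁻¹ = u ^ 2 := by
    rw [hxi, hyi, hu, pow_two]; group
  rw [h5] at h4
  have h6 : x * u ^ 2 * x⁻¹ = (u ^ 2)⁻¹ := by rw [← conj_pow, hxu, inv_pow]
  have h7 : u ^ 4 = 1 := by
    have h8 : x * (u ^ 2)⁻¹ * x⁻¹ = u ^ 2 := by
      have : x * (u ^ 2)⁻¹ * x⁻¹ = (x * u ^ 2 * x⁻¹)⁻¹ := by group
      rw [this, h6, inv_inv]
    have h9 : u ^ 2 * (x * (u ^ 2)⁻¹ * x⁻¹) = 1 := by rw [← h4]; group
    rw [h8, ← pow_add] at h9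
    exact h9
  have h10 : orderOf u ∣ 4 := orderOf_dvd_of_pow_eq_one h7
  have h11 : orderOf u ≤ 4 := Nat.le_of_dvd (by norm_num) h10
  have h12 : orderOf u ≠ 3 := by
    intro h; rw [h] at h10; norm_num at h10
  omega

end Cfsg.Agent.S1176
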