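import Cfsg.Statements.S1178
import Mathlib
import Cfsg.Agent.Lib.Helper2.Basic

set_option autoImplicit false
open Cfsg

namespace Cfsg.Agent.S1178

open Cfsg.Agent.Lib.Helper2

/-- A 2-subgroup that is weakly closed in a Sylow 2-subgroup commutes elementwise with no conjugate of itself other than itself. -/
theorem result {G : Type*} [Group G] [Finite G] (S : Sylow 2 G) (A : Subgroup G) (hW : Cfsg.IsWeaklyClosed A (S : Subgroup G)) (g : G) (hc : ∀ a ∈ A, ∀ b ∈ A.map (MulAut.conj g).toMonoidHom, a * b = b * a) : A.map (MulAut.conj g).toMonoidHom = A := by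
  obtain ⟨hAS, hcl⟩ := hW
  set B := A.map (MulAut.conj g).toMonoidHom with hB
  have hA2 : IsPGroup 2 A := S.isPGroup'.to_le hAS
  have hB2 : IsPGroup 2 B := hA2.map _
  have hAB : A ≤ Subgroup.normalizer (B : Set G) := by
    intro a ha
    rw [Subgroup.mem_normalizer_iff]
    intro b
    constructor
    · intro hb
      have e : a * b * a⁻¹ = b := by
        rw [hc a ha b hb]; simp
      rw [e]; exact hb
    · intro hb
      have e := hc a ha _ hb
      have e3 : a * b * a⁻¹ * a = a * b := by simp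
      rw [e3] at e
      have e2 : a * b * a⁻¹ = b := mul_left_cancel e
      rw [← e2]; exact hb
  have hAB2 : IsPGroup 2 (A ⊔ B : Subgroup G) := hA2.to_sup_of_normal_right' hB2 hAB
  obtain ⟨Q, hQ⟩ := hAB2.exists_le_sylow
  obtain ⟨x, rfl⟩ := MulAction.exists_smul_eq G S Q
  have hAQ : A ≤ ((x • S : Sylow 2 G) : Subgroup G) := le_sup_left.trans hQ
  have hBQ : B ≤ ((x • S : Sylow 2 G) : Subgroup G) := le_sup_right.trans hQ
  have h1 : A.map (MulAut.conj x⁻¹).toMonoidHom ≤ S := by
    intro y hy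
    rw [mem_map_conj_iff] at hy
    have := hAQ hy
    rw [mem_sylow_smul_iff] at this
    simpa [mul_assoc] using this
  have h1' := hcl x⁻¹ h1
  have h2 : A.map (MulAut.conj (x⁻¹ * g)).toMonoidHom ≤ S := by
    intro y hy
    rw [mem_map_conj_iff] at hy
    have hyB : x * y * x⁻¹ ∈ B := by
      rw [hB, mem_map_conj_iff]
      have e : g⁻¹ * (x * y * x⁻¹) * g = (x⁻¹ * g)⁻¹ * y * (x⁻¹ * g) := by
        simp [mul_assoc]
      rw [e]; exact hy
    have := hBQ hyB
    rw [mem_sylow_smul_iff] at this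
    simpa [mul_assoc] using this
  have h2' := hcl (x⁻¹ * g) h2
  -- A is stable under conjugation by x
  have hx : ∀ y : G, y ∈ A ↔ x * y * x⁻¹ ∈ A := by
    intro y
    conv_lhs => rw [← h1']
    rw [mem_map_conj_iff]
    simp
  have hxg : ∀ y : G, y ∈ A ↔ g⁻¹ * (x * y * x⁻¹) * g ∈ A := by
    intro y
    conv_lhs => rw [← h2']
    rw [mem_map_conj_iff]
    simp [mul_assoc]
  ext y
  rw [hB, mem_map_conj_iff]
  have e : g⁻¹ * y * g = g⁻¹ * (x * (x⁻¹ * y * x) * x⁻¹) * g := by simp [mul_assoc]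
  rw [e, ← hxg, hx]
  simp [mul_assoc]

end Cfsg.Agent.S1178
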