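import Mathlib
import Cfsg.Statements.S1181
import Cfsg.Agent.Lib.Helper2.Isolated2

set_option autoImplicit false
open Cfsg

namespace Cfsg.Agent.S1181

/-- An element of odd order whose square lies in a subgroup lies in the subgroup. -/
theorem mem_of_sq_mem_of_odd {G : Type*} [Group G] (N : Subgroup G) (x : G) (hodd : Odd (orderOf x))
    (h : x * x ∈ N) : x ∈ N := by
  obtain ⟨m, hm⟩ := hodd
  have e : x = (x * x) ^ (m + 1) := by
    rw [← pow_two, ← pow_mul]
    have : 2 * (m + 1) = orderOf x + 1 := by omega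
    rw [this, pow_succ, pow_orderOf_eq_one, one_mul]
  rw [e]
  exact N.pow_mem h _

open Cfsg.Agent.Lib.Helper2 in
/-- Let z be an isolated involution of the finite group G and N a normal subgroup with z ∉ N. Then the centralizer of zN in G/N is the image of C_G(z), and zN is an isolated involution of G/N. -/
theorem result {G : Type*} [Group G] [Finite G] (z : G) (hz : Cfsg.IsIsolatedInvolution z) (N : Subgroup G) [N.Normal] (hzN : z ∉ N) : Subgroup.centralizer ({(QuotientGroup.mk z : G ⧸ N)} : Set (G ⧸ N)) = (Subgroup.centralizer ({z} : Set G)).map (QuotientGroup.mk' N) ∧ Cfsg.IsIsolatedInvolution (QuotientGroup.mk z : G ⧸ N) := by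
  obtain ⟨hzz, hiso⟩ := isolated_unfold z hz
  have hzinv : z⁻¹ = z := inv_eq_of_mul_eq_one_left hzz
  have hZZ : (QuotientGroup.mk z : G ⧸ N) * QuotientGroup.mk z = 1 := by
    rw [← QuotientGroup.mk_mul, hzz]; rfl
  refine ⟨?_, ?_, ?_⟩
  · ext x
    constructor
    · intro hx
      obtain ⟨x, rfl⟩ := QuotientGroup.mk_surjective x
      rw [Subgroup.mem_centralizer_iff] at hx
      have h1 : (QuotientGroup.mk z : G ⧸ N) * QuotientGroup.mk x
          = QuotientGroup.mk x * QuotientGroup.mk z := hx _ rfl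
      have h2 : z * (x * z * x⁻¹) ∈ N := by
        rw [← QuotientGroup.eq_one_iff]
        simp only [QuotientGroup.mk_mul, QuotientGroup.mk_inv]
        rw [← mul_assoc, ← mul_assoc, h1, mul_assoc (QuotientGroup.mk x : G ⧸ N), hZZ, mul_one,
          mul_inv_cancel]
      obtain ⟨k, hk1, hk2, hk3⟩ := isolated_conj_by_pow z hzz hiso x
      have hyN : (z * (x * z * x⁻¹)) ^ k ∈ N := N.pow_mem h2 k
      generalize (z * (x * z * x⁻¹)) ^ k = y at *
      rw [Subgroup.mem_map]
      refine ⟨y⁻¹ * x, ?_, ?_⟩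
      · rw [Subgroup.mem_centralizer_iff]
        intro w hw
        rw [Set.mem_singleton_iff] at hw
        subst hw
        have : y⁻¹ * (y * w * y⁻¹) * x = y⁻¹ * (x * w * x⁻¹) * x := by rw [hk1]
        simp only [mul_assoc, inv_mul_cancel_left, inv_mul_cancel, mul_one] at this
        simp only [mul_assoc]
        exact this
      · show QuotientGroup.mk' N (y⁻¹ * x) = QuotientGroup.mk x
        rw [QuotientGroup.mk'_apply, QuotientGroup.mk_mul,
          (QuotientGroup.eq_one_iff y⁻¹).mpr (N.inv_mem hyN), one_mul]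
    · rintro ⟨c, hc, rfl⟩
      rw [SetLike.mem_coe] at hc
      rw [Subgroup.mem_centralizer_iff] at hc ⊢
      intro w hw
      rw [Set.mem_singleton_iff] at hw
      subst hw
      have := hc z rfl
      show (QuotientGroup.mk z : G ⧸ N) * QuotientGroup.mk c
          = QuotientGroup.mk c * QuotientGroup.mk z
      rw [← QuotientGroup.mk_mul, ← QuotientGroup.mk_mul, this]
  · have : Fact (Nat.Prime 2) := ⟨Nat.prime_two⟩
    apply orderOf_eq_prime
    · rw [pow_two]; exact hZZ
    · rw [Ne, QuotientGroup.eq_one_iff]; exact hzN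
  · intro g hc
    obtain ⟨g, rfl⟩ := QuotientGroup.mk_surjective g
    have hodd := isolated_mul_conj_odd z hzz hiso g
    have hb : (g * z * g⁻¹) * (g * z * g⁻¹) = 1 := conj_mul_self_eq_one z g hzz
    have hBB : (QuotientGroup.mk (g * z * g⁻¹) : G ⧸ N) * QuotientGroup.mk (g * z * g⁻¹) = 1 := by
      rw [← QuotientGroup.mk_mul, hb]; rfl
    have hB : (QuotientGroup.mk g : G ⧸ N) * QuotientGroup.mk z * (QuotientGroup.mk g)⁻¹
        = QuotientGroup.mk (g * z * g⁻¹) := by
      simp only [QuotientGroup.mk_mul, QuotientGroup.mk_inv]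
    rw [hB] at hc ⊢
    have h2 : (z * (g * z * g⁻¹)) * (z * (g * z * g⁻¹)) ∈ N := by
      rw [← QuotientGroup.eq_one_iff]
      have e := hc.eq
      generalize g * z * g⁻¹ = b at *
      rw [QuotientGroup.mk_mul, QuotientGroup.mk_mul]
      calc (QuotientGroup.mk z : G ⧸ N) * QuotientGroup.mk b * (QuotientGroup.mk z * QuotientGroup.mk b)
          = QuotientGroup.mk z * (QuotientGroup.mk b * QuotientGroup.mk z) * QuotientGroup.mk b := by
            simp only [mul_assoc]
        _ = QuotientGroup.mk z * QuotientGroup.mk z * (QuotientGroup.mk b * QuotientGroup.mk b) := by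
            rw [← e]; simp only [mul_assoc]
        _ = 1 := by rw [hZZ, hBB, one_mul]
    have h3 : z * (g * z * g⁻¹) ∈ N := mem_of_sq_mem_of_odd N _ hodd h2
    have h4 : (QuotientGroup.mk z : G ⧸ N) * QuotientGroup.mk (g * z * g⁻¹) = 1 := by
      rw [← QuotientGroup.mk_mul]
      exact (QuotientGroup.eq_one_iff _).mpr h3
    calc (QuotientGroup.mk (g * z * g⁻¹) : G ⧸ N)
        = QuotientGroup.mk z * QuotientGroup.mk z * QuotientGroup.mk (g * z * g⁻¹) := by
          rw [hZZ, one_mul]
      _ = QuotientGroup.mk z := by rw [mul_assoc, h4, mul_one]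

end Cfsg.Agent.S1181
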