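import Cfsg.Statements.S1182
import Mathlib
import Cfsg.Agent.Lib.Helper2.Isolated

set_option autoImplicit false
open Cfsg

namespace Cfsg.Agent.S1182

open Cfsg.Agent.Lib.Helper2

/-- If z is an isolated involution and H is a z-invariant subgroup, then two elements of H ∩ C_G(z) conjugate in H are conjugate in H ∩ C_G(z). -/
theorem result {G : Type*} [Group G] [Finite G] (z : G) (hz : Cfsg.IsIsolatedInvolution z) (H : Subgroup G) (hzH : z ∈ Subgroup.normalizer (H : Set G)) (x y : G) (hx : x ∈ H) (hy : y ∈ H) (hxz : Commute x z) (hyz : Commute y z) (h : G) (hh : h ∈ H) (hconj : h * x * h⁻¹ = y) : ∃ c ∈ H, Commute c z ∧ c * x * c⁻¹ = y := by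
  obtain ⟨hzz, hiso⟩ := isolated_unfold z hz
  have hzinv : z⁻¹ = z := inv_eq_of_mul_eq_one_left hzz
  obtain ⟨k, hk, -, -⟩ := isolated_conj_by_pow z hzz hiso h⁻¹
  rw [inv_inv] at hk
  set z' := h⁻¹ * z * h with hz'
  set u := (z * z') ^ k with hu
  -- u z u⁻¹ = z'
  have hzz'H : z * z' ∈ H := by
    have h1 : z * h⁻¹ * z⁻¹ ∈ H := (Subgroup.mem_normalizer_iff.mp hzH h⁻¹).mp (H.inv_mem hh)
    have e : z * z' = (z * h⁻¹ * z⁻¹) * h := by
      rw [hz', hzinv]; simp [mul_assoc]
    rw [e]; exact H.mul_mem h1 hh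
  have huH : u ∈ H := H.pow_mem hzz'H k
  -- x commutes with z'
  have hxz' : Commute x z' := by
    show x * z' = z' * x
    have e1 : x * z' = h⁻¹ * (y * z) * h := by
      rw [hz', ← hconj]; simp [mul_assoc]
    have e2 : z' * x = h⁻¹ * (z * y) * h := by
      rw [hz', ← hconj]; simp [mul_assoc]
    rw [e1, e2, hyz.eq]
  have hxu : Commute x u := (hxz.mul_right hxz').pow_right k
  refine ⟨h * u, H.mul_mem hh huH, ?_, ?_⟩
  · show h * u * z = z * (h * u)
    have e : h * u * z = h * (u * z * u⁻¹) * u := by simp [mul_assoc]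
    rw [e, hk, hz']
    simp [mul_assoc]
  · have e : h * u * x * (h * u)⁻¹ = h * (u * x * u⁻¹) * h⁻¹ := by simp [mul_assoc]
    rw [e, ← hxu.eq, mul_assoc x u, mul_inv_cancel, mul_one, hconj]

end Cfsg.Agent.S1182
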