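import Mathlib
import Cfsg.Statements.S1185
import Cfsg.Agent.Lib.Helper2.Isolated2

set_option autoImplicit false
open Cfsg

namespace Cfsg.Agent.S1185

/-- Two elements of odd order with equal squares are equal. -/
theorem eq_of_sq_eq_of_odd {G : Type*} [Group G] (a b : G) (ha : Odd (orderOf a))
    (hb : Odd (orderOf b)) (h : a * a = b * b) : a = b := by
  have hN : Odd (orderOf a * orderOf b) := ha.mul hb
  obtain ⟨m, hm⟩ := hN
  have ea : a = (a * a) ^ (m + 1) := by
    rw [← pow_two, ← pow_mul]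
    have : 2 * (m + 1) = orderOf a * orderOf b + 1 := by omega
    rw [this, pow_succ, pow_mul, pow_orderOf_eq_one, one_pow, one_mul]
  have eb : b = (b * b) ^ (m + 1) := by
    rw [← pow_two, ← pow_mul]
    have : 2 * (m + 1) = orderOf b * orderOf a + 1 := by rw [mul_comm (orderOf b)]; omega
    rw [this, pow_succ, pow_mul, pow_orderOf_eq_one, one_pow, one_mul]
  rw [ea, eb, h]

open Cfsg.Agent.Lib.Helper2 in
/-- Let z be an isolated involution of the finite group G with centralizer C. Then for every g ∈ G there is exactly one element k in the coset gC that has odd order and is inverted by z. -/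
theorem result {G : Type*} [Group G] [Finite G] (z : G) (hz : Cfsg.IsIsolatedInvolution z) (g : G) : ∃! k : G, (Odd (orderOf k) ∧ z * k * z⁻¹ = k⁻¹) ∧ g⁻¹ * k ∈ Subgroup.centralizer ({z} : Set G) := by
  obtain ⟨hzz, hiso⟩ := isolated_unfold z hz
  have hzinv : z⁻¹ = z := inv_eq_of_mul_eq_one_left hzz
  obtain ⟨k0, hk1, hk2, hk3⟩ := isolated_conj_by_pow z hzz hiso g
  -- key: for k inverted by z with g⁻¹ k ∈ C(z), k * k = g z g⁻¹ z
  have key : ∀ k : G, z * k * z⁻¹ = k⁻¹ → g⁻¹ * k ∈ Subgroup.centralizer ({z} : Set G) →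
      k * k = g * z * g⁻¹ * z := by
    intro k hk hc
    rw [Subgroup.mem_centralizer_iff] at hc
    have hc' : z * (g⁻¹ * k) = g⁻¹ * k * z := hc z rfl
    have e1 : k * z * k⁻¹ = g * z * g⁻¹ := by
      have : g * (z * (g⁻¹ * k)) * k⁻¹ = g * (g⁻¹ * k * z) * k⁻¹ := by rw [hc']
      simp only [mul_assoc, mul_inv_cancel_left, mul_inv_cancel, mul_one] at this
      simp only [mul_assoc]
      exact this.symm
    have e2 : z * k⁻¹ = k * z := by
      have : (z * k * z⁻¹)⁻¹ = k⁻¹⁻¹ := by rw [hk]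
      rw [inv_inv, mul_inv_rev, mul_inv_rev, inv_inv, hzinv] at this
      calc z * k⁻¹ = z * k⁻¹ * z * z := by rw [mul_assoc (z * k⁻¹), hzz, mul_one]
        _ = k * z := by rw [mul_assoc z k⁻¹ z, this]
    calc k * k = k * (k * z) * z := by rw [mul_assoc, mul_assoc, hzz, mul_one]
      _ = k * (z * k⁻¹) * z := by rw [e2]
      _ = k * z * k⁻¹ * z := by simp only [mul_assoc]
      _ = g * z * g⁻¹ * z := by rw [e1]
  refine ⟨(z * (g * z * g⁻¹)) ^ k0, ⟨⟨hk3, hk2⟩, ?_⟩, ?_⟩
  · rw [Subgroup.mem_centralizer_iff]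
    intro y hy
    rw [Set.mem_singleton_iff] at hy
    subst hy
    generalize (y * (g * y * g⁻¹)) ^ k0 = x at *
    have : g⁻¹ * (x * y * x⁻¹) * x = g⁻¹ * (g * y * g⁻¹) * x := by rw [hk1]
    simp only [mul_assoc, inv_mul_cancel, mul_one, inv_mul_cancel_left] at this
    simp only [mul_assoc]
    exact this.symm
  · rintro k ⟨⟨hodd, hinv⟩, hc⟩
    have hx : g⁻¹ * (z * (g * z * g⁻¹)) ^ k0 ∈ Subgroup.centralizer ({z} : Set G) := by
      rw [Subgroup.mem_centralizer_iff]
      intro y hy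
      rw [Set.mem_singleton_iff] at hy
      subst hy
      generalize (y * (g * y * g⁻¹)) ^ k0 = x at *
      have : g⁻¹ * (x * y * x⁻¹) * x = g⁻¹ * (g * y * g⁻¹) * x := by rw [hk1]
      simp only [mul_assoc, inv_mul_cancel, mul_one, inv_mul_cancel_left] at this
      simp only [mul_assoc]
      exact this.symm
    exact eq_of_sq_eq_of_odd _ _ hodd hk3 ((key k hinv hc).trans (key _ hk2 hx).symm)

end Cfsg.Agent.S1185
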