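import Mathlib
import Cfsg.Statements.S1183
import Cfsg.Agent.Lib.Helper2.Isolated3
import Cfsg.Agent.Lib.Helper2.PRes
import Cfsg.Agent.S1185

set_option autoImplicit false
open Cfsg

namespace Cfsg.Agent.S1183

open Cfsg.Agent.Lib.Helper2 in
/-- Let z be an isolated involution of the finite group G with centralizer C. Then G = O²(G) if and only if C = O²(C). -/
theorem result {G : Type*} [Group G] [Finite G] (z : G) (hz : Cfsg.IsIsolatedInvolution z) : Cfsg.pResidual 2 G = ⊤ ↔ Cfsg.pResidual 2 ↥(Subgroup.centralizer ({z} : Set G)) = ⊤ := by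
  obtain ⟨hzz, hiso⟩ := isolated_unfold z hz
  have hzinv : z⁻¹ = z := inv_eq_of_mul_eq_one_left hzz
  have : Fact (Nat.Prime 2) := ⟨Nat.prime_two⟩
  have hodd := isolated_centralizer_index_odd z hzz hiso
  have hKex := fun g => Cfsg.Agent.S1185.result z hz g
  generalize hC : Subgroup.centralizer ({z} : Set G) = C at *
  constructor
  · intro hG
    by_contra hR
    have hRn : (Cfsg.pResidual 2 C).Normal := pRes_normal 2 C
    have hQ : IsPGroup 2 (C ⧸ Cfsg.pResidual 2 C) :=
      quotient_isPGroup_of_pRes_le 2 C (Cfsg.pResidual 2 C) le_rfl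
    generalize hRdef : Cfsg.pResidual 2 C = R at *
    obtain ⟨c0, hc0⟩ : ∃ c : C, c ∉ R := by
      by_contra h
      push Not at h
      exact hR (eq_top_iff.mpr (fun x _ => h x))
    have hQnt : Nontrivial (C ⧸ R) :=
      ⟨⟨QuotientGroup.mk c0, 1, fun h => hc0 ((QuotientGroup.eq_one_iff c0).mp h)⟩⟩
    have hnil : Group.IsNilpotent (C ⧸ R) := hQ.isNilpotent
    have hlt : commutator (C ⧸ R) < ⊤ := Group.IsSolvable.commutator_lt_top_of_nontrivial (C ⧸ R)
    obtain ⟨x, hx⟩ : ∃ x : C ⧸ R, x ∉ commutator (C ⧸ R) := by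
      by_contra h
      push Not at h
      exact hlt.ne (eq_top_iff.mpr (fun x _ => h x))
    obtain ⟨c, rfl⟩ := QuotientGroup.mk_surjective x
    have hA : IsPGroup 2 (Abelianization (C ⧸ R)) := hQ.to_quotient (commutator (C ⧸ R))
    let ϕ : C →* Abelianization (C ⧸ R) := (Abelianization.of).comp (QuotientGroup.mk' R)
    have hϕc : ϕ c ≠ 1 := by
      intro h
      apply hx
      have h' : Abelianization.of (QuotientGroup.mk c : C ⧸ R) = 1 := h
      rw [← MonoidHom.mem_ker, Abelianization.ker_of] at h'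
      exact h'
    let K : Set G := {k : G | Odd (orderOf k) ∧ z * k * z⁻¹ = k⁻¹}
    have hK : ∀ g : G, ∃! k : G, k ∈ K ∧ g⁻¹ * k ∈ C := hKex
    have hKc : ∀ c ∈ C, ∀ k ∈ K, c⁻¹ * k * c ∈ K := by
      intro c hc k hk
      obtain ⟨hk1, hk2⟩ := hk
      rw [← hC, Subgroup.mem_centralizer_iff] at hc
      have hcz : z * c = c * z := hc z rfl
      have hcz' : z * c⁻¹ = c⁻¹ * z := by
        have : c⁻¹ * (z * c) * c⁻¹ = c⁻¹ * (c * z) * c⁻¹ := by rw [hcz]
        simp only [mul_assoc, mul_inv_cancel, mul_one, inv_mul_cancel_left] at this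
        exact this.symm
      refine ⟨?_, ?_⟩
      · have := orderOf_conj_eq c⁻¹ k
        rw [inv_inv] at this
        rw [this]
        exact hk1
      · calc z * (c⁻¹ * k * c) * z⁻¹ = (z * c⁻¹) * k * (c * z) := by
              rw [hzinv]; simp only [mul_assoc]
          _ = c⁻¹ * (z * k * z⁻¹) * c := by
              rw [hcz', ← hcz, hzinv]; simp only [mul_assoc]
          _ = (c⁻¹ * k * c)⁻¹ := by rw [hk2]; simp [mul_assoc]
    have hV := transfer_eq_pow_index_of_stable_transversal C ϕ K hK hKc c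
    have hker : Cfsg.pResidual 2 G ≤ (MonoidHom.transfer ϕ).ker := pRes_le_ker hA _
    rw [hG] at hker
    have h1 : MonoidHom.transfer ϕ (c : G) = 1 := MonoidHom.mem_ker.mp (hker trivial)
    rw [h1] at hV
    exact hϕc (eq_one_of_pow_eq_one_of_coprime hA _ _ hodd.coprime_two_right hV.symm)
  · intro hCtop
    have hRn : (Cfsg.pResidual 2 G).Normal := pRes_normal 2 G
    have hle : C ≤ Cfsg.pResidual 2 G := by
      intro c hc
      have : (⟨c, hc⟩ : C) ∈ Cfsg.pResidual 2 C := by rw [hCtop]; trivial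
      exact pRes_subgroup_le 2 C (Subgroup.mem_map_of_mem C.subtype this)
    have hdvd : (Cfsg.pResidual 2 G).index ∣ C.index := Subgroup.index_dvd_of_le hle
    have hQ : IsPGroup 2 (G ⧸ Cfsg.pResidual 2 G) := quotient_isPGroup_of_pRes_le 2 G _ le_rfl
    obtain ⟨n, hn⟩ := IsPGroup.iff_card.mp hQ
    have hidx : (Cfsg.pResidual 2 G).index = 2 ^ n := by rw [Subgroup.index]; exact hn
    have ho : Odd ((Cfsg.pResidual 2 G).index) := Odd.of_dvd_nat hodd hdvd
    rw [hidx] at ho
    have hn0 : n = 0 := by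
      by_contra h
      have : Even (2 ^ n) := (Nat.even_pow.mpr ⟨even_two, h⟩)
      exact (Nat.not_even_iff_odd.mpr ho) this
    rw [hn0, pow_zero] at hidx
    exact Subgroup.index_eq_one.mp hidx

end Cfsg.Agent.S1183
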