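import Mathlib
import Cfsg.Statements.S1184
import Cfsg.Agent.Lib.Helper2.Isolated2

set_option autoImplicit false
open Cfsg

namespace Cfsg.Agent.S1184

open Cfsg.Agent.Lib.Helper2 in
/-- Let z be an isolated involution of the finite group G. If s and t are distinct conjugates of z, then st does not commute with z. -/
theorem result {G : Type*} [Group G] [Finite G] (z : G) (hz : Cfsg.IsIsolatedInvolution z) (g h : G) (hne : g * z * g⁻¹ ≠ h * z * h⁻¹) : ¬ Commute (g * z * g⁻¹ * (h * z * h⁻¹)) z := by
  obtain ⟨hzz, hiso⟩ := isolated_unfold z hz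
  intro hcomm
  have hzinv : z⁻¹ = z := inv_eq_of_mul_eq_one_left hzz
  have hss : (g * z * g⁻¹) * (g * z * g⁻¹) = 1 := conj_mul_self_eq_one z g hzz
  have htt : (h * z * h⁻¹) * (h * z * h⁻¹) = 1 := conj_mul_self_eq_one z h hzz
  have hsiso := isolated_conj z hiso g
  -- t is a conjugate of s
  have ht : h * z * h⁻¹ = (h * g⁻¹) * (g * z * g⁻¹) * (h * g⁻¹)⁻¹ := by
    simp [mul_assoc]
  have hz' : z = g⁻¹ * (g * z * g⁻¹) * g⁻¹⁻¹ := by simp [mul_assoc]
  generalize hs : g * z * g⁻¹ = s at *
  generalize ht' : h * z * h⁻¹ = t at *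
  have hsinv : s⁻¹ = s := inv_eq_of_mul_eq_one_left hss
  have htinv : t⁻¹ = t := inv_eq_of_mul_eq_one_left htt
  -- r = s * t has odd order
  have hrodd : Odd (orderOf (s * t)) := by
    rw [ht]
    exact isolated_mul_conj_odd s hss hsiso (h * g⁻¹)
  -- s * z has odd order
  have hszodd : Odd (orderOf (s * z)) := by
    have := isolated_mul_conj_odd s hss hsiso g⁻¹
    rw [← hz'] at this
    exact this
  -- s inverts r
  have hsR : s * (s * t) = (s * t)⁻¹ * s := by
    rw [mul_inv_rev, hsinv, htinv, ← mul_assoc, hss, one_mul, mul_assoc, hss, mul_one]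
  have hsRi : s * (s * t)⁻¹ = (s * t) * s := by
    rw [mul_inv_rev, hsinv, htinv, mul_assoc]
  have hzR : z * (s * t) = (s * t) * z := hcomm.eq.symm
  have hzRi : z * (s * t)⁻¹ = (s * t)⁻¹ * z := (hcomm.symm.inv_right).eq
  have hRne : s * t ≠ 1 := by
    intro h1
    apply hne
    have : s = t⁻¹ := eq_inv_of_mul_eq_one_left h1
    rw [this, htinv]
  clear ht hz' ht' hs
  generalize s * t = R at *
  -- (s z)^2 commutes with R
  have hsq : Commute ((s * z) * (s * z)) R := by
    show s * z * (s * z) * R = R * (s * z * (s * z))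
    calc s * z * (s * z) * R = s * (z * (s * (z * R))) := by simp only [mul_assoc]
      _ = s * (z * (s * R * z)) := by rw [hzR]; simp only [mul_assoc]
      _ = s * (z * R⁻¹ * s * z) := by rw [hsR]; simp only [mul_assoc]
      _ = s * R⁻¹ * z * s * z := by rw [hzRi]; simp only [mul_assoc]
      _ = R * (s * z * (s * z)) := by rw [hsRi]; simp only [mul_assoc]
  have hc : Commute (s * z) R := commute_of_sq_commute_of_odd _ _ hszodd hsq
  have hsc : s * R = R * s := by
    calc s * R = s * (z * z) * R := by rw [hzz, mul_one]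
      _ = s * z * (z * R) := by simp only [mul_assoc]
      _ = s * z * R * z := by rw [hzR]; simp only [mul_assoc]
      _ = R * (s * z) * z := by rw [hc.eq]
      _ = R * s := by rw [mul_assoc, mul_assoc, hzz, mul_one]
  have hRR : R * R = 1 := by
    have : R⁻¹ = R := mul_right_cancel (hsR.symm.trans hsc)
    calc R * R = R⁻¹ * R := by rw [this]
      _ = 1 := inv_mul_cancel R
  exact hRne (eq_one_of_sq_eq_one_of_odd R hrodd hRR)

end Cfsg.Agent.S1184
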