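import Mathlib
import Cfsg.Statements.S1186
import Cfsg.Agent.Lib.Helper2.Isolated4
import Cfsg.Agent.S1184
import Cfsg.Agent.S1185

set_option autoImplicit false
open Cfsg

namespace Cfsg.Agent.S1186

open Cfsg.Agent.Lib.Helper2

/-- The algebra behind the factorisation `g = a * b * c`. -/
theorem core_surj {G : Type*} [Group G] (z s p w a g : G) (hzz : z * z = 1) (hss : s * s = 1)
    (hp : g * z * g⁻¹ = p) (hpw : p * w * p⁻¹ = w⁻¹) (hsw : s * w * s⁻¹ = w⁻¹)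
    (ha1 : a * z * a⁻¹ = w * p * w⁻¹) (hsa : Commute s a) :
    z * (a⁻¹ * w⁻¹ * a) * z⁻¹ = (a⁻¹ * w⁻¹ * a)⁻¹ ∧ Commute (a⁻¹ * w⁻¹ * a) (s * z) ∧
      z * (a⁻¹ * w * g) = (a⁻¹ * w * g) * z ∧ a * (a⁻¹ * w⁻¹ * a) * (a⁻¹ * w * g) = g := by
  have hzinv : z⁻¹ = z := inv_eq_of_mul_eq_one_left hzz
  have hsinv : s⁻¹ = s := inv_eq_of_mul_eq_one_left hss
  -- q = w p w⁻¹ inverts w
  have hqw : (w * p * w⁻¹) * w * (w * p * w⁻¹)⁻¹ = w⁻¹ := by
    calc (w * p * w⁻¹) * w * (w * p * w⁻¹)⁻¹ = w * (p * w * p⁻¹) * w⁻¹ := by simp [mul_assoc]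
      _ = w⁻¹ := by rw [hpw]; simp
  have hqw' : (w * p * w⁻¹) * w⁻¹ * (w * p * w⁻¹)⁻¹ = w := by
    calc (w * p * w⁻¹) * w⁻¹ * (w * p * w⁻¹)⁻¹ = ((w * p * w⁻¹) * w * (w * p * w⁻¹)⁻¹)⁻¹ := by
          simp [mul_assoc]
      _ = w := by rw [hqw, inv_inv]
  have hb : z * (a⁻¹ * w⁻¹ * a) * z⁻¹ = (a⁻¹ * w⁻¹ * a)⁻¹ := by
    calc z * (a⁻¹ * w⁻¹ * a) * z⁻¹ = a⁻¹ * ((a * z * a⁻¹) * w⁻¹ * (a * z * a⁻¹)⁻¹) * a := by
          simp [mul_assoc]
      _ = a⁻¹ * w * a := by rw [ha1, hqw']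
      _ = (a⁻¹ * w⁻¹ * a)⁻¹ := by simp [mul_assoc]
  refine ⟨hb, ?_, ?_, ?_⟩
  · -- b commutes with s * z
    have h1 : z * (a⁻¹ * w⁻¹ * a) = (a⁻¹ * w⁻¹ * a)⁻¹ * z := inverts_mul _ _ hb
    have hsa' : s * a⁻¹ = a⁻¹ * s := (hsa.inv_right).eq
    have hsw' : s * w = w⁻¹ * s := inverts_mul _ _ hsw
    have h2 : s * (a⁻¹ * w⁻¹ * a)⁻¹ = (a⁻¹ * w⁻¹ * a) * s := by
      calc s * (a⁻¹ * w⁻¹ * a)⁻¹ = (s * a⁻¹) * w * a := by simp [mul_assoc]
        _ = a⁻¹ * (s * w) * a := by rw [hsa']; simp only [mul_assoc]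
        _ = a⁻¹ * w⁻¹ * (s * a) := by rw [hsw']; simp only [mul_assoc]
        _ = (a⁻¹ * w⁻¹ * a) * s := by rw [hsa.eq]; simp only [mul_assoc]
    show a⁻¹ * w⁻¹ * a * (s * z) = s * z * (a⁻¹ * w⁻¹ * a)
    calc a⁻¹ * w⁻¹ * a * (s * z) = (a⁻¹ * w⁻¹ * a * s) * z := by simp only [mul_assoc]
      _ = s * ((a⁻¹ * w⁻¹ * a)⁻¹ * z) := by rw [← h2]; simp only [mul_assoc]
      _ = s * z * (a⁻¹ * w⁻¹ * a) := by rw [← h1]; simp only [mul_assoc]
  · -- c centralizes z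
    have h1 : a * z * a⁻¹ = w * (g * z * g⁻¹) * w⁻¹ := by rw [ha1, hp]
    have h2 : a⁻¹ * (a * z * a⁻¹) * (w * g) = a⁻¹ * (w * (g * z * g⁻¹) * w⁻¹) * (w * g) := by
      rw [h1]
    simp only [mul_assoc, inv_mul_cancel_left, inv_mul_cancel, mul_one] at h2
    simp only [mul_assoc]
    exact h2
  · simp [mul_assoc]

/-- Existence of the factorisation `g = a * b * c`. -/
theorem exists_factor {G : Type*} [Group G] [Finite G] (z : G) (hzz : z * z = 1)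
    (hiso : ∀ g : G, Commute z (g * z * g⁻¹) → g * z * g⁻¹ = z) (s : G) (hss : s * s = 1)
    (hsz : Commute s z) (g : G) :
    ∃ a b c : G, (Odd (orderOf a) ∧ z * a * z⁻¹ = a⁻¹ ∧ Commute a s) ∧
      (Odd (orderOf b) ∧ z * b * z⁻¹ = b⁻¹ ∧ Commute b (s * z)) ∧
      c ∈ Subgroup.centralizer ({z} : Set G) ∧ a * b * c = g := by
  have hpp : (g * z * g⁻¹) * (g * z * g⁻¹) = 1 := conj_mul_self_eq_one z g hzz
  have hpiso := isolated_conj z hiso g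
  have hodd := isolated_mul_conj_odd (g * z * g⁻¹) hpp hpiso s
  obtain ⟨w, hwodd, hpw, hsw, hsq⟩ := exists_midpoint (g * z * g⁻¹) s hpp hss hodd
  have hq : (w * g) * z * (w * g)⁻¹ = w * (g * z * g⁻¹) * w⁻¹ := by simp [mul_assoc]
  obtain ⟨k, hk1, hk2, hk3⟩ := isolated_conj_by_pow z hzz hiso (w * g)
  rw [hq] at hk1 hk2 hk3
  have hsa : Commute s ((z * (w * (g * z * g⁻¹) * w⁻¹)) ^ k) := (hsz.mul_right hsq).pow_right k
  generalize (z * (w * (g * z * g⁻¹) * w⁻¹)) ^ k = a at *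
  obtain ⟨h1, h2, h3, h4⟩ := core_surj z s (g * z * g⁻¹) w a g hzz hss rfl hpw hsw hk1 hsa
  refine ⟨a, a⁻¹ * w⁻¹ * a, a⁻¹ * w * g, ⟨hk3, hk2, hsa.symm⟩, ⟨?_, h1, h2⟩, ?_, h4⟩
  · have := orderOf_conj_eq a⁻¹ w⁻¹
    rw [inv_inv] at this
    rw [this, orderOf_inv]
    exact hwodd
  · rw [Subgroup.mem_centralizer_iff]
    intro y hy
    rw [Set.mem_singleton_iff] at hy
    subst hy
    exact h3

/-- The "midpoint" identity behind uniqueness. -/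
theorem core_mid {G : Type*} [Group G] (z s a b : G) (hsz : Commute s z)
    (hsa : Commute a s) (hb2 : z * b * z⁻¹ = b⁻¹) (hbs : Commute b (s * z)) :
    (a * z * a⁻¹) * ((a * b) * z * (a * b)⁻¹) * (a * z * a⁻¹)⁻¹
      = s * ((a * b) * z * (a * b)⁻¹) * s⁻¹ := by
  have hsas : s * a * s⁻¹ = a := by
    rw [← hsa.eq]; simp [mul_assoc]
  have hszs : s * z * s⁻¹ = z := by
    rw [hsz.eq]; simp [mul_assoc]
  have hsbs : s * b * s⁻¹ = b⁻¹ := by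
    have h1 : (s * z) * b * (s * z)⁻¹ = b := by
      rw [← hbs.eq]; simp [mul_assoc]
    have h2 : s * (z * b * z⁻¹) * s⁻¹ = b := by
      calc s * (z * b * z⁻¹) * s⁻¹ = (s * z) * b * (s * z)⁻¹ := by simp [mul_assoc]
        _ = b := h1
    rw [hb2] at h2
    calc s * b * s⁻¹ = (s * b⁻¹ * s⁻¹)⁻¹ := by simp [mul_assoc]
      _ = b⁻¹ := by rw [h2]
  calc (a * z * a⁻¹) * ((a * b) * z * (a * b)⁻¹) * (a * z * a⁻¹)⁻¹
      = a * ((z * b * z⁻¹) * z * (z * b * z⁻¹)⁻¹) * a⁻¹ := by simp [mul_assoc]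
    _ = a * (b⁻¹ * z * b) * a⁻¹ := by rw [hb2, inv_inv]
    _ = (s * a * s⁻¹) * ((s * b * s⁻¹) * (s * z * s⁻¹) * (s * b * s⁻¹)⁻¹) * (s * a * s⁻¹)⁻¹ := by
        rw [hsas, hszs, hsbs, inv_inv]
    _ = s * ((a * b) * z * (a * b)⁻¹) * s⁻¹ := by simp [mul_assoc]

/-- An element of `K` is determined by the conjugate of `z` it produces. -/
theorem K_unique {G : Type*} [Group G] [Finite G] (z : G) (hz : Cfsg.IsIsolatedInvolution z)
    (k k' : G) (hk : Odd (orderOf k) ∧ z * k * z⁻¹ = k⁻¹) (hk' : Odd (orderOf k') ∧ z * k' * z⁻¹ = k'⁻¹)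
    (h : k * z * k⁻¹ = k' * z * k'⁻¹) : k = k' := by
  obtain ⟨k0, -, hu⟩ := Cfsg.Agent.S1185.result z hz k
  have h1 : k = k0 := hu k ⟨hk, by simp [Subgroup.one_mem]⟩
  have h2 : k' = k0 := by
    refine hu k' ⟨hk', ?_⟩
    rw [Subgroup.mem_centralizer_iff]
    intro y hy
    rw [Set.mem_singleton_iff] at hy
    subst hy
    have : k⁻¹ * (k * y * k⁻¹) * k' = k⁻¹ * (k' * y * k'⁻¹) * k' := by rw [h]
    simp only [mul_assoc, inv_mul_cancel_left, inv_mul_cancel, mul_one] at this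
    simp only [mul_assoc]
    exact this
  rw [h1, h2]

/-- Uniqueness of the factorisation `g = a * b * c`. -/
theorem factor_unique {G : Type*} [Group G] [Finite G] (z : G) (hz : Cfsg.IsIsolatedInvolution z)
    (s : G) (hsz : Commute s z) (a b c a' b' c' : G)
    (ha : Odd (orderOf a) ∧ z * a * z⁻¹ = a⁻¹ ∧ Commute a s)
    (hb : Odd (orderOf b) ∧ z * b * z⁻¹ = b⁻¹ ∧ Commute b (s * z))
    (hc : c ∈ Subgroup.centralizer ({z} : Set G))
    (ha' : Odd (orderOf a') ∧ z * a' * z⁻¹ = a'⁻¹ ∧ Commute a' s)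
    (hb' : Odd (orderOf b') ∧ z * b' * z⁻¹ = b'⁻¹ ∧ Commute b' (s * z))
    (hc' : c' ∈ Subgroup.centralizer ({z} : Set G))
    (h : a * b * c = a' * b' * c') : a = a' ∧ b = b' ∧ c = c' := by
  obtain ⟨hzz, hiso⟩ := isolated_unfold z hz
  have hzinv : z⁻¹ = z := inv_eq_of_mul_eq_one_left hzz
  have hcz : c * z * c⁻¹ = z := by
    rw [Subgroup.mem_centralizer_iff] at hc
    rw [← hc z rfl]; simp [mul_assoc]
  have hcz' : c' * z * c'⁻¹ = z := by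
    rw [Subgroup.mem_centralizer_iff] at hc'
    rw [← hc' z rfl]; simp [mul_assoc]
  have hconj : (a * b) * z * (a * b)⁻¹ = (a' * b') * z * (a' * b')⁻¹ := by
    calc (a * b) * z * (a * b)⁻¹ = (a * b) * (c * z * c⁻¹) * (a * b)⁻¹ := by rw [hcz]
      _ = (a * b * c) * z * (a * b * c)⁻¹ := by simp [mul_assoc]
      _ = (a' * b' * c') * z * (a' * b' * c')⁻¹ := by rw [h]
      _ = (a' * b') * (c' * z * c'⁻¹) * (a' * b')⁻¹ := by simp [mul_assoc]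
      _ = (a' * b') * z * (a' * b')⁻¹ := by rw [hcz']
  have hm1 := core_mid z s a b hsz ha.2.2 hb.2.1 hb.2.2
  have hm2 := core_mid z s a' b' hsz ha'.2.2 hb'.2.1 hb'.2.2
  rw [← hconj] at hm2
  -- P is an isolated involution
  have hPiso : Cfsg.IsIsolatedInvolution ((a * b) * z * (a * b)⁻¹) := by
    refine ⟨?_, isolated_conj z hiso (a * b)⟩
    rw [orderOf_conj_eq]; exact hz.1
  have hm1inv : (a * z * a⁻¹)⁻¹ = a * z * a⁻¹ :=
    inv_eq_of_mul_eq_one_left (conj_mul_self_eq_one z a hzz)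
  have hm2inv : (a' * z * a'⁻¹)⁻¹ = a' * z * a'⁻¹ :=
    inv_eq_of_mul_eq_one_left (conj_mul_self_eq_one z a' hzz)
  have hmeq : a * z * a⁻¹ = a' * z * a'⁻¹ := by
    by_contra hne
    have e1 : (a * (a * b)⁻¹) * ((a * b) * z * (a * b)⁻¹) * (a * (a * b)⁻¹)⁻¹ = a * z * a⁻¹ := by
      simp [mul_assoc]
    have e2 : (a' * (a * b)⁻¹) * ((a * b) * z * (a * b)⁻¹) * (a' * (a * b)⁻¹)⁻¹ = a' * z * a'⁻¹ := by
      simp [mul_assoc]
    have hS := Cfsg.Agent.S1184.result ((a * b) * z * (a * b)⁻¹) hPiso (a' * (a * b)⁻¹)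
      (a * (a * b)⁻¹) (by rw [e1, e2]; exact fun h => hne h.symm)
    rw [e1, e2] at hS
    apply hS
    generalize (a * b) * z * (a * b)⁻¹ = P at *
    generalize a * z * a⁻¹ = m1 at *
    generalize a' * z * a'⁻¹ = m2 at *
    show m2 * m1 * P = P * (m2 * m1)
    have h3 : m1 * P * m1 = m2 * P * m2 := by
      have := hm1.trans hm2.symm
      rw [hm1inv, hm2inv] at this
      exact this
    have hm2m2 : m2 * m2 = 1 := by
      calc m2 * m2 = m2⁻¹ * m2 := by rw [hm2inv]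
        _ = 1 := inv_mul_cancel m2
    have hm1m1 : m1 * m1 = 1 := by
      calc m1 * m1 = m1⁻¹ * m1 := by rw [hm1inv]
        _ = 1 := inv_mul_cancel m1
    calc m2 * m1 * P = m2 * (m1 * P * m1) * m1 := by
          simp only [mul_assoc]; rw [hm1m1, mul_one]
      _ = m2 * (m2 * P * m2) * m1 := by rw [h3]
      _ = P * (m2 * m1) := by
          simp only [← mul_assoc]; rw [hm2m2, one_mul]
  have haa : a = a' := K_unique z hz a a' ⟨ha.1, ha.2.1⟩ ⟨ha'.1, ha'.2.1⟩ hmeq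
  subst haa
  have hbb : b = b' := by
    apply K_unique z hz b b' ⟨hb.1, hb.2.1⟩ ⟨hb'.1, hb'.2.1⟩
    have : a⁻¹ * ((a * b) * z * (a * b)⁻¹) * a = a⁻¹ * ((a * b') * z * (a * b')⁻¹) * a := by
      rw [hconj]
    simp only [mul_assoc, mul_inv_rev, inv_mul_cancel_left, inv_mul_cancel, mul_one] at this
    simp only [mul_assoc]
    exact this
  subst hbb
  exact ⟨rfl, rfl, mul_left_cancel h⟩

/-- Let z be an isolated involution of the finite group G, C = C_G(z), K the set of elements of odd order inverted by z, and s an involution of C. Then |G| = |C| · |C_K(sz)| · |C_K(s)|. -/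
theorem result {G : Type*} [Group G] [Finite G] (z : G) (hz : Cfsg.IsIsolatedInvolution z) (s : G) (hs : orderOf s = 2) (hsz : Commute s z) : Nat.card G = Nat.card (Subgroup.centralizer ({z} : Set G)) * Nat.card {k : G // Odd (orderOf k) ∧ z * k * z⁻¹ = k⁻¹ ∧ Commute k (s * z)} * Nat.card {k : G // Odd (orderOf k) ∧ z * k * z⁻¹ = k⁻¹ ∧ Commute k s} := by
  obtain ⟨hzz, hiso⟩ := isolated_unfold z hz
  have hss : s * s = 1 := by
    have := pow_orderOf_eq_one s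
    rw [hs, pow_two] at this
    exact this
  let F : (Subgroup.centralizer ({z} : Set G)) ×
      {k : G // Odd (orderOf k) ∧ z * k * z⁻¹ = k⁻¹ ∧ Commute k (s * z)} ×
      {k : G // Odd (orderOf k) ∧ z * k * z⁻¹ = k⁻¹ ∧ Commute k s} → G :=
    fun x => x.2.2.1 * x.2.1.1 * x.1.1
  have hF : Function.Bijective F := by
    constructor
    · rintro ⟨⟨c, hc⟩, ⟨b, hb⟩, ⟨a, ha⟩⟩ ⟨⟨c', hc'⟩, ⟨b', hb'⟩, ⟨a', ha'⟩⟩ h
      have h' : a * b * c = a' * b' * c' := h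
      obtain ⟨rfl, rfl, rfl⟩ := factor_unique z hz s hsz a b c a' b' c' ha hb hc ha' hb' hc' h'
      rfl
    · intro g
      obtain ⟨a, b, c, ha, hb, hc, h⟩ := exists_factor z hzz hiso s hss hsz g
      exact ⟨⟨⟨c, hc⟩, ⟨b, hb⟩, ⟨a, ha⟩⟩, h⟩
  rw [← Nat.card_congr (Equiv.ofBijective F hF), Nat.card_prod, Nat.card_prod, mul_assoc]

end Cfsg.Agent.S1186
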