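import Mathlib
import Cfsg.Statements.S1227
import Cfsg.Agent.Lib.Helper2.CIT

set_option autoImplicit false
open Cfsg

namespace Cfsg.Agent.S1227

/-- Let G be a finite group with a Sylow 2-subgroup T that is neither cyclic nor normal, such that the centralizer of every involution is an elementary abelian 2-group; put H = N_G(T), let u be an involution outside H and D = H ∩ uHu⁻¹. Then u inverts every element of D, |H| = |T|·(|T| − 1), and D is a complement to T in H. -/
theorem result {G : Type*} [Group G] [Finite G] (T : Sylow 2 G) (hnc : ¬ IsCyclic (T : Subgroup G)) (hnn : ¬ (T : Subgroup G).Normal) (hC : ∀ t : G, orderOf t = 2 → IsMulCommutative (Subgroup.centralizer ({t} : Set G)) ∧ ∀ c ∈ Subgroup.centralizer ({t} : Set G), c ^ 2 = 1) (u : G) (hu : orderOf u = 2) (huH : u ∉ Subgroup.normalizer ((T : Subgroup G) : Set G)) : (∀ d ∈ Subgroup.normalizer ((T : Subgroup G) : Set G) ⊓ (Subgroup.normalizer ((T : Subgroup G) : Set G)).map (MulAut.conj u).toMonoidHom, u * d * u⁻¹ = d⁻¹) ∧ Nat.card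 (Subgroup.normalizer ((T : Subgroup G) : Set G)) = Nat.card T * (Nat.card T - 1) ∧ Subgroup.IsComplement' ((Subgroup.normalizer ((T : Subgroup G) : Set G) ⊓ (Subgroup.normalizer ((T : Subgroup G) : Set G)).map (MulAut.conj u).toMonoidHom).subgroupOf (Subgroup.normalizer ((T : Subgroup G) : Set G))) ((T : Subgroup G).subgroupOf (Subgroup.normalizer ((T : Subgroup G) : Set G))) := by
  obtain ⟨h1, h2, h3, h4⟩ := Cfsg.Agent.Lib.Helper2.cit_D T hnc hnn hC
    (Subgroup.normalizer ((T : Subgroup G) : Set G)) rfl u hu huH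
  have hcomp : Subgroup.IsComplement' ((Subgroup.normalizer ((T : Subgroup G) : Set G) ⊓ (Subgroup.normalizer ((T : Subgroup G) : Set G)).map (MulAut.conj u).toMonoidHom).subgroupOf (Subgroup.normalizer ((T : Subgroup G) : Set G)))
      ((T : Subgroup G).subgroupOf (Subgroup.normalizer ((T : Subgroup G) : Set G))) := by
    apply Subgroup.isComplement'_of_disjoint_and_mul_eq_univ
    · rw [disjoint_iff, Subgroup.eq_bot_iff_forall]
      intro x hx
      have hx1 : (x : G) ∈ (Subgroup.normalizer ((T : Subgroup G) : Set G) ⊓ (Subgroup.normalizer ((T : Subgroup G) : Set G)).map (MulAut.conj u).toMonoidHom) := Subgroup.mem_subgroupOf.mp hx.1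
      have hx2 : (x : G) ∈ (T : Subgroup G) := Subgroup.mem_subgroupOf.mp hx.2
      exact Subtype.ext (h4 _ hx1 hx2)
    · rw [Set.eq_univ_iff_forall]
      intro x
      obtain ⟨d, hd, τ, hτ, hx⟩ := h3 x.1 x.2
      refine ⟨⟨d, hd.1⟩, ?_, ⟨τ, Subgroup.le_normalizer hτ⟩, ?_, ?_⟩
      · exact Subgroup.mem_subgroupOf.mpr hd
      · exact Subgroup.mem_subgroupOf.mpr hτ
      · exact Subtype.ext hx.symm
  refine ⟨h1, ?_, hcomp⟩
  have hc := hcomp.card_mul_card
  have e1 : Nat.card ↥((Subgroup.normalizer ((T : Subgroup G) : Set G) ⊓ (Subgroup.normalizer ((T : Subgroup G) : Set G)).map (MulAut.conj u).toMonoidHom).subgroupOf (Subgroup.normalizer ((T : Subgroup G) : Set G))) = Nat.card ↥(Subgroup.normalizer ((T : Subgroup G) : Set G) ⊓ (Subgroup.normalizer ((T : Subgroup G) : Set G)).map (MulAut.conj u).toMonoidHom) :=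
    Nat.card_congr (Subgroup.subgroupOfEquivOfLe inf_le_left).toEquiv
  have e2 : Nat.card ↥((T : Subgroup G).subgroupOf (Subgroup.normalizer ((T : Subgroup G) : Set G))) = Nat.card ↥(T : Subgroup G) :=
    Nat.card_congr (Subgroup.subgroupOfEquivOfLe Subgroup.le_normalizer).toEquiv
  rw [e1, e2, h2] at hc
  rw [← hc, mul_comm]

end Cfsg.Agent.S1227
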