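import Mathlib
import Cfsg.Statements.S1228
import Cfsg.Agent.Lib.Helper2.CIT2

set_option autoImplicit false
open Cfsg

namespace Cfsg.Agent.S1228

/-- Let G be a finite group with a Sylow 2-subgroup T that is neither cyclic nor normal, such that the centralizer of every involution is an elementary abelian 2-group; put H = N_G(T), let u be an involution outside H and D = H ∩ uHu⁻¹. Then N_G(D) = D ⊔ ⟨u⟩, and a coset gH is fixed by every element of D exactly when gH = H or gH = uH. -/
theorem result {G : Type*} [Group G] [Finite G] (T : Sylow 2 G) (hnc : ¬ IsCyclic (T : Subgroup G)) (hnn : ¬ (T : Subgroup G).Normal) (hC : ∀ t : G, orderOf t = 2 → IsMulCommutative (Subgroup.centralizer ({t} : Set G)) ∧ ∀ c ∈ Subgroup.centralizer ({t} : Set G), c ^ 2 = 1) (u : G) (hu : orderOf u = 2) (huH : u ∉ Subgroup.normalizer ((T : Subgroup G) : Set G)) : Subgroup.normalizer ((Subgroup.normalizer ((T : Subgroup G) : Set G) ⊓ (Subgroup.normalizer ((T : Subgroup G) : Set G)).map (MulAut.conj u).toMonoidHom : Subgroup G) : Set G) = (Subgroup.normalizer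 ((T : Subgroup G) : Set G) ⊓ (Subgroup.normalizer ((T : Subgroup G) : Set G)).map (MulAut.conj u).toMonoidHom) ⊔ Subgroup.zpowers u ∧ ∀ g : G, ((∀ d ∈ Subgroup.normalizer ((T : Subgroup G) : Set G) ⊓ (Subgroup.normalizer ((T : Subgroup G) : Set G)).map (MulAut.conj u).toMonoidHom, d • (QuotientGroup.mk g : G ⧸ Subgroup.normalizer ((T : Subgroup G) : Set G)) = QuotientGroup.mk g) ↔ (QuotientGroup.mk g : G ⧸ Subgroup.normalizer ((T : Subgroup G) : Set G)) = QuotientGroup.mk 1 ∨ (QuotientGroup.mk g : G ⧸ Subgroup.normalizer ((T : Subgroup G) : Set G)) = QuotientGroup.mk u) := by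
  obtain ⟨hfix, hcard, huN⟩ := Cfsg.Agent.Lib.Helper2.cit_fix T hnc hnn hC (Subgroup.normalizer ((T : Subgroup G) : Set G)) rfl u hu huH
  obtain ⟨hinv, hcardD, -, hDT⟩ := Cfsg.Agent.Lib.Helper2.cit_D T hnc hnn hC (Subgroup.normalizer ((T : Subgroup G) : Set G)) rfl u hu huH
  constructor
  · symm
    apply Subgroup.eq_of_le_of_card_ge
    · exact sup_le Subgroup.le_normalizer (by rw [Subgroup.zpowers_le]; exact huN)
    · refine le_trans hcard ?_
      rw [← hcardD]
      have hle : (Subgroup.normalizer ((T : Subgroup G) : Set G) ⊓ (Subgroup.normalizer ((T : Subgroup G) : Set G)).map (MulAut.conj u).toMonoidHom) ≤ (Subgroup.normalizer ((T : Subgroup G) : Set G) ⊓ (Subgroup.normalizer ((T : Subgroup G) : Set G)).map (MulAut.conj u).toMonoidHom) ⊔ Subgroup.zpowers u := le_sup_left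
      obtain ⟨k, hk⟩ := Subgroup.card_dvd_of_le hle
      have hk2 : 2 ≤ k := by
        by_contra hlt
        push Not at hlt
        have hpos : 0 < Nat.card ↥((Subgroup.normalizer ((T : Subgroup G) : Set G) ⊓ (Subgroup.normalizer ((T : Subgroup G) : Set G)).map (MulAut.conj u).toMonoidHom) ⊔ Subgroup.zpowers u) := Nat.card_pos
        have hk01 : k = 0 ∨ k = 1 := by omega
        rcases hk01 with h | h
        · rw [h, mul_zero] at hk; omega
        · have h5 := Subgroup.eq_of_le_of_card_ge hle (by rw [hk, h, mul_one])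
          apply huH
          have h6 : u ∈ (Subgroup.normalizer ((T : Subgroup G) : Set G) ⊓ (Subgroup.normalizer ((T : Subgroup G) : Set G)).map (MulAut.conj u).toMonoidHom) := by
            rw [h5]; exact Subgroup.mem_sup_right (Subgroup.mem_zpowers u)
          exact h6.1
      rw [hk]; nlinarith
  · intro g
    constructor
    · intro h
      by_cases h1 : (QuotientGroup.mk g : G ⧸ Subgroup.normalizer ((T : Subgroup G) : Set G)) = QuotientGroup.mk 1
      · left; exact h1
      · right; exact hfix _ h1 h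
    · rintro (h | h)
      · rw [h]; intro d hd
        exact (Cfsg.Agent.Lib.Helper2.smul_mk_one_eq_iff (Subgroup.normalizer ((T : Subgroup G) : Set G)) d).mpr hd.1
      · rw [h]; intro d hd
        have h2 : d ∈ (Subgroup.normalizer ((T : Subgroup G) : Set G)).map (MulAut.conj u).toMonoidHom := hd.2
        rw [Cfsg.Agent.Lib.Helper7.mem_map_conj] at h2
        exact (Cfsg.Agent.Lib.Helper2.smul_mk_eq_iff (Subgroup.normalizer ((T : Subgroup G) : Set G)) d u).mpr h2

end Cfsg.Agent.S1228
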