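import Mathlib
import Cfsg.Statements.S1229
import Cfsg.Agent.Lib.Helper2.CIT3
import Cfsg.Agent.Lib.Helper4.Normalizer

set_option autoImplicit false
open Cfsg

namespace Cfsg.Agent.S1229

/-- Let G be a finite group with a Sylow 2-subgroup T that is neither cyclic nor normal, such that the centralizer of every involution is an elementary abelian 2-group; put H = N_G(T) and X = G/H. Then G is triply transitive on X, an element fixing three distinct points of X is the identity, and T acts regularly on X minus the point H. -/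
theorem result {G : Type*} [Group G] [Finite G] (T : Sylow 2 G) (hnc : ¬ IsCyclic (T : Subgroup G)) (hnn : ¬ (T : Subgroup G).Normal) (hC : ∀ t : G, orderOf t = 2 → IsMulCommutative (Subgroup.centralizer ({t} : Set G)) ∧ ∀ c ∈ Subgroup.centralizer ({t} : Set G), c ^ 2 = 1) : (∀ x₁ x₂ x₃ y₁ y₂ y₃ : G ⧸ Subgroup.normalizer ((T : Subgroup G) : Set G), x₁ ≠ x₂ → x₁ ≠ x₃ → x₂ ≠ x₃ → y₁ ≠ y₂ → y₁ ≠ y₃ → y₂ ≠ y₃ → ∃ g : G, g • x₁ = y₁ ∧ g • x₂ = y₂ ∧ g • x₃ = y₃) ∧ (∀ g : G, ∀ x₁ x₂ x₃ : G ⧸ Subgroup.normalizer ((T : Subgroup G) : Set G), x₁ ≠ x₂ → x₁ ≠ x₃ → x₂ ≠ x₃ → g • x₁ = x₁ → g • x₂ = x₂ → g • x₃ = x₃ → g = 1) ∧ (∀ x y : G ⧸ Subgroup.normalizer ((T : Subgroup G) : Set G), x ≠ QuotientGroup.mk 1 → y ≠ QuotientGroup.mk 1 → ∃! t : G, t ∈ T ∧ t • x = y) := by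
  obtain ⟨hcent, hmemT, hexp, z, hzT, hz⟩ := Cfsg.Agent.Lib.Helper2.cit_facts T hnn hC
  have hSE := Cfsg.Agent.S1226.result T hnc hnn hC
  obtain ⟨g, hg⟩ : ∃ g : G, g ∉ Subgroup.normalizer ((T : Subgroup G) : Set G) := by
    by_contra h
    push Not at h
    exact hSE.1 ((Subgroup.eq_top_iff' _).mpr h)
  obtain ⟨u, hu, huH, -⟩ := Cfsg.Agent.Lib.Helper2.cit_exists_invol T hnc hnn hC _ rfl (QuotientGroup.mk g)
    (Cfsg.Agent.Lib.Helper2.mk_ne_one_of_not_mem _ hg)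
  have hu1 : ((u : G) : G ⧸ Subgroup.normalizer ((T : Subgroup G) : Set G)) ≠ ((1 : G) : G ⧸ Subgroup.normalizer ((T : Subgroup G) : Set G)) := Cfsg.Agent.Lib.Helper2.mk_ne_one_of_not_mem _ huH
  have part3 : ∀ x y : G ⧸ Subgroup.normalizer ((T : Subgroup G) : Set G), x ≠ QuotientGroup.mk 1 → y ≠ QuotientGroup.mk 1 →
      ∃! t : G, t ∈ T ∧ t • x = y := by
    intro x y hx hy
    obtain ⟨τ1, hτ1, rfl⟩ := Cfsg.Agent.Lib.Helper2.cit_T_trans T hnc hnn hC _ rfl u hu huH x hx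
    obtain ⟨τ2, hτ2, rfl⟩ := Cfsg.Agent.Lib.Helper2.cit_T_trans T hnc hnn hC _ rfl u hu huH y hy
    refine ⟨τ2 * τ1⁻¹, ⟨(T : Subgroup G).mul_mem hτ2 ((T : Subgroup G).inv_mem hτ1), ?_⟩, ?_⟩
    · show (τ2 * τ1⁻¹) • τ1 • ((u : G) : G ⧸ Subgroup.normalizer ((T : Subgroup G) : Set G)) = τ2 • ((u : G) : G ⧸ Subgroup.normalizer ((T : Subgroup G) : Set G))
      rw [mul_smul, inv_smul_smul]
    · rintro t ⟨ht, hte⟩
      have ht' : t ∈ (T : Subgroup G) := ht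
      have h1 : (τ2⁻¹ * t * τ1) • ((u : G) : G ⧸ Subgroup.normalizer ((T : Subgroup G) : Set G)) = ((u : G) : G ⧸ Subgroup.normalizer ((T : Subgroup G) : Set G)) := by
        rw [mul_smul, mul_smul, hte, inv_smul_smul]
      have h2 := Cfsg.Agent.Lib.Helper2.cit_T_semireg T hnc hnn hC _ rfl
        ((T : Subgroup G).mul_mem ((T : Subgroup G).mul_mem ((T : Subgroup G).inv_mem hτ2) ht') hτ1)
        hu1 h1
      calc t = τ2 * (τ2⁻¹ * t * τ1) * τ1⁻¹ := by group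
        _ = τ2 * τ1⁻¹ := by rw [h2, mul_one]
  have hNF := fun (x1 x2 x3 : G ⧸ Subgroup.normalizer ((T : Subgroup G) : Set G)) (h12 : x1 ≠ x2) (h13 : x1 ≠ x3) (h23 : x2 ≠ x3) =>
    Cfsg.Agent.Lib.Helper2.cit_normal_form T hnc hnn hC _ rfl u hu huH z hzT hz x1 x2 x3 h12 h13 h23
  refine ⟨?_, ?_, part3⟩
  · intro x₁ x₂ x₃ y₁ y₂ y₃ hx12 hx13 hx23 hy12 hy13 hy23
    obtain ⟨gx, hgx1, hgx2, hgx3⟩ := hNF x₁ x₂ x₃ hx12 hx13 hx23
    obtain ⟨gy, hgy1, hgy2, hgy3⟩ := hNF y₁ y₂ y₃ hy12 hy13 hy23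
    refine ⟨gy⁻¹ * gx, ?_, ?_, ?_⟩
    · rw [mul_smul, hgx1, inv_smul_eq_iff, hgy1]
    · rw [mul_smul, hgx2, inv_smul_eq_iff, hgy2]
    · rw [mul_smul, hgx3, inv_smul_eq_iff, hgy3]
  · intro g x₁ x₂ x₃ h12 h13 h23 hg1 hg2 hg3
    obtain ⟨k, hk1, hk2, hk3⟩ := hNF x₁ x₂ x₃ h12 h13 h23
    have f1 : (k * g * k⁻¹) • ((1 : G) : G ⧸ Subgroup.normalizer ((T : Subgroup G) : Set G)) = ((1 : G) : G ⧸ Subgroup.normalizer ((T : Subgroup G) : Set G)) := by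
      rw [← hk1, mul_smul, mul_smul, inv_smul_smul, hg1]
    have f2 : (k * g * k⁻¹) • ((u : G) : G ⧸ Subgroup.normalizer ((T : Subgroup G) : Set G)) = ((u : G) : G ⧸ Subgroup.normalizer ((T : Subgroup G) : Set G)) := by
      rw [← hk2, mul_smul, mul_smul, inv_smul_smul, hg2]
    have f3 : (k * g * k⁻¹) • (z • ((u : G) : G ⧸ Subgroup.normalizer ((T : Subgroup G) : Set G))) = z • ((u : G) : G ⧸ Subgroup.normalizer ((T : Subgroup G) : Set G)) := by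
      rw [← hk3, mul_smul, mul_smul, inv_smul_smul, hg3]
    have m1 : k * g * k⁻¹ ∈ Subgroup.normalizer ((T : Subgroup G) : Set G) := (Cfsg.Agent.Lib.Helper2.smul_mk_one_eq_iff _ _).mp f1
    have m2 : k * g * k⁻¹ ∈ (Subgroup.normalizer ((T : Subgroup G) : Set G)).map (MulAut.conj u).toMonoidHom :=
      (Cfsg.Agent.Lib.Helper7.mem_map_conj _ u _).mpr ((Cfsg.Agent.Lib.Helper2.smul_mk_eq_iff _ _ _).mp f2)
    have hτ1 : (k * g * k⁻¹) * z * (k * g * k⁻¹)⁻¹ ∈ (T : Subgroup G) :=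
      Cfsg.Agent.Lib.Helper4.conj_mem_of_mem_normalizer m1 hzT
    have e0 : ((k * g * k⁻¹) * z * (k * g * k⁻¹)⁻¹) • ((u : G) : G ⧸ Subgroup.normalizer ((T : Subgroup G) : Set G)) =
        z • ((u : G) : G ⧸ Subgroup.normalizer ((T : Subgroup G) : Set G)) := by
      have e1 : ((k * g * k⁻¹) * z * (k * g * k⁻¹)⁻¹) • ((k * g * k⁻¹) • ((u : G) : G ⧸ Subgroup.normalizer ((T : Subgroup G) : Set G))) =
          (k * g * k⁻¹) • (z • ((u : G) : G ⧸ Subgroup.normalizer ((T : Subgroup G) : Set G))) := by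
        rw [smul_smul, smul_smul]; congr 1; group
      rw [f2, f3] at e1; exact e1
    have f4 : (z⁻¹ * ((k * g * k⁻¹) * z * (k * g * k⁻¹)⁻¹)) • ((u : G) : G ⧸ Subgroup.normalizer ((T : Subgroup G) : Set G)) =
        ((u : G) : G ⧸ Subgroup.normalizer ((T : Subgroup G) : Set G)) := by
      rw [mul_smul, e0, inv_smul_smul]
    have h5 := Cfsg.Agent.Lib.Helper2.cit_T_semireg T hnc hnn hC _ rfl
      ((T : Subgroup G).mul_mem ((T : Subgroup G).inv_mem hzT) hτ1) hu1 f4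
    have h6 : (k * g * k⁻¹) * z = z * (k * g * k⁻¹) := by
      calc (k * g * k⁻¹) * z
          = z * (z⁻¹ * ((k * g * k⁻¹) * z * (k * g * k⁻¹)⁻¹)) * (k * g * k⁻¹) := by group
        _ = z * (k * g * k⁻¹) := by rw [h5, mul_one]
    have m3 : k * g * k⁻¹ ∈ (T : Subgroup G) := by
      rw [← hcent z hzT hz, Subgroup.mem_centralizer_iff]
      intro h hh
      rw [Set.mem_singleton_iff.mp hh]; exact h6.symm
    have hDT := (Cfsg.Agent.Lib.Helper2.cit_D T hnc hnn hC _ rfl u hu huH).2.2.2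
    have h7 := hDT _ ⟨m1, m2⟩ m3
    calc g = k⁻¹ * (k * g * k⁻¹) * k := by group
      _ = 1 := by rw [h7]; group

end Cfsg.Agent.S1229
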