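import Mathlib
import Cfsg.Statements.S1241
import Cfsg.Agent.Lib.Helper2.TransferPhi

set_option autoImplicit false
open Cfsg

namespace Cfsg.Agent.S1241

open Cfsg.Agent.Lib.Helper2 in
/-- Let G be a finite group, p a prime, H a subgroup of index prime to p, K a subgroup of H normal in H with H/K commutative, and g ∈ H ∖ K an element of p-power order such that for all integers m and all a ∈ G with a g^m a⁻¹ ∈ H one has a g^m a⁻¹ ∈ g^m K. Then g ∉ G'. -/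
theorem result {G : Type*} [Group G] [Finite G] {p : ℕ} [Fact p.Prime] (H K : Subgroup G) (hHK : K ≤ H) (hKn : (K.subgroupOf H).Normal) (hab : ∀ x ∈ H, ∀ y ∈ H, x * y * x⁻¹ * y⁻¹ ∈ K) (hidx : Nat.Coprime p H.index) (g : G) (hgH : g ∈ H) (hgK : g ∉ K) (hgp : ∃ k : ℕ, orderOf g = p ^ k) (hctrl : ∀ (m : ℤ) (a : G), a * g ^ m * a⁻¹ ∈ H → (a * g ^ m * a⁻¹) * (g ^ m)⁻¹ ∈ K) : g ∉ commutator G := by
  intro hgc
  -- the commutator subgroup of H lies in K
  have hcomm : commutator H ≤ K.subgroupOf H := by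
    rw [commutator_eq_closure, Subgroup.closure_le]
    rintro _ ⟨x, y, rfl⟩
    show ((x * y * x⁻¹ * y⁻¹ : H) : G) ∈ K
    exact hab x x.2 y y.2
  let N : Subgroup (Abelianization H) := (K.subgroupOf H).map Abelianization.of
  let ϕ : H →* Abelianization H ⧸ N := (QuotientGroup.mk' N).comp Abelianization.of
  have hker : ∀ h : H, ϕ h = 1 → (h : G) ∈ K := by
    intro h hh
    have h1 : Abelianization.of h ∈ N := (QuotientGroup.eq_one_iff _).mp hh
    obtain ⟨k, hk, hkh⟩ := h1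
    have h2 : k⁻¹ * h ∈ (Abelianization.of : H →* Abelianization H).ker := by
      rw [MonoidHom.mem_ker, map_mul, map_inv, hkh, inv_mul_cancel]
    rw [Abelianization.ker_of] at h2
    have h3 : k⁻¹ * h ∈ K.subgroupOf H := hcomm h2
    have h4 : k * (k⁻¹ * h) ∈ K.subgroupOf H := mul_mem hk h3
    rw [mul_inv_cancel_left] at h4
    exact Subgroup.mem_subgroupOf.mp h4
  have hmem : ∀ h : H, (h : G) ∈ K → ϕ h = 1 := by
    intro h hh
    apply (QuotientGroup.eq_one_iff _).mpr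
    exact Subgroup.mem_map_of_mem _ (Subgroup.mem_subgroupOf.mpr hh)
  have key : ∀ (k : ℕ) (g₀ : G) (hk : g₀⁻¹ * g ^ k * g₀ ∈ H),
      ϕ ⟨g₀⁻¹ * g ^ k * g₀, hk⟩ = ϕ ⟨g ^ k, H.pow_mem hgH k⟩ := by
    intro k g₀ hk
    have h1 := hctrl (k : ℤ) g₀⁻¹
    rw [inv_inv, zpow_natCast] at h1
    have h2 := h1 hk
    have h3 : ϕ (⟨g₀⁻¹ * g ^ k * g₀, hk⟩ * (⟨g ^ k, H.pow_mem hgH k⟩ : H)⁻¹) = 1 := hmem _ h2
    rw [map_mul, map_inv, mul_inv_eq_one] at h3
    exact h3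
  have hV := transfer_eq_pow_of_phi ϕ g hgH key
  have hV1 : MonoidHom.transfer ϕ g = 1 := by
    have := Abelianization.commutator_subset_ker (MonoidHom.transfer ϕ) hgc
    exact MonoidHom.mem_ker.mp this
  rw [hV1] at hV
  obtain ⟨k, hk⟩ := hgp
  have hpk : ϕ ⟨g, hgH⟩ ^ (p ^ k) = 1 := by
    rw [← map_pow]
    have : (⟨g, hgH⟩ : H) ^ (p ^ k) = 1 := by
      apply Subtype.ext
      show g ^ (p ^ k) = 1
      rw [← hk]; exact pow_orderOf_eq_one g
    rw [this, map_one]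
  have h1 : orderOf (ϕ ⟨g, hgH⟩) ∣ H.index := orderOf_dvd_of_pow_eq_one hV.symm
  have h2 : orderOf (ϕ ⟨g, hgH⟩) ∣ p ^ k := orderOf_dvd_of_pow_eq_one hpk
  have h3 : Nat.Coprime (p ^ k) H.index := Nat.Coprime.pow_left k hidx
  have h4 : orderOf (ϕ ⟨g, hgH⟩) = 1 := Nat.eq_one_of_dvd_coprimes h3 h2 h1
  exact hgK (hker ⟨g, hgH⟩ (orderOf_eq_one_iff.mp h4))

end Cfsg.Agent.S1241
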