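import Mathlib
import Cfsg.Statements.S1242
import Cfsg.Agent.Lib.Helper2.TransferPhi
import Cfsg.Agent.Lib.Helper2.PRes

set_option autoImplicit false
open Cfsg

namespace Cfsg.Agent.S1242

open Cfsg.Agent.Lib.Helper2 in
/-- Let G be a finite group, p a prime and H a subgroup of index prime to p such that any two elements of H of p-power order that are conjugate in G are conjugate in H. Then (O^p(G)·G') ∩ H = O^p(H)·H', where O^p denotes the subgroup generated by the elements of order prime to p. -/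
theorem result {G : Type*} [Group G] [Finite G] {p : ℕ} [Fact p.Prime] (H : Subgroup G) (hidx : Nat.Coprime p H.index) (hfus : ∀ g ∈ H, (∃ k : ℕ, orderOf g = p ^ k) → ∀ a : G, a * g * a⁻¹ ∈ H → ∃ h ∈ H, h * g * h⁻¹ = a * g * a⁻¹) : (Cfsg.pResidual p G ⊔ commutator G) ⊓ H = (Cfsg.pResidual p ↥H ⊔ commutator ↥H).map H.subtype := by
  have hp : p.Prime := Fact.out
  apply le_antisymm
  · -- the transfer direction
    rintro x ⟨hx1, hxH⟩
    let N : Subgroup (Abelianization H) := (Cfsg.pResidual p ↥H).map Abelianization.of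
    let ϕ : H →* Abelianization H ⧸ N := (QuotientGroup.mk' N).comp Abelianization.of
    have hker : ∀ h : H, ϕ h = 1 → h ∈ Cfsg.pResidual p ↥H ⊔ commutator ↥H := by
      intro h hh
      have h1 : Abelianization.of h ∈ N := (QuotientGroup.eq_one_iff _).mp hh
      obtain ⟨k, hk, hkh⟩ := h1
      have h2 : k⁻¹ * h ∈ (Abelianization.of : H →* Abelianization H).ker := by
        rw [MonoidHom.mem_ker, map_mul, map_inv, hkh, inv_mul_cancel]
      rw [Abelianization.ker_of] at h2
      have h4 : k * (k⁻¹ * h) ∈ Cfsg.pResidual p ↥H ⊔ commutator ↥H := Subgroup.mul_mem_sup hk h2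
      rw [mul_inv_cancel_left] at h4
      exact h4
    have hres : ∀ h : H, h ∈ Cfsg.pResidual p ↥H → ϕ h = 1 := by
      intro h hh
      apply (QuotientGroup.eq_one_iff _).mpr
      exact Subgroup.mem_map_of_mem _ hh
    have hofsurj : Function.Surjective (Abelianization.of : H →* Abelianization H) := by
      intro a
      obtain ⟨h, rfl⟩ := QuotientGroup.mk_surjective a
      exact ⟨h, rfl⟩
    have hϕsurj : Function.Surjective ϕ :=
      (QuotientGroup.mk'_surjective N).comp hofsurj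
    -- the target is a p-group
    have hA : IsPGroup p (Abelianization H ⧸ N) := by
      intro a
      obtain ⟨h, rfl⟩ := hϕsurj a
      obtain ⟨e, m, hm, hgm⟩ := Nat.exists_eq_pow_mul_and_not_dvd (orderOf_pos h).ne' p hp.ne_one
      refine ⟨e, ?_⟩
      have h1 : (h ^ (p ^ e)) ^ m = 1 := by
        rw [← pow_mul, ← hgm, pow_orderOf_eq_one]
      have h2 : orderOf (h ^ (p ^ e)) ∣ m := orderOf_dvd_of_pow_eq_one h1
      have h3 : Nat.Coprime (orderOf (h ^ (p ^ e))) p := by
        have : Nat.Coprime m p := ((Nat.Prime.coprime_iff_not_dvd hp).mpr hm).symm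
        exact Nat.Coprime.coprime_dvd_left h2 this
      rw [← map_pow]
      exact hres _ (mem_pRes_of_coprime h3)
    -- the transfer kills x
    have hVx : MonoidHom.transfer ϕ x = 1 := by
      have h1 : Cfsg.pResidual p G ≤ (MonoidHom.transfer ϕ).ker := pRes_le_ker hA _
      have h2 : commutator G ≤ (MonoidHom.transfer ϕ).ker :=
        Abelianization.commutator_subset_ker _
      exact MonoidHom.mem_ker.mp ((sup_le h1 h2) hx1)
    -- p-part
    obtain ⟨e, m, hm, hxm⟩ := Nat.exists_eq_pow_mul_and_not_dvd (orderOf_pos x).ne' p hp.ne_one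
    have hyH : x ^ m ∈ H := H.pow_mem hxH m
    have hyord : orderOf (x ^ m) ∣ p ^ e := by
      apply orderOf_dvd_of_pow_eq_one
      rw [← pow_mul, mul_comm, ← hxm, pow_orderOf_eq_one]
    have key : ∀ (k : ℕ) (g₀ : G) (hk : g₀⁻¹ * (x ^ m) ^ k * g₀ ∈ H),
        ϕ ⟨g₀⁻¹ * (x ^ m) ^ k * g₀, hk⟩ = ϕ ⟨(x ^ m) ^ k, H.pow_mem hyH k⟩ := by
      intro k g₀ hk
      have ho : ∃ j : ℕ, orderOf ((x ^ m) ^ k) = p ^ j := by
        have : orderOf ((x ^ m) ^ k) ∣ p ^ e := (orderOf_pow_dvd k).trans hyord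
        obtain ⟨j, -, hj⟩ := (Nat.dvd_prime_pow hp).mp this
        exact ⟨j, hj⟩
      have hk' : g₀⁻¹ * (x ^ m) ^ k * g₀⁻¹⁻¹ ∈ H := by rw [inv_inv]; exact hk
      obtain ⟨h, hh, hconj⟩ := hfus ((x ^ m) ^ k) (H.pow_mem hyH k) ho g₀⁻¹ hk'
      rw [inv_inv] at hconj
      have e1 : (⟨g₀⁻¹ * (x ^ m) ^ k * g₀, hk⟩ : H)
          = ⟨h, hh⟩ * ⟨(x ^ m) ^ k, H.pow_mem hyH k⟩ * (⟨h, hh⟩ : H)⁻¹ := by
        apply Subtype.ext
        exact hconj.symm
      rw [e1, map_mul, map_mul, map_inv, mul_comm, inv_mul_cancel_left]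
    have hV := transfer_eq_pow_of_phi ϕ (x ^ m) hyH key
    rw [map_pow, hVx, one_pow] at hV
    have h1 : ϕ ⟨x ^ m, hyH⟩ = 1 :=
      eq_one_of_pow_eq_one_of_coprime hA _ _ hidx.symm hV.symm
    have h2 : ϕ ⟨x, hxH⟩ ^ m = 1 := by
      rw [← map_pow]
      exact h1
    have h3 : ϕ ⟨x, hxH⟩ = 1 :=
      eq_one_of_pow_eq_one_of_coprime hA _ _ ((Nat.Prime.coprime_iff_not_dvd hp).mpr hm).symm h2
    exact ⟨⟨x, hxH⟩, hker _ h3, rfl⟩
  · -- the easy direction
    refine le_inf ?_ (Subgroup.map_subtype_le _)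
    rw [Subgroup.map_sup]
    refine sup_le_sup (pRes_subgroup_le p H) ?_
    rw [commutator_def, Subgroup.map_commutator]
    exact Subgroup.commutator_mono le_top le_top

end Cfsg.Agent.S1242
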