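import Cfsg.Statements.S1243
import Mathlib
import Cfsg.Agent.Lib.Helper2.Fusion

set_option autoImplicit false
open Cfsg

namespace Cfsg.Agent.S1243

open Cfsg.Agent.Lib.Helper2

/-- If W is weakly closed in a Sylow p-subgroup T of G, then N_G(W) controls fusion in C_G(W). -/
theorem result {G : Type*} [Group G] [Finite G] {p : ℕ} [Fact p.Prime] (T : Sylow p G) (W : Subgroup G) (hW : Cfsg.IsWeaklyClosed W (T : Subgroup G)) (d g : G) (hd : d ∈ Subgroup.centralizer (W : Set G)) (hgd : g * d * g⁻¹ ∈ Subgroup.centralizer (W : Set G)) : ∃ h ∈ Subgroup.normalizer (W : Set G), h * d * h⁻¹ = g * d * g⁻¹ := by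
  have hWp : IsPGroup p W := T.isPGroup'.to_le hW.1
  set e := g * d * g⁻¹ with he
  -- W and its conjugate by g both centralize e
  have h1 : W ≤ Subgroup.centralizer ({e} : Set G) := by
    intro w hw
    rw [Subgroup.mem_centralizer_singleton_iff]
    exact (hgd w hw)
  have h2 : W.map (MulAut.conj g).toMonoidHom ≤ Subgroup.centralizer ({e} : Set G) := by
    intro y hy
    rw [mem_map_conj_iff] at hy
    rw [Subgroup.mem_centralizer_singleton_iff]
    have := hd _ hy
    -- (g⁻¹ y g) * d = d * (g⁻¹ y g)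
    have e1 : y * e = g * ((g⁻¹ * y * g) * d) * g⁻¹ := by rw [he]; simp [mul_assoc]
    have e2 : e * y = g * (d * (g⁻¹ * y * g)) * g⁻¹ := by rw [he]; simp [mul_assoc]
    rw [e1, e2, this]
  obtain ⟨c, hcC, hc⟩ := exists_conj_sup_isPGroup (Subgroup.centralizer ({e} : Set G)) W
    (W.map (MulAut.conj g).toMonoidHom) h1 h2 hWp (hWp.map _)
  have hmm : (W.map (MulAut.conj g).toMonoidHom).map (MulAut.conj c).toMonoidHom
      = W.map (MulAut.conj (c * g)).toMonoidHom := by
    ext y
    simp only [mem_map_conj_iff]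
    simp [mul_assoc]
  rw [hmm] at hc
  have hN := weaklyClosed_conj_eq T W hW (c * g) hc
  refine ⟨c * g, ?_, ?_⟩
  · rw [Subgroup.mem_normalizer_iff]
    intro y
    have key : ∀ z : G, z ∈ W ↔ (c * g)⁻¹ * z * (c * g) ∈ W := by
      intro z
      conv_lhs => rw [← hN]
      rw [mem_map_conj_iff]
    rw [key (c * g * y * (c * g)⁻¹)]
    simp [mul_assoc]
  · rw [Subgroup.mem_centralizer_singleton_iff] at hcC
    have e3 : c * g * d * (c * g)⁻¹ = c * e * c⁻¹ := by rw [he]; simp [mul_assoc]
    rw [e3, hcC]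
    simp

end Cfsg.Agent.S1243
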