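import Mathlib
import Cfsg.Statements.S1244
import Cfsg.Agent.Lib.Helper2.AbSylow
import Cfsg.Agent.Lib.Helper2.PRank

set_option autoImplicit false
open Cfsg

namespace Cfsg.Agent.S1244

/-- Let G be a finite group with no subgroup of index 2 whose Sylow 2-subgroup S is commutative, and let R ≤ S be a subgroup whose 2-rank is exactly one less than the 2-rank r of S. Then every involution of S is conjugate, by an element of N_G(S), to an element of R. -/
theorem result {G : Type*} [Group G] [Finite G] (hG : ∀ H : Subgroup G, H.index ≠ 2) (S : Sylow 2 G) (hS : IsMulCommutative (S : Subgroup G)) (r : ℕ) (hr1 : 1 ≤ r) (hSr : Cfsg.PRankLE 2 r (S : Subgroup G) ∧ ¬ Cfsg.PRankLE 2 (r - 1) (S : Subgroup G)) (R : Subgroup G) (hRS : R ≤ S) (hRr : Cfsg.PRankLE 2 (r - 1) R ∧ (r = 1 ∨ ¬ Cfsg.PRankLE 2 (r - 2) R)) (t : G) (ht : orderOf t = 2) (htS : t ∈ S) : ∃ n ∈ Subgroup.normalizer ((S : Subgroup G) : Set G), n * t * n⁻¹ ∈ R := by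
  classical
  haveI : Fact (Nat.Prime 2) := ⟨Nat.prime_two⟩
  by_contra hcon
  push Not at hcon
  have hcomm : ∀ a ∈ (S : Subgroup G), ∀ b ∈ (S : Subgroup G), a * b = b * a := by
    intro a ha b hb
    exact congrArg Subtype.val (hS.is_comm.comm ⟨a, ha⟩ ⟨b, hb⟩)
  have ht2 : t ^ 2 = 1 := by rw [← ht]; exact pow_orderOf_eq_one t
  let V : Subgroup G :=
    { carrier := {x | x ∈ (S : Subgroup G) ∧ x ^ 2 = 1}
      mul_mem' := by
        rintro a b ⟨ha, ha2⟩ ⟨hb, hb2⟩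
        refine ⟨mul_mem ha hb, ?_⟩
        rw [(show Commute a b from hcomm a ha b hb).mul_pow, ha2, hb2, one_mul]
      one_mem' := ⟨one_mem _, one_pow 2⟩
      inv_mem' := by
        rintro a ⟨ha, ha2⟩
        exact ⟨inv_mem ha, by rw [inv_pow, ha2, inv_one]⟩ }
  have hVS : V ≤ (S : Subgroup G) := fun x hx => hx.1
  let W : Subgroup G := V ⊓ R
  have hWV : W ≤ V := inf_le_left
  have hWS : W ≤ (S : Subgroup G) := hWV.trans hVS
  have hpow : ∀ X : Subgroup G, X ≤ (S : Subgroup G) → ∃ k, Nat.card X = 2 ^ k := by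
    intro X hX
    exact IsPGroup.iff_card.mp (S.isPGroup'.to_le hX)
  have hV_le : Nat.card V ≤ 2 ^ r := by
    by_contra h
    push Not at h
    exact (Cfsg.Agent.Lib.Helper2.not_pRankLE_iff (S : Subgroup G)).mpr
      ⟨V, hVS, fun a ha b hb => hcomm a ha.1 b hb.1, fun a ha => ha.2, h⟩ hSr.1
  have hV_card : Nat.card V = 2 ^ r := by
    obtain ⟨E, hES, hEc, hEe, hEcard⟩ :=
      (Cfsg.Agent.Lib.Helper2.not_pRankLE_iff (S : Subgroup G)).mp hSr.2
    have hEV : E ≤ V := fun x hx => ⟨hES hx, hEe x hx⟩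
    have h1 : Nat.card E ≤ Nat.card V := Subgroup.card_le_of_le hEV
    obtain ⟨k, hk⟩ := hpow V hVS
    rw [hk] at h1 hV_le ⊢
    have h2 : 2 ^ (r - 1) < 2 ^ k := lt_of_lt_of_le hEcard h1
    have h3 : r - 1 < k := (pow_lt_pow_iff_right₀ (by norm_num : (1 : ℕ) < 2)).mp h2
    have h4 : k ≤ r := (pow_le_pow_iff_right₀ (by norm_num : (1 : ℕ) < 2)).mp hV_le
    congr 1; omega
  have hW_le : Nat.card W ≤ 2 ^ (r - 1) := by
    by_contra h
    push Not at h
    exact (Cfsg.Agent.Lib.Helper2.not_pRankLE_iff R).mpr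
      ⟨W, inf_le_right, fun a ha b hb => hcomm a ha.1.1 b hb.1.1, fun a ha => ha.1.2, h⟩ hRr.1
  have hW_card : Nat.card W = 2 ^ (r - 1) := by
    obtain ⟨k, hk⟩ := hpow W hWS
    rcases hRr.2 with h1 | h1
    · have h2 : Nat.card W ≤ 1 := by
        have : 2 ^ (r - 1) = 1 := by rw [h1]; norm_num
        omega
      have h3 : 0 < Nat.card W := Nat.card_pos
      have h4 : 2 ^ (r - 1) = 1 := by rw [h1]; norm_num
      omega
    · obtain ⟨E, hER, hEc, hEe, hEcard⟩ := (Cfsg.Agent.Lib.Helper2.not_pRankLE_iff R).mp h1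
      have hEW : E ≤ W := fun x hx => ⟨⟨hRS (hER hx), hEe x hx⟩, hER hx⟩
      have h2 : Nat.card E ≤ Nat.card W := Subgroup.card_le_of_le hEW
      rw [hk] at h2 hW_le ⊢
      have h3 : 2 ^ (r - 2) < 2 ^ k := lt_of_lt_of_le hEcard h2
      have h4 : r - 2 < k := (pow_lt_pow_iff_right₀ (by norm_num : (1 : ℕ) < 2)).mp h3
      have h5 : k ≤ r - 1 := (pow_le_pow_iff_right₀ (by norm_num : (1 : ℕ) < 2)).mp hW_le
      congr 1; omega
  have hidx : W.relIndex V = 2 := by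
    have h1 := (W.subgroupOf V).card_mul_index
    rw [Nat.card_congr (Subgroup.subgroupOfEquivOfLe hWV).toEquiv, hW_card, hV_card] at h1
    have h3 : 2 ^ r = 2 ^ (r - 1) * 2 := by
      rw [← pow_succ]; congr 1; omega
    rw [h3] at h1
    exact Nat.eq_of_mul_eq_mul_left (by positivity) h1
  obtain ⟨v, hvV, hvW, hvinv⟩ := Cfsg.Agent.Lib.Helper2.exists_normalizer_fixed_not_mem S hS V W
    hidx t htS (fun n hn => by
      have h1 : n * t * n⁻¹ ∈ (S : Subgroup G) := (Subgroup.mem_normalizer_iff.mp hn t).mp htS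
      have h2 : (n * t * n⁻¹) ^ 2 = 1 := by rw [conj_pow, ht2]; group
      exact ⟨⟨h1, h2⟩, fun h => hcon n hn h.2⟩)
  have hv1 : v ≠ 1 := fun h => hvW (h ▸ W.one_mem)
  obtain ⟨H, hH⟩ := Cfsg.Agent.Lib.Helper2.exists_index_two_of_normalizer_fixed S hS v hvV.1
    hvV.2 hv1 hvinv
  exact hG H hH

end Cfsg.Agent.S1244
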