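import Cfsg.Statements.S1254
import Mathlib
import Cfsg.Agent.Lib.Lead.SylowAux2
import Cfsg.Agent.Lib.Lead.DihFusion2
import Cfsg.Agent.Lib.Lead.SZ

set_option autoImplicit false
open Cfsg Cfsg.Agent.Lib.Lead

namespace Cfsg.Agent.S1254

open scoped Pointwise commutatorElement

/-- Let X be a finite group whose Sylow 2-subgroup S is dihedral (of order at least 4). Then X has a normal 2-complement if and only if, for every Klein four-subgroup U ≤ S, the normalizer N_X(U) is generated by C_X(U) and N_S(U). -/
theorem result {X : Type*} [Group X] [Finite X] (S : Sylow 2 X) (m : ℕ) (hm : 2 ≤ m) (eS : (S : Subgroup X) ≃* DihedralGroup m) : Cfsg.HasNormalPComplement 2 X ↔ ∀ U : Subgroup X, U ≤ S → IsKleinFour U → Subgroup.normalizer (U : Set X) = Subgroup.centralizer (U : Set X) ⊔ ((S : Subgroup X) ⊓ Subgroup.normalizer (U : Set X)) := by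
  classical
  haveI : NeZero m := ⟨by omega⟩
  have hdih : ∀ d : DihedralGroup m,
      (∃ j, d = DihedralGroup.r j) ∨ (∃ j, d = DihedralGroup.sr j) := by
    intro d
    cases d with
    | r j => exact Or.inl ⟨j, rfl⟩
    | sr j => exact Or.inr ⟨j, rfl⟩
  constructor
  · rintro ⟨P, N, hNn, hNP⟩ U hUS hUK
    haveI := hNn
    have hcardPS : Nat.card (P : Subgroup X) = Nat.card (S : Subgroup X) :=
      P.card_eq_multiplicity.trans S.card_eq_multiplicity.symm
    have h1 : Nat.card N * Nat.card (S : Subgroup X) = Nat.card X := by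
      rw [← hcardPS]; exact hNP.card_mul_card
    have hNidx : Nat.card N = (S : Subgroup X).index := by
      have h2 := Subgroup.card_mul_index (S : Subgroup X)
      have h3 : 0 < Nat.card (S : Subgroup X) := Nat.card_pos
      apply Nat.eq_of_mul_eq_mul_left h3
      rw [h2, mul_comm]; exact h1
    have hcop : (Nat.card N).Coprime (Nat.card (S : Subgroup X)) := by
      obtain ⟨k, hk⟩ := (IsPGroup.iff_card (p := 2)).mp S.isPGroup'
      rw [hk, hNidx]
      apply Nat.Coprime.pow_right
      exact ((Nat.Prime.coprime_iff_not_dvd Nat.prime_two).2 S.not_dvd_index).symm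
    have hNS : N.IsComplement' (S : Subgroup X) := Subgroup.isComplement'_of_coprime h1 hcop
    have hdisj : N ⊓ (S : Subgroup X) = ⊥ := (Subgroup.disjoint_of_coprime_natCard hcop).eq_bot
    apply le_antisymm
    · intro g hg
      obtain ⟨⟨⟨k, hk⟩, ⟨s, hs⟩⟩, hks, -⟩ := hNS.existsUnique g
      have hks' : k * s = g := hks
      have hkN : k ∈ N := hk
      have hsS : s ∈ (S : Subgroup X) := hs
      have key : ∀ u ∈ U, k * (s * u * s⁻¹) * k⁻¹ = s * u * s⁻¹ := by
        intro u hu
        have hv : s * u * s⁻¹ ∈ (S : Subgroup X) :=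
          Subgroup.mul_mem _ (Subgroup.mul_mem _ hsS (hUS hu)) (Subgroup.inv_mem _ hsS)
        have hgu : g * u * g⁻¹ ∈ U := conj_mem_of_mem_normalizer hg hu
        have e1 : g * u * g⁻¹ = k * (s * u * s⁻¹) * k⁻¹ := by rw [← hks']; group
        have hc1 : k * (s * u * s⁻¹) * k⁻¹ * (s * u * s⁻¹)⁻¹ ∈ (S : Subgroup X) := by
          rw [← e1]
          exact Subgroup.mul_mem _ (hUS hgu) (Subgroup.inv_mem _ hv)
        have hc2 : k * (s * u * s⁻¹) * k⁻¹ * (s * u * s⁻¹)⁻¹ ∈ N := by
          have e2 : k * (s * u * s⁻¹) * k⁻¹ * (s * u * s⁻¹)⁻¹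
              = k * ((s * u * s⁻¹) * k⁻¹ * (s * u * s⁻¹)⁻¹) := by group
          rw [e2]
          exact N.mul_mem hkN (hNn.conj_mem _ (N.inv_mem hkN) _)
        have hc3 : k * (s * u * s⁻¹) * k⁻¹ * (s * u * s⁻¹)⁻¹ ∈ N ⊓ (S : Subgroup X) :=
          Subgroup.mem_inf.2 ⟨hc2, hc1⟩
        rw [hdisj, Subgroup.mem_bot] at hc3
        exact mul_inv_eq_one.1 hc3
      have hsN : s ∈ Subgroup.normalizer (U : Set X) := by
        apply mem_normalizer_of_conj_mem
        intro u hu
        have e1 : s * u * s⁻¹ = g * u * g⁻¹ := by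
          rw [← key u hu, ← hks']; group
        rw [e1]
        exact conj_mem_of_mem_normalizer hg hu
      have hkC : k ∈ Subgroup.centralizer (U : Set X) := by
        rw [Subgroup.mem_centralizer_iff]
        intro u' hu'
        have hu : s⁻¹ * u' * s ∈ U := by
          have := conj_mem_of_mem_normalizer (Subgroup.inv_mem _ hsN) hu'
          rwa [inv_inv] at this
        have h2 := key _ hu
        have e3 : s * (s⁻¹ * u' * s) * s⁻¹ = u' := by group
        rw [e3] at h2
        calc u' * k = k * u' * k⁻¹ * k := by rw [h2]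
          _ = k * u' := by group
      rw [← hks']
      exact Subgroup.mul_mem_sup hkC (Subgroup.mem_inf.2 ⟨hsS, hsN⟩)
    · apply sup_le
      · intro c hc
        apply mem_normalizer_of_conj_mem
        intro u hu
        have := Subgroup.mem_centralizer_iff.1 hc u hu
        have e : c * u * c⁻¹ = u := by rw [← this]; group
        rw [e]; exact hu
      · exact inf_le_right
  · intro hyp
    rcases Nat.lt_or_ge m 3 with hm3 | hm3
    · have hm2 : m = 2 := by omega
      subst hm2
      have hK : IsKleinFour ↥(S : Subgroup X) := by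
        refine ⟨?_, ?_⟩
        · have : Nat.card ↥(S : Subgroup X) = 2 * 2 := by
            rw [Nat.card_congr eS.toEquiv, DihedralGroup.nat_card]
          exact this
        · rw [Monoid.exponent_eq_of_mulEquiv eS, DihedralGroup.exponent]
          first | rfl | simp | norm_num
      have h1 := hyp S le_rfl hK
      have hSc : (S : Subgroup X) ≤ Subgroup.centralizer ((S : Subgroup X) : Set X) := by
        haveI := hK
        exact Subgroup.le_centralizer_iff_isMulCommutative.2 IsKleinFour.isMulCommutative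
      have hNC : Subgroup.normalizer (S : Set X) ≤ Subgroup.centralizer (S : Set X) := by
        intro g hg
        have hg' : g ∈ Subgroup.normalizer ((S : Subgroup X) : Set X) := hg
        rw [h1] at hg'
        exact (sup_le le_rfl (inf_le_left.trans hSc)) hg'
      exact ⟨S, (MonoidHom.transferSylow S hNC).ker, inferInstance,
        MonoidHom.ker_transferSylow_isComplement' S hNC⟩
    · apply hasNPC_of_odd_pResidual
      obtain ⟨a, ha⟩ := (IsPGroup.iff_card (p := 2)).mp S.isPGroup'
      rw [Nat.card_congr eS.toEquiv, DihedralGroup.nat_card] at ha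
      have ha3 : 3 ≤ a := by
        by_contra hlt
        have h4 : 2 ^ a ≤ 2 ^ 2 := Nat.pow_le_pow_right (by norm_num) (by omega)
        omega
      obtain ⟨b, rfl⟩ : ∃ b, a = b + 3 := ⟨a - 3, by omega⟩
      have hpow8 : 2 ^ (b + 3) = 8 * 2 ^ b := by ring
      obtain ⟨c, hcdef⟩ : ∃ c : ℕ, c = 2 ^ b := ⟨_, rfl⟩
      have hc1 : 1 ≤ c := by rw [hcdef]; exact Nat.one_le_two_pow
      have hm4 : m = 4 * c := by rw [hcdef]; omega
      obtain ⟨i₀, hi₀def⟩ : ∃ i₀ : ZMod m, i₀ = (c : ZMod m) := ⟨_, rfl⟩
      have hi₀2 : 2 * (2 * i₀) = 0 := by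
        have h1 : ((4 * c : ℕ) : ZMod m) = 0 := by rw [← hm4]; exact ZMod.natCast_self m
        rw [hi₀def]
        push_cast at h1
        linear_combination h1
      have hi₀0 : 2 * i₀ ≠ 0 := by
        intro h
        have h1 : ((2 * c : ℕ) : ZMod m) = 0 := by
          push_cast
          rw [← hi₀def]; exact h
        rw [ZMod.natCast_eq_zero_iff] at h1
        have := Nat.le_of_dvd (by omega) h1
        omega
      obtain ⟨φ, hφdef⟩ : ∃ φ : ↥(S : Subgroup X) →* DihedralGroup m, φ = eS.toMonoidHom :=
        ⟨_, rfl⟩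
      have hφ : Function.Injective φ := by rw [hφdef]; exact eS.injective
      have hφsurj : ∀ d, ∃ q, φ q = d := by rw [hφdef]; exact eS.surjective
      obtain ⟨M₀, hM₀def⟩ : ∃ M₀ : Subgroup ↥(S : Subgroup X),
          M₀ = (Subgroup.zpowers (DihedralGroup.r (1 : ZMod m))).comap φ := ⟨_, rfl⟩
      obtain ⟨M, hMdef⟩ : ∃ M : Subgroup X, M = M₀.map (S : Subgroup X).subtype := ⟨_, rfl⟩
      have hMmem : ∀ q : ↥(S : Subgroup X), (q : X) ∈ M ↔ ∃ j, φ q = DihedralGroup.r j := by
        intro q
        constructor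
        · intro hq
          rw [hMdef] at hq
          obtain ⟨q', hq', hqq⟩ := Subgroup.mem_map.1 hq
          have hq'q : q' = q := Subtype.ext hqq
          rw [hq'q, hM₀def, Subgroup.mem_comap] at hq'
          obtain ⟨k, hk⟩ := Subgroup.mem_zpowers_iff.1 hq'
          rw [DihedralGroup.r_one_zpow] at hk
          exact ⟨_, hk.symm⟩
        · rintro ⟨j, hj⟩
          rw [hMdef]
          refine Subgroup.mem_map.2 ⟨q, ?_, rfl⟩
          rw [hM₀def, Subgroup.mem_comap, hj, Subgroup.mem_zpowers_iff]
          exact ⟨(j.val : ℤ), by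
            rw [DihedralGroup.r_one_zpow, Int.cast_natCast, ZMod.natCast_zmod_val]⟩
      have hnot : ∀ q : ↥(S : Subgroup X), (q : X) ∉ M → ∃ j, φ q = DihedralGroup.sr j := by
        intro q hq
        rcases hdih (φ q) with ⟨j, hc⟩ | ⟨j, hc⟩
        · exact absurd ((hMmem q).2 ⟨j, hc⟩) hq
        · exact ⟨j, hc⟩
      have hMR : M ≤ (S : Subgroup X) := by rw [hMdef]; exact Subgroup.map_subtype_le _
      have hMc : IsCyclic ↥M := by
        have hM₀c : IsCyclic ↥M₀ := by
          let θ : ↥M₀ →* ↥(Subgroup.zpowers (DihedralGroup.r (1 : ZMod m))) :=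
            (φ.comp M₀.subtype).codRestrict _ (fun q => Subgroup.mem_comap.1 (hM₀def.le q.2))
          have hθ : Function.Injective θ := by
            intro a b hab
            have h1 : φ (a : ↥(S : Subgroup X)) = φ (b : ↥(S : Subgroup X)) :=
              congrArg Subtype.val hab
            exact Subtype.ext (hφ h1)
          exact isCyclic_of_injective θ hθ
        haveI := hM₀c
        rw [hMdef]
        exact isCyclic_of_surjective
          (Subgroup.equivMapOfInjective M₀ _ (Subgroup.subtype_injective _))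
          (MulEquiv.surjective _)
      have hmul : ∀ a ∈ (S : Subgroup X), ∀ b ∈ (S : Subgroup X), a ∉ M → b ∉ M →
          a * b ∈ M := by
        intro a ha b hb haM hbM
        obtain ⟨j, hj⟩ := hnot ⟨a, ha⟩ haM
        obtain ⟨k, hk⟩ := hnot ⟨b, hb⟩ hbM
        exact (hMmem (⟨a, ha⟩ * ⟨b, hb⟩)).2
          ⟨k - j, by rw [map_mul, hj, hk, DihedralGroup.sr_mul_sr]⟩
      have hinvol : ∀ q : ↥(S : Subgroup X), orderOf (q : X) = orderOf (φ q) := by
        intro q
        rw [orderOf_injective φ hφ, Subgroup.orderOf_coe]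
      have hxx : ∀ x ∈ (S : Subgroup X), x ∉ M →
          orderOf x = 2 ∧ ∀ g : X, g * x * g⁻¹ ∉ M := by
        intro x hxS hxM
        obtain ⟨j, hj⟩ := hnot ⟨x, hxS⟩ hxM
        have hxo : orderOf x = 2 := by
          have := hinvol ⟨x, hxS⟩
          rw [hj, DihedralGroup.orderOf_sr] at this
          exact this
        refine ⟨hxo, fun g hc => ?_⟩
        obtain ⟨y, hydef⟩ : ∃ y : X, y = g * x * g⁻¹ := ⟨_, rfl⟩
        rw [← hydef] at hc
        have hyS : y ∈ (S : Subgroup X) := hMR hc
        obtain ⟨k, hk⟩ := (hMmem ⟨y, hyS⟩).1 hc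
        have hyo : orderOf y = 2 := by rw [hydef, orderOf_conj_eq, hxo]
        have hko : orderOf (DihedralGroup.r k) = 2 := by
          rw [← hk, ← hinvol]; exact hyo
        obtain ⟨hk2, hk0⟩ := dihedral_r_invol k hko
        have hk2i : k = 2 * i₀ := zmod_two_torsion_unique m k (2 * i₀) hk2 hk0 hi₀2 hi₀0
        have hycent : ∀ s ∈ (S : Subgroup X), s * y = y * s := by
          intro s hs
          have h1 : (⟨s, hs⟩ : ↥(S : Subgroup X)) * ⟨y, hyS⟩ = ⟨y, hyS⟩ * ⟨s, hs⟩ := by
            apply hφ
            rw [map_mul, map_mul, hk]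
            rcases hdih (φ ⟨s, hs⟩) with ⟨l, hl⟩ | ⟨l, hl⟩
            · rw [hl, DihedralGroup.r_mul_r, DihedralGroup.r_mul_r, add_comm]
            · rw [hl, DihedralGroup.sr_mul_r, DihedralGroup.r_mul_sr]
              congr 1
              linear_combination hk2
          exact congrArg Subtype.val h1
        have hxy : x * y = y * x := hycent x hxS
        have hxney : x ≠ y := fun h => hxM (by rw [h]; exact hc)
        have hy'o : orderOf (g * y * g⁻¹) = 2 := by rw [orderOf_conj_eq, hyo]
        have hy'c : (g * y * g⁻¹) * y = y * (g * y * g⁻¹) := by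
          have e1 : g * y * g⁻¹ * y = g * (y * x) * g⁻¹ := by
            calc g * y * g⁻¹ * y = g * y * g⁻¹ * (g * x * g⁻¹) := by rw [← hydef]
              _ = g * (y * x) * g⁻¹ := by group
          have e2 : y * (g * y * g⁻¹) = g * (x * y) * g⁻¹ := by
            calc y * (g * y * g⁻¹) = g * x * g⁻¹ * (g * y * g⁻¹) := by rw [← hydef]
              _ = g * (x * y) * g⁻¹ := by group
          rw [e1, e2, hxy]
        obtain ⟨c, hcy, hcS⟩ :=
          exists_conj_mem_of_le_centralizer S y (g * y * g⁻¹) hycent hy'o hy'c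
        obtain ⟨d, hddef⟩ : ∃ d : X, d = c * g := ⟨_, rfl⟩
        have hy₁S : d * y * d⁻¹ ∈ (S : Subgroup X) := by
          have e : d * y * d⁻¹ = c * (g * y * g⁻¹) * c⁻¹ := by rw [hddef]; group
          rw [e]; exact hcS
        have hdx : d⁻¹ * y * d = x := by
          have e1 : c⁻¹ * y * c = y := by rw [mul_assoc, ← hcy, inv_mul_cancel_left]
          calc d⁻¹ * y * d = g⁻¹ * (c⁻¹ * y * c) * g := by rw [hddef]; group
            _ = g⁻¹ * y * g := by rw [e1]
            _ = x := by rw [hydef]; group
        obtain ⟨y₁, hy₁def⟩ : ∃ y₁ : X, y₁ = d * y * d⁻¹ := ⟨_, rfl⟩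
        rw [← hy₁def] at hy₁S
        have hy₁o : orderOf y₁ = 2 := by rw [hy₁def, orderOf_conj_eq, hyo]
        have e3 : d⁻¹ * y₁ * d = y := by rw [hy₁def]; group
        have hy₁ne : y₁ ≠ y := by
          intro h
          apply hxney
          calc x = d⁻¹ * y * d := hdx.symm
            _ = d⁻¹ * y₁ * d := by rw [h]
            _ = y := e3
        obtain ⟨l, hl⟩ : ∃ l, φ ⟨y₁, hy₁S⟩ = DihedralGroup.sr l := by
          rcases hdih (φ ⟨y₁, hy₁S⟩) with ⟨l, hl⟩ | ⟨l, hl⟩
          · exfalso
            have hlo : orderOf (DihedralGroup.r l) = 2 := by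
              rw [← hl, ← hinvol]; exact hy₁o
            obtain ⟨hl2, hl0⟩ := dihedral_r_invol l hlo
            have hlk : l = k := zmod_two_torsion_unique m l k hl2 hl0 hk2 hk0
            have : (⟨y₁, hy₁S⟩ : ↥(S : Subgroup X)) = ⟨y, hyS⟩ := by
              apply hφ; rw [hl, hk, hlk]
            exact hy₁ne (congrArg Subtype.val this)
          · exact ⟨l, hl⟩
        obtain ⟨s₁S, hs₁⟩ := hφsurj (DihedralGroup.r i₀)
        have hs₁y₁ : (s₁S : X) * y₁ = y₁ * y * (s₁S : X) := by
          have h1 : s₁S * ⟨y₁, hy₁S⟩ = ⟨y₁, hy₁S⟩ * ⟨y, hyS⟩ * s₁S := by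
            apply hφ
            rw [map_mul, map_mul, map_mul, hs₁, hl, hk, DihedralGroup.r_mul_sr,
              DihedralGroup.sr_mul_r, DihedralGroup.sr_mul_r]
            congr 1
            rw [hk2i]
            linear_combination (-1 : ZMod m) * hi₀2
          exact congrArg Subtype.val h1
        obtain ⟨s₁, hs₁def⟩ : ∃ s₁ : X, s₁ = (s₁S : X) := ⟨_, rfl⟩
        have hs₁S : s₁ ∈ (S : Subgroup X) := by rw [hs₁def]; exact s₁S.2
        rw [← hs₁def] at hs₁y₁
        have hs₁y : s₁ * y = y * s₁ := hycent s₁ hs₁S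
        obtain ⟨w, hwdef⟩ : ∃ w : X, w = d⁻¹ * s₁ * d := ⟨_, rfl⟩
        have hwy : w * y * w⁻¹ = y * x := by
          have e1 : w * y * w⁻¹ = d⁻¹ * (s₁ * y₁) * s₁⁻¹ * d := by rw [hwdef, hy₁def]; group
          have e2 : d⁻¹ * (y₁ * y * s₁) * s₁⁻¹ * d = (d⁻¹ * y₁ * d) * (d⁻¹ * y * d) := by group
          rw [e1, hs₁y₁, e2, e3, hdx]
        have hwx : w * x * w⁻¹ = x := by
          have e1 : w * x * w⁻¹ = d⁻¹ * (s₁ * y) * s₁⁻¹ * d := by
            rw [hwdef, ← hdx]; group
          have e2 : d⁻¹ * (y * s₁) * s₁⁻¹ * d = d⁻¹ * y * d := by group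
          rw [e1, hs₁y, e2, hdx]
        obtain ⟨U, hUK, hUmem⟩ := klein_of_two_invol x y hxo hyo hxy hxney
        have hUS : U ≤ (S : Subgroup X) := by
          intro u hu
          rcases (hUmem u).1 hu with h | h | h | h <;> rw [h]
          · exact Subgroup.one_mem _
          · exact hxS
          · exact hyS
          · exact Subgroup.mul_mem _ hxS hyS
        have hwN : w ∈ Subgroup.normalizer (U : Set X) := by
          apply mem_normalizer_of_conj_mem
          intro u hu
          rw [hUmem]
          rcases (hUmem u).1 hu with h | h | h | h <;> rw [h]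
          · left; group
          · right; left; exact hwx
          · right; right; right; rw [hwy, hxy]
          · right; right; left
            have e : w * (x * y) * w⁻¹ = (w * x * w⁻¹) * (w * y * w⁻¹) := by group
            rw [e, hwx, hwy, ← mul_assoc, hxy, mul_assoc, invol_mul_self hxo, mul_one]
        have hw := hyp U hUS hUK
        have hle : Subgroup.centralizer (U : Set X) ⊔
            ((S : Subgroup X) ⊓ Subgroup.normalizer (U : Set X))
            ≤ Subgroup.centralizer ({y} : Set X) := by
          apply sup_le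
          · intro c' hc'
            rw [Subgroup.mem_centralizer_iff]
            intro z hz
            rw [Set.mem_singleton_iff] at hz
            rw [hz]
            exact Subgroup.mem_centralizer_iff.1 hc' y
              ((hUmem y).2 (Or.inr (Or.inr (Or.inl rfl))))
          · intro s hs
            rw [Subgroup.mem_centralizer_iff]
            intro z hz
            rw [Set.mem_singleton_iff] at hz
            rw [hz]
            exact (hycent s (Subgroup.mem_inf.1 hs).1).symm
        have hwc : w ∈ Subgroup.centralizer ({y} : Set X) := by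
          apply hle
          rw [← hw]; exact hwN
        have hyw : y * w = w * y :=
          Subgroup.mem_centralizer_iff.1 hwc y (Set.mem_singleton y)
        have e : w * y * w⁻¹ = y := by rw [← hyw]; group
        rw [e] at hwy
        apply invol_ne_one hxo
        have : y * x = y * 1 := by rw [mul_one]; exact hwy.symm
        exact mul_left_cancel this
      exact odd_card_pResidual_of_transfer S M hMR hMc hmul hxx

end Cfsg.Agent.S1254
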