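import Cfsg.Statements.S1255
import Mathlib
import Cfsg.Agent.Lib.Lead.SylowAux2
import Cfsg.Agent.Lib.Lead.DihFusion2
import Cfsg.Agent.Lib.Lead.SZ

set_option autoImplicit false
open Cfsg Cfsg.Agent.Lib.Lead

namespace Cfsg.Agent.S1255

open scoped Pointwise commutatorElement

/-- Let X be a finite group whose Sylow 2-subgroup S is dihedral of order 2m ≥ 4. Then X has no subgroup of index 2 and no isolated involution if and only if either all involutions of X are conjugate, or for every Klein four-subgroup U ≤ S the index |N_X(U) : C_X(U)| equals 3 when |S| = 4 and equals 6 when |S| > 4. -/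
theorem result {X : Type*} [Group X] [Finite X] (S : Sylow 2 X) (m : ℕ) (hm : 2 ≤ m) (eS : (S : Subgroup X) ≃* DihedralGroup m) : ((∀ H : Subgroup X, H.index ≠ 2) ∧ (∀ z : X, ¬ Cfsg.IsIsolatedInvolution z)) ↔ ((∀ a b : X, orderOf a = 2 → orderOf b = 2 → IsConj a b) ∨ (∀ U : Subgroup X, U ≤ S → IsKleinFour U → (Subgroup.centralizer (U : Set X)).relIndex (Subgroup.normalizer (U : Set X)) = (if Nat.card S = 4 then 3 else 6))) := by
  classical
  haveI : Fact (Nat.Prime 2) := ⟨Nat.prime_two⟩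
  obtain ⟨c, hm2⟩ : ∃ c, m = 2 * c := by
    obtain ⟨k, hk⟩ := IsPGroup.iff_card.mp S.isPGroup'
    have h1 : Nat.card (S : Subgroup X) = 2 * m := by
      rw [Nat.card_congr eS.toEquiv, DihedralGroup.nat_card]
    rw [h1] at hk
    have hk2 : 2 ≤ k := by
      by_contra hlt
      have hk' : k = 0 ∨ k = 1 := by omega
      rcases hk' with rfl | rfl <;> omega
    obtain ⟨k', rfl⟩ : ∃ k', k = k' + 2 := ⟨k - 2, by omega⟩
    rw [pow_add] at hk
    exact ⟨2 ^ k', by omega⟩
  have hc1 : 1 ≤ c := by omega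
  haveI : NeZero m := ⟨by omega⟩
  -- a general lemma on Klein four-subgroups
  have hL : ∀ x y : X, orderOf x = 2 → orderOf y = 2 → x * y = y * x → x ≠ y →
      x ∈ (S : Subgroup X) → y ∈ (S : Subgroup X) →
      (∀ U : Subgroup X, U ≤ S → IsKleinFour U →
        (Subgroup.centralizer (U : Set X)).relIndex (Subgroup.normalizer (U : Set X)) =
          (if Nat.card S = 4 then 3 else 6)) → IsConj x y := by
    intro x y hx hy hxy hne hxS hyS hR
    have hx2 : x * x = 1 := invol_mul_self hx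
    have hy2 : y * y = 1 := invol_mul_self hy
    have hx1 : x ≠ 1 := invol_ne_one hx
    have hy1 : y ≠ 1 := invol_ne_one hy
    obtain ⟨U, hU, hUmem⟩ := klein_of_two_invol x y hx hy hxy hne
    have hUS : U ≤ (S : Subgroup X) := by
      intro u hu
      rcases (hUmem u).1 hu with h | h | h | h
      · rw [h]; exact Subgroup.one_mem _
      · rw [h]; exact hxS
      · rw [h]; exact hyS
      · rw [h]; exact Subgroup.mul_mem _ hxS hyS
    have h3 : 3 ∣ (Subgroup.centralizer (U : Set X)).relIndex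
        (Subgroup.normalizer (U : Set X)) := by
      rw [hR U hUS hU]
      split_ifs <;> norm_num
    haveI : Fact (Nat.Prime 3) := ⟨Nat.prime_three⟩
    obtain ⟨N, hNdef⟩ : ∃ N : Subgroup X, N = Subgroup.normalizer (U : Set X) := ⟨_, rfl⟩
    rw [← hNdef] at h3
    obtain ⟨T⟩ : Nonempty (Sylow 3 ↥N) := inferInstance
    have hTC : ¬ ((T : Subgroup ↥N) ≤ (Subgroup.centralizer (U : Set X)).subgroupOf N) := by
      intro hle
      have h1 : ((Subgroup.centralizer (U : Set X)).subgroupOf N).index ∣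
          (T : Subgroup ↥N).index := Subgroup.index_dvd_of_le hle
      exact T.not_dvd_index (dvd_trans h3 h1)
    obtain ⟨g, hgT, hgC⟩ := SetLike.not_le_iff_exists.mp hTC
    obtain ⟨k, hk⟩ := T.isPGroup' ⟨g, hgT⟩
    have hk' : g ^ (3 ^ k) = 1 := by
      have := congrArg Subtype.val hk
      simpa using this
    obtain ⟨γ, hγdef⟩ : ∃ γ : X, γ = (g : X) := ⟨_, rfl⟩
    have hγk : γ ^ (3 ^ k) = 1 := by
      have := congrArg Subtype.val hk'
      rw [hγdef]
      simpa using this
    have hγC : γ ∉ Subgroup.centralizer (U : Set X) := by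
      rw [hγdef]
      intro h
      exact hgC (Subgroup.mem_subgroupOf.mpr h)
    have hγN : γ ∈ Subgroup.normalizer (U : Set X) := by
      rw [hγdef]; exact hNdef.le g.2
    have hcU : ∀ u ∈ U, γ * u * γ⁻¹ ∈ U := fun u hu => conj_mem_of_mem_normalizer hγN hu
    have hCcrit : ∀ w : X, w * x * w⁻¹ = x → w * y * w⁻¹ = y →
        w ∈ Subgroup.centralizer (U : Set X) := by
      intro w hwx hwy
      have hwx' : x * w = w * x := by
        calc x * w = (w * x * w⁻¹) * w := by rw [hwx]
          _ = w * x := by group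
      have hwy' : y * w = w * y := by
        calc y * w = (w * y * w⁻¹) * w := by rw [hwy]
          _ = w * y := by group
      rw [Subgroup.mem_centralizer_iff]
      intro u hu
      rcases (hUmem u).1 hu with h | h | h | h
      · rw [h, one_mul, mul_one]
      · rw [h]; exact hwx'
      · rw [h]; exact hwy'
      · rw [h]
        calc x * y * w = x * (y * w) := mul_assoc _ _ _
          _ = x * (w * y) := by rw [hwy']
          _ = (x * w) * y := (mul_assoc _ _ _).symm
          _ = (w * x) * y := by rw [hwx']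
          _ = w * (x * y) := mul_assoc _ _ _
    have hsq : γ * γ ∈ Subgroup.centralizer (U : Set X) → False := by
      intro h
      apply hγC
      obtain ⟨l, hl⟩ : ∃ l, 3 ^ k = 2 * l + 1 := by
        have : Odd (3 ^ k) := Odd.pow (by decide)
        exact this
      have h1 : γ = (γ * γ) ^ (l + 1) := by
        rw [← pow_two, ← pow_mul, show 2 * (l + 1) = (2 * l + 1) + 1 by ring, pow_succ, ← hl,
          hγk, one_mul]
      rw [h1]
      exact Subgroup.pow_mem _ h _
    have hconj2 : ∀ u : X, (γ * γ) * u * (γ * γ)⁻¹ = γ * (γ * u * γ⁻¹) * γ⁻¹ := by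
      intro u; group
    have hcmul : ∀ u v : X, γ * (u * v) * γ⁻¹ = (γ * u * γ⁻¹) * (γ * v * γ⁻¹) := by
      intro u v; group
    have hp : γ * x * γ⁻¹ = x ∨ γ * x * γ⁻¹ = y ∨ γ * x * γ⁻¹ = x * y := by
      rcases (hUmem _).1 (hcU x ((hUmem x).2 (Or.inr (Or.inl rfl)))) with h | h | h | h
      · exact absurd (conj_eq_one_iff.mp h) hx1
      · exact Or.inl h
      · exact Or.inr (Or.inl h)
      · exact Or.inr (Or.inr h)
    have hq : γ * y * γ⁻¹ = x ∨ γ * y * γ⁻¹ = y ∨ γ * y * γ⁻¹ = x * y := by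
      rcases (hUmem _).1 (hcU y ((hUmem y).2 (Or.inr (Or.inr (Or.inl rfl))))) with h | h | h | h
      · exact absurd (conj_eq_one_iff.mp h) hy1
      · exact Or.inl h
      · exact Or.inr (Or.inl h)
      · exact Or.inr (Or.inr h)
    have hpq : γ * x * γ⁻¹ ≠ γ * y * γ⁻¹ := by
      intro h
      apply hne
      simpa using h
    rcases hp with hp | hp | hp
    · rcases hq with hq | hq | hq
      · exact absurd (hp.trans hq.symm) hpq
      · exact absurd (hCcrit γ hp hq) hγC
      · exfalso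
        apply hsq
        apply hCcrit
        · rw [hconj2, hp, hp]
        · rw [hconj2, hq, hcmul, hp, hq, ← mul_assoc, hx2, one_mul]
    · exact isConj_iff.2 ⟨γ, hp⟩
    · rcases hq with hq | hq | hq
      · exact (isConj_iff.2 ⟨γ, hq⟩).symm
      · exfalso
        apply hsq
        apply hCcrit
        · rw [hconj2, hp, hcmul, hp, hq, mul_assoc, hy2, mul_one]
        · rw [hconj2, hq, hq]
      · exact absurd (hp.trans hq.symm) hpq
  have hdih' : ∀ d : DihedralGroup m,
      (∃ j, d = DihedralGroup.r j) ∨ (∃ j, d = DihedralGroup.sr j) := by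
    intro d
    cases d with
    | r j => exact Or.inl ⟨j, rfl⟩
    | sr j => exact Or.inr ⟨j, rfl⟩
  obtain ⟨i₀, hi₀def⟩ : ∃ i₀ : ZMod m, i₀ = (c : ZMod m) := ⟨_, rfl⟩
  have hi₀2 : 2 * i₀ = 0 := by
    have h1 : ((2 * c : ℕ) : ZMod m) = 0 := by rw [← hm2]; exact ZMod.natCast_self m
    rw [hi₀def]
    push_cast at h1
    exact h1
  have hi₀0 : i₀ ≠ 0 := by
    intro h
    rw [hi₀def, ZMod.natCast_eq_zero_iff] at h
    have := Nat.le_of_dvd (by omega) h
    omega
  have hpar : ∀ k : ZMod m, ∃ i : ZMod m, k = 2 * i ∨ k = 2 * i + 1 := by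
    intro k
    refine ⟨((k.val / 2 : ℕ) : ZMod m), ?_⟩
    have h1 : k = ((k.val : ℕ) : ZMod m) := (ZMod.natCast_zmod_val k).symm
    rcases Nat.mod_two_eq_zero_or_one k.val with h | h
    · left
      have h2 : k.val = 2 * (k.val / 2) := by omega
      calc k = ((k.val : ℕ) : ZMod m) := h1
        _ = ((2 * (k.val / 2) : ℕ) : ZMod m) := by rw [← h2]
        _ = 2 * ((k.val / 2 : ℕ) : ZMod m) := by rw [Nat.cast_mul, Nat.cast_ofNat]
    · right
      have h2 : k.val = 2 * (k.val / 2) + 1 := by omega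
      calc k = ((k.val : ℕ) : ZMod m) := h1
        _ = ((2 * (k.val / 2) + 1 : ℕ) : ZMod m) := by rw [← h2]
        _ = 2 * ((k.val / 2 : ℕ) : ZMod m) + 1 := by
          rw [Nat.cast_add, Nat.cast_mul, Nat.cast_ofNat, Nat.cast_one]
  obtain ⟨φ, hφdef⟩ : ∃ φ : ↥(S : Subgroup X) →* DihedralGroup m, φ = eS.toMonoidHom :=
    ⟨_, rfl⟩
  have hφ : Function.Injective φ := by rw [hφdef]; exact eS.injective
  have hφsurj : ∀ d, ∃ q, φ q = d := by rw [hφdef]; exact eS.surjective
  obtain ⟨M₀, hM₀def⟩ : ∃ M₀ : Subgroup ↥(S : Subgroup X),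
      M₀ = (Subgroup.zpowers (DihedralGroup.r (1 : ZMod m))).comap φ := ⟨_, rfl⟩
  obtain ⟨M, hMdef⟩ : ∃ M : Subgroup X, M = M₀.map (S : Subgroup X).subtype := ⟨_, rfl⟩
  have hMmem : ∀ q : ↥(S : Subgroup X), (q : X) ∈ M ↔ ∃ j, φ q = DihedralGroup.r j := by
    intro q
    constructor
    · intro hq
      rw [hMdef] at hq
      obtain ⟨q', hq', hqq⟩ := Subgroup.mem_map.1 hq
      have hq'q : q' = q := Subtype.ext hqq
      rw [hq'q, hM₀def, Subgroup.mem_comap] at hq'
      obtain ⟨k, hk⟩ := Subgroup.mem_zpowers_iff.1 hq'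
      rw [DihedralGroup.r_one_zpow] at hk
      exact ⟨_, hk.symm⟩
    · rintro ⟨j, hj⟩
      rw [hMdef]
      refine Subgroup.mem_map.2 ⟨q, ?_, rfl⟩
      rw [hM₀def, Subgroup.mem_comap, hj, Subgroup.mem_zpowers_iff]
      exact ⟨(j.val : ℤ), by
        rw [DihedralGroup.r_one_zpow, Int.cast_natCast, ZMod.natCast_zmod_val]⟩
  have hnot : ∀ q : ↥(S : Subgroup X), (q : X) ∉ M → ∃ j, φ q = DihedralGroup.sr j := by
    intro q hq
    rcases hdih' (φ q) with ⟨j, hc⟩ | ⟨j, hc⟩
    · exact absurd ((hMmem q).2 ⟨j, hc⟩) hq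
    · exact ⟨j, hc⟩
  have hMR : M ≤ (S : Subgroup X) := by rw [hMdef]; exact Subgroup.map_subtype_le _
  have hinvol : ∀ q : ↥(S : Subgroup X), orderOf (q : X) = orderOf (φ q) := by
    intro q
    rw [orderOf_injective φ hφ, Subgroup.orderOf_coe]
  have hordM : ∀ x ∈ (S : Subgroup X), x ∉ M → orderOf x = 2 := by
    intro x hxP hxM
    obtain ⟨j, hj⟩ := hnot ⟨x, hxP⟩ hxM
    have := hinvol ⟨x, hxP⟩
    rw [hj, DihedralGroup.orderOf_sr] at this
    exact this
  -- distinguished elements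
  obtain ⟨zP, hzP⟩ := hφsurj (DihedralGroup.r i₀)
  obtain ⟨aP, haP⟩ := hφsurj (DihedralGroup.sr 0)
  obtain ⟨bP, hbP⟩ := hφsurj (DihedralGroup.sr 1)
  obtain ⟨rP, hrP⟩ := hφsurj (DihedralGroup.r 1)
  obtain ⟨z, hzdef⟩ : ∃ z : X, z = (zP : X) := ⟨_, rfl⟩
  obtain ⟨a, hadef⟩ : ∃ a : X, a = (aP : X) := ⟨_, rfl⟩
  obtain ⟨b, hbdef⟩ : ∃ b : X, b = (bP : X) := ⟨_, rfl⟩
  obtain ⟨ρ, hρdef⟩ : ∃ ρ : X, ρ = (rP : X) := ⟨_, rfl⟩
  have haPm : a ∈ (S : Subgroup X) := by rw [hadef]; exact aP.2
  have hbPm : b ∈ (S : Subgroup X) := by rw [hbdef]; exact bP.2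
  have hzPm : z ∈ (S : Subgroup X) := by rw [hzdef]; exact zP.2
  have hzM : z ∈ M := by rw [hzdef]; exact (hMmem zP).2 ⟨i₀, hzP⟩
  have hzo : orderOf z = 2 := by
    rw [hzdef, hinvol, hzP]
    apply orderOf_eq_prime
    · rw [pow_two, DihedralGroup.r_mul_r, DihedralGroup.one_def]
      congr 1
      linear_combination hi₀2
    · intro h
      rw [DihedralGroup.one_def] at h
      exact hi₀0 (DihedralGroup.r.inj h)
  have hao : orderOf a = 2 := by rw [hadef, hinvol, haP, DihedralGroup.orderOf_sr]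
  have hbo : orderOf b = 2 := by rw [hbdef, hinvol, hbP, DihedralGroup.orderOf_sr]
  have haM : a ∉ M := by
    rw [hadef]
    intro h
    obtain ⟨l, hl⟩ := (hMmem aP).1 h
    rw [haP] at hl
    cases hl
  have hbM : b ∉ M := by
    rw [hbdef]
    intro h
    obtain ⟨l, hl⟩ := (hMmem bP).1 h
    rw [hbP] at hl
    cases hl
  have hza : z * a = a * z := by
    have h1 : zP * aP = aP * zP := by
      apply hφ
      rw [map_mul, map_mul, hzP, haP, DihedralGroup.r_mul_sr, DihedralGroup.sr_mul_r]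
      congr 1
      linear_combination -hi₀2
    rw [hzdef, hadef]; exact congrArg Subtype.val h1
  have hzb : z * b = b * z := by
    have h1 : zP * bP = bP * zP := by
      apply hφ
      rw [map_mul, map_mul, hzP, hbP, DihedralGroup.r_mul_sr, DihedralGroup.sr_mul_r]
      congr 1
      linear_combination -hi₀2
    rw [hzdef, hbdef]; exact congrArg Subtype.val h1
  have hab : a * b = ρ := by
    have h1 : aP * bP = rP := by
      apply hφ
      rw [map_mul, haP, hbP, hrP, DihedralGroup.sr_mul_sr, sub_zero]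
    rw [hadef, hbdef, hρdef]; exact congrArg Subtype.val h1
  have hzρ : z = ρ ^ c := by
    have h1 : zP = rP ^ c := by
      apply hφ
      rw [map_pow, hzP, hrP, DihedralGroup.r_one_pow, hi₀def]
    rw [hzdef, hρdef, h1]; rfl
  have hPform : ∀ q : ↥(S : Subgroup X),
      (∃ k : ℕ, (q : X) = ρ ^ k) ∨ (∃ k : ℕ, (q : X) = a * ρ ^ k) := by
    intro q
    rcases hdih' (φ q) with ⟨j, hj⟩ | ⟨j, hj⟩
    · left
      refine ⟨j.val, ?_⟩
      have h1 : q = rP ^ j.val := by
        apply hφ
        rw [map_pow, hj, hrP, DihedralGroup.r_one_pow, ZMod.natCast_zmod_val]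
      rw [h1, hρdef]; rfl
    · right
      refine ⟨j.val, ?_⟩
      have h1 : q = aP * rP ^ j.val := by
        apply hφ
        rw [map_mul, map_pow, hj, haP, hrP, DihedralGroup.r_one_pow, ZMod.natCast_zmod_val,
          DihedralGroup.sr_mul_r, zero_add]
      rw [h1, hadef, hρdef]; rfl
  have hMz : ∀ x ∈ M, orderOf x = 2 → x = z := by
    intro x hxM hxo
    obtain ⟨k, hk⟩ := (hMmem ⟨x, hMR hxM⟩).1 hxM
    have hko : orderOf (DihedralGroup.r k) = 2 := by rw [← hk, ← hinvol]; exact hxo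
    obtain ⟨hk2, hk0⟩ := dihedral_r_invol k hko
    have hk2i : k = i₀ := zmod_two_torsion_unique m k i₀ hk2 hk0 hi₀2 hi₀0
    have h1 : (⟨x, hMR hxM⟩ : ↥(S : Subgroup X)) = zP := by
      apply hφ; rw [hk, hzP, hk2i]
    rw [hzdef]; exact congrArg Subtype.val h1
  have hMinv : ∀ (g x : X), orderOf x = 2 → g * x * g⁻¹ ∈ M → IsConj x z :=
    fun g x hxo hc => isConj_iff.2 ⟨g, hMz _ hc (by rw [orderOf_conj_eq, hxo])⟩
  have hconjab : ∀ x ∈ (S : Subgroup X), x ∉ M → IsConj a x ∨ IsConj b x := by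
    intro x hxP hxM
    obtain ⟨k, hk⟩ := hnot ⟨x, hxP⟩ hxM
    obtain ⟨i, hi⟩ := hpar k
    obtain ⟨uP, huP⟩ := hφsurj (DihedralGroup.r (-i))
    rcases hi with hi | hi
    · left
      rw [isConj_iff]
      refine ⟨(uP : X), ?_⟩
      have h1 : uP * aP = ⟨x, hxP⟩ * uP := by
        apply hφ
        rw [map_mul, map_mul, huP, haP, hk, DihedralGroup.r_mul_sr, DihedralGroup.sr_mul_r]
        congr 1
        rw [hi]; ring
      have h2 : (uP : X) * a = x * (uP : X) := by rw [hadef]; exact congrArg Subtype.val h1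
      rw [h2]; group
    · right
      rw [isConj_iff]
      refine ⟨(uP : X), ?_⟩
      have h1 : uP * bP = ⟨x, hxP⟩ * uP := by
        apply hφ
        rw [map_mul, map_mul, huP, hbP, hk, DihedralGroup.r_mul_sr, DihedralGroup.sr_mul_r]
        congr 1
        rw [hi]; ring
      have h2 : (uP : X) * b = x * (uP : X) := by rw [hbdef]; exact congrArg Subtype.val h1
      rw [h2]; group
  have hrel : M.relIndex (S : Subgroup X) = 2 := by
    rw [Subgroup.relIndex_eq_two_iff]
    refine ⟨a, haPm, fun p hp => ?_⟩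
    rcases hdih' (φ ⟨p, hp⟩) with ⟨k, hk⟩ | ⟨k, hk⟩
    · right
      refine ⟨(hMmem ⟨p, hp⟩).2 ⟨k, hk⟩, fun h => ?_⟩
      obtain ⟨l, hl⟩ := (hMmem (⟨p, hp⟩ * aP)).1 (by rw [hadef] at h; exact h)
      rw [map_mul, hk, haP, DihedralGroup.r_mul_sr] at hl
      cases hl
    · left
      refine ⟨?_, fun h => ?_⟩
      · have h1 := (hMmem (⟨p, hp⟩ * aP)).2
          ⟨0 - k, by rw [map_mul, hk, haP, DihedralGroup.sr_mul_sr]⟩
        rw [hadef]; exact h1
      · obtain ⟨l, hl⟩ := (hMmem ⟨p, hp⟩).1 h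
        rw [hk] at hl
        cases hl
  have hO1 : ∀ g : X, orderOf g = 2 → IsConj g z ∨ IsConj g a ∨ IsConj g b := by
    intro g hg
    obtain ⟨h, hh⟩ := sylow_conj_mem S (Subgroup.zpowers g) (isPGroup_zpowers_invol hg)
    have hxP : h * g * h⁻¹ ∈ (S : Subgroup X) := hh g (Subgroup.mem_zpowers g)
    have hxo : orderOf (h * g * h⁻¹) = 2 := by rw [orderOf_conj_eq, hg]
    have hgx : IsConj g (h * g * h⁻¹) := isConj_iff.2 ⟨h, rfl⟩
    by_cases hxM : h * g * h⁻¹ ∈ M
    · left
      rw [← hMz _ hxM hxo]; exact hgx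
    · rcases hconjab _ hxP hxM with h1 | h1
      · right; left; exact hgx.trans h1.symm
      · right; right; exact hgx.trans h1.symm
  -- a normal subgroup of index two
  have hidx2 : ∀ x ∈ (S : Subgroup X), x ∉ M → ¬ IsConj x z →
      ∃ N : Subgroup X, N.Normal ∧ N.index = 2 := by
    intro x hxP hxM hxz
    have hxo : orderOf x = 2 := hordM x hxP hxM
    obtain ⟨f, hf⟩ := thompson_transfer_hom S M hrel 1 le_rfl
      (fun y hy hyM => by rw [hordM y hy hyM]; norm_num) x (by rw [hxo]; norm_num)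
      (fun g hc => hxz (hMinv g x hxo hc))
    refine ⟨f.ker, inferInstance, ?_⟩
    rw [Subgroup.index_eq_two_iff]
    refine ⟨x, fun b' => ?_⟩
    simp only [MonoidHom.mem_ker, map_mul, hf]
    rcases Int.units_eq_one_or (f b') with h | h
    · rw [h]
      right
      constructor
      · rfl
      · decide
    · rw [h]
      left
      constructor
      · decide
      · decide
  -- no subgroup of index two
  have hno2 : IsConj a z → IsConj b z → ∀ N : Subgroup X, N.Normal → N.index ≠ 2 := by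
    intro hA hB N hN hidx
    have hconjN : ∀ x y : X, IsConj x y → (x ∈ N ↔ y ∈ N) := by
      intro x y hxy
      obtain ⟨u, hu⟩ := isConj_iff.1 hxy
      constructor
      · intro hx; rw [← hu]; exact hN.conj_mem x hx u
      · intro hy
        have : x = u⁻¹ * y * u⁻¹⁻¹ := by rw [← hu]; group
        rw [this]; exact hN.conj_mem y hy u⁻¹
    have habN : a ∈ N ↔ b ∈ N := (hconjN a z hA).trans (hconjN b z hB).symm
    have hρN : ρ ∈ N := by
      rw [← hab]
      exact (Subgroup.mul_mem_iff_of_index_two hidx).2 habN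
    have hzN : z ∈ N := by rw [hzρ]; exact N.pow_mem hρN _
    have haN : a ∈ N := (hconjN a z hA).2 hzN
    have hPN : (S : Subgroup X) ≤ N := by
      intro p hp
      rcases hPform ⟨p, hp⟩ with ⟨k, hk⟩ | ⟨k, hk⟩
      · have hk' : p = ρ ^ k := hk
        rw [hk']; exact N.pow_mem hρN k
      · have hk' : p = a * ρ ^ k := hk
        rw [hk']; exact N.mul_mem haN (N.pow_mem hρN k)
    have h1 : N.index ∣ (S : Subgroup X).index := Subgroup.index_dvd_of_le hPN
    rw [hidx] at h1
    exact S.not_dvd_index h1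
  constructor
  · rintro ⟨hno, -⟩
    left
    have hA : IsConj a z := by
      by_contra h
      obtain ⟨N, -, hN⟩ := hidx2 a haPm haM h
      exact hno N hN
    have hB : IsConj b z := by
      by_contra h
      obtain ⟨N, -, hN⟩ := hidx2 b hbPm hbM h
      exact hno N hN
    have hall : ∀ g : X, orderOf g = 2 → IsConj g z := by
      intro g hg
      rcases hO1 g hg with h | h | h
      · exact h
      · exact h.trans hA
      · exact h.trans hB
    intro x y hx hy
    exact (hall x hx).trans (hall y hy).symm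
  · intro hR
    have hall : ∀ g : X, orderOf g = 2 → IsConj g z := by
      rcases hR with hR | hR
      · intro g hg; exact hR g z hg hzo
      · have hA : IsConj a z :=
          hL a z hao hzo hza.symm (fun h => haM (by rw [h]; exact hzM)) haPm hzPm hR
        have hB : IsConj b z :=
          hL b z hbo hzo hzb.symm (fun h => hbM (by rw [h]; exact hzM)) hbPm hzPm hR
        intro g hg
        rcases hO1 g hg with h | h | h
        · exact h
        · exact h.trans hA
        · exact h.trans hB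
    have hA : IsConj a z := hall a hao
    have hB : IsConj b z := hall b hbo
    constructor
    · intro H hH
      exact hno2 hA hB H (Subgroup.normal_of_index_eq_two hH) hH
    · rintro z0 ⟨hz0, hiso⟩
      obtain ⟨c₁, hc₁⟩ := isConj_iff.1 (hall z0 hz0).symm
      have hcomm : z0 * (c₁ * a * c₁⁻¹) = (c₁ * a * c₁⁻¹) * z0 := by
        rw [← hc₁]
        calc c₁ * z * c₁⁻¹ * (c₁ * a * c₁⁻¹) = c₁ * (z * a) * c₁⁻¹ := by group
          _ = c₁ * (a * z) * c₁⁻¹ := by rw [hza]
          _ = c₁ * a * c₁⁻¹ * (c₁ * z * c₁⁻¹) := by group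
      obtain ⟨g, hg⟩ := isConj_iff.1 ((hall z0 hz0).trans
        (hall (c₁ * a * c₁⁻¹) (by rw [orderOf_conj_eq, hao])).symm)
      have h1 := hiso g ((commute_iff_eq _ _).mpr (by rw [hg]; exact hcomm))
      rw [hg, ← hc₁] at h1
      have h2 : a = z := by simpa using h1
      exact haM (by rw [h2]; exact hzM)

end Cfsg.Agent.S1255
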