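import Mathlib
import Cfsg.Statements.S1262
import Cfsg.Agent.Lib.Helper2.Comp

set_option autoImplicit false
open Cfsg

namespace Cfsg.Agent.S1262

/-- Let L be a component of the finite group G and H a solvable subgroup normalized by L. Then ⁅L, H⁆ = 1. -/
theorem result {G : Type*} [Group G] [Finite G] (L H : Subgroup G) (hL : Cfsg.IsComponent L) (hsolv : Group.IsSolvable ↥H) (hinv : L ≤ Subgroup.normalizer (H : Set G)) : ⁅L, H⁆ = ⊥ := by
  have hHM : H ≤ L ⊔ H := le_sup_right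
  have hLM : L ≤ L ⊔ H := le_sup_left
  have hHn : (H.subgroupOf (L ⊔ H)).Normal := by
    rw [Subgroup.normal_subgroupOf_iff_le_normalizer hHM]
    exact sup_le hinv Subgroup.le_normalizer
  have hL' := Cfsg.Agent.Lib.Helper2.isComponent_subgroupOf L (L ⊔ H) hLM hL
  rcases Cfsg.Agent.Lib.Helper2.component_le_or_centralizes (L.subgroupOf (L ⊔ H))
    (H.subgroupOf (L ⊔ H)) hL' hHn.isSubnormal with h | h
  · exfalso
    have hLH : L ≤ H := by
      intro x hx
      exact h (show (⟨x, hLM hx⟩ : ↥(L ⊔ H)) ∈ L.subgroupOf (L ⊔ H) from hx)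
    have hLsolv : Group.IsSolvable ↥L :=
      Group.isSolvable_of_isSolvable_injective (Subgroup.inclusion_injective hLH)
    exact Cfsg.Agent.Lib.Helper2.quasisimple_not_solvable hL.2 hLsolv
  · rw [Subgroup.commutator_eq_bot_iff_le_centralizer]
    intro x hx
    have h3 := h (show (⟨x, hLM hx⟩ : ↥(L ⊔ H)) ∈ L.subgroupOf (L ⊔ H) from hx)
    rw [Subgroup.mem_centralizer_iff] at h3 ⊢
    intro y hy
    have h4 := h3 ⟨y, hHM hy⟩ (show (⟨y, hHM hy⟩ : ↥(L ⊔ H)) ∈ H.subgroupOf (L ⊔ H) from hy)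
    exact congrArg Subtype.val h4

end Cfsg.Agent.S1262
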