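import Mathlib
import Cfsg.Statements.S1264
import Cfsg.Agent.Lib.Helper2.Nilp
import Cfsg.Agent.Lib.Helper2.Layer2

set_option autoImplicit false
open Cfsg

namespace Cfsg.Agent.S1264

/-- Let G be finite, C = C_G(F(G)) the centralizer of the Fitting subgroup, and N a solvable subgroup of C normalized by C. Then N ≤ Z(F(G)). -/
theorem result {G : Type*} [Group G] [Finite G] (N : Subgroup G) (hN : N ≤ Subgroup.centralizer (Cfsg.fittingSubgroup G : Set G)) (hnorm : Subgroup.centralizer (Cfsg.fittingSubgroup G : Set G) ≤ Subgroup.normalizer (N : Set G)) (hsolv : Group.IsSolvable ↥N) : N ≤ (Subgroup.center ↥(Cfsg.fittingSubgroup G)).map (Cfsg.fittingSubgroup G).subtype := by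
  have hFn : (Cfsg.fittingSubgroup G).Normal := Cfsg.Agent.Lib.Helper2.fitting_normal G
  have hCn : (Subgroup.centralizer (Cfsg.fittingSubgroup G : Set G)).Normal := inferInstance
  have hNC : (N.subgroupOf (Subgroup.centralizer (Cfsg.fittingSubgroup G : Set G))).Normal :=
    (Subgroup.normal_subgroupOf_iff_le_normalizer hN).mpr hnorm
  have hNsub : N.IsSubnormal :=
    Subgroup.IsSubnormal.step N _ hN (Subgroup.Normal.isSubnormal hCn) hNC
  have hDsub : ∀ k : ℕ, ((derivedSeries ↥N k).map N.subtype).IsSubnormal := by
    intro k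
    have hk : (derivedSeries ↥N k).Normal := inferInstance
    exact (Subgroup.Normal.isSubnormal hk).trans' hNsub
  obtain ⟨n, hn⟩ := hsolv.solvable
  have key : ∀ j : ℕ, j ≤ n → (derivedSeries ↥N (n - j)).map N.subtype ≤ Cfsg.fittingSubgroup G := by
    intro j
    induction j with
    | zero =>
      intro _
      rw [Nat.sub_zero, hn, Subgroup.map_bot]
      exact bot_le
    | succ j ih =>
      intro hj
      have ih' := ih (by omega)
      have hidx : n - j = (n - (j + 1)) + 1 := by omega
      rw [hidx] at ih'
      generalize n - (j + 1) = i at ih' ⊢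
      apply Cfsg.Agent.Lib.Helper2.subnormal_nilpotent_le_fitting _ (hDsub i)
      have hnilS : Group.IsNilpotent ↥(derivedSeries ↥N i) := by
        rw [Group.isNilpotent_iff]
        refine ⟨2, ?_⟩
        rw [Subgroup.eq_top_iff']
        intro x
        rw [show (2 : ℕ) = 1 + 1 from rfl, Subgroup.mem_upperCentralSeries_succ_iff]
        intro y
        rw [Subgroup.upperCentralSeries_one, Subgroup.mem_center_iff]
        intro s
        have hc : (x : ↥N) * (y : ↥N) * (x : ↥N)⁻¹ * (y : ↥N)⁻¹ ∈ derivedSeries ↥N (i + 1) := by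
          rw [derivedSeries_succ]
          have := Subgroup.commutator_mem_commutator x.2 y.2
          rw [commutatorElement_def] at this
          exact this
        have hcF : (((x : ↥N) * (y : ↥N) * (x : ↥N)⁻¹ * (y : ↥N)⁻¹ : ↥N) : G) ∈
            Cfsg.fittingSubgroup G := ih' ⟨_, hc, rfl⟩
        have hsC := hN (s : ↥N).2
        have h1 := (Subgroup.mem_centralizer_iff.mp hsC) _ hcF
        apply Subtype.ext
        apply Subtype.ext
        simp only [Subgroup.coe_mul, Subgroup.coe_inv] at h1 ⊢
        exact h1.symm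
      exact Group.nilpotent_of_mulEquiv
        ((derivedSeries ↥N i).equivMapOfInjective N.subtype N.subtype_injective)
  have hNF : N ≤ Cfsg.fittingSubgroup G := by
    have h0 := key n le_rfl
    rw [Nat.sub_self, derivedSeries_zero, ← MonoidHom.range_eq_map, Subgroup.range_subtype] at h0
    exact h0
  intro x hx
  rw [Cfsg.Agent.Lib.Helper2.mem_map_center_iff]
  refine ⟨hNF hx, ?_⟩
  intro l hl
  exact (Subgroup.mem_centralizer_iff.mp (hN hx)) l hl

end Cfsg.Agent.S1264
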