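import Mathlib
import Cfsg.Statements.S1267
import Cfsg.Agent.Lib.Helper2.PQLayer2

set_option autoImplicit false
open Cfsg

namespace Cfsg.Agent.S1267

/-- Let G be finite and P ≤ O_p(G). Then E(N_G(P)) = E(G). -/
theorem result {G : Type*} [Group G] [Finite G] (p : ℕ) [Fact p.Prime] (P : Subgroup G) (hP : P ≤ Cfsg.pCore p G) : (Cfsg.layer ↥(Subgroup.normalizer ((P : Subgroup G) : Set G))).map (Subgroup.normalizer ((P : Subgroup G) : Set G)).subtype = Cfsg.layer G := by
  have hPp : IsPGroup p ↥P := (Cfsg.Agent.Lib.Helper2.pCore_isPGroup' p G).to_le hP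
  have hCqN : Subgroup.centralizer (Cfsg.pCore p G : Set G) ≤
      Subgroup.normalizer ((P : Subgroup G) : Set G) :=
    (Subgroup.centralizer_le (SetLike.coe_subset_coe.mpr hP)).trans
      (Subgroup.centralizer_le_normalizer _)
  have key := Cfsg.Agent.Lib.Helper2.pprime_layer_centralizes_pCore p P
    (Subgroup.normalizer ((P : Subgroup G) : Set G)) hPp Subgroup.le_normalizer le_rfl
    (inf_le_right.trans (Subgroup.centralizer_le_normalizer _))
  apply le_antisymm
  · rw [Subgroup.map_le_iff_le_comap]
    refine sSup_le ?_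
    intro K hK
    rw [← Subgroup.map_le_iff_le_comap]
    apply Cfsg.Agent.Lib.Helper2.component_le_layer
    have hKle : K.map (Subgroup.normalizer ((P : Subgroup G) : Set G)).subtype ≤
        Subgroup.centralizer (Cfsg.pCore p G : Set G) := by
      rintro x ⟨k, hk, rfl⟩
      apply key
      refine ⟨k, ?_, rfl⟩
      show QuotientGroup.mk' (Cfsg.pPrimeCore p ↥(Subgroup.normalizer ((P : Subgroup G) : Set G))) k ∈
        Cfsg.layer (↥(Subgroup.normalizer ((P : Subgroup G) : Set G)) ⧸
          Cfsg.pPrimeCore p ↥(Subgroup.normalizer ((P : Subgroup G) : Set G)))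
      apply Cfsg.Agent.Lib.Helper2.layer_map_quotient_le
      exact ⟨k, Cfsg.Agent.Lib.Helper2.component_le_layer K hK hk, rfl⟩
    refine ⟨?_, Cfsg.Agent.Lib.Helper2.isQuasisimple_of_mulEquiv
      (K.equivMapOfInjective (Subgroup.normalizer ((P : Subgroup G) : Set G)).subtype
        (Subgroup.subtype_injective _)) hK.2⟩
    have hQn : (Cfsg.pCore p G).Normal := Cfsg.pCore_normal p G
    have hCn : (Subgroup.centralizer (Cfsg.pCore p G : Set G)).Normal := inferInstance
    apply Subgroup.IsSubnormal.trans hKle ?_ (Subgroup.Normal.isSubnormal hCn)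
    have heq : (K.map (Subgroup.normalizer ((P : Subgroup G) : Set G)).subtype).subgroupOf
        (Subgroup.centralizer (Cfsg.pCore p G : Set G)) = K.comap (Subgroup.inclusion hCqN) := by
      ext c
      rw [Subgroup.mem_subgroupOf, Subgroup.mem_comap]
      constructor
      · rintro ⟨k, hk, hkc⟩
        have : k = Subgroup.inclusion hCqN c := Subtype.ext hkc
        rw [← this]
        exact hk
      · intro hc
        exact ⟨_, hc, rfl⟩
    rw [heq]
    exact hK.1.comap _
  · refine sSup_le ?_
    intro L hL
    have hLN : L ≤ Subgroup.normalizer ((P : Subgroup G) : Set G) :=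
      ((Cfsg.Agent.Lib.Helper2.component_le_layer L hL).trans
        (Cfsg.Agent.Lib.Helper2.layer_le_centralizer_fitting G)).trans
        ((Subgroup.centralizer_le (SetLike.coe_subset_coe.mpr
          (Cfsg.Agent.Lib.Helper2.pCore_le_fitting p G))).trans hCqN)
    have := Cfsg.Agent.Lib.Helper2.component_le_layer _
      (Cfsg.Agent.Lib.Helper2.isComponent_subgroupOf L _ hLN hL)
    rw [← Subgroup.map_subgroupOf_eq_of_le hLN]
    exact Subgroup.map_mono this

end Cfsg.Agent.S1267
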