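import Mathlib
import Cfsg.Statements.S1276
import Cfsg.Agent.Lib.Helper2.PComp3

set_option autoImplicit false
open Cfsg

namespace Cfsg.Agent.S1276

/-- Let K be a 2-component of the finite group X. Then K is quasisimple if and only if ⁅K, O(K)⁆ = 1. -/
theorem result {X : Type*} [Group X] [Finite X] (K : Subgroup X) (hK : Cfsg.IsPComponent 2 K) : Cfsg.IsQuasisimple ↥K ↔ ⁅K, ((Cfsg.oddCore ↥K).map K.subtype)⁆ = ⊥ := by
  have : Fact (Nat.Prime 2) := ⟨Nat.prime_two⟩
  have key : ⁅K, ((Cfsg.oddCore ↥K).map K.subtype)⁆ = ⊥ ↔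
      Cfsg.pPrimeCore 2 ↥K ≤ Subgroup.center ↥K := by
    rw [Subgroup.commutator_eq_bot_iff_le_centralizer]
    constructor
    · intro h z hz
      rw [Subgroup.mem_center_iff]
      intro k
      have h1 := h k.2
      have h2 := (Subgroup.mem_centralizer_iff.mp h1) (z : X) ⟨z, hz, rfl⟩
      apply Subtype.ext
      simp only [Subgroup.coe_mul]
      exact h2.symm
    · intro h k hk
      rw [Subgroup.mem_centralizer_iff]
      rintro y ⟨z, hz, rfl⟩
      have h1 := Subgroup.mem_center_iff.mp (h hz) ⟨k, hk⟩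
      have h2 := congrArg Subtype.val h1
      simp only [Subgroup.coe_mul] at h2
      exact h2.symm
  rw [key]
  constructor
  · intro hq
    exact Cfsg.Agent.Lib.Helper2.pComponent_core_le_center 2 K hK hq
  · intro hc
    exact Cfsg.Agent.Lib.Helper2.pComponent_quasisimple_of_core_le_center 2 K hK hc

end Cfsg.Agent.S1276
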