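import Mathlib
import Cfsg.Statements.S1279
import Cfsg.Agent.Lib.Helper2.Signal2

set_option autoImplicit false
open Cfsg

namespace Cfsg.Agent.S1279

/-- Let A be a noncyclic elementary abelian p-subgroup of the finite group G such that C_G(a) is solvable for every non-identity a ∈ A. Then a ↦ O_{p'}(C_G(a)) is a solvable A-signalizer functor on G. -/
theorem result {G : Type*} [Group G] [Finite G] (p : ℕ) [Fact p.Prime] (A : Subgroup G) (hA : Cfsg.IsElementaryAbelian p A) (hA2 : p ^ 2 ≤ Nat.card ↥A) (hsolv : ∀ a ∈ A, a ≠ 1 → Group.IsSolvable ↥(Subgroup.centralizer ({a} : Set G))) : Cfsg.IsSolvableSignalizerFunctor p A (fun a => Cfsg.centralizerPPrimeCore p a) := by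
  have hp : p.Prime := Fact.out
  have hcommA : ∀ a ∈ A, ∀ b ∈ A, a * b = b * a := by
    intro a ha b hb
    have := hA.1.is_comm.comm ⟨a, ha⟩ ⟨b, hb⟩
    exact congrArg Subtype.val this
  have hcardθ : ∀ a : G, (Nat.card ↥(Cfsg.centralizerPPrimeCore p a)).Coprime p := by
    intro a
    unfold Cfsg.centralizerPPrimeCore
    rw [Subgroup.card_map_of_injective (Subgroup.subtype_injective _)]
    exact Cfsg.Agent.Lib.Helper2.pPrimeCore_card_coprime p _
  have hθle : ∀ a : G, Cfsg.centralizerPPrimeCore p a ≤ Subgroup.centralizer ({a} : Set G) := by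
    intro a
    unfold Cfsg.centralizerPPrimeCore
    exact Subgroup.map_subtype_le _
  have hθn : ∀ a : G, Subgroup.centralizer ({a} : Set G) ≤
      Subgroup.normalizer ((Cfsg.centralizerPPrimeCore p a : Subgroup G) : Set G) := by
    intro a
    unfold Cfsg.centralizerPPrimeCore
    exact Cfsg.Agent.Lib.Helper2.le_normalizer_map_subtype_of_normal _ _
  have hmemC : ∀ a b : G, a * b = b * a → b ∈ Subgroup.centralizer ({a} : Set G) := by
    intro a b hab
    rw [Subgroup.mem_centralizer_iff]
    intro x hx
    rw [Set.mem_singleton_iff] at hx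
    subst hx
    exact hab
  refine ⟨⟨fun a _ _ => hθle a, ?_, ?_, ?_⟩, ?_⟩
  · intro a _ _
    exact (Nat.Prime.coprime_iff_not_dvd hp).mp (hcardθ a).symm
  · intro a ha _ b hb x hx
    have hbC : b ∈ Subgroup.centralizer ({a} : Set G) := hmemC a b (hcommA a ha b hb)
    exact (Subgroup.mem_normalizer_iff.mp (hθn a hbC) x).mp hx
  · intro a ha ha1 b hb hb1
    have hs : Group.IsSolvable ↥(Subgroup.centralizer ({b} : Set G)) := hsolv b hb hb1
    have haC : a ∈ Subgroup.centralizer ({b} : Set G) := hmemC b a (hcommA b hb a ha)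
    have key := Cfsg.Agent.Lib.Helper2.pprime_le_pPrimeCore_of_solvable p hs
      (⟨a, haC⟩ : ↥(Subgroup.centralizer ({b} : Set G)))
      (by apply Subtype.ext; exact hA.2 a ha)
      ((Cfsg.centralizerPPrimeCore p a ⊓ Subgroup.centralizer ({b} : Set G)).subgroupOf
        (Subgroup.centralizer ({b} : Set G))) ?_ ?_ ?_
    · intro g hg
      have h1 : (⟨g, hg.2⟩ : ↥(Subgroup.centralizer ({b} : Set G))) ∈
          Cfsg.pPrimeCore p ↥(Subgroup.centralizer ({b} : Set G)) :=
        key (Subgroup.mem_subgroupOf.mpr hg)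
      exact ⟨_, h1, rfl⟩
    · rw [Nat.card_congr (Subgroup.subgroupOfEquivOfLe
        (inf_le_right : Cfsg.centralizerPPrimeCore p a ⊓ Subgroup.centralizer ({b} : Set G) ≤
          Subgroup.centralizer ({b} : Set G))).toEquiv]
      intro hdvd
      exact (Nat.Prime.coprime_iff_not_dvd hp).mp (hcardθ a).symm
        (hdvd.trans (Subgroup.card_dvd_of_le inf_le_left))
    · intro d hd
      rw [Subgroup.mem_subgroupOf] at hd
      have h1 := hθle a hd.1
      rw [Subgroup.mem_centralizer_iff]
      intro x hx
      rw [Set.mem_singleton_iff] at hx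
      subst hx
      apply Subtype.ext
      exact Subgroup.mem_centralizer_iff.mp h1 a rfl
    · intro h hh
      have hha : (h : G) ∈ Subgroup.centralizer ({a} : Set G) := by
        apply hmemC
        have := Subgroup.mem_centralizer_iff.mp hh ⟨a, haC⟩ rfl
        exact congrArg Subtype.val this
      have hnorm : (h : G) ∈ Subgroup.normalizer
          ((Cfsg.centralizerPPrimeCore p a ⊓ Subgroup.centralizer ({b} : Set G) : Subgroup G) :
            Set G) :=
        Cfsg.Agent.Lib.Helper2.mem_normalizer_inf _ _ _ (hθn a hha) (Subgroup.le_normalizer h.2)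
      rw [Subgroup.mem_normalizer_iff]
      intro x
      rw [Subgroup.mem_subgroupOf, Subgroup.mem_subgroupOf]
      exact Subgroup.mem_normalizer_iff.mp hnorm x
  · intro a ha ha1
    have hs : Group.IsSolvable ↥(Subgroup.centralizer ({a} : Set G)) := hsolv a ha ha1
    exact Group.isSolvable_of_isSolvable_injective (Subgroup.inclusion_injective (hθle a))

end Cfsg.Agent.S1279
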