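import Mathlib
import Cfsg.Statements.S1281
import Cfsg.Agent.Lib.Helper2.Signal

set_option autoImplicit false
open Cfsg

namespace Cfsg.Agent.S1281

/-- Let θ be a solvable A-signalizer functor on the finite group G (A a noncyclic elementary abelian p-subgroup) and N a normal subgroup of order prime to p. Then for all non-identity a, b ∈ A, the image of θ a in G / N meets the centralizer of the image of b inside the image of θ b. -/
theorem result {G : Type*} [Group G] [Finite G] (p : ℕ) [Fact p.Prime] (A : Subgroup G) (hA : Cfsg.IsElementaryAbelian p A) (hA2 : p ^ 2 ≤ Nat.card ↥A) (θ : G → Subgroup G) (hθ : Cfsg.IsSolvableSignalizerFunctor p A θ) (N : Subgroup G) [N.Normal] (hN : ¬ p ∣ Nat.card ↥N) (a b : G) (ha : a ∈ A) (ha1 : a ≠ 1) (hb : b ∈ A) (hb1 : b ≠ 1) : (θ a).map (QuotientGroup.mk' N) ⊓ Subgroup.centralizer {QuotientGroup.mk' N b} ≤ (θ b).map (QuotientGroup.mk' N) := by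
  obtain ⟨⟨hcent, hcard, hinv, hbal⟩, hsolv⟩ := hθ
  rintro z ⟨⟨u, hu, rfl⟩, hz⟩
  have hzc : QuotientGroup.mk' N b * QuotientGroup.mk' N u =
      QuotientGroup.mk' N u * QuotientGroup.mk' N b := Subgroup.mem_centralizer_iff.mp hz _ rfl
  have hbA : A ≤ Subgroup.normalizer (θ a : Set G) :=
    Cfsg.Agent.Lib.Helper4.le_normalizer_of_conj_mem (hinv a ha ha1)
  have hfixN : b * u * b⁻¹ * u⁻¹ ∈ N := by
    have h : QuotientGroup.mk' N (b * u * b⁻¹ * u⁻¹) = 1 := by
      rw [map_mul, map_mul, map_mul, map_inv, map_inv, hzc]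
      group
    exact (QuotientGroup.eq_one_iff _).mp h
  have hfix : b * u * b⁻¹ * u⁻¹ ∈ θ a ⊓ N :=
    ⟨(θ a).mul_mem (hinv a ha ha1 b hb u hu) ((θ a).inv_mem hu), hfixN⟩
  obtain ⟨c, hc, hcb, hcN⟩ := Cfsg.Agent.Lib.Helper2.coprime_elt_coset_fix p b (hA.2 b hb) (θ a)
    (θ a ⊓ N) (hcard a ha ha1) (hbA hb) inf_le_left
    (fun k hk => Cfsg.Agent.Lib.Helper2.mem_normalizer_inf _ _ k (Subgroup.le_normalizer hk)
      (by rw [Subgroup.normalizer_eq_top]; trivial))
    (Cfsg.Agent.Lib.Helper2.mem_normalizer_inf _ _ b (hbA hb)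
      (by rw [Subgroup.normalizer_eq_top]; trivial)) u hu hfix
  have hcC : c ∈ Subgroup.centralizer ({b} : Set G) := by
    rw [Subgroup.mem_centralizer_iff]
    intro h hh
    rw [Set.mem_singleton_iff] at hh
    subst hh
    exact hcb.symm
  have hcθ : c ∈ θ b := hbal a ha ha1 b hb hb1 ⟨hc, hcC⟩
  refine ⟨c, hcθ, ?_⟩
  have h7 : c⁻¹ * u ∈ N := by
    have := N.inv_mem hcN.2
    rwa [mul_inv_rev, inv_inv] at this
  exact QuotientGroup.eq.mpr h7

end Cfsg.Agent.S1281
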