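import Mathlib
import Cfsg.Statements.S1284
import Cfsg.Agent.Lib.Helper2.Transit2

set_option autoImplicit false
open Cfsg

namespace Cfsg.Agent.S1284

/-- Let θ be a solvable A-signalizer functor on the finite group G, A elementary abelian of rank at least 3, q a prime dividing some |θ a|, and Q maximal among the q-subgroups in the family of θ. Then (a) for every member H of the family, some c in the intersection of the θ a (a ∈ A non-identity) makes c Q c⁻¹ ∩ H a Sylow q-subgroup of H; and (b) for every nontrivial subgroup B ≤ A, C_Q(B) is a Sylow q-subgroup of the intersection of the θ b over the non-identity b ∈ B. -/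
theorem result {G : Type*} [Group G] [Finite G] (p : ℕ) [Fact p.Prime] (A : Subgroup G) (hA : Cfsg.IsElementaryAbelian p A) (hA3 : p ^ 3 ≤ Nat.card ↥A) (θ : G → Subgroup G) (hθ : Cfsg.IsSolvableSignalizerFunctor p A θ) (q : ℕ) [Fact q.Prime] (hq : ∃ a ∈ A, a ≠ 1 ∧ q ∣ Nat.card ↥(θ a)) (Q : Subgroup G) (hQW : Q ∈ Cfsg.signalizerFamily p A θ) (hQq : IsPGroup q ↥Q) (hQmax : ∀ R ∈ Cfsg.signalizerFamily p A θ, IsPGroup q ↥R → Q ≤ R → R = Q) : (∀ H : Subgroup G, H ∈ Cfsg.signalizerFamily p A θ → ∃ c ∈ Cfsg.signalizerInf A θ, ∃ S : Sylow q ↥H, (S : Subgroup ↥H).map H.subtype = Q.map (MulAut.conj c).toMonoidHom ⊓ H) ∧ (∀ B : Subgroup G, B ≤ A → B ≠ ⊥ → ∃ S : Sylow q ↥(Cfsg.signalizerInf B θ), (S : Subgroup ↥(Cfsg.signalizerInf B θ)).map (Cfsg.signalizerInf B θ).subtype = Q ⊓ Subgroup.centralizer (B : Set G)) := by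
  refine ⟨fun H hH => Cfsg.Agent.Lib.Helper2.maximal_member_sylow p A hA hA3 θ hθ q Q hQW hQq
    hQmax H hH, ?_⟩
  intro B hBA hB1
  obtain ⟨b₀, hb₀B, hb₀1⟩ : ∃ b ∈ B, b ≠ 1 := by
    by_contra hno
    push Not at hno
    exact hB1 ((Subgroup.eq_bot_iff_forall _).mpr hno)
  have hHle : Cfsg.signalizerInf B θ ≤ θ b₀ :=
    fun g hg => (Cfsg.Agent.Lib.Helper2.mem_signalizerInf B θ g).mp hg b₀ hb₀B hb₀1
  have hHW : Cfsg.signalizerInf B θ ∈ Cfsg.signalizerFamily p A θ := by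
    apply Cfsg.Agent.Lib.Helper2.family_sub p A θ (θ b₀) _
      (Cfsg.Agent.Lib.Helper2.theta_mem_family p A θ hθ b₀ (hBA hb₀B) hb₀1) hHle
    intro a ha v hv
    rw [Cfsg.Agent.Lib.Helper2.mem_signalizerInf] at hv ⊢
    intro b hb hb1
    exact hθ.1.2.2.1 b (hBA hb) hb1 a ha v (hv b hb hb1)
  obtain ⟨c, hc, S, hS⟩ := Cfsg.Agent.Lib.Helper2.maximal_member_sylow p A hA hA3 θ hθ q Q hQW
    hQq hQmax _ hHW
  have hcH : c ∈ Cfsg.signalizerInf B θ := by
    rw [Cfsg.Agent.Lib.Helper2.mem_signalizerInf] at hc ⊢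
    exact fun b hb hb1 => hc b (hBA hb) hb1
  have hQB : Q ⊓ Subgroup.centralizer (B : Set G) = Q ⊓ Cfsg.signalizerInf B θ := by
    apply le_antisymm
    · intro g hg
      have h2 : g ∈ Cfsg.signalizerInf B θ := by
        rw [Cfsg.Agent.Lib.Helper2.mem_signalizerInf]
        intro b hb hb1
        exact hQW.2.2.2 b (hBA hb) hb1
          ⟨hg.1, Subgroup.centralizer_le (Set.singleton_subset_iff.mpr hb) hg.2⟩
      exact ⟨hg.1, h2⟩
    · intro g hg
      have h2 : g ∈ Subgroup.centralizer (B : Set G) := by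
        rw [Subgroup.mem_centralizer_iff]
        intro b hb
        by_cases hb1 : b = 1
        · subst hb1; simp
        · have h3 := hθ.1.1 b (hBA hb) hb1
            ((Cfsg.Agent.Lib.Helper2.mem_signalizerInf B θ g).mp hg.2 b hb hb1)
          exact Subgroup.mem_centralizer_iff.mp h3 b rfl
      exact ⟨hg.1, h2⟩
  have key : ∀ d : G, d = c⁻¹ →
      (Q.map (MulAut.conj c).toMonoidHom ⊓ Cfsg.signalizerInf B θ).map
        (MulAut.conj d).toMonoidHom = Q ⊓ Cfsg.signalizerInf B θ := by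
    rintro d rfl
    ext x
    rw [Cfsg.Agent.Lib.Helper7.mem_map_conj, inv_inv]
    have e : ∀ y : G, c⁻¹ * (c * y * c⁻¹) * c = y := fun y => by group
    constructor
    · intro h
      have h1 : c * x * c⁻¹ ∈ Q.map (MulAut.conj c).toMonoidHom := h.1
      have h2 : c * x * c⁻¹ ∈ Cfsg.signalizerInf B θ := h.2
      rw [Cfsg.Agent.Lib.Helper7.mem_map_conj, e] at h1
      have h3 : x ∈ Cfsg.signalizerInf B θ := by
        have h4 := (Cfsg.signalizerInf B θ).mul_mem
          ((Cfsg.signalizerInf B θ).mul_mem (inv_mem hcH) h2) hcH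
        rwa [e] at h4
      exact ⟨h1, h3⟩
    · intro h
      have h1 : x ∈ Q := h.1
      have h2 : x ∈ Cfsg.signalizerInf B θ := h.2
      have h3 : c * x * c⁻¹ ∈ Q.map (MulAut.conj c).toMonoidHom := by
        rw [Cfsg.Agent.Lib.Helper7.mem_map_conj, e]
        exact h1
      exact ⟨h3, (Cfsg.signalizerInf B θ).mul_mem
        ((Cfsg.signalizerInf B θ).mul_mem hcH h2) (inv_mem hcH)⟩
  refine ⟨(⟨c⁻¹, inv_mem hcH⟩ : ↥(Cfsg.signalizerInf B θ)) • S, ?_⟩
  rw [Cfsg.Agent.Lib.Lead.sylow_map_smul, Cfsg.Agent.Lib.Helper2.conj_smul_eq_map, hS, hQB]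
  exact key _ rfl

end Cfsg.Agent.S1284
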