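import Mathlib
import Cfsg.Statements.S1285
import Cfsg.Agent.Lib.Helper2.Transit2

set_option autoImplicit false
open Cfsg

namespace Cfsg.Agent.S1285

/-- Let θ be a solvable A-signalizer functor on the finite group G with A elementary abelian of rank at least 3, and suppose that for some prime q every θ a (a ∈ A non-identity) is a q-group. Then θ is complete. -/
theorem result {G : Type*} [Group G] [Finite G] (p : ℕ) [Fact p.Prime] (A : Subgroup G) (hA : Cfsg.IsElementaryAbelian p A) (hA3 : p ^ 3 ≤ Nat.card ↥A) (θ : G → Subgroup G) (hθ : Cfsg.IsSolvableSignalizerFunctor p A θ) (q : ℕ) [Fact q.Prime] (hq : ∀ a ∈ A, a ≠ 1 → IsPGroup q ↥(θ a)) : Cfsg.IsCompleteSignalizerFunctor p A θ := by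
  have hbot := Cfsg.Agent.Lib.Helper2.bot_mem_family p A θ
  obtain ⟨Q, ⟨hQW, hQq⟩, _, hQmax⟩ := Cfsg.Agent.Lib.Helper2.exists_maximal_member
    (fun R => R ∈ Cfsg.signalizerFamily p A θ ∧ IsPGroup q ↥R) _ ⊥ ⟨hbot, IsPGroup.of_bot⟩ le_rfl
  refine ⟨hθ.1, Q, hQW.2.2.1, hQW.2.1, ?_⟩
  intro a ha ha1
  apply le_antisymm (hQW.2.2.2 a ha ha1)
  have hTW := Cfsg.Agent.Lib.Helper2.theta_mem_family p A θ hθ a ha ha1
  obtain ⟨Q₃, ⟨hQ₃W, hQ₃q⟩, hTQ₃, hQ₃max⟩ := Cfsg.Agent.Lib.Helper2.exists_maximal_member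
    (fun R => R ∈ Cfsg.signalizerFamily p A θ ∧ IsPGroup q ↥R) _ (θ a) ⟨hTW, hq a ha ha1⟩ le_rfl
  obtain ⟨c, hc, hceq⟩ := Cfsg.Agent.Lib.Helper2.transitivity p A hA hA3 θ hθ q _ Q Q₃ hQW hQq
    (fun R hR hRq hle => hQmax R ⟨hR, hRq⟩ hle) hQ₃W hQ₃q
    (fun R hR hRq hle => hQ₃max R ⟨hR, hRq⟩ hle) le_rfl
  have hcθ : c ∈ θ a := (Cfsg.Agent.Lib.Helper2.mem_signalizerInf A θ c).mp hc a ha ha1
  intro g hg
  have h1 : c * g * c⁻¹ ∈ Q₃ :=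
    hTQ₃ ((θ a).mul_mem ((θ a).mul_mem hcθ hg) ((θ a).inv_mem hcθ))
  rw [← hceq, Cfsg.Agent.Lib.Helper7.mem_map_conj] at h1
  have e : c⁻¹ * (c * g * c⁻¹) * c = g := by group
  rw [e] at h1
  exact ⟨h1, hθ.1.1 a ha ha1 hg⟩

end Cfsg.Agent.S1285
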