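import Mathlib
import Cfsg.Statements.S1286
import Cfsg.Agent.Lib.Helper2.SigEx

set_option autoImplicit false
open Cfsg

namespace Cfsg.Agent.S1286

/-- There exist a finite group X, an elementary abelian subgroup A of order 4 and a solvable A-signalizer functor θ on X for the prime 2 which is not complete. -/
theorem result : ∃ (X : Type) (_ : Group X) (_ : Finite X) (A : Subgroup X) (θ : X → Subgroup X), Cfsg.IsElementaryAbelian 2 A ∧ Nat.card ↥A = 4 ∧ Cfsg.IsSolvableSignalizerFunctor 2 A θ ∧ ¬ Cfsg.IsCompleteSignalizerFunctor 2 A θ := by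
  refine ⟨Cfsg.Agent.Lib.Helper2.SigP5, inferInstance, inferInstance,
    Cfsg.Agent.Lib.Helper2.sigA, Cfsg.Agent.Lib.Helper2.sigTheta, ?_, ?_, ?_, ?_⟩
  · exact ⟨⟨⟨fun x y => Subtype.ext (Cfsg.Agent.Lib.Helper2.sigA_comm x x.2 y y.2)⟩⟩,
      Cfsg.Agent.Lib.Helper2.sigA_exp⟩
  · exact Cfsg.Agent.Lib.Helper2.sigA_card
  · refine ⟨Cfsg.Agent.Lib.Helper2.sig_functor, ?_⟩
    intro a _ _
    unfold Cfsg.Agent.Lib.Helper2.sigTheta
    exact Cfsg.Agent.Lib.Helper2.isSolvable_zpowers _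
  · exact Cfsg.Agent.Lib.Helper2.sig_not_complete

end Cfsg.Agent.S1286
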