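import Mathlib
import Cfsg.Statements.S1300

set_option autoImplicit false
open Cfsg

namespace Cfsg.Agent.S1300

theorem core_le_centralizer {G : Type*} [Group G] (x : G) :
    Cfsg.centralizerPPrimeCore 2 x ≤ Subgroup.centralizer ({x} : Set G) := by
  unfold Cfsg.centralizerPPrimeCore
  exact Subgroup.map_subtype_le _

theorem mem_zpowers_invol {G : Type*} [Group G] (x a : G) (hx : orderOf x = 2)
    (ha : a ∈ Subgroup.zpowers x) (ha1 : a ≠ 1) : a = x := by
  obtain ⟨i, rfl⟩ := Subgroup.mem_zpowers_iff.mp ha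
  have h := zpow_mod_orderOf x i
  rw [hx] at h
  have h0 : ((2 : ℕ) : ℤ) = 2 := rfl
  rw [h0] at h
  have h2 : i % 2 = 0 ∨ i % 2 = 1 := by omega
  rcases h2 with h2 | h2
  · rw [h2, zpow_zero] at h
    exact absurd h.symm ha1
  · rw [h2, zpow_one] at h
    exact h.symm

/-- A finite group is balanced (with respect to involutions) if and only if it is 1-balanced for the prime 2. -/
theorem result {G : Type*} [Group G] [Finite G] : Cfsg.IsBalanced G ↔ Cfsg.IsKBalanced 2 1 G := by
  constructor
  · intro hB A hA hcard b hb hcomm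
    have hAne : A ≠ ⊥ := by
      intro h
      rw [h] at hcard
      simp at hcard
    obtain ⟨⟨x, hxA⟩, hx1⟩ := (Subgroup.ne_bot_iff_exists_ne_one).mp hAne
    have hx1' : x ≠ 1 := fun h => hx1 (Subtype.ext h)
    have : Fact (Nat.Prime 2) := ⟨Nat.prime_two⟩
    have hxo : orderOf x = 2 := orderOf_eq_prime (hA.2 x hxA) hx1'
    have hle : Cfsg.signalizerDelta 2 A ≤ Cfsg.centralizerPPrimeCore 2 x := by
      unfold Cfsg.signalizerDelta
      exact iInf_le (fun a : {a : G // a ∈ A ∧ a ≠ 1} => Cfsg.centralizerPPrimeCore 2 (a : G))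
        ⟨x, hxA, hx1'⟩
    have hBx := hB x b hxo hb (hcomm x hxA)
    calc Cfsg.signalizerDelta 2 A ⊓ Subgroup.centralizer {b}
        ≤ Cfsg.centralizerPPrimeCore 2 x ⊓ Subgroup.centralizer {b} := inf_le_inf_right _ hle
      _ = Cfsg.centralizerPPrimeCore 2 b ⊓ Subgroup.centralizer {x} := hBx
      _ ≤ Cfsg.centralizerPPrimeCore 2 b := inf_le_left
  · intro hK x y hx hy hxy
    have key : ∀ x y : G, orderOf x = 2 → orderOf y = 2 → x * y = y * x →
        Cfsg.centralizerPPrimeCore 2 x ⊓ Subgroup.centralizer {y} ≤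
          Cfsg.centralizerPPrimeCore 2 y ⊓ Subgroup.centralizer {x} := by
      intro x y hx hy hxy
      have hEA : Cfsg.IsElementaryAbelian 2 (Subgroup.zpowers x) := by
        refine ⟨inferInstance, ?_⟩
        intro a ha
        obtain ⟨i, rfl⟩ := Subgroup.mem_zpowers_iff.mp ha
        rw [← zpow_natCast, ← zpow_mul, mul_comm, zpow_mul, zpow_natCast, ← hx, pow_orderOf_eq_one,
          one_zpow]
      have hcard : Nat.card (Subgroup.zpowers x) = 2 ^ 1 := by
        rw [Nat.card_zpowers, hx, pow_one]
      have hcomm : ∀ a ∈ Subgroup.zpowers x, a * y = y * a := by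
        intro a ha
        obtain ⟨i, rfl⟩ := Subgroup.mem_zpowers_iff.mp ha
        have : Commute x y := hxy
        exact (this.zpow_left i).eq
      have h1 := hK (Subgroup.zpowers x) hEA hcard y hy hcomm
      have hle : Cfsg.centralizerPPrimeCore 2 x ≤ Cfsg.signalizerDelta 2 (Subgroup.zpowers x) := by
        unfold Cfsg.signalizerDelta
        refine le_iInf ?_
        rintro ⟨a, ha, ha1⟩
        have : a = x := mem_zpowers_invol x a hx ha ha1
        subst this
        exact le_rfl
      refine le_inf ?_ ?_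
      · exact le_trans (inf_le_inf_right _ hle) h1
      · exact le_trans inf_le_left (core_le_centralizer x)
    exact le_antisymm (key x y hx hy hxy) (key y x hy hx hxy.symm)

end Cfsg.Agent.S1300
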