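import Mathlib
import Cfsg.Statements.S1303
import Cfsg.Agent.Lib.Lead.CharBurnside
import Cfsg.Agent.Lib.Helper2.OddTrans

set_option autoImplicit false
open Cfsg

namespace Cfsg.Agent.S1303

/-- The group X = SL(2, 3): it is 2-constrained, O_{2'}(X) = 1, its centre A = Z(X) contains every involution of X = C_X(A), and X has a subgroup of order 3 (normalized by A) not contained in O_{2'}(X). -/
theorem result : Cfsg.IsPConstrained 2 (Matrix.SpecialLinearGroup (Fin 2) (ZMod 3)) ∧ Cfsg.pPrimeCore 2 (Matrix.SpecialLinearGroup (Fin 2) (ZMod 3)) = ⊥ ∧ (∀ t : Matrix.SpecialLinearGroup (Fin 2) (ZMod 3), orderOf t = 2 → t ∈ Subgroup.center (Matrix.SpecialLinearGroup (Fin 2) (ZMod 3))) ∧ ∃ Q : Subgroup (Matrix.SpecialLinearGroup (Fin 2) (ZMod 3)), Nat.card ↥Q = 3 ∧ ¬ (Q ≤ Cfsg.pPrimeCore 2 (Matrix.SpecialLinearGroup (Fin 2) (ZMod 3))) := by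
  have hcard : Nat.card (Matrix.SpecialLinearGroup (Fin 2) (ZMod 3)) = 2 ^ 3 * 3 ^ 1 := by
    rw [Nat.card_eq_fintype_card]
    decide +kernel
  have hsolv : Group.IsSolvable (Matrix.SpecialLinearGroup (Fin 2) (ZMod 3)) :=
    Cfsg.Agent.Lib.Lead.burnside_paqb _ _ 2 3 3 1 Nat.prime_two Nat.prime_three rfl hcard
  haveI : Fact (Nat.Prime 2) := ⟨Nat.prime_two⟩
  haveI : Fact (Nat.Prime 3) := ⟨Nat.prime_three⟩
  have hkey : ∀ x : Matrix.SpecialLinearGroup (Fin 2) (ZMod 3), x ≠ 1 →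
      ∃ g : Matrix.SpecialLinearGroup (Fin 2) (ZMod 3), ∃ i j k : Fin 4,
        (x ^ (i : ℕ) * (g * x * g⁻¹) ^ (j : ℕ)) ^ (k : ℕ) ≠ 1 ∧
        ((x ^ (i : ℕ) * (g * x * g⁻¹) ^ (j : ℕ)) ^ (k : ℕ)) ^ 2 = 1 := by
    decide +kernel
  have hcore : Cfsg.pPrimeCore 2 (Matrix.SpecialLinearGroup (Fin 2) (ZMod 3)) = ⊥ := by
    unfold Cfsg.pPrimeCore
    rw [sSup_eq_bot]
    rintro N ⟨hNn, hNc⟩
    by_contra hne
    obtain ⟨x, hxN, hx1⟩ : ∃ x ∈ N, x ≠ 1 := by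
      by_contra hcon
      push_neg at hcon
      exact hne ((Subgroup.eq_bot_iff_forall N).mpr hcon)
    obtain ⟨g, i, j, k, hk1, hk2⟩ := hkey x hx1
    have hy : (x ^ (i : ℕ) * (g * x * g⁻¹) ^ (j : ℕ)) ^ (k : ℕ) ∈ N :=
      N.pow_mem (N.mul_mem (N.pow_mem hxN _) (N.pow_mem (hNn.conj_mem x hxN g) _)) _
    have ho : orderOf ((x ^ (i : ℕ) * (g * x * g⁻¹) ^ (j : ℕ)) ^ (k : ℕ)) = 2 :=
      orderOf_eq_prime (p := 2) hk2 hk1
    have hdvd := Subgroup.orderOf_dvd_natCard N hy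
    rw [ho] at hdvd
    have h21 : (2 : ℕ) = 1 := Nat.eq_one_of_dvd_coprimes hNc hdvd dvd_rfl
    omega
  refine ⟨Cfsg.Agent.Lib.Helper2.pconstr_of_solvable 2 hsolv, hcore, ?_, ?_⟩
  · intro t ht
    have h2 := pow_orderOf_eq_one t
    rw [ht] at h2
    have h1 : t ≠ 1 := by
      intro h
      rw [h, orderOf_one] at ht
      omega
    rw [Subgroup.mem_center_iff]
    have hdec : ∀ t : Matrix.SpecialLinearGroup (Fin 2) (ZMod 3), t ^ 2 = 1 → t ≠ 1 →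
        ∀ g : Matrix.SpecialLinearGroup (Fin 2) (ZMod 3), g * t = t * g := by
      decide +kernel
    exact hdec t h2 h1
  · have hex : ∃ x : Matrix.SpecialLinearGroup (Fin 2) (ZMod 3), x ^ 3 = 1 ∧ x ≠ 1 := by
      decide +kernel
    obtain ⟨x, hx3, hx1⟩ := hex
    refine ⟨Subgroup.zpowers x, ?_, ?_⟩
    · rw [Nat.card_zpowers]
      exact orderOf_eq_prime (p := 3) hx3 hx1
    · rw [hcore]
      intro hle
      exact hx1 (Subgroup.mem_bot.mp (hle (Subgroup.mem_zpowers x)))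

end Cfsg.Agent.S1303
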