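import Cfsg.Statements.S1304
import Mathlib

set_option autoImplicit false
open Cfsg

namespace Cfsg.Agent.S1304

/-- the map `x ↦ α x * x⁻¹` as a homomorphism into the centre -/
def auxHom {X : Type*} [Group X] (α : X ≃* X) (h : ∀ x : X, α x * x⁻¹ ∈ Subgroup.center X) :
    X →* Subgroup.center X where
  toFun := fun x => ⟨α x * x⁻¹, h x⟩
  map_one' := by
    apply Subtype.ext
    simp
  map_mul' := by
    intro x y
    apply Subtype.ext
    have hy := (Subgroup.mem_center_iff.mp (h y)) x⁻¹
    simp only [map_mul, mul_inv_rev, Subgroup.coe_mul]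
    calc α x * α y * (y⁻¹ * x⁻¹) = α x * (α y * y⁻¹ * x⁻¹) := by simp only [mul_assoc]
      _ = α x * (x⁻¹ * (α y * y⁻¹)) := by rw [hy]
      _ = α x * x⁻¹ * (α y * y⁻¹) := by simp only [mul_assoc]

/-- Let X be a perfect group and α an automorphism of X with α(x) x⁻¹ central for every x. Then α is the identity. -/
theorem result {X : Type*} [Group X] (hperf : commutator X = ⊤) (α : X ≃* X) (h : ∀ x : X, α x * x⁻¹ ∈ Subgroup.center X) : ∀ x : X, α x = x := by
  have hker : commutator X ≤ (auxHom α h).ker := by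
    rw [commutator_eq_closure, Subgroup.closure_le]
    rintro _ ⟨p, q, rfl⟩
    rw [SetLike.mem_coe, MonoidHom.mem_ker, map_commutatorElement,
      commutatorElement_eq_one_iff_commute]
    exact Subtype.ext (Subgroup.mem_center_iff.mp (auxHom α h q).2 ((auxHom α h p : X)))
  intro x
  have hx : x ∈ (auxHom α h).ker := hker (by rw [hperf]; exact Subgroup.mem_top x)
  have h1 : ((auxHom α h) x : X) = 1 := by
    rw [MonoidHom.mem_ker] at hx
    rw [hx]; rfl
  have h2 : α x * x⁻¹ = 1 := h1
  exact mul_inv_eq_one.mp h2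

end Cfsg.Agent.S1304
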