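import Mathlib
import Cfsg.Statements.S1314
import Cfsg.Agent.Lib.Helper2.Layer2

set_option autoImplicit false
open Cfsg

namespace Cfsg.Agent.S1314

/-- Let x be an involution of a group G and L a perfect subgroup with ⁅L, x L x⁻¹⁆ = 1. Then l ↦ l (x l x⁻¹) is a group homomorphism π from L to G whose kernel is central in L and whose image lies in C_G(x); and the commutator subgroup of C_{L ⊔ xLx⁻¹}(x) equals the image of π. -/
theorem result {G : Type*} [Group G] [Finite G] (x : G) (hx : orderOf x = 2) (L : Subgroup G) (hperf : ⁅L, L⁆ = L) (hcomm : ⁅L, L.map (MulAut.conj x).toMonoidHom⁆ = ⊥) : ∃ π : ↥L →* G, (∀ l : ↥L, π l = (l : G) * (x * (l : G) * x⁻¹)) ∧ π.ker ≤ Subgroup.center ↥L ∧ π.range ≤ Subgroup.centralizer ({x} : Set G) ∧ ⁅(L ⊔ L.map (MulAut.conj x).toMonoidHom) ⊓ Subgroup.centralizer ({x} : Set G), (L ⊔ L.map (MulAut.conj x).toMonoidHom) ⊓ Subgroup.centralizer ({x} : Set G)⁆ = π.range := by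
  classical
  have hxx : x * x = 1 := by
    have h0 := pow_orderOf_eq_one x
    rw [hx, pow_two] at h0
    exact h0
  have hxinv : x⁻¹ = x := inv_eq_of_mul_eq_one_left hxx
  have hc' : ∀ a ∈ L, ∀ b' ∈ L.map (MulAut.conj x).toMonoidHom, a * b' = b' * a := by
    intro a ha b' hb'
    have h1 := Subgroup.commutator_mem_commutator ha hb'
    rw [hcomm, Subgroup.mem_bot] at h1
    exact commutatorElement_eq_one_iff_mul_comm.mp h1
  have hmemx : ∀ b ∈ L, x * b * x⁻¹ ∈ L.map (MulAut.conj x).toMonoidHom :=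
    fun b hb => ⟨b, hb, by simp [MulAut.conj_apply]⟩
  have hc : ∀ a ∈ L, ∀ b ∈ L, a * (x * b * x⁻¹) = (x * b * x⁻¹) * a :=
    fun a ha b hb => hc' a ha _ (hmemx b hb)
  let π : ↥L →* G :=
    { toFun := fun l => (l : G) * (x * (l : G) * x⁻¹)
      map_one' := by simp
      map_mul' := fun a b => by
        show ((a * b : ↥L) : G) * (x * ((a * b : ↥L) : G) * x⁻¹)
          = (a : G) * (x * (a : G) * x⁻¹) * ((b : G) * (x * (b : G) * x⁻¹))
        rw [Subgroup.coe_mul]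
        have h1 := hc (b : G) b.2 (a : G) a.2
        calc (a : G) * (b : G) * (x * ((a : G) * (b : G)) * x⁻¹)
            = (a : G) * ((b : G) * (x * (a : G) * x⁻¹)) * (x * (b : G) * x⁻¹) := by group
          _ = (a : G) * ((x * (a : G) * x⁻¹) * (b : G)) * (x * (b : G) * x⁻¹) := by rw [h1]
          _ = (a : G) * (x * (a : G) * x⁻¹) * ((b : G) * (x * (b : G) * x⁻¹)) := by group }
  have hπ : ∀ l : ↥L, π l = (l : G) * (x * (l : G) * x⁻¹) := fun l => rfl
  have hker : π.ker ≤ Subgroup.center ↥L := by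
    intro l hl
    rw [MonoidHom.mem_ker, hπ] at hl
    rw [Subgroup.mem_center_iff]
    intro g
    apply Subtype.ext
    rw [Subgroup.coe_mul, Subgroup.coe_mul]
    have h1 : (l : G) = x * (l : G)⁻¹ * x⁻¹ := by
      calc (l : G) = (x * (l : G) * x⁻¹)⁻¹ := eq_inv_of_mul_eq_one_left hl
        _ = x * (l : G)⁻¹ * x⁻¹ := by group
    have h2 := hc (g : G) g.2 ((l : G)⁻¹) (L.inv_mem l.2)
    rw [← h1] at h2
    exact h2
  have hrange : π.range ≤ Subgroup.centralizer ({x} : Set G) := by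
    rintro _ ⟨l, rfl⟩
    rw [Subgroup.mem_centralizer_iff]
    intro y hy
    rw [Set.mem_singleton_iff] at hy
    rw [hy, hπ]
    have h1 := hc (l : G) l.2 (l : G) l.2
    calc x * ((l : G) * (x * (l : G) * x⁻¹))
        = x * ((x * (l : G) * x⁻¹) * (l : G)) := by rw [h1]
      _ = (x * x) * (l : G) * x⁻¹ * (l : G) := by group
      _ = (l : G) * x * (l : G) := by rw [hxx, one_mul, hxinv]
      _ = (l : G) * (x * (l : G) * x⁻¹) * x := by group
  have hDM : π.range ≤ L ⊔ L.map (MulAut.conj x).toMonoidHom := by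
    rintro _ ⟨l, rfl⟩
    rw [hπ]
    exact Subgroup.mul_mem _ (Subgroup.mem_sup_left l.2)
      (Subgroup.mem_sup_right (hmemx _ l.2))
  have hDC : π.range ≤ (L ⊔ L.map (MulAut.conj x).toMonoidHom)
      ⊓ Subgroup.centralizer ({x} : Set G) := le_inf hDM hrange
  have hperf' : ⁅(⊤ : Subgroup ↥L), (⊤ : Subgroup ↥L)⁆ = ⊤ := by
    apply Subgroup.map_injective L.subtype_injective
    rw [Subgroup.map_commutator, ← MonoidHom.range_eq_map, Subgroup.range_subtype, hperf]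
  have key : ∀ c ∈ (L ⊔ L.map (MulAut.conj x).toMonoidHom)
      ⊓ Subgroup.centralizer ({x} : Set G),
      ∃ a : ↥L, ∃ ζ : G, (∀ m ∈ L ⊔ L.map (MulAut.conj x).toMonoidHom, ζ * m = m * ζ) ∧
        ζ ∈ L ⊔ L.map (MulAut.conj x).toMonoidHom ∧ c = π a * ζ := by
    intro c hcm
    obtain ⟨hcM, hcC⟩ := Subgroup.mem_inf.mp hcm
    obtain ⟨a, ha, b', hb', rfl⟩ := Cfsg.Agent.Lib.Helper2.mem_sup_of_commute L _ hc' c hcM
    obtain ⟨b, hb, rfl⟩ := hb'
    have hb'' : (MulAut.conj x).toMonoidHom b = x * b * x⁻¹ := by simp [MulAut.conj_apply]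
    rw [hb''] at hcC ⊢
    have hxc : x * (a * (x * b * x⁻¹)) = a * (x * b * x⁻¹) * x := by
      rw [Subgroup.mem_centralizer_iff] at hcC
      exact hcC x (Set.mem_singleton x)
    have e0 : x * (x * b * x⁻¹) * x⁻¹ = b := by
      have e00 : x * (x * b * x⁻¹) * x⁻¹ = (x * x) * b * (x * x)⁻¹ := by group
      rw [e00, hxx, one_mul, inv_one, mul_one]
    have h1 : (x * a * x⁻¹) * b = a * (x * b * x⁻¹) := by
      calc (x * a * x⁻¹) * b = (x * a * x⁻¹) * (x * (x * b * x⁻¹) * x⁻¹) := by rw [e0]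
        _ = (x * (a * (x * b * x⁻¹))) * x⁻¹ := by group
        _ = (a * (x * b * x⁻¹) * x) * x⁻¹ := by rw [hxc]
        _ = a * (x * b * x⁻¹) := by group
    have h2 : a⁻¹ * (x * a * x⁻¹) = (x * a * x⁻¹) * a⁻¹ := hc a⁻¹ (L.inv_mem ha) a ha
    have hζ : a⁻¹ * b = x * (a⁻¹ * b) * x⁻¹ := by
      have e2 : x * b * x⁻¹ = a⁻¹ * ((x * a * x⁻¹) * b) := by rw [h1]; group
      calc a⁻¹ * b = (x * a * x⁻¹)⁻¹ * ((x * a * x⁻¹) * a⁻¹) * b := by group
        _ = (x * a * x⁻¹)⁻¹ * (a⁻¹ * (x * a * x⁻¹)) * b := by rw [h2]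
        _ = (x * a * x⁻¹)⁻¹ * (a⁻¹ * ((x * a * x⁻¹) * b)) := by group
        _ = (x * a * x⁻¹)⁻¹ * (x * b * x⁻¹) := by rw [← e2]
        _ = x * (a⁻¹ * b) * x⁻¹ := by group
    have hζL : a⁻¹ * b ∈ L := L.mul_mem (L.inv_mem ha) hb
    have hζLx : a⁻¹ * b ∈ L.map (MulAut.conj x).toMonoidHom := by
      have h3 := hmemx _ hζL
      rw [← hζ] at h3
      exact h3
    have hcent : L ⊔ L.map (MulAut.conj x).toMonoidHom
        ≤ Subgroup.centralizer ({a⁻¹ * b} : Set G) := by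
      refine sup_le ?_ ?_
      · intro u hu
        rw [Subgroup.mem_centralizer_iff]
        intro y hy
        rw [Set.mem_singleton_iff] at hy
        rw [hy]
        exact (hc' u hu _ hζLx).symm
      · intro v hv
        rw [Subgroup.mem_centralizer_iff]
        intro y hy
        rw [Set.mem_singleton_iff] at hy
        rw [hy]
        exact hc' _ hζL v hv
    refine ⟨⟨a, ha⟩, a⁻¹ * b, ?_, Subgroup.mem_sup_left hζL, ?_⟩
    · intro m hm
      have h4 := hcent hm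
      rw [Subgroup.mem_centralizer_iff] at h4
      exact h4 _ (Set.mem_singleton _)
    · rw [hπ]
      show a * (x * b * x⁻¹) = a * (x * a * x⁻¹) * (a⁻¹ * b)
      calc a * (x * b * x⁻¹) = (x * a * x⁻¹) * b := h1.symm
        _ = a * (a⁻¹ * (x * a * x⁻¹)) * b := by group
        _ = a * ((x * a * x⁻¹) * a⁻¹) * b := by rw [h2]
        _ = a * (x * a * x⁻¹) * (a⁻¹ * b) := by group
  refine ⟨π, hπ, hker, hrange, ?_⟩
  apply le_antisymm
  · rw [Subgroup.commutator_le]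
    intro c1 hc1 c2 hc2
    obtain ⟨a1, ζ1, hζ1, hζ1M, e1⟩ := key c1 hc1
    obtain ⟨a2, ζ2, hζ2, hζ2M, e2⟩ := key c2 hc2
    have hd1 : π a1 ∈ L ⊔ L.map (MulAut.conj x).toMonoidHom := hDM ⟨a1, rfl⟩
    have hd2 : π a2 ∈ L ⊔ L.map (MulAut.conj x).toMonoidHom := hDM ⟨a2, rfl⟩
    have f1 : c1 * c2 = π a1 * π a2 * (ζ1 * ζ2) := by
      rw [e1, e2]
      calc π a1 * ζ1 * (π a2 * ζ2) = π a1 * (ζ1 * π a2) * ζ2 := by group
        _ = π a1 * (π a2 * ζ1) * ζ2 := by rw [hζ1 _ hd2]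
        _ = π a1 * π a2 * (ζ1 * ζ2) := by group
    have f2 : c2 * c1 = π a2 * π a1 * (ζ1 * ζ2) := by
      rw [e1, e2]
      calc π a2 * ζ2 * (π a1 * ζ1) = π a2 * (ζ2 * π a1) * ζ1 := by group
        _ = π a2 * (π a1 * ζ2) * ζ1 := by rw [hζ2 _ hd1]
        _ = π a2 * π a1 * (ζ2 * ζ1) := by group
        _ = π a2 * π a1 * (ζ1 * ζ2) := by rw [hζ2 _ hζ1M]
    rw [MonoidHom.mem_range]
    refine ⟨a1 * a2 * a1⁻¹ * a2⁻¹, ?_⟩
    have f3 : c1 * c2 * c1⁻¹ * c2⁻¹ = (c1 * c2) * (c2 * c1)⁻¹ := by group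
    rw [commutatorElement_def, f3, f1, f2, map_mul, map_mul, map_mul, map_inv, map_inv]
    group
  · have h1 : π.range ≤ ⁅π.range, π.range⁆ := by
      have e : Subgroup.map π ⁅(⊤ : Subgroup ↥L), (⊤ : Subgroup ↥L)⁆
          = ⁅Subgroup.map π ⊤, Subgroup.map π ⊤⁆ := Subgroup.map_commutator _ _ π
      rw [hperf', ← MonoidHom.range_eq_map] at e
      exact le_of_eq e
    exact h1.trans (Subgroup.commutator_mono hDC hDC)

end Cfsg.Agent.S1314
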