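import Mathlib
import Cfsg.Statements.S1316
import Cfsg.Agent.Lib.Helper2.Nilp
import Cfsg.Agent.Lib.Helper2.Layer2

set_option autoImplicit false
open Cfsg

namespace Cfsg.Agent.S1316

/-- For a finite group X, E(X) equals the intersection of the derived series of F*(X) (its last term). -/
theorem result {X : Type*} [Group X] [Finite X] : (⨅ n : ℕ, (derivedSeries ↥(Cfsg.generalizedFittingSubgroup X) n).map (Cfsg.generalizedFittingSubgroup X).subtype) = Cfsg.layer X := by
  have hEn : (Cfsg.layer X).Normal := Cfsg.Agent.Lib.Helper2.layer_normal X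
  have hEle : Cfsg.layer X ≤ Cfsg.generalizedFittingSubgroup X := le_sup_left
  have hFle : Cfsg.fittingSubgroup X ≤ Cfsg.generalizedFittingSubgroup X := le_sup_right
  apply le_antisymm
  · -- some derived term lies in E
    have hE'n : ((Cfsg.layer X).subgroupOf (Cfsg.generalizedFittingSubgroup X)).Normal :=
      Subgroup.normal_subgroupOf
    let π : ↥(Cfsg.generalizedFittingSubgroup X) →*
        ↥(Cfsg.generalizedFittingSubgroup X) ⧸
          ((Cfsg.layer X).subgroupOf (Cfsg.generalizedFittingSubgroup X)) :=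
      QuotientGroup.mk' _
    let φ : ↥(Cfsg.fittingSubgroup X) →*
        ↥(Cfsg.generalizedFittingSubgroup X) ⧸
          ((Cfsg.layer X).subgroupOf (Cfsg.generalizedFittingSubgroup X)) :=
      π.comp (Subgroup.inclusion hFle)
    have hφ : Function.Surjective φ := by
      intro q
      obtain ⟨⟨x, hx⟩, rfl⟩ := QuotientGroup.mk'_surjective _ q
      have hcomm : ∀ a ∈ Cfsg.layer X, ∀ b ∈ Cfsg.fittingSubgroup X, a * b = b * a := by
        intro a ha b hb
        have := Cfsg.Agent.Lib.Helper2.layer_le_centralizer_fitting X ha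
        exact ((Subgroup.mem_centralizer_iff.mp this) b hb).symm
      obtain ⟨a, ha, b, hb, rfl⟩ :=
        Cfsg.Agent.Lib.Helper2.mem_sup_of_commute _ _ hcomm x hx
      refine ⟨⟨b, hb⟩, ?_⟩
      show π (Subgroup.inclusion hFle ⟨b, hb⟩) = π ⟨a * b, hx⟩
      symm
      rw [QuotientGroup.mk'_eq_mk']
      refine ⟨⟨a, hEle ha⟩⁻¹, ?_, ?_⟩
      · rw [Subgroup.mem_subgroupOf]
        simpa using ha
      · apply Subtype.ext
        simp only [Subgroup.coe_mul, Subgroup.coe_inv, Subgroup.coe_inclusion]
        rw [hcomm a ha b hb]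
        simp
    have hFnil : Group.IsNilpotent ↥(Cfsg.fittingSubgroup X) :=
      Cfsg.Agent.Lib.Helper2.fitting_isNilpotent X
    have hFsolv : Group.IsSolvable ↥(Cfsg.fittingSubgroup X) := inferInstance
    have hQsolv : Group.IsSolvable (↥(Cfsg.generalizedFittingSubgroup X) ⧸
          ((Cfsg.layer X).subgroupOf (Cfsg.generalizedFittingSubgroup X))) :=
      Group.isSolvable_of_surjective hφ
    obtain ⟨n, hn⟩ := hQsolv.solvable
    refine (iInf_le _ n).trans ?_
    have h1 := map_derivedSeries_le_derivedSeries π n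
    rw [hn] at h1
    rintro x ⟨y, hy, rfl⟩
    have h2 : π y ∈ (⊥ : Subgroup _) := h1 ⟨y, hy, rfl⟩
    rw [Subgroup.mem_bot] at h2
    have h3 : y ∈ (Cfsg.layer X).subgroupOf (Cfsg.generalizedFittingSubgroup X) :=
      (QuotientGroup.eq_one_iff y).mp h2
    exact Subgroup.mem_subgroupOf.mp h3
  · refine le_iInf ?_
    intro n
    refine sSup_le ?_
    intro L hL
    have hLle : L ≤ Cfsg.generalizedFittingSubgroup X :=
      (Cfsg.Agent.Lib.Helper2.component_le_layer L hL).trans hEle
    have hperf : Group.IsPerfect ↥(L.subgroupOf (Cfsg.generalizedFittingSubgroup X)) := by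
      have := hL.2.1
      exact Group.IsPerfect.ofSurjective (f := (Subgroup.subgroupOfEquivOfLe hLle).symm.toMonoidHom)
        (Subgroup.subgroupOfEquivOfLe hLle).symm.surjective
    have hperf' := Subgroup.isPerfect_iff.mp hperf
    have hind : ∀ k : ℕ, L.subgroupOf (Cfsg.generalizedFittingSubgroup X) ≤
        derivedSeries ↥(Cfsg.generalizedFittingSubgroup X) k := by
      intro k
      induction k with
      | zero => rw [derivedSeries_zero]; exact le_top
      | succ k ih =>
        rw [derivedSeries_succ, ← hperf']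
        exact Subgroup.commutator_mono ih ih
    intro x hx
    exact ⟨⟨x, hLle hx⟩, hind n (Subgroup.mem_subgroupOf.mpr hx), rfl⟩

end Cfsg.Agent.S1316
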