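import Mathlib
import Cfsg.Statements.S1317
import Cfsg.Agent.Lib.Helper2.FStar

set_option autoImplicit false
open Cfsg

namespace Cfsg.Agent.S1317

/-- For a finite group X, the centre of the layer E(X) is F(X) ∩ E(X). -/
theorem result {X : Type*} [Group X] [Finite X] : (Subgroup.center ↥(Cfsg.layer X)).map (Cfsg.layer X).subtype = Cfsg.fittingSubgroup X ⊓ Cfsg.layer X := by
  have hEn : (Cfsg.layer X).Normal := Cfsg.Agent.Lib.Helper2.layer_normal X
  apply le_antisymm
  · refine le_inf ?_ (Subgroup.map_subtype_le _)
    have hnorm : ((Subgroup.center ↥(Cfsg.layer X)).map (Cfsg.layer X).subtype).Normal :=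
      ConjAct.normal_of_characteristic_of_normal
    have hnil : Group.IsNilpotent ↥((Subgroup.center ↥(Cfsg.layer X)).map (Cfsg.layer X).subtype) := by
      have e := (Subgroup.center ↥(Cfsg.layer X)).equivMapOfInjective (Cfsg.layer X).subtype
        (Subgroup.subtype_injective _)
      have hc : Group.IsNilpotent ↥(Subgroup.center ↥(Cfsg.layer X)) := by
        rw [Group.isNilpotent_iff]
        refine ⟨1, ?_⟩
        rw [Subgroup.eq_top_iff']
        intro z
        rw [Subgroup.upperCentralSeries_one]
        rw [Subgroup.mem_center_iff]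
        intro g
        apply Subtype.ext
        exact (Subgroup.mem_center_iff.mp z.2 g.1)
      exact Group.nilpotent_of_mulEquiv e
    exact le_sSup ⟨hnorm, hnil⟩
  · rintro x ⟨hxF, hxE⟩
    refine ⟨⟨x, hxE⟩, ?_, rfl⟩
    rw [SetLike.mem_coe, Subgroup.mem_center_iff]
    intro e
    have h := Cfsg.Agent.Lib.Helper2.layer_le_centralizer_fitting X e.2
    apply Subtype.ext
    exact ((Subgroup.mem_centralizer_iff.mp h) x hxF).symm

end Cfsg.Agent.S1317
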