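import Mathlib
import Cfsg.Statements.S1318
import Cfsg.Agent.Lib.Helper2.Layer3

set_option autoImplicit false
open Cfsg

namespace Cfsg.Agent.S1318

/-- Let X be finite and S ≤ F*(X) a subgroup subnormal in F*(X). Then F(S) = F(X) ∩ S (inside X) and S = F(S)E(S). -/
theorem result {X : Type*} [Group X] [Finite X] (S : Subgroup X) (hS : S ≤ Cfsg.generalizedFittingSubgroup X) (hsn : (S.subgroupOf (Cfsg.generalizedFittingSubgroup X)).IsSubnormal) : (Cfsg.fittingSubgroup ↥S).map S.subtype = Cfsg.fittingSubgroup X ⊓ S ∧ Cfsg.fittingSubgroup ↥S ⊔ Cfsg.layer ↥S = ⊤ := by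
  have hFsn : (Cfsg.generalizedFittingSubgroup X).Normal :=
    Cfsg.Agent.Lib.Helper2.genFitting_normal X
  have hsn' : S.IsSubnormal := Subgroup.IsSubnormal.trans hS hsn (Subgroup.Normal.isSubnormal hFsn)
  constructor
  · apply le_antisymm
    · exact le_inf (Cfsg.Agent.Lib.Helper2.fitting_map_subtype_le S hsn') (Subgroup.map_subtype_le _)
    · rw [← Subgroup.subgroupOf_map_subtype]
      exact Subgroup.map_mono (Cfsg.Agent.Lib.Helper2.fitting_subgroupOf_le S)
  · rw [Subgroup.eq_top_iff']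
    rintro ⟨s, hs⟩
    obtain ⟨e, he, g, hg, hseq⟩ :=
      Cfsg.Agent.Lib.Helper2.subnormal_genFitting_decomp S hS hsn' s hs
    have hE1 : sSup {L : Subgroup X | Cfsg.IsComponent L ∧ L ≤ S} ≤
        (Cfsg.layer ↥S).map S.subtype := by
      refine sSup_le ?_
      rintro L ⟨hL, hLS⟩
      rw [← Subgroup.map_subgroupOf_eq_of_le hLS]
      exact Subgroup.map_mono (Cfsg.Agent.Lib.Helper2.component_le_layer _
        (Cfsg.Agent.Lib.Helper2.isComponent_subgroupOf L S hLS hL))
    obtain ⟨e', he', he'eq⟩ := hE1 he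
    have hgS : g ∈ S := hg.2
    have hgF : g ∈ Cfsg.fittingSubgroup X := hg.1
    have hg' : (⟨g, hgS⟩ : ↥S) ∈ Cfsg.fittingSubgroup ↥S :=
      Cfsg.Agent.Lib.Helper2.fitting_subgroupOf_le S (Subgroup.mem_subgroupOf.mpr hgF)
    have hprod : (⟨s, hs⟩ : ↥S) = e' * ⟨g, hgS⟩ := by
      apply Subtype.ext
      show s = (e' : X) * g
      rw [hseq]
      congr 1
      exact he'eq.symm
    rw [hprod]
    exact Subgroup.mul_mem _ (Subgroup.mem_sup_right he') (Subgroup.mem_sup_left hg')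

end Cfsg.Agent.S1318
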