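import Mathlib
import Cfsg.Statements.S1319
import Cfsg.Agent.Lib.Helper2.Layer3

set_option autoImplicit false
open Cfsg

namespace Cfsg.Agent.S1319

/-- Let A be a subnormal subgroup of the finite group X with E(A) = A. Then A ≤ E(X) and A is normal in E(X). -/
theorem result {X : Type*} [Group X] [Finite X] (A : Subgroup X) (hsn : A.IsSubnormal) (hA : Cfsg.layer ↥A = ⊤) : A ≤ Cfsg.layer X ∧ (A.subgroupOf (Cfsg.layer X)).Normal := by
  have hle : A ≤ Cfsg.layer X := by
    intro x hx
    apply Cfsg.Agent.Lib.Helper2.layer_map_subtype_le A hsn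
    refine ⟨⟨x, hx⟩, ?_, rfl⟩
    rw [hA]
    exact Subgroup.mem_top _
  refine ⟨hle, ?_⟩
  rw [Subgroup.normal_subgroupOf_iff_le_normalizer hle]
  refine sSup_le ?_
  intro L hL
  rcases Cfsg.Agent.Lib.Helper2.component_le_or_centralizes L A hL hsn with h | h
  · exact h.trans Subgroup.le_normalizer
  · exact h.trans (Subgroup.centralizer_le_normalizer _)

end Cfsg.Agent.S1319
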