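import Mathlib
import Cfsg.Statements.S1320
import Cfsg.Agent.Lib.Helper2.Layer3

set_option autoImplicit false
open Cfsg

namespace Cfsg.Agent.S1320

/-- Let B be a normal subgroup of the finite group A. Then F*(A) ∩ B = F*(B). -/
theorem result {A : Type*} [Group A] [Finite A] (B : Subgroup A) [B.Normal] : Cfsg.generalizedFittingSubgroup A ⊓ B = (Cfsg.generalizedFittingSubgroup ↥B).map B.subtype := by
  have hBn : B.Normal := inferInstance
  have hBsn : B.IsSubnormal := Subgroup.Normal.isSubnormal hBn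
  have hFsn : (Cfsg.generalizedFittingSubgroup A).Normal :=
    Cfsg.Agent.Lib.Helper2.genFitting_normal A
  apply le_antisymm
  · intro s hs
    have hDn : (Cfsg.generalizedFittingSubgroup A ⊓ B).Normal := inferInstance
    obtain ⟨e, he, g, hg, hseq⟩ :=
      Cfsg.Agent.Lib.Helper2.subnormal_genFitting_decomp (Cfsg.generalizedFittingSubgroup A ⊓ B)
        inf_le_left (Subgroup.Normal.isSubnormal hDn) s hs
    have hE1 : sSup {L : Subgroup A | Cfsg.IsComponent L ∧ L ≤ Cfsg.generalizedFittingSubgroup A ⊓ B} ≤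
        (Cfsg.layer ↥B).map B.subtype := by
      refine sSup_le ?_
      rintro L ⟨hL, hLS⟩
      have hLB : L ≤ B := hLS.trans inf_le_right
      rw [← Subgroup.map_subgroupOf_eq_of_le hLB]
      exact Subgroup.map_mono (Cfsg.Agent.Lib.Helper2.component_le_layer _
        (Cfsg.Agent.Lib.Helper2.isComponent_subgroupOf L B hLB hL))
    obtain ⟨e', he', he'eq⟩ := hE1 he
    have hgB : g ∈ B := hg.2.2
    have hg' : (⟨g, hgB⟩ : ↥B) ∈ Cfsg.fittingSubgroup ↥B :=
      Cfsg.Agent.Lib.Helper2.fitting_subgroupOf_le B (Subgroup.mem_subgroupOf.mpr hg.1)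
    refine ⟨e' * ⟨g, hgB⟩, ?_, ?_⟩
    · exact Subgroup.mul_mem _ (Subgroup.mem_sup_left he') (Subgroup.mem_sup_right hg')
    · rw [hseq, map_mul, he'eq]
      rfl
  · refine le_inf ?_ (Subgroup.map_subtype_le _)
    unfold Cfsg.generalizedFittingSubgroup
    rw [Subgroup.map_sup]
    exact sup_le_sup (Cfsg.Agent.Lib.Helper2.layer_map_subtype_le B hBsn)
      (Cfsg.Agent.Lib.Helper2.fitting_map_subtype_le B hBsn)

end Cfsg.Agent.S1320
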