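import Mathlib
import Cfsg.Statements.S1321
import Cfsg.Agent.Lib.Helper2.Layer

set_option autoImplicit false
open Cfsg

namespace Cfsg.Agent.S1321

/-- Let X be finite and U ≤ X. Then E(X) is generated by C_{E(X)}(U) together with ⁅E(X), U⁆ (indeed it is their product, ⁅E(X), U⁆ being normal in E(X)). -/
theorem result {X : Type*} [Group X] [Finite X] (U : Subgroup X) : Cfsg.layer X = (Cfsg.layer X ⊓ Subgroup.centralizer (U : Set X)) ⊔ ⁅Cfsg.layer X, U⁆ ∧ ⁅Cfsg.layer X, U⁆ ≤ Cfsg.layer X := by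
  have hEn : (Cfsg.layer X).Normal := Cfsg.Agent.Lib.Helper2.layer_normal X
  have hM : ⁅Cfsg.layer X, U⁆ ≤ Cfsg.layer X := Subgroup.commutator_le_left _ _
  refine ⟨le_antisymm ?_ (sup_le inf_le_left hM), hM⟩
  have hMsn : (⁅Cfsg.layer X, U⁆ : Subgroup X).IsSubnormal := by
    refine Subgroup.IsSubnormal.step _ (Cfsg.layer X) hM hEn.isSubnormal ?_
    rw [Subgroup.normal_subgroupOf_iff_le_normalizer hM]
    exact Cfsg.Agent.Lib.Helper2.le_normalizer_commutator _ _
  have key : ∀ L : Subgroup X, Cfsg.IsComponent L →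
      L ≤ (Cfsg.layer X ⊓ Subgroup.centralizer (U : Set X)) ⊔ ⁅Cfsg.layer X, U⁆ := by
    intro L hL
    have hLE : L ≤ Cfsg.layer X := Cfsg.Agent.Lib.Helper2.component_le_layer L hL
    rcases Cfsg.Agent.Lib.Helper2.component_le_or_centralizes L _ hL hMsn with h | h
    · exact h.trans le_sup_right
    · refine le_trans ?_ le_sup_left
      refine le_inf hLE ?_
      have h3 : ⁅L, U⁆ ≤ ⁅Cfsg.layer X, U⁆ := Subgroup.commutator_mono hLE le_rfl
      have h4 : ⁅⁅L, U⁆, L⁆ = ⊥ := by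
        rw [Subgroup.commutator_eq_bot_iff_le_centralizer]
        exact h3.trans (Subgroup.le_centralizer_iff.mp h)
      have h5 : ⁅⁅U, L⁆, L⁆ = ⊥ := by rw [Subgroup.commutator_comm U L]; exact h4
      have h6 : ⁅⁅L, L⁆, U⁆ = ⊥ := Subgroup.commutator_commutator_eq_bot_of_rotate h4 h5
      rw [Subgroup.isPerfect_iff.mp hL.2.1] at h6
      exact Subgroup.commutator_eq_bot_iff_le_centralizer.mp h6
  exact sSup_le key

end Cfsg.Agent.S1321
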