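import Mathlib
import Cfsg.Statements.S1326
import Cfsg.Agent.Lib.Helper2.FStar

set_option autoImplicit false
open Cfsg

namespace Cfsg.Agent.S1326

/-- For a finite group X: the Fitting subgroup contains its centralizer if and only if the layer of X is trivial. -/
theorem result {X : Type*} [Group X] [Finite X] : Subgroup.centralizer (Cfsg.fittingSubgroup X : Set X) ≤ Cfsg.fittingSubgroup X ↔ Cfsg.layer X = ⊥ := by
  constructor
  · intro h
    rw [← le_bot_iff]
    refine sSup_le ?_
    intro L hL
    exfalso
    have h1 : L ≤ Subgroup.centralizer (Cfsg.fittingSubgroup X : Set X) :=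
      (Cfsg.Agent.Lib.Helper2.component_le_layer L hL).trans
        (Cfsg.Agent.Lib.Helper2.layer_le_centralizer_fitting X)
    have h2 : L ≤ Cfsg.fittingSubgroup X := h1.trans h
    exact Cfsg.Agent.Lib.Helper2.component_not_le_centralizer_self L hL
      (h1.trans (Subgroup.centralizer_le h2))
  · intro h
    have h1 := Cfsg.Agent.Lib.Helper2.centralizer_genFitting_le X
    unfold Cfsg.generalizedFittingSubgroup at h1
    rw [h, bot_sup_eq] at h1
    exact h1

end Cfsg.Agent.S1326
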