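import Mathlib
import Cfsg.Statements.S1331
import Cfsg.Agent.Lib.Helper2.GenCoprime3

set_option autoImplicit false
open Cfsg

namespace Cfsg.Agent.S1331

/-- Let θ be a solvable A-signalizer functor on the finite group G for the prime p, A elementary abelian of rank at least 3, X a member of the family of θ, and B ≤ A with |B| ≥ p². Then X is generated by the subgroups X ∩ ⋂_{d ∈ D, d ≠ 1} θ d, D ranging over the subgroups of index p in B. -/
theorem result {G : Type*} [Group G] [Finite G] (p : ℕ) [Fact p.Prime] (A : Subgroup G) (hA : Cfsg.IsElementaryAbelian p A) (hA3 : p ^ 3 ≤ Nat.card ↥A) (θ : G → Subgroup G) (hθ : Cfsg.IsSolvableSignalizerFunctor p A θ) (X : Subgroup G) (hX : X ∈ Cfsg.signalizerFamily p A θ) (B : Subgroup G) (hB : B ≤ A) (hB2 : p ^ 2 ≤ Nat.card ↥B) : X = ⨆ D : {D : Subgroup G // D ≤ B ∧ D.relIndex B = p}, X ⊓ Cfsg.signalizerInf (D : Subgroup G) θ := by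
  obtain ⟨hXs, hXp, hXinv, hXθ⟩ := hX
  have hp : p.Prime := Fact.out
  have hcommA : ∀ a ∈ A, ∀ b ∈ A, a * b = b * a := by
    intro a ha b hb
    have := hA.1.is_comm.comm ⟨a, ha⟩ ⟨b, hb⟩
    exact congrArg Subtype.val this
  have hAX : A ≤ Subgroup.normalizer (X : Set G) :=
    Cfsg.Agent.Lib.Helper4.le_normalizer_of_conj_mem hXinv
  -- a hyperplane of B
  have hBp : IsPGroup p ↥B := by
    intro b
    refine ⟨1, ?_⟩
    apply Subtype.ext
    show (b : G) ^ p ^ 1 = 1
    rw [pow_one]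
    exact hA.2 b.1 (hB b.2)
  obtain ⟨n, hn⟩ := IsPGroup.iff_card.mp hBp
  have hn2 : 2 ≤ n := by
    by_contra h
    push Not at h
    have h1 : p ^ n < p ^ 2 := Nat.pow_lt_pow_right hp.one_lt h
    omega
  obtain ⟨K, hK⟩ := Sylow.exists_subgroup_card_pow_prime (G := ↥B) p (n := n - 1)
    (by rw [hn]; exact pow_dvd_pow p (Nat.sub_le n 1))
  have hD₀B : K.map B.subtype ≤ B := Subgroup.map_subtype_le K
  have hD₀rel : (K.map B.subtype).relIndex B = p := by
    rw [Cfsg.Agent.Lib.Helper2.relIndex_map_subtype']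
    have h1 := Subgroup.card_mul_index K
    rw [hK, hn] at h1
    have h2 : p ^ n = p ^ (n - 1) * p := by
      rw [← pow_succ]
      congr 1
      omega
    rw [h2] at h1
    exact Nat.eq_of_mul_eq_mul_left (pow_pos hp.pos _) h1
  have hXD : ∀ D' : Subgroup G, D' ≤ B →
      X ⊓ Subgroup.centralizer (D' : Set G) ≤ X ⊓ Cfsg.signalizerInf D' θ := by
    intro D' hD'B g hg
    have h2 : g ∈ Cfsg.signalizerInf D' θ := by
      unfold Cfsg.signalizerInf
      rw [Subgroup.mem_iInf]
      rintro ⟨a, haD, ha1⟩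
      have h3 : g ∈ Subgroup.centralizer ({a} : Set G) :=
        Subgroup.centralizer_le (Set.singleton_subset_iff.mpr haD) hg.2
      exact hXθ a (hB (hD'B haD)) ha1 ⟨hg.1, h3⟩
    exact ⟨hg.1, h2⟩
  apply le_antisymm
  · apply Cfsg.Agent.Lib.Helper2.gen_coprime_relIndex p B X _
      (fun a ha b hb => hcommA a (hB ha) b (hB hb)) (fun a ha => hA.2 a (hB ha)) hXp
      (hB.trans hAX)
    intro D hDB hrel
    rcases (Nat.dvd_prime hp).mp hrel with h1 | h1
    · have hBD : B ≤ D := Subgroup.relIndex_eq_one.mp h1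
      refine le_trans (inf_le_inf_left X (Subgroup.centralizer_le ?_)) ((hXD _ hD₀B).trans
        (le_iSup (fun D : {D : Subgroup G // D ≤ B ∧ D.relIndex B = p} =>
          X ⊓ Cfsg.signalizerInf (D : Subgroup G) θ) ⟨_, hD₀B, hD₀rel⟩))
      exact fun z hz => hBD (hD₀B hz)
    · exact (hXD D hDB).trans
        (le_iSup (fun D : {D : Subgroup G // D ≤ B ∧ D.relIndex B = p} =>
          X ⊓ Cfsg.signalizerInf (D : Subgroup G) θ) ⟨D, hDB, h1⟩)
  · exact iSup_le (fun D => inf_le_left)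

end Cfsg.Agent.S1331
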