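import Mathlib
import Cfsg.Statements.S1335
import Cfsg.Agent.Lib.Helper3.PRes

set_option autoImplicit false
open Cfsg

namespace Cfsg.Agent.S1335

/-- Let H be a subgroup of the finite group G, p a prime, k ≥ 1, P a Sylow p-subgroup of H of p-rank at least k, and suppose N_G(X) ≤ H for every subgroup X ≤ P of p-rank at least k. Then P is a Sylow p-subgroup of G. -/
theorem result {G : Type*} [Group G] [Finite G] {p : ℕ} [Fact p.Prime] (k : ℕ) (hk : 1 ≤ k) (H : Subgroup G) (P : Sylow p ↥H) (hP : ¬ Cfsg.PRankLE p (k - 1) ↥(P : Subgroup ↥H)) (hΓ : (∀ X : Subgroup G, X ≤ (P : Subgroup ↥H).map H.subtype → ¬ Cfsg.PRankLE p (k - 1) ↥X → Subgroup.normalizer (X : Set G) ≤ H)) : ∃ Q : Sylow p G, (Q : Subgroup G) = (P : Subgroup ↥H).map H.subtype := by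
  have hPGp : IsPGroup p ↥((P : Subgroup ↥H).map H.subtype) := P.2.map _
  have hPG : ¬ Cfsg.PRankLE p (k - 1) ↥((P : Subgroup ↥H).map H.subtype) := by
    intro hrk
    apply hP
    intro A hAc hAp
    have e := (P : Subgroup ↥H).equivMapOfInjective H.subtype H.subtype_injective
    have hAc' : IsMulCommutative ↥(A.map e.toMonoidHom) := by
      refine ⟨⟨?_⟩⟩
      rintro ⟨a, x, hx, rfl⟩ ⟨b, y, hy, rfl⟩
      apply Subtype.ext
      have h1 : (⟨x, hx⟩ : ↥A) * ⟨y, hy⟩ = ⟨y, hy⟩ * ⟨x, hx⟩ := hAc.is_comm.comm _ _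
      have h2 : x * y = y * x := congrArg Subtype.val h1
      show e.toMonoidHom x * e.toMonoidHom y = e.toMonoidHom y * e.toMonoidHom x
      rw [← map_mul, ← map_mul, h2]
    have hAp' : ∀ a ∈ A.map e.toMonoidHom, a ^ p = 1 := by
      rintro a ⟨x, hx, rfl⟩
      rw [← map_pow, hAp x hx, map_one]
    have h3 := hrk (A.map e.toMonoidHom) hAc' hAp'
    rw [Subgroup.card_map_of_injective e.injective] at h3
    exact h3
  have hN := hΓ _ le_rfl hPG
  obtain ⟨Q, hQ⟩ := hPGp.exists_le_sylow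
  refine ⟨Q, ?_⟩
  by_contra hne
  obtain ⟨s, hsQ, hsN, hsP⟩ := Cfsg.Agent.Lib.Helper3.exists_mem_normalizer_notMem
    (Q : Subgroup G) ((P : Subgroup ↥H).map H.subtype) Q.2 hQ (fun h => hne h.symm)
  have hsH : s ∈ H := hN hsN
  have hPGH : (P : Subgroup ↥H).map H.subtype ≤ H := Subgroup.map_subtype_le _
  have hRQ : (P : Subgroup ↥H).map H.subtype ⊔ Subgroup.zpowers s ≤ (Q : Subgroup G) :=
    sup_le hQ ((Subgroup.zpowers_le).mpr hsQ)
  have hRp : IsPGroup p ↥(((P : Subgroup ↥H).map H.subtype ⊔ Subgroup.zpowers s).subgroupOf H) :=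
    (Q.2.to_le hRQ).comap_of_injective H.subtype H.subtype_injective
  have hPR : (P : Subgroup ↥H) ≤
      ((P : Subgroup ↥H).map H.subtype ⊔ Subgroup.zpowers s).subgroupOf H := by
    intro x hx
    rw [Subgroup.mem_subgroupOf]
    exact Subgroup.mem_sup_left ⟨x, hx, rfl⟩
  have hEq := P.is_maximal' hRp hPR
  apply hsP
  have hs' : (⟨s, hsH⟩ : ↥H) ∈
      ((P : Subgroup ↥H).map H.subtype ⊔ Subgroup.zpowers s).subgroupOf H := by
    rw [Subgroup.mem_subgroupOf]
    exact Subgroup.mem_sup_right (Subgroup.mem_zpowers s)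
  rw [hEq] at hs'
  exact ⟨⟨s, hsH⟩, hs', rfl⟩

end Cfsg.Agent.S1335
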