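import Mathlib
import Cfsg.Statements.S1344
import Cfsg.Agent.Lib.Helper2.ExtLayer

set_option autoImplicit false
open Cfsg

namespace Cfsg.Agent.S1344

/-- Let K be a 2-component of the finite group X. Then K ≤ L*_{2'}(X) and K is normal in L*_{2'}(X). -/
theorem result {X : Type*} [Group X] [Finite X] (K : Subgroup X) (hK : Cfsg.IsPComponent 2 K) : K ≤ Cfsg.extendedTwoLayer X ∧ (K.subgroupOf (Cfsg.extendedTwoLayer X)).Normal := by
  have hKL : K ≤ Cfsg.pLayer 2 X := le_sSup hK
  have hKE : K ≤ Cfsg.extendedTwoLayer X := by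
    unfold Cfsg.extendedTwoLayer
    exact le_sup_of_le_left (le_sup_of_le_left hKL)
  refine ⟨hKE, ?_⟩
  rw [Subgroup.normal_subgroupOf_iff_le_normalizer hKE]
  unfold Cfsg.extendedTwoLayer
  refine sup_le (sup_le ?_ ?_) (iSup_le ?_)
  · exact sSup_le (fun L hL => Cfsg.Agent.Lib.Helper2.pComponent_normalizes 2 K L hK hL)
  · exact Cfsg.Agent.Lib.Helper2.pPrimeCore_le_normalizer_pComponent 2 K hK
  · intro T
    rintro _ ⟨c, _, rfl⟩
    apply Cfsg.Agent.Lib.Helper2.centralizer_sylow_normalizes_pComponent 2 K hK T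
    intro s hs
    exact (Subgroup.mem_centralizer_iff.mp c.2 s hs).symm

end Cfsg.Agent.S1344
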