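import Mathlib
import Cfsg.Statements.S1386
import Cfsg.Agent.Lib.Helper1.ThompsonJ
import Cfsg.Agent.Lib.Helper4.Normalizer
import Cfsg.Agent.Lib.Helper2.CyclicSub

set_option autoImplicit false
open Cfsg

namespace Cfsg.Agent.S1386

/-- Let G be a finite group, W₁, W₂ subgroups forming a self-normalizing cyclic pair, S a subgroup with W₂ ≤ S and W₁ a complement to S' in S, and (W₁, U, W₂') type-P data for S. Then W₂' = W₂ (that is, C_{S'}(W₁) = W₂). -/
theorem result {G : Type*} [Group G] [Finite G] (W₁ W₂ S U W₂' : Subgroup G) (hW : Cfsg.IsSelfNormalizingCyclic W₁ W₂)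
    (hSW : Cfsg.IsComplIn ⁅S, S⁆ W₁ S) (hW₂S : W₂ ≤ S) (hP : Cfsg.IsTypePWith S W₁ U W₂') :
    W₂' = W₂ := by
  classical
  obtain ⟨hW1ne, hW2ne, hdisj, hcomm, hcyc, hnorm⟩ := hW
  obtain ⟨hS'S, hW1S, hint, hprod⟩ := hSW
  obtain ⟨-, hW2'ne, hdisj', hcomm', hcyc', hnorm'⟩ := hP.selfNormalizing
  have hcent := hP.W₂_centralizer
  obtain ⟨x, hx, hx1⟩ : ∃ x ∈ W₁, x ≠ 1 := by
    by_contra hno
    push_neg at hno
    exact hW1ne ((Subgroup.eq_bot_iff_forall _).mpr hno)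
  obtain ⟨w, hw, hw1⟩ : ∃ w ∈ W₂, w ≠ 1 := by
    by_contra hno
    push_neg at hno
    exact hW2ne ((Subgroup.eq_bot_iff_forall _).mpr hno)
  have hW1ab := Cfsg.Agent.Lib.Helper2.comm_of_isCyclic W₁ hP.W₁_cyclic
  have hW2le : W₂ ≤ W₁ ⊔ W₂' := by
    intro v hv
    obtain ⟨a, ha, b, hb, rfl⟩ := hprod v (hW₂S hv)
    have h1 : x * (a * b) = (a * b) * x := hcomm x hx (a * b) hv
    have h2 : x * b = b * x := hW1ab x hx b hb
    have h3 : x * a = a * x := by
      calc x * a = (x * (a * b)) * b⁻¹ := by group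
        _ = (a * b * x) * b⁻¹ := by rw [h1]
        _ = a * (b * x) * b⁻¹ := by group
        _ = a * (x * b) * b⁻¹ := by rw [h2]
        _ = a * x := by group
    have ha' : a ∈ W₂' := by
      rw [← hcent x hx hx1]
      refine Subgroup.mem_inf.mpr ⟨ha, ?_⟩
      rw [Subgroup.mem_centralizer_iff]
      intro y hy
      rw [Set.mem_singleton_iff] at hy
      rw [hy]; exact h3
    exact Subgroup.mul_mem _ (Subgroup.mem_sup_right ha') (Subgroup.mem_sup_left hb)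
  have hWle : W₁ ⊔ W₂ ≤ W₁ ⊔ W₂' := sup_le le_sup_left hW2le
  have hxw_mem : x * w ∈ W₁ ⊔ W₂ :=
    Subgroup.mul_mem _ (Subgroup.mem_sup_left hx) (Subgroup.mem_sup_right hw)
  have hX : ({x * w} : Set G) ⊆ (↑(W₁ ⊔ W₂) : Set G) \ (↑W₁ ∪ ↑W₂) := by
    intro c hc
    rw [Set.mem_singleton_iff] at hc
    rw [hc]
    refine ⟨hxw_mem, ?_⟩
    rintro (h | h)
    · have hw' : w ∈ W₁ := by
        have e : w = x⁻¹ * (x * w) := by group
        rw [e]; exact W₁.mul_mem (W₁.inv_mem hx) h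
      have h4 : w ∈ W₁ ⊓ W₂ := Subgroup.mem_inf.mpr ⟨hw', hw⟩
      rw [hdisj, Subgroup.mem_bot] at h4
      exact hw1 h4
    · have hx' : x ∈ W₂ := by
        have e : x = (x * w) * w⁻¹ := by group
        rw [e]; exact W₂.mul_mem h (W₂.inv_mem hw)
      have h4 : x ∈ W₁ ⊓ W₂ := Subgroup.mem_inf.mpr ⟨hx, hx'⟩
      rw [hdisj, Subgroup.mem_bot] at h4
      exact hx1 h4
  have hN := hnorm {x * w} hX (Set.singleton_nonempty _)
  have hW'ab := Cfsg.Agent.Lib.Helper2.comm_of_isCyclic (W₁ ⊔ W₂') hcyc'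
  have hW'le : W₁ ⊔ W₂' ≤ W₁ ⊔ W₂ := by
    intro u hu
    rw [← hN, Subgroup.mem_set_normalizer_iff]
    intro c
    have huc : u * (x * w) = (x * w) * u := hW'ab u hu (x * w) (hWle hxw_mem)
    constructor
    · intro hc
      rw [Set.mem_singleton_iff] at hc ⊢
      rw [hc]
      calc u * (x * w) * u⁻¹ = (x * w * u) * u⁻¹ := by rw [huc]
        _ = x * w := by group
    · intro hc
      rw [Set.mem_singleton_iff] at hc ⊢
      calc c = u⁻¹ * (u * c * u⁻¹) * u := by group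
        _ = u⁻¹ * (x * w) * u := by rw [hc]
        _ = u⁻¹ * ((x * w) * u) := by group
        _ = u⁻¹ * (u * (x * w)) := by rw [huc]
        _ = x * w := by group
  have hWeq : W₁ ⊔ W₂ = W₁ ⊔ W₂' := le_antisymm hWle hW'le
  have hnorm1 : W₁ ≤ Subgroup.normalizer (W₂ : Set G) := by
    apply Cfsg.Agent.Lib.Helper4.le_normalizer_of_conj_mem
    intro a ha b hb
    have e : a * b * a⁻¹ = b := by rw [hcomm a ha b hb]; group
    rw [e]; exact hb
  have hnorm2 : W₁ ≤ Subgroup.normalizer (W₂' : Set G) := by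
    apply Cfsg.Agent.Lib.Helper4.le_normalizer_of_conj_mem
    intro a ha b hb
    have e : a * b * a⁻¹ = b := by rw [hcomm' a ha b hb]; group
    rw [e]; exact hb
  have hc1 := Cfsg.Agent.Lib.Helper1.card_sup_mul_card_inf W₁ W₂ hnorm1
  have hc2 := Cfsg.Agent.Lib.Helper1.card_sup_mul_card_inf W₁ W₂' hnorm2
  rw [hdisj, Subgroup.card_bot, mul_one] at hc1
  rw [hdisj', Subgroup.card_bot, mul_one, ← hWeq, hc1] at hc2
  have hcard : Nat.card W₂ = Nat.card W₂' := Nat.eq_of_mul_eq_mul_left Nat.card_pos hc2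
  have hfin := Cfsg.Agent.Lib.Helper2.eq_of_card_eq_of_le_cyclic (W₁ ⊔ W₂) W₂ W₂' hcyc
    le_sup_right (by rw [hWeq]; exact le_sup_right) hcard
  exact hfin.symm

end Cfsg.Agent.S1386
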