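import Mathlib
import Cfsg.Statements.S1395
import Cfsg.Agent.Lib.Helper2.BGTrans3

set_option autoImplicit false
open Cfsg

namespace Cfsg.Agent.S1395

/-- Let G be a minimal simple group of odd order, A a subgroup satisfying the transitivity hypothesis with K = O_{π(A)'}(C_G(A)), q a prime not dividing the order of A, and P a proper subgroup all of whose prime divisors divide the order of A, containing A as a subnormal subgroup, such that any two maximal A-invariant q-subgroups are conjugate under K. Then (a) K ∩ C_G(P) = O_{π(A)'}(C_G(P)); (b) any two maximal P-invariant q-subgroups are conjugate under O_{π(A)'}(C_G(P)); (c) every maximal P-invariant q-subgroup is a maximal A-invariant q-subgroup; (d) for every maximal P-invariant q-subgroup Q, P ∩ N_G(P)' ≤ N_G(Q)' and N_G(P) is generated by O_{π(A)'}(C_G(P)) and N_G(P) ∩ N_G(Q). -/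
theorem result {G : Type*} [Group G] [Finite G] (hG : Cfsg.IsMinSimpleOddOrder G)
    (A : Subgroup G) (hA : Cfsg.TransitivityHypothesis A) (q : ℕ) (hq : q.Prime) (hqA : ¬ q ∣ Nat.card A)
    (P : Subgroup G) (hP : P ≠ ⊤) (hPπ : (∀ r : ℕ, r.Prime → r ∣ Nat.card P → r ∣ Nat.card A)) (hAP : A ≤ P) (hsn : (A.subgroupOf P).IsSubnormal)
    (htr : ∀ Q₁ ∈ Cfsg.maxInvSubgroups ⊤ A {q}, ∀ Q₂ ∈ Cfsg.maxInvSubgroups ⊤ A {q}, ∃ k ∈ Cfsg.piCoreOf (Cfsg.primesNotDvd (Nat.card A)) (Subgroup.centralizer (A : Set G)), Q₂ = Q₁.map (MulAut.conj k).toMonoidHom) :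
    Cfsg.piCoreOf (Cfsg.primesNotDvd (Nat.card A)) (Subgroup.centralizer (A : Set G)) ⊓ Subgroup.centralizer (P : Set G) = Cfsg.piCoreOf (Cfsg.primesNotDvd (Nat.card A)) (Subgroup.centralizer (P : Set G)) ∧
      (∀ Q₁ ∈ Cfsg.maxInvSubgroups ⊤ P {q}, ∀ Q₂ ∈ Cfsg.maxInvSubgroups ⊤ P {q}, ∃ k ∈ Cfsg.piCoreOf (Cfsg.primesNotDvd (Nat.card A)) (Subgroup.centralizer (P : Set G)), Q₂ = Q₁.map (MulAut.conj k).toMonoidHom) ∧
      Cfsg.maxInvSubgroups ⊤ P {q} ⊆ Cfsg.maxInvSubgroups ⊤ A {q} ∧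
      ∀ Q ∈ Cfsg.maxInvSubgroups ⊤ P {q},
        P ⊓ ⁅Subgroup.normalizer (P : Set G), Subgroup.normalizer (P : Set G)⁆ ≤ ⁅Subgroup.normalizer (Q : Set G), Subgroup.normalizer (Q : Set G)⁆ ∧
        Subgroup.normalizer (P : Set G) = Cfsg.piCoreOf (Cfsg.primesNotDvd (Nat.card A)) (Subgroup.centralizer (P : Set G)) ⊔ (Subgroup.normalizer (P : Set G) ⊓ Subgroup.normalizer (Q : Set G)) := by
  haveI : Fact q.Prime := ⟨hq⟩
  have hmap : (A.subgroupOf P).map P.subtype = A := Subgroup.map_subgroupOf_eq_of_le hAP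
  have htr' : ∀ Q₁ Q₂ : Subgroup G,
      Cfsg.Agent.Lib.Helper2.MaxInvQ ((A.subgroupOf P).map P.subtype) q Q₁ →
      Cfsg.Agent.Lib.Helper2.MaxInvQ ((A.subgroupOf P).map P.subtype) q Q₂ →
      ∃ c ∈ Cfsg.piCoreOf (Cfsg.primesNotDvd (Nat.card ↥A))
        (Subgroup.centralizer (((A.subgroupOf P).map P.subtype : Subgroup G) : Set G)),
        Q₁.map (MulAut.conj c).toMonoidHom = Q₂ := by
    rw [hmap]
    intro Q₁ Q₂ h₁ h₂
    obtain ⟨k, hk, hkeq⟩ := htr Q₁ ((Cfsg.Agent.Lib.Helper2.maxInvQ_iff A q Q₁).mpr h₁) Q₂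
      ((Cfsg.Agent.Lib.Helper2.maxInvQ_iff A q Q₂).mpr h₂)
    exact ⟨k, hk, hkeq.symm⟩
  obtain ⟨htrP, hsubP⟩ := Cfsg.Agent.Lib.Helper2.bg_sub_subnormal hG A hA q hqA P hP hPπ
    (A.subgroupOf P) hsn (le_of_eq hmap.symm) htr'
  rw [hmap] at hsubP
  refine ⟨Cfsg.Agent.Lib.Helper2.bg_part_a hG A hA P hAP, ?_, ?_, ?_⟩
  · intro Q₁ h₁ Q₂ h₂
    obtain ⟨c, hc, hceq⟩ := htrP Q₁ Q₂ ((Cfsg.Agent.Lib.Helper2.maxInvQ_iff P q Q₁).mp h₁)
      ((Cfsg.Agent.Lib.Helper2.maxInvQ_iff P q Q₂).mp h₂)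
    exact ⟨c, hc, hceq.symm⟩
  · intro Q hQ
    exact (Cfsg.Agent.Lib.Helper2.maxInvQ_iff A q Q).mpr
      (hsubP Q ((Cfsg.Agent.Lib.Helper2.maxInvQ_iff P q Q).mp hQ))
  · intro Q hQ
    exact Cfsg.Agent.Lib.Helper2.bg_sub_frattini hG A hA q P hPπ htrP Q
      ((Cfsg.Agent.Lib.Helper2.maxInvQ_iff P q Q).mp hQ)

end Cfsg.Agent.S1395
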