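import Mathlib
import Cfsg.Statements.S1396
import Cfsg.Agent.Lib.Helper2.BGTransHyp

set_option autoImplicit false
open Cfsg

namespace Cfsg.Agent.S1396

/-- Let G be a minimal simple group of odd order, p a prime dividing the order of G and A an abelian p-subgroup. Suppose either (1) A consists exactly of the elements x of C_G(A) with x^p = 1, and every proper subgroup of G has p-length at most one, or (2) A is normal and self-centralizing in some Sylow p-subgroup of G and has rank at least 2. Then A satisfies the transitivity hypothesis. -/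
theorem result {G : Type*} [Group G] [Finite G] (hG : Cfsg.IsMinSimpleOddOrder G)
    (p : ℕ) [Fact p.Prime] (hp : p ∣ Nat.card G) (A : Subgroup G) (hAp : IsPGroup p A) (hAc : IsMulCommutative A)
    (h : (∀ x ∈ Subgroup.centralizer (A : Set G), x ^ p = 1 ↔ x ∈ A) ∧ (∀ H : Subgroup G, H ≠ ⊤ → Cfsg.PLengthLE p 1 H) ∨
      ∃ P : Sylow p G, Cfsg.IsSCN (P : Subgroup G) A ∧ ¬ Cfsg.PRankLE p 1 A) :
    Cfsg.TransitivityHypothesis A := by
  have hG' : Odd (Nat.card G) ∧ Cfsg.IsMinimalSimple G := hG
  have hms : IsSimpleGroup G ∧ ¬ IsMulCommutative G ∧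
      ∀ H : Subgroup G, H ≠ ⊤ → Group.IsSolvable ↥H := hG'.2
  have hpp : p.Prime := Fact.out
  have hAtop : A ≠ ⊤ := by
    intro htop
    apply hms.2.1
    refine ⟨⟨fun x y => ?_⟩⟩
    have hx : x ∈ A := by
      rw [htop]
      exact Subgroup.mem_top x
    have hy : y ∈ A := by
      rw [htop]
      exact Subgroup.mem_top y
    exact congrArg Subtype.val (hAc.is_comm.comm ⟨x, hx⟩ ⟨y, hy⟩)
  rcases h with ⟨hΩ, -⟩ | ⟨P, hscn, hrank⟩
  · have hA1 : A ≠ ⊥ := by
      intro hbot
      obtain ⟨x, hx⟩ := exists_prime_orderOf_dvd_card' (G := G) p hp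
      have hxc : x ∈ Subgroup.centralizer (A : Set G) := by
        rw [hbot, Subgroup.mem_centralizer_iff]
        intro a ha
        have ha' : a = 1 := Subgroup.mem_bot.mp ha
        rw [ha', one_mul, mul_one]
      have hxp : x ^ p = 1 := by
        have h1 := pow_orderOf_eq_one x
        rw [hx] at h1
        exact h1
      have hxA : x ∈ A := (hΩ x hxc).mp hxp
      rw [hbot, Subgroup.mem_bot] at hxA
      rw [hxA, orderOf_one] at hx
      exact hpp.one_lt.ne hx
    apply Cfsg.Agent.Lib.Helper2.bg_transHyp_of_omega hG p A hAp hA1 hAtop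
    intro x hxc hxo
    have h1 := pow_orderOf_eq_one x
    rw [hxo] at h1
    exact (hΩ x hxc).mp h1
  · have hA1 : A ≠ ⊥ := by
      intro hbot
      apply hrank
      intro B _ _
      have h2 : Nat.card ↥A = 1 := by
        rw [hbot]
        exact Subgroup.card_bot
      calc Nat.card ↥B ≤ Nat.card ↥A := Subgroup.card_le_card_group B
        _ = 1 := h2
        _ ≤ p ^ 1 := by
          rw [pow_one]
          exact hpp.one_lt.le
    exact Cfsg.Agent.Lib.Helper2.bg_transHyp_of_omega hG p A hAp hA1 hAtop
      (Cfsg.Agent.Lib.Helper2.scn_omega p P A hscn)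

end Cfsg.Agent.S1396
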