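import Mathlib
import Cfsg.Statements.S1441


set_option autoImplicit false
open Cfsg

namespace Cfsg.Agent.S1441

/-- Let G be a finite group, H a solvable subgroup and A a subgroup normalizing H. Suppose there is a chain H = H₀ ≥ H₁ ≥ ⋯ ≥ H_n = 1 of subgroups normal in H and normalized by A such that A acts trivially on each factor H_{i-1}/H_i (that is, [H_{i-1}, A] ≤ H_i). Then every prime dividing the index of C_A(H) in A divides the order of H. -/
theorem result {G : Type*} [Group G] [Finite G] (H A : Subgroup G) (hH : Group.IsSolvable H) (hA : (A ≤ Subgroup.normalizer (H : Set G)))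
    (n : ℕ) (c : Fin (n + 1) → Subgroup G) (hc0 : c 0 = H) (hcn : c (Fin.last n) = ⊥) (hanti : Antitone c)
    (hcN : ∀ i, H ≤ Subgroup.normalizer ((c i : Subgroup G) : Set G)) (hcA : ∀ i, A ≤ Subgroup.normalizer ((c i : Subgroup G) : Set G))
    (htriv : ∀ i : Fin n, ⁅c i.castSucc, A⁆ ≤ c i.succ) :
    ∀ p : ℕ, p.Prime → p ∣ (A ⊓ Subgroup.centralizer (H : Set G)).relIndex A → p ∣ Nat.card H := by
  intro p hp hdvd
  by_contra hnd
  haveI : Fact p.Prime := ⟨hp⟩
  have hcop : ∀ m : ℕ, Nat.Coprime (p ^ m) (Nat.card H) := fun m =>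
    Nat.Coprime.pow_left m ((Nat.Prime.coprime_iff_not_dvd hp).mpr hnd)
  have claim : ∀ a ∈ A, ∀ m : ℕ, a ^ (p ^ m) = 1 → ∀ i : Fin (n + 1), ∀ h ∈ c i, h * a = a * h := by
    intro a ha m ham i
    induction i using Fin.reverseInduction with
    | last => intro h hh; rw [hcn, Subgroup.mem_bot] at hh; rw [hh]; simp
    | cast i ih =>
      intro h hh
      have hz : h * a * h⁻¹ * a⁻¹ ∈ c i.succ := by
        apply htriv i
        have h0 := Subgroup.commutator_mem_commutator hh ha
        rwa [commutatorElement_def] at h0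
      have hza := ih _ hz
      have hconj : h * a * h⁻¹ = (h * a * h⁻¹ * a⁻¹) * a := by group
      have hpow : ∀ k : ℕ, h * a ^ k * h⁻¹ = (h * a * h⁻¹ * a⁻¹) ^ k * a ^ k := by
        intro k
        have h1 : h * a ^ k * h⁻¹ = (h * a * h⁻¹) ^ k := by
          rw [conj_pow]
        rw [h1]
        calc (h * a * h⁻¹) ^ k = ((h * a * h⁻¹ * a⁻¹) * a) ^ k := by rw [← hconj]
          _ = _ := (show Commute (h * a * h⁻¹ * a⁻¹) a from hza).mul_pow k
      have h2 := hpow (p ^ m)
      rw [ham] at h2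
      have h3 : (h * a * h⁻¹ * a⁻¹) ^ (p ^ m) = 1 := by
        have h2' : h * 1 * h⁻¹ = 1 := by group
        rw [h2', mul_one] at h2
        exact h2.symm
      have hzH : h * a * h⁻¹ * a⁻¹ ∈ H := by rw [← hc0]; exact hanti (Fin.zero_le _) hz
      have h4 : (h * a * h⁻¹ * a⁻¹) ^ Nat.card H = 1 := by
        have h4' : (⟨_, hzH⟩ : H) ^ Nat.card H = 1 := pow_card_eq_one'
        exact congrArg Subtype.val h4'
      have h5 : h * a * h⁻¹ * a⁻¹ = 1 := by
        have h6 := Nat.eq_one_of_dvd_coprimes (hcop m) (orderOf_dvd_of_pow_eq_one h3)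
          (orderOf_dvd_of_pow_eq_one h4)
        exact orderOf_eq_one_iff.mp h6
      have h7 : h * a = (h * a * h⁻¹ * a⁻¹) * a * h := by group
      rw [h7, h5, one_mul]
  obtain ⟨P⟩ := (Sylow.nonempty : Nonempty (Sylow p ↥A))
  have hle : (P : Subgroup ↥A) ≤ (A ⊓ Subgroup.centralizer (H : Set G)).subgroupOf A := by
    intro x hx
    rw [Subgroup.mem_subgroupOf]
    obtain ⟨m, hm⟩ := P.2 ⟨x, hx⟩
    have hm' : (x : G) ^ (p ^ m) = 1 := by
      have h8 := congrArg (fun y : ↥(P : Subgroup ↥A) => ((y : ↥A) : G)) hm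
      simpa using h8
    have hcen : (x : G) ∈ Subgroup.centralizer (H : Set G) := by
      rw [Subgroup.mem_centralizer_iff]
      intro h hh
      exact claim x.1 x.2 m hm' 0 h (by rw [hc0]; exact hh)
    exact ⟨x.2, hcen⟩
  have h1 : ((A ⊓ Subgroup.centralizer (H : Set G)).subgroupOf A).index ∣ (P : Subgroup ↥A).index :=
    Subgroup.index_dvd_of_le hle
  exact P.not_dvd_index (dvd_trans hdvd h1)

end Cfsg.Agent.S1441
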