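import Mathlib
import Cfsg.Statements.S1442


set_option autoImplicit false
open Cfsg

namespace Cfsg.Agent.S1442

/-- Let G be a finite group, H a nilpotent subgroup and A a subgroup normalizing H with the orders of A and H coprime. Put C = H ∩ C_G(A). If H ∩ C_G(C) ≤ C then A centralizes H. -/
theorem result {G : Type*} [Group G] [Finite G] (H A : Subgroup G) (hH : Group.IsNilpotent H) (hA : (A ≤ Subgroup.normalizer (H : Set G))) (hcop : (Nat.card A).Coprime (Nat.card H))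
    (hC : H ⊓ Subgroup.centralizer (((H ⊓ Subgroup.centralizer (A : Set G)) : Subgroup G) : Set G) ≤ (H ⊓ Subgroup.centralizer (A : Set G))) :
    A ≤ Subgroup.centralizer (H : Set G) := by
  classical
  have key : ∀ n ∈ H, (∀ c ∈ H ⊓ Subgroup.centralizer (A : Set G), n * c * n⁻¹ ∈ H ⊓ Subgroup.centralizer (A : Set G)) →
      (∀ c ∈ H ⊓ Subgroup.centralizer (A : Set G), n⁻¹ * c * n ∈ H ⊓ Subgroup.centralizer (A : Set G)) →
      n ∈ H ⊓ Subgroup.centralizer (A : Set G) := by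
    intro n hn h1 h2
    have hcomm : ∀ a ∈ A, ∀ c ∈ H ⊓ Subgroup.centralizer (A : Set G), a * c = c * a := by
      intro a ha c hc
      exact (Subgroup.mem_centralizer_iff.mp hc.2 a ha)
    have hmem : ∀ a ∈ A, n * a * n⁻¹ * a⁻¹ ∈ H ⊓ Subgroup.centralizer (A : Set G) := by
      intro a ha
      apply hC
      have hH' : n * a * n⁻¹ * a⁻¹ ∈ H := by
        have h3 : a * n⁻¹ * a⁻¹ ∈ H := (Subgroup.mem_normalizer_iff.mp (hA ha) _).mp (H.inv_mem hn)
        have h4 : n * a * n⁻¹ * a⁻¹ = n * (a * n⁻¹ * a⁻¹) := by group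
        rw [h4]; exact H.mul_mem hn h3
      have hcen : n * a * n⁻¹ * a⁻¹ ∈ Subgroup.centralizer (((H ⊓ Subgroup.centralizer (A : Set G)) : Subgroup G) : Set G) := by
        rw [Subgroup.mem_centralizer_iff]
        intro c hc
        have e1 := hcomm a ha c hc
        have e2 := hcomm a ha _ (h2 c hc)
        have e3 : c * a⁻¹ = a⁻¹ * c := by
          calc c * a⁻¹ = a⁻¹ * (a * c) * a⁻¹ := by group
            _ = a⁻¹ * (c * a) * a⁻¹ := by rw [e1]
            _ = a⁻¹ * c := by group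
        calc c * (n * a * n⁻¹ * a⁻¹) = n * ((n⁻¹ * c * n) * a) * n⁻¹ * a⁻¹ := by group
          _ = n * (a * (n⁻¹ * c * n)) * n⁻¹ * a⁻¹ := by rw [e2]
          _ = n * a * n⁻¹ * (c * a⁻¹) := by group
          _ = n * a * n⁻¹ * (a⁻¹ * c) := by rw [e3]
          _ = n * a * n⁻¹ * a⁻¹ * c := by group
      exact ⟨hH', hcen⟩
    have hpow : ∀ a ∈ A, ∀ k : ℕ, (n * a * n⁻¹ * a⁻¹) ^ k = n * a ^ k * n⁻¹ * (a ^ k)⁻¹ := by
      intro a ha k
      induction k with
      | zero => simp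
      | succ k ih =>
        rw [pow_succ, ih]
        have e := hcomm (a ^ k) (A.pow_mem ha k) _ (hmem a ha)
        have e' : (a ^ k)⁻¹ * (n * a * n⁻¹ * a⁻¹) = (n * a * n⁻¹ * a⁻¹) * (a ^ k)⁻¹ := by
          calc (a ^ k)⁻¹ * (n * a * n⁻¹ * a⁻¹)
              = (a ^ k)⁻¹ * ((n * a * n⁻¹ * a⁻¹) * a ^ k) * (a ^ k)⁻¹ := by group
            _ = (a ^ k)⁻¹ * (a ^ k * (n * a * n⁻¹ * a⁻¹)) * (a ^ k)⁻¹ := by rw [e]
            _ = _ := by group
        calc n * a ^ k * n⁻¹ * (a ^ k)⁻¹ * (n * a * n⁻¹ * a⁻¹)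
            = n * a ^ k * n⁻¹ * ((a ^ k)⁻¹ * (n * a * n⁻¹ * a⁻¹)) := by group
          _ = n * a ^ k * n⁻¹ * ((n * a * n⁻¹ * a⁻¹) * (a ^ k)⁻¹) := by rw [e']
          _ = n * a ^ (k + 1) * n⁻¹ * (a ^ (k + 1))⁻¹ := by rw [pow_succ]; group
    have hcenA : n ∈ Subgroup.centralizer (A : Set G) := by
      rw [Subgroup.mem_centralizer_iff]
      intro a ha
      have h5 : (n * a * n⁻¹ * a⁻¹) ^ Nat.card A = 1 := by
        rw [hpow a ha]
        have h5' : a ^ Nat.card A = 1 := by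
          have h5'' : (⟨a, ha⟩ : A) ^ Nat.card A = 1 := pow_card_eq_one'
          exact congrArg Subtype.val h5''
        rw [h5']; group
      have h6 : (n * a * n⁻¹ * a⁻¹) ^ Nat.card H = 1 := by
        have h6' : (⟨_, (hmem a ha).1⟩ : H) ^ Nat.card H = 1 := pow_card_eq_one'
        exact congrArg Subtype.val h6'
      have h7 : n * a * n⁻¹ * a⁻¹ = 1 := by
        have hd1 := orderOf_dvd_of_pow_eq_one h5
        have hd2 := orderOf_dvd_of_pow_eq_one h6
        have h8 := Nat.eq_one_of_dvd_coprimes hcop hd1 hd2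
        exact orderOf_eq_one_iff.mp h8
      calc a * n = (n * a * n⁻¹ * a⁻¹)⁻¹ * n * a := by group
        _ = n * a := by rw [h7]; group
    exact ⟨hn, hcenA⟩
  haveI := hH
  have hNC := normalizerCondition_of_isNilpotent (G := H)
  have htop : (H ⊓ Subgroup.centralizer (A : Set G)).subgroupOf H = ⊤ := by
    by_contra hne
    have hlt : (H ⊓ Subgroup.centralizer (A : Set G)).subgroupOf H < ⊤ := lt_top_iff_ne_top.mpr hne
    have h1 := hNC _ hlt
    obtain ⟨x, hx1, hx2⟩ := SetLike.exists_of_lt h1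
    apply hx2
    rw [Subgroup.mem_subgroupOf]
    apply key x.1 x.2
    · intro c hc
      have h3 := (Subgroup.mem_normalizer_iff.mp hx1 ⟨c, hc.1⟩).mp
        (by rw [Subgroup.mem_subgroupOf]; exact hc)
      rw [Subgroup.mem_subgroupOf] at h3
      exact h3
    · intro c hc
      have hx1' := Subgroup.inv_mem _ hx1
      have h3 := (Subgroup.mem_normalizer_iff.mp hx1' ⟨c, hc.1⟩).mp
        (by rw [Subgroup.mem_subgroupOf]; exact hc)
      rw [Subgroup.mem_subgroupOf] at h3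
      simpa using h3
  intro a ha
  rw [Subgroup.mem_centralizer_iff]
  intro y hy
  have h9 : (⟨y, hy⟩ : H) ∈ (H ⊓ Subgroup.centralizer (A : Set G)).subgroupOf H := by
    rw [htop]; trivial
  rw [Subgroup.mem_subgroupOf] at h9
  exact (Subgroup.mem_centralizer_iff.mp h9.2 a ha).symm

end Cfsg.Agent.S1442
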