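import Cfsg.Statements.S1459
import Mathlib
import Cfsg.Agent.Lib.Lead.CoprimeAbelian
import Cfsg.Agent.Lib.Lead.Class2
import Cfsg.Agent.Lib.Helper6.NilpNPC
-- import your own Cfsg.Agent.* helpers here

set_option autoImplicit false
open Cfsg

namespace Cfsg.Agent.S1459


open scoped Pointwise commutatorElement

universe u

theorem comm_prod_eq {G : Type*} [Group G] (v₁ v₂ a₁ a₂ : G)
    (h11 : Commute v₁ a₁) (h12 : Commute v₁ a₂) (h21 : Commute v₂ a₁) (h22 : Commute v₂ a₂) :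
    ⁅v₁ * a₁, v₂ * a₂⁆ = ⁅v₁, v₂⁆ * ⁅a₁, a₂⁆ := by
  have e1 : v₁ * a₁ * (v₂ * a₂) = (v₁ * v₂) * (a₁ * a₂) := by
    rw [mul_assoc, ← mul_assoc a₁, ← h21.eq]; group
  have e2 : v₂ * a₂ * (v₁ * a₁) = (v₂ * v₁) * (a₂ * a₁) := by
    rw [mul_assoc, ← mul_assoc a₂, ← h12.eq]; group
  have e3 : ⁅v₁ * a₁, v₂ * a₂⁆ = (v₁ * a₁ * (v₂ * a₂)) * (v₂ * a₂ * (v₁ * a₁))⁻¹ := by
    rw [commutatorElement_def]; group
  have hX1 : Commute v₁ (a₁ * a₂ * (a₂ * a₁)⁻¹) :=
    (h11.mul_right h12).mul_right ((h12.mul_right h11).inv_right)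
  have hX2 : Commute v₂ (a₁ * a₂ * (a₂ * a₁)⁻¹) :=
    (h21.mul_right h22).mul_right ((h22.mul_right h21).inv_right)
  have hX : Commute (v₂ * v₁)⁻¹ (a₁ * a₂ * (a₂ * a₁)⁻¹) := (hX2.mul_left hX1).inv_left
  rw [e3, e1, e2, mul_inv_rev]
  calc v₁ * v₂ * (a₁ * a₂) * ((a₂ * a₁)⁻¹ * (v₂ * v₁)⁻¹)
      = v₁ * v₂ * ((a₁ * a₂ * (a₂ * a₁)⁻¹) * (v₂ * v₁)⁻¹) := by group
    _ = v₁ * v₂ * ((v₂ * v₁)⁻¹ * (a₁ * a₂ * (a₂ * a₁)⁻¹)) := by rw [← hX.eq]
    _ = ⁅v₁, v₂⁆ * ⁅a₁, a₂⁆ := by rw [commutatorElement_def, commutatorElement_def]; group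

theorem comm_self_le {G : Type*} [Group G] (V : Subgroup G) : ⁅V, V⁆ ≤ V := by
  rw [Subgroup.commutator_le]
  intro a ha b hb
  rw [commutatorElement_def]
  exact mul_mem (mul_mem (mul_mem ha hb) (inv_mem ha)) (inv_mem hb)

theorem mem_of_order_dvd {G : Type*} [Group G] [Finite G] (N : Subgroup G) [N.Normal]
    (hc : (Nat.card N).Coprime N.index) (x : G) (hx : orderOf x ∣ Nat.card N) : x ∈ N := by
  rw [← QuotientGroup.eq_one_iff]
  have h1 : orderOf (x : G ⧸ N) ∣ orderOf x := by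
    apply orderOf_dvd_of_pow_eq_one
    rw [← QuotientGroup.mk_pow, pow_orderOf_eq_one]; rfl
  have h2 : orderOf (x : G ⧸ N) ∣ N.index := by
    rw [Subgroup.index_eq_card]; exact orderOf_dvd_natCard _
  have h3 : orderOf (x : G ⧸ N) = 1 := Nat.eq_one_of_dvd_coprimes hc (h1.trans hx) h2
  exact orderOf_eq_one_iff.mp h3

theorem partA {G : Type u} [Group G] [Finite G] [Group.IsSolvable G] (H K : Subgroup G)
    (hHn : H.Normal) (hHall : (Nat.card H).Coprime H.index) (hc : Subgroup.IsComplement' H K)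
    (hHG : H ≤ commutator G) :
    H = ⁅H, K⁆ ∧ H ⊓ Subgroup.centralizer (K : Set G) ≤ ⁅H, H⁆ := by
  classical
  haveI := hHn
  have hcop : (Nat.card H).Coprime (Nat.card K) := by
    rw [← hc.symm.index_eq_card]; exact hHall
  have hprod : ∀ g : G, ∃ h ∈ H, ∃ k ∈ K, g = h * k := by
    intro g
    have hg : g ∈ ((H ⊔ K : Subgroup G) : Set G) := by rw [hc.sup_eq_top]; trivial
    rw [Subgroup.normal_mul] at hg
    obtain ⟨h, hh, k, hk, rfl⟩ := hg
    exact ⟨h, hh, k, hk, rfl⟩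
  obtain ⟨M, hM⟩ : ∃ M : Subgroup G, M = ⁅H, K⁆ := ⟨_, rfl⟩
  have hMH : M ≤ H := by rw [hM]; exact Subgroup.commutator_le_left H K
  haveI hMn : M.Normal := by
    constructor
    intro y hy g
    obtain ⟨h, hh, k, hk, rfl⟩ := hprod g
    rw [hM] at hy ⊢
    have h1 := Cfsg.Agent.Lib.Lead.commutator_conj_mem_right H K k hk y hy
    have h2 := Cfsg.Agent.Lib.Lead.commutator_conj_mem_left H K h hh _ h1
    have e : h * k * y * (h * k)⁻¹ = h * (k * y * k⁻¹) * h⁻¹ := by group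
    rw [e]; exact h2
  have hfirst : H ≤ M := by
    obtain ⟨π, hπ⟩ : ∃ π : G →* G ⧸ M, π = QuotientGroup.mk' M := ⟨_, rfl⟩
    have hker : π.ker = M := by rw [hπ]; exact QuotientGroup.ker_mk' M
    have hsurj : Function.Surjective π := by rw [hπ]; exact QuotientGroup.mk'_surjective M
    obtain ⟨V, hV⟩ : ∃ V : Subgroup (G ⧸ M), V = H.map π := ⟨_, rfl⟩
    obtain ⟨A, hA⟩ : ∃ A : Subgroup (G ⧸ M), A = K.map π := ⟨_, rfl⟩
    haveI hVn : V.Normal := by rw [hV]; exact Subgroup.Normal.map hHn π hsurj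
    have hVA : ∀ v ∈ V, ∀ a ∈ A, Commute v a := by
      intro v hv a ha
      rw [hV] at hv; rw [hA] at ha
      obtain ⟨h, hh, rfl⟩ := Subgroup.mem_map.mp hv
      obtain ⟨k, hk, rfl⟩ := Subgroup.mem_map.mp ha
      have h1 : ⁅h, k⁆ ∈ π.ker := by
        rw [hker, hM]; exact Subgroup.commutator_mem_commutator hh hk
      rw [MonoidHom.mem_ker, map_commutatorElement, commutatorElement_eq_one_iff_commute] at h1
      exact h1
    have hdisj : V ⊓ A = ⊥ := by
      apply Subgroup.inf_eq_bot_of_coprime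
      have h1 : Nat.card V ∣ Nat.card H := by rw [hV]; exact Subgroup.card_map_dvd H π
      have h2 : Nat.card A ∣ Nat.card K := by rw [hA]; exact Subgroup.card_map_dvd K π
      exact Nat.Coprime.coprime_dvd_left h1 (Nat.Coprime.coprime_dvd_right h2 hcop)
    have hcommle : commutator (G ⧸ M) ≤ ⁅V, V⁆ ⊔ ⁅A, A⁆ := by
      rw [commutator_def, Subgroup.commutator_le]
      intro g₁ _ g₂ _
      obtain ⟨x₁, rfl⟩ := hsurj g₁
      obtain ⟨x₂, rfl⟩ := hsurj g₂
      obtain ⟨h₁, hh₁, k₁, hk₁, rfl⟩ := hprod x₁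
      obtain ⟨h₂, hh₂, k₂, hk₂, rfl⟩ := hprod x₂
      have hv₁ : π h₁ ∈ V := by rw [hV]; exact Subgroup.mem_map_of_mem π hh₁
      have hv₂ : π h₂ ∈ V := by rw [hV]; exact Subgroup.mem_map_of_mem π hh₂
      have ha₁ : π k₁ ∈ A := by rw [hA]; exact Subgroup.mem_map_of_mem π hk₁
      have ha₂ : π k₂ ∈ A := by rw [hA]; exact Subgroup.mem_map_of_mem π hk₂
      rw [map_mul, map_mul, comm_prod_eq _ _ _ _ (hVA _ hv₁ _ ha₁) (hVA _ hv₁ _ ha₂)
        (hVA _ hv₂ _ ha₁) (hVA _ hv₂ _ ha₂)]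
      exact mul_mem (Subgroup.mem_sup_left (Subgroup.commutator_mem_commutator hv₁ hv₂))
        (Subgroup.mem_sup_right (Subgroup.commutator_mem_commutator ha₁ ha₂))
    have hVle : V ≤ ⁅V, V⁆ := by
      intro x hx
      have hx1 : x ∈ commutator (G ⧸ M) := by
        rw [hV] at hx
        obtain ⟨h, hh, rfl⟩ := Subgroup.mem_map.mp hx
        have h1 := hHG hh
        rw [commutator_def] at h1 ⊢
        have h2 := Subgroup.mem_map_of_mem π h1
        rw [Subgroup.map_commutator] at h2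
        exact Subgroup.commutator_mono le_top le_top h2
      have hx2 := hcommle hx1
      have hx3 : x ∈ ((⁅V, V⁆ ⊔ ⁅A, A⁆ : Subgroup (G ⧸ M)) : Set (G ⧸ M)) := hx2
      rw [Subgroup.normal_mul] at hx3
      obtain ⟨y, hy, z, hz, hyz⟩ := hx3
      have hyz' : y * z = x := hyz
      have hyV : y ∈ V := comm_self_le V hy
      have hzA : z ∈ A := comm_self_le A hz
      have hzV : z ∈ V := by
        have : z = y⁻¹ * x := by rw [← hyz']; group
        rw [this]; exact mul_mem (inv_mem hyV) hx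
      have hz1 : z ∈ V ⊓ A := Subgroup.mem_inf.mpr ⟨hzV, hzA⟩
      rw [hdisj, Subgroup.mem_bot] at hz1
      rw [← hyz', hz1, mul_one]; exact hy
    have hVbot : V = ⊥ := by
      by_contra hne
      haveI : Nontrivial V := (Subgroup.nontrivial_iff_ne_bot V).mpr hne
      have hlt := IsSolvable.commutator_lt_top_of_nontrivial (G := V)
      apply hlt.ne
      rw [eq_top_iff]
      intro x _
      have hx := hVle x.2
      rw [← Subgroup.map_subtype_commutator] at hx
      obtain ⟨y, hy, hyx⟩ := Subgroup.mem_map.mp hx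
      have : y = x := Subtype.ext hyx
      rw [← this]; exact hy
    rw [hV, Subgroup.map_eq_bot_iff, hker] at hVbot
    exact hVbot
  have hHM : H = ⁅H, K⁆ := by rw [← hM]; exact le_antisymm hfirst hMH
  refine ⟨hHM, ?_⟩
  intro c hc'
  obtain ⟨hcH, hcK⟩ := Subgroup.mem_inf.mp hc'
  obtain ⟨π, hπ⟩ : ∃ π : G →* G ⧸ ⁅H, H⁆, π = QuotientGroup.mk' ⁅H, H⁆ := ⟨_, rfl⟩
  have hker : π.ker = ⁅H, H⁆ := by rw [hπ]; exact QuotientGroup.ker_mk' _
  have hsurj : Function.Surjective π := by rw [hπ]; exact QuotientGroup.mk'_surjective _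
  obtain ⟨V, hV⟩ : ∃ V : Subgroup (G ⧸ ⁅H, H⁆), V = H.map π := ⟨_, rfl⟩
  obtain ⟨A, hA⟩ : ∃ A : Subgroup (G ⧸ ⁅H, H⁆), A = K.map π := ⟨_, rfl⟩
  haveI hVn : V.Normal := by rw [hV]; exact Subgroup.Normal.map hHn π hsurj
  haveI hVc : IsMulCommutative V := by
    refine ⟨⟨fun a b => ?_⟩⟩
    obtain ⟨a, ha⟩ := a
    obtain ⟨b, hb⟩ := b
    apply Subtype.ext
    show a * b = b * a
    rw [hV] at ha hb
    obtain ⟨h₁, hh₁, rfl⟩ := Subgroup.mem_map.mp ha
    obtain ⟨h₂, hh₂, rfl⟩ := Subgroup.mem_map.mp hb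
    have h1 : ⁅h₁, h₂⁆ ∈ π.ker := by
      rw [hker]; exact Subgroup.commutator_mem_commutator hh₁ hh₂
    rw [MonoidHom.mem_ker, map_commutatorElement, commutatorElement_eq_one_iff_commute] at h1
    exact h1.eq
  have hAV : A ≤ Subgroup.normalizer (V : Set (G ⧸ ⁅H, H⁆)) := by
    rw [Subgroup.normalizer_eq_top]; exact le_top
  have hcop' : (Nat.card A).Coprime (Nat.card V) := by
    have h1 : Nat.card V ∣ Nat.card H := by rw [hV]; exact Subgroup.card_map_dvd H π
    have h2 : Nat.card A ∣ Nat.card K := by rw [hA]; exact Subgroup.card_map_dvd K π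
    exact (Nat.Coprime.coprime_dvd_left h1 (Nat.Coprime.coprime_dvd_right h2 hcop)).symm
  have hinf := Cfsg.Agent.Lib.Lead.coprime_abelian_inf A V hAV hcop'
  have hmem : π c ∈ (V ⊓ Subgroup.centralizer (A : Set (G ⧸ ⁅H, H⁆))) ⊓ ⁅V, A⁆ := by
    refine Subgroup.mem_inf.mpr ⟨Subgroup.mem_inf.mpr ⟨?_, ?_⟩, ?_⟩
    · rw [hV]; exact Subgroup.mem_map_of_mem π hcH
    · rw [Subgroup.mem_centralizer_iff]
      intro a ha
      rw [hA] at ha
      obtain ⟨k, hk, rfl⟩ := Subgroup.mem_map.mp ha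
      rw [Subgroup.mem_centralizer_iff] at hcK
      rw [← map_mul, ← map_mul, hcK k hk]
    · rw [hV, hA, ← Subgroup.map_commutator, ← hHM]
      exact Subgroup.mem_map_of_mem π hcH
  rw [hinf, Subgroup.mem_bot] at hmem
  have h9 : c ∈ π.ker := hmem
  rw [hker] at h9
  exact h9

theorem partB {G : Type u} [Group G] [Finite G]
    (hnil : Group.IsNilpotent ↥(commutator G)) (hq : (commutator G).index.Prime) :
    (Nat.card ↥(commutator G)).Coprime (commutator G).index := by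
  classical
  obtain ⟨C, hC⟩ : ∃ C : Subgroup G, C = commutator G := ⟨_, rfl⟩
  rw [← hC] at hnil hq ⊢
  haveI hCn : C.Normal := by rw [hC]; infer_instance
  obtain ⟨q, hqd⟩ : ∃ q, q = C.index := ⟨_, rfl⟩
  rw [← hqd] at hq ⊢
  haveI := Fact.mk hq
  haveI := hnil
  obtain ⟨Q₀, N₀, hN₀n, hN₀c⟩ := Cfsg.Agent.Lib.Helper6.npc_of_nilpotent (G := C) q
  haveI := hN₀n
  obtain ⟨k, hk⟩ := IsPGroup.iff_card.mp Q₀.2
  have hN₀idx : N₀.index = q ^ k := by rw [hN₀c.symm.index_eq_card]; exact hk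
  have hN₀cop : (Nat.card N₀).Coprime q := by
    rw [← hN₀c.index_eq_card]
    exact ((Nat.Prime.coprime_iff_not_dvd hq).mpr Q₀.not_dvd_index).symm
  have hN₀Hall : (Nat.card N₀).Coprime N₀.index := by
    rw [hN₀idx]; exact Nat.Coprime.pow_right k hN₀cop
  obtain ⟨N, hN⟩ : ∃ N : Subgroup G, N = N₀.map C.subtype := ⟨_, rfl⟩
  haveI hNn : N.Normal := by
    constructor
    intro x hx g
    rw [hN] at hx ⊢
    obtain ⟨n', hn', rfl⟩ := Subgroup.mem_map.mp hx
    have hmemC : g * (n' : G) * g⁻¹ ∈ C := hCn.conj_mem _ n'.2 g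
    have hord : orderOf (⟨g * (n' : G) * g⁻¹, hmemC⟩ : C) ∣ Nat.card N₀ := by
      have e1 : orderOf (g * (n' : G) * g⁻¹) = orderOf (n' : G) :=
        (MulAut.conj g).orderOf_eq (n' : G)
      rw [Subgroup.orderOf_mk, e1, Subgroup.orderOf_coe]
      exact Subgroup.orderOf_dvd_natCard N₀ hn'
    have hy := mem_of_order_dvd N₀ hN₀Hall ⟨g * (n' : G) * g⁻¹, hmemC⟩ hord
    exact Subgroup.mem_map.mpr ⟨_, hy, rfl⟩
  have hNC : N ≤ C := by rw [hN]; exact Subgroup.map_subtype_le _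
  have hcN : Nat.card N = Nat.card N₀ := by
    rw [hN]
    exact (Nat.card_congr (N₀.equivMapOfInjective C.subtype C.subtype_injective).toEquiv).symm
  have hNidx : N.index = q ^ (k + 1) := by
    have h1 := N.card_mul_index
    have h2 := C.card_mul_index
    have h3 := hN₀c.card_mul_card
    rw [hk] at h3
    rw [hcN, ← h2, ← h3, ← hqd] at h1
    have hpos : 0 < Nat.card N₀ := Nat.card_pos
    have h4 : Nat.card N₀ * N.index = Nat.card N₀ * q ^ (k + 1) := by rw [h1, pow_succ]; ring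
    exact Nat.eq_of_mul_eq_mul_left hpos h4
  have hT : IsPGroup q (G ⧸ N) := IsPGroup.of_card (by rw [← Subgroup.index_eq_card]; exact hNidx)
  have hfr := Cfsg.Agent.Lib.Lead.commutator_le_frattini_of_pGroup hT
  obtain ⟨x, hx⟩ : ∃ x : G, x ∉ C := by
    by_contra hcon
    push_neg at hcon
    have : C = ⊤ := by rw [eq_top_iff]; intro g _; exact hcon g
    rw [this, Subgroup.index_top] at hqd
    rw [hqd] at hq
    exact Nat.not_prime_one hq
  have hcyc : Subgroup.zpowers (QuotientGroup.mk' C x) = ⊤ :=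
    zpowers_eq_top_of_prime_card (p := q) (by rw [← Subgroup.index_eq_card]; exact hqd.symm)
      (by intro h; exact hx ((QuotientGroup.eq_one_iff x).mp h))
  have hdecomp : ∀ g : G, ∃ i : ℤ, ∃ c ∈ C, g = x ^ i * c := by
    intro g
    have hg : QuotientGroup.mk' C g ∈ Subgroup.zpowers (QuotientGroup.mk' C x) := by
      rw [hcyc]; trivial
    obtain ⟨i, hi⟩ := Subgroup.mem_zpowers_iff.mp hg
    rw [← map_zpow, QuotientGroup.mk'_apply, QuotientGroup.mk'_apply, QuotientGroup.eq] at hi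
    exact ⟨i, _, hi, by group⟩
  have hmapC : ∀ c ∈ C, QuotientGroup.mk' N c ∈ frattini (G ⧸ N) := by
    intro c hc
    apply hfr
    rw [hC, commutator_def] at hc
    have h2 := Subgroup.mem_map_of_mem (QuotientGroup.mk' N) hc
    rw [Subgroup.map_commutator] at h2
    rw [commutator_def]
    exact Subgroup.commutator_mono le_top le_top h2
  have htop : Subgroup.zpowers (QuotientGroup.mk' N x) ⊔ frattini (G ⧸ N) = ⊤ := by
    rw [eq_top_iff]
    intro t _
    obtain ⟨g, rfl⟩ := QuotientGroup.mk'_surjective N t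
    obtain ⟨i, c, hc, rfl⟩ := hdecomp g
    rw [map_mul, map_zpow]
    exact mul_mem (Subgroup.mem_sup_left (Subgroup.zpow_mem_zpowers _ i))
      (Subgroup.mem_sup_right (hmapC c hc))
  have hz := frattini_nongenerating htop
  have hcomm : ∀ a b : G ⧸ N, a * b = b * a := by
    intro a b
    have ha : a ∈ Subgroup.zpowers (QuotientGroup.mk' N x) := by rw [hz]; trivial
    have hb : b ∈ Subgroup.zpowers (QuotientGroup.mk' N x) := by rw [hz]; trivial
    obtain ⟨i, rfl⟩ := Subgroup.mem_zpowers_iff.mp ha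
    obtain ⟨j, rfl⟩ := Subgroup.mem_zpowers_iff.mp hb
    rw [← zpow_add, ← zpow_add, add_comm]
  have hCN : C ≤ N := by
    rw [hC, commutator_def, Subgroup.commutator_le]
    intro g₁ _ g₂ _
    rw [← QuotientGroup.eq_one_iff, ← QuotientGroup.mk'_apply, map_commutatorElement,
      commutatorElement_eq_one_iff_commute]
    exact hcomm _ _
  have hd : Nat.card C ∣ Nat.card N := Subgroup.card_dvd_of_le hCN
  rw [hcN] at hd
  exact Nat.Coprime.coprime_dvd_left hd hN₀cop

/-- Let G be a finite solvable group. (a) If H is a normal subgroup of order coprime to its index, K is a complement to H, and H ≤ G', then H = [H, K] and H ∩ C_G(K) ≤ [H, H]. (b) If G' is nilpotent and has prime index in G, then the order of G' is coprime to its index and G' = [G, K] (the subgroup generated by commutators of elements of G with elements of K) for every complement K of G'. -/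
theorem result {G : Type*} [Group G] [Finite G] [Group.IsSolvable G] :
    (∀ (H K : Subgroup G), H.Normal → (Nat.card H).Coprime H.index → Subgroup.IsComplement' H K → H ≤ commutator G →
        H = ⁅H, K⁆ ∧ H ⊓ Subgroup.centralizer (K : Set G) ≤ ⁅H, H⁆) ∧
      (Group.IsNilpotent ↥(commutator G) → (commutator G).index.Prime →
        (Nat.card ↥(commutator G)).Coprime (commutator G).index ∧
        ∀ K : Subgroup G, Subgroup.IsComplement' (commutator G) K → commutator G = ⁅(⊤ : Subgroup G), K⁆) := by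
  refine ⟨fun H K hHn hHall hc hHG => partA H K hHn hHall hc hHG, fun hnil hq => ?_⟩
  have hcop := partB hnil hq
  refine ⟨hcop, fun K hK => ?_⟩
  have hA := partA (commutator G) K inferInstance hcop hK le_rfl
  apply le_antisymm
  · conv_lhs => rw [hA.1]
    exact Subgroup.commutator_mono le_top le_rfl
  · conv_rhs => rw [commutator_def]
    exact Subgroup.commutator_mono le_rfl le_top

end Cfsg.Agent.S1459
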