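import Mathlib
import Cfsg.Statements.S1466
import Cfsg.Agent.Lib.Helper2.Puig

set_option autoImplicit false
open Cfsg

namespace Cfsg.Agent.S1466

/-- Let p be a prime and R a nontrivial finite p-group. Then for every i > 0, Z(R) ≤ C_R(L_i(R)) ≤ L_i(R); likewise Z(R) ≤ C_R(L_*(R)) ≤ L_*(R) and Z(R) ≤ C_R(L(R)) ≤ L(R); and L(R) ≠ 1, L_*(R) ≠ 1. -/
theorem result {R : Type*} [Group R] [Finite R] (p : ℕ) [Fact p.Prime] (hR : IsPGroup p R) [Nontrivial R] :
    (∀ i : ℕ, 0 < i → Subgroup.center R ≤ Subgroup.centralizer ((Cfsg.puigSeq R i : Subgroup R) : Set R) ∧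
        Subgroup.centralizer ((Cfsg.puigSeq R i : Subgroup R) : Set R) ≤ Cfsg.puigSeq R i) ∧
      (Subgroup.center R ≤ Subgroup.centralizer ((Cfsg.puigLower R : Subgroup R) : Set R) ∧ Subgroup.centralizer ((Cfsg.puigLower R : Subgroup R) : Set R) ≤ Cfsg.puigLower R) ∧
      (Subgroup.center R ≤ Subgroup.centralizer ((Cfsg.puigSubgroup R : Subgroup R) : Set R) ∧ Subgroup.centralizer ((Cfsg.puigSubgroup R : Subgroup R) : Set R) ≤ Cfsg.puigSubgroup R) ∧
      Cfsg.puigSubgroup R ≠ ⊥ ∧ Cfsg.puigLower R ≠ ⊥ := by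
  classical
  have hcl := fun (i : ℕ) (hi : 0 < i) => Cfsg.Agent.Lib.Helper2.puig_centralizer_le hR i hi
  obtain ⟨k, hk⟩ := Cfsg.Agent.Lib.Helper2.puig_stable (G := R)
  have hlow : Cfsg.puigLower R = Cfsg.puigSeq R (2 * (k + 1)) :=
    ((hk (k + 1) (Nat.le_succ k)).1).symm
  have hup : Cfsg.puigSubgroup R = Cfsg.puigSeq R (2 * k + 1) := ((hk k le_rfl).2).symm
  have hlowc : Subgroup.centralizer ((Cfsg.puigLower R : Subgroup R) : Set R)
      ≤ Cfsg.puigLower R := by
    rw [hlow]; exact hcl _ (by omega)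
  have hupc : Subgroup.centralizer ((Cfsg.puigSubgroup R : Subgroup R) : Set R)
      ≤ Cfsg.puigSubgroup R := by
    rw [hup]; exact hcl _ (by omega)
  have hne : ∀ L : Subgroup R, Subgroup.centralizer (L : Set R) ≤ L → L ≠ ⊥ := by
    intro L hL hbot
    obtain ⟨g, hg⟩ := exists_ne (1 : R)
    apply hg
    have h1 : g ∈ Subgroup.centralizer (L : Set R) := by
      rw [Subgroup.mem_centralizer_iff]
      intro h hh
      rw [hbot] at hh
      have h3 : h = 1 := by simpa using hh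
      rw [h3]; group
    have h2 := hL h1
    rw [hbot, Subgroup.mem_bot] at h2
    exact h2
  exact ⟨fun i hi => ⟨Subgroup.center_le_centralizer _, hcl i hi⟩,
    ⟨Subgroup.center_le_centralizer _, hlowc⟩, ⟨Subgroup.center_le_centralizer _, hupc⟩,
    hne _ hupc, hne _ hlowc⟩

end Cfsg.Agent.S1466
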