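import Mathlib
import Cfsg.Statements.S1470
import Cfsg.Agent.Lib.Helper2.FinFieldNorm

set_option autoImplicit false
open Cfsg

namespace Cfsg.Agent.S1470

/-- Let p and q be odd primes with (p^q − 1)/(p − 1) coprime to p − 1, and let E be the set of elements a of the field with p ^ q elements whose norm to the prime field is 1 and for which 2 − a also has norm 1. If a⁻¹ ∈ E for every a ∈ E and E has at least two elements, then p ≤ q. -/
theorem result (p q : ℕ) [Fact p.Prime] [Fact q.Prime] (hp : p ≠ 2) (hq : q ≠ 2) (hA : Nat.Coprime ((p ^ q - 1) / (p - 1)) (p - 1))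
    (hinv : ∀ a ∈ {a : GaloisField p q | Algebra.norm (ZMod p) a = 1 ∧ Algebra.norm (ZMod p) (2 - a) = 1}, a⁻¹ ∈ {a : GaloisField p q | Algebra.norm (ZMod p) a = 1 ∧ Algebra.norm (ZMod p) (2 - a) = 1})
    (h2 : 2 ≤ Set.ncard {a : GaloisField p q | Algebra.norm (ZMod p) a = 1 ∧ Algebra.norm (ZMod p) (2 - a) = 1}) :
    p ≤ q := by
  have hq0 : q ≠ 0 := (Fact.out : q.Prime).ne_zero
  obtain ⟨E, hEdef⟩ : ∃ E : Set (GaloisField p q),
      E = {a : GaloisField p q | Algebra.norm (ZMod p) a = 1 ∧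
        Algebra.norm (ZMod p) (2 - a) = 1} := ⟨_, rfl⟩
  rw [← hEdef] at hinv h2
  have hEmem : ∀ a, a ∈ E ↔
      (Algebra.norm (ZMod p) a = 1 ∧ Algebra.norm (ZMod p) (2 - a) = 1) := by
    intro a
    rw [hEdef]
    exact Iff.rfl
  have hex : ∃ a ∈ E, a ≠ 1 := by
    by_contra hcon
    push_neg at hcon
    have hsub : E ⊆ {1} := fun a ha => Set.mem_singleton_iff.mpr (hcon a ha)
    have h3 := Set.ncard_le_ncard hsub (Set.finite_singleton _)
    rw [Set.ncard_singleton] at h3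
    omega
  obtain ⟨a, haE, ha1⟩ := hex
  have hc : a - 1 ≠ 0 := sub_ne_zero.mpr ha1
  exact Cfsg.Agent.Lib.Helper2.le_of_norm_one_add_natCast_mul p q hq0 (a - 1) hc
    (Cfsg.Agent.Lib.Helper2.norm_seq E hEmem hinv a haE)

end Cfsg.Agent.S1470
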