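import Mathlib
import Cfsg.Statements.S1475
import Cfsg.Agent.Lib.Helper6.ThreePrimes
import Cfsg.Agent.Lib.Helper6.CPGroups

set_option autoImplicit false
open Cfsg

namespace Cfsg.Agent.S1475

/-- Let G be a finite solvable group such that the order of every element is a prime power (1 included). Then at most two distinct primes divide the order of G. -/
theorem result {G : Type*} [Group G] [Finite G] [Group.IsSolvable G] (h : ∀ g : G, IsPrimePow (orderOf g) ∨ g = 1) :
    (Nat.card G).primeFactors.card ≤ 2 := by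
  by_contra hcon
  have h3 : 3 ≤ (Nat.card G).primeFactors.card := by omega
  obtain ⟨s, hs, hs3⟩ := Finset.exists_subset_card_eq h3
  obtain ⟨p, q, r, hpq, hpr, hqr, hseq⟩ := Finset.card_eq_three.mp hs3
  have hp : p ∈ (Nat.card G).primeFactors := hs (by rw [hseq]; simp)
  have hq : q ∈ (Nat.card G).primeFactors := hs (by rw [hseq]; simp)
  have hr : r ∈ (Nat.card G).primeFactors := hs (by rw [hseq]; simp)
  rw [Nat.mem_primeFactors] at hp hq hr
  obtain ⟨g, hg⟩ := Cfsg.Agent.Lib.Helper6.three_primes hp.1 hq.1 hr.1 hpq hpr hqr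
    hp.2.1 hq.2.1 hr.2.1
  have key : ∀ a b : ℕ, a.Prime → b.Prime → a ≠ b → orderOf g = a * b → False := by
    intro a b ha hb hab ho
    rcases h g with h1 | h1
    · rw [ho] at h1
      exact Cfsg.Agent.Lib.Helper6.not_isPrimePow_mul ha hb hab h1
    · rw [h1, orderOf_one] at ho
      have h5 := ha.two_le
      have h6 := hb.two_le
      nlinarith
  rcases hg with hg | hg | hg
  · exact key p q hp.1 hq.1 hpq hg
  · exact key p r hp.1 hr.1 hpr hg
  · exact key q r hq.1 hr.1 hqr hg

end Cfsg.Agent.S1475
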