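import Cfsg.Statements.S1486
import Mathlib
import Cfsg.Agent.Lib.Lead.SylowAux2
import Cfsg.Agent.Lib.Lead.CharOrbit

set_option autoImplicit false
open Cfsg Cfsg.Agent.Lib.Lead

namespace Cfsg.Agent.S1486

open scoped Pointwise commutatorElement

/-- Let H be a normal subgroup of the finite group G and θ, φ irreducible characters of H. If φ is a G-conjugate of θ then the functions induced from θ and φ coincide; if φ is not a G-conjugate of θ then the induced functions are orthogonal. -/
theorem result {G : Type*} [Group G] [Fintype G] (H : Subgroup G) [hN : H.Normal] (θ φ : H → ℂ) (hθ : Cfsg.IsIrrCharacter H θ) (hφ : Cfsg.IsIrrCharacter H φ) : ((∃ g : G, φ = fun h : H => θ ⟨g * h * g⁻¹, hN.conj_mem h h.2 g⟩) → Cfsg.indFun H φ = Cfsg.indFun H θ) ∧ ((¬ ∃ g : G, φ = fun h : H => θ ⟨g * h * g⁻¹, hN.conj_mem h h.2 g⟩) → Cfsg.classInner (Cfsg.indFun H φ) (Cfsg.indFun H θ) = 0) := by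
  classical
  haveI : Fintype H := Fintype.ofFinite H
  constructor
  · rintro ⟨g, rfl⟩
    exact indFun_conjHom H θ g
  · intro hno
    have h1 := classInner_indFun_normal H φ θ hφ hθ
    have h2 : IsEmpty {g : G // φ = θ ∘ conjHom H g} := ⟨fun ⟨g, hg⟩ => hno ⟨g, hg⟩⟩
    have h3 : Nat.card {g : G // φ = θ ∘ conjHom H g} = 0 := Nat.card_of_isEmpty
    rw [h3, Nat.cast_zero] at h1
    have hne : (Nat.card H : ℂ) ≠ 0 := by exact_mod_cast Nat.card_pos.ne'
    exact (mul_eq_zero.mp h1).resolve_left hne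

end Cfsg.Agent.S1486
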