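import Cfsg.Statements.S1487
import Mathlib
import Cfsg.Agent.Lib.Lead.SylowAux2
import Cfsg.Agent.Lib.Lead.CharOrbit

set_option autoImplicit false
open Cfsg Cfsg.Agent.Lib.Lead

namespace Cfsg.Agent.S1487

open scoped Pointwise commutatorElement

/-- Let A ≤ H be normal subgroups of the finite group G and θ an irreducible character of H. Then θ takes the value θ 1 on all of A if and only if the function induced from θ to G takes its value at 1 on all of A. -/
theorem result {G : Type*} [Group G] [Fintype G] (A H : Subgroup G) [A.Normal] [H.Normal] (hAH : A ≤ H) (θ : H → ℂ) (hθ : Cfsg.IsIrrCharacter H θ) : (∀ a : H, (a : G) ∈ A → θ a = θ 1) ↔ (∀ a : G, a ∈ A → Cfsg.indFun H θ a = Cfsg.indFun H θ 1) := by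
  classical
  have hchar := isCharacter_of_isIrrCharacter hθ
  have hnorm : ∀ (g : G) (a : H), (a : G) ∈ A → ((conjHom H g a : H) : G) ∈ A :=
    fun g a ha => (inferInstance : A.Normal).conj_mem a ha g
  constructor
  · intro h a ha
    have haH : a ∈ H := hAH ha
    have h1 := indFun_normal_apply H θ ⟨a, haH⟩
    have h2 := indFun_normal_apply H θ (1 : H)
    show Cfsg.indFun H θ ((⟨a, haH⟩ : H) : G) = Cfsg.indFun H θ ((1 : H) : G)
    rw [h1, h2]
    congr 1
    apply Finset.sum_congr rfl
    intro g _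
    rw [h _ (hnorm g ⟨a, haH⟩ ha), map_one]
  · intro h a ha
    have h0 := h (a : G) ha
    have h1 := indFun_normal_apply H θ a
    have h2 : Cfsg.indFun H θ 1 = (Nat.card H : ℂ)⁻¹ * ∑ g : G, θ (conjHom H g 1) :=
      indFun_normal_apply H θ (1 : H)
    rw [h1, h2] at h0
    have hne : (Nat.card H : ℂ)⁻¹ ≠ 0 := inv_ne_zero (by exact_mod_cast Nat.card_pos.ne')
    have h3 : ∑ g : G, θ (conjHom H g a) = ∑ g : G, θ (conjHom H g 1) := mul_left_cancel₀ hne h0
    have h4 : ∑ g : G, (θ (conjHom H g a)).re = ∑ g : G, (θ 1).re := by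
      have h5 := congrArg Complex.re h3
      rw [Complex.re_sum, Complex.re_sum] at h5
      rw [h5]
      apply Finset.sum_congr rfl
      intro g _
      rw [map_one]
    have h5 : ∀ g ∈ Finset.univ, (θ (conjHom H g a)).re ≤ (θ 1).re :=
      fun g _ => (irr_eq_one_of_re hchar _).1
    have h6 := (Finset.sum_eq_sum_iff_of_le h5).mp h4 1 (Finset.mem_univ _)
    rw [conjHom_one] at h6
    exact (irr_eq_one_of_re hchar a).2 h6

end Cfsg.Agent.S1487
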