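import Mathlib
import Cfsg.Statements.S1495


set_option autoImplicit false
open Cfsg

namespace Cfsg.Agent.S1495

/-- Let p be a prime, ε = exp(2πi/p), and n an integer such that n = (1 − ε) * ω for some algebraic integer ω. Then p divides n. -/
theorem result (p : ℕ) (hp : p.Prime) (n : ℤ) (ω : ℂ) (hω : IsIntegral ℤ ω) (h : (n : ℂ) = (1 - Complex.exp (2 * Real.pi * Complex.I / p)) * ω) : (p : ℤ) ∣ n := by
  classical
  haveI : Fact p.Prime := ⟨hp⟩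
  have hprim : IsPrimitiveRoot (Complex.exp (2 * Real.pi * Complex.I / p)) p :=
    Complex.isPrimitiveRoot_exp p hp.ne_zero
  generalize Complex.exp (2 * Real.pi * Complex.I / p) = ε at h hprim
  have hprod : (p : ℂ) = ∏ μ ∈ primitiveRoots p ℂ, (1 - μ) := by
    have h1 := Polynomial.cyclotomic_eq_prod_X_sub_primitiveRoots hprim
    have h2 := congrArg (Polynomial.eval 1) h1
    rw [Polynomial.eval_one_cyclotomic_prime, Polynomial.eval_prod] at h2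
    simpa using h2
  have hc : ∀ μ ∈ primitiveRoots p ℂ, IsIntegral ℤ ((1 - ε) / (1 - μ)) ∧
      (1 - μ) * ((1 - ε) / (1 - μ)) = 1 - ε := by
    intro μ hμ
    have hμ' : IsPrimitiveRoot μ p := (mem_primitiveRoots hp.pos).mp hμ
    have hne : (1 : ℂ) - μ ≠ 0 := by
      intro h0
      have h00 : μ = 1 := (sub_eq_zero.mp h0).symm
      exact hμ'.ne_one hp.one_lt h00
    obtain ⟨i, _, hi⟩ := hμ'.eq_pow_of_pow_eq_one hprim.pow_eq_one
    have h3 : 1 - ε = (1 - μ) * ∑ j ∈ Finset.range i, μ ^ j := by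
      rw [mul_neg_geom_sum, hi]
    constructor
    · rw [h3, mul_div_cancel_left₀ _ hne]
      apply IsIntegral.sum
      intro j _
      exact (hμ'.isIntegral hp.pos).pow j
    · rw [mul_div_cancel₀ _ hne]
  have hpow : (1 - ε) ^ (p - 1) = (p : ℂ) * ∏ μ ∈ primitiveRoots p ℂ, ((1 - ε) / (1 - μ)) := by
    rw [hprod, ← Finset.prod_mul_distrib]
    rw [Finset.prod_congr rfl (fun μ hμ => (hc μ hμ).2)]
    rw [Finset.prod_const, hprim.card_primitiveRoots, Nat.totient_prime hp]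
  have hint : IsIntegral ℤ ((∏ μ ∈ primitiveRoots p ℂ, ((1 - ε) / (1 - μ))) * ω ^ (p - 1)) :=
    (IsIntegral.prod _ (fun μ hμ => (hc μ hμ).1)).mul (hω.pow _)
  have heq : ((n : ℂ)) ^ (p - 1) =
      (p : ℂ) * ((∏ μ ∈ primitiveRoots p ℂ, ((1 - ε) / (1 - μ))) * ω ^ (p - 1)) := by
    rw [h, mul_pow, hpow]; ring
  generalize (∏ μ ∈ primitiveRoots p ℂ, ((1 - ε) / (1 - μ))) * ω ^ (p - 1) = β at hint heq
  have hpne : (p : ℂ) ≠ 0 := Nat.cast_ne_zero.mpr hp.ne_zero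
  have hβr : β = algebraMap ℚ ℂ (((n ^ (p - 1) : ℤ) : ℚ) / (p : ℚ)) := by
    have e1 : algebraMap ℚ ℂ (((n ^ (p - 1) : ℤ) : ℚ) / (p : ℚ)) = (n : ℂ) ^ (p - 1) / (p : ℂ) := by
      simp
    rw [e1, heq, mul_div_cancel_left₀ _ hpne]
  rw [hβr] at hint
  have hint' : IsIntegral ℤ (((n ^ (p - 1) : ℤ) : ℚ) / (p : ℚ)) :=
    (isIntegral_algebraMap_iff (algebraMap ℚ ℂ).injective).mp hint
  obtain ⟨y, hy⟩ := IsIntegrallyClosed.isIntegral_iff.mp hint'
  have hdvd : (p : ℤ) ∣ n ^ (p - 1) := by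
    refine ⟨y, ?_⟩
    have hpq : (p : ℚ) ≠ 0 := Nat.cast_ne_zero.mpr hp.ne_zero
    have h5 : ((n ^ (p - 1) : ℤ) : ℚ) = (p : ℚ) * (y : ℚ) := by
      have hy' : (y : ℚ) = ((n ^ (p - 1) : ℤ) : ℚ) / (p : ℚ) := by simpa using hy
      rw [hy', mul_div_cancel₀ _ hpq]
    exact_mod_cast h5
  exact Int.Prime.dvd_pow' hp hdvd

end Cfsg.Agent.S1495
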