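import Cfsg.Statements.S1497
import Mathlib
import Cfsg.Agent.Lib.Lead.SylowAux2

set_option autoImplicit false
open Cfsg Cfsg.Agent.Lib.Lead

namespace Cfsg.Agent.S1497

open scoped Pointwise commutatorElement

/-- Let A be a nonempty subset of the finite group G not containing 1 and L a subgroup. Then A is a TI-subset whose normaliser is L if and only if the Dade hypothesis holds for A, L and the constant choice H(a) = ⊥. -/
theorem result {G : Type*} [Group G] [Finite G] (A : Set G) (hA : A.Nonempty) (h1 : (1 : G) ∉ A) (L : Subgroup G) : (Cfsg.IsTISubset A ∧ Subgroup.normalizer A = L) ↔ Cfsg.DadeHypothesis A L (fun _ => ⊥) := by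
  constructor
  · rintro ⟨hTI, hN⟩
    have hmemL : ∀ g : G, (∃ a ∈ A, g * a * g⁻¹ ∈ A) → g ∈ L := by
      rintro g ⟨a, ha, hga⟩
      rw [← hN]
      by_contra hg
      have := hTI g hg a ha hga
      rw [this] at ha
      exact h1 ha
    have hconj : ∀ x ∈ L, ∀ a ∈ A, x * a * x⁻¹ ∈ A := by
      intro x hx a ha
      rw [← hN, Subgroup.mem_set_normalizer_iff] at hx
      exact (hx a).mp ha
    refine ⟨h1, ?_, hconj, ?_, ?_, ?_, ?_, ?_, ?_⟩
    · intro a ha
      apply hmemL a ⟨a, ha, ?_⟩
      have : a * a * a⁻¹ = a := by group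
      rw [this]; exact ha
    · intro a ha g hga
      exact ⟨g, hmemL g ⟨a, ha, hga⟩, rfl⟩
    · intro a ha; exact bot_le
    · intro a ha c hc u hu
      beta_reduce at hu ⊢
      rw [Subgroup.mem_bot] at hu ⊢
      rw [hu]; group
    · intro a ha; beta_reduce; exact bot_inf_eq _
    · intro a ha
      beta_reduce
      rw [bot_sup_eq]
      apply inf_eq_right.mpr
      intro c hc
      apply hmemL c ⟨a, ha, ?_⟩
      rw [Subgroup.mem_centralizer_iff] at hc
      have h2 := hc a rfl
      have : c * a * c⁻¹ = a := by rw [← h2]; group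
      rw [this]; exact ha
    · intro a ha b hb
      beta_reduce
      rw [Subgroup.card_bot]; exact Nat.coprime_one_left _
  · intro hD
    have hmemL : ∀ g : G, ∀ a ∈ A, g * a * g⁻¹ ∈ A → g ∈ L := by
      intro g a ha hga
      obtain ⟨x, hx, hxa⟩ := hD.fusion a ha g hga
      have hc : x⁻¹ * g ∈ Subgroup.centralizer ({a} : Set G) := by
        rw [Subgroup.mem_centralizer_iff]
        intro z hz
        rw [Set.mem_singleton_iff] at hz
        subst hz
        have : x⁻¹ * g * z = x⁻¹ * (g * z * g⁻¹) * g := by group
        rw [this, ← hxa]; group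
      have hs := hD.sup_eq a ha
      beta_reduce at hs
      rw [bot_sup_eq] at hs
      rw [← hs] at hc
      have := L.mul_mem hx hc.1
      simpa using this
    have hNL : Subgroup.normalizer A = L := by
      apply le_antisymm
      · intro g hg
        obtain ⟨a, ha⟩ := hA
        rw [Subgroup.mem_set_normalizer_iff] at hg
        exact hmemL g a ha ((hg a).mp ha)
      · intro x hx
        rw [Subgroup.mem_set_normalizer_iff]
        intro n
        constructor
        · intro hn; exact hD.conj_mem x hx n hn
        · intro hn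
          have := hD.conj_mem x⁻¹ (L.inv_mem hx) _ hn
          simpa [mul_assoc] using this
    refine ⟨?_, hNL⟩
    intro g hg x hx hgx
    exact absurd (hNL ▸ hmemL g x hx hgx) hg

end Cfsg.Agent.S1497
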