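import Cfsg.Statements.S1498
import Mathlib
import Cfsg.Agent.Lib.Lead.SylowAux2
import Cfsg.Agent.Lib.Lead.HallNormal

set_option autoImplicit false
open Cfsg Cfsg.Agent.Lib.Lead

namespace Cfsg.Agent.S1498

open scoped Pointwise commutatorElement

/-- Under the Dade hypothesis for (A, L, H): for a ∈ A and x ∈ L, the subgroup attached to x * a * x⁻¹ is the conjugate of H a by x. -/
theorem result {G : Type*} [Group G] [Finite G] (A : Set G) (L : Subgroup G) (H : G → Subgroup G) (hD : Cfsg.DadeHypothesis A L H) (a : G) (ha : a ∈ A) (x : G) (hx : x ∈ L) : H (x * a * x⁻¹) = (H a).map (MulAut.conj x).toMonoidHom := by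
  have key : ∀ a ∈ A, ∀ x ∈ L, ∀ u ∈ H (x * a * x⁻¹), x⁻¹ * u * x ∈ H a := by
    intro a ha x hx u hu
    have hb : x * a * x⁻¹ ∈ A := hD.conj_mem x hx a ha
    have huC : u ∈ Subgroup.centralizer ({x * a * x⁻¹} : Set G) := hD.le_centralizer _ hb hu
    have hvC : x⁻¹ * u * x ∈ Subgroup.centralizer ({a} : Set G) := by
      rw [Subgroup.mem_centralizer_iff] at huC ⊢
      intro z hz
      rw [Set.mem_singleton_iff] at hz
      subst hz
      have h1 := huC _ rfl
      calc z * (x⁻¹ * u * x) = x⁻¹ * ((x * z * x⁻¹) * u) * x := by group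
        _ = x⁻¹ * (u * (x * z * x⁻¹)) * x := by rw [h1]
        _ = x⁻¹ * u * x * z := by group
    apply mem_of_coprime_relIndex (H a) (Subgroup.centralizer {a}) (hD.conj_mem_H a ha) _ hvC
    have hrel : (H a).relIndex (Subgroup.centralizer ({a} : Set G)) =
        Nat.card ↥(L ⊓ Subgroup.centralizer ({a} : Set G)) :=
      relIndex_of_complement (H a) (L ⊓ Subgroup.centralizer ({a} : Set G)) _
        (fun c hc u hu => hD.conj_mem_H a ha c hc.2 u hu) (hD.inf_eq_bot a ha) (hD.sup_eq a ha)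
    rw [hrel]
    have hord : orderOf (x⁻¹ * u * x) = orderOf u := by
      have := orderOf_conj_eq x⁻¹ u
      rwa [inv_inv] at this
    rw [hord]
    exact Nat.Coprime.coprime_dvd_left (Subgroup.orderOf_dvd_natCard _ hu) (hD.coprime _ hb a ha)
  apply le_antisymm
  · intro u hu
    rw [Subgroup.mem_map]
    refine ⟨x⁻¹ * u * x, key a ha x hx u hu, ?_⟩
    show x * (x⁻¹ * u * x) * x⁻¹ = u
    group
  · rintro u ⟨v, hv, rfl⟩
    have hb : x * a * x⁻¹ ∈ A := hD.conj_mem x hx a ha
    have e : x⁻¹ * (x * a * x⁻¹) * x⁻¹⁻¹ = a := by group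
    have := key (x * a * x⁻¹) hb x⁻¹ (L.inv_mem hx) v (by rw [e]; exact hv)
    rw [inv_inv] at this
    exact this

end Cfsg.Agent.S1498
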