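import Cfsg.Statements.S1504
import Mathlib
-- import your own Cfsg.Agent.* helpers here

set_option autoImplicit false
open Cfsg

namespace Cfsg.Agent.S1504


theorem sum_char_eq_zero {W : Type*} [Group W] [Fintype W] (θ : W →* ℂˣ) (hθ : θ ≠ 1) :
    ∑ w : W, ((θ w : ℂˣ) : ℂ) = 0 := by
  obtain ⟨w₀, hw₀⟩ : ∃ w₀, θ w₀ ≠ 1 := by
    by_contra h
    push_neg at h
    exact hθ (MonoidHom.ext h)
  have h1 : ∑ w : W, ((θ (w₀ * w) : ℂˣ) : ℂ) = ∑ w : W, ((θ w : ℂˣ) : ℂ) :=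
    Fintype.sum_equiv (Equiv.mulLeft w₀) _ _ (fun w => rfl)
  have h2 : ∑ w : W, ((θ (w₀ * w) : ℂˣ) : ℂ) =
      ((θ w₀ : ℂˣ) : ℂ) * ∑ w : W, ((θ w : ℂˣ) : ℂ) := by
    rw [Finset.mul_sum]
    apply Finset.sum_congr rfl
    intro w _
    rw [map_mul, Units.val_mul]
  have h3 : (((θ w₀ : ℂˣ) : ℂ) - 1) * ∑ w : W, ((θ w : ℂˣ) : ℂ) = 0 := by
    rw [sub_mul, one_mul, ← h2, h1, sub_self]
  rcases mul_eq_zero.mp h3 with h | h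
  · exfalso
    apply hw₀
    apply Units.ext
    rw [Units.val_one]
    exact sub_eq_zero.mp h
  · exact h

theorem hom_ext_sup {G : Type*} [Group G] (W₁ W₂ : Subgroup G) (α β : ↥(W₁ ⊔ W₂) →* ℂˣ)
    (h1 : ∀ w : ↥(W₁ ⊔ W₂), (w : G) ∈ W₁ → α w = β w)
    (h2 : ∀ w : ↥(W₁ ⊔ W₂), (w : G) ∈ W₂ → α w = β w) : α = β := by
  have hle : W₁ ⊔ W₂ ≤ (MonoidHom.eqLocus α β).map (Subgroup.subtype (W₁ ⊔ W₂)) := by
    apply sup_le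
    · intro a ha
      exact ⟨⟨a, (le_sup_left : W₁ ≤ W₁ ⊔ W₂) ha⟩, h1 _ ha, rfl⟩
    · intro a ha
      exact ⟨⟨a, (le_sup_right : W₂ ≤ W₁ ⊔ W₂) ha⟩, h2 _ ha, rfl⟩
  apply MonoidHom.ext
  intro w
  obtain ⟨w', hw', hww⟩ := hle w.2
  have : w' = w := Subtype.ext hww
  rw [← this]
  exact hw'

/-- Let W₁, W₂ be subgroups of a finite group with W₁ ⊓ W₂ = ⊥ whose elements commute, and W = W₁ ⊔ W₂. For linear characters φ, ψ of W with φ trivial on W₂ and ψ trivial on W₁, the function (1 − φ)(1 − ψ) vanishes on W₁ ∪ W₂; and the family of these functions, indexed by pairs (φ, ψ) with φ ≠ 1 ≠ ψ, is linearly independent over ℂ. -/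
theorem result {G : Type*} [Group G] [Finite G] (W₁ W₂ : Subgroup G) (hdisj : W₁ ⊓ W₂ = ⊥) (hcomm : ∀ a ∈ W₁, ∀ b ∈ W₂, a * b = b * a) : (∀ φ ψ : ↥(W₁ ⊔ W₂) →* ℂˣ, (∀ w : ↥(W₁ ⊔ W₂), (w : G) ∈ W₂ → φ w = 1) → (∀ w : ↥(W₁ ⊔ W₂), (w : G) ∈ W₁ → ψ w = 1) → ∀ w : ↥(W₁ ⊔ W₂), ((w : G) ∈ W₁ ∨ (w : G) ∈ W₂) → (1 - (φ w : ℂ) - (ψ w : ℂ) + (φ w : ℂ) * (ψ w : ℂ)) = 0) ∧ LinearIndependent ℂ (fun p : {p : (↥(W₁ ⊔ W₂) →* ℂˣ) × (↥(W₁ ⊔ W₂) →* ℂˣ) // p.1 ≠ 1 ∧ p.2 ≠ 1 ∧ (∀ w : ↥(W₁ ⊔ W₂), (w : G) ∈ W₂ → p.1 w = 1) ∧ (∀ w : ↥(W₁ ⊔ W₂), (w : G) ∈ W₁ → p.2 w = 1)} => fun w : ↥(W₁ ⊔ W₂) => 1 - (p.1.1 w : ℂ) - (p.1.2 w : ℂ) + (p.1.1 w : ℂ) * (p.1.2 w : ℂ)) := by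
  classical
  letI : Fintype ↥(W₁ ⊔ W₂) := Fintype.ofFinite _
  constructor
  · rintro φ ψ hφ hψ w (h | h)
    · rw [hψ w h, Units.val_one]
      ring
    · rw [hφ w h, Units.val_one]
      ring
  · rw [linearIndependent_iff']
    intro s g hsum i₀ hi₀
    obtain ⟨⟨φ₀, ψ₀⟩, hφ₀, hψ₀, hφ₀2, hψ₀1⟩ := i₀
    -- the four facts about characters
    have ha : φ₀ * ψ₀ ≠ 1 := by
      intro h
      apply hφ₀
      apply hom_ext_sup W₁ W₂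
      · intro w hw
        have h1 : (φ₀ * ψ₀) w = 1 := by rw [h]; rfl
        rw [MonoidHom.mul_apply, hψ₀1 w hw, mul_one] at h1
        rw [h1]
        rfl
      · intro w hw
        rw [hφ₀2 w hw]
        rfl
    have hL : ∀ i : {p : (↥(W₁ ⊔ W₂) →* ℂˣ) × (↥(W₁ ⊔ W₂) →* ℂˣ) // p.1 ≠ 1 ∧ p.2 ≠ 1 ∧
        (∀ w : ↥(W₁ ⊔ W₂), (w : G) ∈ W₂ → p.1 w = 1) ∧
        (∀ w : ↥(W₁ ⊔ W₂), (w : G) ∈ W₁ → p.2 w = 1)},
        ∑ w : ↥(W₁ ⊔ W₂), (1 - (i.1.1 w : ℂ) - (i.1.2 w : ℂ) + (i.1.1 w : ℂ) * (i.1.2 w : ℂ)) *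
          (((φ₀ * ψ₀)⁻¹ w : ℂˣ) : ℂ) =
        if i = ⟨⟨φ₀, ψ₀⟩, hφ₀, hψ₀, hφ₀2, hψ₀1⟩ then (Fintype.card ↥(W₁ ⊔ W₂) : ℂ) else 0 := by
      rintro ⟨⟨φ, ψ⟩, hφ, hψ, hφ2, hψ1⟩
      have hb : φ * (φ₀ * ψ₀)⁻¹ ≠ 1 := by
        intro h
        have h' : φ = φ₀ * ψ₀ := mul_inv_eq_one.mp h
        apply hψ₀
        apply hom_ext_sup W₁ W₂
        · intro w hw
          rw [hψ₀1 w hw]
          rfl
        · intro w hw
          have h1 : φ w = (φ₀ * ψ₀) w := by rw [h']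
          rw [MonoidHom.mul_apply, hφ2 w hw, hφ₀2 w hw, one_mul] at h1
          rw [← h1]
          rfl
      have hc : ψ * (φ₀ * ψ₀)⁻¹ ≠ 1 := by
        intro h
        have h' : ψ = φ₀ * ψ₀ := mul_inv_eq_one.mp h
        apply hφ₀
        apply hom_ext_sup W₁ W₂
        · intro w hw
          have h1 : ψ w = (φ₀ * ψ₀) w := by rw [h']
          rw [MonoidHom.mul_apply, hψ1 w hw, hψ₀1 w hw, mul_one] at h1
          rw [← h1]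
          rfl
        · intro w hw
          rw [hφ₀2 w hw]
          rfl
      have ha' : (φ₀ * ψ₀)⁻¹ ≠ 1 := fun h => ha (MonoidHom.ext (fun w => by
        have h2 := DFunLike.congr_fun h w
        rw [MonoidHom.inv_apply, MonoidHom.one_apply, inv_eq_one] at h2
        rw [h2]
        rfl))
      have hsplit : ∑ w : ↥(W₁ ⊔ W₂), (1 - (φ w : ℂ) - (ψ w : ℂ) + (φ w : ℂ) * (ψ w : ℂ)) *
          (((φ₀ * ψ₀)⁻¹ w : ℂˣ) : ℂ) =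
          ∑ w : ↥(W₁ ⊔ W₂), (((φ₀ * ψ₀)⁻¹ w : ℂˣ) : ℂ)
          - ∑ w : ↥(W₁ ⊔ W₂), (((φ * (φ₀ * ψ₀)⁻¹) w : ℂˣ) : ℂ)
          - ∑ w : ↥(W₁ ⊔ W₂), (((ψ * (φ₀ * ψ₀)⁻¹) w : ℂˣ) : ℂ)
          + ∑ w : ↥(W₁ ⊔ W₂), (((φ * ψ * (φ₀ * ψ₀)⁻¹) w : ℂˣ) : ℂ) := by
        rw [← Finset.sum_sub_distrib, ← Finset.sum_sub_distrib, ← Finset.sum_add_distrib]
        apply Finset.sum_congr rfl
        intro w _
        simp only [MonoidHom.mul_apply, Units.val_mul]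
        ring
      show ∑ w : ↥(W₁ ⊔ W₂), (1 - (φ w : ℂ) - (ψ w : ℂ) + (φ w : ℂ) * (ψ w : ℂ)) *
          (((φ₀ * ψ₀)⁻¹ w : ℂˣ) : ℂ) = _
      rw [hsplit, sum_char_eq_zero _ ha', sum_char_eq_zero _ hb, sum_char_eq_zero _ hc]
      by_cases hi : (⟨⟨φ, ψ⟩, hφ, hψ, hφ2, hψ1⟩ : {p : (↥(W₁ ⊔ W₂) →* ℂˣ) × (↥(W₁ ⊔ W₂) →* ℂˣ) //
          p.1 ≠ 1 ∧ p.2 ≠ 1 ∧ (∀ w : ↥(W₁ ⊔ W₂), (w : G) ∈ W₂ → p.1 w = 1) ∧
          (∀ w : ↥(W₁ ⊔ W₂), (w : G) ∈ W₁ → p.2 w = 1)}) = ⟨⟨φ₀, ψ₀⟩, hφ₀, hψ₀, hφ₀2, hψ₀1⟩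
      · rw [if_pos hi]
        have h1 : φ = φ₀ := congrArg (fun q => q.1.1) hi
        have h2 : ψ = ψ₀ := congrArg (fun q => q.1.2) hi
        rw [h1, h2]
        have h3 : ∀ w : ↥(W₁ ⊔ W₂), ((φ₀ * ψ₀ * (φ₀ * ψ₀)⁻¹) w : ℂˣ) = 1 := fun w => by
          rw [MonoidHom.mul_apply, MonoidHom.inv_apply, mul_inv_cancel]
        simp [h3]
      · rw [if_neg hi]
        have hd : φ * ψ * (φ₀ * ψ₀)⁻¹ ≠ 1 := by
          intro h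
          have h' : φ * ψ = φ₀ * ψ₀ := mul_inv_eq_one.mp h
          apply hi
          have e1 : φ = φ₀ := by
            apply hom_ext_sup W₁ W₂
            · intro w hw
              have h1 : (φ * ψ) w = (φ₀ * ψ₀) w := by rw [h']
              rw [MonoidHom.mul_apply, MonoidHom.mul_apply, hψ1 w hw, hψ₀1 w hw, mul_one,
                mul_one] at h1
              exact h1
            · intro w hw
              rw [hφ2 w hw, hφ₀2 w hw]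
          have e2 : ψ = ψ₀ := by
            apply hom_ext_sup W₁ W₂
            · intro w hw
              rw [hψ1 w hw, hψ₀1 w hw]
            · intro w hw
              have h1 : (φ * ψ) w = (φ₀ * ψ₀) w := by rw [h']
              rw [MonoidHom.mul_apply, MonoidHom.mul_apply, hφ2 w hw, hφ₀2 w hw, one_mul,
                one_mul] at h1
              exact h1
          subst e1
          subst e2
          rfl
        rw [sum_char_eq_zero _ hd]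
        ring
    have hkey : ∑ w : ↥(W₁ ⊔ W₂), (∑ i ∈ s, g i • (fun w : ↥(W₁ ⊔ W₂) =>
        1 - (i.1.1 w : ℂ) - (i.1.2 w : ℂ) + (i.1.1 w : ℂ) * (i.1.2 w : ℂ))) w *
          (((φ₀ * ψ₀)⁻¹ w : ℂˣ) : ℂ) = 0 := by
      rw [hsum]
      simp
    simp only [Finset.sum_apply, Pi.smul_apply, smul_eq_mul, Finset.sum_mul] at hkey
    rw [Finset.sum_comm] at hkey
    have hkey2 : ∑ i ∈ s, g i * (if i = ⟨⟨φ₀, ψ₀⟩, hφ₀, hψ₀, hφ₀2, hψ₀1⟩ then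
        (Fintype.card ↥(W₁ ⊔ W₂) : ℂ) else 0) = 0 := by
      refine Eq.trans ?_ hkey
      apply Finset.sum_congr rfl
      intro i _
      rw [← hL i, Finset.mul_sum]
      apply Finset.sum_congr rfl
      intro w _
      ring
    simp only [mul_ite, mul_zero] at hkey2
    rw [Finset.sum_ite_eq' s, if_pos hi₀] at hkey2
    rcases mul_eq_zero.mp hkey2 with h | h
    · exact h
    · exfalso
      exact Fintype.card_ne_zero (Nat.cast_eq_zero.mp h)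

end Cfsg.Agent.S1504
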