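import Cfsg.Statements.S1506
import Mathlib
import Cfsg.Agent.Lib.Lead.SylowAux2
import Cfsg.Agent.Lib.Lead.CharInd
import Cfsg.Agent.Lib.Lead.CharOrtho

set_option autoImplicit false
open Cfsg Cfsg.Agent.Lib.Lead

namespace Cfsg.Agent.S1506

open scoped Pointwise commutatorElement

/-- Let W₁, W₂ ≤ G form a self-normalising cyclic subgroup W = W₁ ⊔ W₂ and χ an orthonormal family of irreducible characters of G up to sign, indexed by the linear characters ω of W, with χ_1 = 1, χ_ω = ω on W outside W₁ ∪ W₂, and the induction identity for (1 − φ)(1 − ψ). Let θ be a class function of G vanishing at every element of W outside W₁ ∪ W₂. For linear characters φ, φ' of W trivial on W₂ and ψ, ψ' trivial on W₁, the inner products a(ω) = ⟨θ, χ ω⟩ satisfy a(φψ) + a(φ'ψ') = a(φψ') + a(φ'ψ). -/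
theorem result {G : Type*} [Group G] [Fintype G] (W₁ W₂ : Subgroup G) (hW : Cfsg.IsSelfNormalizingCyclic W₁ W₂) (χ : (↥(W₁ ⊔ W₂) →* ℂˣ) → (G → ℂ)) (hχ : Cfsg.IsCyclicTIFamily W₁ W₂ χ) (θ : G → ℂ) (hθ : Cfsg.IsClassFunction G θ) (hθV : ∀ w : ↥(W₁ ⊔ W₂), (w : G) ∉ W₁ → (w : G) ∉ W₂ → θ w = 0) (φ φ' ψ ψ' : ↥(W₁ ⊔ W₂) →* ℂˣ) (hφ₂ : ∀ w : ↥(W₁ ⊔ W₂), (w : G) ∈ W₂ → φ w = 1 ∧ φ' w = 1) (hψ₁ : ∀ w : ↥(W₁ ⊔ W₂), (w : G) ∈ W₁ → ψ w = 1 ∧ ψ' w = 1) : Cfsg.classInner θ (χ (φ * ψ)) + Cfsg.classInner θ (χ (φ' * ψ')) = Cfsg.classInner θ (χ (φ * ψ')) + Cfsg.classInner θ (χ (φ' * ψ)) := by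
  classical
  haveI : Fintype ↥(W₁ ⊔ W₂) := Fintype.ofFinite _
  have key : ∀ φ ψ : ↥(W₁ ⊔ W₂) →* ℂˣ, (∀ w : ↥(W₁ ⊔ W₂), (w : G) ∈ W₂ → φ w = 1) →
      (∀ w : ↥(W₁ ⊔ W₂), (w : G) ∈ W₁ → ψ w = 1) →
      Cfsg.classInner θ (χ (φ * ψ)) = Cfsg.classInner θ (χ φ) + Cfsg.classInner θ (χ ψ) -
        Cfsg.classInner θ (χ 1) := by
    intro φ ψ h2 h1
    by_cases hφ : φ = 1
    · subst hφ
      have e : (1 : ↥(W₁ ⊔ W₂) →* ℂˣ) * ψ = ψ := by ext w; simp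
      rw [e]; ring
    by_cases hψ : ψ = 1
    · subst hψ
      have e : φ * (1 : ↥(W₁ ⊔ W₂) →* ℂˣ) = φ := by ext w; simp
      rw [e]; ring
    have hind := hχ.induced_eq φ ψ hφ hψ h2 h1
    have hfun : (fun g => 1 - χ φ g - χ ψ g + χ (φ * ψ) g) = χ 1 - χ φ - χ ψ + χ (φ * ψ) := by
      rw [hχ.map_one]; rfl
    rw [hfun] at hind
    have h0 : Cfsg.classInner (Cfsg.indFun (W₁ ⊔ W₂)
        (fun w => 1 - (φ w : ℂ) - (ψ w : ℂ) + (φ w : ℂ) * (ψ w : ℂ))) θ = 0 := by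
      rw [frobenius_reciprocity _ _ _ hθ]
      unfold Cfsg.classInner
      rw [Finset.sum_eq_zero, mul_zero]
      intro w _
      beta_reduce
      by_cases hw1 : (w : G) ∈ W₁
      · rw [h1 w hw1]; simp
      by_cases hw2 : (w : G) ∈ W₂
      · rw [h2 w hw2]; simp
      rw [hθV w hw1 hw2]; simp
    rw [hind] at h0
    have h3 := classInner_conj_symm (χ 1 - χ φ - χ ψ + χ (φ * ψ)) θ
    rw [h0, map_zero] at h3
    rw [classInner_add_right, classInner_sub_right, classInner_sub_right] at h3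
    linear_combination -h3
  have e1 := key φ ψ (fun w hw => (hφ₂ w hw).1) (fun w hw => (hψ₁ w hw).1)
  have e2 := key φ' ψ' (fun w hw => (hφ₂ w hw).2) (fun w hw => (hψ₁ w hw).2)
  have e3 := key φ ψ' (fun w hw => (hφ₂ w hw).1) (fun w hw => (hψ₁ w hw).2)
  have e4 := key φ' ψ (fun w hw => (hφ₂ w hw).2) (fun w hw => (hψ₁ w hw).1)
  rw [e1, e2, e3, e4]; ring

end Cfsg.Agent.S1506
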