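import Cfsg.Statements.S1509
import Mathlib
import Cfsg.Agent.Lib.Lead.SylowAux2
import Cfsg.Agent.Lib.Lead.CharOrtho
import Cfsg.Agent.Lib.Lead.CharCount

set_option autoImplicit false
open Cfsg Cfsg.Agent.Lib.Lead

namespace Cfsg.Agent.S1509

open scoped Pointwise commutatorElement

/-- Let α, β, γ, δ be functions on a finite group X each of which is an irreducible character or the negative of one, and u, v nonzero real numbers. Suppose ⟨α, β⟩ = ⟨γ, δ⟩ = 0, ⟨α − β, uγ − vδ⟩ = 0, α 1 = β 1 and u γ 1 = v δ 1. Then also ⟨α, γ⟩ = ⟨α, δ⟩ = ⟨β, γ⟩ = ⟨β, δ⟩ = 0. -/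
theorem result {X : Type*} [Group X] [Fintype X] (α β γ δ : X → ℂ) (hα : Cfsg.IsIrrCharacter X α ∨ Cfsg.IsIrrCharacter X (-α)) (hβ : Cfsg.IsIrrCharacter X β ∨ Cfsg.IsIrrCharacter X (-β)) (hγ : Cfsg.IsIrrCharacter X γ ∨ Cfsg.IsIrrCharacter X (-γ)) (hδ : Cfsg.IsIrrCharacter X δ ∨ Cfsg.IsIrrCharacter X (-δ)) (u v : ℝ) (hu : u ≠ 0) (hv : v ≠ 0) (hab : Cfsg.classInner α β = 0) (hcd : Cfsg.classInner γ δ = 0) (hmix : Cfsg.classInner (α - β) ((u : ℂ) • γ - (v : ℂ) • δ) = 0) (h1 : α 1 = β 1) (h2 : (u : ℂ) * γ 1 = (v : ℂ) * δ 1) : Cfsg.classInner α γ = 0 ∧ Cfsg.classInner α δ = 0 ∧ Cfsg.classInner β γ = 0 ∧ Cfsg.classInner β δ = 0 := by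
  classical
  have L : ∀ f g : X → ℂ, (Cfsg.IsIrrCharacter X f ∨ Cfsg.IsIrrCharacter X (-f)) →
      (Cfsg.IsIrrCharacter X g ∨ Cfsg.IsIrrCharacter X (-g)) → Cfsg.classInner f g ≠ 0 →
      f = Cfsg.classInner f g • g := by
    intro f g hf hg hne
    obtain ⟨f₀, s, hf₀, hs, rfl⟩ : ∃ (f₀ : X → ℂ) (s : ℂ), Cfsg.IsIrrCharacter X f₀ ∧
        (s = 1 ∨ s = -1) ∧ f = s • f₀ := by
      rcases hf with hf | hf
      · exact ⟨f, 1, hf, Or.inl rfl, (one_smul _ _).symm⟩
      · exact ⟨-f, -1, hf, Or.inr rfl, by simp⟩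
    obtain ⟨g₀, t, hg₀, ht, rfl⟩ : ∃ (g₀ : X → ℂ) (t : ℂ), Cfsg.IsIrrCharacter X g₀ ∧
        (t = 1 ∨ t = -1) ∧ g = t • g₀ := by
      rcases hg with hg | hg
      · exact ⟨g, 1, hg, Or.inl rfl, (one_smul _ _).symm⟩
      · exact ⟨-g, -1, hg, Or.inr rfl, by simp⟩
    rw [classInner_smul_left, classInner_smul_right, classInner_irr hf₀ hg₀] at hne ⊢
    by_cases h : f₀ = g₀
    · subst h
      rw [if_pos rfl, smul_smul]
      have h3 : s * ((starRingEnd ℂ) t * 1) * t = s := by
        rcases ht with rfl | rfl <;> simp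
      rw [h3]
    · rw [if_neg h] at hne
      simp at hne
  have hd1 : δ 1 ≠ 0 := by
    rcases hδ with h | h
    · obtain ⟨n, hn, hn'⟩ := irr_one h
      rw [hn']
      exact_mod_cast hn
    · obtain ⟨n, hn, hn'⟩ := irr_one h
      intro h0
      have h3 : (-δ) 1 = 0 := by simp [h0]
      rw [hn'] at h3
      exact hn (by exact_mod_cast h3)
  have hba : Cfsg.classInner β α = 0 := by rw [← classInner_conj_symm, hab, map_zero]
  have hdc : Cfsg.classInner δ γ = 0 := by rw [← classInner_conj_symm, hcd, map_zero]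
  have hexp : (u : ℂ) * Cfsg.classInner α γ - (v : ℂ) * Cfsg.classInner α δ -
      (u : ℂ) * Cfsg.classInner β γ + (v : ℂ) * Cfsg.classInner β δ = 0 := by
    rw [classInner_sub_left, classInner_sub_right, classInner_sub_right, classInner_smul_right,
      classInner_smul_right, classInner_smul_right, classInner_smul_right] at hmix
    simp only [Complex.conj_ofReal] at hmix
    linear_combination hmix
  have huv : (u : ℂ) ^ 2 + (v : ℂ) ^ 2 ≠ 0 := by
    have h : (0 : ℝ) < u ^ 2 + v ^ 2 := by positivity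
    exact_mod_cast h.ne'
  have hu' : (u : ℂ) ≠ 0 := by exact_mod_cast hu
  have hv' : (v : ℂ) ≠ 0 := by exact_mod_cast hv
  have hp : Cfsg.classInner α γ = 0 := by
    by_contra hp
    have hα' := L α γ hα hγ hp
    have hq : Cfsg.classInner α δ = 0 := by
      have h3 : Cfsg.classInner (Cfsg.classInner α γ • γ) δ = 0 := by
        rw [classInner_smul_left, hcd, mul_zero]
      rwa [← hα'] at h3
    have hr : Cfsg.classInner β γ = 0 := by
      have e : γ = (Cfsg.classInner α γ)⁻¹ • (Cfsg.classInner α γ • γ) := by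
        rw [smul_smul, inv_mul_cancel₀ hp, one_smul]
      rw [← hα'] at e
      have h3 : Cfsg.classInner β ((Cfsg.classInner α γ)⁻¹ • α) = 0 := by
        rw [classInner_smul_right, hba, mul_zero]
      rwa [← e] at h3
    rw [hq, hr] at hexp
    have ht : Cfsg.classInner β δ ≠ 0 := by
      intro ht
      rw [ht] at hexp
      simp at hexp
      rcases hexp with h | h
      · exact hu h
      · exact hp h
    have hβ' := L β δ hβ hδ ht
    have h4 : Cfsg.classInner α γ * γ 1 = Cfsg.classInner β δ * δ 1 := by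
      have h5 := congrFun hα' 1
      have h6 := congrFun hβ' 1
      rw [Pi.smul_apply, smul_eq_mul] at h5 h6
      rw [← h5, ← h6, h1]
    have E1 : (Cfsg.classInner α γ * v - u * Cfsg.classInner β δ) * δ 1 = 0 := by
      linear_combination (u : ℂ) * h4 - Cfsg.classInner α γ * h2
    have E1' : Cfsg.classInner α γ * v - u * Cfsg.classInner β δ = 0 := by
      rcases mul_eq_zero.mp E1 with h | h
      · exact h
      · exact absurd h hd1
    have E3 : ((u : ℂ) ^ 2 + (v : ℂ) ^ 2) * Cfsg.classInner β δ = 0 := by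
      linear_combination (-(u : ℂ)) * E1' + (v : ℂ) * hexp
    rcases mul_eq_zero.mp E3 with h | h
    · exact huv h
    · exact ht h
  have hq : Cfsg.classInner α δ = 0 := by
    by_contra hq
    have hα' := L α δ hα hδ hq
    have ht : Cfsg.classInner β δ = 0 := by
      have e : δ = (Cfsg.classInner α δ)⁻¹ • (Cfsg.classInner α δ • δ) := by
        rw [smul_smul, inv_mul_cancel₀ hq, one_smul]
      rw [← hα'] at e
      have h3 : Cfsg.classInner β ((Cfsg.classInner α δ)⁻¹ • α) = 0 := by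
        rw [classInner_smul_right, hba, mul_zero]
      rwa [← e] at h3
    rw [hp, ht] at hexp
    have hr : Cfsg.classInner β γ ≠ 0 := by
      intro hr
      rw [hr] at hexp
      simp at hexp
      rcases hexp with h | h
      · exact hv h
      · exact hq h
    have hβ' := L β γ hβ hγ hr
    have h4 : Cfsg.classInner α δ * δ 1 = Cfsg.classInner β γ * γ 1 := by
      have h5 := congrFun hα' 1
      have h6 := congrFun hβ' 1
      rw [Pi.smul_apply, smul_eq_mul] at h5 h6
      rw [← h5, ← h6, h1]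
    have E1 : (u * Cfsg.classInner α δ - Cfsg.classInner β γ * v) * δ 1 = 0 := by
      linear_combination (u : ℂ) * h4 + Cfsg.classInner β γ * h2
    have E1' : u * Cfsg.classInner α δ - Cfsg.classInner β γ * v = 0 := by
      rcases mul_eq_zero.mp E1 with h | h
      · exact h
      · exact absurd h hd1
    have E3 : ((u : ℂ) ^ 2 + (v : ℂ) ^ 2) * Cfsg.classInner β γ = 0 := by
      linear_combination (-(v : ℂ)) * E1' - (u : ℂ) * hexp
    rcases mul_eq_zero.mp E3 with h | h
    · exact huv h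
    · exact hr h
  rw [hp, hq] at hexp
  have hr : Cfsg.classInner β γ = 0 := by
    by_contra hr
    have hβ' := L β γ hβ hγ hr
    have ht : Cfsg.classInner β δ = 0 := by
      have h3 : Cfsg.classInner (Cfsg.classInner β γ • γ) δ = 0 := by
        rw [classInner_smul_left, hcd, mul_zero]
      rwa [← hβ'] at h3
    rw [ht] at hexp
    simp at hexp
    rcases hexp with h | h
    · exact hu h
    · exact hr h
  have ht : Cfsg.classInner β δ = 0 := by
    by_contra ht
    have hβ' := L β δ hβ hδ ht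
    rw [hr] at hexp
    simp at hexp
    rcases hexp with h | h
    · exact hv h
    · exact ht h
  exact ⟨hp, hq, hr, ht⟩

end Cfsg.Agent.S1509
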