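import Cfsg.Statements.S1512
import Mathlib
import Cfsg.Agent.Lib.Lead.SylowAux2
import Cfsg.Agent.Lib.Lead.GlaubClass

set_option autoImplicit false
open Cfsg Cfsg.Agent.Lib.Lead

namespace Cfsg.Agent.S1512

open scoped Pointwise commutatorElement

/-- Let K be a normal subgroup of the finite group L and x a non-identity element whose order is coprime to the order of K, such that K ⊓ C_L(y) = W₂ for every non-identity element y of the cyclic group generated by x. Then the number of conjugacy classes of K mapped to themselves by conjugation by x is at most Nat.card W₂. -/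
theorem result {L : Type*} [Group L] [Finite L] (K W₂ : Subgroup L) [hK : K.Normal] (x : L) (hx1 : x ≠ 1) (hx : Nat.Coprime (orderOf x) (Nat.card K)) (hC : ∀ y ∈ Subgroup.zpowers x, y ≠ 1 → K ⊓ Subgroup.centralizer ({y} : Set L) = W₂) : Nat.card {C : ConjClasses K // ConjClasses.map (MulEquiv.toMonoidHom ((MulAut.conjNormal x : MulAut K))) C = C} ≤ Nat.card W₂ := by
  have hW : K ⊓ Subgroup.centralizer ({x} : Set L) = W₂ := hC x (Subgroup.mem_zpowers x) hx1
  have key : ∀ C : {C : ConjClasses K // ConjClasses.map (MulEquiv.toMonoidHom ((MulAut.conjNormal x : MulAut K))) C = C}, ∃ w : W₂, ∃ hw : (w : L) ∈ K, ConjClasses.mk (⟨w, hw⟩ : K) = C.1 := by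
    rintro ⟨C, hCfix⟩
    obtain ⟨k, rfl⟩ := ConjClasses.mk_surjective C
    change ConjClasses.mk ((MulAut.conjNormal x : MulAut K) k) = ConjClasses.mk k at hCfix
    rw [ConjClasses.mk_eq_mk_iff_isConj, isConj_iff] at hCfix
    obtain ⟨m, hm⟩ := hCfix
    have hm' : (m : L) * (x * k * x⁻¹) * (m : L)⁻¹ = k := by
      have := congrArg Subtype.val hm
      simpa [MulAut.conjNormal_apply] using this
    have hfix : x * k * x⁻¹ = (m : L)⁻¹ * k * (m : L)⁻¹⁻¹ := by
      have h1 : (m : L)⁻¹ * k * (m : L)⁻¹⁻¹ = (m : L)⁻¹ * ((m : L) * (x * k * x⁻¹) * (m : L)⁻¹) * (m : L)⁻¹⁻¹ := by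
        rw [hm']
      rw [h1]; group
    obtain ⟨c, hc, hcx⟩ := exists_fixed_in_class K x hx k (m : L)⁻¹ (K.inv_mem m.2) hfix
    have hmem : c * k * c⁻¹ ∈ K := K.mul_mem (K.mul_mem hc k.2) (K.inv_mem hc)
    have hw : c * k * c⁻¹ ∈ W₂ := by
      rw [← hW]
      refine ⟨hmem, ?_⟩
      show c * k * c⁻¹ ∈ Subgroup.centralizer ({x} : Set L)
      rw [Subgroup.mem_centralizer_iff]
      intro z hz
      rw [Set.mem_singleton_iff] at hz
      subst hz
      exact hcx
    refine ⟨⟨_, hw⟩, hmem, ?_⟩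
    rw [ConjClasses.mk_eq_mk_iff_isConj, isConj_iff]
    refine ⟨⟨c⁻¹, K.inv_mem hc⟩, ?_⟩
    apply Subtype.ext
    show c⁻¹ * (c * k * c⁻¹) * c⁻¹⁻¹ = k
    group
  choose f hf using key
  apply Nat.card_le_card_of_injective f
  intro C C' h
  obtain ⟨hw, h1⟩ := hf C
  obtain ⟨hw', h2⟩ := hf C'
  apply Subtype.ext
  rw [← h1, ← h2]
  congr 1
  apply Subtype.ext
  show (f C : L) = f C'
  rw [h]

end Cfsg.Agent.S1512
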