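import Mathlib
import Cfsg.Statements.S1527


set_option autoImplicit false
open Cfsg

namespace Cfsg.Agent.S1527

/-- Let G be a finite group and H i (i in a finite index type) subgroups of pairwise coprime orders, each of whose underlying sets is a TI-subset of G, such that every non-identity element of G is conjugate to an element of some H i. Then Nat.card G − 1 = Σ_i [G : N_G(H i)] · (Nat.card (H i) − 1). -/
theorem result {G : Type*} [Group G] [Finite G] {ι : Type*} [Fintype ι] (H : ι → Subgroup G) (hcop : ∀ i j, i ≠ j → Nat.Coprime (Nat.card (H i)) (Nat.card (H j))) (hTI : ∀ i, Cfsg.IsTISubset (H i : Set G)) (hcover : ∀ g : G, g ≠ 1 → ∃ i, ∃ x : G, x * g * x⁻¹ ∈ H i) : Nat.card G - 1 = ∑ i, (Subgroup.normalizer (H i : Set G)).index * (Nat.card (H i) - 1) := by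
  classical
  have hcardC : Nat.card ↥((Set.univ : Set G) \ {1}) = Nat.card G - 1 := by
    rw [Nat.card_coe_set_eq, Set.ncard_diff_singleton_of_mem (Set.mem_univ 1), Set.ncard_univ]
  have hcardH : ∀ i, Nat.card ↥((H i : Set G) \ {1}) = Nat.card (H i) - 1 := by
    intro i
    rw [Nat.card_coe_set_eq, Set.ncard_diff_singleton_of_mem (H i).one_mem]
    rfl
  have hpowH : ∀ i, ∀ h ∈ H i, h ^ Nat.card (H i) = 1 := by
    intro i h hh
    have h2 : (⟨h, hh⟩ : H i) ^ Nat.card (H i) = 1 := pow_card_eq_one'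
    exact congrArg Subtype.val h2
  let Φ : (Σ i : ι, (G ⧸ Subgroup.normalizer (H i : Set G)) × ↥((H i : Set G) \ {1})) →
      ↥((Set.univ : Set G) \ {1}) :=
    fun d => ⟨d.2.1.out * d.2.2.1 * d.2.1.out⁻¹, Set.mem_univ _, by
      intro h0
      rw [Set.mem_singleton_iff] at h0
      have h00 : d.2.2.1 = 1 := by
        have e : d.2.2.1 = d.2.1.out⁻¹ * (d.2.1.out * d.2.2.1 * d.2.1.out⁻¹) * d.2.1.out := by group
        rw [e, h0]; group
      exact d.2.2.2.2 h00⟩
  have hbij : Function.Bijective Φ := by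
    constructor
    · rintro ⟨i, q, h⟩ ⟨i', q', h'⟩ heq
      have heq' : q.out * h.1 * q.out⁻¹ = q'.out * h'.1 * q'.out⁻¹ := congrArg Subtype.val heq
      have hi : i = i' := by
        by_contra hne
        have h1 : (q.out * h.1 * q.out⁻¹) ^ Nat.card (H i) = 1 := by
          rw [conj_pow, hpowH i _ h.2.1]; group
        have h1' : (q.out * h.1 * q.out⁻¹) ^ Nat.card (H i') = 1 := by
          rw [heq', conj_pow, hpowH i' _ h'.2.1]; group
        have h3 := Nat.eq_one_of_dvd_coprimes (hcop i i' hne) (orderOf_dvd_of_pow_eq_one h1)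
          (orderOf_dvd_of_pow_eq_one h1')
        have h4 := orderOf_eq_one_iff.mp h3
        apply h.2.2
        rw [Set.mem_singleton_iff]
        have e : h.1 = q.out⁻¹ * (q.out * h.1 * q.out⁻¹) * q.out := by group
        rw [e, h4]; group
      subst hi
      have hq : q = q' := by
        by_contra hne
        have hnN : q'.out⁻¹ * q.out ∉ Subgroup.normalizer (H i : Set G) := by
          intro hmem
          apply hne
          calc q = QuotientGroup.mk q.out := (QuotientGroup.out_eq' q).symm
            _ = QuotientGroup.mk q'.out := (QuotientGroup.eq.mpr hmem).symm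
            _ = q' := QuotientGroup.out_eq' q'
        have h5 := hTI i _ hnN h.1 h.2.1 (by
          have e : q'.out⁻¹ * q.out * h.1 * (q'.out⁻¹ * q.out)⁻¹ =
              q'.out⁻¹ * (q.out * h.1 * q.out⁻¹) * q'.out := by group
          rw [e, heq']
          have e2 : q'.out⁻¹ * (q'.out * h'.1 * q'.out⁻¹) * q'.out = h'.1 := by group
          rw [e2]; exact h'.2.1)
        exact h.2.2 (Set.mem_singleton_iff.mpr h5)
      subst hq
      have hh : h = h' := by
        apply Subtype.ext
        have e : h.1 = q.out⁻¹ * (q.out * h.1 * q.out⁻¹) * q.out := by group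
        rw [e, heq']; group
      subst hh
      rfl
    · rintro ⟨g, -, hg1⟩
      have hg1' : g ≠ 1 := fun h0 => hg1 (Set.mem_singleton_iff.mpr h0)
      obtain ⟨i, x, hx⟩ := hcover g hg1'
      obtain ⟨n, hn⟩ := QuotientGroup.mk_out_eq_mul (Subgroup.normalizer (H i : Set G)) x⁻¹
      have hnN : (n : G)⁻¹ ∈ Subgroup.normalizer (H i : Set G) := Subgroup.inv_mem _ n.2
      have hmem : (n : G)⁻¹ * (x * g * x⁻¹) * (n : G) ∈ H i := by
        have h6 := (Subgroup.mem_normalizer_iff.mp hnN _).mp hx
        rwa [inv_inv] at h6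
      have hne1 : (n : G)⁻¹ * (x * g * x⁻¹) * (n : G) ≠ 1 := by
        intro h0
        apply hg1'
        have e : g = x⁻¹ * (n : G) * ((n : G)⁻¹ * (x * g * x⁻¹) * (n : G)) * (n : G)⁻¹ * x := by
          group
        rw [e, h0]; group
      refine ⟨⟨i, ((x⁻¹ : G) : G ⧸ Subgroup.normalizer (H i : Set G)), ⟨_, hmem, hne1⟩⟩, ?_⟩
      apply Subtype.ext
      show (((x⁻¹ : G) : G ⧸ Subgroup.normalizer (H i : Set G))).out *
        ((n : G)⁻¹ * (x * g * x⁻¹) * (n : G)) *
        (((x⁻¹ : G) : G ⧸ Subgroup.normalizer (H i : Set G))).out⁻¹ = g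
      rw [hn]; group
  rw [← hcardC, ← Nat.card_congr (Equiv.ofBijective Φ hbij), Nat.card_sigma]
  apply Finset.sum_congr rfl
  intro i _
  rw [Nat.card_prod, hcardH i]; rfl

end Cfsg.Agent.S1527
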