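import Cfsg.Statements.S1536
import Mathlib
import Cfsg.Agent.Lib.Lead.SylowAux2
import Cfsg.Agent.Lib.Lead.CharFrobKer

set_option autoImplicit false
open Cfsg Cfsg.Agent.Lib.Lead

namespace Cfsg.Agent.S1536

open scoped Pointwise commutatorElement

/-- Let H be a normal subgroup of the finite group M whose order is coprime to its index. For x ∈ M: some non-principal irreducible character of H is unchanged under h ↦ θ(x h x⁻¹) if and only if some non-identity element of H commutes with x. -/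
theorem result {M : Type*} [Group M] [Finite M] (H : Subgroup M) [hN : H.Normal] (hHall : Nat.Coprime (Nat.card H) H.index) (x : M) : (∃ θ : H → ℂ, Cfsg.IsIrrCharacter H θ ∧ θ ≠ (fun _ => 1) ∧ (fun h : H => θ ⟨x * h * x⁻¹, hN.conj_mem h h.2 x⟩) = θ) ↔ ∃ h ∈ H, h ≠ 1 ∧ x * h = h * x := by
  classical
  let α : H ≃* H := MulEquiv.ofBijective (conjHom H x)
    ⟨(Finite.injective_iff_surjective).mpr (conjHom_surjective H x), conjHom_surjective H x⟩
  have hb := brauer_perm_aut α
  constructor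
  · rintro ⟨θ, hθ, hθ1, hθx⟩
    have h2 : 1 < Nat.card {χ : Cfsg.IrrCharacter H // (χ : H → ℂ) ∘ α = (χ : H → ℂ)} := by
      rw [Finite.one_lt_card_iff_nontrivial]
      refine ⟨⟨⟨⟨θ, hθ⟩, hθx⟩, ⟨⟨fun _ => 1, isIrrCharacter_one H⟩, rfl⟩, ?_⟩⟩
      intro h
      exact hθ1 (congrArg (fun z => (z.1 : H → ℂ)) h)
    rw [← hb, Finite.one_lt_card_iff_nontrivial] at h2
    have hfix1 : ConjClasses.map α.toMonoidHom (ConjClasses.mk (1 : H)) = ConjClasses.mk 1 := by
      show ConjClasses.mk (α 1) = ConjClasses.mk 1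
      rw [map_one]
    obtain ⟨⟨C, hCfix⟩, hCne⟩ := exists_ne
      (⟨ConjClasses.mk 1, hfix1⟩ : {C : ConjClasses H // ConjClasses.map α.toMonoidHom C = C})
    obtain ⟨k, rfl⟩ := ConjClasses.mk_surjective C
    have hk1 : k ≠ 1 := by
      rintro rfl
      exact hCne rfl
    change ConjClasses.mk (α k) = ConjClasses.mk k at hCfix
    rw [ConjClasses.mk_eq_mk_iff_isConj, isConj_iff] at hCfix
    obtain ⟨m, hm⟩ := hCfix
    have hm' : (m : M) * (x * k * x⁻¹) * (m : M)⁻¹ = k := congrArg Subtype.val hm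
    have hfix : x * k * x⁻¹ = (m : M)⁻¹ * k * (m : M)⁻¹⁻¹ := by
      have h1 : (m : M)⁻¹ * k * (m : M)⁻¹⁻¹ =
          (m : M)⁻¹ * ((m : M) * (x * k * x⁻¹) * (m : M)⁻¹) * (m : M)⁻¹⁻¹ := by
        rw [hm']
      rw [h1]; group
    by_cases hcop : Nat.Coprime (orderOf x) (Nat.card H)
    · obtain ⟨c, hc, hcx⟩ := exists_fixed_in_class H x hcop k (m : M)⁻¹ (H.inv_mem m.2) hfix
      refine ⟨c * k * c⁻¹, H.mul_mem (H.mul_mem hc k.2) (H.inv_mem hc), ?_, hcx⟩
      intro h1
      apply hk1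
      apply Subtype.ext
      have h3 : (k : M) = c⁻¹ * (c * k * c⁻¹) * c := by group
      rw [h3, h1]
      simp
    · rw [Nat.Prime.not_coprime_iff_dvd] at hcop
      obtain ⟨p, hp, hpx, hpH⟩ := hcop
      have hord : orderOf (x ^ (orderOf x / p)) = p :=
        orderOf_pow_orderOf_div (orderOf_pos x).ne' hpx
      refine ⟨x ^ (orderOf x / p), ?_, ?_, ?_⟩
      · rw [← QuotientGroup.eq_one_iff (N := H), ← orderOf_eq_one_iff]
        have h1 : orderOf ((x ^ (orderOf x / p) : M) : M ⧸ H) ∣ p := by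
          have h0 := orderOf_map_dvd (QuotientGroup.mk' H) (x ^ (orderOf x / p))
          rwa [hord] at h0
        have h2 : orderOf ((x ^ (orderOf x / p) : M) : M ⧸ H) ∣ H.index := by
          show _ ∣ Nat.card (M ⧸ H)
          exact orderOf_dvd_natCard _
        have h3 : orderOf ((x ^ (orderOf x / p) : M) : M ⧸ H) ∣ Nat.card H :=
          h1.trans hpH
        exact Nat.eq_one_of_dvd_coprimes hHall h3 h2
      · intro h1
        rw [h1, orderOf_one] at hord
        exact hp.one_lt.ne hord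
      · exact ((Commute.refl x).pow_right _).eq
  · rintro ⟨h, hh, hh1, hcomm⟩
    have h2 : 1 < Nat.card {C : ConjClasses H // ConjClasses.map α.toMonoidHom C = C} := by
      rw [Finite.one_lt_card_iff_nontrivial]
      refine ⟨⟨⟨ConjClasses.mk ⟨h, hh⟩, ?_⟩, ⟨ConjClasses.mk 1, ?_⟩, ?_⟩⟩
      · show ConjClasses.mk (α ⟨h, hh⟩) = ConjClasses.mk ⟨h, hh⟩
        congr 1
        apply Subtype.ext
        show x * h * x⁻¹ = h
        rw [hcomm]; group
      · show ConjClasses.mk (α 1) = ConjClasses.mk 1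
        rw [map_one]
      · intro heq
        have h3 : ConjClasses.mk (⟨h, hh⟩ : H) = ConjClasses.mk 1 := congrArg Subtype.val heq
        rw [ConjClasses.mk_eq_mk_iff_isConj, isConj_iff] at h3
        obtain ⟨c, hc⟩ := h3
        apply hh1
        have h4 : (⟨h, hh⟩ : H) = 1 := by
          have h5 : (⟨h, hh⟩ : H) = c⁻¹ * (c * ⟨h, hh⟩ * c⁻¹) * c := by group
          rw [h5, hc]; group
        exact congrArg Subtype.val h4
    rw [hb, Finite.one_lt_card_iff_nontrivial] at h2
    obtain ⟨χ, hχne⟩ := exists_ne (⟨⟨fun _ => 1, isIrrCharacter_one H⟩, rfl⟩ :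
      {χ : Cfsg.IrrCharacter H // (χ : H → ℂ) ∘ α = (χ : H → ℂ)})
    refine ⟨χ.1.1, χ.1.2, ?_, χ.2⟩
    intro h1
    apply hχne
    apply Subtype.ext
    apply Subtype.ext
    exact h1

end Cfsg.Agent.S1536
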