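import Mathlib
import Cfsg.Statements.S1546


set_option autoImplicit false
open Cfsg

namespace Cfsg.Agent.S1546

/-- Let p and q be odd primes and N = (p ^ q − 1) / (p − 1) = 1 + p + ⋯ + p^(q−1). Then N is odd; if p ≡ 1 (mod q) then q ∣ N; and if p is not ≡ 1 (mod q) then N is coprime to p − 1 and every divisor of N is ≡ 1 (mod q). -/
theorem result (p q : ℕ) (hp : p.Prime) (hq : q.Prime) (hp2 : p ≠ 2) (hq2 : q ≠ 2) : Odd ((p ^ q - 1) / (p - 1)) ∧ (p % q = 1 → q ∣ (p ^ q - 1) / (p - 1)) ∧ (p % q ≠ 1 → Nat.Coprime ((p ^ q - 1) / (p - 1)) (p - 1) ∧ ∀ x : ℕ, x ∣ (p ^ q - 1) / (p - 1) → x % q = 1) := by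
  have hp2' : 2 ≤ p := hp.two_le
  have hq1 : 1 < q := hq.one_lt
  have hN : (p ^ q - 1) / (p - 1) = ∑ k ∈ Finset.range q, p ^ k := (Nat.geomSum_eq hp2' q).symm
  rw [hN]
  have hmul : (∑ k ∈ Finset.range q, p ^ k) * (p - 1) + 1 = p ^ q := by
    have h0 := geom_sum_mul_add (p - 1) q
    rw [Nat.sub_add_cancel hp.one_le] at h0
    exact h0
  have hmod : ∀ m : ℕ, p % m = 1 % m → (∑ k ∈ Finset.range q, p ^ k) % m = q % m := by
    intro m hm
    rw [Finset.sum_nat_mod]
    have h1 : ∀ i ∈ Finset.range q, p ^ i % m = 1 % m := by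
      intro i _
      rw [Nat.pow_mod, hm, ← Nat.pow_mod, one_pow]
    rw [Finset.sum_congr rfl h1, Finset.sum_const, Finset.card_range, smul_eq_mul]
    rw [Nat.mul_mod, Nat.mod_mod, ← Nat.mul_mod, mul_one]
  have hodd : Odd (∑ k ∈ Finset.range q, p ^ k) := by
    rw [Nat.odd_iff]
    have hp_odd : p % 2 = 1 := by
      rcases hp.eq_two_or_odd with h | h
      · exact absurd h hp2
      · exact h
    have hq_odd : q % 2 = 1 := by
      rcases hq.eq_two_or_odd with h | h
      · exact absurd h hq2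
      · exact h
    rw [hmod 2 (by rw [hp_odd]), hq_odd]
  refine ⟨hodd, ?_, ?_⟩
  · intro hpq
    have h1 := hmod q (by rw [hpq, Nat.mod_eq_of_lt hq1])
    rw [Nat.mod_self] at h1
    exact Nat.dvd_of_mod_eq_zero h1
  · intro hpq
    have hdvd_p : ∀ d : ℕ, d ∣ p - 1 → p % d = 1 % d := by
      intro d hd
      have h1 : 1 ≡ p [MOD d] := (Nat.modEq_iff_dvd' hp.one_le).mpr hd
      exact h1.symm
    have hcop : Nat.Coprime (∑ k ∈ Finset.range q, p ^ k) (p - 1) := by
      set d := Nat.gcd (∑ k ∈ Finset.range q, p ^ k) (p - 1) with hd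
      have hd1 : d ∣ ∑ k ∈ Finset.range q, p ^ k := Nat.gcd_dvd_left _ _
      have hd2 : d ∣ p - 1 := Nat.gcd_dvd_right _ _
      have h1 := hmod d (hdvd_p d hd2)
      rw [Nat.mod_eq_zero_of_dvd hd1] at h1
      have h2 : d ∣ q := Nat.dvd_of_mod_eq_zero h1.symm
      rcases (Nat.dvd_prime hq).mp h2 with h3 | h3
      · exact h3
      · exfalso
        rw [h3] at hd2
        have h4 := hdvd_p q hd2
        rw [Nat.mod_eq_of_lt hq1] at h4
        exact hpq h4
    refine ⟨hcop, ?_⟩
    intro x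
    induction x using Nat.recOnMul with
    | zero =>
      intro h0
      rw [zero_dvd_iff] at h0
      rw [h0] at hodd
      exact absurd hodd (by decide)
    | one => intro _; exact Nat.mod_eq_of_lt hq1
    | prime r hr =>
      intro hrN
      haveI : Fact r.Prime := ⟨hr⟩
      have h1 : ((p : ZMod r)) ^ q = 1 := by
        have h2 : ((∑ k ∈ Finset.range q, p ^ k : ℕ) : ZMod r) = 0 :=
          (ZMod.natCast_eq_zero_iff _ _).mpr hrN
        have h3 := congrArg (fun n : ℕ => (n : ZMod r)) hmul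
        simp only [Nat.cast_add, Nat.cast_mul, Nat.cast_one, Nat.cast_pow] at h3
        rw [h2, zero_mul, zero_add] at h3
        exact h3.symm
      have h4 : (p : ZMod r) ≠ 1 := by
        intro h5
        have h6 : r ∣ p - 1 := by
          rw [← ZMod.natCast_eq_zero_iff, Nat.cast_sub hp.one_le, h5]; simp
        have h7 : r ∣ 1 := by
          have := Nat.dvd_gcd hrN h6
          rwa [hcop] at this
        exact hr.one_lt.ne' (Nat.dvd_one.mp h7)
      haveI : Fact q.Prime := ⟨hq⟩
      have h8 : orderOf (p : ZMod r) = q := orderOf_eq_prime h1 h4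
      have h9 : (p : ZMod r) ≠ 0 := by
        intro h0
        rw [h0, zero_pow hq.ne_zero] at h1
        exact zero_ne_one h1
      have h10 : q ∣ r - 1 := by
        rw [← h8]
        exact orderOf_dvd_of_pow_eq_one (ZMod.pow_card_sub_one_eq_one h9)
      have h11 : 1 ≡ r [MOD q] := (Nat.modEq_iff_dvd' hr.one_lt.le).mpr h10
      have h12 : r % q = 1 % q := h11.symm
      rw [h12, Nat.mod_eq_of_lt hq1]
    | mul a b ha hb =>
      intro hab
      have h1 := ha (dvd_trans (dvd_mul_right a b) hab)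
      have h2 := hb (dvd_trans (dvd_mul_left b a) hab)
      rw [Nat.mul_mod, h1, h2, mul_one, Nat.mod_eq_of_lt hq1]

end Cfsg.Agent.S1546
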