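import Cfsg.Statements.S1555
import Mathlib
import Cfsg.Agent.Lib.Helper1.M24Masks
import Cfsg.Agent.Lib.Helper1.M24Base
import Cfsg.Agent.Lib.Helper1.M24Fix5

set_option autoImplicit false
open scoped Pointwise
open Cfsg

namespace Cfsg.Agent.S1555


open Cfsg.Agent.Lib.Helper1 in
set_option maxRecDepth 1000000 in
theorem cnt2 : ((allWords gbasis).filter
    (fun n => pcI 24 n == 8 && (O5 &&& n) == 3)).length = 16 := by
  decide +kernel

open Cfsg.Agent.Lib.Helper1 in
theorem O5_lt : O5 < 2 ^ 24 := by decide +kernel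

open Cfsg.Agent.Lib.Helper1 in
theorem base2 : {b : Finset Cfsg.GolayPt | b ∈ Cfsg.octads ∧ S O5 ∩ b = S 3}.ncard = 16 := by
  have hset : {b : Finset Cfsg.GolayPt | b ∈ Cfsg.octads ∧ S O5 ∩ b = S 3}
      = {b : Finset Cfsg.GolayPt | ∃ n ∈ allWords gbasis,
          (pcI 24 n == 8 && (O5 &&& n) == 3) = true ∧ b = S n} := by
    ext b
    simp only [Set.mem_setOf_eq]
    constructor
    · rintro ⟨h1, h3⟩
      obtain ⟨n, hn, h8, rfl⟩ := (mem_octads_iff b).1 h1
      rw [S_inter] at h3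
      have h4 := S_inj_lt (lt_of_le_of_lt Nat.and_le_left O5_lt) (by norm_num) h3
      exact ⟨n, hn, by simp [h8, h4], rfl⟩
    · rintro ⟨n, hn, hP, rfl⟩
      simp only [Bool.and_eq_true, beq_iff_eq] at hP
      exact ⟨(mem_octads_iff _).2 ⟨n, hn, hP.1, rfl⟩, by rw [S_inter, hP.2]⟩
  rw [hset, ncard_filter]
  exact cnt2

open Cfsg.Agent.Lib.Helper1 in
open scoped Pointwise in
theorem part2 (o : Finset Cfsg.GolayPt) (ho : o ∈ Cfsg.octads) (s : Finset Cfsg.GolayPt)
    (hs : s ⊆ o) (h2 : s.card = 2) :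
    {o' : Finset Cfsg.GolayPt | o' ∈ Cfsg.octads ∧ o ∩ o' = s}.ncard = 16 := by
  classical
  obtain ⟨p, q, hpq, rfl⟩ := Finset.card_eq_two.1 h2
  have hp : p ∈ o := hs (by simp)
  have hq : q ∈ o := hs (by simp)
  obtain ⟨g, hg, rfl, rfl, rfl⟩ := octad_2pt_reach o ho p q hp hq hpq
  have hs3 : ({g (pt 0), g (pt 1)} : Finset Cfsg.GolayPt) = g • S 3 := by
    rw [S_three, Finset.smul_finset_insert, Finset.smul_finset_singleton]
    rfl
  rw [hs3, transport_inter g hg O5 3]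
  exact base2

open Cfsg.Agent.Lib.Helper1 in
theorem part4 (o : Finset Cfsg.GolayPt) (ho : o ∈ Cfsg.octads) (s : Finset Cfsg.GolayPt)
    (hs : s ⊆ o) (h4 : s.card = 4) :
    {o' : Finset Cfsg.GolayPt | o' ∈ Cfsg.octads ∧ o ∩ o' = s}.ncard = 4 := by
  classical
  obtain ⟨Bf, hBf, -⟩ := exists_blockFinset Cfsg.octads
  have h2 := octads_through s (by omega) Bf hBf
  rw [h4] at h2
  have c2 : Nat.choose (8 - 4) (5 - 4) = 4 := by decide
  have c3 : Nat.choose (24 - 4) (5 - 4) = 20 := by decide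
  rw [c2, c3] at h2
  have hN : (Bf.filter (fun c => s ⊆ c)).card = 5 := by omega
  have hset : {o' : Finset Cfsg.GolayPt | o' ∈ Cfsg.octads ∧ o ∩ o' = s}
      = ↑((Bf.filter (fun c => s ⊆ c)).erase o) := by
    ext o'
    simp only [Set.mem_setOf_eq, Finset.coe_erase, Set.mem_diff, Finset.mem_coe,
      Finset.mem_filter, hBf, Set.mem_singleton_iff]
    constructor
    · rintro ⟨h1, h3⟩
      refine ⟨⟨h1, by rw [← h3]; exact Finset.inter_subset_right⟩, ?_⟩
      rintro rfl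
      rw [Finset.inter_self] at h3
      rw [← h3, ho.2] at h4
      omega
    · rintro ⟨⟨h1, h3⟩, hne⟩
      refine ⟨h1, ?_⟩
      have hsub : s ⊆ o ∩ o' := Finset.subset_inter hs h3
      have hlt := steiner_inter_lt Cfsg.Agent.S0363.result ho h1 (Ne.symm hne)
      exact (Finset.eq_of_subset_of_card_le hsub (by omega)).symm
  rw [hset, Set.ncard_coe_finset, Finset.card_erase_of_mem
    (Finset.mem_filter.2 ⟨(hBf o).2 ho, hs⟩), hN]

/-- Bottom row of the Leech triangle: an octad is met in a prescribed pair of its points by exactly 16 octads and in a prescribed 4-subset by exactly 4 octads. -/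
theorem result (o : Finset Cfsg.GolayPt) (ho : o ∈ Cfsg.octads) (s : Finset Cfsg.GolayPt) (hs : s ⊆ o) : (s.card = 2 → {o' : Finset Cfsg.GolayPt | o' ∈ Cfsg.octads ∧ o ∩ o' = s}.ncard = 16) ∧ (s.card = 4 → {o' : Finset Cfsg.GolayPt | o' ∈ Cfsg.octads ∧ o ∩ o' = s}.ncard = 4) := by
  exact ⟨part2 o ho s hs, part4 o ho s hs⟩

end Cfsg.Agent.S1555
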