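import Cfsg.Statements.S1558
import Mathlib
import Cfsg.Agent.Lib.Helper9.M24Stab
import Cfsg.Agent.Lib.Helper9.M24Syl
import Cfsg.Agent.Lib.Helper1.ConjStab
import Cfsg.Agent.Lib.Helper1.Trio64
import Cfsg.Agent.Lib.Helper1.Trio64a
import Cfsg.Agent.Lib.Helper1.Trio64b

set_option autoImplicit false
open scoped Pointwise
open Cfsg

namespace Cfsg.Agent.S1558


open Cfsg.Agent.Lib.Helper9 Cfsg.Agent.Lib.Helper1 Cfsg.Agent.Lib.Helper1.Trio64
open Cfsg
open scoped Pointwise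

theorem mem_K_of {l : List ℕ} (h : memT l = true) : isPermL l = true ∧ permL l ∈ Ktrio := by
  unfold memT at h
  rw [Bool.and_eq_true] at h
  exact ⟨isPermL_of_isM24L h.1, memKtrio l h.1 h.2⟩

/-- The normal subgroup of order 64 of the base trio stabiliser. -/
def N0 : Subgroup (Equiv.Perm GolayPt) := listSub L64 L64_ok

theorem card_N0 : Nat.card N0 = 64 := by
  rw [N0, card_listSub L64 L64_ok L64_nodup]
  decide

theorem N0_le : N0 ≤ Ktrio := by
  intro k hk
  obtain ⟨l, hl, rfl⟩ := mem_listSub.1 hk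
  exact (mem_K_of (List.all_eq_true.1 L64_sub l hl)).2

theorem N0_sq {k : Equiv.Perm GolayPt} (hk : k ∈ N0) : k * k = 1 := by
  obtain ⟨l, hl, rfl⟩ := mem_listSub.1 hk
  have hp := (mem_K_of (List.all_eq_true.1 L64_sub l hl)).1
  have h := List.all_eq_true.1 L64_sq l hl
  rw [beq_iff_eq] at h
  rw [permL_mul hp hp, h, permL_idL]


/-- The Boolean value of an element of the field with two elements. -/
def bz (x : ZMod 2) : Bool := decide (x = 1)

theorem bz_mul : ∀ x y : ZMod 2, bz (x * y) = (bz x && bz y) := by decide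
theorem bz_add : ∀ x y : ZMod 2, bz (x + y) = (bz x ^^ bz y) := by decide
theorem bz_sub : ∀ x y : ZMod 2, bz (x - y) = (bz x ^^ bz y) := by decide
theorem bz_ne : ∀ x : ZMod 2, x ≠ 0 → bz x = true := by decide
theorem bz_true : ∀ x : ZMod 2, bz x = true → x = 1 := by decide
theorem bz_false : ∀ x : ZMod 2, bz x = false → x = 0 := by decide
theorem bz_inj : ∀ x y : ZMod 2, bz x = bz y → x = y := by decide

/-- The list representing a matrix. -/
def rA (M : GL (Fin 3) (ZMod 2)) : List ℕ := repA (bz (M.1 0 0)) (bz (M.1 0 1)) (bz (M.1 0 2)) (bz (M.1 1 0)) (bz (M.1 1 1)) (bz (M.1 1 2)) (bz (M.1 2 0)) (bz (M.1 2 1)) (bz (M.1 2 2))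

/-- The list representing a permutation of the octads. -/
def rB (σ : Equiv.Perm (Fin 3)) : List ℕ := repB (σ 0) (σ 1)

theorem det_ne (M : GL (Fin 3) (ZMod 2)) : det9 (bz (M.1 0 0)) (bz (M.1 0 1)) (bz (M.1 0 2)) (bz (M.1 1 0)) (bz (M.1 1 1)) (bz (M.1 1 2)) (bz (M.1 2 0)) (bz (M.1 2 1)) (bz (M.1 2 2)) = true := by
  have h := (Matrix.isUnits_det_units M).ne_zero
  rw [Matrix.det_fin_three] at h
  have h' := bz_ne _ h
  simp only [bz_mul, bz_add, bz_sub] at h'
  exact h'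

theorem ne01 (σ : Equiv.Perm (Fin 3)) : σ 0 ≠ σ 1 := fun h => by
  have := σ.injective h
  exact absurd this (by decide)

theorem ne02 (σ : Equiv.Perm (Fin 3)) : σ 0 ≠ σ 2 := fun h => by
  have := σ.injective h
  exact absurd this (by decide)

theorem ne12 (σ : Equiv.Perm (Fin 3)) : σ 1 ≠ σ 2 := fun h => by
  have := σ.injective h
  exact absurd this (by decide)

theorem ap_eq (σ : Equiv.Perm (Fin 3)) (y : Fin 3) : σ y = apF (σ 0) (σ 1) (σ 2) y := by
  fin_cases y <;> rfl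

theorem rA_perm (M : GL (Fin 3) (ZMod 2)) : isPermL (rA M) = true :=
  (mem_K_of (repA_ok _ _ _ _ _ _ _ _ _ (det_ne M))).1

theorem rB_perm (σ : Equiv.Perm (Fin 3)) : isPermL (rB σ) = true :=
  (mem_K_of (repB_ok _ _)).1

theorem conj_list {c k : List ℕ} (hc : isPermL c = true)
    (h : L64.all (fun k => L64.any (fun k' => compL c k == compL k' c)) = true)
    (hk : k ∈ L64) : permL c * permL k * (permL c)⁻¹ ∈ N0 := by
  have h1 := List.all_eq_true.1 h k hk
  rw [List.any_eq_true] at h1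
  obtain ⟨k', hk', he⟩ := h1
  rw [beq_iff_eq] at he
  have hpk := (mem_K_of (List.all_eq_true.1 L64_sub k hk)).1
  have hpk' := (mem_K_of (List.all_eq_true.1 L64_sub k' hk')).1
  rw [permL_conj hc hpk hpk' he]
  exact mem_listSub.2 ⟨k', hk', rfl⟩

/-- The list of Boolean entries of a matrix. -/
def tupleOf (M : GL (Fin 3) (ZMod 2)) : List Bool :=
  [bz (M.1 0 0), bz (M.1 0 1), bz (M.1 0 2), bz (M.1 1 0), bz (M.1 1 1), bz (M.1 1 2),
    bz (M.1 2 0), bz (M.1 2 1), bz (M.1 2 2)]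

theorem rA_eq (M : GL (Fin 3) (ZMod 2)) : rA M = repL (tupleOf M) := rfl

theorem tupleOf_mul (M M' : GL (Fin 3) (ZMod 2)) :
    tupleOf (M * M') = tmul (tupleOf M) (tupleOf M') := by
  have hval : (M * M').1 = M.1 * M'.1 := rfl
  unfold tupleOf
  simp only [hval, Matrix.mul_apply, Fin.sum_univ_three, bz_add, bz_mul]
  rfl

theorem tupleOf_inj {M M' : GL (Fin 3) (ZMod 2)} (h : tupleOf M = tupleOf M') : M = M' := by
  unfold tupleOf at h
  simp only [List.cons.injEq, and_true] at h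
  obtain ⟨h00, h01, h02, h10, h11, h12, h20, h21, h22⟩ := h
  apply Units.ext
  ext r c
  fin_cases r <;> fin_cases c
  · exact bz_inj _ _ h00
  · exact bz_inj _ _ h01
  · exact bz_inj _ _ h02
  · exact bz_inj _ _ h10
  · exact bz_inj _ _ h11
  · exact bz_inj _ _ h12
  · exact bz_inj _ _ h20
  · exact bz_inj _ _ h21
  · exact bz_inj _ _ h22

/-- The first generator. -/
def S1 : GL (Fin 3) (ZMod 2) :=
  ⟨!![1, 1, 1; 1, 0, 0; 1, 1, 0], !![0, 1, 0; 0, 1, 1; 1, 0, 1], by decide, by decide⟩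

/-- The second generator. -/
def S2 : GL (Fin 3) (ZMod 2) :=
  ⟨!![0, 1, 1; 1, 1, 0; 0, 1, 0], !![0, 1, 1; 0, 0, 1; 1, 0, 1], by decide, by decide⟩

theorem gens_lift (s : List Bool) (hs : s ∈ gensT) : ∃ S : GL (Fin 3) (ZMod 2), tupleOf S = s := by
  have hs' : s ∈ [g1T, g2T] := hs
  rcases List.mem_cons.1 hs' with rfl | hs'
  · exact ⟨S1, by decide⟩
  · rcases List.mem_cons.1 hs' with rfl | hs'
    · exact ⟨S2, by decide⟩
    · exact absurd hs' List.not_mem_nil

theorem fA_gen (S : GL (Fin 3) (ZMod 2)) (hS : tupleOf S ∈ gensT) (M' : GL (Fin 3) (ZMod 2)) :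
    permL (rA (S * M')) = permL (rA S) * permL (rA M') := by
  have key : compL (rA S) (rA M') = repL (tmul (tupleOf S) (tupleOf M')) :=
    gen_mul (tupleOf S) hS (bz (M'.1 0 0)) (bz (M'.1 0 1)) (bz (M'.1 0 2)) (bz (M'.1 1 0)) (bz (M'.1 1 1)) (bz (M'.1 1 2)) (bz (M'.1 2 0)) (bz (M'.1 2 1)) (bz (M'.1 2 2)) (det_ne M')
  rw [permL_mul (rA_perm S) (rA_perm M'), key, ← tupleOf_mul, ← rA_eq]

/-- The property propagated along the chain of matrices. -/
def QA (t : List Bool) : Prop :=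
  ∃ M : GL (Fin 3) (ZMod 2), tupleOf M = t ∧
    (∀ M' : GL (Fin 3) (ZMod 2), permL (rA (M * M')) = permL (rA M) * permL (rA M')) ∧
    (∀ k ∈ N0, permL (rA M) * k * (permL (rA M))⁻¹ ∈ N0)

theorem QA_one : QA idT := by
  have h1 : tupleOf (1 : GL (Fin 3) (ZMod 2)) = idT := by decide
  have h2 : rA (1 : GL (Fin 3) (ZMod 2)) = idL := by rw [rA_eq, h1]; exact repL_idT
  refine ⟨1, h1, ?_, ?_⟩
  · intro M'
    rw [one_mul, h2, permL_idL, one_mul]
  · intro k hk
    rw [h2, permL_idL, one_mul, inv_one, mul_one]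
    exact hk

theorem QA_step (s : List Bool) (hs : s ∈ gensT) (y : List Bool) (hy : QA y) : QA (tmul s y) := by
  obtain ⟨Y, rfl, hY1, hY2⟩ := hy
  obtain ⟨S, rfl⟩ := gens_lift s hs
  refine ⟨S * Y, tupleOf_mul S Y, ?_, ?_⟩
  · intro M'
    rw [mul_assoc, fA_gen S hs (Y * M'), hY1 M', fA_gen S hs Y, mul_assoc]
  · intro k hk
    obtain ⟨l, hl, hle⟩ := mem_listSub.1 (hY2 k hk)
    have hn : L64.all (fun k => L64.any (fun k' => compL (rA S) k == compL k' (rA S))) = true :=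
      gen_norm (tupleOf S) hs
    have s1 := conj_list (rA_perm S) hn hl
    have e : permL (rA (S * Y)) * k * (permL (rA (S * Y)))⁻¹
        = permL (rA S) * (permL (rA Y) * k * (permL (rA Y))⁻¹) * (permL (rA S))⁻¹ := by
      rw [fA_gen S hs Y]; group
    rw [e, hle]
    exact s1

theorem QA_all (M : GL (Fin 3) (ZMod 2)) :
    (∀ M' : GL (Fin 3) (ZMod 2), permL (rA (M * M')) = permL (rA M) * permL (rA M')) ∧
    (∀ k ∈ N0, permL (rA M) * k * (permL (rA M))⁻¹ ∈ N0) := by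
  have hmem : tupleOf M ∈ chainW := by
    have h := valid_mem (bz (M.1 0 0)) (bz (M.1 0 1)) (bz (M.1 0 2)) (bz (M.1 1 0)) (bz (M.1 1 1)) (bz (M.1 1 2)) (bz (M.1 2 0)) (bz (M.1 2 1)) (bz (M.1 2 2)) (det_ne M)
    rw [List.contains_iff_mem] at h
    exact h
  obtain ⟨M₀, h₀, hP⟩ := chain_ind (Q := QA) QA_one QA_step chainW chainW_ok (tupleOf M) hmem
  rw [tupleOf_inj h₀] at hP
  exact hP

theorem rB_mul (σ τ : Equiv.Perm (Fin 3)) : rB (σ * τ) = compL (rB σ) (rB τ) := by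
  have key := B_mul (σ 0) (σ 1) (σ 2) (ne01 σ) (ne02 σ) (ne12 σ) (τ 0) (τ 1) (ne01 τ)
  unfold rB
  rw [key, Equiv.Perm.mul_apply, Equiv.Perm.mul_apply, ap_eq σ (τ 0), ap_eq σ (τ 1)]

theorem pAB_comm (M : GL (Fin 3) (ZMod 2)) (σ : Equiv.Perm (Fin 3)) :
    permL (rA M) * permL (rB σ) = permL (rB σ) * permL (rA M) := by
  rw [permL_mul (rA_perm M) (rB_perm σ), permL_mul (rB_perm σ) (rA_perm M)]
  congr 1
  exact AB_comm (bz (M.1 0 0)) (bz (M.1 0 1)) (bz (M.1 0 2)) (bz (M.1 1 0)) (bz (M.1 1 1)) (bz (M.1 1 2)) (bz (M.1 2 0)) (bz (M.1 2 1)) (bz (M.1 2 2)) (det_ne M) (σ 0) (σ 1) (ne01 σ)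

/-- The complement, as a homomorphism into the base trio stabiliser. -/
noncomputable def F : GL (Fin 3) (ZMod 2) × Equiv.Perm (Fin 3) →* ↥Ktrio :=
  MonoidHom.mk' (fun x => ⟨permL (rA x.1) * permL (rB x.2),
    Ktrio.mul_mem (mem_K_of (repA_ok _ _ _ _ _ _ _ _ _ (det_ne x.1))).2 (mem_K_of (repB_ok _ _)).2⟩) (by
    intro x y
    apply Subtype.ext
    show permL (rA (x.1 * y.1)) * permL (rB (x.2 * y.2))
      = permL (rA x.1) * permL (rB x.2) * (permL (rA y.1) * permL (rB y.2))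
    rw [(QA_all x.1).1 y.1, rB_mul, ← permL_mul (rB_perm x.2) (rB_perm y.2)]
    calc permL (rA x.1) * permL (rA y.1) * (permL (rB x.2) * permL (rB y.2))
        = permL (rA x.1) * (permL (rA y.1) * permL (rB x.2)) * permL (rB y.2) := by group
      _ = permL (rA x.1) * (permL (rB x.2) * permL (rA y.1)) * permL (rB y.2) := by
          rw [pAB_comm y.1 x.2]
      _ = permL (rA x.1) * permL (rB x.2) * (permL (rA y.1) * permL (rB y.2)) := by group)

theorem F_coe (x : GL (Fin 3) (ZMod 2) × Equiv.Perm (Fin 3)) :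
    ((F x : ↥Ktrio) : Equiv.Perm GolayPt) = permL (rA x.1) * permL (rB x.2) := rfl

theorem F_ker {x : GL (Fin 3) (ZMod 2) × Equiv.Perm (Fin 3)}
    (h : ((F x : ↥Ktrio) : Equiv.Perm GolayPt) ∈ N0) : x = 1 := by
  obtain ⟨M, σ⟩ := x
  rw [F_coe, permL_mul (rA_perm M) (rB_perm σ)] at h
  obtain ⟨l, hl, hle⟩ := mem_listSub.1 h
  have hpl := (mem_K_of (List.all_eq_true.1 L64_sub l hl)).1
  have h1 : compL (rA M) (rB σ) = l :=
    permL_inj (isPermL_compL (rA_perm M) (rB_perm σ)) hpl hle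
  have h2 := ker_check (bz (M.1 0 0)) (bz (M.1 0 1)) (bz (M.1 0 2)) (bz (M.1 1 0)) (bz (M.1 1 1)) (bz (M.1 1 2)) (bz (M.1 2 0)) (bz (M.1 2 1)) (bz (M.1 2 2)) (det_ne M) (σ 0) (σ 1) (ne01 σ)
    (by rw [List.contains_iff_mem]; exact h1 ▸ hl)
  simp only [Bool.and_eq_true, Bool.not_eq_true', beq_iff_eq] at h2
  obtain ⟨⟨⟨⟨⟨⟨⟨⟨⟨⟨h00, h01⟩, h02⟩, h10⟩, h11⟩, h12⟩, h20⟩, h21⟩, h22⟩, hs0⟩, hs1⟩ := h2
  have h00 := bz_true _ h00
  have h01 := bz_false _ h01
  have h02 := bz_false _ h02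
  have h10 := bz_false _ h10
  have h11 := bz_true _ h11
  have h12 := bz_false _ h12
  have h20 := bz_false _ h20
  have h21 := bz_false _ h21
  have h22 := bz_true _ h22
  have hM : M = 1 := by
    apply Units.ext
    ext r c
    fin_cases r <;> fin_cases c
    · simpa using h00
    · simpa using h01
    · simpa using h02
    · simpa using h10
    · simpa using h11
    · simpa using h12
    · simpa using h20
    · simpa using h21
    · simpa using h22
  have hσ : σ = 1 := by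
    have hs2 : σ 2 = 2 := by
      have a1 := ne02 σ
      have a2 := ne12 σ
      rw [hs0] at a1
      rw [hs1] at a2
      revert a1 a2
      generalize σ 2 = z
      revert z
      decide
    ext y
    fin_cases y
    · simpa using congrArg Fin.val hs0
    · simpa using congrArg Fin.val hs1
    · simpa using congrArg Fin.val hs2
  rw [hM, hσ]
  rfl

theorem card_GL32 : Nat.card (GL (Fin 3) (ZMod 2)) = 168 := by
  rw [Matrix.card_GL_field, Fin.prod_univ_three, ZMod.card]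
  norm_num

theorem card_S3 : Nat.card (Equiv.Perm (Fin 3)) = 6 := by
  rw [Nat.card_perm, Nat.card_fin]
  rfl

/-- The factorisation map. -/
noncomputable def Φ (y : ↥N0 × (GL (Fin 3) (ZMod 2) × Equiv.Perm (Fin 3))) : ↥Ktrio :=
  ⟨y.1.1, N0_le y.1.2⟩ * F y.2

theorem Φ_inj : Function.Injective Φ := by
  rintro ⟨n, x⟩ ⟨n', x'⟩ h
  have h1 : (n.1 : Equiv.Perm GolayPt) * ((F x : ↥Ktrio) : Equiv.Perm GolayPt)
      = n'.1 * ((F x' : ↥Ktrio) : Equiv.Perm GolayPt) := congrArg Subtype.val h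
  have h2 : ((F (x * x'⁻¹) : ↥Ktrio) : Equiv.Perm GolayPt) = (n.1)⁻¹ * n'.1 := by
    rw [map_mul, map_inv]
    show ((F x : ↥Ktrio) : Equiv.Perm GolayPt) * ((F x' : ↥Ktrio) : Equiv.Perm GolayPt)⁻¹ = _
    rw [eq_inv_mul_iff_mul_eq, ← mul_assoc, h1, mul_inv_cancel_right]
  have h3 : x * x'⁻¹ = 1 := F_ker (by rw [h2]; exact N0.mul_mem (N0.inv_mem n.2) n'.2)
  have h4 : x = x' := by rw [← mul_inv_eq_one]; exact h3
  subst h4
  have h5 : (n.1 : Equiv.Perm GolayPt) = n'.1 := mul_right_cancel h1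
  rw [Prod.mk.injEq]
  exact ⟨Subtype.ext h5, rfl⟩

theorem Φ_surj : Function.Surjective Φ := by
  have hb : Function.Bijective Φ := by
    rw [Nat.bijective_iff_injective_and_card]
    refine ⟨Φ_inj, ?_⟩
    rw [Nat.card_prod, Nat.card_prod, card_N0, card_GL32, card_S3, card_Ktrio]
  exact hb.2

theorem N0_conj {a k : Equiv.Perm GolayPt} (ha : a ∈ Ktrio) (hk : k ∈ N0) :
    a * k * a⁻¹ ∈ N0 := by
  obtain ⟨⟨n, M, σ⟩, hy⟩ := Φ_surj ⟨a, ha⟩
  have ha' : a = n.1 * (permL (rA M) * permL (rB σ)) := (congrArg Subtype.val hy).symm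
  obtain ⟨l, hl, rfl⟩ := mem_listSub.1 hk
  have s1 := conj_list (rB_perm σ) (normB (σ 0) (σ 1) (ne01 σ)) hl
  obtain ⟨l1, hl1, e1⟩ := mem_listSub.1 s1
  have s2 := (QA_all M).2 (permL l1) (mem_listSub.2 ⟨l1, hl1, rfl⟩)
  have e : a * permL l * a⁻¹ = n.1 * (permL (rA M) * (permL (rB σ) * permL l * (permL (rB σ))⁻¹)
      * (permL (rA M))⁻¹) * (n.1)⁻¹ := by
    rw [ha']; group
  rw [e, e1]
  exact N0.mul_mem (N0.mul_mem n.2 s2) (N0.inv_mem n.2)

/-- The normal subgroup, inside the base trio stabiliser. -/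
def N' : Subgroup ↥Ktrio := N0.subgroupOf Ktrio

instance N'_normal : N'.Normal := ⟨by
  intro n hn k
  rw [N', Subgroup.mem_subgroupOf] at hn ⊢
  exact N0_conj k.2 hn⟩

theorem card_N' : Nat.card N' = 64 := by
  rw [N', Nat.card_congr (Subgroup.subgroupOfEquivOfLe N0_le).toEquiv, card_N0]

/-- The map from the complement onto the quotient. -/
noncomputable def ψ : GL (Fin 3) (ZMod 2) × Equiv.Perm (Fin 3) →* ↥Ktrio ⧸ N' :=
  (QuotientGroup.mk' N').comp F

theorem ψ_inj : Function.Injective ψ := by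
  rw [injective_iff_map_eq_one]
  intro x hx
  have h1 : (QuotientGroup.mk (F x) : ↥Ktrio ⧸ N') = 1 := hx
  rw [QuotientGroup.eq_one_iff, N', Subgroup.mem_subgroupOf] at h1
  exact F_ker h1

theorem card_quot : Nat.card (↥Ktrio ⧸ N') = 1008 := by
  have h := Subgroup.card_eq_card_quotient_mul_card_subgroup N'
  rw [card_Ktrio, card_N'] at h
  omega

theorem ψ_bij : Function.Bijective ψ := by
  have : Finite (↥Ktrio ⧸ N') := Nat.finite_of_card_ne_zero (by rw [card_quot]; norm_num)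
  rw [Nat.bijective_iff_injective_and_card]
  exact ⟨ψ_inj, by rw [Nat.card_prod, card_GL32, card_S3, card_quot]⟩

/-- The base isomorphism. -/
noncomputable def e0 : ↥Ktrio ⧸ N' ≃* GL (Fin 3) (ZMod 2) × Equiv.Perm (Fin 3) :=
  (MulEquiv.ofBijective ψ ψ_bij).symm

/-- Conjugation onto the base trio stabiliser. -/
def eT {g : Equiv.Perm GolayPt} (hg : g ∈ M24) :
    ↥(MulAction.stabilizer ↥M24 (g • obj T0l)) ≃* ↥Ktrio := conjStab hg (obj T0l)


theorem exists_swap (a b : ℕ) (ha : a ∈ T0l) (hb : b ∈ T0l) (hab : a ≠ b) :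
    ∃ k ∈ Ktrio, k • mset a = mset b ∧ k • mset b = mset a ∧
      ∀ c ∈ T0l, c ≠ a → c ≠ b → k • mset c = mset c := by
  have h := swaps_ok
  rw [List.all_eq_true] at h
  have h1 := h a ha
  rw [List.all_eq_true] at h1
  have h2 := h1 b hb
  simp only [Bool.or_eq_true, beq_iff_eq, List.any_eq_true, Bool.and_eq_true,
    List.all_eq_true] at h2
  rcases h2 with h2 | ⟨l, hl, ⟨⟨⟨hM, hab'⟩, hba'⟩, hc⟩⟩
  · exact absurd h2 hab
  · have hp := (mem_K_of hM).1
    refine ⟨permL l, (mem_K_of hM).2, ?_, ?_, ?_⟩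
    · rw [permL_smul_mset hp, hab']
    · rw [permL_smul_mset hp, hba']
    · intro c hc' hca hcb
      rw [permL_smul_mset hp]
      rcases hc c hc' with (h3 | h3) | h3
      · exact absurd h3 hca
      · exact absurd h3 hcb
      · rw [h3]

theorem part1 {g₀ : Equiv.Perm GolayPt} (hg₀ : g₀ ∈ M24) (e : Equiv.Perm ↥(g₀ • obj T0l)) :
    ∃ g ∈ MulAction.stabilizer ↥M24 (g₀ • obj T0l), ∀ t : ↥(g₀ • obj T0l),
      ((g : ↥M24) : Equiv.Perm GolayPt) • (t : Finset GolayPt)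
        = ((e t : ↥(g₀ • obj T0l)) : Finset GolayPt) := by
  refine Equiv.Perm.swap_induction_on e ?_ ?_
  · exact ⟨1, Subgroup.one_mem _, fun t => one_smul _ _⟩
  · intro f x y hxy ih
    obtain ⟨gf, hgf, hf⟩ := ih
    obtain ⟨x0, hx0, hx0e⟩ := Finset.mem_smul_finset.1 x.2
    obtain ⟨a, ha, rfl⟩ := mem_obj.1 hx0
    obtain ⟨y0, hy0, hy0e⟩ := Finset.mem_smul_finset.1 y.2
    obtain ⟨b, hb, rfl⟩ := mem_obj.1 hy0
    have hab : a ≠ b := by
      rintro rfl
      exact hxy (Subtype.ext (hx0e.symm.trans hy0e))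
    obtain ⟨k, hk, hkab, hkba, hkc⟩ := exists_swap a b ha hb hab
    have hkM : k ∈ M24 := hk.1
    have hkS : k • obj T0l = obj T0l := hk.2
    refine ⟨⟨g₀ * k * g₀⁻¹, M24.mul_mem (M24.mul_mem hg₀ hkM) (M24.inv_mem hg₀)⟩ * gf, ?_, ?_⟩
    · apply Subgroup.mul_mem _ _ hgf
      rw [MulAction.mem_stabilizer_iff]
      show (g₀ * k * g₀⁻¹) • (g₀ • obj T0l) = g₀ • obj T0l
      rw [mul_smul, mul_smul, inv_smul_smul, hkS]
    · intro t
      show (g₀ * k * g₀⁻¹ * (gf : Equiv.Perm GolayPt)) • (t : Finset GolayPt) = _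
      rw [mul_smul, hf t, Equiv.Perm.mul_apply]
      generalize f t = u
      obtain ⟨u0, hu0, hu0e⟩ := Finset.mem_smul_finset.1 u.2
      obtain ⟨c, hc, rfl⟩ := mem_obj.1 hu0
      rw [← hu0e, mul_smul, mul_smul, inv_smul_smul]
      by_cases hux : u = x
      · have hca : mset c = mset a := by
          have h1 : g₀ • mset c = g₀ • mset a := by rw [hu0e, hx0e, hux]
          exact MulAction.injective g₀ h1
        rw [hux, Equiv.swap_apply_left, hca, hkab, hy0e]
      · by_cases huy : u = y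
        · have hcb : mset c = mset b := by
            have h1 : g₀ • mset c = g₀ • mset b := by rw [hu0e, hy0e, huy]
            exact MulAction.injective g₀ h1
          rw [huy, Equiv.swap_apply_right, hcb, hkba, hx0e]
        · rw [Equiv.swap_apply_of_ne_of_ne hux huy]
          have hca : c ≠ a := by
            rintro rfl
            exact hux (Subtype.ext (hu0e.symm.trans hx0e))
          have hcb : c ≠ b := by
            rintro rfl
            exact huy (Subtype.ext (hu0e.symm.trans hy0e))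
          rw [hkc c hc hca hcb, hu0e]

/-- Structure of a trio stabiliser: every permutation of the three octads is induced, and there is a normal subgroup of order 64 of elements squaring to the identity whose quotient is isomorphic to the product of GL(3, 2) with the symmetric group of degree 3. -/
theorem result (T : Finset (Finset Cfsg.GolayPt)) (hT : T ∈ Cfsg.trios) : (∀ e : Equiv.Perm ↥T, ∃ g ∈ MulAction.stabilizer Cfsg.M24 T, ∀ o : ↥T, (g : Equiv.Perm Cfsg.GolayPt) • (o : Finset Cfsg.GolayPt) = ((e o : ↥T) : Finset Cfsg.GolayPt)) ∧ ∃ (N : Subgroup ↥(MulAction.stabilizer Cfsg.M24 T)) (_ : N.Normal), Nat.card N = 64 ∧ (∀ x ∈ N, x * x = 1) ∧ Nonempty (↥(MulAction.stabilizer Cfsg.M24 T) ⧸ N ≃* GL (Fin 3) (ZMod 2) × Equiv.Perm (Fin 3)) := by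
  obtain ⟨g, hg, rfl⟩ := exists_smul_eq_trio hT
  haveI hn : (N'.map (eT hg).symm.toMonoidHom).Normal :=
    Subgroup.Normal.map N'_normal _ (eT hg).symm.surjective
  refine ⟨fun e => part1 hg e, N'.map (eT hg).symm.toMonoidHom, hn, ?_, ?_, ⟨?_⟩⟩
  · rw [Subgroup.card_map_of_injective (eT hg).symm.injective]
    exact card_N'
  · rintro x ⟨n, hn', rfl⟩
    have h1 : n * n = 1 := by
      apply Subtype.ext
      exact N0_sq hn'
    show (eT hg).symm n * (eT hg).symm n = 1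
    rw [← map_mul, h1, map_one]
  · exact (QuotientGroup.congr N' (N'.map (eT hg).symm.toMonoidHom) (eT hg).symm
      rfl).symm.trans e0

end Cfsg.Agent.S1558
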