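import Cfsg.Statements.S1560
import Mathlib
import Cfsg.Agent.Lib.Helper1.M24Cfg
import Cfsg.Agent.S0368

set_option autoImplicit false
open scoped Pointwise
open Cfsg

namespace Cfsg.Agent.S1560


open Cfsg.Agent.Lib.Helper1 in
set_option maxRecDepth 1000000 in
theorem base1 : ((allWords gbasis).filter (fun n => pcI 24 n == 12)).all
    (fun n => n == 28637 || [0, 4, 6, 8].contains (pcI 24 (28637 &&& n))) = true := by
  decide +kernel

open Cfsg.Agent.Lib.Helper1 in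
set_option maxRecDepth 1000000 in
theorem cnt4 : ((allWords gbasis).filter
    (fun n => pcI 24 n == 12 && pcI 24 (28637 &&& n) == 4)).length = 495 := by decide +kernel

open Cfsg.Agent.Lib.Helper1 in
set_option maxRecDepth 1000000 in
theorem cnt6 : ((allWords gbasis).filter
    (fun n => pcI 24 n == 12 && pcI 24 (28637 &&& n) == 6)).length = 1584 := by decide +kernel

open Cfsg.Agent.Lib.Helper1 in
set_option maxRecDepth 1000000 in
theorem cnt8 : ((allWords gbasis).filter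
    (fun n => pcI 24 n == 12 && pcI 24 (28637 &&& n) == 8)).length = 495 := by decide +kernel

open Cfsg.Agent.Lib.Helper1 in
theorem base_set (k : ℕ) : {d' : Finset Cfsg.GolayPt | d' ∈ Cfsg.dodecads ∧ (S 28637 ∩ d').card = k}
    = {b : Finset Cfsg.GolayPt | ∃ n ∈ allWords gbasis,
        (pcI 24 n == 12 && pcI 24 (28637 &&& n) == k) = true ∧ b = S n} := by
  ext b
  simp only [Set.mem_setOf_eq, mem_dodecads_iff, Bool.and_eq_true, beq_iff_eq]
  constructor
  · rintro ⟨⟨n, hn, h12, rfl⟩, hk⟩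
    rw [S_inter, S_card] at hk
    exact ⟨n, hn, ⟨h12, hk⟩, rfl⟩
  · rintro ⟨n, hn, ⟨h12, hk⟩, rfl⟩
    refine ⟨⟨n, hn, h12, rfl⟩, ?_⟩
    rw [S_inter, S_card]; exact hk

open Cfsg.Agent.Lib.Helper1 in
theorem transport (g : Equiv.Perm Cfsg.GolayPt) (hg : g ∈ Cfsg.M24) (k : ℕ) :
    {d' : Finset Cfsg.GolayPt | d' ∈ Cfsg.dodecads ∧ (g • S 28637 ∩ d').card = k}.ncard
      = {d' : Finset Cfsg.GolayPt | d' ∈ Cfsg.dodecads ∧ (S 28637 ∩ d').card = k}.ncard := by
  apply ncard_transport g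
  intro b
  simp only [Set.mem_setOf_eq]
  rw [smul_mem_dodecads_iff g⁻¹ (Cfsg.M24.inv_mem hg), card_smul_inter]

/-- Intersection numbers of dodecads: a dodecad meets every other dodecad in 0, 4, 6 or 8 points, meeting 495 of them in 4 points, 1584 in 6 points and 495 in 8 points. -/
theorem result (d : Finset Cfsg.GolayPt) (hd : d ∈ Cfsg.dodecads) : (∀ d' ∈ Cfsg.dodecads, d' ≠ d → (d ∩ d').card = 0 ∨ (d ∩ d').card = 4 ∨ (d ∩ d').card = 6 ∨ (d ∩ d').card = 8) ∧ {d' : Finset Cfsg.GolayPt | d' ∈ Cfsg.dodecads ∧ (d ∩ d').card = 4}.ncard = 495 ∧ {d' : Finset Cfsg.GolayPt | d' ∈ Cfsg.dodecads ∧ (d ∩ d').card = 6}.ncard = 1584 ∧ {d' : Finset Cfsg.GolayPt | d' ∈ Cfsg.dodecads ∧ (d ∩ d').card = 8}.ncard = 495 := by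
  obtain ⟨g, hg, rfl⟩ := Cfsg.Agent.S0368.reach d hd
  refine ⟨?_, ?_, ?_, ?_⟩
  · intro d' hd' hne
    rw [Cfsg.Agent.Lib.Helper1.card_smul_inter]
    have hd'' : g⁻¹ • d' ∈ Cfsg.dodecads :=
      (Cfsg.Agent.Lib.Helper1.smul_mem_dodecads_iff g⁻¹ (Cfsg.M24.inv_mem hg) d').2 hd'
    obtain ⟨n, hn, h12, hnS⟩ := (Cfsg.Agent.Lib.Helper1.mem_dodecads_iff _).1 hd''
    rw [hnS, Cfsg.Agent.Lib.Helper1.S_inter, Cfsg.Agent.Lib.Helper1.S_card]
    have h1 := List.all_eq_true.1 base1 n (List.mem_filter.2 ⟨hn, by simpa using h12⟩)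
    rw [Bool.or_eq_true] at h1
    rcases h1 with h1 | h1
    · exfalso
      apply hne
      have : n = 28637 := by simpa using h1
      rw [this] at hnS
      show d' = g • Cfsg.Agent.Lib.Helper1.S 28637
      rw [← hnS, smul_inv_smul]
    · simp at h1
      omega
  · rw [transport g hg 4, base_set 4, Cfsg.Agent.Lib.Helper1.ncard_filter]
    exact cnt4
  · rw [transport g hg 6, base_set 6, Cfsg.Agent.Lib.Helper1.ncard_filter]
    exact cnt6
  · rw [transport g hg 8, base_set 8, Cfsg.Agent.Lib.Helper1.ncard_filter]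
    exact cnt8

end Cfsg.Agent.S1560
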