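import Cfsg.Statements.S1562
import Mathlib
import Cfsg.Agent.Lib.Helper1.M24Fix5

set_option autoImplicit false
open scoped Pointwise
open Cfsg

namespace Cfsg.Agent.S1562


open Cfsg.Agent.Lib.Helper1 in
theorem cntA (T : Finset Cfsg.GolayPt) (hT : T.card = 3) :
    {U : Finset Cfsg.GolayPt | U.card = 3 ∧ Disjoint T U
      ∧ (∃ o ∈ Cfsg.octads, T ∪ U ⊆ o)}.ncard = 210 := by
  classical
  obtain ⟨Bf, hBf, -⟩ := exists_blockFinset Cfsg.octads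
  have h1 := count_in_octad T 3 (by omega) Bf hBf
  have h2 := octads_through T (by omega) Bf hBf
  rw [hT] at h1 h2
  have c1 : Nat.choose (8 - 3) 3 = 10 := by decide
  have c2 : Nat.choose (8 - 3) (5 - 3) = 10 := by decide
  have c3 : Nat.choose (24 - 3) (5 - 3) = 210 := by decide +kernel
  rw [c1] at h1
  rw [c2, c3] at h2
  rw [h1]
  omega

open Cfsg.Agent.Lib.Helper1 in
theorem cntB (T : Finset Cfsg.GolayPt) (hT : T.card = 3) :
    {U : Finset Cfsg.GolayPt | U.card = 3 ∧ Disjoint T U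
      ∧ ¬ (∃ o ∈ Cfsg.octads, T ∪ U ⊆ o)}.ncard = 1120 := by
  classical
  have h := Set.ncard_inter_add_ncard_diff_eq_ncard
    {U : Finset Cfsg.GolayPt | U.card = 3 ∧ Disjoint T U}
    {U : Finset Cfsg.GolayPt | ∃ o ∈ Cfsg.octads, T ∪ U ⊆ o} (Set.toFinite _)
  have e1 : {U : Finset Cfsg.GolayPt | U.card = 3 ∧ Disjoint T U}
      ∩ {U : Finset Cfsg.GolayPt | ∃ o ∈ Cfsg.octads, T ∪ U ⊆ o}
      = {U : Finset Cfsg.GolayPt | U.card = 3 ∧ Disjoint T U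
        ∧ (∃ o ∈ Cfsg.octads, T ∪ U ⊆ o)} := by
    ext U
    constructor
    · rintro ⟨⟨h1, h2⟩, h3⟩
      exact ⟨h1, h2, h3⟩
    · rintro ⟨h1, h2, h3⟩
      exact ⟨⟨h1, h2⟩, h3⟩
  have e2 : {U : Finset Cfsg.GolayPt | U.card = 3 ∧ Disjoint T U}
      \ {U : Finset Cfsg.GolayPt | ∃ o ∈ Cfsg.octads, T ∪ U ⊆ o}
      = {U : Finset Cfsg.GolayPt | U.card = 3 ∧ Disjoint T U
        ∧ ¬ (∃ o ∈ Cfsg.octads, T ∪ U ⊆ o)} := by
    ext U
    constructor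
    · rintro ⟨⟨h1, h2⟩, h3⟩
      exact ⟨h1, h2, h3⟩
    · rintro ⟨h1, h2, h3⟩
      exact ⟨⟨h1, h2⟩, h3⟩
  rw [e1, e2, cntA T hT, ncard_disjoint, hT] at h
  have c : Nat.choose (24 - 3) 3 = 1330 := by decide +kernel
  omega

open Cfsg.Agent.Lib.Helper1 in
open scoped Pointwise in
theorem trans3 (T U U' : Finset Cfsg.GolayPt) (hT : T.card = 3) (hU : U.card = 3)
    (hU' : U'.card = 3) (hd : Disjoint T U) (hd' : Disjoint T U')
    (h : (∃ o ∈ Cfsg.octads, T ∪ U ⊆ o) ↔ (∃ o ∈ Cfsg.octads, T ∪ U' ⊆ o)) :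
    ∃ g : Equiv.Perm Cfsg.GolayPt, g ∈ Cfsg.M24 ∧ g • T = T ∧ g • U = U' := by
  classical
  obtain ⟨a, b, c, hab, hac, hbc, rfl⟩ := Finset.card_eq_three.1 hT
  obtain ⟨u1, u2, u3, hu12, hu13, hu23, rfl⟩ := Finset.card_eq_three.1 hU
  obtain ⟨v1, v2, v3, hv12, hv13, hv23, rfl⟩ := Finset.card_eq_three.1 hU'
  have hxo : ∀ o : Finset Cfsg.GolayPt, (∀ i, ![a, b, c, u1, u2, u3] i ∈ o)
      ↔ ({a, b, c} ∪ {u1, u2, u3} ⊆ o) := by
    intro o
    simp [Fin.forall_fin_succ, Finset.subset_iff]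
    tauto
  have hyo : ∀ o : Finset Cfsg.GolayPt, (∀ i, ![a, b, c, v1, v2, v3] i ∈ o)
      ↔ ({a, b, c} ∪ {v1, v2, v3} ⊆ o) := by
    intro o
    simp [Fin.forall_fin_succ, Finset.subset_iff]
    tauto
  simp only [Finset.disjoint_left, Finset.mem_insert, Finset.mem_singleton, forall_eq_or_imp,
    forall_eq, not_or] at hd hd'
  obtain ⟨⟨d11, d12, d13⟩, ⟨d21, d22, d23⟩, d31, d32, d33⟩ := hd
  obtain ⟨⟨e11, e12, e13⟩, ⟨e21, e22, e23⟩, e31, e32, e33⟩ := hd'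
  have hx : Function.Injective ![a, b, c, u1, u2, u3] := by
    apply inj_of_nodup6
    simp [*]
  have hy : Function.Injective ![a, b, c, v1, v2, v3] := by
    apply inj_of_nodup6
    simp [*]
  obtain ⟨g, hg, hgx⟩ := M24_trans6 _ _ hx hy (by simp only [hxo, hyo]; exact h)
  have h0 : g a = a := hgx 0
  have h1 : g b = b := hgx 1
  have h2 : g c = c := hgx 2
  have h3 : g u1 = v1 := hgx 3
  have h4 : g u2 = v2 := hgx 4
  have h5 : g u3 = v3 := hgx 5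
  refine ⟨g, hg, ?_, ?_⟩
  · rw [Finset.smul_finset_insert, Finset.smul_finset_insert, Finset.smul_finset_singleton,
      Equiv.Perm.smul_def, Equiv.Perm.smul_def, Equiv.Perm.smul_def, h0, h1, h2]
  · rw [Finset.smul_finset_insert, Finset.smul_finset_insert, Finset.smul_finset_singleton,
      Equiv.Perm.smul_def, Equiv.Perm.smul_def, Equiv.Perm.smul_def, h3, h4, h5]

/-- Orbits of a triad stabiliser on the triads disjoint from it: the 210 triads inside a common octad with it form one orbit and the remaining 1120 another. -/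
theorem result (T : Finset Cfsg.GolayPt) (hT : T.card = 3) : {U : Finset Cfsg.GolayPt | U.card = 3 ∧ Disjoint T U ∧ (∃ o ∈ Cfsg.octads, T ∪ U ⊆ o)}.ncard = 210 ∧ {U : Finset Cfsg.GolayPt | U.card = 3 ∧ Disjoint T U ∧ ¬ (∃ o ∈ Cfsg.octads, T ∪ U ⊆ o)}.ncard = 1120 ∧ ∀ U U' : Finset Cfsg.GolayPt, U.card = 3 → U'.card = 3 → Disjoint T U → Disjoint T U' → ((∃ o ∈ Cfsg.octads, T ∪ U ⊆ o) ↔ (∃ o ∈ Cfsg.octads, T ∪ U' ⊆ o)) → ∃ g : Equiv.Perm Cfsg.GolayPt, g ∈ Cfsg.M24 ∧ g • T = T ∧ g • U = U' := by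
  exact ⟨cntA T hT, cntB T hT,
    fun U U' hU hU' hd hd' h => trans3 T U U' hT hU hU' hd hd' h⟩

end Cfsg.Agent.S1562
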