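import Cfsg.Statements.S1563
import Mathlib
import Cfsg.Agent.Lib.Helper1.M24Sets
import Cfsg.Agent.Lib.Helper1.Maximal

set_option autoImplicit false
open scoped Pointwise
open Cfsg

namespace Cfsg.Agent.S1563


theorem total2 : {t : Finset Cfsg.GolayPt | t.card = 2}.ncard = 276 := by
  classical
  have : {t : Finset Cfsg.GolayPt | t.card = 2}
      = ↑(Finset.powersetCard 2 (Finset.univ : Finset Cfsg.GolayPt)) := by
    ext t; simp
  rw [this, Set.ncard_coe_finset, Finset.card_powersetCard, Finset.card_univ]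
  decide

theorem cnt0 (s : Finset Cfsg.GolayPt) (hs : s.card = 2) :
    {t : Finset Cfsg.GolayPt | t.card = 2 ∧ (s ∩ t).card = 0}.ncard = 231 := by
  classical
  have : {t : Finset Cfsg.GolayPt | t.card = 2 ∧ (s ∩ t).card = 0}
      = ↑(Finset.powersetCard 2 sᶜ) := by
    ext t
    simp only [Set.mem_setOf_eq, Finset.mem_coe, Finset.mem_powersetCard, Finset.card_eq_zero]
    constructor
    · rintro ⟨h1, h2⟩
      refine ⟨?_, h1⟩
      intro x hx
      rw [Finset.mem_compl]
      intro hxs
      have : x ∈ s ∩ t := Finset.mem_inter.2 ⟨hxs, hx⟩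
      rw [h2] at this
      exact absurd this (Finset.notMem_empty x)
    · rintro ⟨h1, h2⟩
      refine ⟨h2, ?_⟩
      ext x
      simp only [Finset.mem_inter, Finset.notMem_empty, iff_false, not_and]
      intro hxs hxt
      have := h1 hxt
      rw [Finset.mem_compl] at this
      exact this hxs
  rw [this, Set.ncard_coe_finset, Finset.card_powersetCard, Finset.card_compl, hs]
  decide

theorem inter_eq_two (s t : Finset Cfsg.GolayPt) (hs : s.card = 2) (ht : t.card = 2) :
    (s ∩ t).card = 2 ↔ t = s := by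
  classical
  constructor
  · intro h
    have h1 : s ∩ t = s := Finset.eq_of_subset_of_card_le Finset.inter_subset_left (by omega)
    have h2 : s ∩ t = t := Finset.eq_of_subset_of_card_le Finset.inter_subset_right (by omega)
    rw [← h2, h1]
  · rintro rfl
    rw [Finset.inter_self, hs]

theorem inter_le_two (s t : Finset Cfsg.GolayPt) (hs : s.card = 2) :
    (s ∩ t).card = 0 ∨ (s ∩ t).card = 1 ∨ (s ∩ t).card = 2 := by
  classical
  have := Finset.card_le_card (Finset.inter_subset_left (s₁ := s) (s₂ := t))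
  omega

theorem cnt1 (s : Finset Cfsg.GolayPt) (hs : s.card = 2) :
    {t : Finset Cfsg.GolayPt | t.card = 2 ∧ (s ∩ t).card = 1}.ncard = 44 := by
  classical
  have h0 := cnt0 s hs
  have htot := total2
  set U : Finset (Finset Cfsg.GolayPt) := Finset.powersetCard 2 Finset.univ with hU
  have hUmem : ∀ t, t ∈ U ↔ t.card = 2 := by intro t; simp [hU]
  have hfib := Finset.card_eq_sum_card_fiberwise (s := U) (t := ({0, 1, 2} : Finset ℕ))
    (f := fun t => (s ∩ t).card) (by
      intro t _
      show (s ∩ t).card ∈ ({0, 1, 2} : Finset ℕ)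
      rcases inter_le_two s t hs with h | h | h <;> rw [h] <;> decide)
  have hj : ∀ j : ℕ, (U.filter (fun t => (s ∩ t).card = j)).card
      = {t : Finset Cfsg.GolayPt | t.card = 2 ∧ (s ∩ t).card = j}.ncard := by
    intro j
    rw [← Set.ncard_coe_finset]
    congr 1
    ext t
    simp only [Finset.coe_filter, Set.mem_setOf_eq, hUmem]
  have h2 : {t : Finset Cfsg.GolayPt | t.card = 2 ∧ (s ∩ t).card = 2}.ncard = 1 := by
    have : {t : Finset Cfsg.GolayPt | t.card = 2 ∧ (s ∩ t).card = 2} = {s} := by
      ext t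
      simp only [Set.mem_setOf_eq, Set.mem_singleton_iff]
      constructor
      · rintro ⟨h1, h2⟩
        exact (inter_eq_two s t hs h1).1 h2
      · rintro rfl
        exact ⟨hs, (inter_eq_two t t hs hs).2 rfl⟩
    rw [this, Set.ncard_singleton]
  have hUc : U.card = 276 := by
    rw [← htot, ← Set.ncard_coe_finset]
    congr 1
    ext t
    simp only [Finset.mem_coe, hUmem, Set.mem_setOf_eq]
  rw [Finset.sum_insert (by decide), Finset.sum_insert (by decide), Finset.sum_singleton,
    hj 0, hj 1, hj 2, h0, h2, hUc] at hfib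
  omega

open scoped Pointwise in
theorem orbit_duad (s : Finset Cfsg.GolayPt) (hs : s.card = 2) :
    MulAction.orbit ↥Cfsg.M24 s = {t : Finset Cfsg.GolayPt | t.card = 2} := by
  classical
  ext t
  constructor
  · rintro ⟨g, rfl⟩
    show ((g : Equiv.Perm Cfsg.GolayPt) • s).card = 2
    rw [Finset.card_smul_finset]; exact hs
  · intro ht
    have ht' : t.card = 2 := ht
    obtain ⟨g, hg, -, h2⟩ := Cfsg.Agent.Lib.Helper1.two_set_transitive ∅ s t
      (by rw [Finset.empty_union, hs]; norm_num) (by rw [hs, ht']) (by simp)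
    exact ⟨⟨g, hg⟩, h2⟩

open scoped Pointwise in
theorem key (s : Finset Cfsg.GolayPt) (hs : s.card = 2) (B : Set (Finset Cfsg.GolayPt))
    (hsB : s ∈ B) (hBo : B ⊆ {t : Finset Cfsg.GolayPt | t.card = 2}) (hne : B ≠ {s})
    (hinv : ∀ g ∈ Cfsg.M24, g • s = s → ∀ y ∈ B, g • y ∈ B) (hdvd : B.ncard ∣ 276) :
    B = {t : Finset Cfsg.GolayPt | t.card = 2} := by
  classical
  have c0 := cnt0 s hs
  have c1 := cnt1 s hs
  have hdich : ∀ j : ℕ, (∃ y ∈ B, (s ∩ y).card = j) →
      {t : Finset Cfsg.GolayPt | t.card = 2 ∧ (s ∩ t).card = j} ⊆ B := by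
    rintro j ⟨y, hy, hyj⟩ z ⟨hz, hzj⟩
    have hy2 : y.card = 2 := hBo hy
    obtain ⟨g, hg, hgs, hgy⟩ := Cfsg.Agent.Lib.Helper1.two_set_transitive s y z
      (by
        have := Finset.card_union_le s y
        omega) (by rw [hy2, hz]) (hyj.trans hzj.symm)
    rw [← hgy]
    exact hinv g hg hgs y hy
  set Bf : Finset (Finset Cfsg.GolayPt) := Finset.univ.filter (fun y => y ∈ B) with hBf
  have hBfB : B = ↑Bf := by ext y; simp [hBf]
  have hcardB : B.ncard = Bf.card := by rw [hBfB, Set.ncard_coe_finset]
  have hfib := Finset.card_eq_sum_card_fiberwise (s := Bf) (t := ({0, 1, 2} : Finset ℕ))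
    (f := fun y => (s ∩ y).card) (by
      intro y _
      show (s ∩ y).card ∈ ({0, 1, 2} : Finset ℕ)
      rcases inter_le_two s y hs with h | h | h <;> rw [h] <;> decide)
  have h8 : (Bf.filter (fun y => (s ∩ y).card = 2)).card = 1 := by
    have : Bf.filter (fun y => (s ∩ y).card = 2) = {s} := by
      ext y
      simp only [Finset.mem_filter, Finset.mem_singleton, hBf, Finset.mem_univ, true_and]
      constructor
      · rintro ⟨hyB, hy8⟩
        exact (inter_eq_two s y hs (hBo hyB)).1 hy8
      · rintro rfl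
        exact ⟨hsB, (inter_eq_two y y hs hs).2 rfl⟩
    rw [this, Finset.card_singleton]
  have hj : ∀ j : ℕ, (Bf.filter (fun y => (s ∩ y).card = j)).card
      = if (∃ y ∈ B, (s ∩ y).card = j) then
          {t : Finset Cfsg.GolayPt | t.card = 2 ∧ (s ∩ t).card = j}.ncard else 0 := by
    intro j
    split_ifs with hex
    · rw [← Set.ncard_coe_finset]
      congr 1
      ext y
      simp only [Finset.coe_filter, Set.mem_setOf_eq, hBf, Finset.mem_filter, Finset.mem_univ, true_and]
      constructor
      · rintro ⟨hyB, hyj⟩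
        exact ⟨hBo hyB, hyj⟩
      · intro hy
        exact ⟨hdich j hex hy, hy.2⟩
    · rw [Finset.card_eq_zero]
      ext y
      simp only [Finset.mem_filter, hBf, Finset.mem_univ, true_and, Finset.notMem_empty, iff_false]
      rintro ⟨hyB, hyj⟩
      exact hex ⟨y, hyB, hyj⟩
  rw [Finset.sum_insert (by decide), Finset.sum_insert (by decide),
    Finset.sum_singleton, h8, hj 0, hj 1, c0, c1, ← hcardB] at hfib
  rw [hfib] at hdvd
  by_cases a0 : ∃ y ∈ B, (s ∩ y).card = 0 <;> by_cases a1 : ∃ y ∈ B, (s ∩ y).card = 1 <;>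
    simp only [a0, a1, if_true, if_false] at hdvd
  · apply Set.Subset.antisymm hBo
    intro y hy
    have hy2 : y.card = 2 := hy
    rcases inter_le_two s y hs with h | h | h
    · exact hdich 0 a0 ⟨hy2, h⟩
    · exact hdich 1 a1 ⟨hy2, h⟩
    · rw [(inter_eq_two s y hs hy2).1 h]; exact hsB
  · exact absurd hdvd (by decide)
  · exact absurd hdvd (by decide)
  · exfalso
    apply hne
    ext y
    rw [Set.mem_singleton_iff]
    constructor
    · intro hyB
      rcases inter_le_two s y hs with h | h | h
      · exact absurd ⟨y, hyB, h⟩ a0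
      · exact absurd ⟨y, hyB, h⟩ a1
      · exact (inter_eq_two s y hs (hBo hyB)).1 h
    · rintro rfl
      exact hsB

/-- The stabiliser of a pair of points (setwise) is a maximal proper subgroup of the group of the length-24 code. -/
theorem result (s : Finset Cfsg.GolayPt) (hs : s.card = 2) : IsCoatom (MulAction.stabilizer Cfsg.M24 s) := by
  classical
  apply Cfsg.Agent.Lib.Helper1.isCoatom_stabilizer_of_invariant
  · obtain ⟨t, ht, hne⟩ : ∃ t : Finset Cfsg.GolayPt, t.card = 2 ∧ t ≠ s := by
      by_contra hcon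
      have hsub : {t : Finset Cfsg.GolayPt | t.card = 2} ⊆ {s} := by
        intro y hy
        by_contra hyo
        exact hcon ⟨y, hy, hyo⟩
      have h1 := Set.ncard_le_ncard hsub (Set.finite_singleton s)
      rw [total2, Set.ncard_singleton] at h1
      omega
    have h2 : t ∈ MulAction.orbit ↥Cfsg.M24 s := by rw [orbit_duad s hs]; exact ht
    obtain ⟨g, hg⟩ := h2
    refine ⟨g, ?_⟩
    intro h
    apply hne
    rw [← hg]
    exact h
  · intro B hoB hBo hne hinv hdvd
    rw [orbit_duad s hs] at hBo hdvd ⊢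
    rw [total2] at hdvd
    refine key s hs B hoB hBo hne ?_ hdvd
    intro g hg hgo y hy
    exact hinv ⟨g, hg⟩ (by rw [MulAction.mem_stabilizer_iff]; exact hgo) y hy

end Cfsg.Agent.S1563
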