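import Cfsg.Statements.S1564
import Mathlib
import Cfsg.Agent.Lib.Helper1.M24Sets
import Cfsg.Agent.Lib.Helper1.Maximal
import Cfsg.Agent.Lib.Helper1.Classes
import Cfsg.Agent.S1562

set_option autoImplicit false
open scoped Pointwise
open Cfsg

namespace Cfsg.Agent.S1564


open Classical in
/-- The class of a triad relative to the triad `s`. -/
noncomputable def cls (s y : Finset Cfsg.GolayPt) : ℕ :=
  if (s ∩ y).card = 3 then 0 else if (s ∩ y).card = 2 then 1 else if (s ∩ y).card = 1 then 2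
  else if (∃ o ∈ Cfsg.octads, s ∪ y ⊆ o) then 3 else 4

theorem cls_spec (s y : Finset Cfsg.GolayPt) (hs : s.card = 3) (hy : y.card = 3) :
    (cls s y = 0 ↔ y = s) ∧ (cls s y = 1 ↔ (s ∩ y).card = 2) ∧ (cls s y = 2 ↔ (s ∩ y).card = 1)
    ∧ (cls s y = 3 ↔ (Disjoint s y ∧ ∃ o ∈ Cfsg.octads, s ∪ y ⊆ o))
    ∧ (cls s y = 4 ↔ (Disjoint s y ∧ ¬ ∃ o ∈ Cfsg.octads, s ∪ y ⊆ o)) ∧ cls s y < 5 := by
  classical
  have hdisj : Disjoint s y ↔ (s ∩ y).card = 0 := by
    rw [Finset.card_eq_zero, Finset.disjoint_iff_inter_eq_empty]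
  have h3 : (s ∩ y).card = 3 ↔ y = s := by
    constructor
    · intro h
      have h1 : s ∩ y = s := Finset.eq_of_subset_of_card_le Finset.inter_subset_left (by omega)
      have h2 : s ∩ y = y := Finset.eq_of_subset_of_card_le Finset.inter_subset_right (by omega)
      rw [← h2, h1]
    · rintro rfl
      rw [Finset.inter_self, hs]
  have hle : (s ∩ y).card ≤ 3 := by
    have := Finset.card_le_card (Finset.inter_subset_left (s₁ := s) (s₂ := y))
    omega
  have hm : (s ∩ y).card = 0 ∨ (s ∩ y).card = 1 ∨ (s ∩ y).card = 2 ∨ (s ∩ y).card = 3 := by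
    omega
  rw [hdisj, ← h3]
  unfold cls
  rcases hm with h | h | h | h <;> by_cases hP : (∃ o ∈ Cfsg.octads, s ∪ y ⊆ o) <;>
    simp [h, hP]

theorem total3 : {t : Finset Cfsg.GolayPt | t.card = 3}.ncard = 2024 := by
  classical
  have : {t : Finset Cfsg.GolayPt | t.card = 3}
      = ↑(Finset.powersetCard 3 (Finset.univ : Finset Cfsg.GolayPt)) := by
    ext t; simp
  rw [this, Set.ncard_coe_finset, Finset.card_powersetCard, Finset.card_univ]
  decide +kernel

open scoped Pointwise in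
theorem orbit_triad (s : Finset Cfsg.GolayPt) (hs : s.card = 3) :
    MulAction.orbit ↥Cfsg.M24 s = {t : Finset Cfsg.GolayPt | t.card = 3} := by
  classical
  ext t
  constructor
  · rintro ⟨g, rfl⟩
    show ((g : Equiv.Perm Cfsg.GolayPt) • s).card = 3
    rw [Finset.card_smul_finset]; exact hs
  · intro ht
    have ht' : t.card = 3 := ht
    obtain ⟨g, hg, -, h2⟩ := Cfsg.Agent.Lib.Helper1.two_set_transitive ∅ s t
      (by rw [Finset.empty_union, hs]; norm_num) (by rw [hs, ht']) (by simp)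
    exact ⟨⟨g, hg⟩, h2⟩

open Cfsg.Agent.Lib.Helper1 in
open scoped Pointwise in
theorem key (s : Finset Cfsg.GolayPt) (hs : s.card = 3) (B : Set (Finset Cfsg.GolayPt))
    (hsB : s ∈ B) (hBo : B ⊆ {t : Finset Cfsg.GolayPt | t.card = 3}) (hne : B ≠ {s})
    (hinv : ∀ g ∈ Cfsg.M24, g • s = s → ∀ y ∈ B, g • y ∈ B) (hdvd : B.ncard ∣ 2024) :
    B = {t : Finset Cfsg.GolayPt | t.card = 3} := by
  classical
  have h24 : Fintype.card Cfsg.GolayPt = 24 := by decide
  have hc5 : ∀ y ∈ {t : Finset Cfsg.GolayPt | t.card = 3}, cls s y < 5 :=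
    fun y hy => (cls_spec s y hs hy).2.2.2.2.2
  have hdich : ∀ j, (∃ y ∈ B, cls s y = j) →
      {y | y ∈ {t : Finset Cfsg.GolayPt | t.card = 3} ∧ cls s y = j} ⊆ B := by
    rintro j ⟨y, hyB, hyj⟩ z ⟨hz, hzj⟩
    have hy3 : y.card = 3 := hBo hyB
    have hz3 : z.card = 3 := hz
    have hg : ∃ g ∈ Cfsg.M24, g • s = s ∧ g • y = z := by
      obtain ⟨sy0, sy1, sy2, sy3, sy4, sy5⟩ := cls_spec s y hs hy3
      obtain ⟨sz0, sz1, sz2, sz3, sz4, sz5⟩ := cls_spec s z hs hz3
      have hj5 : j < 5 := hyj ▸ sy5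
      interval_cases j
      · have e1 := sy0.1 hyj
        have e2 := sz0.1 hzj
        exact ⟨1, Cfsg.M24.one_mem, one_smul _ _, by rw [one_smul, e1, e2]⟩
      · have e1 := sy1.1 hyj
        exact two_set_transitive s y z (by
          have := Finset.card_union_add_card_inter s y
          omega) (by rw [hy3, hz3]) (e1.trans (sz1.1 hzj).symm)
      · have e1 := sy2.1 hyj
        exact two_set_transitive s y z (by
          have := Finset.card_union_add_card_inter s y
          omega) (by rw [hy3, hz3]) (e1.trans (sz2.1 hzj).symm)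
      · obtain ⟨hd, ho⟩ := sy3.1 hyj
        obtain ⟨hd', ho'⟩ := sz3.1 hzj
        exact Cfsg.Agent.S1562.trans3 s y z hs hy3 hz3 hd hd' (iff_of_true ho ho')
      · obtain ⟨hd, ho⟩ := sy4.1 hyj
        obtain ⟨hd', ho'⟩ := sz4.1 hzj
        exact Cfsg.Agent.S1562.trans3 s y z hs hy3 hz3 hd hd' (iff_of_false ho ho')
    obtain ⟨g, hg, hgs, hgy⟩ := hg
    rw [← hgy]
    exact hinv g hg hgs y hyB
  have hcard := invariant_ncard {t : Finset Cfsg.GolayPt | t.card = 3} B (cls s) 5 hBo hc5 hdich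
  have n0 : {y | y ∈ {t : Finset Cfsg.GolayPt | t.card = 3} ∧ cls s y = 0}.ncard = 1 := by
    have : {y | y ∈ {t : Finset Cfsg.GolayPt | t.card = 3} ∧ cls s y = 0} = {s} := by
      ext y
      rw [Set.mem_singleton_iff]
      constructor
      · rintro ⟨hy, hc⟩
        exact (cls_spec s y hs hy).1.1 hc
      · rintro rfl
        exact ⟨hs, (cls_spec y y hs hs).1.2 rfl⟩
    rw [this, Set.ncard_singleton]
  have n1 : {y | y ∈ {t : Finset Cfsg.GolayPt | t.card = 3} ∧ cls s y = 1}.ncard = 63 := by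
    have : {y | y ∈ {t : Finset Cfsg.GolayPt | t.card = 3} ∧ cls s y = 1}
        = {U : Finset Cfsg.GolayPt | U.card = 3 ∧ (s ∩ U).card = 2} := by
      ext y
      constructor
      · rintro ⟨hy, hc⟩
        exact ⟨hy, (cls_spec s y hs hy).2.1.1 hc⟩
      · rintro ⟨hy, hc⟩
        exact ⟨hy, (cls_spec s y hs hy).2.1.2 hc⟩
    rw [this, ncard_inter_card s 3 2 (by norm_num), hs, h24]
    decide +kernel
  have n2 : {y | y ∈ {t : Finset Cfsg.GolayPt | t.card = 3} ∧ cls s y = 2}.ncard = 630 := by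
    have : {y | y ∈ {t : Finset Cfsg.GolayPt | t.card = 3} ∧ cls s y = 2}
        = {U : Finset Cfsg.GolayPt | U.card = 3 ∧ (s ∩ U).card = 1} := by
      ext y
      constructor
      · rintro ⟨hy, hc⟩
        exact ⟨hy, (cls_spec s y hs hy).2.2.1.1 hc⟩
      · rintro ⟨hy, hc⟩
        exact ⟨hy, (cls_spec s y hs hy).2.2.1.2 hc⟩
    rw [this, ncard_inter_card s 3 1 (by norm_num), hs, h24]
    decide +kernel
  have n3 : {y | y ∈ {t : Finset Cfsg.GolayPt | t.card = 3} ∧ cls s y = 3}.ncard = 210 := by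
    have : {y | y ∈ {t : Finset Cfsg.GolayPt | t.card = 3} ∧ cls s y = 3}
        = {U : Finset Cfsg.GolayPt | U.card = 3 ∧ Disjoint s U
          ∧ (∃ o ∈ Cfsg.octads, s ∪ U ⊆ o)} := by
      ext y
      constructor
      · rintro ⟨hy, hc⟩
        exact ⟨hy, (cls_spec s y hs hy).2.2.2.1.1 hc⟩
      · rintro ⟨hy, hc⟩
        exact ⟨hy, (cls_spec s y hs hy).2.2.2.1.2 hc⟩
    rw [this]
    exact Cfsg.Agent.S1562.cntA s hs
  have n4 : {y | y ∈ {t : Finset Cfsg.GolayPt | t.card = 3} ∧ cls s y = 4}.ncard = 1120 := by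
    have : {y | y ∈ {t : Finset Cfsg.GolayPt | t.card = 3} ∧ cls s y = 4}
        = {U : Finset Cfsg.GolayPt | U.card = 3 ∧ Disjoint s U
          ∧ ¬ (∃ o ∈ Cfsg.octads, s ∪ U ⊆ o)} := by
      ext y
      constructor
      · rintro ⟨hy, hc⟩
        exact ⟨hy, (cls_spec s y hs hy).2.2.2.2.1.1 hc⟩
      · rintro ⟨hy, hc⟩
        exact ⟨hy, (cls_spec s y hs hy).2.2.2.2.1.2 hc⟩
    rw [this]
    exact Cfsg.Agent.S1562.cntB s hs
  simp only [Finset.sum_range_succ, Finset.sum_range_zero, zero_add, n0, n1, n2, n3, n4]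
    at hcard
  have p0 : ∃ y ∈ B, cls s y = 0 := ⟨s, hsB, (cls_spec s s hs hs).1.2 rfl⟩
  rw [hcard] at hdvd
  by_cases a1 : ∃ y ∈ B, cls s y = 1 <;> by_cases a2 : ∃ y ∈ B, cls s y = 2 <;>
    by_cases a3 : ∃ y ∈ B, cls s y = 3 <;> by_cases a4 : ∃ y ∈ B, cls s y = 4 <;>
    simp only [p0, a1, a2, a3, a4, if_true, if_false] at hdvd
  all_goals first | exact absurd hdvd (by decide) | skip
  · exact invariant_eq_of_all _ B (cls s) 5 hBo hc5 hdich (by
      intro j hj
      interval_cases j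
      exacts [p0, a1, a2, a3, a4])
  · refine absurd (invariant_eq_singleton _ B (cls s) s hBo hsB
      (fun y hy h0 => ((cls_spec s y hs hy).1).1 h0) ?_) hne
    rintro j hj ⟨y, hyB, hyj⟩
    have h5 : j < 5 := hyj ▸ hc5 y (hBo hyB)
    interval_cases j
    exacts [a1 ⟨y, hyB, hyj⟩, a2 ⟨y, hyB, hyj⟩, a3 ⟨y, hyB, hyj⟩, a4 ⟨y, hyB, hyj⟩]

/-- The stabiliser of a set of three points (setwise) is a maximal proper subgroup of the group of the length-24 code. -/
theorem result (s : Finset Cfsg.GolayPt) (hs : s.card = 3) : IsCoatom (MulAction.stabilizer Cfsg.M24 s) := by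
  classical
  apply Cfsg.Agent.Lib.Helper1.isCoatom_stabilizer_of_invariant
  · obtain ⟨t, ht, hne⟩ : ∃ t : Finset Cfsg.GolayPt, t.card = 3 ∧ t ≠ s := by
      by_contra hcon
      have hsub : {t : Finset Cfsg.GolayPt | t.card = 3} ⊆ {s} := by
        intro y hy
        by_contra hyo
        exact hcon ⟨y, hy, hyo⟩
      have h1 := Set.ncard_le_ncard hsub (Set.finite_singleton s)
      rw [total3, Set.ncard_singleton] at h1
      omega
    have h2 : t ∈ MulAction.orbit ↥Cfsg.M24 s := by rw [orbit_triad s hs]; exact ht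
    obtain ⟨g, hg⟩ := h2
    refine ⟨g, ?_⟩
    intro h
    apply hne
    rw [← hg]
    exact h
  · intro B hoB hBo hne hinv hdvd
    rw [orbit_triad s hs] at hBo hdvd ⊢
    rw [total3] at hdvd
    refine key s hs B hoB hBo hne ?_ hdvd
    intro g hg hgo y hy
    exact hinv ⟨g, hg⟩ (by rw [MulAction.mem_stabilizer_iff]; exact hgo) y hy

end Cfsg.Agent.S1564
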