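import Cfsg.Statements.S1565
import Mathlib
import Cfsg.Agent.Lib.Helper1.M24Base2
import Cfsg.Agent.Lib.Helper1.Maximal
import Cfsg.Agent.S1556
import Cfsg.Agent.S0352
import Cfsg.Agent.S0360
import Cfsg.Agent.S0363

set_option autoImplicit false
open scoped Pointwise
open Cfsg

namespace Cfsg.Agent.S1565


open Cfsg.Agent.Lib.Helper1 in
/-- The property cutting out the relevant enumerated words. -/
def P (n : ℕ) : Bool := pcI 24 n == 8

open Cfsg.Agent.Lib.Helper1 in
/-- The invariant separating the classes. -/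
def inv (n : ℕ) : ℕ := pcI 24 (O5 &&& n)

open Cfsg.Agent.Lib.Helper1 in
set_option maxRecDepth 1000000 in
theorem cnt0 : ((allWords gbasis).filter (fun n => P n && inv n == 0)).length = 30 := by
  decide +kernel

open Cfsg.Agent.Lib.Helper1 in
set_option maxRecDepth 1000000 in
theorem cnt2 : ((allWords gbasis).filter (fun n => P n && inv n == 2)).length = 448 := by
  decide +kernel

open Cfsg.Agent.Lib.Helper1 in
set_option maxRecDepth 1000000 in
theorem cnt4 : ((allWords gbasis).filter (fun n => P n && inv n == 4)).length = 280 := by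
  decide +kernel

open Cfsg.Agent.Lib.Helper1 in
theorem base_mem (b : Finset Cfsg.GolayPt) :
    b ∈ Cfsg.octads ↔ ∃ n ∈ allWords gbasis, P n = true ∧ b = S n := by
  refine (mem_octads_iff b).trans ⟨?_, ?_⟩
  · rintro ⟨n, hn, h8, rfl⟩
    exact ⟨n, hn, by simp [P, h8], rfl⟩
  · rintro ⟨n, hn, hP, rfl⟩
    exact ⟨n, hn, by simpa [P] using hP, rfl⟩

open Cfsg.Agent.Lib.Helper1 in
theorem base_set (k : ℕ) :
    {o' : Finset Cfsg.GolayPt | (o' ∈ Cfsg.octads) ∧ (S O5 ∩ o').card = k}
    = {b : Finset Cfsg.GolayPt | ∃ n ∈ allWords gbasis, (P n && inv n == k) = true ∧ b = S n} := by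
  ext b
  simp only [Set.mem_setOf_eq]
  constructor
  · rintro ⟨h1, h3⟩
    obtain ⟨n, hn, hP, rfl⟩ := (base_mem b).1 h1
    rw [S_inter, S_card] at h3
    exact ⟨n, hn, by simp [hP, inv, h3], rfl⟩
  · rintro ⟨n, hn, hP, rfl⟩
    simp only [Bool.and_eq_true, beq_iff_eq] at hP
    refine ⟨(base_mem (S n)).2 ⟨n, hn, hP.1, rfl⟩, ?_⟩
    rw [S_inter, S_card]; exact hP.2

open Cfsg.Agent.Lib.Helper1 in
open scoped Pointwise in
theorem transport (g : Equiv.Perm Cfsg.GolayPt) (hg : g ∈ Cfsg.M24) (k : ℕ) :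
    {o' : Finset Cfsg.GolayPt | (o' ∈ Cfsg.octads) ∧ (g • S O5 ∩ o').card = k}.ncard
      = {o' : Finset Cfsg.GolayPt | (o' ∈ Cfsg.octads) ∧ (S O5 ∩ o').card = k}.ncard := by
  apply ncard_transport g
  intro b
  simp only [Set.mem_setOf_eq]
  rw [smul_mem_octads_iff g⁻¹ (Cfsg.M24.inv_mem hg), card_smul_inter]
  try simp only [perm_mem_inv_smul]


open scoped Pointwise in
theorem orbit_octad (o : Finset Cfsg.GolayPt) (ho : o ∈ Cfsg.octads) :
    MulAction.orbit ↥Cfsg.M24 o = Cfsg.octads := by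
  classical
  ext o'
  constructor
  · rintro ⟨g, rfl⟩
    exact (Cfsg.Agent.Lib.Helper1.smul_mem_octads_iff g.1 g.2 o).2 ho
  · intro ho'
    obtain ⟨g, hg, h1⟩ := Cfsg.Agent.Lib.Helper1.octad_reach o ho
    obtain ⟨g', hg', h1'⟩ := Cfsg.Agent.Lib.Helper1.octad_reach o' ho'
    refine ⟨⟨g' * g⁻¹, Cfsg.M24.mul_mem hg' (Cfsg.M24.inv_mem hg)⟩, ?_⟩
    show (g' * g⁻¹) • o = o'
    rw [← h1, mul_smul, inv_smul_smul, h1']

open scoped Pointwise in
theorem cntX (o : Finset Cfsg.GolayPt) (ho : o ∈ Cfsg.octads) :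
    {o' : Finset Cfsg.GolayPt | o' ∈ Cfsg.octads ∧ (o ∩ o').card = 0}.ncard = 30
    ∧ {o' : Finset Cfsg.GolayPt | o' ∈ Cfsg.octads ∧ (o ∩ o').card = 2}.ncard = 448
    ∧ {o' : Finset Cfsg.GolayPt | o' ∈ Cfsg.octads ∧ (o ∩ o').card = 4}.ncard = 280 := by
  obtain ⟨g, hg, rfl⟩ := Cfsg.Agent.Lib.Helper1.octad_reach o ho
  refine ⟨?_, ?_, ?_⟩
  · rw [transport g hg 0, base_set 0, Cfsg.Agent.Lib.Helper1.ncard_filter]
    exact cnt0
  · rw [transport g hg 2, base_set 2, Cfsg.Agent.Lib.Helper1.ncard_filter]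
    exact cnt2
  · rw [transport g hg 4, base_set 4, Cfsg.Agent.Lib.Helper1.ncard_filter]
    exact cnt4

open scoped Pointwise in
theorem key (o : Finset Cfsg.GolayPt) (ho : o ∈ Cfsg.octads) (B : Set (Finset Cfsg.GolayPt))
    (hoB : o ∈ B) (hBo : B ⊆ Cfsg.octads) (hne : B ≠ {o})
    (hinv : ∀ g ∈ Cfsg.M24, g • o = o → ∀ y ∈ B, g • y ∈ B) (hdvd : B.ncard ∣ 759) :
    B = Cfsg.octads := by
  classical
  obtain ⟨c0, c2, c4⟩ := cntX o ho
  have hdich : ∀ j : ℕ, (∃ y ∈ B, (o ∩ y).card = j) →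
      {o' : Finset Cfsg.GolayPt | o' ∈ Cfsg.octads ∧ (o ∩ o').card = j} ⊆ B := by
    rintro j ⟨y, hy, hyj⟩ z ⟨hz, hzj⟩
    obtain ⟨g, hg, hgo, hgy⟩ := Cfsg.Agent.S1556.result o y z ho (hBo hy) hz (hyj.trans hzj.symm)
    rw [← hgy]
    exact hinv g hg hgo y hy
  have hcls : ∀ y ∈ Cfsg.octads, y = o ∨ (o ∩ y).card = 0 ∨ (o ∩ y).card = 2 ∨ (o ∩ y).card = 4 := by
    intro y hy
    by_cases h : y = o
    · exact Or.inl h
    · exact Or.inr (Cfsg.Agent.S0352.result (by decide) Cfsg.Agent.S0363.result ho hy (Ne.symm h))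
  have ho8 : (o ∩ o).card = 8 := by rw [Finset.inter_self]; exact ho.2
  set Bf : Finset (Finset Cfsg.GolayPt) := Finset.univ.filter (fun y => y ∈ B) with hBf
  have hBfB : B = ↑Bf := by ext y; simp [hBf]
  have hcardB : B.ncard = Bf.card := by rw [hBfB, Set.ncard_coe_finset]
  have hfib := Finset.card_eq_sum_card_fiberwise (s := Bf) (t := ({0, 2, 4, 8} : Finset ℕ))
    (f := fun y => (o ∩ y).card) (by
      intro y hy
      have hyB : y ∈ B := by simpa [hBf] using hy
      show (o ∩ y).card ∈ ({0, 2, 4, 8} : Finset ℕ)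
      rcases hcls y (hBo hyB) with h0 | h | h | h
      · rw [h0, ho8]; decide
      · rw [h]; decide
      · rw [h]; decide
      · rw [h]; decide)
  have h8 : (Bf.filter (fun y => (o ∩ y).card = 8)).card = 1 := by
    have : Bf.filter (fun y => (o ∩ y).card = 8) = {o} := by
      ext y
      simp only [Finset.mem_filter, Finset.mem_singleton, hBf, Finset.mem_univ, true_and]
      constructor
      · rintro ⟨hyB, hy8⟩
        rcases hcls y (hBo hyB) with rfl | h | h | h
        · rfl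
        · omega
        · omega
        · omega
      · rintro rfl
        exact ⟨hoB, ho8⟩
    rw [this, Finset.card_singleton]
  have hj : ∀ j : ℕ, (Bf.filter (fun y => (o ∩ y).card = j)).card
      = if (∃ y ∈ B, (o ∩ y).card = j) then
          {o' : Finset Cfsg.GolayPt | o' ∈ Cfsg.octads ∧ (o ∩ o').card = j}.ncard else 0 := by
    intro j
    split_ifs with hex
    · rw [← Set.ncard_coe_finset]
      congr 1
      ext y
      simp only [Finset.coe_filter, Set.mem_setOf_eq, hBf, Finset.mem_filter, Finset.mem_univ, true_and]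
      constructor
      · rintro ⟨hyB, hyj⟩
        exact ⟨hBo hyB, hyj⟩
      · intro hy
        exact ⟨hdich j hex hy, hy.2⟩
    · rw [Finset.card_eq_zero]
      ext y
      simp only [Finset.mem_filter, hBf, Finset.mem_univ, true_and, Finset.notMem_empty, iff_false]
      rintro ⟨hyB, hyj⟩
      exact hex ⟨y, hyB, hyj⟩
  rw [Finset.sum_insert (by decide), Finset.sum_insert (by decide), Finset.sum_insert (by decide),
    Finset.sum_singleton, h8, hj 0, hj 2, hj 4, c0, c2, c4, ← hcardB] at hfib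
  rw [hfib] at hdvd
  by_cases a0 : ∃ y ∈ B, (o ∩ y).card = 0 <;> by_cases a2 : ∃ y ∈ B, (o ∩ y).card = 2 <;>
    by_cases a4 : ∃ y ∈ B, (o ∩ y).card = 4 <;> simp only [a0, a2, a4, if_true, if_false] at hdvd
  · -- all classes present
    apply Set.Subset.antisymm hBo
    intro y hy
    rcases hcls y hy with rfl | h | h | h
    · exact hoB
    · exact hdich 0 a0 ⟨hy, h⟩
    · exact hdich 2 a2 ⟨hy, h⟩
    · exact hdich 4 a4 ⟨hy, h⟩
  · exact absurd hdvd (by decide)
  · exact absurd hdvd (by decide)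
  · exact absurd hdvd (by decide)
  · exact absurd hdvd (by decide)
  · exact absurd hdvd (by decide)
  · exact absurd hdvd (by decide)
  · exfalso
    apply hne
    ext y
    rw [Set.mem_singleton_iff]
    constructor
    · intro hyB
      rcases hcls y (hBo hyB) with h | h | h | h
      · exact h
      · exact absurd ⟨y, hyB, h⟩ a0
      · exact absurd ⟨y, hyB, h⟩ a2
      · exact absurd ⟨y, hyB, h⟩ a4
    · rintro rfl
      exact hoB

/-- The stabiliser of an octad is a maximal proper subgroup of the group of the length-24 code. -/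
theorem result (o : Finset Cfsg.GolayPt) (ho : o ∈ Cfsg.octads) : IsCoatom (MulAction.stabilizer Cfsg.M24 o) := by
  apply Cfsg.Agent.Lib.Helper1.isCoatom_stabilizer_of_invariant
  · -- some element moves the octad
    obtain ⟨o', ho', hne⟩ : ∃ o' ∈ Cfsg.octads, o' ≠ o := by
      by_contra hcon
      have hsub : Cfsg.octads ⊆ {o} := by
        intro y hy
        by_contra hyo
        exact hcon ⟨y, hy, hyo⟩
      have h1 := Set.ncard_le_ncard hsub (Set.finite_singleton o)
      rw [Cfsg.Agent.S0360.result, Set.ncard_singleton] at h1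
      omega
    have h2 : o' ∈ MulAction.orbit ↥Cfsg.M24 o := by rw [orbit_octad o ho]; exact ho'
    obtain ⟨g, hg⟩ := h2
    refine ⟨g, ?_⟩
    intro h
    apply hne
    rw [← hg]
    exact h
  · intro B hoB hBo hne hinv hdvd
    rw [orbit_octad o ho] at hBo hdvd ⊢
    rw [Cfsg.Agent.S0360.result] at hdvd
    refine key o ho B hoB hBo hne ?_ hdvd
    intro g hg hgo y hy
    exact hinv ⟨g, hg⟩ (by rw [MulAction.mem_stabilizer_iff]; exact hgo) y hy

end Cfsg.Agent.S1565
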