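import Cfsg.Statements.S1566
import Mathlib
import Cfsg.Agent.Lib.Helper1.M24Sets
import Cfsg.Agent.Lib.Helper1.Maximal
import Cfsg.Agent.Lib.Helper1.Classes
import Cfsg.Agent.Lib.Helper1.Leech
import Cfsg.Agent.Lib.Helper1.Steiner
import Cfsg.Agent.S0361
import Cfsg.Agent.S0368
import Cfsg.Agent.S1560
import Cfsg.Agent.S1561

set_option autoImplicit false
open scoped Pointwise
open Cfsg

namespace Cfsg.Agent.S1566


open Cfsg.Agent.Lib.Helper1 in
theorem compl_dodecad (e : Finset Cfsg.GolayPt) (he : e ∈ Cfsg.dodecads) :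
    eᶜ ∈ Cfsg.dodecads := by
  classical
  have h1 : eᶜ = symmDiff e Finset.univ := by
    ext x
    simp [Finset.mem_symmDiff]
  refine ⟨?_, ?_⟩
  · rw [h1]
    exact gSupp_symmDiff he.1 gSupp_univ
  · rw [Finset.card_compl, he.2]
    decide

open scoped Pointwise in
theorem smul_compl (g : Equiv.Perm Cfsg.GolayPt) (e : Finset Cfsg.GolayPt) :
    g • eᶜ = (g • e)ᶜ := by
  ext x
  rw [Finset.mem_compl, ← Finset.inv_smul_mem_iff, ← Finset.inv_smul_mem_iff, Finset.mem_compl]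

/-- The pair formed by a set and its complement. -/
def pr (e : Finset Cfsg.GolayPt) : Finset (Finset Cfsg.GolayPt) := {e, eᶜ}

theorem pr_compl (e : Finset Cfsg.GolayPt) : pr eᶜ = pr e := by
  unfold pr
  rw [compl_compl, Finset.pair_comm]

open scoped Pointwise in
theorem smul_pr (g : Equiv.Perm Cfsg.GolayPt) (e : Finset Cfsg.GolayPt) :
    g • pr e = pr (g • e) := by
  unfold pr
  rw [Finset.smul_finset_insert, Finset.smul_finset_singleton, smul_compl]

theorem inter_compl_card (d e : Finset Cfsg.GolayPt) (hd : d.card = 12) :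
    (d ∩ eᶜ).card = 12 - (d ∩ e).card := by
  classical
  have h1 : d ∩ eᶜ = d \ e := by
    ext x
    simp [Finset.mem_sdiff]
  rw [h1]
  have := Finset.card_sdiff_add_card_inter d e
  omega

theorem mem_pr (e f : Finset Cfsg.GolayPt) : f ∈ pr e ↔ f = e ∨ f = eᶜ := by
  unfold pr
  simp

theorem pr_eq_iff (e f : Finset Cfsg.GolayPt) : pr e = pr f ↔ e = f ∨ e = fᶜ := by
  constructor
  · intro h
    have h1 : e ∈ pr f := by
      rw [← h]
      exact (mem_pr e e).2 (Or.inl rfl)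
    exact (mem_pr f e).1 h1
  · rintro (rfl | rfl)
    · rfl
    · exact pr_compl f

theorem ne_compl (e : Finset Cfsg.GolayPt) : eᶜ ≠ e := by
  intro h
  have hx := Finset.mem_compl (s := e) (a := (none : Cfsg.GolayPt))
  rw [h] at hx
  by_cases hm : (none : Cfsg.GolayPt) ∈ e
  · exact (hx.1 hm) hm
  · exact hm (hx.2 hm)

theorem card_image_pair {α : Type*} [DecidableEq α] (D : Finset α) (ι : α → α)
    (hι : ∀ e ∈ D, ι e ∈ D) (hinv : ∀ e ∈ D, ι (ι e) = e) (hne : ∀ e ∈ D, ι e ≠ e) :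
    (D.image (fun e => ({e, ι e} : Finset α))).card * 2 = D.card := by
  have h := Finset.card_eq_sum_card_image (fun e => ({e, ι e} : Finset α)) D
  rw [h]
  symm
  apply Finset.sum_const_nat
  intro Y hY
  obtain ⟨e₀, he₀, rfl⟩ := Finset.mem_image.1 hY
  have h1 : D.filter (fun e => ({e, ι e} : Finset α) = {e₀, ι e₀}) = {e₀, ι e₀} := by
    ext e
    simp only [Finset.mem_filter, Finset.mem_insert, Finset.mem_singleton]
    constructor
    · rintro ⟨heD, heq⟩
      have h2 : e ∈ ({e₀, ι e₀} : Finset α) := by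
        rw [← heq]
        simp
      simpa using h2
    · rintro (rfl | rfl)
      · exact ⟨he₀, rfl⟩
      · exact ⟨hι _ he₀, by rw [hinv _ he₀, Finset.pair_comm]⟩
  rw [h1, Finset.card_pair (hne e₀ he₀).symm]

/-- Half the size of a complement-closed family is the number of its pairs. -/
theorem ncard_pairs (A : Set (Finset Cfsg.GolayPt)) (hA : ∀ e ∈ A, eᶜ ∈ A) :
    (pr '' A).ncard * 2 = A.ncard := by
  classical
  obtain ⟨Af, hAf, hcard⟩ := Cfsg.Agent.Lib.Helper1.exists_blockFinset A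
  have h1 : pr '' A = ↑(Af.image (fun e => ({e, eᶜ} : Finset (Finset Cfsg.GolayPt)))) := by
    ext Y
    simp only [Set.mem_image, Finset.coe_image, Finset.mem_coe, hAf]
    rfl
  rw [h1, Set.ncard_coe_finset, hcard]
  exact card_image_pair Af (fun e => eᶜ) (fun e he => (hAf _).2 (hA e ((hAf e).1 he)))
    (fun e _ => compl_compl e) (fun e _ => ne_compl e)

open Classical in
/-- The class of a pair relative to the dodecad `d`. -/
noncomputable def cls (d : Finset Cfsg.GolayPt) (Y : Finset (Finset Cfsg.GolayPt)) : ℕ :=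
  if (∃ e ∈ Y, (d ∩ e).card = 12) then 0 else if (∃ e ∈ Y, (d ∩ e).card = 8) then 1 else 2

theorem inter_cases (d e : Finset Cfsg.GolayPt) (hd : d ∈ Cfsg.dodecads)
    (he : e ∈ Cfsg.dodecads) :
    (d ∩ e).card = 0 ∨ (d ∩ e).card = 4 ∨ (d ∩ e).card = 6 ∨ (d ∩ e).card = 8
      ∨ (d ∩ e).card = 12 := by
  classical
  by_cases h : e = d
  · subst h
    rw [Finset.inter_self, he.2]
    simp
  · rcases (Cfsg.Agent.S1560.result d hd).1 e he h with h1 | h1 | h1 | h1
    · exact Or.inl h1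
    · exact Or.inr (Or.inl h1)
    · exact Or.inr (Or.inr (Or.inl h1))
    · exact Or.inr (Or.inr (Or.inr (Or.inl h1)))

theorem cls_pr (d e : Finset Cfsg.GolayPt) (hd : d.card = 12) :
    ((d ∩ e).card = 12 ∨ (d ∩ e).card = 0 → cls d (pr e) = 0)
    ∧ ((d ∩ e).card = 8 ∨ (d ∩ e).card = 4 → cls d (pr e) = 1)
    ∧ ((d ∩ e).card = 6 → cls d (pr e) = 2) := by
  classical
  have hle : (d ∩ e).card ≤ 12 := by
    have := Finset.card_le_card (Finset.inter_subset_left (s₁ := d) (s₂ := e))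
    omega
  have hk : ∀ k : ℕ, (∃ f ∈ pr e, (d ∩ f).card = k)
      ↔ ((d ∩ e).card = k ∨ 12 - (d ∩ e).card = k) := by
    intro k
    constructor
    · rintro ⟨f, hf, hc⟩
      rcases (mem_pr e f).1 hf with rfl | rfl
      · exact Or.inl hc
      · rw [inter_compl_card d e hd] at hc
        exact Or.inr hc
    · rintro (h | h)
      · exact ⟨e, (mem_pr e e).2 (Or.inl rfl), h⟩
      · exact ⟨eᶜ, (mem_pr e eᶜ).2 (Or.inr rfl), by rw [inter_compl_card d e hd]; exact h⟩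
  unfold cls
  simp only [hk]
  refine ⟨?_, ?_, ?_⟩
  · intro h
    rw [if_pos (by omega)]
  · intro h
    rw [if_neg (by omega), if_pos (by omega)]
  · intro h
    rw [if_neg (by omega), if_neg (by omega)]

theorem cls_cases (d e : Finset Cfsg.GolayPt) (hd : d ∈ Cfsg.dodecads)
    (he : e ∈ Cfsg.dodecads) :
    (((d ∩ e).card = 12 ∨ (d ∩ e).card = 0) ∧ cls d (pr e) = 0)
    ∨ (((d ∩ e).card = 8 ∨ (d ∩ e).card = 4) ∧ cls d (pr e) = 1)
    ∨ ((d ∩ e).card = 6 ∧ cls d (pr e) = 2) := by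
  obtain ⟨c0, c1, c2⟩ := cls_pr d e hd.2
  rcases inter_cases d e hd he with h | h | h | h | h
  · exact Or.inl ⟨Or.inr h, c0 (Or.inr h)⟩
  · exact Or.inr (Or.inl ⟨Or.inr h, c1 (Or.inr h)⟩)
  · exact Or.inr (Or.inr ⟨h, c2 h⟩)
  · exact Or.inr (Or.inl ⟨Or.inl h, c1 (Or.inl h)⟩)
  · exact Or.inl ⟨Or.inl h, c0 (Or.inl h)⟩

theorem cls_zero (d e : Finset Cfsg.GolayPt) (hd : d ∈ Cfsg.dodecads)
    (he : e ∈ Cfsg.dodecads) (h : cls d (pr e) = 0) : pr e = pr d := by
  classical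
  rcases cls_cases d e hd he with ⟨h1, -⟩ | ⟨-, h1⟩ | ⟨-, h1⟩
  · rw [pr_eq_iff]
    rcases h1 with h1 | h1
    · left
      have e1 : d ∩ e = d :=
        Finset.eq_of_subset_of_card_le Finset.inter_subset_left (by rw [h1, hd.2])
      have e2 : d ∩ e = e :=
        Finset.eq_of_subset_of_card_le Finset.inter_subset_right (by rw [h1, he.2])
      rw [← e2, e1]
    · right
      rw [Finset.card_eq_zero, ← Finset.disjoint_iff_inter_eq_empty] at h1
      apply Finset.eq_of_subset_of_card_le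
      · intro x hx
        exact Finset.mem_compl.2 (fun hxd => Finset.disjoint_left.1 h1 hxd hx)
      · rw [Finset.card_compl, hd.2, he.2]
        decide
  · omega
  · omega

open scoped Pointwise in
theorem orbit_pair (d : Finset Cfsg.GolayPt) (hd : d ∈ Cfsg.dodecads) :
    MulAction.orbit ↥Cfsg.M24 (pr d)
      = {Y : Finset (Finset Cfsg.GolayPt) | ∃ e ∈ Cfsg.dodecads, Y = pr e} := by
  classical
  ext Y
  constructor
  · rintro ⟨g, rfl⟩
    exact ⟨(g : Equiv.Perm Cfsg.GolayPt) • d,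
      (Cfsg.Agent.Lib.Helper1.smul_mem_dodecads_iff g.1 g.2 d).2 hd, smul_pr g.1 d⟩
  · rintro ⟨e, he, rfl⟩
    obtain ⟨g, hg⟩ := Cfsg.Agent.S0368.result d e hd he
    refine ⟨g, ?_⟩
    show (g : Equiv.Perm Cfsg.GolayPt) • pr d = pr e
    rw [smul_pr]
    congr 1

theorem total (d : Finset Cfsg.GolayPt) (hd : d ∈ Cfsg.dodecads) :
    {Y : Finset (Finset Cfsg.GolayPt) | ∃ e ∈ Cfsg.dodecads, Y = pr e}.ncard = 1288 := by
  have h1 : {Y : Finset (Finset Cfsg.GolayPt) | ∃ e ∈ Cfsg.dodecads, Y = pr e}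
      = pr '' Cfsg.dodecads := by
    ext Y
    constructor
    · rintro ⟨e, he, rfl⟩
      exact ⟨e, he, rfl⟩
    · rintro ⟨e, he, rfl⟩
      exact ⟨e, he, rfl⟩
  have h2 := ncard_pairs Cfsg.dodecads compl_dodecad
  rw [Cfsg.Agent.S0361.result] at h2
  rw [h1]
  omega

open Cfsg.Agent.Lib.Helper1 in
open scoped Pointwise in
theorem key (d : Finset Cfsg.GolayPt) (hd : d ∈ Cfsg.dodecads)
    (B : Set (Finset (Finset Cfsg.GolayPt)))
    (hsB : pr d ∈ B)
    (hBo : B ⊆ {Y : Finset (Finset Cfsg.GolayPt) | ∃ e ∈ Cfsg.dodecads, Y = pr e})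
    (hne : B ≠ {pr d})
    (hinv : ∀ g ∈ Cfsg.M24, g • pr d = pr d → ∀ y ∈ B, g • y ∈ B) (hdvd : B.ncard ∣ 1288) :
    B = {Y : Finset (Finset Cfsg.GolayPt) | ∃ e ∈ Cfsg.dodecads, Y = pr e} := by
  classical
  have hc3 : ∀ y ∈ {Y : Finset (Finset Cfsg.GolayPt) | ∃ e ∈ Cfsg.dodecads, Y = pr e},
      cls d y < 3 := by
    rintro _ ⟨e, he, rfl⟩
    rcases cls_cases d e hd he with ⟨-, h1⟩ | ⟨-, h1⟩ | ⟨-, h1⟩ <;> omega
  have hdich : ∀ j, (∃ y ∈ B, cls d y = j) →
      {y | y ∈ {Y : Finset (Finset Cfsg.GolayPt) | ∃ e ∈ Cfsg.dodecads, Y = pr e}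
        ∧ cls d y = j} ⊆ B := by
    rintro j ⟨y, hyB, hyj⟩ z ⟨hz, hzj⟩
    obtain ⟨e, he, rfl⟩ := hBo hyB
    obtain ⟨f, hf, rfl⟩ := hz
    have hfc := inter_compl_card d f hd.2
    have hg : ∃ g ∈ Cfsg.M24, g • d = d ∧ (g • e = f ∨ g • e = fᶜ) := by
      have hor : (d ∩ e).card = (d ∩ f).card ∨ (d ∩ e).card = (d ∩ fᶜ).card := by
        rcases cls_cases d e hd he with ⟨h1, h2⟩ | ⟨h1, h2⟩ | ⟨h1, h2⟩ <;>
          rcases cls_cases d f hd hf with ⟨k1, k2⟩ | ⟨k1, k2⟩ | ⟨k1, k2⟩ <;> omega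
      rcases hor with h | h
      · obtain ⟨g, hg, h1, h2⟩ := Cfsg.Agent.S1561.result d e f hd he hf h
        exact ⟨g, hg, h1, Or.inl h2⟩
      · obtain ⟨g, hg, h1, h2⟩ := Cfsg.Agent.S1561.result d e fᶜ hd he (compl_dodecad f hf) h
        exact ⟨g, hg, h1, Or.inr h2⟩
    obtain ⟨g, hg, hgd, hge⟩ := hg
    have h1 : g • pr e = pr f := by
      rw [smul_pr]
      rcases hge with h | h
      · rw [h]
      · rw [h, pr_compl]
    rw [← h1]
    exact hinv g hg (by rw [smul_pr, hgd]) _ hyB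
  have hcard := invariant_ncard
    {Y : Finset (Finset Cfsg.GolayPt) | ∃ e ∈ Cfsg.dodecads, Y = pr e} B (cls d) 3 hBo hc3 hdich
  have cd0 : cls d (pr d) = 0 := (cls_pr d d hd.2).1 (Or.inl (by rw [Finset.inter_self, hd.2]))
  have n0 : {y | y ∈ {Y : Finset (Finset Cfsg.GolayPt) | ∃ e ∈ Cfsg.dodecads, Y = pr e}
      ∧ cls d y = 0}.ncard = 1 := by
    have : {y | y ∈ {Y : Finset (Finset Cfsg.GolayPt) | ∃ e ∈ Cfsg.dodecads, Y = pr e}
        ∧ cls d y = 0} = {pr d} := by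
      ext y
      rw [Set.mem_singleton_iff]
      constructor
      · rintro ⟨⟨e, he, rfl⟩, hc⟩
        exact cls_zero d e hd he hc
      · rintro rfl
        exact ⟨⟨d, hd, rfl⟩, cd0⟩
    rw [this, Set.ncard_singleton]
  have n1 : {y | y ∈ {Y : Finset (Finset Cfsg.GolayPt) | ∃ e ∈ Cfsg.dodecads, Y = pr e}
      ∧ cls d y = 1}.ncard = 495 := by
    have : {y | y ∈ {Y : Finset (Finset Cfsg.GolayPt) | ∃ e ∈ Cfsg.dodecads, Y = pr e}
        ∧ cls d y = 1}
        = pr '' {e : Finset Cfsg.GolayPt | e ∈ Cfsg.dodecads ∧ (d ∩ e).card = 8} := by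
      ext y
      constructor
      · rintro ⟨⟨e, he, rfl⟩, hc⟩
        rcases cls_cases d e hd he with ⟨-, h1⟩ | ⟨h1, -⟩ | ⟨-, h1⟩
        · omega
        · rcases h1 with h1 | h1
          · exact ⟨e, ⟨he, h1⟩, rfl⟩
          · exact ⟨eᶜ, ⟨compl_dodecad e he, by rw [inter_compl_card d e hd.2, h1]⟩, pr_compl e⟩
        · omega
      · rintro ⟨e, ⟨he, h8⟩, rfl⟩
        exact ⟨⟨e, he, rfl⟩, (cls_pr d e hd.2).2.1 (Or.inl h8)⟩
    rw [this, Set.InjOn.ncard_image, (Cfsg.Agent.S1560.result d hd).2.2.2]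
    rintro e ⟨he, h8⟩ e' ⟨he', h8'⟩ heq
    rcases (pr_eq_iff e e').1 heq with h | h
    · exact h
    · exfalso
      rw [h, inter_compl_card d e' hd.2, h8'] at h8
      omega
  have n2 : {y | y ∈ {Y : Finset (Finset Cfsg.GolayPt) | ∃ e ∈ Cfsg.dodecads, Y = pr e}
      ∧ cls d y = 2}.ncard = 792 := by
    have : {y | y ∈ {Y : Finset (Finset Cfsg.GolayPt) | ∃ e ∈ Cfsg.dodecads, Y = pr e}
        ∧ cls d y = 2}
        = pr '' {e : Finset Cfsg.GolayPt | e ∈ Cfsg.dodecads ∧ (d ∩ e).card = 6} := by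
      ext y
      constructor
      · rintro ⟨⟨e, he, rfl⟩, hc⟩
        rcases cls_cases d e hd he with ⟨-, h1⟩ | ⟨-, h1⟩ | ⟨h1, -⟩
        · omega
        · omega
        · exact ⟨e, ⟨he, h1⟩, rfl⟩
      · rintro ⟨e, ⟨he, h6⟩, rfl⟩
        exact ⟨⟨e, he, rfl⟩, (cls_pr d e hd.2).2.2 h6⟩
    have h2 := ncard_pairs {e : Finset Cfsg.GolayPt | e ∈ Cfsg.dodecads ∧ (d ∩ e).card = 6}
      (by
        rintro e ⟨he, h6⟩
        exact ⟨compl_dodecad e he, by rw [inter_compl_card d e hd.2, h6]⟩)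
    rw [(Cfsg.Agent.S1560.result d hd).2.2.1] at h2
    rw [this]
    omega
  simp only [Finset.sum_range_succ, Finset.sum_range_zero, zero_add, n0, n1, n2] at hcard
  have p0 : ∃ y ∈ B, cls d y = 0 := ⟨pr d, hsB, cd0⟩
  rw [hcard] at hdvd
  by_cases a1 : ∃ y ∈ B, cls d y = 1 <;> by_cases a2 : ∃ y ∈ B, cls d y = 2 <;>
    simp only [p0, a1, a2, if_true, if_false] at hdvd
  all_goals first | exact absurd hdvd (by decide) | skip
  · exact invariant_eq_of_all _ B (cls d) 3 hBo hc3 hdich (by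
      intro j hj
      interval_cases j
      exacts [p0, a1, a2])
  · refine absurd (invariant_eq_singleton _ B (cls d) (pr d) hBo hsB ?_ ?_) hne
    · rintro _ ⟨e, he, rfl⟩ h0
      exact cls_zero d e hd he h0
    · rintro j hj ⟨y, hyB, hyj⟩
      have h5 : j < 3 := hyj ▸ hc3 y (hBo hyB)
      interval_cases j
      exacts [a1 ⟨y, hyB, hyj⟩, a2 ⟨y, hyB, hyj⟩]

/-- The setwise stabiliser of a dodecad together with its complement is a maximal proper subgroup of the group of the length-24 code. -/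
theorem result (d : Finset Cfsg.GolayPt) (hd : d ∈ Cfsg.dodecads) : IsCoatom (MulAction.stabilizer Cfsg.M24 ({d, dᶜ} : Finset (Finset Cfsg.GolayPt))) := by
  classical
  show IsCoatom (MulAction.stabilizer Cfsg.M24 (pr d))
  apply Cfsg.Agent.Lib.Helper1.isCoatom_stabilizer_of_invariant
  · obtain ⟨t, ht, hne⟩ : ∃ t ∈ {Y : Finset (Finset Cfsg.GolayPt) |
        ∃ e ∈ Cfsg.dodecads, Y = pr e}, t ≠ pr d := by
      by_contra hcon
      have hsub : {Y : Finset (Finset Cfsg.GolayPt) | ∃ e ∈ Cfsg.dodecads, Y = pr e}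
          ⊆ {pr d} := by
        intro y hy
        by_contra hyo
        exact hcon ⟨y, hy, hyo⟩
      have h1 := Set.ncard_le_ncard hsub (Set.finite_singleton (pr d))
      rw [total d hd, Set.ncard_singleton] at h1
      omega
    have h2 : t ∈ MulAction.orbit ↥Cfsg.M24 (pr d) := by rw [orbit_pair d hd]; exact ht
    obtain ⟨g, hg⟩ := h2
    refine ⟨g, ?_⟩
    intro h
    apply hne
    rw [← hg]
    exact h
  · intro B hoB hBo hne hinv hdvd
    rw [orbit_pair d hd] at hBo hdvd ⊢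
    rw [total d hd] at hdvd
    refine key d hd B hoB hBo hne ?_ hdvd
    intro g hg hgo y hy
    exact hinv ⟨g, hg⟩ (by rw [MulAction.mem_stabilizer_iff]; exact hgo) y hy

end Cfsg.Agent.S1566
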