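import Cfsg.Statements.S1567
import Mathlib
import Cfsg.Agent.Lib.Helper1.LeechGen

set_option autoImplicit false
open Cfsg

namespace Cfsg.Agent.S1567

/-- The rank-24 lattice is the additive subgroup generated by its 196560 minimal vectors. -/
theorem result : AddSubgroup.closure {x : Cfsg.GolayPt → ℤ | x ∈ Cfsg.leechLattice ∧ Cfsg.sqNorm x = 32} = Cfsg.leechLattice := by
  simp only [Cfsg.Agent.Lib.Helper1.mem_leechLattice_iff]
  apply le_antisymm
  · rw [AddSubgroup.closure_le]
    intro x hx
    exact (Cfsg.Agent.Lib.Helper1.mem_leechLattice_iff x).2 hx.1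
  · intro x hx
    exact Cfsg.Agent.Lib.Helper1.leech_gen x ((Cfsg.Agent.Lib.Helper1.mem_leechLattice_iff x).1 hx)

end Cfsg.Agent.S1567
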