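import Cfsg.Statements.S1569
import Mathlib
import Cfsg.Agent.Lib.Helper1.LeechCross

set_option autoImplicit false
open Cfsg

namespace Cfsg.Agent.S1569

/-- The cross through a lattice vector of customary norm 8 has exactly 48 members. -/
theorem result (x : Cfsg.GolayPt → ℤ) (hx : x ∈ Cfsg.leechLattice) (hxn : Cfsg.sqNorm x = 64) : (Cfsg.cross x).ncard = 48 := by
  have h := Cfsg.Agent.Lib.Helper1.leech_cross_main.1 x
    ((Cfsg.Agent.Lib.Helper1.mem_leechLattice_iff x).1 hx) hxn
  unfold Cfsg.cross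
  simp only [Cfsg.Agent.Lib.Helper1.mem_leechLattice_iff, hxn]
  exact h

end Cfsg.Agent.S1569
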