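import Cfsg.Statements.S1578
import Mathlib
import Cfsg.Agent.Lib.Helper1.LeechRel

set_option autoImplicit false
open Cfsg

namespace Cfsg.Agent.S1578

theorem result (u : ↥Cfsg.leechLattice) (hu : Cfsg.sqNorm (u : Cfsg.GolayPt → ℤ) = 48) : {v : ↥Cfsg.leechLattice | Cfsg.sqNorm (v : Cfsg.GolayPt → ℤ) = 32 ∧ Cfsg.sqNorm ((u - v) : Cfsg.GolayPt → ℤ) = 32}.ncard = 552 := by
  have hu' : (u : Cfsg.GolayPt → ℤ) ∈ Cfsg.leechSet :=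
    (Cfsg.Agent.Lib.Helper1.mem_leechLattice_iff _).1 u.2
  have h := Cfsg.Agent.Lib.Helper1.type3_count (u : Cfsg.GolayPt → ℤ) hu' hu
  rw [← h, ← Set.ncard_image_of_injective _ Subtype.val_injective]
  congr 1
  ext x
  constructor
  · rintro ⟨v, ⟨h1, h2⟩, rfl⟩
    exact ⟨(Cfsg.Agent.Lib.Helper1.mem_leechLattice_iff _).1 v.2, h1, h2⟩
  · rintro ⟨h1, h2, h3⟩
    exact ⟨⟨x, (Cfsg.Agent.Lib.Helper1.mem_leechLattice_iff _).2 h1⟩, ⟨h2, h3⟩, rfl⟩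

end Cfsg.Agent.S1578
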