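import Cfsg.Statements.S1587
import Mathlib

set_option autoImplicit false
open Matrix
open Cfsg

namespace Cfsg.Agent.S1587


/-- First step of the characterisation of the rank-24 lattice: in an even lattice without roots, norm-8 vectors congruent modulo 2 are equal, opposite or orthogonal. -/
theorem result (B : Matrix (Fin 24) (Fin 24) ℤ) (hsymm : B.IsSymm) (hpos : ∀ x : Fin 24 → ℤ, x ≠ 0 → 0 < x ⬝ᵥ (B *ᵥ x)) (heven : ∀ x : Fin 24 → ℤ, (2 : ℤ) ∣ x ⬝ᵥ (B *ᵥ x)) (h2 : ∀ x : Fin 24 → ℤ, x ⬝ᵥ (B *ᵥ x) ≠ 2) (x y : Fin 24 → ℤ) (hx : x ⬝ᵥ (B *ᵥ x) = 8) (hy : y ⬝ᵥ (B *ᵥ y) = 8) (hc : ∀ i, (2 : ℤ) ∣ (x - y) i) : y = x ∨ y = -x ∨ x ⬝ᵥ (B *ᵥ y) = 0 := by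
  have hsym : ∀ u v : Fin 24 → ℤ, u ⬝ᵥ (B *ᵥ v) = v ⬝ᵥ (B *ᵥ u) := by
    intro u v
    rw [Matrix.dotProduct_mulVec, ← Matrix.mulVec_transpose, hsymm.eq, dotProduct_comm]
  have key : ∀ u : Fin 24 → ℤ, u ≠ 0 → 4 ≤ u ⬝ᵥ (B *ᵥ u) := by
    intro u hu
    have h1 := hpos u hu
    obtain ⟨k, hk⟩ := heven u
    have h3 := h2 u
    omega
  have hz : ∃ z : Fin 24 → ℤ, x - y = 2 • z := by
    choose z hz using hc
    exact ⟨z, funext (fun i => by simpa using hz i)⟩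
  obtain ⟨z, hz⟩ := hz
  have hn4 : ∀ u : Fin 24 → ℤ, (2 • u) ⬝ᵥ (B *ᵥ (2 • u)) = 4 * (u ⬝ᵥ (B *ᵥ u)) := by
    intro u
    rw [Matrix.mulVec_smul, smul_dotProduct, dotProduct_smul]
    simp only [smul_eq_mul, nsmul_eq_mul]
    ring
  have hsub : (x - y) ⬝ᵥ (B *ᵥ (x - y)) = 16 - 2 * (x ⬝ᵥ (B *ᵥ y)) := by
    rw [Matrix.mulVec_sub, sub_dotProduct, dotProduct_sub, dotProduct_sub, hx, hy, hsym y x]
    ring
  have hadd : (x + y) ⬝ᵥ (B *ᵥ (x + y)) = 16 + 2 * (x ⬝ᵥ (B *ᵥ y)) := by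
    rw [Matrix.mulVec_add, add_dotProduct, dotProduct_add, dotProduct_add, hx, hy, hsym y x]
    ring
  have e1 : x + y = 2 • (z + y) := by
    rw [smul_add, ← hz, two_smul]
    abel
  by_cases hz0 : z = 0
  · left
    rw [hz0, smul_zero, sub_eq_zero] at hz
    exact hz.symm
  by_cases hw0 : z + y = 0
  · right; left
    rw [hw0, smul_zero] at e1
    exact eq_neg_of_add_eq_zero_right e1
  right; right
  have h1 := key z hz0
  have h3 := key (z + y) hw0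
  rw [hz, hn4] at hsub
  rw [e1, hn4] at hadd
  omega

end Cfsg.Agent.S1587
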