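import Cfsg.Statements.S1588
import Mathlib
import Cfsg.Agent.Lib.Helper1.CrossCount

set_option autoImplicit false
open Matrix
open Cfsg

namespace Cfsg.Agent.S1588

theorem congr_cases (B : Matrix (Fin 24) (Fin 24) ℤ) (hsymm : B.IsSymm)
    (hpos : ∀ x : Fin 24 → ℤ, x ≠ 0 → 0 < x ⬝ᵥ (B *ᵥ x))
    (heven : ∀ x : Fin 24 → ℤ, (2 : ℤ) ∣ x ⬝ᵥ (B *ᵥ x))
    (h2 : ∀ x : Fin 24 → ℤ, x ⬝ᵥ (B *ᵥ x) ≠ 2) (x y : Fin 24 → ℤ)
    (hx : x ⬝ᵥ (B *ᵥ x) ≤ 8) (hy : y ⬝ᵥ (B *ᵥ y) ≤ 8) (hc : ∀ i, (2 : ℤ) ∣ (x - y) i) :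
    y = x ∨ y = -x ∨ (x ⬝ᵥ (B *ᵥ x) = 8 ∧ y ⬝ᵥ (B *ᵥ y) = 8 ∧ x ⬝ᵥ (B *ᵥ y) = 0) := by
  have hsym : ∀ u v : Fin 24 → ℤ, u ⬝ᵥ (B *ᵥ v) = v ⬝ᵥ (B *ᵥ u) := by
    intro u v
    rw [Matrix.dotProduct_mulVec, ← Matrix.mulVec_transpose, hsymm.eq, dotProduct_comm]
  have key : ∀ u : Fin 24 → ℤ, u ≠ 0 → 4 ≤ u ⬝ᵥ (B *ᵥ u) := by
    intro u hu
    have h1 := hpos u hu
    obtain ⟨k, hk⟩ := heven u
    have h3 := h2 u
    omega
  have hz : ∃ z : Fin 24 → ℤ, x - y = 2 • z := by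
    choose z hz using hc
    exact ⟨z, funext (fun i => by simpa using hz i)⟩
  obtain ⟨z, hz⟩ := hz
  have hn4 : ∀ u : Fin 24 → ℤ, (2 • u) ⬝ᵥ (B *ᵥ (2 • u)) = 4 * (u ⬝ᵥ (B *ᵥ u)) := by
    intro u
    rw [Matrix.mulVec_smul, smul_dotProduct, dotProduct_smul]
    simp only [smul_eq_mul, nsmul_eq_mul]
    ring
  have hsub : (x - y) ⬝ᵥ (B *ᵥ (x - y))
      = x ⬝ᵥ (B *ᵥ x) + y ⬝ᵥ (B *ᵥ y) - 2 * (x ⬝ᵥ (B *ᵥ y)) := by
    rw [Matrix.mulVec_sub, sub_dotProduct, dotProduct_sub, dotProduct_sub, hsym y x]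
    ring
  have hadd : (x + y) ⬝ᵥ (B *ᵥ (x + y))
      = x ⬝ᵥ (B *ᵥ x) + y ⬝ᵥ (B *ᵥ y) + 2 * (x ⬝ᵥ (B *ᵥ y)) := by
    rw [Matrix.mulVec_add, add_dotProduct, dotProduct_add, dotProduct_add, hsym y x]
    ring
  have e1 : x + y = 2 • (z + y) := by
    rw [smul_add, ← hz, two_smul]
    abel
  by_cases hz0 : z = 0
  · left
    rw [hz0, smul_zero, sub_eq_zero] at hz
    exact hz.symm
  by_cases hw0 : z + y = 0
  · right; left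
    rw [hw0, smul_zero] at e1
    exact eq_neg_of_add_eq_zero_right e1
  right; right
  have h1 := key z hz0
  have h3 := key (z + y) hw0
  rw [hz, hn4] at hsub
  rw [e1, hn4] at hadd
  refine ⟨?_, ?_, ?_⟩ <;> omega

/-- Second step of the characterisation: under the vector counts of the rank-24 lattice, the norm-8 vectors fall into congruence classes of exactly 48 modulo twice the lattice. -/
theorem result (B : Matrix (Fin 24) (Fin 24) ℤ) (hsymm : B.IsSymm) (hpos : ∀ x : Fin 24 → ℤ, x ≠ 0 → 0 < x ⬝ᵥ (B *ᵥ x)) (heven : ∀ x : Fin 24 → ℤ, (2 : ℤ) ∣ x ⬝ᵥ (B *ᵥ x)) (h2 : ∀ x : Fin 24 → ℤ, x ⬝ᵥ (B *ᵥ x) ≠ 2) (h4 : {x : Fin 24 → ℤ | x ⬝ᵥ (B *ᵥ x) = 4}.ncard = 196560) (h6 : {x : Fin 24 → ℤ | x ⬝ᵥ (B *ᵥ x) = 6}.ncard = 16773120) (h8 : {x : Fin 24 → ℤ | x ⬝ᵥ (B *ᵥ x) = 8}.ncard = 398034000) (x : Fin 24 → ℤ) (hx : x ⬝ᵥ (B *ᵥ x) = 8) : {y : Fin 24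 → ℤ | y ⬝ᵥ (B *ᵥ y) = 8 ∧ ∀ i, (2 : ℤ) ∣ (x - y) i}.ncard = 48 := by
  classical
  have hcc := congr_cases B hsymm hpos heven h2
  have hfin4 : {x : Fin 24 → ℤ | x ⬝ᵥ (B *ᵥ x) = 4}.Finite :=
    Set.finite_of_ncard_ne_zero (by rw [h4]; norm_num)
  have hfin6 : {x : Fin 24 → ℤ | x ⬝ᵥ (B *ᵥ x) = 6}.Finite :=
    Set.finite_of_ncard_ne_zero (by rw [h6]; norm_num)
  have hfin8 : {x : Fin 24 → ℤ | x ⬝ᵥ (B *ᵥ x) = 8}.Finite :=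
    Set.finite_of_ncard_ne_zero (by rw [h8]; norm_num)
  obtain ⟨S4, hS4⟩ : ∃ S4, S4 = hfin4.toFinset := ⟨_, rfl⟩
  obtain ⟨S6, hS6⟩ : ∃ S6, S6 = hfin6.toFinset := ⟨_, rfl⟩
  obtain ⟨S8, hS8⟩ : ∃ S8, S8 = hfin8.toFinset := ⟨_, rfl⟩
  have m4 : ∀ y, y ∈ S4 ↔ y ⬝ᵥ (B *ᵥ y) = 4 := by
    intro y
    rw [hS4, Set.Finite.mem_toFinset]
    rfl
  have m6 : ∀ y, y ∈ S6 ↔ y ⬝ᵥ (B *ᵥ y) = 6 := by
    intro y
    rw [hS6, Set.Finite.mem_toFinset]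
    rfl
  have m8 : ∀ y, y ∈ S8 ↔ y ⬝ᵥ (B *ᵥ y) = 8 := by
    intro y
    rw [hS8, Set.Finite.mem_toFinset]
    rfl
  have c4 : S4.card = 196560 := by
    rw [hS4, ← Set.ncard_eq_toFinset_card _ hfin4, h4]
  have c6 : S6.card = 16773120 := by
    rw [hS6, ← Set.ncard_eq_toFinset_card _ hfin6, h6]
  have c8 : S8.card = 398034000 := by
    rw [hS8, ← Set.ncard_eq_toFinset_card _ hfin8, h8]
  obtain ⟨ρ, hρdef⟩ : ∃ ρ : (Fin 24 → ℤ) → (Fin 24 → ZMod 2), ρ = fun x i => (x i : ZMod 2) :=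
    ⟨_, rfl⟩
  have hρ : ∀ u v : Fin 24 → ℤ, ρ u = ρ v ↔ ∀ i, (2 : ℤ) ∣ (u - v) i := by
    intro u v
    rw [hρdef, funext_iff]
    apply forall_congr'
    intro i
    simp only [Pi.sub_apply]
    rw [ZMod.intCast_eq_intCast_iff_dvd_sub, ← dvd_neg, neg_sub]
    rfl
  have hq0 : (0 : Fin 24 → ℤ) ⬝ᵥ (B *ᵥ 0) = 0 := by simp
  have hqneg : ∀ u : Fin 24 → ℤ, (-u) ⬝ᵥ (B *ᵥ (-u)) = u ⬝ᵥ (B *ᵥ u) := by
    intro u
    rw [Matrix.mulVec_neg, neg_dotProduct, dotProduct_neg, neg_neg]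
  have hRcard : (Finset.univ : Finset (Fin 24 → ZMod 2)).card ≤ 16777216 := by
    rw [Finset.card_univ, Fintype.card_fun, ZMod.card, Fintype.card_fin]
    norm_num
  -- two congruent short vectors
  have hpair : ∀ u v : Fin 24 → ℤ, u ⬝ᵥ (B *ᵥ u) ≤ 8 → v ⬝ᵥ (B *ᵥ v) ≤ 8 → ρ u = ρ v →
      v = u ∨ v = -u ∨ (u ⬝ᵥ (B *ᵥ u) = 8 ∧ v ⬝ᵥ (B *ᵥ v) = 8 ∧ u ⬝ᵥ (B *ᵥ v) = 0) :=
    fun u v hu hv huv => hcc u v hu hv ((hρ u v).1 huv)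
  have hdiff : ∀ u v : Fin 24 → ℤ, u ⬝ᵥ (B *ᵥ u) ≤ 8 → v ⬝ᵥ (B *ᵥ v) ≤ 8 →
      u ⬝ᵥ (B *ᵥ u) ≠ v ⬝ᵥ (B *ᵥ v) → ρ u ≠ ρ v := by
    intro u v hu hv hne huv
    rcases hpair u v hu hv huv with h | h | ⟨h, h', -⟩
    · rw [h] at hne
      exact hne rfl
    · rw [h, hqneg] at hne
      exact hne rfl
    · rw [h, h'] at hne
      exact hne rfl
  have hfib2 : ∀ (S : Finset (Fin 24 → ℤ)) (n : ℤ), n < 8 → (∀ y ∈ S, y ⬝ᵥ (B *ᵥ y) = n) →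
      ∀ u ∈ S, (S.filter (fun y => ρ y = ρ u)).card ≤ 2 := by
    intro S n hn hS u hu
    calc (S.filter (fun y => ρ y = ρ u)).card ≤ ({u, -u} : Finset (Fin 24 → ℤ)).card := by
          apply Finset.card_le_card
          intro y hy
          obtain ⟨hyS, hyu⟩ := Finset.mem_filter.1 hy
          have h1 := hS u hu
          have h2 := hS y hyS
          rcases hpair u y (by omega) (by omega) hyu.symm with h | h | ⟨h, -, -⟩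
          · rw [h]
            exact Finset.mem_insert_self _ _
          · rw [h]
            exact Finset.mem_insert_of_mem (Finset.mem_singleton_self _)
          · omega
      _ ≤ 2 := Finset.card_le_two
  have hmain := Cfsg.Agent.Lib.Helper1.cross_count ρ 0 S4 S6 S8 Finset.univ hRcard c4 c6 c8
    (Finset.mem_univ _) (fun _ _ => Finset.mem_univ _) (fun _ _ => Finset.mem_univ _)
    (fun _ _ => Finset.mem_univ _)
    (fun u hu => hdiff u 0 (by rw [(m4 u).1 hu]; norm_num) (by rw [hq0]; norm_num)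
      (by rw [(m4 u).1 hu, hq0]; norm_num))
    (fun u hu => hdiff u 0 (by rw [(m6 u).1 hu]; norm_num) (by rw [hq0]; norm_num)
      (by rw [(m6 u).1 hu, hq0]; norm_num))
    (fun u hu => hdiff u 0 (by rw [(m8 u).1 hu]) (by rw [hq0]; norm_num)
      (by rw [(m8 u).1 hu, hq0]; norm_num))
    (fun u hu v hv => hdiff u v (by rw [(m4 u).1 hu]; norm_num) (by rw [(m6 v).1 hv]; norm_num)
      (by rw [(m4 u).1 hu, (m6 v).1 hv]; norm_num))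
    (fun u hu v hv => hdiff u v (by rw [(m4 u).1 hu]; norm_num) (by rw [(m8 v).1 hv])
      (by rw [(m4 u).1 hu, (m8 v).1 hv]; norm_num))
    (fun u hu v hv => hdiff u v (by rw [(m6 u).1 hu]; norm_num) (by rw [(m8 v).1 hv])
      (by rw [(m6 u).1 hu, (m8 v).1 hv]; norm_num))
    (hfib2 S4 4 (by norm_num) (fun y hy => (m4 y).1 hy))
    (hfib2 S6 6 (by norm_num) (fun y hy => (m6 y).1 hy))
    (by
      intro u hu
      have hb := Cfsg.Agent.Lib.Helper1.frame_bound B (S8.filter (fun y => ρ y = ρ u))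
        (by
          intro y hy
          rw [(m8 y).1 (Finset.mem_filter.1 hy).1]
          norm_num)
        (by
          intro y hy w hw
          obtain ⟨hyS, hyu⟩ := Finset.mem_filter.1 hy
          obtain ⟨hwS, hwu⟩ := Finset.mem_filter.1 hw
          rcases hpair y w (by rw [(m8 y).1 hyS]) (by rw [(m8 w).1 hwS]) (hyu.trans hwu.symm)
            with h | h | ⟨-, -, h⟩
          · exact Or.inl h
          · exact Or.inr (Or.inl h)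
          · exact Or.inr (Or.inr h))
      rw [Fintype.card_fin] at hb
      exact hb)
  have hx8 : x ∈ S8 := (m8 x).2 hx
  have hset : {y : Fin 24 → ℤ | y ⬝ᵥ (B *ᵥ y) = 8 ∧ ∀ i, (2 : ℤ) ∣ (x - y) i}
      = ↑(S8.filter (fun y => ρ y = ρ x)) := by
    ext y
    rw [Finset.mem_coe, Finset.mem_filter, m8]
    constructor
    · rintro ⟨h1, h2'⟩
      exact ⟨h1, ((hρ x y).2 h2').symm⟩
    · rintro ⟨h1, h2'⟩
      exact ⟨h1, (hρ x y).1 h2'.symm⟩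
  rw [hset, Set.ncard_coe_finset]
  exact hmain.1 x hx8

end Cfsg.Agent.S1588
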