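import Cfsg.Statements.S1590
import Mathlib
import Cfsg.Agent.Lib.Helper1.TernGolay

set_option autoImplicit false
open Cfsg

namespace Cfsg.Agent.S1590

/-- The length-12 ternary code has 729 words with weight distribution 0^1 6^264 9^440 12^24. -/
theorem result : Nat.card ↥Cfsg.ternaryGolayCode = 729 ∧ (∀ x ∈ Cfsg.ternaryGolayCode, x ≠ 0 → (Cfsg.ternarySupport x).card = 6 ∨ (Cfsg.ternarySupport x).card = 9 ∨ (Cfsg.ternarySupport x).card = 12) ∧ {x : Cfsg.ArrayPt → ZMod 3 | x ∈ Cfsg.ternaryGolayCode ∧ (Cfsg.ternarySupport x).card = 6}.ncard = 264 ∧ {x : Cfsg.ArrayPt → ZMod 3 | x ∈ Cfsg.ternaryGolayCode ∧ (Cfsg.ternarySupport x).card = 9}.ncard = 440 ∧ {x : Cfsg.ArrayPt → ZMod 3 | x ∈ Cfsg.ternaryGolayCode ∧ (Cfsg.ternarySupport x).card = 12}.ncard = 24 := by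
  refine ⟨Cfsg.Agent.Lib.Helper1.tg_card, ?_,
    Cfsg.Agent.Lib.Helper1.tg_count 6 264 Cfsg.Agent.Lib.Helper1.tg_cnt6,
    Cfsg.Agent.Lib.Helper1.tg_count 9 440 Cfsg.Agent.Lib.Helper1.tg_cnt9,
    Cfsg.Agent.Lib.Helper1.tg_count 12 24 Cfsg.Agent.Lib.Helper1.tg_cnt12⟩
  intro x hx hx0
  have hx' : x ∈ (Cfsg.ternaryGolayCode : Set (Cfsg.ArrayPt → ZMod 3)) := hx
  rw [Cfsg.Agent.Lib.Helper1.tg_range] at hx'
  obtain ⟨t, rfl⟩ := hx'
  rcases Cfsg.Agent.Lib.Helper1.tg_wts t with h | h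
  · exact absurd (Cfsg.Agent.Lib.Helper1.tg_support_zero _ h) hx0
  · exact h

end Cfsg.Agent.S1590
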