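import Cfsg.Statements.S1595
import Mathlib
import Cfsg.Agent.Lib.Helper1.Steiner

set_option autoImplicit false
open Cfsg

namespace Cfsg.Agent.S1595


theorem key1 : ∀ m ≤ 4, 2 * Nat.choose m 2 + 4 * Nat.choose m 4
      ≤ Nat.choose m 1 + 3 * Nat.choose m 3 ∧
    (2 * Nat.choose m 2 + 4 * Nat.choose m 4 = Nat.choose m 1 + 3 * Nat.choose m 3 →
      m = 0 ∨ m = 2 ∨ m = 3 ∨ m = 4) := by decide

theorem part1 {α : Type*} [Fintype α] [DecidableEq α] (hα : Fintype.card α = 12)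
    {B : Set (Finset α)} (hB : Cfsg.IsSteinerSystem 5 6 B) {b c : Finset α} (hb : b ∈ B)
    (hc : c ∈ B) (hbc : c ≠ b) :
    (b ∩ c).card = 0 ∨ (b ∩ c).card = 2 ∨ (b ∩ c).card = 3 ∨ (b ∩ c).card = 4 := by
  obtain ⟨Bf, hBf, -⟩ := Cfsg.Agent.Lib.Helper1.exists_blockFinset B
  have e1 := Cfsg.Agent.Lib.Helper1.steiner_inter_sum_erase hB Bf hBf b hb 1 (by norm_num)
  have e2 := Cfsg.Agent.Lib.Helper1.steiner_inter_sum_erase hB Bf hBf b hb 2 (by norm_num)
  have e3 := Cfsg.Agent.Lib.Helper1.steiner_inter_sum_erase hB Bf hBf b hb 3 (by norm_num)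
  have e4 := Cfsg.Agent.Lib.Helper1.steiner_inter_sum_erase hB Bf hBf b hb 4 (by norm_num)
  obtain ⟨S1, hS1⟩ : ∃ S, S = ∑ c ∈ Bf.erase b, Nat.choose (b ∩ c).card 1 := ⟨_, rfl⟩
  rw [← hS1, hα] at e1
  norm_num [Nat.choose] at e1
  obtain ⟨S2, hS2⟩ : ∃ S, S = ∑ c ∈ Bf.erase b, Nat.choose (b ∩ c).card 2 := ⟨_, rfl⟩
  rw [← hS2, hα] at e2
  norm_num [Nat.choose] at e2
  obtain ⟨S3, hS3⟩ : ∃ S, S = ∑ c ∈ Bf.erase b, Nat.choose (b ∩ c).card 3 := ⟨_, rfl⟩
  rw [← hS3, hα] at e3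
  norm_num [Nat.choose] at e3
  obtain ⟨S4, hS4⟩ : ∃ S, S = ∑ c ∈ Bf.erase b, Nat.choose (b ∩ c).card 4 := ⟨_, rfl⟩
  rw [← hS4, hα] at e4
  norm_num [Nat.choose] at e4
  have hsum : ∑ c ∈ Bf.erase b, (2 * Nat.choose (b ∩ c).card 2 + 4 * Nat.choose (b ∩ c).card 4)
      = ∑ c ∈ Bf.erase b, (Nat.choose (b ∩ c).card 1 + 3 * Nat.choose (b ∩ c).card 3) := by
    simp only [Finset.sum_add_distrib, ← Finset.mul_sum]
    rw [← hS1, ← hS2, ← hS3, ← hS4]; omega
  have hle : ∀ c ∈ Bf.erase b, 2 * Nat.choose (b ∩ c).card 2 + 4 * Nat.choose (b ∩ c).card 4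
      ≤ Nat.choose (b ∩ c).card 1 + 3 * Nat.choose (b ∩ c).card 3 := by
    intro c hc
    obtain ⟨hcb, hcB⟩ := Finset.mem_erase.1 hc
    have hlt := Cfsg.Agent.Lib.Helper1.steiner_inter_lt hB hb ((hBf c).1 hcB) (Ne.symm hcb)
    exact (key1 _ (by omega)).1
  have heq := (Finset.sum_eq_sum_iff_of_le hle).1 hsum c
    (Finset.mem_erase.2 ⟨hbc, (hBf c).2 hc⟩)
  have hlt := Cfsg.Agent.Lib.Helper1.steiner_inter_lt hB hb hc (Ne.symm hbc)
  exact (key1 _ (by omega)).2 heq

theorem fiber_decomp {α : Type*} [DecidableEq α] (Bf : Finset (Finset α)) (b s : Finset α)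
    (hs : s ⊆ b) :
    (Bf.filter (fun c => s ⊆ c)).card
      = ∑ u ∈ (b.powerset).filter (fun u => s ⊆ u), (Bf.filter (fun c => b ∩ c = u)).card := by
  rw [Finset.card_eq_sum_card_fiberwise (f := fun c => b ∩ c)
    (t := (b.powerset).filter (fun u => s ⊆ u))]
  · refine Finset.sum_congr rfl (fun u hu => ?_)
    congr 1
    ext c
    simp only [Finset.mem_filter]
    rw [Finset.mem_filter] at hu
    constructor
    · rintro ⟨⟨hc, _⟩, h⟩
      exact ⟨hc, h⟩
    · rintro ⟨hc, h⟩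
      refine ⟨⟨hc, fun x hx => ?_⟩, h⟩
      have hxu := hu.2 hx
      rw [← h] at hxu
      exact (Finset.mem_inter.1 hxu).2
  · intro c hc
    simp only [Finset.coe_filter, Set.mem_setOf_eq, Finset.mem_powerset] at hc ⊢
    exact ⟨Finset.inter_subset_left, Finset.subset_inter hs hc.2⟩

theorem sum_supersets {α : Type*} [DecidableEq α] (b s : Finset α) (hs : s ⊆ b) (e : ℕ → ℕ) :
    ∑ u ∈ (b.powerset).filter (fun u => s ⊆ u), e u.card
      = ∑ j ∈ Finset.Icc s.card b.card, e j * Nat.choose (b.card - s.card) (j - s.card) := by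
  rw [← Finset.sum_fiberwise_of_maps_to (g := fun u : Finset α => u.card)
    (t := Finset.Icc s.card b.card)]
  · refine Finset.sum_congr rfl (fun j hj => ?_)
    rw [Finset.mem_Icc] at hj
    have hset : ((b.powerset).filter (fun u => s ⊆ u)).filter (fun u => u.card = j)
        = (Finset.powersetCard j b).filter (fun u => s ⊆ u) := by
      ext u
      simp only [Finset.mem_filter, Finset.mem_powerset, Finset.mem_powersetCard]
      tauto
    rw [hset, ← Cfsg.Agent.Lib.Helper1.card_filter_superset b s hs j hj.1,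
      Finset.sum_congr rfl (g := fun _ => e j) (fun u hu => by
        rw [(Finset.mem_powersetCard.1 (Finset.mem_filter.1 hu).1).2]),
      Finset.sum_const, smul_eq_mul, mul_comm]
  · intro u hu
    rw [Finset.mem_filter, Finset.mem_powerset] at hu
    exact Finset.mem_Icc.2 ⟨Finset.card_le_card hu.2, Finset.card_le_card hu.1⟩

theorem count_exact {α : Type*} [DecidableEq α] (Bf : Finset (Finset α)) (b s : Finset α)
    (hs : s ⊆ b) (e : ℕ → ℕ) (he0 : e s.card = 0)
    (hE : ∀ u, u ⊆ b → s ⊆ u → u ≠ s → (Bf.filter (fun c => b ∩ c = u)).card = e u.card) :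
    (Bf.filter (fun c => s ⊆ c)).card = (Bf.filter (fun c => b ∩ c = s)).card
      + ∑ j ∈ Finset.Icc s.card b.card, e j * Nat.choose (b.card - s.card) (j - s.card) := by
  rw [fiber_decomp Bf b s hs, ← sum_supersets b s hs e]
  have hsU : s ∈ (b.powerset).filter (fun u => s ⊆ u) :=
    Finset.mem_filter.2 ⟨Finset.mem_powerset.2 hs, subset_rfl⟩
  rw [← Finset.add_sum_erase _ _ hsU, ← Finset.add_sum_erase _ (fun u => e u.card) hsU, he0,
    zero_add]
  congr 1
  refine Finset.sum_congr rfl (fun u hu => ?_)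
  rw [Finset.mem_erase, Finset.mem_filter, Finset.mem_powerset] at hu
  exact hE u hu.2.1 hu.2.2 hu.1

section
variable {α : Type*} [Fintype α] [DecidableEq α] (hα : Fintype.card α = 12)
  {B : Set (Finset α)} (hB : Cfsg.IsSteinerSystem 5 6 B) (Bf : Finset (Finset α))
  (hBf : ∀ c, c ∈ Bf ↔ c ∈ B) (b : Finset α) (hb : b ∈ B)
include hB hBf hb

theorem E6 (u : Finset α) (hu : u ⊆ b) (hu6 : u.card = 6) :
    (Bf.filter (fun c => b ∩ c = u)).card = 1 := by
  have hub : u = b := Finset.eq_of_subset_of_card_le hu (by rw [hu6, hB.1 b hb])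
  have hset : Bf.filter (fun c => b ∩ c = u) = {b} := by
    ext c
    simp only [Finset.mem_filter, Finset.mem_singleton, hBf]
    constructor
    · rintro ⟨hc, h⟩
      rw [hub] at h
      have hsub : b ⊆ c := fun x hx => by
        have hx' : x ∈ b ∩ c := by rw [h]; exact hx
        exact (Finset.mem_inter.1 hx').2
      exact (Finset.eq_of_subset_of_card_le hsub (by rw [hB.1 b hb, hB.1 c hc])).symm
    · rintro rfl
      exact ⟨hb, by rw [Finset.inter_self, hub]⟩
  rw [hset, Finset.card_singleton]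

theorem E5 (u : Finset α) (hu5 : u.card = 5) :
    (Bf.filter (fun c => b ∩ c = u)).card = 0 := by
  rw [Finset.card_eq_zero, Finset.filter_eq_empty_iff]
  intro c hc h
  rw [hBf] at hc
  by_cases hcb : c = b
  · rw [hcb, Finset.inter_self] at h
    rw [← h, hB.1 b hb] at hu5
    omega
  · have hlt := Cfsg.Agent.Lib.Helper1.steiner_inter_lt hB hb hc (Ne.symm hcb)
    rw [h, hu5] at hlt
    omega

include hα

theorem E4 (s : Finset α) (hs : s ⊆ b) (hs4 : s.card = 4) :
    (Bf.filter (fun c => b ∩ c = s)).card = 3 := by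
  have hb6 := hB.1 b hb
  have hN := Cfsg.Agent.Lib.Helper1.steiner_count_super hB Bf hBf s (by omega)
  rw [hs4, hα] at hN
  have c1 : Nat.choose (6 - 4) (5 - 4) = 2 := by decide
  have c2 : Nat.choose (12 - 4) (5 - 4) = 8 := by decide
  rw [c1, c2] at hN
  have h := count_exact Bf b s hs (fun j => if j = 6 then 1 else 0) (by rw [hs4]; rfl) (by
    intro u hub hsu hne
    have hle := Finset.card_le_card hub
    have hlt : s.card < u.card := Finset.card_lt_card (lt_of_le_of_ne hsu (Ne.symm hne))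
    rw [hb6] at hle
    rcases (show u.card = 5 ∨ u.card = 6 by omega) with h5 | h6
    · rw [E5 hB Bf hBf b hb u h5, h5]; rfl
    · rw [E6 hB Bf hBf b hb u hub h6, h6]; rfl)
  rw [hs4, hb6] at h
  have hsum : ∑ j ∈ Finset.Icc 4 6, (if j = 6 then 1 else 0) * Nat.choose (6 - 4) (j - 4) = 1 := by
    decide
  rw [hsum] at h
  omega

theorem E3 (s : Finset α) (hs : s ⊆ b) (hs3 : s.card = 3) :
    (Bf.filter (fun c => b ∩ c = s)).card = 2 := by
  have hb6 := hB.1 b hb
  have hN := Cfsg.Agent.Lib.Helper1.steiner_count_super hB Bf hBf s (by omega)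
  rw [hs3, hα] at hN
  have c1 : Nat.choose (6 - 3) (5 - 3) = 3 := by decide
  have c2 : Nat.choose (12 - 3) (5 - 3) = 36 := by decide
  rw [c1, c2] at hN
  have h := count_exact Bf b s hs (fun j => if j = 4 then 3 else if j = 6 then 1 else 0)
    (by rw [hs3]; rfl) (by
    intro u hub hsu hne
    have hle := Finset.card_le_card hub
    have hlt : s.card < u.card := Finset.card_lt_card (lt_of_le_of_ne hsu (Ne.symm hne))
    rw [hb6] at hle
    rcases (show u.card = 4 ∨ u.card = 5 ∨ u.card = 6 by omega) with h4 | h5 | h6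
    · rw [E4 hα hB Bf hBf b hb u hub h4, h4]; rfl
    · rw [E5 hB Bf hBf b hb u h5, h5]; rfl
    · rw [E6 hB Bf hBf b hb u hub h6, h6]; rfl)
  rw [hs3, hb6] at h
  have hsum : ∑ j ∈ Finset.Icc 3 6, (if j = 4 then 3 else if j = 6 then 1 else 0)
      * Nat.choose (6 - 3) (j - 3) = 10 := by
    decide
  rw [hsum] at h
  omega

theorem E2 (s : Finset α) (hs : s ⊆ b) (hs2 : s.card = 2) :
    (Bf.filter (fun c => b ∩ c = s)).card = 3 := by
  have hb6 := hB.1 b hb
  have hN := Cfsg.Agent.Lib.Helper1.steiner_count_super hB Bf hBf s (by omega)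
  rw [hs2, hα] at hN
  have c1 : Nat.choose (6 - 2) (5 - 2) = 4 := by decide
  have c2 : Nat.choose (12 - 2) (5 - 2) = 120 := by decide
  rw [c1, c2] at hN
  have h := count_exact Bf b s hs
    (fun j => if j = 3 then 2 else if j = 4 then 3 else if j = 6 then 1 else 0)
    (by rw [hs2]; rfl) (by
    intro u hub hsu hne
    have hle := Finset.card_le_card hub
    have hlt : s.card < u.card := Finset.card_lt_card (lt_of_le_of_ne hsu (Ne.symm hne))
    rw [hb6] at hle
    rcases (show u.card = 3 ∨ u.card = 4 ∨ u.card = 5 ∨ u.card = 6 by omega) with h3 | h4 | h5 | h6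
    · rw [E3 hα hB Bf hBf b hb u hub h3, h3]; rfl
    · rw [E4 hα hB Bf hBf b hb u hub h4, h4]; rfl
    · rw [E5 hB Bf hBf b hb u h5, h5]; rfl
    · rw [E6 hB Bf hBf b hb u hub h6, h6]; rfl)
  rw [hs2, hb6] at h
  have hsum : ∑ j ∈ Finset.Icc 2 6,
      (if j = 3 then 2 else if j = 4 then 3 else if j = 6 then 1 else 0)
      * Nat.choose (6 - 2) (j - 2) = 27 := by
    decide
  rw [hsum] at h
  omega

end

/-- Leech triangle of S(5, 6, 12): blocks meet in 0, 2, 3 or 4 points, and a block is met exactly in a given 2-, 3- or 4-subset by 3, 2, 3 blocks respectively. -/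
theorem result {α : Type*} [Fintype α] [DecidableEq α] (hα : Fintype.card α = 12) {B : Set (Finset α)} (hB : Cfsg.IsSteinerSystem 5 6 B) (b : Finset α) (hb : b ∈ B) : (∀ c ∈ B, c ≠ b → (b ∩ c).card = 0 ∨ (b ∩ c).card = 2 ∨ (b ∩ c).card = 3 ∨ (b ∩ c).card = 4) ∧ ∀ s ⊆ b, (s.card = 2 → {c : Finset α | c ∈ B ∧ b ∩ c = s}.ncard = 3) ∧ (s.card = 3 → {c : Finset α | c ∈ B ∧ b ∩ c = s}.ncard = 2) ∧ (s.card = 4 → {c : Finset α | c ∈ B ∧ b ∩ c = s}.ncard = 3) := by
  classical
  refine ⟨fun c hc hcb => part1 hα hB hb hc hcb, ?_⟩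
  intro s hs
  obtain ⟨Bf, hBf, -⟩ := Cfsg.Agent.Lib.Helper1.exists_blockFinset B
  have hset : {c : Finset α | c ∈ B ∧ b ∩ c = s} = ↑(Bf.filter (fun c => b ∩ c = s)) := by
    ext c
    simp only [Set.mem_setOf_eq, Finset.coe_filter, hBf]
  rw [hset, Set.ncard_coe_finset]
  exact ⟨fun h2 => E2 hα hB Bf hBf b hb s hs h2, fun h3 => E3 hα hB Bf hBf b hb s hs h3,
    fun h4 => E4 hα hB Bf hBf b hb s hs h4⟩

end Cfsg.Agent.S1595
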