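import Cfsg.Statements.S1596
import Mathlib
import Cfsg.Agent.Lib.Helper1.Quartets

set_option autoImplicit false
open scoped Pointwise
open Cfsg

namespace Cfsg.Agent.S1596


open Cfsg.Agent.Lib.Helper9 Cfsg.Agent.Lib.Helper1 Cfsg.Agent.S5618
open Cfsg
open scoped Pointwise

/-- The mask conditions for a quartet `{t, C₀ \ t, v, E₀ \ v}` of the base dodecad. -/
def valid (tm vm : ℕ) : Bool :=
  pc 24 tm == 3 && pc 24 vm == 3 && hexList.contains (tm ||| vm) &&
    hexList.contains (tm ||| (15744 ^^^ vm)) && hexList.contains ((8536078 ^^^ tm) ||| vm) &&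
    hexList.contains ((8536078 ^^^ tm) ||| (15744 ^^^ vm))

set_option maxHeartbeats 4000000 in
theorem uniq_check : (subs C0bits).all (fun tm => (subs E0bits).all (fun v1 =>
    (subs E0bits).all (fun v2 => !(valid tm v1 && valid tm v2) || v2 == v1 ||
      v2 == 15744 ^^^ v1))) = true := by decide +kernel

set_option maxHeartbeats 4000000 in
theorem exist_check : (subs C0bits).all (fun tm => !(pc 24 tm == 3) ||
    (subs E0bits).any (fun vm => valid tm vm && (List.range 220).any (fun i =>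
      sameSet [tm, 8536078 ^^^ tm, vm, 15744 ^^^ vm] (decK 4 cq_X i)))) = true := by
  decide +kernel

theorem mem_subsC {t : Finset GolayPt} (ht : t ⊆ mset 8536078) : maskOf t ∈ subs C0bits := by
  have eC : orL C0bits = 8536078 := by decide
  exact mem_subs C0bits _ (by rw [eC]; exact mask_of_subset ht)

theorem mem_subsE {v : Finset GolayPt} (hv : v ⊆ mset 15744) : maskOf v ∈ subs E0bits := by
  have eE : orL E0bits = 15744 := by decide
  exact mem_subs E0bits _ (by rw [eE]; exact mask_of_subset hv)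

theorem valid_of (t v : Finset GolayPt) (ht : t ⊆ mset 8536078) (hv : v ⊆ mset 15744)
    (ht3 : t.card = 3) (hv3 : v.card = 3)
    (h1 : t ∪ v ∈ hexadsOn (mset 8551822))
    (h2 : t ∪ (mset 15744 \ v) ∈ hexadsOn (mset 8551822))
    (h3 : (mset 8536078 \ t) ∪ v ∈ hexadsOn (mset 8551822))
    (h4 : (mset 8536078 \ t) ∪ (mset 15744 \ v) ∈ hexadsOn (mset 8551822)) :
    valid (maskOf t) (maskOf v) = true := by
  obtain ⟨tm, htm⟩ : ∃ tm, tm = maskOf t := ⟨_, rfl⟩
  obtain ⟨vm, hvm⟩ : ∃ vm, vm = maskOf v := ⟨_, rfl⟩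
  have et : t = mset tm := by rw [htm, mset_maskOf]
  have ev : v = mset vm := by rw [hvm, mset_maskOf]
  have htlt : tm < 2 ^ 24 := by rw [htm]; exact maskOf_lt t
  have hvlt : vm < 2 ^ 24 := by rw [hvm]; exact maskOf_lt v
  rw [← htm, ← hvm]
  subst et
  subst ev
  rw [card_mset] at ht3 hv3
  rw [sdiff_mset ht] at h3 h4
  rw [sdiff_mset hv] at h2 h4
  rw [← mset_or] at h1 h2 h3 h4
  have hC' : (8536078 ^^^ tm) < 2 ^ 24 := Nat.xor_lt_two_pow (by norm_num) htlt
  have hE' : (15744 ^^^ vm) < 2 ^ 24 := Nat.xor_lt_two_pow (by norm_num) hvlt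
  have k1 := mem_of_hex (Nat.or_lt_two_pow htlt hvlt) h1
  have k2 := mem_of_hex (Nat.or_lt_two_pow htlt hE') h2
  have k3 := mem_of_hex (Nat.or_lt_two_pow hC' hvlt) h3
  have k4 := mem_of_hex (Nat.or_lt_two_pow hC' hE') h4
  unfold valid
  simp only [ht3, hv3, k1, k2, k3, k4, beq_self_eq_true, Bool.and_self]

/-- The structure of a quartet of the base dodecad through a split of the base hexad. -/
theorem quartets_struct {Q : Finset (Finset GolayPt)} (hQ : Q ∈ quartets (mset 8551822))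
    {t u : Finset GolayPt} (ht : t ∈ Q) (hu : u ∈ Q) (htu : t ≠ u)
    (hun : t ∪ u = mset 8536078) :
    ∃ v : Finset GolayPt, v ⊆ mset 15744 ∧
      Q = {t, mset 8536078 \ t, v, mset 15744 \ v} ∧ valid (maskOf t) (maskOf v) = true := by
  classical
  obtain ⟨h4, htri, hhex⟩ := hQ
  have hc2 : ((Q.erase t).erase u).card = 2 := by
    rw [Finset.card_erase_of_mem (Finset.mem_erase.2 ⟨htu.symm, hu⟩),
      Finset.card_erase_of_mem ht, h4]
  obtain ⟨v, w, hvw, hvwe⟩ := Finset.card_eq_two.1 hc2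
  have hvm : v ∈ (Q.erase t).erase u := by rw [hvwe]; simp
  have hwm : w ∈ (Q.erase t).erase u := by rw [hvwe]; simp
  have hvu : v ≠ u := (Finset.mem_erase.1 hvm).1
  have hvt : v ≠ t := (Finset.mem_erase.1 (Finset.mem_erase.1 hvm).2).1
  have hvQ : v ∈ Q := (Finset.mem_erase.1 (Finset.mem_erase.1 hvm).2).2
  have hwu : w ≠ u := (Finset.mem_erase.1 hwm).1
  have hwt : w ≠ t := (Finset.mem_erase.1 (Finset.mem_erase.1 hwm).2).1
  have hwQ : w ∈ Q := (Finset.mem_erase.1 (Finset.mem_erase.1 hwm).2).2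
  have hQe : Q = {t, u, v, w} := by
    rw [← Finset.insert_erase ht, ← Finset.insert_erase (Finset.mem_erase.2 ⟨htu.symm, hu⟩),
      hvwe]
  have c3 := fun x hx => (htri x hx).1
  have dtu := card3_disjoint (c3 t ht) (c3 u hu) (hhex t ht u hu htu)
  have dtv := card3_disjoint (c3 t ht) (c3 v hvQ) (hhex t ht v hvQ hvt.symm)
  have dtw := card3_disjoint (c3 t ht) (c3 w hwQ) (hhex t ht w hwQ hwt.symm)
  have duv := card3_disjoint (c3 u hu) (c3 v hvQ) (hhex u hu v hvQ hvu.symm)
  have duw := card3_disjoint (c3 u hu) (c3 w hwQ) (hhex u hu w hwQ hwu.symm)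
  have dvw := card3_disjoint (c3 v hvQ) (c3 w hwQ) (hhex v hvQ w hwQ hvw)
  have htC : t ⊆ mset 8536078 := by rw [← hun]; exact Finset.subset_union_left
  have huC : u = mset 8536078 \ t := by
    rw [← hun, Finset.union_sdiff_cancel_left dtu]
  have hsubE : ∀ x, x ⊆ mset 8551822 → Disjoint t x → Disjoint u x → x ⊆ mset 15744 := by
    intro x hx h1 h2
    rw [← sdiff_eq, ← hun]
    intro p hp
    rw [Finset.mem_sdiff, Finset.mem_union]
    refine ⟨hx hp, ?_⟩
    rintro (h | h)
    · exact (Finset.disjoint_left.1 h1 h) hp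
    · exact (Finset.disjoint_left.1 h2 h) hp
  have hvE : v ⊆ mset 15744 := hsubE v (htri v hvQ).2 dtv duv
  have hwE : w ⊆ mset 15744 := hsubE w (htri w hwQ).2 dtw duw
  have hvwE : v ∪ w = mset 15744 := by
    apply Finset.eq_of_subset_of_card_le (Finset.union_subset hvE hwE)
    rw [(hhex v hvQ w hwQ hvw).1, card_mset]
    decide
  have hwE' : w = mset 15744 \ v := by
    rw [← hvwE, Finset.union_sdiff_cancel_left dvw]
  have key := valid_of t v htC hvE (c3 t ht) (c3 v hvQ)
    (hhex t ht v hvQ hvt.symm)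
    (by rw [← hwE']; exact hhex t ht w hwQ hwt.symm)
    (by rw [← huC]; exact hhex u hu v hvQ hvu.symm)
    (by rw [← huC, ← hwE']; exact hhex u hu w hwQ hwu.symm)
  exact ⟨v, hvE, by rw [hQe, ← huC, ← hwE'], key⟩

theorem base_unique {Q1 Q2 : Finset (Finset GolayPt)} (h1 : Q1 ∈ quartets (mset 8551822))
    (h2 : Q2 ∈ quartets (mset 8551822)) {t u : Finset GolayPt} (htu : t ≠ u)
    (hun : t ∪ u = mset 8536078) (ht1 : t ∈ Q1) (hu1 : u ∈ Q1) (ht2 : t ∈ Q2) (hu2 : u ∈ Q2) :
    Q1 = Q2 := by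
  obtain ⟨v1, hv1, e1, k1⟩ := quartets_struct h1 ht1 hu1 htu hun
  obtain ⟨v2, hv2, e2, k2⟩ := quartets_struct h2 ht2 hu2 htu hun
  have htC : t ⊆ mset 8536078 := by rw [← hun]; exact Finset.subset_union_left
  have ht_mem := mem_subsC htC
  have h1_mem := mem_subsE hv1
  have h2_mem := mem_subsE hv2
  generalize maskOf t = tm at ht_mem k1 k2
  generalize hm1 : maskOf v1 = m1 at h1_mem k1
  generalize hm2 : maskOf v2 = m2 at h2_mem k2
  have hq := uniq_check
  rw [List.all_eq_true] at hq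
  have hq1 := hq _ ht_mem
  rw [List.all_eq_true] at hq1
  have hq2 := hq1 _ h1_mem
  rw [List.all_eq_true] at hq2
  have hq3 := hq2 _ h2_mem
  rw [k1, k2] at hq3
  simp only [Bool.and_true, Bool.not_true, Bool.false_or, Bool.or_eq_true,
    beq_iff_eq] at hq3
  rw [e1, e2]
  rcases hq3 with h | h
  · have : v2 = v1 := by rw [← mset_maskOf v2, hm2, h, ← hm1, mset_maskOf]
    rw [this]
  · have hv1' : mset m1 ⊆ mset 15744 := by rw [← hm1, mset_maskOf]; exact hv1
    have : v2 = mset 15744 \ v1 := by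
      rw [← mset_maskOf v2, hm2, h, ← sdiff_mset hv1', ← hm1, mset_maskOf]
    rw [this, Finset.sdiff_sdiff_eq_self hv1]
    ext s
    simp only [Finset.mem_insert, Finset.mem_singleton]
    constructor
    · rintro (h | h | h | h)
      · exact Or.inl h
      · exact Or.inr (Or.inl h)
      · exact Or.inr (Or.inr (Or.inr h))
      · exact Or.inr (Or.inr (Or.inl h))
    · rintro (h | h | h | h)
      · exact Or.inl h
      · exact Or.inr (Or.inl h)
      · exact Or.inr (Or.inr (Or.inr h))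
      · exact Or.inr (Or.inr (Or.inl h))

theorem base_exists {t : Finset GolayPt} (ht : t ⊆ mset 8536078) (ht3 : t.card = 3) :
    ∃ Q ∈ quartets (mset 8551822), t ∈ Q ∧ mset 8536078 \ t ∈ Q := by
  have hq := exist_check
  rw [List.all_eq_true] at hq
  have hq1 := hq _ (mem_subsC ht)
  have hpc : pc 24 (maskOf t) = 3 := by rw [← card_mset, mset_maskOf]; exact ht3
  simp only [hpc, beq_self_eq_true, Bool.not_true, Bool.false_or, List.any_eq_true,
    Bool.and_eq_true, List.mem_range] at hq1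
  obtain ⟨vm, -, -, i, hi, hs⟩ := hq1
  refine ⟨obj (decK 4 cq_X i), ?_, ?_, ?_⟩
  · rw [quartets_eq]; exact cq_mem i hi
  · rw [← obj_eq_of_sameSet hs, obj4]
    simp only [Finset.mem_insert, Finset.mem_singleton]
    left
    rw [mset_maskOf]
  · have ht' : mset (maskOf t) ⊆ mset 8536078 := by rw [mset_maskOf]; exact ht
    rw [← obj_eq_of_sameSet hs, obj4]
    simp only [Finset.mem_insert, Finset.mem_singleton]
    right; left
    rw [← sdiff_mset ht', mset_maskOf]

/-- A quartet of a dodecad is determined by any two of its triples: two disjoint triples uniting to a hexad extend to exactly one quartet. -/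
theorem result (d : Finset Cfsg.GolayPt) (hd : d ∈ Cfsg.dodecads) (t u : Finset Cfsg.GolayPt) (ht : t.card = 3) (hu : u.card = 3) (htu : Disjoint t u) (hh : t ∪ u ∈ Cfsg.hexadsOn d) : ∃! Q : Finset (Finset Cfsg.GolayPt), Q ∈ Cfsg.quartets d ∧ t ∈ Q ∧ u ∈ Q := by
  classical
  obtain ⟨a, ha, rfl, hC⟩ := exists_pair hd hh
  have hai := M24.inv_mem ha
  have hne0 : t ≠ u := by
    rintro rfl
    rw [disjoint_self, Finset.bot_eq_empty] at htu
    rw [htu] at ht
    simp at ht
  have hun' : a⁻¹ • t ∪ a⁻¹ • u = mset 8536078 := by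
    rw [← Finset.smul_finset_union, ← hC, inv_smul_smul]
  have ht' : a⁻¹ • t ⊆ mset 8536078 := by rw [← hun']; exact Finset.subset_union_left
  have ht3' : (a⁻¹ • t).card = 3 := by rw [Finset.card_smul_finset]; exact ht
  have hdis' : Disjoint (a⁻¹ • t) (a⁻¹ • u) := disjoint_smul htu
  have hu' : a⁻¹ • u = mset 8536078 \ a⁻¹ • t := by
    rw [← hun', Finset.union_sdiff_cancel_left hdis']
  obtain ⟨Q', hQ', htQ', huQ'⟩ := base_exists ht' ht3'
  rw [← hu'] at huQ'
  refine ⟨a • Q', ⟨smul_quartets ha hQ', ?_, ?_⟩, ?_⟩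
  · have := Finset.smul_mem_smul_finset (a := a) htQ'
    rwa [smul_inv_smul] at this
  · have := Finset.smul_mem_smul_finset (a := a) huQ'
    rwa [smul_inv_smul] at this
  · rintro Q2 ⟨hQ2, htQ2, huQ2⟩
    have hQ2' : a⁻¹ • Q2 ∈ quartets (mset 8551822) := by
      have := smul_quartets hai hQ2
      rwa [inv_smul_smul] at this
    have hne : a⁻¹ • t ≠ a⁻¹ • u := fun h => hne0 (MulAction.injective a⁻¹ h)
    have := base_unique hQ2' hQ' hne hun' (Finset.smul_mem_smul_finset htQ2)
      (Finset.smul_mem_smul_finset huQ2) htQ' huQ'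
    rw [← this, smul_inv_smul]

end Cfsg.Agent.S1596
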