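import Cfsg.Statements.S1597
import Mathlib
import Cfsg.Agent.Lib.Helper1.Quartets

set_option autoImplicit false
open scoped Pointwise
open Cfsg

namespace Cfsg.Agent.S1597

/-- A dodecad has 220 quartets and its stabiliser is transitive on them. -/
theorem result (d : Finset Cfsg.GolayPt) (hd : d ∈ Cfsg.dodecads) : (Cfsg.quartets d).ncard = 220 ∧ ∀ Q ∈ Cfsg.quartets d, ∀ Q' ∈ Cfsg.quartets d, ∃ g : Equiv.Perm Cfsg.GolayPt, g ∈ Cfsg.M24 ∧ g • d = d ∧ g • Q = Q' := by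
  obtain ⟨g, hg, rfl⟩ := Cfsg.Agent.Lib.Helper9.exists_smul_eq_dodecad hd
  constructor
  · rw [Cfsg.Agent.Lib.Helper1.quartets_smul hg,
      Set.ncard_image_of_injective _ (MulAction.injective g),
      Cfsg.Agent.Lib.Helper1.quartets_eq]
    exact Cfsg.Agent.Lib.Helper1.cq.1
  · intro Q hQ Q' hQ'
    rw [Cfsg.Agent.Lib.Helper1.quartets_smul hg] at hQ hQ'
    obtain ⟨Q1, hQ1, rfl⟩ := hQ
    obtain ⟨Q2, hQ2, rfl⟩ := hQ'
    rw [Cfsg.Agent.Lib.Helper1.quartets_eq] at hQ1 hQ2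
    obtain ⟨k1, hk1, rfl⟩ := hQ1
    obtain ⟨k2, hk2, rfl⟩ := hQ2
    refine ⟨g * k2 * k1⁻¹ * g⁻¹, ?_, ?_, ?_⟩
    · exact M24.mul_mem (M24.mul_mem (M24.mul_mem hg hk2.1) (M24.inv_mem hk1.1))
        (M24.inv_mem hg)
    · rw [mul_smul, mul_smul, mul_smul, inv_smul_smul,
        Cfsg.Agent.Lib.Helper1.smul_d0 (Subgroup.inv_mem _ hk1),
        Cfsg.Agent.Lib.Helper1.smul_d0 hk2]
    · show (g * k2 * k1⁻¹ * g⁻¹) • (g • (k1 • Cfsg.Agent.Lib.Helper9.obj Cfsg.Agent.Lib.Helper1.Q0l))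
        = g • (k2 • Cfsg.Agent.Lib.Helper9.obj Cfsg.Agent.Lib.Helper1.Q0l)
      rw [mul_smul, mul_smul, mul_smul, inv_smul_smul, inv_smul_smul]

end Cfsg.Agent.S1597
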