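import Cfsg.Statements.S1598
import Mathlib
import Cfsg.Agent.Lib.Helper1.Quartets
import Cfsg.Agent.Lib.Helper9.M24Syl

set_option autoImplicit false
open scoped Pointwise
open Cfsg

namespace Cfsg.Agent.S1598


open Cfsg.Agent.Lib.Helper9 Cfsg.Agent.Lib.Helper1
open Cfsg
open scoped Pointwise

/-- The joint stabiliser of the base dodecad and the base quartet. -/
def K2 : Subgroup (Equiv.Perm GolayPt) :=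
  Kdod ⊓ MulAction.stabilizer (Equiv.Perm GolayPt) (obj Q0l)

theorem card_K2 : Nat.card K2 = 432 := cq.2

set_option maxRecDepth 100000 in
def K2L : List (List ℕ) :=
  [[0, 1, 2, 3, 4, 5, 6, 7, 8, 9, 10, 11, 12, 13, 14, 15, 16, 17, 18, 19, 20, 21, 22, 23],
   [0, 1, 2, 8, 9, 18, 6, 7, 3, 4, 13, 14, 17, 10, 11, 16, 15, 12, 5, 19, 22, 21, 20, 23],
   [0, 1, 2, 11, 19, 18, 22, 13, 17, 9, 10, 3, 14, 7, 12, 15, 21, 8, 5, 4, 20, 16, 6, 23],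
   [0, 1, 2, 12, 4, 18, 20, 10, 14, 19, 7, 17, 3, 13, 8, 21, 16, 11, 5, 9, 6, 15, 22, 23],
   [0, 1, 2, 14, 19, 5, 20, 10, 12, 4, 13, 8, 11, 7, 17, 16, 21, 3, 18, 9, 22, 15, 6, 23],
   [0, 1, 2, 17, 9, 5, 22, 13, 11, 19, 7, 12, 8, 10, 3, 21, 15, 14, 18, 4, 6, 16, 20, 23],
   [0, 2, 1, 3, 4, 5, 15, 10, 11, 19, 7, 8, 12, 13, 17, 6, 22, 14, 18, 9, 21, 20, 16, 23],
   [0, 2, 1, 8, 9, 18, 16, 13, 14, 19, 7, 3, 17, 10, 12, 6, 20, 11, 5, 4, 21, 22, 15, 23],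
   [0, 2, 1, 11, 19, 18, 15, 10, 3, 4, 13, 17, 14, 7, 8, 22, 6, 12, 5, 9, 16, 20, 21, 23],
   [0, 2, 1, 12, 4, 18, 21, 7, 17, 9, 10, 14, 3, 13, 11, 20, 22, 8, 5, 19, 15, 6, 16, 23],
   [0, 2, 1, 14, 19, 5, 16, 13, 8, 9, 10, 12, 11, 7, 3, 20, 6, 17, 18, 4, 15, 22, 21, 23],
   [0, 2, 1, 17, 9, 5, 21, 7, 12, 4, 13, 11, 8, 10, 14, 22, 20, 3, 18, 19, 16, 6, 15, 23],
   [0, 3, 12, 1, 4, 16, 6, 7, 8, 19, 10, 14, 2, 23, 11, 20, 5, 17, 22, 9, 15, 21, 18, 13],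
   [0, 3, 12, 2, 4, 22, 15, 10, 11, 9, 7, 17, 1, 23, 8, 21, 5, 14, 16, 19, 6, 20, 18, 13],
   [0, 3, 12, 8, 19, 22, 6, 7, 1, 4, 23, 11, 17, 10, 14, 5, 20, 2, 16, 9, 18, 21, 15, 13],
   [0, 3, 12, 11, 9, 16, 15, 10, 2, 4, 23, 8, 14, 7, 17, 5, 21, 1, 22, 19, 18, 20, 6, 13],
   [0, 3, 12, 14, 9, 22, 18, 23, 17, 19, 10, 1, 11, 7, 2, 20, 21, 8, 16, 4, 15, 5, 6, 13],
   [0, 3, 12, 17, 19, 16, 18, 23, 14, 9, 7, 2, 8, 10, 1, 21, 20, 11, 22, 4, 6, 5, 15, 13],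
   [0, 8, 17, 1, 9, 15, 6, 7, 3, 19, 13, 11, 2, 23, 14, 22, 18, 12, 20, 4, 16, 21, 5, 10],
   [0, 8, 17, 2, 9, 20, 16, 13, 14, 4, 7, 12, 1, 23, 3, 21, 18, 11, 15, 19, 6, 22, 5, 10],
   [0, 8, 17, 3, 19, 20, 6, 7, 1, 9, 23, 14, 12, 13, 11, 18, 22, 2, 15, 4, 5, 21, 16, 10],
   [0, 8, 17, 11, 4, 20, 5, 23, 12, 19, 13, 1, 14, 7, 2, 22, 21, 3, 15, 9, 16, 18, 6, 10],
   [0, 8, 17, 12, 19, 15, 5, 23, 11, 4, 7, 2, 3, 13, 1, 21, 22, 14, 20, 9, 6, 18, 16, 10],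
   [0, 8, 17, 14, 4, 15, 16, 13, 2, 9, 23, 3, 11, 7, 12, 18, 21, 1, 20, 19, 5, 22, 6, 10],
   [0, 11, 14, 1, 19, 21, 22, 13, 17, 4, 10, 12, 2, 23, 3, 20, 18, 8, 6, 9, 15, 16, 5, 7],
   [0, 11, 14, 2, 19, 6, 15, 10, 3, 9, 13, 8, 1, 23, 17, 16, 18, 12, 21, 4, 22, 20, 5, 7],
   [0, 11, 14, 3, 9, 21, 15, 10, 2, 19, 23, 17, 12, 13, 8, 18, 16, 1, 6, 4, 5, 20, 22, 7],
   [0, 11, 14, 8, 4, 21, 5, 23, 12, 9, 13, 2, 17, 10, 1, 16, 20, 3, 6, 19, 22, 18, 15, 7],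
   [0, 11, 14, 12, 9, 6, 5, 23, 8, 4, 10, 1, 3, 13, 2, 20, 16, 17, 21, 19, 15, 18, 22, 7],
   [0, 11, 14, 17, 4, 6, 22, 13, 1, 19, 23, 3, 8, 10, 12, 18, 20, 2, 21, 9, 5, 16, 15, 7],
   [0, 12, 3, 1, 4, 16, 20, 10, 14, 9, 7, 8, 2, 23, 17, 6, 18, 11, 22, 19, 21, 15, 5, 13],
   [0, 12, 3, 2, 4, 22, 21, 7, 17, 19, 10, 11, 1, 23, 14, 15, 18, 8, 16, 9, 20, 6, 5, 13],
   [0, 12, 3, 8, 19, 22, 5, 23, 11, 9, 7, 1, 17, 10, 2, 6, 15, 14, 16, 4, 21, 18, 20, 13],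
   [0, 12, 3, 11, 9, 16, 5, 23, 8, 19, 10, 2, 14, 7, 1, 15, 6, 17, 22, 4, 20, 18, 21, 13],
   [0, 12, 3, 14, 9, 22, 20, 10, 1, 4, 23, 17, 11, 7, 8, 18, 6, 2, 16, 19, 5, 15, 21, 13],
   [0, 12, 3, 17, 19, 16, 21, 7, 2, 4, 23, 14, 8, 10, 11, 18, 15, 1, 22, 9, 5, 6, 20, 13],
   [0, 14, 11, 1, 19, 21, 20, 10, 12, 9, 13, 17, 2, 23, 8, 22, 5, 3, 6, 4, 16, 15, 18, 7],
   [0, 14, 11, 2, 19, 6, 16, 13, 8, 4, 10, 3, 1, 23, 12, 15, 5, 17, 21, 9, 20, 22, 18, 7],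
   [0, 14, 11, 3, 9, 21, 18, 23, 17, 4, 10, 2, 12, 13, 1, 15, 22, 8, 6, 19, 20, 5, 16, 7],
   [0, 14, 11, 8, 4, 21, 16, 13, 2, 19, 23, 12, 17, 10, 3, 5, 15, 1, 6, 9, 18, 22, 20, 7],
   [0, 14, 11, 12, 9, 6, 20, 10, 1, 19, 23, 8, 3, 13, 17, 5, 22, 2, 21, 4, 18, 15, 16, 7],
   [0, 14, 11, 17, 4, 6, 18, 23, 3, 9, 13, 1, 8, 10, 2, 22, 15, 12, 21, 19, 16, 5, 20, 7],
   [0, 17, 8, 1, 9, 15, 22, 13, 11, 4, 7, 3, 2, 23, 12, 6, 5, 14, 20, 19, 21, 16, 18, 10],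
   [0, 17, 8, 2, 9, 20, 21, 7, 12, 19, 13, 14, 1, 23, 11, 16, 5, 3, 15, 4, 22, 6, 18, 10],
   [0, 17, 8, 3, 19, 20, 18, 23, 14, 4, 7, 1, 12, 13, 2, 6, 16, 11, 15, 9, 21, 5, 22, 10],
   [0, 17, 8, 11, 4, 20, 22, 13, 1, 9, 23, 12, 14, 7, 3, 5, 6, 2, 15, 19, 18, 16, 21, 10],
   [0, 17, 8, 12, 19, 15, 21, 7, 2, 9, 23, 11, 3, 13, 14, 5, 16, 1, 20, 4, 18, 6, 22, 10],
   [0, 17, 8, 14, 4, 15, 18, 23, 3, 19, 13, 2, 11, 7, 1, 16, 6, 12, 20, 9, 22, 5, 21, 10],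
   [5, 1, 2, 3, 4, 0, 6, 8, 7, 19, 11, 10, 13, 12, 17, 15, 21, 14, 18, 9, 22, 16, 20, 23],
   [5, 1, 2, 7, 19, 18, 6, 8, 3, 4, 12, 17, 14, 11, 10, 21, 15, 13, 0, 9, 20, 16, 22, 23],
   [5, 1, 2, 10, 9, 18, 20, 12, 14, 19, 11, 3, 17, 8, 13, 15, 16, 7, 0, 4, 22, 21, 6, 23],
   [5, 1, 2, 13, 4, 18, 22, 11, 17, 9, 8, 14, 3, 12, 7, 16, 21, 10, 0, 19, 6, 15, 20, 23],
   [5, 1, 2, 14, 19, 0, 20, 12, 10, 9, 8, 13, 7, 11, 3, 16, 15, 17, 18, 4, 6, 21, 22, 23],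
   [5, 1, 2, 17, 9, 0, 22, 11, 13, 4, 12, 7, 10, 8, 14, 21, 16, 3, 18, 19, 20, 15, 6, 23],
   [5, 2, 1, 3, 4, 0, 15, 11, 10, 9, 8, 7, 13, 12, 14, 6, 20, 17, 18, 19, 16, 22, 21, 23],
   [5, 2, 1, 7, 19, 18, 21, 12, 17, 9, 8, 3, 14, 11, 13, 6, 22, 10, 0, 4, 16, 20, 15, 23],
   [5, 2, 1, 10, 9, 18, 15, 11, 3, 4, 12, 14, 17, 8, 7, 20, 6, 13, 0, 19, 21, 22, 16, 23],
   [5, 2, 1, 13, 4, 18, 16, 8, 14, 19, 11, 17, 3, 12, 10, 22, 20, 7, 0, 9, 15, 6, 21, 23],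
   [5, 2, 1, 14, 19, 0, 16, 8, 13, 4, 12, 10, 7, 11, 17, 20, 22, 3, 18, 9, 21, 6, 15, 23],
   [5, 2, 1, 17, 9, 0, 21, 12, 7, 19, 11, 13, 10, 8, 3, 22, 6, 14, 18, 4, 15, 20, 16, 23],
   [5, 3, 13, 1, 4, 21, 6, 8, 7, 9, 11, 17, 2, 23, 10, 22, 0, 14, 20, 19, 15, 16, 18, 12],
   [5, 3, 13, 2, 4, 20, 15, 11, 10, 19, 8, 14, 1, 23, 7, 16, 0, 17, 21, 9, 6, 22, 18, 12],
   [5, 3, 13, 7, 9, 20, 6, 8, 1, 4, 23, 10, 14, 11, 17, 0, 22, 2, 21, 19, 18, 16, 15, 12],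
   [5, 3, 13, 10, 19, 21, 15, 11, 2, 4, 23, 7, 17, 8, 14, 0, 16, 1, 20, 9, 18, 22, 6, 12],
   [5, 3, 13, 14, 9, 21, 18, 23, 17, 19, 8, 2, 7, 11, 1, 16, 22, 10, 20, 4, 6, 0, 15, 12],
   [5, 3, 13, 17, 19, 20, 18, 23, 14, 9, 11, 1, 10, 8, 2, 22, 16, 7, 21, 4, 15, 0, 6, 12],
   [5, 7, 14, 1, 19, 15, 6, 8, 3, 9, 12, 10, 2, 23, 17, 20, 18, 13, 22, 4, 21, 16, 0, 11],
   [5, 7, 14, 2, 19, 22, 21, 12, 17, 4, 8, 13, 1, 23, 3, 16, 18, 10, 15, 9, 6, 20, 0, 11],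
   [5, 7, 14, 3, 9, 22, 6, 8, 1, 19, 23, 17, 13, 12, 10, 18, 20, 2, 15, 4, 0, 16, 21, 11],
   [5, 7, 14, 10, 4, 22, 0, 23, 13, 9, 12, 1, 17, 8, 2, 20, 16, 3, 15, 19, 21, 18, 6, 11],
   [5, 7, 14, 13, 9, 15, 0, 23, 10, 4, 8, 2, 3, 12, 1, 16, 20, 17, 22, 19, 6, 18, 21, 11],
   [5, 7, 14, 17, 4, 15, 21, 12, 2, 19, 23, 3, 10, 8, 13, 18, 16, 1, 22, 9, 0, 20, 6, 11],
   [5, 10, 17, 1, 9, 16, 20, 12, 14, 4, 11, 13, 2, 23, 3, 22, 18, 7, 6, 19, 15, 21, 0, 8],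
   [5, 10, 17, 2, 9, 6, 15, 11, 3, 19, 12, 7, 1, 23, 14, 21, 18, 13, 16, 4, 20, 22, 0, 8],
   [5, 10, 17, 3, 19, 16, 15, 11, 2, 9, 23, 14, 13, 12, 7, 18, 21, 1, 6, 4, 0, 22, 20, 8],
   [5, 10, 17, 7, 4, 16, 0, 23, 13, 19, 12, 2, 14, 11, 1, 21, 22, 3, 6, 9, 20, 18, 15, 8],
   [5, 10, 17, 13, 19, 6, 0, 23, 7, 4, 11, 1, 3, 12, 2, 22, 21, 14, 16, 9, 15, 18, 20, 8],
   [5, 10, 17, 14, 4, 6, 20, 12, 1, 9, 23, 3, 7, 11, 13, 18, 22, 2, 16, 19, 0, 21, 15, 8],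
   [5, 13, 3, 1, 4, 21, 22, 11, 17, 19, 8, 7, 2, 23, 14, 6, 18, 10, 20, 9, 16, 15, 0, 12],
   [5, 13, 3, 2, 4, 20, 16, 8, 14, 9, 11, 10, 1, 23, 17, 15, 18, 7, 21, 19, 22, 6, 0, 12],
   [5, 13, 3, 7, 9, 20, 0, 23, 10, 19, 8, 1, 14, 11, 2, 6, 15, 17, 21, 4, 16, 18, 22, 12],
   [5, 13, 3, 10, 19, 21, 0, 23, 7, 9, 11, 2, 17, 8, 1, 15, 6, 14, 20, 4, 22, 18, 16, 12],
   [5, 13, 3, 14, 9, 21, 16, 8, 2, 4, 23, 17, 7, 11, 10, 18, 15, 1, 20, 19, 0, 6, 22, 12],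
   [5, 13, 3, 17, 19, 20, 22, 11, 1, 4, 23, 14, 10, 8, 7, 18, 6, 2, 21, 9, 0, 15, 16, 12],
   [5, 14, 7, 1, 19, 15, 20, 12, 10, 4, 8, 3, 2, 23, 13, 6, 0, 17, 22, 9, 16, 21, 18, 11],
   [5, 14, 7, 2, 19, 22, 16, 8, 13, 9, 12, 17, 1, 23, 10, 21, 0, 3, 15, 4, 20, 6, 18, 11],
   [5, 14, 7, 3, 9, 22, 18, 23, 17, 4, 8, 1, 13, 12, 2, 6, 21, 10, 15, 19, 16, 0, 20, 11],
   [5, 14, 7, 10, 4, 22, 20, 12, 1, 19, 23, 13, 17, 8, 3, 0, 6, 2, 15, 9, 18, 21, 16, 11],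
   [5, 14, 7, 13, 9, 15, 16, 8, 2, 19, 23, 10, 3, 12, 17, 0, 21, 1, 22, 4, 18, 6, 20, 11],
   [5, 14, 7, 17, 4, 15, 18, 23, 3, 9, 12, 2, 10, 8, 1, 21, 6, 13, 22, 19, 20, 0, 16, 11],
   [5, 17, 10, 1, 9, 16, 22, 11, 13, 19, 12, 14, 2, 23, 7, 20, 0, 3, 6, 4, 21, 15, 18, 8],
   [5, 17, 10, 2, 9, 6, 21, 12, 7, 4, 11, 3, 1, 23, 13, 15, 0, 14, 16, 19, 22, 20, 18, 8],
   [5, 17, 10, 3, 19, 16, 18, 23, 14, 4, 11, 2, 13, 12, 1, 15, 20, 7, 6, 9, 22, 0, 21, 8],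
   [5, 17, 10, 7, 4, 16, 21, 12, 2, 9, 23, 13, 14, 11, 3, 0, 15, 1, 6, 19, 18, 20, 22, 8],
   [5, 17, 10, 13, 19, 6, 22, 11, 1, 9, 23, 7, 3, 12, 14, 0, 20, 2, 16, 4, 18, 15, 21, 8],
   [5, 17, 10, 14, 4, 6, 18, 23, 3, 19, 12, 1, 7, 11, 2, 20, 15, 13, 16, 9, 21, 0, 22, 8],
   [6, 2, 23, 10, 9, 22, 15, 3, 11, 19, 7, 13, 17, 8, 12, 0, 5, 14, 20, 4, 21, 18, 16, 1],
   [6, 2, 23, 11, 19, 20, 15, 3, 10, 9, 8, 12, 14, 7, 13, 5, 0, 17, 22, 4, 16, 18, 21, 1],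
   [6, 2, 23, 12, 4, 22, 21, 7, 17, 9, 8, 11, 13, 3, 14, 5, 18, 10, 20, 19, 16, 0, 15, 1],
   [6, 2, 23, 13, 4, 20, 16, 8, 14, 19, 7, 10, 12, 3, 17, 0, 18, 11, 22, 9, 21, 5, 15, 1],
   [6, 2, 23, 14, 19, 22, 16, 8, 13, 4, 3, 17, 11, 7, 10, 18, 0, 12, 20, 9, 15, 5, 21, 1],
   [6, 2, 23, 17, 9, 20, 21, 7, 12, 4, 3, 14, 10, 8, 11, 18, 5, 13, 22, 19, 15, 0, 16, 1],
   [6, 10, 17, 2, 9, 5, 15, 3, 11, 4, 7, 12, 23, 1, 13, 21, 22, 14, 16, 19, 0, 18, 20, 8],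
   [6, 10, 17, 11, 4, 16, 15, 3, 2, 9, 1, 13, 14, 7, 12, 22, 21, 23, 5, 19, 20, 18, 0, 8],
   [6, 10, 17, 12, 19, 16, 20, 1, 14, 4, 7, 2, 13, 3, 23, 21, 18, 11, 5, 9, 0, 22, 15, 8],
   [6, 10, 17, 13, 19, 5, 0, 7, 23, 9, 1, 11, 12, 3, 14, 22, 18, 2, 16, 4, 20, 21, 15, 8],
   [6, 10, 17, 14, 4, 5, 20, 1, 12, 19, 3, 23, 11, 7, 2, 18, 21, 13, 16, 9, 15, 22, 0, 8],
   [6, 10, 17, 23, 9, 16, 0, 7, 13, 19, 3, 14, 2, 1, 11, 18, 22, 12, 5, 4, 15, 21, 20, 8],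
   [6, 11, 14, 2, 19, 0, 15, 3, 10, 4, 8, 13, 23, 1, 12, 16, 20, 17, 21, 9, 5, 18, 22, 7],
   [6, 11, 14, 10, 4, 21, 15, 3, 2, 19, 1, 12, 17, 8, 13, 20, 16, 23, 0, 9, 22, 18, 5, 7],
   [6, 11, 14, 12, 9, 0, 5, 8, 23, 19, 1, 10, 13, 3, 17, 20, 18, 2, 21, 4, 22, 16, 15, 7],
   [6, 11, 14, 13, 9, 21, 22, 1, 17, 4, 8, 2, 12, 3, 23, 16, 18, 10, 0, 19, 5, 20, 15, 7],
   [6, 11, 14, 17, 4, 0, 22, 1, 13, 9, 3, 23, 10, 8, 2, 18, 16, 12, 21, 19, 15, 20, 5, 7],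
   [6, 11, 14, 23, 19, 21, 5, 8, 12, 9, 3, 17, 2, 1, 10, 18, 20, 13, 0, 4, 15, 16, 22, 7],
   [6, 12, 13, 2, 4, 18, 21, 7, 17, 19, 8, 14, 23, 1, 11, 16, 22, 10, 15, 9, 5, 0, 20, 3],
   [6, 12, 13, 10, 19, 18, 20, 1, 14, 9, 7, 23, 17, 8, 2, 0, 16, 11, 15, 4, 21, 22, 5, 3],
   [6, 12, 13, 11, 9, 18, 5, 8, 23, 4, 1, 17, 14, 7, 10, 22, 0, 2, 15, 19, 20, 16, 21, 3],
   [6, 12, 13, 14, 9, 15, 20, 1, 10, 19, 8, 2, 11, 7, 23, 16, 0, 17, 18, 4, 5, 22, 21, 3],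
   [6, 12, 13, 17, 19, 15, 21, 7, 2, 4, 1, 11, 10, 8, 14, 22, 16, 23, 18, 9, 20, 0, 5, 3],
   [6, 12, 13, 23, 4, 15, 5, 8, 11, 9, 7, 10, 2, 1, 17, 0, 22, 14, 18, 19, 21, 16, 20, 3],
   [6, 13, 12, 2, 4, 18, 16, 8, 14, 9, 7, 17, 23, 1, 10, 21, 20, 11, 15, 19, 0, 5, 22, 3],
   [6, 13, 12, 10, 19, 18, 0, 7, 23, 4, 1, 14, 17, 8, 11, 20, 5, 2, 15, 9, 22, 21, 16, 3],
   [6, 13, 12, 11, 9, 18, 22, 1, 17, 19, 8, 23, 14, 7, 2, 5, 21, 10, 15, 4, 16, 20, 0, 3],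
   [6, 13, 12, 14, 9, 15, 16, 8, 2, 4, 1, 10, 11, 7, 17, 20, 21, 23, 18, 19, 22, 5, 0, 3],
   [6, 13, 12, 17, 19, 15, 22, 1, 11, 9, 7, 2, 10, 8, 23, 21, 5, 14, 18, 4, 0, 20, 16, 3],
   [6, 13, 12, 23, 4, 15, 0, 7, 10, 19, 8, 11, 2, 1, 14, 5, 20, 17, 18, 9, 16, 21, 22, 3],
   [6, 14, 11, 2, 19, 0, 16, 8, 13, 9, 3, 10, 23, 1, 17, 15, 22, 12, 21, 4, 18, 5, 20, 7],
   [6, 14, 11, 10, 4, 21, 20, 1, 12, 9, 3, 2, 17, 8, 23, 15, 5, 13, 0, 19, 18, 22, 16, 7],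
   [6, 14, 11, 12, 9, 0, 20, 1, 10, 4, 8, 23, 13, 3, 2, 5, 15, 17, 21, 19, 16, 22, 18, 7],
   [6, 14, 11, 13, 9, 21, 16, 8, 2, 19, 1, 17, 12, 3, 10, 22, 15, 23, 0, 4, 20, 5, 18, 7],
   [6, 14, 11, 17, 4, 0, 18, 3, 23, 19, 1, 13, 10, 8, 12, 22, 5, 2, 21, 9, 20, 15, 16, 7],
   [6, 14, 11, 23, 19, 21, 18, 3, 17, 4, 8, 12, 2, 1, 13, 5, 22, 10, 0, 9, 16, 15, 20, 7],
   [6, 17, 10, 2, 9, 5, 21, 7, 12, 19, 3, 11, 23, 1, 14, 15, 20, 13, 16, 4, 18, 0, 22, 8],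
   [6, 17, 10, 11, 4, 16, 22, 1, 13, 19, 3, 2, 14, 7, 23, 15, 0, 12, 5, 9, 18, 20, 21, 8],
   [6, 17, 10, 12, 19, 16, 21, 7, 2, 9, 1, 14, 13, 3, 11, 20, 15, 23, 5, 4, 22, 0, 18, 8],
   [6, 17, 10, 13, 19, 5, 22, 1, 11, 4, 7, 23, 12, 3, 2, 0, 15, 14, 16, 9, 21, 20, 18, 8],
   [6, 17, 10, 14, 4, 5, 18, 3, 23, 9, 1, 12, 11, 7, 13, 20, 0, 2, 16, 19, 22, 15, 21, 8],
   [6, 17, 10, 23, 9, 16, 18, 3, 14, 4, 7, 13, 2, 1, 12, 0, 20, 11, 5, 19, 21, 15, 22, 8],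
   [6, 23, 2, 10, 9, 22, 0, 7, 13, 4, 3, 11, 17, 8, 14, 15, 16, 12, 20, 19, 18, 21, 5, 1],
   [6, 23, 2, 11, 19, 20, 5, 8, 12, 4, 3, 10, 14, 7, 17, 15, 21, 13, 22, 9, 18, 16, 0, 1],
   [6, 23, 2, 12, 4, 22, 5, 8, 11, 19, 7, 17, 13, 3, 10, 21, 15, 14, 20, 9, 0, 16, 18, 1],
   [6, 23, 2, 13, 4, 20, 0, 7, 10, 9, 8, 14, 12, 3, 11, 16, 15, 17, 22, 19, 5, 21, 18, 1],
   [6, 23, 2, 14, 19, 22, 18, 3, 17, 9, 8, 13, 11, 7, 12, 16, 21, 10, 20, 4, 5, 15, 0, 1],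
   [6, 23, 2, 17, 9, 20, 18, 3, 14, 19, 7, 12, 10, 8, 13, 21, 16, 11, 22, 4, 0, 15, 5, 1],
   [15, 1, 23, 7, 19, 16, 6, 3, 8, 9, 10, 13, 14, 11, 12, 0, 5, 17, 21, 4, 20, 18, 22, 2],
   [15, 1, 23, 8, 9, 21, 6, 3, 7, 19, 11, 12, 17, 10, 13, 5, 0, 14, 16, 4, 22, 18, 20, 2],
   [15, 1, 23, 12, 4, 16, 20, 10, 14, 19, 11, 8, 13, 3, 17, 5, 18, 7, 21, 9, 22, 0, 6, 2],
   [15, 1, 23, 13, 4, 21, 22, 11, 17, 9, 10, 7, 12, 3, 14, 0, 18, 8, 16, 19, 20, 5, 6, 2],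
   [15, 1, 23, 14, 19, 21, 20, 10, 12, 4, 3, 17, 7, 11, 8, 18, 5, 13, 16, 9, 6, 0, 22, 2],
   [15, 1, 23, 17, 9, 16, 22, 11, 13, 4, 3, 14, 8, 10, 7, 18, 0, 12, 21, 19, 6, 5, 20, 2],
   [15, 7, 14, 1, 19, 5, 6, 3, 8, 4, 10, 12, 23, 2, 13, 20, 16, 17, 22, 9, 0, 18, 21, 11],
   [15, 7, 14, 8, 4, 22, 6, 3, 1, 19, 2, 13, 17, 10, 12, 16, 20, 23, 5, 9, 21, 18, 0, 11],
   [15, 7, 14, 12, 9, 22, 21, 2, 17, 4, 10, 1, 13, 3, 23, 20, 18, 8, 5, 19, 0, 16, 6, 11],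
   [15, 7, 14, 13, 9, 5, 0, 10, 23, 19, 2, 8, 12, 3, 17, 16, 18, 1, 22, 4, 21, 20, 6, 11],
   [15, 7, 14, 17, 4, 5, 21, 2, 12, 9, 3, 23, 8, 10, 1, 18, 20, 13, 22, 19, 6, 16, 0, 11],
   [15, 7, 14, 23, 19, 22, 0, 10, 13, 9, 3, 17, 1, 2, 8, 18, 16, 12, 5, 4, 6, 20, 21, 11],
   [15, 8, 17, 1, 9, 0, 6, 3, 7, 4, 11, 13, 23, 2, 12, 22, 21, 14, 20, 19, 5, 18, 16, 10],
   [15, 8, 17, 7, 4, 20, 6, 3, 1, 9, 2, 12, 14, 11, 13, 21, 22, 23, 0, 19, 16, 18, 5, 10],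
   [15, 8, 17, 12, 19, 0, 5, 11, 23, 9, 2, 7, 13, 3, 14, 21, 18, 1, 20, 4, 16, 22, 6, 10],
   [15, 8, 17, 13, 19, 20, 16, 2, 14, 4, 11, 1, 12, 3, 23, 22, 18, 7, 0, 9, 5, 21, 6, 10],
   [15, 8, 17, 14, 4, 0, 16, 2, 13, 19, 3, 23, 7, 11, 1, 18, 22, 12, 20, 9, 6, 21, 5, 10],
   [15, 8, 17, 23, 9, 20, 5, 11, 12, 19, 3, 14, 1, 2, 7, 18, 21, 13, 0, 4, 6, 22, 16, 10],
   [15, 12, 13, 1, 4, 18, 20, 10, 14, 9, 11, 17, 23, 2, 8, 22, 16, 7, 6, 19, 5, 0, 21, 3],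
   [15, 12, 13, 7, 9, 18, 21, 2, 17, 19, 10, 23, 14, 11, 1, 0, 22, 8, 6, 4, 20, 16, 5, 3],
   [15, 12, 13, 8, 19, 18, 5, 11, 23, 4, 2, 14, 17, 10, 7, 16, 0, 1, 6, 9, 21, 22, 20, 3],
   [15, 12, 13, 14, 9, 6, 20, 10, 1, 4, 2, 8, 7, 11, 17, 16, 22, 23, 18, 19, 21, 0, 5, 3],
   [15, 12, 13, 17, 19, 6, 21, 2, 7, 9, 11, 1, 8, 10, 23, 22, 0, 14, 18, 4, 5, 16, 20, 3],
   [15, 12, 13, 23, 4, 6, 5, 11, 8, 19, 10, 7, 1, 2, 14, 0, 16, 17, 18, 9, 20, 22, 21, 3],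
   [15, 13, 12, 1, 4, 18, 22, 11, 17, 19, 10, 14, 23, 2, 7, 20, 21, 8, 6, 9, 0, 5, 16, 3],
   [15, 13, 12, 7, 9, 18, 0, 10, 23, 4, 2, 17, 14, 11, 8, 21, 5, 1, 6, 19, 16, 20, 22, 3],
   [15, 13, 12, 8, 19, 18, 16, 2, 14, 9, 11, 23, 17, 10, 1, 5, 20, 7, 6, 4, 22, 21, 0, 3],
   [15, 13, 12, 14, 9, 6, 16, 2, 8, 19, 10, 1, 7, 11, 23, 20, 5, 17, 18, 4, 0, 21, 22, 3],
   [15, 13, 12, 17, 19, 6, 22, 11, 1, 4, 2, 7, 8, 10, 14, 21, 20, 23, 18, 9, 16, 5, 0, 3],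
   [15, 13, 12, 23, 4, 6, 0, 10, 7, 9, 11, 8, 1, 2, 17, 5, 21, 14, 18, 19, 22, 20, 16, 3],
   [15, 14, 7, 1, 19, 5, 20, 10, 12, 9, 3, 8, 23, 2, 17, 6, 21, 13, 22, 4, 18, 0, 16, 11],
   [15, 14, 7, 8, 4, 22, 16, 2, 13, 9, 3, 1, 17, 10, 23, 6, 0, 12, 5, 19, 18, 21, 20, 11],
   [15, 14, 7, 12, 9, 22, 20, 10, 1, 19, 2, 17, 13, 3, 8, 21, 6, 23, 5, 4, 16, 0, 18, 11],
   [15, 14, 7, 13, 9, 5, 16, 2, 8, 4, 10, 23, 12, 3, 1, 0, 6, 17, 22, 19, 20, 21, 18, 11],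
   [15, 14, 7, 17, 4, 5, 18, 3, 23, 19, 2, 12, 8, 10, 13, 21, 0, 1, 22, 9, 16, 6, 20, 11],
   [15, 14, 7, 23, 19, 22, 18, 3, 17, 4, 10, 13, 1, 2, 12, 0, 21, 8, 5, 9, 20, 6, 16, 11],
   [15, 17, 8, 1, 9, 0, 22, 11, 13, 19, 3, 7, 23, 2, 14, 6, 16, 12, 20, 4, 18, 5, 21, 10],
   [15, 17, 8, 7, 4, 20, 21, 2, 12, 19, 3, 1, 14, 11, 23, 6, 5, 13, 0, 9, 18, 16, 22, 10],
   [15, 17, 8, 12, 19, 0, 21, 2, 7, 4, 11, 23, 13, 3, 1, 5, 6, 14, 20, 9, 22, 16, 18, 10],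
   [15, 17, 8, 13, 19, 20, 22, 11, 1, 9, 2, 14, 12, 3, 7, 16, 6, 23, 0, 4, 21, 5, 18, 10],
   [15, 17, 8, 14, 4, 0, 18, 3, 23, 9, 2, 13, 7, 11, 12, 16, 5, 1, 20, 19, 21, 6, 22, 10],
   [15, 17, 8, 23, 9, 20, 18, 3, 14, 4, 11, 12, 1, 2, 13, 5, 16, 7, 0, 19, 22, 6, 21, 10],
   [15, 23, 1, 7, 19, 16, 0, 10, 13, 4, 3, 8, 14, 11, 17, 6, 22, 12, 21, 9, 18, 20, 5, 2],
   [15, 23, 1, 8, 9, 21, 5, 11, 12, 4, 3, 7, 17, 10, 14, 6, 20, 13, 16, 19, 18, 22, 0, 2],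
   [15, 23, 1, 12, 4, 16, 5, 11, 8, 9, 10, 14, 13, 3, 7, 20, 6, 17, 21, 19, 0, 22, 18, 2],
   [15, 23, 1, 13, 4, 21, 0, 10, 7, 19, 11, 17, 12, 3, 8, 22, 6, 14, 16, 9, 5, 20, 18, 2],
   [15, 23, 1, 14, 19, 21, 18, 3, 17, 9, 10, 12, 7, 11, 13, 20, 22, 8, 16, 4, 0, 6, 5, 2],
   [15, 23, 1, 17, 9, 16, 18, 3, 14, 19, 11, 13, 8, 10, 12, 22, 20, 7, 21, 4, 5, 6, 0, 2],
   [16, 1, 23, 3, 4, 21, 6, 8, 7, 19, 14, 17, 12, 13, 10, 18, 0, 11, 15, 9, 20, 5, 22, 2],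
   [16, 1, 23, 7, 19, 15, 6, 8, 3, 4, 13, 10, 11, 14, 17, 0, 18, 12, 21, 9, 22, 5, 20, 2],
   [16, 1, 23, 10, 9, 21, 20, 14, 12, 4, 13, 7, 17, 8, 11, 0, 5, 3, 15, 19, 22, 18, 6, 2],
   [16, 1, 23, 11, 19, 21, 22, 13, 17, 9, 8, 12, 7, 14, 3, 5, 18, 10, 15, 4, 6, 0, 20, 2],
   [16, 1, 23, 12, 4, 15, 20, 14, 10, 9, 8, 11, 3, 13, 7, 5, 0, 17, 21, 19, 6, 18, 22, 2],
   [16, 1, 23, 17, 9, 15, 22, 13, 11, 19, 14, 3, 10, 8, 12, 18, 5, 7, 21, 4, 20, 0, 6, 2],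
   [16, 3, 12, 1, 4, 0, 6, 8, 7, 9, 14, 10, 23, 2, 17, 20, 21, 11, 22, 19, 18, 5, 15, 13],
   [16, 3, 12, 7, 9, 22, 6, 8, 1, 4, 2, 17, 11, 14, 10, 21, 20, 23, 0, 19, 15, 5, 18, 13],
   [16, 3, 12, 10, 19, 22, 15, 2, 11, 9, 14, 1, 17, 8, 23, 20, 5, 7, 0, 4, 18, 21, 6, 13],
   [16, 3, 12, 11, 9, 0, 15, 2, 10, 19, 8, 23, 7, 14, 1, 5, 20, 17, 22, 4, 6, 21, 18, 13],
   [16, 3, 12, 17, 19, 0, 18, 14, 23, 4, 2, 7, 10, 8, 11, 21, 5, 1, 22, 9, 15, 20, 6, 13],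
   [16, 3, 12, 23, 4, 22, 18, 14, 17, 19, 8, 11, 1, 2, 7, 5, 21, 10, 0, 9, 6, 20, 15, 13],
   [16, 7, 11, 1, 19, 18, 6, 8, 3, 9, 13, 17, 23, 2, 10, 22, 15, 12, 20, 4, 0, 5, 21, 14],
   [16, 7, 11, 3, 9, 20, 6, 8, 1, 19, 2, 10, 12, 13, 17, 15, 22, 23, 18, 4, 21, 5, 0, 14],
   [16, 7, 11, 10, 4, 18, 0, 13, 23, 19, 2, 3, 17, 8, 12, 15, 5, 1, 20, 9, 21, 22, 6, 14],
   [16, 7, 11, 12, 9, 18, 21, 2, 17, 4, 8, 23, 3, 13, 1, 5, 22, 10, 20, 19, 6, 15, 0, 14],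
   [16, 7, 11, 17, 4, 20, 21, 2, 12, 9, 13, 1, 10, 8, 23, 22, 5, 3, 18, 19, 0, 15, 6, 14],
   [16, 7, 11, 23, 19, 20, 0, 13, 10, 4, 8, 12, 1, 2, 3, 5, 15, 17, 18, 9, 6, 22, 21, 14],
   [16, 10, 17, 1, 9, 5, 20, 14, 12, 19, 13, 11, 23, 2, 7, 22, 21, 3, 6, 4, 0, 18, 15, 8],
   [16, 10, 17, 3, 19, 5, 15, 2, 11, 4, 14, 23, 12, 13, 1, 18, 22, 7, 6, 9, 20, 21, 0, 8],
   [16, 10, 17, 7, 4, 5, 0, 13, 23, 9, 2, 12, 11, 14, 3, 21, 18, 1, 6, 19, 15, 22, 20, 8],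
   [16, 10, 17, 11, 4, 6, 15, 2, 3, 19, 13, 1, 7, 14, 23, 22, 18, 12, 5, 9, 0, 21, 20, 8],
   [16, 10, 17, 12, 19, 6, 20, 14, 1, 9, 2, 7, 3, 13, 11, 21, 22, 23, 5, 4, 15, 18, 0, 8],
   [16, 10, 17, 23, 9, 6, 0, 13, 7, 4, 14, 3, 1, 2, 12, 18, 21, 11, 5, 19, 20, 22, 15, 8],
   [16, 11, 7, 1, 19, 18, 22, 13, 17, 4, 8, 3, 23, 2, 12, 6, 21, 10, 20, 9, 5, 0, 15, 14],
   [16, 11, 7, 3, 9, 20, 15, 2, 10, 4, 8, 1, 12, 13, 23, 6, 0, 17, 18, 19, 5, 21, 22, 14],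
   [16, 11, 7, 10, 4, 18, 15, 2, 3, 9, 13, 23, 17, 8, 1, 0, 6, 12, 20, 19, 22, 21, 5, 14],
   [16, 11, 7, 12, 9, 18, 5, 8, 23, 19, 2, 17, 3, 13, 10, 21, 0, 1, 20, 4, 15, 6, 22, 14],
   [16, 11, 7, 17, 4, 20, 22, 13, 1, 19, 2, 12, 10, 8, 3, 21, 6, 23, 18, 9, 15, 0, 5, 14],
   [16, 11, 7, 23, 19, 20, 5, 8, 12, 9, 13, 10, 1, 2, 17, 0, 21, 3, 18, 4, 22, 6, 15, 14],
   [16, 12, 3, 1, 4, 0, 20, 14, 10, 19, 8, 7, 23, 2, 11, 6, 15, 17, 22, 9, 5, 18, 21, 13],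
   [16, 12, 3, 7, 9, 22, 21, 2, 17, 19, 8, 1, 11, 14, 23, 6, 18, 10, 0, 4, 5, 15, 20, 13],
   [16, 12, 3, 10, 19, 22, 20, 14, 1, 4, 2, 11, 17, 8, 7, 15, 6, 23, 0, 9, 21, 18, 5, 13],
   [16, 12, 3, 11, 9, 0, 5, 8, 23, 4, 2, 10, 7, 14, 17, 15, 18, 1, 22, 19, 21, 6, 20, 13],
   [16, 12, 3, 17, 19, 0, 21, 2, 7, 9, 14, 23, 10, 8, 1, 18, 6, 11, 22, 4, 20, 15, 5, 13],
   [16, 12, 3, 23, 4, 22, 5, 8, 11, 9, 14, 17, 1, 2, 10, 18, 15, 7, 0, 19, 20, 6, 21, 13],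
   [16, 17, 10, 1, 9, 5, 22, 13, 11, 4, 14, 12, 23, 2, 3, 20, 15, 7, 6, 19, 18, 0, 21, 8],
   [16, 17, 10, 3, 19, 5, 18, 14, 23, 9, 2, 11, 12, 13, 7, 15, 0, 1, 6, 4, 21, 20, 22, 8],
   [16, 17, 10, 7, 4, 5, 21, 2, 12, 19, 13, 23, 11, 14, 1, 0, 20, 3, 6, 9, 22, 15, 18, 8],
   [16, 17, 10, 11, 4, 6, 22, 13, 1, 9, 2, 3, 7, 14, 12, 15, 20, 23, 5, 19, 21, 0, 18, 8],
   [16, 17, 10, 12, 19, 6, 21, 2, 7, 4, 14, 1, 3, 13, 23, 20, 0, 11, 5, 9, 18, 15, 22, 8],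
   [16, 17, 10, 23, 9, 6, 18, 14, 3, 19, 13, 7, 1, 2, 11, 0, 15, 12, 5, 4, 22, 20, 21, 8],
   [16, 23, 1, 3, 4, 21, 18, 14, 17, 9, 8, 7, 12, 13, 11, 6, 22, 10, 15, 19, 5, 20, 0, 2],
   [16, 23, 1, 7, 19, 15, 0, 13, 10, 9, 8, 3, 11, 14, 12, 6, 20, 17, 21, 4, 5, 22, 18, 2],
   [16, 23, 1, 10, 9, 21, 0, 13, 7, 19, 14, 12, 17, 8, 3, 20, 6, 11, 15, 4, 18, 22, 5, 2],
   [16, 23, 1, 11, 19, 21, 5, 8, 12, 4, 13, 17, 7, 14, 10, 22, 20, 3, 15, 9, 0, 6, 18, 2],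
   [16, 23, 1, 12, 4, 15, 5, 8, 11, 19, 14, 10, 3, 13, 17, 20, 22, 7, 21, 9, 18, 6, 0, 2],
   [16, 23, 1, 17, 9, 15, 18, 14, 3, 4, 13, 11, 10, 8, 7, 22, 6, 12, 21, 19, 0, 20, 5, 2],
   [18, 1, 2, 7, 19, 5, 6, 3, 8, 9, 17, 12, 11, 14, 13, 21, 16, 10, 0, 4, 22, 15, 20, 23],
   [18, 1, 2, 8, 9, 0, 6, 3, 7, 19, 14, 13, 10, 17, 12, 16, 21, 11, 5, 4, 20, 15, 22, 23],
   [18, 1, 2, 10, 9, 5, 20, 14, 12, 4, 3, 11, 8, 17, 7, 15, 21, 13, 0, 19, 6, 16, 22, 23],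
   [18, 1, 2, 11, 19, 0, 22, 17, 13, 4, 3, 10, 7, 14, 8, 15, 16, 12, 5, 9, 6, 21, 20, 23],
   [18, 1, 2, 12, 4, 0, 20, 14, 10, 9, 17, 7, 13, 3, 11, 21, 15, 8, 5, 19, 22, 16, 6, 23],
   [18, 1, 2, 13, 4, 5, 22, 17, 11, 19, 14, 8, 12, 3, 10, 16, 15, 7, 0, 9, 20, 21, 6, 23],
   [18, 2, 1, 7, 19, 5, 21, 17, 12, 4, 3, 8, 11, 14, 10, 6, 20, 13, 0, 9, 15, 22, 16, 23],
   [18, 2, 1, 8, 9, 0, 16, 14, 13, 4, 3, 7, 10, 17, 11, 6, 22, 12, 5, 19, 15, 20, 21, 23],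
   [18, 2, 1, 10, 9, 5, 15, 3, 11, 19, 14, 12, 8, 17, 13, 20, 22, 7, 0, 4, 16, 6, 21, 23],
   [18, 2, 1, 11, 19, 0, 15, 3, 10, 9, 17, 13, 7, 14, 12, 22, 20, 8, 5, 4, 21, 6, 16, 23],
   [18, 2, 1, 12, 4, 0, 21, 17, 7, 19, 14, 10, 13, 3, 8, 20, 6, 11, 5, 9, 16, 22, 15, 23],
   [18, 2, 1, 13, 4, 5, 16, 14, 8, 9, 17, 11, 12, 3, 7, 22, 6, 10, 0, 19, 21, 20, 15, 23],
   [18, 7, 11, 1, 19, 16, 6, 3, 8, 4, 17, 13, 2, 23, 12, 22, 5, 10, 20, 9, 21, 15, 0, 14],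
   [18, 7, 11, 2, 19, 20, 21, 17, 12, 9, 3, 10, 1, 23, 8, 15, 5, 13, 16, 4, 6, 22, 0, 14],
   [18, 7, 11, 8, 4, 20, 6, 3, 1, 19, 23, 12, 10, 17, 13, 5, 22, 2, 16, 9, 0, 15, 21, 14],
   [18, 7, 11, 10, 4, 16, 0, 23, 13, 9, 3, 2, 8, 17, 1, 15, 22, 12, 20, 19, 6, 5, 21, 14],
   [18, 7, 11, 12, 9, 16, 21, 17, 2, 19, 23, 8, 13, 3, 10, 5, 15, 1, 20, 4, 0, 22, 6, 14],
   [18, 7, 11, 13, 9, 20, 0, 23, 10, 4, 17, 1, 12, 3, 2, 22, 15, 8, 16, 19, 21, 5, 6, 14],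
   [18, 8, 10, 1, 9, 21, 6, 3, 7, 4, 14, 12, 2, 23, 13, 20, 0, 11, 22, 19, 16, 15, 5, 17],
   [18, 8, 10, 2, 9, 22, 16, 14, 13, 19, 3, 11, 1, 23, 7, 15, 0, 12, 21, 4, 6, 20, 5, 17],
   [18, 8, 10, 7, 4, 22, 6, 3, 1, 9, 23, 13, 11, 14, 12, 0, 20, 2, 21, 19, 5, 15, 16, 17],
   [18, 8, 10, 11, 4, 21, 5, 23, 12, 19, 3, 2, 7, 14, 1, 15, 20, 13, 22, 9, 6, 0, 16, 17],
   [18, 8, 10, 12, 19, 22, 5, 23, 11, 4, 14, 1, 13, 3, 2, 20, 15, 7, 21, 9, 16, 0, 6, 17],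
   [18, 8, 10, 13, 19, 21, 16, 14, 2, 9, 23, 7, 12, 3, 11, 0, 15, 1, 22, 4, 5, 20, 6, 17],
   [18, 10, 8, 1, 9, 21, 20, 14, 12, 19, 3, 7, 2, 23, 11, 6, 5, 13, 22, 4, 15, 16, 0, 17],
   [18, 10, 8, 2, 9, 22, 15, 3, 11, 4, 14, 13, 1, 23, 12, 16, 5, 7, 21, 19, 20, 6, 0, 17],
   [18, 10, 8, 7, 4, 22, 0, 23, 13, 19, 3, 1, 11, 14, 2, 6, 16, 12, 21, 9, 15, 5, 20, 17],
   [18, 10, 8, 11, 4, 21, 15, 3, 2, 9, 23, 12, 7, 14, 13, 5, 16, 1, 22, 19, 0, 6, 20, 17],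
   [18, 10, 8, 12, 19, 22, 20, 14, 1, 9, 23, 11, 13, 3, 7, 5, 6, 2, 21, 4, 0, 16, 15, 17],
   [18, 10, 8, 13, 19, 21, 0, 23, 7, 4, 14, 2, 12, 3, 1, 16, 6, 11, 22, 9, 20, 5, 15, 17],
   [18, 11, 7, 1, 19, 16, 22, 17, 13, 9, 3, 8, 2, 23, 10, 6, 0, 12, 20, 4, 15, 21, 5, 14],
   [18, 11, 7, 2, 19, 20, 15, 3, 10, 4, 17, 12, 1, 23, 13, 21, 0, 8, 16, 9, 22, 6, 5, 14],
   [18, 11, 7, 8, 4, 20, 5, 23, 12, 9, 3, 1, 10, 17, 2, 6, 21, 13, 16, 19, 15, 0, 22, 14],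
   [18, 11, 7, 10, 4, 16, 15, 3, 2, 19, 23, 13, 8, 17, 12, 0, 21, 1, 20, 9, 5, 6, 22, 14],
   [18, 11, 7, 12, 9, 16, 5, 23, 8, 4, 17, 2, 13, 3, 1, 21, 6, 10, 20, 19, 22, 0, 15, 14],
   [18, 11, 7, 13, 9, 20, 22, 17, 1, 19, 23, 10, 12, 3, 8, 0, 6, 2, 16, 4, 5, 21, 15, 14],
   [18, 12, 13, 1, 4, 15, 20, 14, 10, 19, 17, 11, 2, 23, 7, 22, 0, 8, 6, 9, 21, 16, 5, 3],
   [18, 12, 13, 2, 4, 6, 21, 17, 7, 9, 14, 8, 1, 23, 10, 16, 0, 11, 15, 19, 20, 22, 5, 3],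
   [18, 12, 13, 7, 9, 15, 21, 17, 2, 4, 23, 10, 11, 14, 8, 0, 16, 1, 6, 19, 5, 22, 20, 3],
   [18, 12, 13, 8, 19, 15, 5, 23, 11, 9, 14, 2, 10, 17, 1, 16, 22, 7, 6, 4, 20, 0, 21, 3],
   [18, 12, 13, 10, 19, 6, 20, 14, 1, 4, 23, 7, 8, 17, 11, 0, 22, 2, 15, 9, 5, 16, 21, 3],
   [18, 12, 13, 11, 9, 6, 5, 23, 8, 19, 17, 1, 7, 14, 2, 22, 16, 10, 15, 4, 21, 0, 20, 3],
   [18, 13, 12, 1, 4, 15, 22, 17, 11, 9, 14, 10, 2, 23, 8, 20, 5, 7, 6, 19, 16, 21, 0, 3],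
   [18, 13, 12, 2, 4, 6, 16, 14, 8, 19, 17, 7, 1, 23, 11, 21, 5, 10, 15, 9, 22, 20, 0, 3],
   [18, 13, 12, 7, 9, 15, 0, 23, 10, 19, 17, 2, 11, 14, 1, 21, 20, 8, 6, 4, 22, 5, 16, 3],
   [18, 13, 12, 8, 19, 15, 16, 14, 2, 4, 23, 11, 10, 17, 7, 5, 21, 1, 6, 9, 0, 20, 22, 3],
   [18, 13, 12, 10, 19, 6, 0, 23, 7, 9, 14, 1, 8, 17, 2, 20, 21, 11, 15, 4, 16, 5, 22, 3],
   [18, 13, 12, 11, 9, 6, 22, 17, 1, 4, 23, 8, 7, 14, 10, 5, 20, 2, 15, 19, 0, 21, 16, 3],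
   [20, 2, 23, 3, 4, 22, 15, 10, 11, 19, 14, 17, 13, 12, 8, 18, 5, 7, 6, 9, 16, 0, 21, 1],
   [20, 2, 23, 7, 19, 22, 21, 12, 17, 9, 10, 13, 11, 14, 3, 0, 18, 8, 6, 4, 15, 5, 16, 1],
   [20, 2, 23, 8, 9, 22, 16, 14, 13, 4, 12, 11, 17, 10, 7, 5, 0, 3, 6, 19, 21, 18, 15, 1],
   [20, 2, 23, 11, 19, 6, 15, 10, 3, 4, 12, 8, 7, 14, 17, 5, 18, 13, 22, 9, 21, 0, 16, 1],
   [20, 2, 23, 13, 4, 6, 16, 14, 8, 9, 10, 7, 3, 12, 11, 0, 5, 17, 22, 19, 15, 18, 21, 1],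
   [20, 2, 23, 17, 9, 6, 21, 12, 7, 19, 14, 3, 8, 10, 13, 18, 0, 11, 22, 4, 16, 5, 15, 1],
   [20, 3, 13, 2, 4, 5, 15, 10, 11, 9, 14, 8, 23, 1, 17, 16, 22, 7, 21, 19, 18, 0, 6, 12],
   [20, 3, 13, 7, 9, 5, 6, 1, 8, 19, 10, 23, 11, 14, 2, 0, 16, 17, 21, 4, 15, 22, 18, 12],
   [20, 3, 13, 8, 19, 21, 6, 1, 7, 9, 14, 2, 17, 10, 23, 16, 0, 11, 5, 4, 18, 22, 15, 12],
   [20, 3, 13, 11, 9, 21, 15, 10, 2, 4, 1, 17, 7, 14, 8, 22, 16, 23, 5, 19, 6, 0, 18, 12],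
   [20, 3, 13, 17, 19, 5, 18, 14, 23, 4, 1, 11, 8, 10, 7, 22, 0, 2, 21, 9, 6, 16, 15, 12],
   [20, 3, 13, 23, 4, 21, 18, 14, 17, 19, 10, 7, 2, 1, 11, 0, 22, 8, 5, 9, 15, 16, 6, 12],
   [20, 7, 11, 2, 19, 18, 21, 12, 17, 4, 10, 3, 23, 1, 13, 15, 22, 8, 16, 9, 0, 5, 6, 14],
   [20, 7, 11, 3, 9, 16, 6, 1, 8, 4, 10, 2, 13, 12, 23, 15, 5, 17, 18, 19, 0, 22, 21, 14],
   [20, 7, 11, 8, 4, 18, 6, 1, 3, 9, 12, 23, 17, 10, 2, 5, 15, 13, 16, 19, 21, 22, 0, 14],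
   [20, 7, 11, 13, 9, 18, 0, 10, 23, 19, 1, 17, 3, 12, 8, 22, 5, 2, 16, 4, 6, 15, 21, 14],
   [20, 7, 11, 17, 4, 16, 21, 12, 2, 19, 1, 13, 8, 10, 3, 22, 15, 23, 18, 9, 6, 5, 0, 14],
   [20, 7, 11, 23, 19, 16, 0, 10, 13, 9, 12, 8, 2, 1, 17, 5, 22, 3, 18, 4, 21, 15, 6, 14],
   [20, 8, 17, 2, 9, 0, 16, 14, 13, 19, 12, 7, 23, 1, 11, 21, 22, 3, 15, 4, 5, 18, 6, 10],
   [20, 8, 17, 3, 19, 0, 6, 1, 7, 4, 14, 23, 13, 12, 2, 18, 21, 11, 15, 9, 16, 22, 5, 10],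
   [20, 8, 17, 7, 4, 15, 6, 1, 3, 19, 12, 2, 11, 14, 23, 21, 18, 13, 0, 9, 5, 22, 16, 10],
   [20, 8, 17, 11, 4, 0, 5, 12, 23, 9, 1, 13, 7, 14, 3, 22, 18, 2, 15, 19, 6, 21, 16, 10],
   [20, 8, 17, 13, 19, 15, 16, 14, 2, 9, 1, 11, 3, 12, 7, 22, 21, 23, 0, 4, 6, 18, 5, 10],
   [20, 8, 17, 23, 9, 15, 5, 12, 11, 4, 14, 3, 2, 1, 13, 18, 22, 7, 0, 19, 16, 21, 6, 10],
   [20, 11, 7, 2, 19, 18, 15, 10, 3, 9, 12, 17, 23, 1, 8, 21, 6, 13, 16, 4, 5, 0, 22, 14],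
   [20, 11, 7, 3, 9, 16, 15, 10, 2, 19, 1, 8, 13, 12, 17, 6, 21, 23, 18, 4, 22, 0, 5, 14],
   [20, 11, 7, 8, 4, 18, 5, 12, 23, 19, 1, 3, 17, 10, 13, 6, 0, 2, 16, 9, 22, 21, 15, 14],
   [20, 11, 7, 13, 9, 18, 22, 1, 17, 4, 10, 23, 3, 12, 2, 0, 21, 8, 16, 19, 15, 6, 5, 14],
   [20, 11, 7, 17, 4, 16, 22, 1, 13, 9, 12, 2, 8, 10, 23, 21, 0, 3, 18, 19, 5, 6, 15, 14],
   [20, 11, 7, 23, 19, 16, 5, 12, 8, 4, 10, 13, 2, 1, 3, 0, 6, 17, 18, 9, 15, 21, 22, 14],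
   [20, 13, 3, 2, 4, 5, 16, 14, 8, 19, 10, 11, 23, 1, 7, 15, 6, 17, 21, 9, 0, 18, 22, 12],
   [20, 13, 3, 7, 9, 5, 0, 10, 23, 4, 1, 8, 11, 14, 17, 6, 18, 2, 21, 19, 22, 15, 16, 12],
   [20, 13, 3, 8, 19, 21, 16, 14, 2, 4, 1, 7, 17, 10, 11, 6, 15, 23, 5, 9, 22, 18, 0, 12],
   [20, 13, 3, 11, 9, 21, 22, 1, 17, 19, 10, 2, 7, 14, 23, 15, 18, 8, 5, 4, 0, 6, 16, 12],
   [20, 13, 3, 17, 19, 5, 22, 1, 11, 9, 14, 23, 8, 10, 2, 18, 15, 7, 21, 4, 16, 6, 0, 12],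
   [20, 13, 3, 23, 4, 21, 0, 10, 7, 9, 14, 17, 2, 1, 8, 18, 6, 11, 5, 19, 16, 15, 22, 12],
   [20, 17, 8, 2, 9, 0, 21, 12, 7, 4, 14, 13, 23, 1, 3, 16, 6, 11, 15, 19, 18, 5, 22, 10],
   [20, 17, 8, 3, 19, 0, 18, 14, 23, 9, 1, 7, 13, 12, 11, 6, 5, 2, 15, 4, 22, 16, 21, 10],
   [20, 17, 8, 7, 4, 15, 21, 12, 2, 9, 1, 3, 11, 14, 13, 6, 16, 23, 0, 19, 22, 5, 18, 10],
   [20, 17, 8, 11, 4, 0, 22, 1, 13, 19, 12, 23, 7, 14, 2, 5, 16, 3, 15, 9, 21, 6, 18, 10],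
   [20, 17, 8, 13, 19, 15, 22, 1, 11, 4, 14, 2, 3, 12, 23, 16, 5, 7, 0, 9, 18, 6, 21, 10],
   [20, 17, 8, 23, 9, 15, 18, 14, 3, 19, 12, 11, 2, 1, 7, 5, 6, 13, 0, 4, 21, 16, 22, 10],
   [20, 23, 2, 3, 4, 22, 18, 14, 17, 9, 10, 11, 13, 12, 7, 15, 21, 8, 6, 19, 0, 16, 5, 1],
   [20, 23, 2, 7, 19, 22, 0, 10, 13, 4, 12, 17, 11, 14, 8, 21, 16, 3, 6, 9, 5, 15, 18, 1],
   [20, 23, 2, 8, 9, 22, 5, 12, 11, 19, 14, 13, 17, 10, 3, 16, 15, 7, 6, 4, 18, 21, 0, 1],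
   [20, 23, 2, 11, 19, 6, 5, 12, 8, 9, 10, 3, 7, 14, 13, 15, 16, 17, 22, 4, 0, 21, 18, 1],
   [20, 23, 2, 13, 4, 6, 0, 10, 7, 19, 14, 8, 3, 12, 17, 16, 21, 11, 22, 9, 18, 15, 5, 1],
   [20, 23, 2, 17, 9, 6, 18, 14, 3, 4, 12, 7, 8, 10, 11, 21, 15, 13, 22, 19, 5, 16, 0, 1],
   [21, 1, 23, 3, 4, 16, 6, 7, 8, 9, 17, 14, 13, 12, 11, 18, 5, 10, 15, 19, 22, 0, 20, 2],
   [21, 1, 23, 8, 9, 15, 6, 7, 3, 4, 12, 11, 10, 17, 14, 5, 18, 13, 16, 19, 20, 0, 22, 2],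
   [21, 1, 23, 10, 9, 16, 20, 12, 14, 19, 7, 13, 8, 17, 3, 0, 18, 11, 15, 4, 6, 5, 22, 2],
   [21, 1, 23, 11, 19, 16, 22, 17, 13, 4, 12, 8, 14, 7, 10, 5, 0, 3, 15, 9, 20, 18, 6, 2],
   [21, 1, 23, 13, 4, 15, 22, 17, 11, 19, 7, 10, 3, 12, 8, 0, 5, 14, 16, 9, 6, 18, 20, 2],
   [21, 1, 23, 14, 19, 15, 20, 12, 10, 9, 17, 3, 11, 7, 13, 18, 0, 8, 16, 4, 22, 5, 6, 2],
   [21, 3, 13, 1, 4, 5, 6, 7, 8, 19, 17, 11, 23, 2, 14, 22, 16, 10, 20, 9, 18, 0, 15, 12],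
   [21, 3, 13, 8, 19, 20, 6, 7, 1, 4, 2, 14, 10, 17, 11, 16, 22, 23, 5, 9, 15, 0, 18, 12],
   [21, 3, 13, 10, 19, 5, 15, 2, 11, 9, 7, 23, 8, 17, 1, 0, 22, 14, 20, 4, 6, 16, 18, 12],
   [21, 3, 13, 11, 9, 20, 15, 2, 10, 19, 17, 1, 14, 7, 23, 22, 0, 8, 5, 4, 18, 16, 6, 12],
   [21, 3, 13, 14, 9, 5, 18, 17, 23, 4, 2, 8, 11, 7, 10, 16, 0, 1, 20, 19, 15, 22, 6, 12],
   [21, 3, 13, 23, 4, 20, 18, 17, 14, 9, 7, 10, 1, 2, 8, 0, 16, 11, 5, 19, 6, 22, 15, 12],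
   [21, 8, 10, 1, 9, 18, 6, 7, 3, 19, 12, 14, 23, 2, 11, 20, 15, 13, 22, 4, 5, 0, 16, 17],
   [21, 8, 10, 3, 19, 22, 6, 7, 1, 9, 2, 11, 13, 12, 14, 15, 20, 23, 18, 4, 16, 0, 5, 17],
   [21, 8, 10, 11, 4, 18, 5, 12, 23, 9, 2, 3, 14, 7, 13, 15, 0, 1, 22, 19, 16, 20, 6, 17],
   [21, 8, 10, 13, 19, 18, 16, 2, 14, 4, 7, 23, 3, 12, 1, 0, 20, 11, 22, 9, 6, 15, 5, 17],
   [21, 8, 10, 14, 4, 22, 16, 2, 13, 19, 12, 1, 11, 7, 23, 20, 0, 3, 18, 9, 5, 15, 6, 17],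
   [21, 8, 10, 23, 9, 22, 5, 12, 11, 4, 7, 13, 1, 2, 3, 0, 15, 14, 18, 19, 6, 20, 16, 17],
   [21, 10, 8, 1, 9, 18, 20, 12, 14, 4, 7, 3, 23, 2, 13, 6, 16, 11, 22, 19, 0, 5, 15, 17],
   [21, 10, 8, 3, 19, 22, 15, 2, 11, 4, 7, 1, 13, 12, 23, 6, 5, 14, 18, 9, 0, 16, 20, 17],
   [21, 10, 8, 11, 4, 18, 15, 2, 3, 19, 12, 23, 14, 7, 1, 5, 6, 13, 22, 9, 20, 16, 0, 17],
   [21, 10, 8, 13, 19, 18, 0, 7, 23, 9, 2, 14, 3, 12, 11, 16, 5, 1, 22, 4, 15, 6, 20, 17],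
   [21, 10, 8, 14, 4, 22, 20, 12, 1, 9, 2, 13, 11, 7, 3, 16, 6, 23, 18, 19, 15, 5, 0, 17],
   [21, 10, 8, 23, 9, 22, 0, 7, 13, 19, 12, 11, 1, 2, 14, 5, 16, 3, 18, 4, 20, 6, 15, 17],
   [21, 11, 14, 1, 19, 0, 22, 17, 13, 9, 12, 10, 23, 2, 8, 20, 16, 3, 6, 4, 5, 18, 15, 7],
   [21, 11, 14, 3, 9, 0, 15, 2, 10, 4, 17, 23, 13, 12, 1, 18, 20, 8, 6, 19, 22, 16, 5, 7],
   [21, 11, 14, 8, 4, 0, 5, 12, 23, 19, 2, 13, 10, 17, 3, 16, 18, 1, 6, 9, 15, 20, 22, 7],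
   [21, 11, 14, 10, 4, 6, 15, 2, 3, 9, 12, 1, 8, 17, 23, 20, 18, 13, 0, 19, 5, 16, 22, 7],
   [21, 11, 14, 13, 9, 6, 22, 17, 1, 19, 2, 8, 3, 12, 10, 16, 20, 23, 0, 4, 15, 18, 5, 7],
   [21, 11, 14, 23, 19, 6, 5, 12, 8, 4, 17, 3, 1, 2, 13, 18, 16, 10, 0, 9, 22, 20, 15, 7],
   [21, 13, 3, 1, 4, 5, 22, 17, 11, 9, 7, 8, 23, 2, 10, 6, 15, 14, 20, 19, 0, 18, 16, 12],
   [21, 13, 3, 8, 19, 20, 16, 2, 14, 9, 7, 1, 10, 17, 23, 6, 18, 11, 5, 4, 0, 15, 22, 12],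
   [21, 13, 3, 10, 19, 5, 0, 7, 23, 4, 2, 11, 8, 17, 14, 15, 18, 1, 20, 9, 16, 6, 22, 12],
   [21, 13, 3, 11, 9, 20, 22, 17, 1, 4, 2, 10, 14, 7, 8, 15, 6, 23, 5, 19, 16, 18, 0, 12],
   [21, 13, 3, 14, 9, 5, 16, 2, 8, 19, 17, 23, 11, 7, 1, 18, 6, 10, 20, 4, 22, 15, 0, 12],
   [21, 13, 3, 23, 4, 20, 0, 7, 10, 19, 17, 14, 1, 2, 11, 18, 15, 8, 5, 9, 22, 6, 16, 12],
   [21, 14, 11, 1, 19, 0, 20, 12, 10, 4, 17, 13, 23, 2, 3, 22, 15, 8, 6, 9, 18, 5, 16, 7],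
   [21, 14, 11, 3, 9, 0, 18, 17, 23, 19, 2, 10, 13, 12, 8, 15, 5, 1, 6, 4, 16, 22, 20, 7],
   [21, 14, 11, 8, 4, 0, 16, 2, 13, 9, 12, 23, 10, 17, 1, 5, 22, 3, 6, 19, 20, 15, 18, 7],
   [21, 14, 11, 10, 4, 6, 20, 12, 1, 19, 2, 3, 8, 17, 13, 15, 22, 23, 0, 9, 16, 5, 18, 7],
   [21, 14, 11, 13, 9, 6, 16, 2, 8, 4, 17, 1, 3, 12, 23, 22, 5, 10, 0, 19, 18, 15, 20, 7],
   [21, 14, 11, 23, 19, 6, 18, 17, 3, 9, 12, 8, 1, 2, 10, 5, 15, 13, 0, 4, 20, 22, 16, 7],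
   [21, 23, 1, 3, 4, 16, 18, 17, 14, 19, 7, 8, 13, 12, 10, 6, 20, 11, 15, 9, 0, 22, 5, 2],
   [21, 23, 1, 8, 9, 15, 5, 12, 11, 19, 7, 3, 10, 17, 13, 6, 22, 14, 16, 4, 0, 20, 18, 2],
   [21, 23, 1, 10, 9, 16, 0, 7, 13, 4, 12, 14, 8, 17, 11, 20, 22, 3, 15, 19, 5, 6, 18, 2],
   [21, 23, 1, 11, 19, 16, 5, 12, 8, 9, 17, 13, 14, 7, 3, 22, 6, 10, 15, 4, 18, 20, 0, 2],
   [21, 23, 1, 13, 4, 15, 0, 7, 10, 9, 17, 11, 3, 12, 14, 22, 20, 8, 16, 19, 18, 6, 5, 2],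
   [21, 23, 1, 14, 19, 15, 18, 17, 3, 4, 12, 10, 11, 7, 8, 20, 6, 13, 16, 9, 5, 22, 0, 2],
   [22, 2, 23, 3, 4, 20, 15, 11, 10, 9, 17, 14, 12, 13, 7, 18, 0, 8, 6, 19, 21, 5, 16, 1],
   [22, 2, 23, 7, 19, 20, 21, 17, 12, 4, 13, 10, 14, 11, 8, 0, 5, 3, 6, 9, 16, 18, 15, 1],
   [22, 2, 23, 8, 9, 20, 16, 13, 14, 19, 11, 12, 10, 17, 3, 5, 18, 7, 6, 4, 15, 0, 21, 1],
   [22, 2, 23, 10, 9, 6, 15, 11, 3, 4, 13, 7, 8, 17, 14, 0, 18, 12, 20, 19, 16, 5, 21, 1],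
   [22, 2, 23, 12, 4, 6, 21, 17, 7, 19, 11, 8, 3, 13, 10, 5, 0, 14, 20, 9, 15, 18, 16, 1],
   [22, 2, 23, 14, 19, 6, 16, 13, 8, 9, 17, 3, 7, 11, 12, 18, 5, 10, 20, 4, 21, 0, 15, 1],
   [22, 3, 12, 2, 4, 0, 15, 11, 10, 19, 17, 7, 23, 1, 14, 21, 20, 8, 16, 9, 18, 5, 6, 13],
   [22, 3, 12, 7, 9, 16, 6, 1, 8, 19, 17, 2, 14, 11, 23, 21, 5, 10, 0, 4, 18, 20, 15, 13],
   [22, 3, 12, 8, 19, 0, 6, 1, 7, 9, 11, 23, 10, 17, 2, 5, 21, 14, 16, 4, 15, 20, 18, 13],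
   [22, 3, 12, 10, 19, 16, 15, 11, 2, 4, 1, 14, 8, 17, 7, 20, 21, 23, 0, 9, 6, 5, 18, 13],
   [22, 3, 12, 14, 9, 0, 18, 17, 23, 4, 1, 10, 7, 11, 8, 20, 5, 2, 16, 19, 6, 21, 15, 13],
   [22, 3, 12, 23, 4, 16, 18, 17, 14, 9, 11, 8, 2, 1, 10, 5, 20, 7, 0, 19, 15, 21, 6, 13],
   [22, 7, 14, 2, 19, 5, 21, 17, 12, 9, 13, 8, 23, 1, 10, 16, 20, 3, 15, 4, 0, 18, 6, 11],
   [22, 7, 14, 3, 9, 5, 6, 1, 8, 4, 17, 23, 12, 13, 2, 18, 16, 10, 15, 19, 21, 20, 0, 11],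
   [22, 7, 14, 8, 4, 15, 6, 1, 3, 9, 13, 2, 10, 17, 23, 16, 18, 12, 5, 19, 0, 20, 21, 11],
   [22, 7, 14, 10, 4, 5, 0, 13, 23, 19, 1, 12, 8, 17, 3, 20, 18, 2, 15, 9, 6, 16, 21, 11],
   [22, 7, 14, 12, 9, 15, 21, 17, 2, 19, 1, 10, 3, 13, 8, 20, 16, 23, 5, 4, 6, 18, 0, 11],
   [22, 7, 14, 23, 19, 15, 0, 13, 10, 4, 17, 3, 2, 1, 12, 18, 20, 8, 5, 9, 21, 16, 6, 11],
   [22, 8, 10, 2, 9, 18, 16, 13, 14, 4, 11, 3, 23, 1, 12, 15, 20, 7, 21, 19, 5, 0, 6, 17],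
   [22, 8, 10, 3, 19, 21, 6, 1, 7, 4, 11, 2, 12, 13, 23, 15, 0, 14, 18, 9, 5, 20, 16, 17],
   [22, 8, 10, 7, 4, 18, 6, 1, 3, 19, 13, 23, 14, 11, 2, 0, 15, 12, 21, 9, 16, 20, 5, 17],
   [22, 8, 10, 12, 19, 18, 5, 11, 23, 9, 1, 14, 3, 13, 7, 20, 0, 2, 21, 4, 6, 15, 16, 17],
   [22, 8, 10, 14, 4, 21, 16, 13, 2, 9, 1, 12, 7, 11, 3, 20, 15, 23, 18, 19, 6, 0, 5, 17],
   [22, 8, 10, 23, 9, 21, 5, 11, 12, 19, 13, 7, 2, 1, 14, 0, 20, 3, 18, 4, 16, 15, 6, 17],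
   [22, 10, 8, 2, 9, 18, 15, 11, 3, 19, 13, 14, 23, 1, 7, 16, 6, 12, 21, 4, 0, 5, 20, 17],
   [22, 10, 8, 3, 19, 21, 15, 11, 2, 9, 1, 7, 12, 13, 14, 6, 16, 23, 18, 4, 20, 5, 0, 17],
   [22, 10, 8, 7, 4, 18, 0, 13, 23, 9, 1, 3, 14, 11, 12, 6, 5, 2, 21, 19, 20, 16, 15, 17],
   [22, 10, 8, 12, 19, 18, 20, 1, 14, 4, 11, 23, 3, 13, 2, 5, 16, 7, 21, 9, 15, 6, 0, 17],
   [22, 10, 8, 14, 4, 21, 20, 1, 12, 19, 13, 2, 7, 11, 23, 16, 5, 3, 18, 9, 0, 6, 15, 17],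
   [22, 10, 8, 23, 9, 21, 0, 13, 7, 4, 11, 12, 2, 1, 3, 5, 6, 14, 18, 19, 15, 16, 20, 17],
   [22, 12, 3, 2, 4, 0, 21, 17, 7, 9, 11, 10, 23, 1, 8, 15, 6, 14, 16, 19, 5, 18, 20, 13],
   [22, 12, 3, 7, 9, 16, 21, 17, 2, 4, 1, 8, 14, 11, 10, 6, 15, 23, 0, 19, 20, 18, 5, 13],
   [22, 12, 3, 8, 19, 0, 5, 11, 23, 4, 1, 7, 10, 17, 14, 6, 18, 2, 16, 9, 20, 15, 21, 13],
   [22, 12, 3, 10, 19, 16, 20, 1, 14, 9, 11, 2, 8, 17, 23, 15, 18, 7, 0, 4, 5, 6, 21, 13],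
   [22, 12, 3, 14, 9, 0, 20, 1, 10, 19, 17, 23, 7, 11, 2, 18, 15, 8, 16, 4, 21, 6, 5, 13],
   [22, 12, 3, 23, 4, 16, 5, 11, 8, 19, 17, 14, 2, 1, 7, 18, 6, 10, 0, 9, 21, 15, 20, 13],
   [22, 14, 7, 2, 19, 5, 16, 13, 8, 4, 17, 12, 23, 1, 3, 21, 6, 10, 15, 9, 18, 0, 20, 11],
   [22, 14, 7, 3, 9, 5, 18, 17, 23, 19, 1, 8, 12, 13, 10, 6, 0, 2, 15, 4, 20, 21, 16, 11],
   [22, 14, 7, 8, 4, 15, 16, 13, 2, 19, 1, 3, 10, 17, 12, 6, 21, 23, 5, 9, 20, 0, 18, 11],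
   [22, 14, 7, 10, 4, 5, 20, 1, 12, 9, 13, 23, 8, 17, 2, 0, 21, 3, 15, 19, 16, 6, 18, 11],
   [22, 14, 7, 12, 9, 15, 20, 1, 10, 4, 17, 2, 3, 13, 23, 21, 0, 8, 5, 19, 18, 6, 16, 11],
   [22, 14, 7, 23, 19, 15, 18, 17, 3, 9, 13, 10, 2, 1, 8, 0, 6, 12, 5, 4, 16, 21, 20, 11],
   [22, 23, 2, 3, 4, 20, 18, 17, 14, 19, 11, 10, 12, 13, 8, 15, 16, 7, 6, 9, 5, 21, 0, 1],
   [22, 23, 2, 7, 19, 20, 0, 13, 10, 9, 17, 12, 14, 11, 3, 21, 15, 8, 6, 4, 18, 16, 5, 1],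
   [22, 23, 2, 8, 9, 20, 5, 11, 12, 4, 13, 14, 10, 17, 7, 16, 21, 3, 6, 19, 0, 15, 18, 1],
   [22, 23, 2, 10, 9, 6, 0, 13, 7, 19, 11, 3, 8, 17, 12, 15, 21, 14, 20, 4, 5, 16, 18, 1],
   [22, 23, 2, 12, 4, 6, 5, 11, 8, 9, 17, 7, 3, 13, 14, 21, 16, 10, 20, 19, 18, 15, 0, 1],
   [22, 23, 2, 14, 19, 6, 18, 17, 3, 4, 13, 8, 7, 11, 10, 16, 15, 12, 20, 9, 0, 21, 5, 1]]

def L9 : List (List ℕ) :=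
  [[0, 1, 2, 3, 4, 5, 6, 7, 8, 9, 10, 11, 12, 13, 14, 15, 16, 17, 18, 19, 20, 21, 22, 23],
   [5, 1, 2, 13, 4, 18, 22, 11, 17, 9, 8, 14, 3, 12, 7, 16, 21, 10, 0, 19, 6, 15, 20, 23],
   [6, 2, 23, 12, 4, 22, 21, 7, 17, 9, 8, 11, 13, 3, 14, 5, 18, 10, 20, 19, 16, 0, 15, 1],
   [15, 23, 1, 12, 4, 16, 5, 11, 8, 9, 10, 14, 13, 3, 7, 20, 6, 17, 21, 19, 0, 22, 18, 2],
   [16, 23, 1, 3, 4, 21, 18, 14, 17, 9, 8, 7, 12, 13, 11, 6, 22, 10, 15, 19, 5, 20, 0, 2],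
   [18, 1, 2, 12, 4, 0, 20, 14, 10, 9, 17, 7, 13, 3, 11, 21, 15, 8, 5, 19, 22, 16, 6, 23],
   [20, 2, 23, 13, 4, 6, 16, 14, 8, 9, 10, 7, 3, 12, 11, 0, 5, 17, 22, 19, 15, 18, 21, 1],
   [21, 23, 1, 13, 4, 15, 0, 7, 10, 9, 17, 11, 3, 12, 14, 22, 20, 8, 16, 19, 18, 6, 5, 2],
   [22, 2, 23, 3, 4, 20, 15, 11, 10, 9, 17, 14, 12, 13, 7, 18, 0, 8, 6, 19, 21, 5, 16, 1]]

def repT : List (List ℕ) :=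
  [[0, 1, 2, 3, 4, 5, 6, 7, 8, 9, 10, 11, 12, 13, 14, 15, 16, 17, 18, 19, 20, 21, 22, 23],
   [0, 1, 2, 3, 4, 5, 6, 7, 8, 9, 10, 11, 12, 13, 14, 15, 16, 17, 18, 19, 20, 21, 22, 23],
   [0, 1, 2, 3, 4, 5, 6, 7, 8, 9, 10, 11, 12, 13, 14, 15, 16, 17, 18, 19, 20, 21, 22, 23],
   [0, 1, 2, 3, 4, 5, 6, 7, 8, 9, 10, 11, 12, 13, 14, 15, 16, 17, 18, 19, 20, 21, 22, 23],
   [0, 1, 2, 3, 4, 5, 6, 7, 8, 9, 10, 11, 12, 13, 14, 15, 16, 17, 18, 19, 20, 21, 22, 23],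
   [0, 1, 2, 3, 4, 5, 6, 7, 8, 9, 10, 11, 12, 13, 14, 15, 16, 17, 18, 19, 20, 21, 22, 23],
   [0, 1, 2, 3, 4, 5, 6, 7, 8, 9, 10, 11, 12, 13, 14, 15, 16, 17, 18, 19, 20, 21, 22, 23],
   [0, 1, 2, 3, 4, 5, 6, 7, 8, 9, 10, 11, 12, 13, 14, 15, 16, 17, 18, 19, 20, 21, 22, 23],
   [0, 1, 2, 3, 4, 5, 6, 7, 8, 9, 10, 11, 12, 13, 14, 15, 16, 17, 18, 19, 20, 21, 22, 23],
   [0, 1, 2, 3, 4, 5, 6, 7, 8, 9, 10, 11, 12, 13, 14, 15, 16, 17, 18, 19, 20, 21, 22, 23],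
   [0, 1, 2, 3, 4, 5, 6, 7, 8, 9, 10, 11, 12, 13, 14, 15, 16, 17, 18, 19, 20, 21, 22, 23],
   [0, 1, 2, 3, 4, 5, 6, 7, 8, 9, 10, 11, 12, 13, 14, 15, 16, 17, 18, 19, 20, 21, 22, 23],
   [0, 11, 14, 12, 9, 6, 5, 23, 8, 4, 10, 1, 3, 13, 2, 20, 16, 17, 21, 19, 15, 18, 22, 7],
   [0, 11, 14, 17, 4, 6, 22, 13, 1, 19, 23, 3, 8, 10, 12, 18, 20, 2, 21, 9, 5, 16, 15, 7],
   [0, 11, 14, 2, 19, 6, 15, 10, 3, 9, 13, 8, 1, 23, 17, 16, 18, 12, 21, 4, 22, 20, 5, 7],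
   [0, 11, 14, 8, 4, 21, 5, 23, 12, 9, 13, 2, 17, 10, 1, 16, 20, 3, 6, 19, 22, 18, 15, 7],
   [0, 11, 14, 1, 19, 21, 22, 13, 17, 4, 10, 12, 2, 23, 3, 20, 18, 8, 6, 9, 15, 16, 5, 7],
   [0, 11, 14, 3, 9, 21, 15, 10, 2, 19, 23, 17, 12, 13, 8, 18, 16, 1, 6, 4, 5, 20, 22, 7],
   [0, 1, 2, 3, 4, 5, 6, 7, 8, 9, 10, 11, 12, 13, 14, 15, 16, 17, 18, 19, 20, 21, 22, 23],
   [0, 1, 2, 3, 4, 5, 6, 7, 8, 9, 10, 11, 12, 13, 14, 15, 16, 17, 18, 19, 20, 21, 22, 23],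
   [0, 1, 2, 3, 4, 5, 6, 7, 8, 9, 10, 11, 12, 13, 14, 15, 16, 17, 18, 19, 20, 21, 22, 23],
   [0, 14, 11, 17, 4, 6, 18, 23, 3, 9, 13, 1, 8, 10, 2, 22, 15, 12, 21, 19, 16, 5, 20, 7],
   [0, 14, 11, 12, 9, 6, 20, 10, 1, 19, 23, 8, 3, 13, 17, 5, 22, 2, 21, 4, 18, 15, 16, 7],
   [0, 14, 11, 2, 19, 6, 16, 13, 8, 4, 10, 3, 1, 23, 12, 15, 5, 17, 21, 9, 20, 22, 18, 7],
   [0, 14, 11, 3, 9, 21, 18, 23, 17, 4, 10, 2, 12, 13, 1, 15, 22, 8, 6, 19, 20, 5, 16, 7],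
   [0, 14, 11, 1, 19, 21, 20, 10, 12, 9, 13, 17, 2, 23, 8, 22, 5, 3, 6, 4, 16, 15, 18, 7],
   [0, 14, 11, 8, 4, 21, 16, 13, 2, 19, 23, 12, 17, 10, 3, 5, 15, 1, 6, 9, 18, 22, 20, 7],
   [0, 1, 2, 3, 4, 5, 6, 7, 8, 9, 10, 11, 12, 13, 14, 15, 16, 17, 18, 19, 20, 21, 22, 23],
   [0, 1, 2, 3, 4, 5, 6, 7, 8, 9, 10, 11, 12, 13, 14, 15, 16, 17, 18, 19, 20, 21, 22, 23],
   [0, 2, 1, 17, 9, 5, 21, 7, 12, 4, 13, 11, 8, 10, 14, 22, 20, 3, 18, 19, 16, 6, 15, 23],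
   [0, 1, 2, 3, 4, 5, 6, 7, 8, 9, 10, 11, 12, 13, 14, 15, 16, 17, 18, 19, 20, 21, 22, 23],
   [0, 3, 12, 8, 19, 22, 6, 7, 1, 4, 23, 11, 17, 10, 14, 5, 20, 2, 16, 9, 18, 21, 15, 13],
   [0, 12, 3, 2, 4, 22, 21, 7, 17, 19, 10, 11, 1, 23, 14, 15, 18, 8, 16, 9, 20, 6, 5, 13],
   [0, 1, 2, 3, 4, 5, 6, 7, 8, 9, 10, 11, 12, 13, 14, 15, 16, 17, 18, 19, 20, 21, 22, 23],
   [0, 8, 17, 1, 9, 15, 6, 7, 3, 19, 13, 11, 2, 23, 14, 22, 18, 12, 20, 4, 16, 21, 5, 10],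
   [0, 17, 8, 12, 19, 15, 21, 7, 2, 9, 23, 11, 3, 13, 14, 5, 16, 1, 20, 4, 18, 6, 22, 10],
   [0, 1, 2, 3, 4, 5, 6, 7, 8, 9, 10, 11, 12, 13, 14, 15, 16, 17, 18, 19, 20, 21, 22, 23],
   [0, 1, 2, 17, 9, 5, 22, 13, 11, 19, 7, 12, 8, 10, 3, 21, 15, 14, 18, 4, 6, 16, 20, 23],
   [0, 2, 1, 3, 4, 5, 15, 10, 11, 19, 7, 8, 12, 13, 17, 6, 22, 14, 18, 9, 21, 20, 16, 23],
   [0, 12, 3, 8, 19, 22, 5, 23, 11, 9, 7, 1, 17, 10, 2, 6, 15, 14, 16, 4, 21, 18, 20, 13],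
   [0, 1, 2, 3, 4, 5, 6, 7, 8, 9, 10, 11, 12, 13, 14, 15, 16, 17, 18, 19, 20, 21, 22, 23],
   [0, 3, 12, 2, 4, 22, 15, 10, 11, 9, 7, 17, 1, 23, 8, 21, 5, 14, 16, 19, 6, 20, 18, 13],
   [0, 8, 17, 12, 19, 15, 5, 23, 11, 4, 7, 2, 3, 13, 1, 21, 22, 14, 20, 9, 6, 18, 16, 10],
   [0, 17, 8, 1, 9, 15, 22, 13, 11, 4, 7, 3, 2, 23, 12, 6, 5, 14, 20, 19, 21, 16, 18, 10],
   [0, 1, 2, 3, 4, 5, 6, 7, 8, 9, 10, 11, 12, 13, 14, 15, 16, 17, 18, 19, 20, 21, 22, 23],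
   [0, 1, 2, 3, 4, 5, 6, 7, 8, 9, 10, 11, 12, 13, 14, 15, 16, 17, 18, 19, 20, 21, 22, 23],
   [0, 1, 2, 14, 19, 5, 20, 10, 12, 4, 13, 8, 11, 7, 17, 16, 21, 3, 18, 9, 22, 15, 6, 23],
   [0, 2, 1, 14, 19, 5, 16, 13, 8, 9, 10, 12, 11, 7, 3, 20, 6, 17, 18, 4, 15, 22, 21, 23],
   [0, 3, 12, 14, 9, 22, 18, 23, 17, 19, 10, 1, 11, 7, 2, 20, 21, 8, 16, 4, 15, 5, 6, 13],
   [0, 12, 3, 14, 9, 22, 20, 10, 1, 4, 23, 17, 11, 7, 8, 18, 6, 2, 16, 19, 5, 15, 21, 13],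
   [0, 1, 2, 3, 4, 5, 6, 7, 8, 9, 10, 11, 12, 13, 14, 15, 16, 17, 18, 19, 20, 21, 22, 23],
   [0, 17, 8, 14, 4, 15, 18, 23, 3, 19, 13, 2, 11, 7, 1, 16, 6, 12, 20, 9, 22, 5, 21, 10],
   [0, 1, 2, 3, 4, 5, 6, 7, 8, 9, 10, 11, 12, 13, 14, 15, 16, 17, 18, 19, 20, 21, 22, 23],
   [0, 8, 17, 14, 4, 15, 16, 13, 2, 9, 23, 3, 11, 7, 12, 18, 21, 1, 20, 19, 5, 22, 6, 10],
   [0, 1, 2, 3, 4, 5, 6, 7, 8, 9, 10, 11, 12, 13, 14, 15, 16, 17, 18, 19, 20, 21, 22, 23],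
   [0, 1, 2, 8, 9, 18, 6, 7, 3, 4, 13, 14, 17, 10, 11, 16, 15, 12, 5, 19, 22, 21, 20, 23],
   [0, 2, 1, 12, 4, 18, 21, 7, 17, 9, 10, 14, 3, 13, 11, 20, 22, 8, 5, 19, 15, 6, 16, 23],
   [0, 1, 2, 3, 4, 5, 6, 7, 8, 9, 10, 11, 12, 13, 14, 15, 16, 17, 18, 19, 20, 21, 22, 23],
   [0, 8, 17, 3, 19, 20, 6, 7, 1, 9, 23, 14, 12, 13, 11, 18, 22, 2, 15, 4, 5, 21, 16, 10],
   [0, 17, 8, 2, 9, 20, 21, 7, 12, 19, 13, 14, 1, 23, 11, 16, 5, 3, 15, 4, 22, 6, 18, 10],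
   [0, 1, 2, 3, 4, 5, 6, 7, 8, 9, 10, 11, 12, 13, 14, 15, 16, 17, 18, 19, 20, 21, 22, 23],
   [0, 3, 12, 1, 4, 16, 6, 7, 8, 19, 10, 14, 2, 23, 11, 20, 5, 17, 22, 9, 15, 21, 18, 13],
   [0, 12, 3, 17, 19, 16, 21, 7, 2, 4, 23, 14, 8, 10, 11, 18, 15, 1, 22, 9, 5, 6, 20, 13],
   [0, 1, 2, 3, 4, 5, 6, 7, 8, 9, 10, 11, 12, 13, 14, 15, 16, 17, 18, 19, 20, 21, 22, 23],
   [0, 1, 2, 11, 19, 18, 22, 13, 17, 9, 10, 3, 14, 7, 12, 15, 21, 8, 5, 4, 20, 16, 6, 23],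
   [0, 2, 1, 11, 19, 18, 15, 10, 3, 4, 13, 17, 14, 7, 8, 22, 6, 12, 5, 9, 16, 20, 21, 23],
   [0, 8, 17, 11, 4, 20, 5, 23, 12, 19, 13, 1, 14, 7, 2, 22, 21, 3, 15, 9, 16, 18, 6, 10],
   [0, 17, 8, 11, 4, 20, 22, 13, 1, 9, 23, 12, 14, 7, 3, 5, 6, 2, 15, 19, 18, 16, 21, 10],
   [0, 1, 2, 3, 4, 5, 6, 7, 8, 9, 10, 11, 12, 13, 14, 15, 16, 17, 18, 19, 20, 21, 22, 23],
   [0, 12, 3, 11, 9, 16, 5, 23, 8, 19, 10, 2, 14, 7, 1, 15, 6, 17, 22, 4, 20, 18, 21, 13],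
   [0, 1, 2, 3, 4, 5, 6, 7, 8, 9, 10, 11, 12, 13, 14, 15, 16, 17, 18, 19, 20, 21, 22, 23],
   [0, 3, 12, 11, 9, 16, 15, 10, 2, 4, 23, 8, 14, 7, 17, 5, 21, 1, 22, 19, 18, 20, 6, 13],
   [0, 1, 2, 3, 4, 5, 6, 7, 8, 9, 10, 11, 12, 13, 14, 15, 16, 17, 18, 19, 20, 21, 22, 23],
   [0, 1, 2, 12, 4, 18, 20, 10, 14, 19, 7, 17, 3, 13, 8, 21, 16, 11, 5, 9, 6, 15, 22, 23],
   [0, 2, 1, 8, 9, 18, 16, 13, 14, 19, 7, 3, 17, 10, 12, 6, 20, 11, 5, 4, 21, 22, 15, 23],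
   [0, 17, 8, 3, 19, 20, 18, 23, 14, 4, 7, 1, 12, 13, 2, 6, 16, 11, 15, 9, 21, 5, 22, 10],
   [0, 1, 2, 3, 4, 5, 6, 7, 8, 9, 10, 11, 12, 13, 14, 15, 16, 17, 18, 19, 20, 21, 22, 23],
   [0, 8, 17, 2, 9, 20, 16, 13, 14, 4, 7, 12, 1, 23, 3, 21, 18, 11, 15, 19, 6, 22, 5, 10],
   [0, 3, 12, 17, 19, 16, 18, 23, 14, 9, 7, 2, 8, 10, 1, 21, 20, 11, 22, 4, 6, 5, 15, 13],
   [0, 12, 3, 1, 4, 16, 20, 10, 14, 9, 7, 8, 2, 23, 17, 6, 18, 11, 22, 19, 21, 15, 5, 13],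
   [0, 1, 2, 3, 4, 5, 6, 7, 8, 9, 10, 11, 12, 13, 14, 15, 16, 17, 18, 19, 20, 21, 22, 23]]

def transL : List (List ℕ) :=
  [[0, 1, 2, 3, 4, 5, 6, 7, 8, 9, 10, 11, 12, 13, 14, 15, 16, 17, 18, 19, 20, 21, 22, 23],
   [0, 2, 1, 3, 4, 5, 15, 10, 11, 19, 7, 8, 12, 13, 17, 6, 22, 14, 18, 9, 21, 20, 16, 23],
   [0, 3, 12, 1, 4, 16, 6, 7, 8, 19, 10, 14, 2, 23, 11, 20, 5, 17, 22, 9, 15, 21, 18, 13],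
   [5, 7, 14, 1, 19, 15, 6, 8, 3, 9, 12, 10, 2, 23, 17, 20, 18, 13, 22, 4, 21, 16, 0, 11],
   [0, 8, 17, 1, 9, 15, 6, 7, 3, 19, 13, 11, 2, 23, 14, 22, 18, 12, 20, 4, 16, 21, 5, 10],
   [5, 10, 17, 1, 9, 16, 20, 12, 14, 4, 11, 13, 2, 23, 3, 22, 18, 7, 6, 19, 15, 21, 0, 8],
   [0, 11, 14, 1, 19, 21, 22, 13, 17, 4, 10, 12, 2, 23, 3, 20, 18, 8, 6, 9, 15, 16, 5, 7],
   [0, 12, 3, 1, 4, 16, 20, 10, 14, 9, 7, 8, 2, 23, 17, 6, 18, 11, 22, 19, 21, 15, 5, 13],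
   [5, 13, 3, 1, 4, 21, 22, 11, 17, 19, 8, 7, 2, 23, 14, 6, 18, 10, 20, 9, 16, 15, 0, 12],
   [0, 14, 11, 1, 19, 21, 20, 10, 12, 9, 13, 17, 2, 23, 8, 22, 5, 3, 6, 4, 16, 15, 18, 7],
   [0, 17, 8, 1, 9, 15, 22, 13, 11, 4, 7, 3, 2, 23, 12, 6, 5, 14, 20, 19, 21, 16, 18, 10],
   [6, 23, 2, 10, 9, 22, 0, 7, 13, 4, 3, 11, 17, 8, 14, 15, 16, 12, 20, 19, 18, 21, 5, 1]]


/-- Membership test for the joint stabiliser. -/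
def memB (l : List ℕ) : Bool :=
  isM24L l && (actM l 0 8551822 == 8551822) && sameSet (Q0l.map (actM l 0)) Q0l

theorem mem_K2_of {l : List ℕ} (h : memB l = true) : isPermL l = true ∧ permL l ∈ K2 := by
  unfold memB at h
  rw [Bool.and_eq_true, Bool.and_eq_true] at h
  obtain ⟨⟨hM, hd⟩, hq⟩ := h
  exact ⟨isPermL_of_isM24L hM,
    ⟨memKdod l hM hd, stab_obj_of_sameSet (isPermL_of_isM24L hM) _ hq⟩⟩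

set_option maxHeartbeats 4000000 in
theorem K2L_ok : K2L.all memB = true := by decide +kernel

set_option maxHeartbeats 4000000 in
theorem K2L_nodup : K2L.Nodup := by decide +kernel

theorem K2_list {k : Equiv.Perm GolayPt} (hk : k ∈ K2) : ∃ l ∈ K2L, k = permL l :=
  subgroup_eq_list K2 K2L 432 card_K2
    (fun l hl => mem_K2_of (List.all_eq_true.1 K2L_ok l hl)) K2L_nodup (by decide +kernel) k hk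

set_option maxHeartbeats 4000000 in
theorem L9_ok : listOK L9 = true := by decide +kernel

set_option maxHeartbeats 4000000 in
theorem L9_sub : L9.all memB = true := by decide +kernel

/-- The normal subgroup of order 9. -/
def N0 : Subgroup (Equiv.Perm GolayPt) := listSub L9 L9_ok

theorem card_N0 : Nat.card N0 = 9 := by
  rw [N0, card_listSub L9 L9_ok (by decide +kernel)]
  decide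

theorem N0_le : N0 ≤ K2 := by
  intro k hk
  obtain ⟨l, hl, rfl⟩ := mem_listSub.1 hk
  exact (mem_K2_of (List.all_eq_true.1 L9_sub l hl)).2

set_option maxHeartbeats 4000000 in
theorem norm_check : K2L.all (fun l => L9.all (fun m =>
    L9.any (fun m' => compL l m == compL m' l))) = true := by decide +kernel

theorem N0_conj {k n : Equiv.Perm GolayPt} (hk : k ∈ K2) (hn : n ∈ N0) :
    k * n * k⁻¹ ∈ N0 := by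
  obtain ⟨l, hl, rfl⟩ := K2_list hk
  obtain ⟨m, hm, rfl⟩ := mem_listSub.1 hn
  have h := norm_check
  rw [List.all_eq_true] at h
  have h1 := h l hl
  rw [List.all_eq_true] at h1
  have h2 := h1 m hm
  rw [List.any_eq_true] at h2
  obtain ⟨m', hm', he⟩ := h2
  rw [beq_iff_eq] at he
  have hpl := (mem_K2_of (List.all_eq_true.1 K2L_ok l hl)).1
  have hpm := (mem_K2_of (List.all_eq_true.1 L9_sub m hm)).1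
  have hpm' := (mem_K2_of (List.all_eq_true.1 L9_sub m' hm')).1
  rw [permL_conj hpl hpm hpm' he]
  exact mem_listSub.2 ⟨m', hm', rfl⟩

/-- The normal subgroup of order 9, inside the joint stabiliser. -/
def N' : Subgroup ↥K2 := N0.subgroupOf K2

instance N'_normal : N'.Normal := ⟨by
  intro n hn k
  rw [N', Subgroup.mem_subgroupOf] at hn ⊢
  exact N0_conj k.2 hn⟩

theorem card_N' : Nat.card N' = 9 := by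
  rw [N', Nat.card_congr (Subgroup.subgroupOfEquivOfLe N0_le).toEquiv, card_N0]

/-- Coset representatives indexed by matrix entries. -/
def repF (a b c d : ZMod 3) : List ℕ :=
  repT.getD (a.val * 27 + b.val * 9 + c.val * 3 + d.val) idL

set_option maxHeartbeats 4000000 in
theorem rep_ok : ∀ a b c d : ZMod 3, memB (repF a b c d) = true := by decide +kernel

set_option maxHeartbeats 40000000 in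
theorem mul_check : ∀ a b c d a' b' c' d' : ZMod 3, a * d - b * c ≠ 0 →
    a' * d' - b' * c' ≠ 0 →
    L9.any (fun n => compL n (repF (a * a' + b * c') (a * b' + b * d') (c * a' + d * c')
      (c * b' + d * d')) == compL (repF a b c d) (repF a' b' c' d')) = true := by
  decide +kernel

set_option maxHeartbeats 40000000 in
theorem inj_check : ∀ a b c d a' b' c' d' : ZMod 3, a * d - b * c ≠ 0 →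
    a' * d' - b' * c' ≠ 0 →
    L9.any (fun n => compL n (repF a' b' c' d') == repF a b c d) = true →
    (a = a' ∧ b = b' ∧ c = c' ∧ d = d') := by
  decide +kernel

theorem det_ne (M : GL (Fin 2) (ZMod 3)) :
    M.1 0 0 * M.1 1 1 - M.1 0 1 * M.1 1 0 ≠ 0 := by
  have h := (Matrix.isUnits_det_units M).ne_zero
  rw [Matrix.det_fin_two] at h
  exact h

/-- The coset representative of a matrix. -/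
noncomputable def ψ₀ (M : GL (Fin 2) (ZMod 3)) : ↥K2 :=
  ⟨permL (repF (M.1 0 0) (M.1 0 1) (M.1 1 0) (M.1 1 1)), (mem_K2_of (rep_ok _ _ _ _)).2⟩

theorem ψ_mul (M1 M2 : GL (Fin 2) (ZMod 3)) :
    (QuotientGroup.mk (ψ₀ (M1 * M2)) : ↥K2 ⧸ N') =
      QuotientGroup.mk (ψ₀ M1) * QuotientGroup.mk (ψ₀ M2) := by
  rw [← QuotientGroup.mk_mul, eq_comm, QuotientGroup.eq_iff_div_mem, N',
    Subgroup.mem_subgroupOf]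
  have h := mul_check (M1.1 0 0) (M1.1 0 1) (M1.1 1 0) (M1.1 1 1) (M2.1 0 0) (M2.1 0 1)
    (M2.1 1 0) (M2.1 1 1) (det_ne M1) (det_ne M2)
  rw [List.any_eq_true] at h
  obtain ⟨n, hn, he⟩ := h
  rw [beq_iff_eq] at he
  have hval : (M1 * M2).1 = M1.1 * M2.1 := rfl
  have e00 : (M1 * M2).1 0 0 = M1.1 0 0 * M2.1 0 0 + M1.1 0 1 * M2.1 1 0 := by
    rw [hval, Matrix.mul_apply, Fin.sum_univ_two]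
  have e01 : (M1 * M2).1 0 1 = M1.1 0 0 * M2.1 0 1 + M1.1 0 1 * M2.1 1 1 := by
    rw [hval, Matrix.mul_apply, Fin.sum_univ_two]
  have e10 : (M1 * M2).1 1 0 = M1.1 1 0 * M2.1 0 0 + M1.1 1 1 * M2.1 1 0 := by
    rw [hval, Matrix.mul_apply, Fin.sum_univ_two]
  have e11 : (M1 * M2).1 1 1 = M1.1 1 0 * M2.1 0 1 + M1.1 1 1 * M2.1 1 1 := by
    rw [hval, Matrix.mul_apply, Fin.sum_univ_two]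
  show permL (repF (M1.1 0 0) (M1.1 0 1) (M1.1 1 0) (M1.1 1 1)) *
      permL (repF (M2.1 0 0) (M2.1 0 1) (M2.1 1 0) (M2.1 1 1)) /
      permL (repF ((M1 * M2).1 0 0) ((M1 * M2).1 0 1) ((M1 * M2).1 1 0) ((M1 * M2).1 1 1))
      ∈ N0
  rw [e00, e01, e10, e11]
  have hp1 := (mem_K2_of (rep_ok (M1.1 0 0) (M1.1 0 1) (M1.1 1 0) (M1.1 1 1))).1
  have hp2 := (mem_K2_of (rep_ok (M2.1 0 0) (M2.1 0 1) (M2.1 1 0) (M2.1 1 1))).1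
  have hp12 := (mem_K2_of (rep_ok (M1.1 0 0 * M2.1 0 0 + M1.1 0 1 * M2.1 1 0)
    (M1.1 0 0 * M2.1 0 1 + M1.1 0 1 * M2.1 1 1) (M1.1 1 0 * M2.1 0 0 + M1.1 1 1 * M2.1 1 0)
    (M1.1 1 0 * M2.1 0 1 + M1.1 1 1 * M2.1 1 1))).1
  have hpn := (mem_K2_of (List.all_eq_true.1 L9_sub n hn)).1
  rw [permL_mul hp1 hp2, ← he, ← permL_mul hpn hp12, mul_div_cancel_right]
  exact mem_listSub.2 ⟨n, hn, rfl⟩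

/-- The homomorphism from the matrix group onto the quotient. -/
noncomputable def ψ : GL (Fin 2) (ZMod 3) →* ↥K2 ⧸ N' :=
  MonoidHom.mk' (fun M => (QuotientGroup.mk (ψ₀ M) : ↥K2 ⧸ N')) ψ_mul

theorem ψ_inj : Function.Injective ψ := by
  intro M M' h
  have h1 : (QuotientGroup.mk (ψ₀ M) : ↥K2 ⧸ N') = QuotientGroup.mk (ψ₀ M') := h
  rw [QuotientGroup.eq_iff_div_mem, N', Subgroup.mem_subgroupOf] at h1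
  have h2 : permL (repF (M.1 0 0) (M.1 0 1) (M.1 1 0) (M.1 1 1)) /
      permL (repF (M'.1 0 0) (M'.1 0 1) (M'.1 1 0) (M'.1 1 1)) ∈ N0 := h1
  obtain ⟨n, hn, hne⟩ := mem_listSub.1 h2
  have hp := (mem_K2_of (rep_ok (M.1 0 0) (M.1 0 1) (M.1 1 0) (M.1 1 1))).1
  have hp' := (mem_K2_of (rep_ok (M'.1 0 0) (M'.1 0 1) (M'.1 1 0) (M'.1 1 1))).1
  have hpn := (mem_K2_of (List.all_eq_true.1 L9_sub n hn)).1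
  have h3 : repF (M.1 0 0) (M.1 0 1) (M.1 1 0) (M.1 1 1)
      = compL n (repF (M'.1 0 0) (M'.1 0 1) (M'.1 1 0) (M'.1 1 1)) := by
    apply permL_inj hp (isPermL_compL hpn hp')
    rw [← permL_mul hpn hp', ← hne, div_mul_cancel]
  have h4 := inj_check (M.1 0 0) (M.1 0 1) (M.1 1 0) (M.1 1 1) (M'.1 0 0) (M'.1 0 1)
    (M'.1 1 0) (M'.1 1 1) (det_ne M) (det_ne M')
    (List.any_eq_true.2 ⟨n, hn, by rw [beq_iff_eq]; exact h3.symm⟩)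
  apply Units.ext
  ext i j
  fin_cases i <;> fin_cases j
  · exact h4.1
  · exact h4.2.1
  · exact h4.2.2.1
  · exact h4.2.2.2

theorem card_GL23 : Nat.card (GL (Fin 2) (ZMod 3)) = 48 := by
  rw [Matrix.card_GL_field, Fin.prod_univ_two, ZMod.card]
  norm_num

theorem card_quot : Nat.card (↥K2 ⧸ N') = 48 := by
  have h := Subgroup.card_eq_card_quotient_mul_card_subgroup N'
  rw [card_K2, card_N'] at h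
  omega

theorem ψ_bij : Function.Bijective ψ := by
  have : Finite (↥K2 ⧸ N') := Nat.finite_of_card_ne_zero (by rw [card_quot]; norm_num)
  rw [Nat.bijective_iff_injective_and_card]
  exact ⟨ψ_inj, by rw [card_GL23, card_quot]⟩

/-- The base isomorphism. -/
noncomputable def e0 : ↥K2 ⧸ N' ≃* GL (Fin 2) (ZMod 3) := (MulEquiv.ofBijective ψ ψ_bij).symm

/-- Conjugation onto the base joint stabiliser. -/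
def conjE {g : Equiv.Perm GolayPt} (hg : g ∈ M24) :
    ↥(MulAction.stabilizer ↥M24 (g • mset 8551822) ⊓ MulAction.stabilizer ↥M24 (g • obj Q0l))
      ≃* ↥K2 where
  toFun x := ⟨g⁻¹ * (x.1.1 : Equiv.Perm GolayPt) * g, by
    have e1 : (x.1.1 : Equiv.Perm GolayPt) • g • mset 8551822 = g • mset 8551822 := x.2.1
    have e2 : (x.1.1 : Equiv.Perm GolayPt) • g • obj Q0l = g • obj Q0l := x.2.2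
    refine ⟨⟨M24.mul_mem (M24.mul_mem (M24.inv_mem hg) x.1.2) hg, ?_⟩, ?_⟩
    · show (g⁻¹ * (x.1.1 : Equiv.Perm GolayPt) * g) • mset 8551822 = mset 8551822
      rw [mul_smul, mul_smul, e1, inv_smul_smul]
    · show (g⁻¹ * (x.1.1 : Equiv.Perm GolayPt) * g) • obj Q0l = obj Q0l
      rw [mul_smul, mul_smul, e2, inv_smul_smul]⟩
  invFun k := ⟨⟨g * k.1 * g⁻¹, M24.mul_mem (M24.mul_mem hg k.2.1.1) (M24.inv_mem hg)⟩, by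
    have e1 : k.1 • mset 8551822 = mset 8551822 := k.2.1.2
    have e2 : k.1 • obj Q0l = obj Q0l := k.2.2
    constructor
    · show (g * k.1 * g⁻¹) • g • mset 8551822 = g • mset 8551822
      rw [mul_smul, mul_smul, inv_smul_smul, e1]
    · show (g * k.1 * g⁻¹) • g • obj Q0l = g • obj Q0l
      rw [mul_smul, mul_smul, inv_smul_smul, e2]⟩
  left_inv x := by
    apply Subtype.ext
    apply Subtype.ext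
    show g * (g⁻¹ * (x.1.1 : Equiv.Perm GolayPt) * g) * g⁻¹ = x.1.1
    group
  right_inv k := by
    apply Subtype.ext
    show g⁻¹ * (g * k.1 * g⁻¹) * g = k.1
    group
  map_mul' x y := by
    apply Subtype.ext
    show g⁻¹ * ((x.1.1 : Equiv.Perm GolayPt) * y.1.1) * g
      = g⁻¹ * x.1.1 * g * (g⁻¹ * y.1.1 * g)
    group

theorem exists_pair_dq {d : Finset GolayPt} (hd : d ∈ dodecads) {Q : Finset (Finset GolayPt)}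
    (hQ : Q ∈ quartets d) : ∃ g ∈ M24, g • mset 8551822 = d ∧ g • obj Q0l = Q := by
  obtain ⟨g, hg, rfl⟩ := exists_smul_eq_dodecad hd
  rw [quartets_smul hg] at hQ
  obtain ⟨Q1, hQ1, rfl⟩ := hQ
  rw [quartets_eq] at hQ1
  obtain ⟨k, hk, rfl⟩ := hQ1
  refine ⟨g * k, M24.mul_mem hg hk.1, ?_, ?_⟩
  · rw [mul_smul, smul_d0 hk]
  · show (g * k) • obj Q0l = g • k • obj Q0l
    rw [mul_smul]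

set_option maxHeartbeats 4000000 in
theorem trans_check : (List.range 24).all (fun j => !(8551822 : ℕ).testBit j ||
    transL.any (fun l => memB l && l.getD 1 0 == j)) = true := by decide +kernel

theorem exists_to {p : GolayPt} (hp : p ∈ mset 8551822) : ∃ k ∈ K2, k (ptOf 1) = p := by
  have h := trans_check
  rw [List.all_eq_true] at h
  have h1 := h (ptIdx p) (List.mem_range.2 (ptIdx_lt p))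
  rw [mem_mset] at hp
  simp only [hp, Bool.not_true, Bool.false_or, List.any_eq_true, Bool.and_eq_true,
    beq_iff_eq] at h1
  obtain ⟨l, -, hl, hj⟩ := h1
  refine ⟨permL l, (mem_K2_of hl).2, ?_⟩
  rw [permL_ptOf (mem_K2_of hl).1 (by norm_num), hj, ptOf_ptIdx]

/-- A quartet stabiliser inside the dodecad stabiliser has order 432, a normal subgroup of order 9 with quotient GL(2, 3), and is transitive on the dodecad. -/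
theorem result (d : Finset Cfsg.GolayPt) (hd : d ∈ Cfsg.dodecads) (Q : Finset (Finset Cfsg.GolayPt)) (hQ : Q ∈ Cfsg.quartets d) : Nat.card ↥(MulAction.stabilizer Cfsg.M24 d ⊓ MulAction.stabilizer Cfsg.M24 Q) = 432 ∧ (∃ (N : Subgroup ↥(MulAction.stabilizer Cfsg.M24 d ⊓ MulAction.stabilizer Cfsg.M24 Q)) (_ : N.Normal), Nat.card N = 9 ∧ Nonempty (↥(MulAction.stabilizer Cfsg.M24 d ⊓ MulAction.stabilizer Cfsg.M24 Q) ⧸ N ≃* GL (Fin 2) (ZMod 3))) ∧ ∀ p ∈ d, ∀ q ∈ d, ∃ g ∈ (MulAction.stabilizer Cfsg.M24 d ⊓ MulAction.stabilizer Cfsg.M24 Q), ((g : ↥Cfsg.M24) : Equiv.Perm Cfsg.GolayPt) p = q := by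
  obtain ⟨g, hg, rfl, rfl⟩ := exists_pair_dq hd hQ
  haveI hn : (N'.map (conjE hg).symm.toMonoidHom).Normal :=
    Subgroup.Normal.map N'_normal _ (conjE hg).symm.surjective
  refine ⟨?_, ⟨N'.map (conjE hg).symm.toMonoidHom, hn, ?_, ⟨?_⟩⟩, ?_⟩
  · rw [Nat.card_congr (conjE hg).toEquiv]
    exact card_K2
  · rw [Subgroup.card_map_of_injective (conjE hg).symm.injective]
    exact card_N'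
  · exact (QuotientGroup.congr N' (N'.map (conjE hg).symm.toMonoidHom) (conjE hg).symm
      rfl).symm.trans e0
  · intro p hp q hq
    have hp' : g⁻¹ • p ∈ mset 8551822 := Finset.inv_smul_mem_iff.2 hp
    have hq' : g⁻¹ • q ∈ mset 8551822 := Finset.inv_smul_mem_iff.2 hq
    obtain ⟨k1, hk1, e1⟩ := exists_to hp'
    obtain ⟨k2, hk2, e2⟩ := exists_to hq'
    refine ⟨((conjE hg).symm ⟨k2 * k1⁻¹, K2.mul_mem hk2 (K2.inv_mem hk1)⟩).1,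
      ((conjE hg).symm ⟨k2 * k1⁻¹, K2.mul_mem hk2 (K2.inv_mem hk1)⟩).2, ?_⟩
    show (g * (k2 * k1⁻¹) * g⁻¹) p = q
    have e3 : g⁻¹ p = k1 (ptOf 1) := e1.symm
    have e4 : k1⁻¹ (k1 (ptOf 1)) = ptOf 1 := by
      rw [← Equiv.Perm.mul_apply, inv_mul_cancel, Equiv.Perm.one_apply]
    rw [Equiv.Perm.mul_apply, Equiv.Perm.mul_apply, Equiv.Perm.mul_apply, e3, e4, e2]
    show g (g⁻¹ • q) = q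
    rw [Equiv.Perm.smul_def, ← Equiv.Perm.mul_apply, mul_inv_cancel, Equiv.Perm.one_apply]

end Cfsg.Agent.S1598
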