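import Cfsg.Statements.S1600
import Mathlib
import Cfsg.Agent.Lib.Helper1.M12Chain
import Cfsg.Agent.S0368
import Cfsg.Agent.S0382

set_option autoImplicit false
open scoped Pointwise
open Cfsg

namespace Cfsg.Agent.S1600


open Cfsg.Agent.Lib.Helper1 in
open scoped Pointwise in
theorem exists3 (d : Finset Cfsg.GolayPt) (hd : d ∈ Cfsg.dodecads) (x y : Fin 3 ↪ Cfsg.GolayPt)
    (hx : ∀ i, x i ∈ d) (hy : ∀ i, y i ∈ d) :
    ∃ g ∈ Cfsg.M24, g • d = d ∧ ∀ i, g (x i) = y i := by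
  obtain ⟨g₁, hg₁, rfl⟩ := Cfsg.Agent.S0368.reach d hd
  have hxd : ∀ i, g₁⁻¹ (x i) ∈ S D0 := fun i => Finset.inv_smul_mem_iff.2 (hx i)
  have hyd : ∀ i, g₁⁻¹ (y i) ∈ S D0 := fun i => Finset.inv_smul_mem_iff.2 (hy i)
  obtain ⟨g, hg, hM, -, hxy⟩ := chain_trans lv12_3_ok (List.mem_singleton.2 rfl) rfl
    (fun i => g₁⁻¹ (x i)) (fun i => g₁⁻¹ (y i))
    (fun i j h => x.injective (g₁⁻¹.injective h)) (fun i j h => y.injective (g₁⁻¹.injective h))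
    hxd hyd
  refine ⟨g₁ * g * g₁⁻¹, Cfsg.M24.mul_mem (Cfsg.M24.mul_mem hg₁ hg) (Cfsg.M24.inv_mem hg₁), ?_, ?_⟩
  · have h1 := hM D0 (List.mem_singleton.2 rfl)
    show (g₁ * g * g₁⁻¹) • g₁ • S D0 = g₁ • S D0
    rw [mul_smul, mul_smul, inv_smul_smul, h1]
  · intro i
    have h1 : g (g₁⁻¹ (x i)) = g₁⁻¹ (y i) := hxy i
    rw [Equiv.Perm.mul_apply, Equiv.Perm.mul_apply, h1]
    simp

open scoped Pointwise in
theorem card_stab3 (d : Finset Cfsg.GolayPt) (hd : d ∈ Cfsg.dodecads)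
    (x : Fin 3 ↪ Cfsg.GolayPt) (hx : ∀ i, x i ∈ d) :
    Nat.card (MulAction.stabilizer ↥(MulAction.stabilizer Cfsg.M24 d)
      ((fun i => x i) : Fin 3 → Cfsg.GolayPt)) = 72 := by
  classical
  let f : Fin 3 → Cfsg.GolayPt := fun i => x i
  let φ : (Fin 3 ↪ ↥d) → (Fin 3 → Cfsg.GolayPt) := fun e i => ((e i : ↥d) : Cfsg.GolayPt)
  have hφ : Function.Injective φ := by
    intro e e' h
    apply DFunLike.ext
    intro i
    apply Subtype.ext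
    exact congrFun h i
  have horb : MulAction.orbit ↥(MulAction.stabilizer Cfsg.M24 d) f = Set.range φ := by
    apply Set.Subset.antisymm
    · rintro _ ⟨g, rfl⟩
      have hgd : ((g : Cfsg.M24) : Equiv.Perm Cfsg.GolayPt) • d = d := g.2
      have hmem : ∀ i, ((g : Cfsg.M24) : Equiv.Perm Cfsg.GolayPt) (x i) ∈ d := by
        intro i
        have h1 : ((g : Cfsg.M24) : Equiv.Perm Cfsg.GolayPt) • (x i)
            ∈ ((g : Cfsg.M24) : Equiv.Perm Cfsg.GolayPt) • d :=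
          Finset.smul_mem_smul_finset (hx i)
        rw [hgd] at h1
        exact h1
      refine ⟨⟨fun i => ⟨((g : Cfsg.M24) : Equiv.Perm Cfsg.GolayPt) (x i), hmem i⟩, ?_⟩, ?_⟩
      · intro i j h
        have h1 := congrArg Subtype.val h
        exact x.injective (((g : Cfsg.M24) : Equiv.Perm Cfsg.GolayPt).injective h1)
      · rfl
    · rintro _ ⟨e, rfl⟩
      obtain ⟨k, hk, hkd, hkx⟩ := exists3 d hd x
        ⟨fun i => ((e i : ↥d) : Cfsg.GolayPt), fun i j h => e.injective (Subtype.ext h)⟩ hx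
        (fun i => (e i).2)
      refine ⟨⟨⟨k, hk⟩, hkd⟩, ?_⟩
      funext i
      exact hkx i
  have hcard : (Set.range φ).ncard = 1320 := by
    rw [Set.ncard_range_of_injective hφ, Nat.card_eq_fintype_card, Fintype.card_embedding_eq,
      Fintype.card_coe, hd.2, Fintype.card_fin]
    rfl
  have hidx := MulAction.index_stabilizer (G := ↥(MulAction.stabilizer Cfsg.M24 d)) (x := f)
  have hmul := Subgroup.card_mul_index
    (MulAction.stabilizer ↥(MulAction.stabilizer Cfsg.M24 d) f)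
  rw [Cfsg.Agent.S0382.result d hd, hidx, horb, hcard] at hmul
  show Nat.card (MulAction.stabilizer ↥(MulAction.stabilizer Cfsg.M24 d) f) = 72
  omega

open scoped Pointwise in
theorem card_K (d : Finset Cfsg.GolayPt) (hd : d ∈ Cfsg.dodecads) (p q r : Cfsg.GolayPt)
    (hp : p ∈ d) (hq : q ∈ d) (hr : r ∈ d) (hpq : p ≠ q) (hpr : p ≠ r) (hqr : q ≠ r) :
    Nat.card ↥(MulAction.stabilizer Cfsg.M24 d ⊓ MulAction.stabilizer Cfsg.M24 p
      ⊓ MulAction.stabilizer Cfsg.M24 q ⊓ MulAction.stabilizer Cfsg.M24 r) = 72 := by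
  have hinj : Function.Injective (![p, q, r] : Fin 3 → Cfsg.GolayPt) := by
    intro i j h
    fin_cases i <;> fin_cases j <;> simp_all
  let x : Fin 3 ↪ Cfsg.GolayPt := ⟨![p, q, r], hinj⟩
  have hxm : ∀ i, x i ∈ d := by
    intro i
    fin_cases i
    · exact hp
    · exact hq
    · exact hr
  have h72 := card_stab3 d hd x hxm
  have hmap : (MulAction.stabilizer Cfsg.M24 d ⊓ MulAction.stabilizer Cfsg.M24 p
      ⊓ MulAction.stabilizer Cfsg.M24 q ⊓ MulAction.stabilizer Cfsg.M24 r)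
      = (MulAction.stabilizer ↥(MulAction.stabilizer Cfsg.M24 d)
          ((fun i => x i) : Fin 3 → Cfsg.GolayPt)).map (MulAction.stabilizer Cfsg.M24 d).subtype := by
    ext g
    simp only [Subgroup.mem_inf, Subgroup.mem_map, MulAction.mem_stabilizer_iff]
    constructor
    · rintro ⟨⟨⟨h1, h2⟩, h3⟩, h4⟩
      refine ⟨⟨g, h1⟩, ?_, rfl⟩
      funext i
      fin_cases i
      · exact h2
      · exact h3
      · exact h4
    · rintro ⟨k, hk, rfl⟩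
      exact ⟨⟨⟨k.2, congrFun hk 0⟩, congrFun hk 1⟩, congrFun hk 2⟩
  rw [hmap, Subgroup.card_map_of_injective (Subgroup.subtype_injective _)]
  exact h72

open Cfsg.Agent.Lib.Helper1 in
open scoped Pointwise in
theorem cert72_reach (x : Cfsg.GolayPt) (hx : x ∉ S D0) :
    ∃ g ∈ Cfsg.M24, g • S D0 = S D0 ∧ g (pt 0) = pt 0 ∧ g (pt 2) = pt 2 ∧ g (pt 3) = pt 3
      ∧ g (pt 1) = x := by
  have h1 := List.all_eq_true.1 cert72_cover (gIdx x) (List.mem_range.2 (gIdx_lt x))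
  rw [mem_S] at hx
  have hx' : D0.testBit (gIdx x) = false := by simpa using hx
  rw [hx', Bool.false_or, List.contains_eq_mem, decide_eq_true_eq, List.mem_map] at h1
  obtain ⟨e, he, hei⟩ := h1
  obtain ⟨g, hg, hM, hst⟩ := pcert_reach cert72_ok he
  rw [hei] at hst
  refine ⟨g, hg, hM D0 (by simp), hst (0, 0) (by simp), hst (2, 2) (by simp),
    hst (3, 3) (by simp), ?_⟩
  have h2 := hst (1, gIdx x) (by simp)
  rw [h2, pt_gIdx]

open Cfsg.Agent.Lib.Helper1 in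
open scoped Pointwise in
theorem base_reach3 (d : Finset Cfsg.GolayPt) (hd : d ∈ Cfsg.dodecads) (p q r : Cfsg.GolayPt)
    (hp : p ∈ d) (hq : q ∈ d) (hr : r ∈ d) (hpq : p ≠ q) (hpr : p ≠ r) (hqr : q ≠ r) :
    ∃ g ∈ Cfsg.M24, g • S D0 = d ∧ g (pt 0) = p ∧ g (pt 2) = q ∧ g (pt 3) = r := by
  obtain ⟨g₁, hg₁, rfl⟩ := Cfsg.Agent.S0368.reach d hd
  have hinj : Function.Injective (![p, q, r] : Fin 3 → Cfsg.GolayPt) := by
    intro i j h
    fin_cases i <;> fin_cases j <;> simp_all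
  have hxd : ∀ i, g₁⁻¹ ((![p, q, r] : Fin 3 → Cfsg.GolayPt) i) ∈ S D0 := by
    intro i
    fin_cases i
    · exact Finset.inv_smul_mem_iff.2 hp
    · exact Finset.inv_smul_mem_iff.2 hq
    · exact Finset.inv_smul_mem_iff.2 hr
  obtain ⟨σ, hσ, hM, -, hx⟩ := chain_to_base lv12_3_ok (List.mem_singleton.2 rfl) rfl
    (fun i => g₁⁻¹ ((![p, q, r] : Fin 3 → Cfsg.GolayPt) i))
    (fun i j h => hinj (g₁⁻¹.injective h)) hxd
  have h0 : σ (g₁⁻¹ p) = pt 0 := hx 0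
  have h2 : σ (g₁⁻¹ q) = pt 2 := hx 1
  have h3 : σ (g₁⁻¹ r) = pt 3 := hx 2
  refine ⟨g₁ * σ⁻¹, Cfsg.M24.mul_mem hg₁ (Cfsg.M24.inv_mem hσ), ?_, ?_, ?_, ?_⟩
  · have h1 := hM D0 (List.mem_singleton.2 rfl)
    have h2 : σ⁻¹ • S D0 = S D0 := by rw [inv_smul_eq_iff]; exact h1.symm
    show (g₁ * σ⁻¹) • S D0 = g₁ • S D0
    rw [mul_smul, h2]
  · rw [← h0]; simp
  · rw [← h2]; simp
  · rw [← h3]; simp

open Cfsg.Agent.Lib.Helper1 in
open scoped Pointwise in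
theorem trans_out (d : Finset Cfsg.GolayPt) (hd : d ∈ Cfsg.dodecads) (p q r : Cfsg.GolayPt)
    (hp : p ∈ d) (hq : q ∈ d) (hr : r ∈ d) (hpq : p ≠ q) (hpr : p ≠ r) (hqr : q ≠ r)
    (x y : Cfsg.GolayPt) (hx : x ∉ d) (hy : y ∉ d) :
    ∃ g ∈ Cfsg.M24, g • d = d ∧ g p = p ∧ g q = q ∧ g r = r ∧ g x = y := by
  obtain ⟨g₂, hg₂, rfl, rfl, rfl, rfl⟩ := base_reach3 d hd p q r hp hq hr hpq hpr hqr
  have hx' : g₂⁻¹ x ∉ S D0 := fun h => hx (Finset.inv_smul_mem_iff.1 h)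
  have hy' : g₂⁻¹ y ∉ S D0 := fun h => hy (Finset.inv_smul_mem_iff.1 h)
  obtain ⟨a, ha, ha1, ha2, ha3, ha4, ha5⟩ := cert72_reach _ hx'
  obtain ⟨b, hb, hb1, hb2, hb3, hb4, hb5⟩ := cert72_reach _ hy'
  have inv_fix : ∀ (c : Equiv.Perm Cfsg.GolayPt) (z w : Cfsg.GolayPt), c z = w → c⁻¹ w = z :=
    fun c z w h => by rw [Equiv.Perm.inv_eq_iff_eq]; exact h.symm
  refine ⟨g₂ * (b * a⁻¹) * g₂⁻¹,
    Cfsg.M24.mul_mem (Cfsg.M24.mul_mem hg₂ (Cfsg.M24.mul_mem hb (Cfsg.M24.inv_mem ha)))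
      (Cfsg.M24.inv_mem hg₂), ?_, ?_, ?_, ?_, ?_⟩
  · show (g₂ * (b * a⁻¹) * g₂⁻¹) • g₂ • S D0 = g₂ • S D0
    rw [mul_smul, mul_smul, inv_smul_smul, mul_smul]
    have h1 : a⁻¹ • S D0 = S D0 := by rw [inv_smul_eq_iff]; exact ha1.symm
    rw [h1, hb1]
  · simp only [Equiv.Perm.mul_apply]
    rw [inv_fix g₂ _ _ rfl, inv_fix a _ _ ha2, hb2]
  · simp only [Equiv.Perm.mul_apply]
    rw [inv_fix g₂ _ _ rfl, inv_fix a _ _ ha3, hb3]
  · simp only [Equiv.Perm.mul_apply]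
    rw [inv_fix g₂ _ _ rfl, inv_fix a _ _ ha4, hb4]
  · simp only [Equiv.Perm.mul_apply]
    rw [inv_fix a _ _ ha5, hb5]
    simp

/-- The pointwise stabiliser of three points of a dodecad inside the dodecad stabiliser (order 72) is transitive on the complementary dodecad. -/
theorem result (d : Finset Cfsg.GolayPt) (hd : d ∈ Cfsg.dodecads) (p q r : Cfsg.GolayPt) (hp : p ∈ d) (hq : q ∈ d) (hr : r ∈ d) (hpq : p ≠ q) (hpr : p ≠ r) (hqr : q ≠ r) : Nat.card ↥(MulAction.stabilizer Cfsg.M24 d ⊓ MulAction.stabilizer Cfsg.M24 p ⊓ MulAction.stabilizer Cfsg.M24 q ⊓ MulAction.stabilizer Cfsg.M24 r) = 72 ∧ ∀ x ∉ d, ∀ y ∉ d, ∃ g ∈ (MulAction.stabilizer Cfsg.M24 d ⊓ MulAction.stabilizer Cfsg.M24 p ⊓ MulAction.stabilizer Cfsg.M24 q ⊓ MulAction.stabilizer Cfsg.M24 r), ((g : ↥Cfsg.M24) : Equiv.Perm Cfsg.GolayPt) x = y := by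
  refine ⟨card_K d hd p q r hp hq hr hpq hpr hqr, ?_⟩
  intro x hx y hy
  obtain ⟨k, hk, hkd, hkp, hkq, hkr, hkx⟩ := trans_out d hd p q r hp hq hr hpq hpr hqr x y hx hy
  exact ⟨⟨k, hk⟩, Subgroup.mem_inf.2 ⟨Subgroup.mem_inf.2 ⟨Subgroup.mem_inf.2 ⟨hkd, hkp⟩, hkq⟩, hkr⟩,
    hkx⟩

end Cfsg.Agent.S1600
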