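import Cfsg.Statements.S1601
import Mathlib
import Cfsg.Agent.Lib.Helper9.M24Stab
import Cfsg.Agent.Lib.Helper9.M24Syl
import Cfsg.Agent.Lib.Helper9.M24Dod
import Cfsg.Agent.Lib.Helper9.M24Tab
import Cfsg.Agent.Lib.Helper1.ConjStab
import Cfsg.Agent.Lib.Helper1.Dod11
import Cfsg.Agent.Lib.Helper1.Dod11a

set_option autoImplicit false
open scoped Pointwise
open Cfsg

namespace Cfsg.Agent.S1601


open Cfsg.Agent.Lib.Helper9 Cfsg.Agent.Lib.Helper1 Cfsg.Agent.Lib.Helper1.Dod11

/-- The base flag: the base dodecad, a point of it and a point outside it (as singletons). -/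
def T0 : Finset GolayPt × Finset GolayPt × Finset GolayPt := (mset 8551822, mset 2, mset 1)

/-- The two points of the base flag. -/
def s0 : Finset GolayPt × Finset GolayPt := (mset 2, mset 1)

theorem memD_of {l : List ℕ} (h : memD l = true) : isPermL l = true ∧ permL l ∈ Kdod := by
  unfold memD at h
  rw [Bool.and_eq_true] at h
  exact ⟨isPermL_of_isM24L h.1, memKdod l h.1 h.2⟩

theorem smul_s0 {l : List ℕ} (hp : isPermL l = true) :
    permL l • s0 = (mset (keyOf l).1, mset (keyOf l).2) := by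
  show (permL l • mset 2, permL l • mset 1) = _
  rw [permL_smul_mset hp, permL_smul_mset hp]
  rfl

theorem mset_two_pow (p : GolayPt) : mset (2 ^ ptIdx p) = {p} := by
  ext q
  rw [mem_mset, Finset.mem_singleton, Nat.testBit_two_pow]
  constructor
  · intro h
    have h' : ptIdx p = ptIdx q := by simpa using h
    exact (ptIdx_injective h').symm
  · rintro rfl
    simp

theorem exists_trans (p q : GolayPt) (hp : p ∈ mset 8551822) (hq : q ∉ mset 8551822) :
    ∃ k ∈ Kdod, k • s0 = (({p} : Finset GolayPt), ({q} : Finset GolayPt)) := by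
  have h := trans_ok
  rw [List.all_eq_true] at h
  have h1 := h (ptIdx p) (List.mem_range.2 (ptIdx_lt p))
  rw [List.all_eq_true] at h1
  have h2 := h1 (ptIdx q) (List.mem_range.2 (ptIdx_lt q))
  rw [mem_mset] at hp hq
  have hq2 : (8551822 : ℕ).testBit (ptIdx q) = false := by
    generalize (8551822 : ℕ).testBit (ptIdx q) = b at hq
    cases b
    · rfl
    · exact absurd rfl hq
  have h3' : (!((8551822 : ℕ).testBit (ptIdx p)) || (8551822 : ℕ).testBit (ptIdx q) ||
      keysT.contains (2 ^ ptIdx p, 2 ^ ptIdx q)) = true := h2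
  rw [hp, hq2] at h3'
  have h4 : keysT.contains (2 ^ ptIdx p, 2 ^ ptIdx q) = true := h3'
  rw [List.contains_iff_mem, ← keys_eq, List.mem_map] at h4
  obtain ⟨l, hl, hkey⟩ := h4
  have hm := memD_of (List.all_eq_true.1 transT_ok l hl)
  refine ⟨permL l, hm.2, ?_⟩
  rw [smul_s0 hm.1, hkey]
  show (mset (2 ^ ptIdx p), mset (2 ^ ptIdx q)) = _
  rw [mset_two_pow, mset_two_pow]

theorem key_eq {l l' : List ℕ} (hl : l ∈ transT) (hl' : l' ∈ transT)
    (h : permL l • s0 = permL l' • s0) : keyOf l = keyOf l' := by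
  have hm := (memD_of (List.all_eq_true.1 transT_ok l hl)).1
  have hm' := (memD_of (List.all_eq_true.1 transT_ok l' hl')).1
  rw [smul_s0 hm, smul_s0 hm', Prod.mk.injEq] at h
  have e1 : actM l 0 2 = actM l' 0 2 := mset_injOn (actM_lt hm 2) (actM_lt hm' 2) h.1
  have e2 : actM l 0 1 = actM l' 0 1 := mset_injOn (actM_lt hm 1) (actM_lt hm' 1) h.2
  exact Prod.ext e1 e2

theorem orbit_ge : 144 ≤ (orbS Kdod s0).ncard := by
  have hkn : (transT.map keyOf).Nodup := by rw [keys_eq]; exact keys_nodup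
  have hnd : (transT.map (fun l => permL l • s0)).Nodup :=
    List.Nodup.map_on (fun x hx y hy hxy => List.inj_on_of_nodup_map hkn hx hy (key_eq hx hy hxy))
      (List.Nodup.of_map _ hkn)
  have hcard : (transT.map (fun l => permL l • s0)).toFinset.card = 144 := by
    rw [List.toFinset_card_of_nodup hnd, List.length_map, transT_length]
  rw [← hcard, ← Set.ncard_coe_finset]
  apply Set.ncard_le_ncard _ (orbS_finite Kdod s0)
  intro x hx
  rw [Finset.mem_coe, List.mem_toFinset, List.mem_map] at hx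
  obtain ⟨l, hl, rfl⟩ := hx
  exact ⟨permL l, (memD_of (List.all_eq_true.1 transT_ok l hl)).2, rfl⟩

/-- The stabiliser of the base flag. -/
def H0 : Subgroup (Equiv.Perm GolayPt) := M24 ⊓ MulAction.stabilizer (Equiv.Perm GolayPt) T0

theorem H0_le : H0 ≤ Kdod ⊓ MulAction.stabilizer (Equiv.Perm GolayPt) s0 := by
  intro k hk
  have h2 : k • T0 = T0 := hk.2
  have h3 : (k • mset 8551822, k • s0) = (mset 8551822, s0) := h2
  rw [Prod.mk.injEq] at h3
  have hkd : k ∈ Kdod := by
    unfold Kdod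
    exact ⟨hk.1, h3.1⟩
  exact ⟨hkd, h3.2⟩

theorem card_H0_le : Nat.card ↥H0 ≤ 660 := by
  have h1 := card_orbS_mul Kdod s0
  rw [card_Kdod] at h1
  have h2 := orbit_ge
  have h3 : Nat.card ↥H0 ≤ Nat.card ↥(Kdod ⊓ MulAction.stabilizer (Equiv.Perm GolayPt) s0) :=
    Subgroup.card_le_of_le H0_le
  have h4 : 144 * Nat.card ↥(Kdod ⊓ MulAction.stabilizer (Equiv.Perm GolayPt) s0) ≤ 144 * 660 := by
    calc 144 * Nat.card ↥(Kdod ⊓ MulAction.stabilizer (Equiv.Perm GolayPt) s0)
        ≤ (orbS Kdod s0).ncard *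
            Nat.card ↥(Kdod ⊓ MulAction.stabilizer (Equiv.Perm GolayPt) s0) :=
          Nat.mul_le_mul_right _ h2
      _ = 144 * 660 := by rw [h1]
  exact h3.trans (Nat.le_of_mul_le_mul_left h4 (by norm_num))

theorem memH_of {l : List ℕ} (h : memH l = true) : isPermL l = true ∧ permL l ∈ H0 := by
  unfold memH at h
  rw [Bool.and_eq_true, Bool.and_eq_true, beq_iff_eq, beq_iff_eq] at h
  obtain ⟨⟨hD, h2⟩, h17⟩ := h
  have hm := memD_of hD
  have hk : permL l ∈ M24 ⊓ MulAction.stabilizer (Equiv.Perm GolayPt) (mset 8551822) := hm.2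
  have hd : permL l • mset 8551822 = mset 8551822 := hk.2
  refine ⟨hm.1, ?_⟩
  unfold H0
  refine ⟨hk.1, ?_⟩
  show (permL l • mset 8551822, permL l • mset 2, permL l • mset 1) = T0
  rw [hd, permL_smul_mset hm.1, permL_smul_mset hm.1, h2, h17]
  rfl

/-- The special linear group of degree two over the field with eleven elements. -/
abbrev SL : Type := Matrix.SpecialLinearGroup (Fin 2) (ZMod 11)

/-- The list of entries of a matrix, as natural numbers. -/
def tupN (M : SL) : List ℕ := [(M.1 0 0).val, (M.1 0 1).val, (M.1 1 0).val, (M.1 1 1).val]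

/-- The list representing a matrix. -/
def rN (M : SL) : List ℕ := repN (tupN M)

theorem vlt (x : ZMod 11) : x.val < 11 := ZMod.val_lt x

theorem tupN_valid (M : SL) :
    vN (M.1 0 0).val (M.1 0 1).val (M.1 1 0).val (M.1 1 1).val = true := by
  have h := M.2
  rw [Matrix.det_fin_two] at h
  have h' : M.1 0 0 * M.1 1 1 = 1 + M.1 0 1 * M.1 1 0 := eq_add_of_sub_eq h
  have h2 := congrArg ZMod.val h'
  rw [ZMod.val_mul, ZMod.val_add, ZMod.val_mul] at h2
  have h1 : (1 : ZMod 11).val = 1 := rfl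
  rw [h1] at h2
  unfold vN
  rw [beq_iff_eq]
  exact h2

theorem tupN_mul (M M' : SL) : tupN (M * M') = tmulN (tupN M) (tupN M') := by
  have hval : (M * M').1 = M.1 * M'.1 := rfl
  unfold tupN
  simp only [hval, Matrix.mul_apply, Fin.sum_univ_two, ZMod.val_add, ZMod.val_mul]
  rfl

theorem tupN_inj {M M' : SL} (h : tupN M = tupN M') : M = M' := by
  unfold tupN at h
  simp only [List.cons.injEq, and_true] at h
  obtain ⟨h00, h01, h10, h11⟩ := h
  apply Subtype.ext
  ext i j
  fin_cases i <;> fin_cases j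
  · exact ZMod.val_injective 11 h00
  · exact ZMod.val_injective 11 h01
  · exact ZMod.val_injective 11 h10
  · exact ZMod.val_injective 11 h11

/-- The first generator. -/
def Tm : SL := ⟨!![1, 1; 0, 1], by rw [Matrix.det_fin_two_of]; decide⟩

/-- The second generator. -/
def Sm : SL := ⟨!![0, 10; 1, 0], by rw [Matrix.det_fin_two_of]; decide⟩

theorem tup_Tm : tupN Tm = gT := by decide

theorem tup_Sm : tupN Sm = gS := by decide

theorem tup_one : tupN (1 : SL) = idN := by decide

theorem gensN_lift (s : List ℕ) (hs : s ∈ gensN) : ∃ S : SL, tupN S = s := by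
  have hs' : s ∈ [gT, gS] := hs
  rcases List.mem_cons.1 hs' with rfl | hs'
  · exact ⟨Tm, tup_Tm⟩
  · rcases List.mem_cons.1 hs' with rfl | hs'
    · exact ⟨Sm, tup_Sm⟩
    · exact absurd hs' List.not_mem_nil

theorem chain_mem (M : SL) : ∃ r ∈ chainN, r.1 = tupN M := by
  have h := validN_mem
  rw [List.all_eq_true] at h
  have h1 := h _ (List.mem_range.2 (vlt (M.1 0 0)))
  rw [List.all_eq_true] at h1
  have h2 := h1 _ (List.mem_range.2 (vlt (M.1 0 1)))
  rw [List.all_eq_true] at h2
  have h3 := h2 _ (List.mem_range.2 (vlt (M.1 1 0)))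
  rw [List.all_eq_true] at h3
  have h4 := h3 _ (List.mem_range.2 (vlt (M.1 1 1)))
  have h5 : (!(vN (M.1 0 0).val (M.1 0 1).val (M.1 1 0).val (M.1 1 1).val) ||
      atN (posOf (M.1 0 0).val (M.1 0 1).val (M.1 1 0).val (M.1 1 1).val) == tupN M) = true := h4
  rw [tupN_valid M] at h5
  have h6 : (atN (posOf (M.1 0 0).val (M.1 0 1).val (M.1 1 0).val (M.1 1 1).val) == tupN M)
      = true := h5
  rw [beq_iff_eq] at h6
  obtain ⟨k, hk⟩ : ∃ k, k = posOf (M.1 0 0).val (M.1 0 1).val (M.1 1 0).val (M.1 1 1).val :=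
    ⟨_, rfl⟩
  rw [← hk] at h6
  unfold atN at h6
  by_cases hlt : k < chainN.length
  · rw [List.getD_eq_getElem _ _ hlt] at h6
    exact ⟨_, List.getElem_mem hlt, h6⟩
  · rw [List.getD_eq_default _ _ (not_lt.1 hlt)] at h6
    exact absurd h6.symm (List.cons_ne_nil _ _)

theorem rN_perm (M : SL) : isPermL (rN M) = true := by
  obtain ⟨r, hr, hre⟩ := chain_mem M
  have h := List.all_eq_true.1 repN_perm r hr
  rw [hre] at h
  exact h

theorem fN_gen (S : SL) (hS : tupN S ∈ gensN) (τ : SL) :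
    permL (rN (S * τ)) = permL (rN S) * permL (rN τ) := by
  obtain ⟨r, hr, hre⟩ := chain_mem τ
  have h := List.all_eq_true.1 (List.all_eq_true.1 genN_mul (tupN S) hS) r hr
  rw [beq_iff_eq, hre] at h
  have key : compL (rN S) (rN τ) = repN (tmulN (tupN S) (tupN τ)) := h
  rw [permL_mul (rN_perm S) (rN_perm τ), key, ← tupN_mul]
  rfl

/-- The property propagated along the chain of matrices. -/
def QN (t : List ℕ) : Prop :=
  ∃ M : SL, tupN M = t ∧
    (∀ τ : SL, permL (rN (M * τ)) = permL (rN M) * permL (rN τ)) ∧ permL (rN M) ∈ H0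

theorem QN_one : QN idN := by
  have h2 : rN (1 : SL) = idL := by
    show repN (tupN 1) = idL
    rw [tup_one]
    exact repN_id
  refine ⟨1, tup_one, ?_, ?_⟩
  · intro τ
    rw [one_mul, h2, permL_idL, one_mul]
  · rw [h2, permL_idL]
    exact H0.one_mem

theorem QN_step (s : List ℕ) (hs : s ∈ gensN) (y : List ℕ) (hy : QN y) : QN (tmulN s y) := by
  obtain ⟨Y, rfl, hY, hYm⟩ := hy
  obtain ⟨S, rfl⟩ := gensN_lift s hs
  refine ⟨S * Y, tupN_mul S Y, ?_, ?_⟩
  · intro τ
    rw [mul_assoc, fN_gen S hs (Y * τ), hY τ, fN_gen S hs Y, mul_assoc]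
  · rw [fN_gen S hs Y]
    have hSm : permL (rN S) ∈ H0 := (memH_of (List.all_eq_true.1 gensN_mem (tupN S) hs)).2
    exact H0.mul_mem hSm hYm

theorem QN_chain : ∀ r ∈ chainN, QN r.1 := chain2_ind QN_one QN_step chainN chainN_ok

theorem fN_all (M : SL) :
    (∀ τ : SL, permL (rN (M * τ)) = permL (rN M) * permL (rN τ)) ∧ permL (rN M) ∈ H0 := by
  obtain ⟨r, hr, hre⟩ := chain_mem M
  obtain ⟨M₀, h₀, hP⟩ := QN_chain r hr
  have hM : M₀ = M := tupN_inj (h₀.trans hre)
  rw [hM] at hP
  exact hP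

/-- The homomorphism from the special linear group onto the stabiliser of the base flag. -/
noncomputable def F0 : SL →* ↥H0 :=
  MonoidHom.mk' (fun M => ⟨permL (rN M), (fN_all M).2⟩) (by
    intro σ τ
    apply Subtype.ext
    exact (fN_all σ).1 τ)

theorem tup_of_ker {M : SL} (h : F0 M = 1) : tupN M = idN ∨ tupN M = negN := by
  have h1 : permL (rN M) = 1 := congrArg Subtype.val h
  rw [← permL_idL] at h1
  have h2 : rN M = idL := permL_inj (rN_perm M) isPermL_idL h1
  obtain ⟨r, hr, hre⟩ := chain_mem M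
  have h3 := List.all_eq_true.1 kerN r hr
  rw [hre] at h3
  have h2' : (repN (tupN M) == idL) = true := by rw [beq_iff_eq]; exact h2
  rw [h2'] at h3
  have h4 : (tupN M == idN || tupN M == negN) = true := h3
  rw [Bool.or_eq_true, beq_iff_eq, beq_iff_eq] at h4
  exact h4

theorem ker_of_tup {M : SL} (h : tupN M = idN ∨ tupN M = negN) : F0 M = 1 := by
  apply Subtype.ext
  show permL (rN M) = 1
  have h2 : rN M = idL := by
    show repN (tupN M) = idL
    rcases h with h | h
    · rw [h]; exact repN_id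
    · rw [h]; exact repN_neg
  rw [h2, permL_idL]

theorem center_iff (M : SL) : M ∈ Subgroup.center SL ↔ (tupN M = idN ∨ tupN M = negN) := by
  constructor
  · intro hM
    rw [Subgroup.mem_center_iff] at hM
    have eT := congrArg tupN (hM Tm)
    have eS := congrArg tupN (hM Sm)
    rw [tupN_mul, tupN_mul, tup_Tm] at eT
    rw [tupN_mul, tupN_mul, tup_Sm] at eS
    obtain ⟨r, hr, hre⟩ := chain_mem M
    have h3 := List.all_eq_true.1 centerN r hr
    rw [hre] at h3
    have hT : (tmulN (tupN M) gT == tmulN gT (tupN M)) = true := by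
      rw [beq_iff_eq]; exact eT.symm
    have hS : (tmulN (tupN M) gS == tmulN gS (tupN M)) = true := by
      rw [beq_iff_eq]; exact eS.symm
    rw [hT, hS] at h3
    have h4 : (tupN M == idN || tupN M == negN) = true := h3
    rw [Bool.or_eq_true, beq_iff_eq, beq_iff_eq] at h4
    exact h4
  · intro h
    rcases h with h | h
    · have hM : M = 1 := tupN_inj (h.trans tup_one.symm)
      rw [hM]
      exact Subgroup.one_mem _
    · rw [Subgroup.mem_center_iff]
      intro g
      apply tupN_inj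
      rw [tupN_mul, tupN_mul, h]
      obtain ⟨r, hr, hre⟩ := chain_mem g
      have hc := List.all_eq_true.1 commN r hr
      rw [beq_iff_eq, hre] at hc
      exact hc

theorem ker_eq : Subgroup.center SL = F0.ker := by
  ext M
  rw [center_iff, MonoidHom.mem_ker]
  exact ⟨ker_of_tup, tup_of_ker⟩

theorem half_lift (k : ℕ) (hk : k ∈ halfS) : ∃ M : SL, tupN M = atN k := by
  have h := List.all_eq_true.1 halfS_lt k hk
  rw [decide_eq_true_eq, ← chainN_length] at h
  have hmem : chainN.getD k ([], 0) ∈ chainN := by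
    rw [List.getD_eq_getElem _ _ h]
    exact List.getElem_mem h
  obtain ⟨M, hM, -⟩ := QN_chain _ hmem
  exact ⟨M, hM⟩

theorem F0_surj : Function.Surjective F0 := by
  have hnd : (halfS.map (fun k => permL (repN (atN k)))).Nodup := by
    refine List.Nodup.map_on ?_ (List.Nodup.of_map _ imgN_nodup)
    intro x hx y hy hxy
    obtain ⟨Mx, hMx⟩ := half_lift x hx
    obtain ⟨My, hMy⟩ := half_lift y hy
    have hpx : isPermL (repN (atN x)) = true := by rw [← hMx]; exact rN_perm Mx
    have hpy : isPermL (repN (atN y)) = true := by rw [← hMy]; exact rN_perm My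
    exact List.inj_on_of_nodup_map imgN_nodup hx hy (permL_inj hpx hpy hxy)
  have hcard : (halfS.map (fun k => permL (repN (atN k)))).toFinset.card = 660 := by
    rw [List.toFinset_card_of_nodup hnd, List.length_map, halfS_length]
  have hsub : (↑(halfS.map (fun k => permL (repN (atN k)))).toFinset :
      Set (Equiv.Perm GolayPt)) ⊆ Subtype.val '' (Set.range F0) := by
    intro x hx
    rw [Finset.mem_coe, List.mem_toFinset, List.mem_map] at hx
    obtain ⟨t, ht, rfl⟩ := hx
    obtain ⟨M, hM⟩ := half_lift t ht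
    refine ⟨F0 M, ⟨M, rfl⟩, ?_⟩
    show permL (repN (tupN M)) = permL (repN (atN t))
    rw [hM]
  have h1 : 660 ≤ (Set.range F0).ncard := by
    rw [← Set.ncard_image_of_injective _ Subtype.val_injective, ← hcard, ← Set.ncard_coe_finset]
    exact Set.ncard_le_ncard hsub (Set.toFinite _)
  have h2 : (Set.univ : Set ↥H0).ncard ≤ (Set.range F0).ncard := by
    rw [Set.ncard_univ]
    exact card_H0_le.trans h1
  have h3 : Set.range F0 = Set.univ :=
    Set.eq_of_subset_of_ncard_le (Set.subset_univ _) h2 (Set.toFinite _)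
  exact Set.range_eq_univ.1 h3

/-- The isomorphism of the projective special linear group with the stabiliser of the base
flag. -/
noncomputable def e3 : Matrix.ProjectiveSpecialLinearGroup (Fin 2) (ZMod 11) ≃* ↥H0 :=
  (QuotientGroup.quotientMulEquivOfEq ker_eq).trans
    (QuotientGroup.quotientKerEquivOfSurjective F0 F0_surj)

theorem exists_flag (d : Finset GolayPt) (hd : d ∈ dodecads) (p q : GolayPt) (hp : p ∈ d)
    (hq : q ∉ d) :
    ∃ g ∈ M24, g • T0 = (d, ({p} : Finset GolayPt), ({q} : Finset GolayPt)) := by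
  obtain ⟨g, hg, rfl⟩ := exists_smul_eq_dodecad hd
  have hp1 : g⁻¹ • p ∈ mset 8551822 := Finset.inv_smul_mem_iff.2 hp
  have hq1 : g⁻¹ • q ∉ mset 8551822 := fun h => hq (Finset.inv_smul_mem_iff.1 h)
  obtain ⟨k, hk, hks⟩ := exists_trans _ _ hp1 hq1
  have hkd : k ∈ M24 ⊓ MulAction.stabilizer (Equiv.Perm GolayPt) (mset 8551822) := hk
  refine ⟨g * k, M24.mul_mem hg hkd.1, ?_⟩
  have hk0 : k • mset 8551822 = mset 8551822 := hkd.2
  have e : (g * k) • T0 = (g • k • mset 8551822, g • k • s0) := by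
    show ((g * k) • mset 8551822, (g * k) • mset 2, (g * k) • mset 1) = _
    rw [mul_smul, mul_smul, mul_smul]
    rfl
  rw [e, hk0, hks]
  show (g • mset 8551822, g • ({g⁻¹ • p} : Finset GolayPt),
    g • ({g⁻¹ • q} : Finset GolayPt)) = _
  rw [Finset.smul_finset_singleton, Finset.smul_finset_singleton, smul_inv_smul, smul_inv_smul]

theorem stab_eq_of {B : Type*} [MulAction (Equiv.Perm GolayPt) B] (b : B) (H : Subgroup ↥M24)
    (h : ∀ x : ↥M24, x ∈ H ↔ (x : Equiv.Perm GolayPt) • b = b) :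
    H = MulAction.stabilizer ↥M24 b := by
  ext x
  rw [h x]
  exact Iff.rfl

/-- In the 3-transitive action of the smallest Mathieu group on the complementary dodecad, a point stabiliser is isomorphic to PSL(2, 11). -/
theorem result (d : Finset Cfsg.GolayPt) (hd : d ∈ Cfsg.dodecads) (p q : Cfsg.GolayPt) (hp : p ∈ d) (hq : q ∉ d) : Nonempty (↥(MulAction.stabilizer Cfsg.M24 d ⊓ MulAction.stabilizer Cfsg.M24 p ⊓ MulAction.stabilizer Cfsg.M24 q) ≃* Matrix.ProjectiveSpecialLinearGroup (Fin 2) (ZMod 11)) := by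
  obtain ⟨g, hg, hgT⟩ := exists_flag d hd p q hp hq
  have e2 := conjStab hg T0
  rw [hgT] at e2
  have hsub := stab_eq_of
    ((d, ({p} : Finset GolayPt), ({q} : Finset GolayPt)) :
      Finset GolayPt × Finset GolayPt × Finset GolayPt)
    (MulAction.stabilizer Cfsg.M24 d ⊓ MulAction.stabilizer Cfsg.M24 p ⊓
      MulAction.stabilizer Cfsg.M24 q) (fun x => by
    show (x • d = d ∧ x • p = p) ∧ x • q = q ↔
      ((x : Equiv.Perm GolayPt) • d, (x : Equiv.Perm GolayPt) • ({p} : Finset GolayPt),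
        (x : Equiv.Perm GolayPt) • ({q} : Finset GolayPt)) = (d, {p}, {q})
    rw [Prod.mk.injEq, Prod.mk.injEq, Finset.smul_finset_singleton,
      Finset.smul_finset_singleton, Finset.singleton_inj, Finset.singleton_inj]
    constructor
    · rintro ⟨⟨h1, h2⟩, h3⟩
      exact ⟨h1, h2, h3⟩
    · rintro ⟨h1, h2, h3⟩
      exact ⟨⟨h1, h2⟩, h3⟩)
  exact ⟨(MulEquiv.subgroupCongr hsub).trans (e2.trans e3.symm)⟩

end Cfsg.Agent.S1601
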