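import Cfsg.Statements.S1602
import Mathlib
import Cfsg.Agent.Lib.Helper9.M24Stab
import Cfsg.Agent.Lib.Helper9.M24Syl
import Cfsg.Agent.Lib.Helper9.M24Dod
import Cfsg.Agent.Lib.Helper9.M24Tab
import Cfsg.Agent.Lib.Helper1.ConjStab
import Cfsg.Agent.Lib.Helper1.Dod5
import Cfsg.Agent.Lib.Helper1.Dod5a

set_option autoImplicit false
open scoped Pointwise
open Cfsg

namespace Cfsg.Agent.S1602


open Cfsg.Agent.Lib.Helper9 Cfsg.Agent.Lib.Helper1 Cfsg.Agent.Lib.Helper1.Dod5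

/-- The base flag: the base dodecad, a point of it (as a singleton) and a pair outside it. -/
def T0 : Finset GolayPt × Finset GolayPt × Finset GolayPt := (mset 8551822, mset 2, mset 17)

/-- The point and the pair of the base flag. -/
def s0 : Finset GolayPt × Finset GolayPt := (mset 2, mset 17)

theorem memD_of {l : List ℕ} (h : memD l = true) : isPermL l = true ∧ permL l ∈ Kdod := by
  unfold memD at h
  rw [Bool.and_eq_true] at h
  exact ⟨isPermL_of_isM24L h.1, memKdod l h.1 h.2⟩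

theorem smul_s0 {l : List ℕ} (hp : isPermL l = true) :
    permL l • s0 = (mset (keyOf l).1, mset (keyOf l).2) := by
  show (permL l • mset 2, permL l • mset 17) = _
  rw [permL_smul_mset hp, permL_smul_mset hp]
  rfl

theorem mset_two_pow (p : GolayPt) : mset (2 ^ ptIdx p) = {p} := by
  ext q
  rw [mem_mset, Finset.mem_singleton, Nat.testBit_two_pow]
  constructor
  · intro h
    have h' : ptIdx p = ptIdx q := by simpa using h
    exact (ptIdx_injective h').symm
  · rintro rfl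
    simp

theorem mset_pair (q q' : GolayPt) : mset (2 ^ ptIdx q ||| 2 ^ ptIdx q') = {q, q'} := by
  rw [mset_or, mset_two_pow, mset_two_pow]
  rfl

theorem exists_trans (p q q' : GolayPt) (hp : p ∈ mset 8551822) (hq : q ∉ mset 8551822)
    (hq' : q' ∉ mset 8551822) (hne : q ≠ q') :
    ∃ k ∈ Kdod, k • s0 = (({p} : Finset GolayPt), ({q, q'} : Finset GolayPt)) := by
  have h := trans_ok
  rw [List.all_eq_true] at h
  have h1 := h (ptIdx p) (List.mem_range.2 (ptIdx_lt p))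
  rw [List.all_eq_true] at h1
  have h2 := h1 (ptIdx q) (List.mem_range.2 (ptIdx_lt q))
  rw [List.all_eq_true] at h2
  have h3 := h2 (ptIdx q') (List.mem_range.2 (ptIdx_lt q'))
  rw [mem_mset] at hp hq hq'
  have hq2 : (8551822 : ℕ).testBit (ptIdx q) = false := by
    generalize (8551822 : ℕ).testBit (ptIdx q) = b at hq
    cases b
    · rfl
    · exact absurd rfl hq
  have hq2' : (8551822 : ℕ).testBit (ptIdx q') = false := by
    generalize (8551822 : ℕ).testBit (ptIdx q') = b at hq'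
    cases b
    · rfl
    · exact absurd rfl hq'
  have hbeq : (ptIdx q == ptIdx q') = false := by
    rw [beq_eq_false_iff_ne]
    exact fun e => hne (ptIdx_injective e)
  have h3' : (!((8551822 : ℕ).testBit (ptIdx p)) || (8551822 : ℕ).testBit (ptIdx q) ||
      (8551822 : ℕ).testBit (ptIdx q') || ptIdx q == ptIdx q' ||
      keysT.contains (2 ^ ptIdx p, 2 ^ ptIdx q ||| 2 ^ ptIdx q')) = true := h3
  rw [hp, hq2, hq2', hbeq] at h3'
  have h4 : keysT.contains (2 ^ ptIdx p, 2 ^ ptIdx q ||| 2 ^ ptIdx q') = true := h3'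
  rw [List.contains_iff_mem, ← keys_eq, List.mem_map] at h4
  obtain ⟨l, hl, hkey⟩ := h4
  have hm := memD_of (List.all_eq_true.1 transT_ok l hl)
  refine ⟨permL l, hm.2, ?_⟩
  rw [smul_s0 hm.1, hkey]
  show (mset (2 ^ ptIdx p), mset (2 ^ ptIdx q ||| 2 ^ ptIdx q')) = _
  rw [mset_two_pow, mset_pair]

theorem key_eq {l l' : List ℕ} (hl : l ∈ transT) (hl' : l' ∈ transT)
    (h : permL l • s0 = permL l' • s0) : keyOf l = keyOf l' := by
  have hm := (memD_of (List.all_eq_true.1 transT_ok l hl)).1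
  have hm' := (memD_of (List.all_eq_true.1 transT_ok l' hl')).1
  rw [smul_s0 hm, smul_s0 hm', Prod.mk.injEq] at h
  have e1 : actM l 0 2 = actM l' 0 2 := mset_injOn (actM_lt hm 2) (actM_lt hm' 2) h.1
  have e2 : actM l 0 17 = actM l' 0 17 := mset_injOn (actM_lt hm 17) (actM_lt hm' 17) h.2
  exact Prod.ext e1 e2

theorem transT_length : transT.length = 792 := by decide +kernel

theorem orbit_ge : 792 ≤ (orbS Kdod s0).ncard := by
  have hkn : (transT.map keyOf).Nodup := by rw [keys_eq]; exact keys_nodup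
  have hnd : (transT.map (fun l => permL l • s0)).Nodup :=
    List.Nodup.map_on (fun x hx y hy hxy => List.inj_on_of_nodup_map hkn hx hy (key_eq hx hy hxy))
      (List.Nodup.of_map _ hkn)
  have hcard : (transT.map (fun l => permL l • s0)).toFinset.card = 792 := by
    rw [List.toFinset_card_of_nodup hnd, List.length_map, transT_length]
  rw [← hcard, ← Set.ncard_coe_finset]
  apply Set.ncard_le_ncard _ (orbS_finite Kdod s0)
  intro x hx
  rw [Finset.mem_coe, List.mem_toFinset, List.mem_map] at hx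
  obtain ⟨l, hl, rfl⟩ := hx
  exact ⟨permL l, (memD_of (List.all_eq_true.1 transT_ok l hl)).2, rfl⟩

/-- The stabiliser of the base flag. -/
def H0 : Subgroup (Equiv.Perm GolayPt) := M24 ⊓ MulAction.stabilizer (Equiv.Perm GolayPt) T0

theorem H0_le : H0 ≤ Kdod ⊓ MulAction.stabilizer (Equiv.Perm GolayPt) s0 := by
  intro k hk
  have h2 : k • T0 = T0 := hk.2
  have h3 : (k • mset 8551822, k • s0) = (mset 8551822, s0) := h2
  rw [Prod.mk.injEq] at h3
  have hkd : k ∈ Kdod := by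
    unfold Kdod
    exact ⟨hk.1, h3.1⟩
  exact ⟨hkd, h3.2⟩

theorem card_H0_le : Nat.card ↥H0 ≤ 120 := by
  have h1 := card_orbS_mul Kdod s0
  rw [card_Kdod] at h1
  have h2 := orbit_ge
  have h3 : Nat.card ↥H0 ≤ Nat.card ↥(Kdod ⊓ MulAction.stabilizer (Equiv.Perm GolayPt) s0) :=
    Subgroup.card_le_of_le H0_le
  have h4 : 792 * Nat.card ↥(Kdod ⊓ MulAction.stabilizer (Equiv.Perm GolayPt) s0) ≤ 792 * 120 := by
    calc 792 * Nat.card ↥(Kdod ⊓ MulAction.stabilizer (Equiv.Perm GolayPt) s0)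
        ≤ (orbS Kdod s0).ncard *
            Nat.card ↥(Kdod ⊓ MulAction.stabilizer (Equiv.Perm GolayPt) s0) :=
          Nat.mul_le_mul_right _ h2
      _ = 792 * 120 := by rw [h1]
  exact h3.trans (Nat.le_of_mul_le_mul_left h4 (by norm_num))

/-- The list of values of a permutation of five points. -/
def tup5 (σ : Equiv.Perm (Fin 5)) : List (Fin 5) := [σ 0, σ 1, σ 2, σ 3, σ 4]

/-- The list representing a permutation of five points. -/
def r5 (σ : Equiv.Perm (Fin 5)) : List ℕ := rep5L (tup5 σ)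

theorem tup5_nodup (σ : Equiv.Perm (Fin 5)) : (tup5 σ).Nodup :=
  List.Nodup.map σ.injective (by decide : ([0, 1, 2, 3, 4] : List (Fin 5)).Nodup)

theorem getD_tup5 (σ : Equiv.Perm (Fin 5)) (x : Fin 5) : (tup5 σ).getD x.val 0 = σ x := by
  fin_cases x <;> rfl

theorem tup5_mul (σ τ : Equiv.Perm (Fin 5)) : tup5 (σ * τ) = tmul5 (tup5 σ) (tup5 τ) := by
  show [σ (τ 0), σ (τ 1), σ (τ 2), σ (τ 3), σ (τ 4)]
    = [(tup5 σ).getD (τ 0).val 0, (tup5 σ).getD (τ 1).val 0, (tup5 σ).getD (τ 2).val 0,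
       (tup5 σ).getD (τ 3).val 0, (tup5 σ).getD (τ 4).val 0]
  rw [getD_tup5, getD_tup5, getD_tup5, getD_tup5, getD_tup5]

theorem tup5_inj {σ τ : Equiv.Perm (Fin 5)} (h : tup5 σ = tup5 τ) : σ = τ := by
  unfold tup5 at h
  simp only [List.cons.injEq, and_true] at h
  obtain ⟨h0, h1, h2, h3, h4⟩ := h
  apply Equiv.ext
  intro x
  fin_cases x
  · exact h0
  · exact h1
  · exact h2
  · exact h3
  · exact h4

theorem gens5_lift (s : List (Fin 5)) (hs : s ∈ gens5) :
    ∃ σ : Equiv.Perm (Fin 5), tup5 σ = s := by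
  have hs' : s ∈ [g1F, g2F] := hs
  rcases List.mem_cons.1 hs' with rfl | hs'
  · exact ⟨Equiv.swap 0 1, by decide⟩
  · rcases List.mem_cons.1 hs' with rfl | hs'
    · exact ⟨Equiv.swap 0 1 * Equiv.swap 1 2 * Equiv.swap 2 3 * Equiv.swap 3 4, by decide⟩
    · exact absurd hs' List.not_mem_nil

theorem memH_of {l : List ℕ} (h : memH l = true) : isPermL l = true ∧ permL l ∈ H0 := by
  unfold memH at h
  rw [Bool.and_eq_true, Bool.and_eq_true, beq_iff_eq, beq_iff_eq] at h
  obtain ⟨⟨hD, h2⟩, h17⟩ := h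
  have hm := memD_of hD
  have hk : permL l ∈ M24 ⊓ MulAction.stabilizer (Equiv.Perm GolayPt) (mset 8551822) := hm.2
  have hd : permL l • mset 8551822 = mset 8551822 := hk.2
  refine ⟨hm.1, ?_⟩
  unfold H0
  refine ⟨hk.1, ?_⟩
  show (permL l • mset 8551822, permL l • mset 2, permL l • mset 17) = T0
  rw [hd, permL_smul_mset hm.1, permL_smul_mset hm.1, h2, h17]
  rfl

theorem r5_mem (σ : Equiv.Perm (Fin 5)) : memH (r5 σ) = true :=
  rep5_ok (σ 0) (σ 1) (σ 2) (σ 3) (σ 4) (tup5_nodup σ)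

theorem r5_perm (σ : Equiv.Perm (Fin 5)) : isPermL (r5 σ) = true := (memH_of (r5_mem σ)).1

theorem f5_gen (S : Equiv.Perm (Fin 5)) (hS : tup5 S ∈ gens5) (τ : Equiv.Perm (Fin 5)) :
    permL (r5 (S * τ)) = permL (r5 S) * permL (r5 τ) := by
  have key : compL (r5 S) (r5 τ) = rep5L (tmul5 (tup5 S) (tup5 τ)) :=
    gen5_mul (tup5 S) hS (τ 0) (τ 1) (τ 2) (τ 3) (τ 4) (tup5_nodup τ)
  rw [permL_mul (r5_perm S) (r5_perm τ), key, ← tup5_mul]
  rfl

/-- The property propagated along the chain of permutations. -/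
def Q5 (t : List (Fin 5)) : Prop :=
  ∃ σ : Equiv.Perm (Fin 5), tup5 σ = t ∧
    ∀ τ : Equiv.Perm (Fin 5), permL (r5 (σ * τ)) = permL (r5 σ) * permL (r5 τ)

theorem Q5_one : Q5 id5 := by
  have h1 : tup5 (1 : Equiv.Perm (Fin 5)) = id5 := rfl
  have h2 : r5 (1 : Equiv.Perm (Fin 5)) = idL := by
    show rep5L (tup5 1) = idL
    rw [h1]
    exact rep5L_id
  refine ⟨1, h1, ?_⟩
  intro τ
  rw [one_mul, h2, permL_idL, one_mul]

theorem Q5_step (s : List (Fin 5)) (hs : s ∈ gens5) (y : List (Fin 5)) (hy : Q5 y) :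
    Q5 (tmul5 s y) := by
  obtain ⟨Y, rfl, hY⟩ := hy
  obtain ⟨S, rfl⟩ := gens5_lift s hs
  refine ⟨S * Y, tup5_mul S Y, ?_⟩
  intro τ
  rw [mul_assoc, f5_gen S hs (Y * τ), hY τ, f5_gen S hs Y, mul_assoc]

theorem f5_mul (σ τ : Equiv.Perm (Fin 5)) :
    permL (r5 (σ * τ)) = permL (r5 σ) * permL (r5 τ) := by
  have hmem : tup5 σ ∈ chain5 := by
    have h := valid5_mem (σ 0) (σ 1) (σ 2) (σ 3) (σ 4) (tup5_nodup σ)
    rw [List.contains_iff_mem] at h
    exact h
  obtain ⟨σ₀, h₀, hP⟩ := chain5_ind (Q := Q5) Q5_one Q5_step chain5 chain5_ok (tup5 σ) hmem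
  rw [tup5_inj h₀] at hP
  exact hP τ

/-- The isomorphism, as a homomorphism onto the stabiliser of the base flag. -/
noncomputable def F : Equiv.Perm (Fin 5) →* ↥H0 :=
  MonoidHom.mk' (fun σ => ⟨permL (r5 σ), (memH_of (r5_mem σ)).2⟩) (by
    intro σ τ
    apply Subtype.ext
    exact f5_mul σ τ)

theorem F_inj : Function.Injective F := by
  rw [injective_iff_map_eq_one]
  intro σ hσ
  have h1 : permL (r5 σ) = 1 := congrArg Subtype.val hσ
  rw [← permL_idL] at h1
  have h2 : r5 σ = idL := permL_inj (r5_perm σ) isPermL_idL h1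
  have h3 := ker5 (σ 0) (σ 1) (σ 2) (σ 3) (σ 4) (tup5_nodup σ) (by rw [beq_iff_eq]; exact h2)
  rw [beq_iff_eq] at h3
  have h4 : tup5 σ = tup5 1 := h3
  exact tup5_inj h4

theorem F_bij : Function.Bijective F := by
  have hc : Nat.card ↥H0 ≤ Nat.card (Equiv.Perm (Fin 5)) := by
    rw [Nat.card_perm, Nat.card_fin, show (5 : ℕ).factorial = 120 from rfl]
    exact card_H0_le
  exact Function.Injective.bijective_of_nat_card_le F_inj hc

theorem smul_pair (g : Equiv.Perm GolayPt) (a b : GolayPt) :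
    g • ({a, b} : Finset GolayPt) = {g • a, g • b} := by
  ext x
  simp only [Finset.mem_smul_finset, Finset.mem_insert, Finset.mem_singleton]
  constructor
  · rintro ⟨y, rfl | rfl, rfl⟩
    · exact Or.inl rfl
    · exact Or.inr rfl
  · rintro (rfl | rfl)
    · exact ⟨a, Or.inl rfl, rfl⟩
    · exact ⟨b, Or.inr rfl, rfl⟩

theorem exists_flag (d : Finset GolayPt) (hd : d ∈ dodecads) (p q q' : GolayPt) (hp : p ∈ d)
    (hq : q ∉ d) (hq' : q' ∉ d) (hqq' : q ≠ q') :
    ∃ g ∈ M24, g • T0 = (d, ({p} : Finset GolayPt), ({q, q'} : Finset GolayPt)) := by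
  obtain ⟨g, hg, rfl⟩ := exists_smul_eq_dodecad hd
  have hp1 : g⁻¹ • p ∈ mset 8551822 := Finset.inv_smul_mem_iff.2 hp
  have hq1 : g⁻¹ • q ∉ mset 8551822 := fun h => hq (Finset.inv_smul_mem_iff.1 h)
  have hq1' : g⁻¹ • q' ∉ mset 8551822 := fun h => hq' (Finset.inv_smul_mem_iff.1 h)
  have hne : g⁻¹ • q ≠ g⁻¹ • q' := fun h => hqq' (MulAction.injective g⁻¹ h)
  obtain ⟨k, hk, hks⟩ := exists_trans _ _ _ hp1 hq1 hq1' hne
  have hkd : k ∈ M24 ⊓ MulAction.stabilizer (Equiv.Perm GolayPt) (mset 8551822) := hk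
  refine ⟨g * k, M24.mul_mem hg hkd.1, ?_⟩
  have hk0 : k • mset 8551822 = mset 8551822 := hkd.2
  have e : (g * k) • T0 = (g • k • mset 8551822, g • k • s0) := by
    show ((g * k) • mset 8551822, (g * k) • mset 2, (g * k) • mset 17) = _
    rw [mul_smul, mul_smul, mul_smul]
    rfl
  rw [e, hk0, hks]
  show (g • mset 8551822, g • ({g⁻¹ • p} : Finset GolayPt),
    g • ({g⁻¹ • q, g⁻¹ • q'} : Finset GolayPt)) = _
  rw [Finset.smul_finset_singleton, smul_pair, smul_inv_smul, smul_inv_smul, smul_inv_smul]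

theorem stab_eq_of {B : Type*} [MulAction (Equiv.Perm GolayPt) B] (b : B) (H : Subgroup ↥M24)
    (h : ∀ x : ↥M24, x ∈ H ↔ (x : Equiv.Perm GolayPt) • b = b) :
    H = MulAction.stabilizer ↥M24 b := by
  ext x
  rw [h x]
  exact Iff.rfl

/-- In the 12-point action of the smallest Mathieu group the setwise stabiliser of a pair is isomorphic to the symmetric group of degree 5. -/
theorem result (d : Finset Cfsg.GolayPt) (hd : d ∈ Cfsg.dodecads) (p q q' : Cfsg.GolayPt) (hp : p ∈ d) (hq : q ∉ d) (hq' : q' ∉ d) (hqq' : q ≠ q') : Nonempty (↥(MulAction.stabilizer Cfsg.M24 d ⊓ MulAction.stabilizer Cfsg.M24 p ⊓ MulAction.stabilizer Cfsg.M24 ({q, q'} : Finset Cfsg.GolayPt)) ≃* Equiv.Perm (Fin 5)) := by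
  obtain ⟨g, hg, hgT⟩ := exists_flag d hd p q q' hp hq hq' hqq'
  have e2 := conjStab hg T0
  rw [hgT] at e2
  have hsub := stab_eq_of
    ((d, ({p} : Finset GolayPt), ({q, q'} : Finset GolayPt)) :
      Finset GolayPt × Finset GolayPt × Finset GolayPt)
    (MulAction.stabilizer Cfsg.M24 d ⊓ MulAction.stabilizer Cfsg.M24 p ⊓
      MulAction.stabilizer Cfsg.M24 ({q, q'} : Finset Cfsg.GolayPt)) (fun x => by
    show (x • d = d ∧ x • p = p) ∧ x • ({q, q'} : Finset GolayPt) = {q, q'} ↔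
      ((x : Equiv.Perm GolayPt) • d, (x : Equiv.Perm GolayPt) • ({p} : Finset GolayPt),
        (x : Equiv.Perm GolayPt) • ({q, q'} : Finset GolayPt)) = (d, {p}, {q, q'})
    rw [Prod.mk.injEq, Prod.mk.injEq, Finset.smul_finset_singleton, Finset.singleton_inj]
    constructor
    · rintro ⟨⟨h1, h2⟩, h3⟩
      exact ⟨h1, h2, h3⟩
    · rintro ⟨h1, h2, h3⟩
      exact ⟨⟨h1, h2⟩, h3⟩)
  exact ⟨(MulEquiv.subgroupCongr hsub).trans (e2.trans (MulEquiv.ofBijective F F_bij).symm)⟩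

end Cfsg.Agent.S1602
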