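import Cfsg.Statements.S1604
import Mathlib
import Cfsg.Agent.Lib.Helper1.M24Base2

set_option autoImplicit false
open scoped Pointwise
open Cfsg

namespace Cfsg.Agent.S1604


open Cfsg.Agent.Lib.Helper1 in
/-- The property cutting out the relevant enumerated words. -/
def P (n : ℕ) : Bool := pcI 24 n == 8 && n.testBit 0 && n.testBit 1

open Cfsg.Agent.Lib.Helper1 in
/-- The invariant separating the classes. -/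
def inv (n : ℕ) : ℕ := pcI 24 (O5 &&& n)

set_option maxRecDepth 1000000 in
/-- Class certificates: (invariant value, base mask, words). -/
noncomputable def cls : List (ℕ × ℕ × List (ℕ × List ℕ)) := [
  (2, 352547, [
    (352547, []),
    (657763, [4, 2, 1, 4, 1, 1, 3, 3, 2]),
    (1460739, [3, 3, 2, 0, 0, 0, 3, 1, 1, 3, 2]),
    (1647171, [1, 4, 4, 0, 4, 0, 3, 1, 4, 1, 2, 0]),
    (2392899, [0, 4, 1, 2, 0, 4, 0, 4, 1, 1]),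
    (3719203, [0, 0, 3, 1, 3, 1, 2, 0, 3, 1]),
    (4424227, [4, 1, 4, 1, 4, 1]),
    (5286147, [4, 2, 1, 3, 0, 3, 1, 4, 4, 0, 2]),
    (6447171, [3, 1, 3, 0, 2, 0, 0, 4, 1, 4, 0]),
    (7145475, [3, 1, 4, 1, 3, 1, 2, 0, 3, 1, 1]),
    (8505411, [2, 0, 0, 4, 4, 1, 3, 0, 4, 4, 2]),
    (9347075, [4, 4, 2, 0, 0, 3, 0, 3, 2]),
    (10496547, [0, 2, 1, 1, 3, 3, 1, 4, 0, 2, 1]),
    (11731203, [2, 1, 3, 3, 1, 3, 0, 4, 1, 2]),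
    (13124355, [2, 0, 3, 1, 4, 0, 4, 4, 0, 2]),
    (13893731, [4, 2, 0, 0, 0, 0, 3, 3, 1, 2])]),
  (4, 18147, [
    (18147, []),
    (45159, [4, 4, 2, 1, 4, 1, 4, 0, 0, 4, 2]),
    (57883, [3, 0, 0, 3, 2, 1, 1, 1, 3, 3, 1, 3, 1]),
    (69395, [3, 3, 1, 1, 3, 1, 3, 0, 4, 0, 4]),
    (140167, [2, 1, 3, 0, 4, 4, 0, 4, 1, 3, 2]),
    (185603, [4, 2, 0, 3, 1, 3, 3, 1, 4, 0, 2]),
    (210955, [4, 4, 0, 0, 0, 3, 1, 2, 0, 0, 2, 0]),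
    (272595, [3, 3, 2, 1, 4, 0, 3, 3, 1, 1, 2]),
    (298027, [2, 1, 4, 1, 3, 3, 0, 0, 3, 0, 2]),
    (459847, [3, 3, 1, 4, 4, 1, 4, 0, 0, 4, 1]),
    (551943, [2, 0, 0, 0, 2, 1, 4, 1, 1, 3, 1, 2, 0]),
    (563843, [0, 2, 0, 0, 4, 0, 3, 1, 1, 3, 2, 1]),
    (622863, [0, 0, 3, 1, 3, 1, 2, 0, 3, 1]),
    (737427, [0, 2, 1, 3, 0, 4, 4, 0, 0, 2, 1]),
    (786999, [1, 4, 2, 1, 1, 3, 1, 1, 4, 0, 4, 0]),
    (806987, [4, 1, 1, 2, 0, 0, 4, 0, 4, 4, 1]),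
    (1053483, [1, 3, 2, 1, 3, 2, 0, 4, 1, 1, 1, 1]),
    (1065303, [2, 0, 0, 4, 4, 1, 1, 4, 1, 1, 3, 2]),
    (1116327, [1, 1, 2, 0, 3, 1, 1, 3, 0, 3, 0, 4]),
    (1188915, [2, 1, 4, 1, 1, 4, 4, 0, 3, 0, 2]),
    (1212619, [3, 3, 1, 4, 1, 1, 3, 3, 1, 4, 0, 3]),
    (1413139, [1, 4, 2, 1, 4, 0, 4, 1, 1, 4, 1, 3]),
    (1836419, [1, 4, 0, 4, 4, 0, 3, 0, 4, 2, 1, 3, 2]),
    (2115979, [0, 0, 0, 3, 1, 1, 1, 4, 1, 4, 2, 0]),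
    (2162811, [2, 1, 3, 3, 1, 3, 0, 4, 1, 2]),
    (2183687, [4, 4, 2, 1, 4, 0, 4, 1, 3, 1, 4, 2]),
    (2204803, [2, 0, 3, 1, 4, 0, 0, 4, 1, 4, 0, 3, 2]),
    (2263063, [1, 2, 1, 1, 4, 1, 3, 1, 1, 1, 3, 1]),
    (2494627, [0, 3, 1, 1, 3, 0, 3, 3, 0, 4, 4]),
    (2634003, [1, 4, 1, 4, 2, 1, 1, 4, 0, 4, 4, 0]),
    (2754059, [4, 4, 2, 1, 1, 4, 0, 0, 0, 4, 2]),
    (3152963, [3, 1, 3, 1, 4, 0, 4, 0, 0, 4, 4]),
    (3416079, [0, 4, 0, 0, 0, 4, 0, 3, 0, 0, 2, 0]),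
    (4196943, [2, 0, 3, 1, 4, 0, 4, 4, 0, 2]),
    (4216883, [0, 0, 0, 4, 0, 0, 0, 0, 3, 0, 0, 4]),
    (4264387, [4, 1, 4, 1, 4, 1]),
    (4470275, [0, 2, 1, 1, 3, 3, 1, 4, 0, 2, 1]),
    (4505735, [3, 1, 3, 0, 2, 0, 0, 4, 1, 4, 0]),
    (4587803, [0, 4, 1, 2, 0, 4, 0, 4, 1, 1]),
    (4726955, [4, 2, 0, 0, 4, 1, 1, 1, 4, 4, 2]),
    (4752467, [3, 1, 1, 1, 1, 1, 4, 0, 0, 4, 2, 0]),
    (5325835, [2, 0, 4, 0, 0, 2, 0, 0, 4, 0, 0, 3, 0]),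
    (5902343, [4, 2, 1, 3, 0, 3, 1, 4, 4, 0, 2]),
    (6292775, [2, 1, 4, 1, 1, 2, 0, 4, 4, 1, 3, 0]),
    (7340691, [3, 3, 2, 0, 0, 0, 3, 1, 1, 3, 2]),
    (8398155, [3, 2, 1, 1, 4, 1, 3, 0, 4, 0, 0, 0, 2]),
    (8421811, [3, 2, 1, 3, 0, 4, 0, 3, 1, 3, 2]),
    (8524371, [3, 2, 1, 1, 3, 0, 3, 0, 3, 3, 2]),
    (8536111, [0, 3, 3, 1, 3, 1, 1, 2, 0, 0, 3]),
    (8657159, [4, 2, 0, 0, 0, 0, 3, 3, 1, 2]),
    (8716939, [2, 1, 1, 3, 0, 4, 1, 1, 3, 3, 0, 2]),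
    (8983587, [1, 2, 0, 0, 0, 3, 2, 1, 3, 0, 4, 4, 0]),
    (9465987, [0, 4, 2, 0, 0, 4, 1, 3, 1, 1, 2, 1]),
    (9471495, [2, 0, 0, 4, 4, 1, 3, 0, 4, 4, 2]),
    (9963547, [2, 1, 3, 3, 0, 4, 1, 4, 0, 3, 2]),
    (10765331, [4, 4, 2, 0, 0, 3, 0, 3, 2]),
    (11010247, [4, 2, 1, 4, 1, 1, 3, 3, 2]),
    (12656663, [2, 0, 4, 4, 1, 1, 1, 1, 3, 2]),
    (12717187, [4, 2, 0, 3, 2, 1, 4, 1, 3, 3, 1, 3, 0]),
    (14716939, [2, 1, 4, 2, 0, 0, 0, 0, 4, 1, 1, 2, 1])]),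
  (8, 5279, [
    (5279, [])])]

open Cfsg.Agent.Lib.Helper1 in
set_option maxRecDepth 1000000 in
theorem cls_ok : cls.all (fun c => certOK ([O5] : List ℕ) ([0, 1] : List ℕ) c.2.1 c.2.2) = true := by decide +kernel

open Cfsg.Agent.Lib.Helper1 in
set_option maxRecDepth 1000000 in
theorem cls_keys : ((allWords gbasis).filter P).all
    (fun n => (cls.map (fun c => c.1)).contains (inv n)) = true := by decide +kernel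

open Cfsg.Agent.Lib.Helper1 in
set_option maxRecDepth 1000000 in
theorem cls_lists : cls.all (fun c => c.2.2.map Prod.fst
    == (allWords gbasis).filter (fun n => P n && inv n == c.1)) = true := by decide +kernel

open Cfsg.Agent.Lib.Helper1 in
open scoped Pointwise in
theorem cls_trans (n n' : ℕ) (hn : n ∈ allWords gbasis) (hP : P n = true)
    (hn' : n' ∈ allWords gbasis) (hP' : P n' = true) (hinv : inv n = inv n') :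
    ∃ g ∈ Cfsg.M24, g • S n = S n' ∧ (∀ f ∈ ([O5] : List ℕ), g • S f = S f)
      ∧ (∀ i ∈ ([0, 1] : List ℕ), g (pt i) = pt i) :=
  classes_trans' P inv ([O5] : List ℕ) ([0, 1] : List ℕ) cls cls_ok cls_keys cls_lists n n' hn hP hn' hP' hinv

open Cfsg.Agent.Lib.Helper1 in
set_option maxRecDepth 1000000 in
theorem cnt2 : ((allWords gbasis).filter (fun n => P n && inv n == 2)).length = 16 := by
  decide +kernel

open Cfsg.Agent.Lib.Helper1 in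
set_option maxRecDepth 1000000 in
theorem cnt4 : ((allWords gbasis).filter (fun n => P n && inv n == 4)).length = 60 := by
  decide +kernel

open Cfsg.Agent.Lib.Helper1 in
theorem base_mem (b : Finset Cfsg.GolayPt) :
    (b ∈ Cfsg.octads ∧ pt 0 ∈ b ∧ pt 1 ∈ b) ↔ ∃ n ∈ allWords gbasis, P n = true ∧ b = S n := by
  constructor
  · rintro ⟨hb, hpts⟩
    obtain ⟨n, hn, h8, rfl⟩ := (mem_octads_iff b).1 hb
    refine ⟨n, hn, ?_, rfl⟩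
    simp only [pt_mem_S _ _ (show (0 : ℕ) < 24 by norm_num), pt_mem_S _ _ (show (1 : ℕ) < 24 by norm_num)] at hpts
    simp [P, h8, hpts]
  · rintro ⟨n, hn, hP, rfl⟩
    simp only [P, Bool.and_eq_true, beq_iff_eq, Bool.not_eq_true'] at hP
    refine ⟨(mem_octads_iff _).2 ⟨n, hn, hP.1.1, rfl⟩, ?_⟩
    simp only [pt_mem_S _ _ (show (0 : ℕ) < 24 by norm_num), pt_mem_S _ _ (show (1 : ℕ) < 24 by norm_num)]
    simp [hP]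

open Cfsg.Agent.Lib.Helper1 in
theorem base_set (k : ℕ) :
    {o' : Finset Cfsg.GolayPt | (o' ∈ Cfsg.octads ∧ pt 0 ∈ o' ∧ pt 1 ∈ o') ∧ (S O5 ∩ o').card = k}
    = {b : Finset Cfsg.GolayPt | ∃ n ∈ allWords gbasis, (P n && inv n == k) = true ∧ b = S n} := by
  ext b
  simp only [Set.mem_setOf_eq]
  constructor
  · rintro ⟨h1, h3⟩
    obtain ⟨n, hn, hP, rfl⟩ := (base_mem b).1 h1
    rw [S_inter, S_card] at h3
    exact ⟨n, hn, by simp [hP, inv, h3], rfl⟩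
  · rintro ⟨n, hn, hP, rfl⟩
    simp only [Bool.and_eq_true, beq_iff_eq] at hP
    refine ⟨(base_mem (S n)).2 ⟨n, hn, hP.1, rfl⟩, ?_⟩
    rw [S_inter, S_card]; exact hP.2

open Cfsg.Agent.Lib.Helper1 in
open scoped Pointwise in
theorem transport (g : Equiv.Perm Cfsg.GolayPt) (hg : g ∈ Cfsg.M24) (k : ℕ) :
    {o' : Finset Cfsg.GolayPt | (o' ∈ Cfsg.octads ∧ g (pt 0) ∈ o' ∧ g (pt 1) ∈ o') ∧ (g • S O5 ∩ o').card = k}.ncard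
      = {o' : Finset Cfsg.GolayPt | (o' ∈ Cfsg.octads ∧ pt 0 ∈ o' ∧ pt 1 ∈ o') ∧ (S O5 ∩ o').card = k}.ncard := by
  apply ncard_transport g
  intro b
  simp only [Set.mem_setOf_eq]
  rw [smul_mem_octads_iff g⁻¹ (Cfsg.M24.inv_mem hg), card_smul_inter]
  simp only [perm_mem_inv_smul]

open Cfsg.Agent.Lib.Helper1 in
open scoped Pointwise in
theorem base_trans (o' o'' : Finset Cfsg.GolayPt) (ho' : o' ∈ Cfsg.octads ∧ pt 0 ∈ o' ∧ pt 1 ∈ o')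
    (ho'' : o'' ∈ Cfsg.octads ∧ pt 0 ∈ o'' ∧ pt 1 ∈ o'')
    (h : (S O5 ∩ o').card = (S O5 ∩ o'').card) :
    ∃ g ∈ Cfsg.M24, g • S O5 = S O5 ∧ g • o' = o'' ∧ ∀ i ∈ ([0, 1] : List ℕ), g (pt i) = pt i := by
  obtain ⟨n, hn, hP, rfl⟩ := (base_mem o').1 ho'
  obtain ⟨n', hn', hP', rfl⟩ := (base_mem o'').1 ho''
  rw [S_inter, S_card, S_inter, S_card] at h
  obtain ⟨g, hg, h1, h2, h3⟩ := cls_trans n n' hn hP hn' hP' h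
  exact ⟨g, hg, h2 O5 (by simp), h1, h3⟩

open Cfsg.Agent.Lib.Helper1 in
open scoped Pointwise in
/-- The transitivity statement transported to the image configuration under `g`. -/
theorem gen_trans (g : Equiv.Perm Cfsg.GolayPt) (hg : g ∈ Cfsg.M24) (o' o'' : Finset Cfsg.GolayPt)
    (ho' : o' ∈ Cfsg.octads ∧ g (pt 0) ∈ o' ∧ g (pt 1) ∈ o') (ho'' : o'' ∈ Cfsg.octads ∧ g (pt 0) ∈ o'' ∧ g (pt 1) ∈ o'')
    (h : (g • S O5 ∩ o').card = (g • S O5 ∩ o'').card) :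
    ∃ k ∈ Cfsg.M24, k • (g • S O5) = g • S O5 ∧ k • o' = o''
      ∧ ∀ i ∈ ([0, 1] : List ℕ), k (g (pt i)) = g (pt i) := by
  have hinv := Cfsg.M24.inv_mem hg
  rw [card_smul_inter, card_smul_inter] at h
  have h1 : g⁻¹ • o' ∈ Cfsg.octads ∧ pt 0 ∈ g⁻¹ • o' ∧ pt 1 ∈ g⁻¹ • o' := by
    rw [smul_mem_octads_iff g⁻¹ hinv]
    simp only [perm_mem_inv_smul]
    exact ho'
  have h2 : g⁻¹ • o'' ∈ Cfsg.octads ∧ pt 0 ∈ g⁻¹ • o'' ∧ pt 1 ∈ g⁻¹ • o'' := by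
    rw [smul_mem_octads_iff g⁻¹ hinv]
    simp only [perm_mem_inv_smul]
    exact ho''
  obtain ⟨k, hk, k1, k2, k3⟩ := base_trans (g⁻¹ • o') (g⁻¹ • o'') h1 h2 h
  refine ⟨g * k * g⁻¹, Cfsg.M24.mul_mem (Cfsg.M24.mul_mem hg hk) hinv, ?_, ?_, ?_⟩
  · rw [mul_smul, mul_smul, inv_smul_smul, k1]
  · rw [mul_smul, mul_smul, k2, smul_inv_smul]
  · intro i hi
    simp [k3 i hi]
/-- A hexad stabiliser in the two-point stabiliser has orbits of sizes 1, 16, 60 on the 77 hexads: the 16 hexads disjoint from it and the 60 meeting it in two points. -/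
theorem result (p q : Cfsg.GolayPt) (hpq : p ≠ q) (o o' o'' : Finset Cfsg.GolayPt) (ho : o ∈ Cfsg.octads) (ho' : o' ∈ Cfsg.octads) (ho'' : o'' ∈ Cfsg.octads) (hp : p ∈ o ∧ p ∈ o' ∧ p ∈ o'') (hq : q ∈ o ∧ q ∈ o' ∧ q ∈ o'') (h : (o ∩ o').card = (o ∩ o'').card) : {x : Finset Cfsg.GolayPt | x ∈ Cfsg.octads ∧ p ∈ x ∧ q ∈ x ∧ (o ∩ x).card = 2}.ncard = 16 ∧ {x : Finset Cfsg.GolayPt | x ∈ Cfsg.octads ∧ p ∈ x ∧ q ∈ x ∧ (o ∩ x).card = 4}.ncard = 60 ∧ ∃ g : Equiv.Perm Cfsg.GolayPt, g ∈ Cfsg.M24 ∧ g p = p ∧ g q = q ∧ g • o = o ∧ g • o' = o'' := by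
  obtain ⟨g, hg, rfl, rfl, rfl⟩ := Cfsg.Agent.Lib.Helper1.octad_2pt_reach o ho p q hp.1 hq.1 hpq
  have e : ∀ k : ℕ, {x : Finset Cfsg.GolayPt | x ∈ Cfsg.octads ∧ g (Cfsg.Agent.Lib.Helper1.pt 0) ∈ x
      ∧ g (Cfsg.Agent.Lib.Helper1.pt 1) ∈ x ∧ (g • Cfsg.Agent.Lib.Helper1.S Cfsg.Agent.Lib.Helper1.O5 ∩ x).card = k}
      = {o' : Finset Cfsg.GolayPt | (o' ∈ Cfsg.octads ∧ g (Cfsg.Agent.Lib.Helper1.pt 0) ∈ o'
      ∧ g (Cfsg.Agent.Lib.Helper1.pt 1) ∈ o') ∧ (g • Cfsg.Agent.Lib.Helper1.S Cfsg.Agent.Lib.Helper1.O5 ∩ o').card = k} := by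
    intro k
    ext x
    simp only [Set.mem_setOf_eq, and_assoc]
  refine ⟨?_, ?_, ?_⟩
  · rw [e 2, transport g hg 2, base_set 2, Cfsg.Agent.Lib.Helper1.ncard_filter]
    exact cnt2
  · rw [e 4, transport g hg 4, base_set 4, Cfsg.Agent.Lib.Helper1.ncard_filter]
    exact cnt4
  · obtain ⟨k, hk, k1, k2, k3⟩ := gen_trans g hg o' o'' ⟨ho', hp.2.1, hq.2.1⟩ ⟨ho'', hp.2.2, hq.2.2⟩ h
    exact ⟨k, hk, k3 0 (by simp), k3 1 (by simp), k1, k2⟩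

end Cfsg.Agent.S1604
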