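import Cfsg.Statements.S1605
import Mathlib
import Cfsg.Agent.Lib.Helper1.M24Base2

set_option autoImplicit false
open scoped Pointwise
open Cfsg

namespace Cfsg.Agent.S1605


open Cfsg.Agent.Lib.Helper1 in
/-- The property cutting out the relevant enumerated words. -/
def P (n : ℕ) : Bool := pcI 24 n == 8 && n.testBit 0 && !n.testBit 5

open Cfsg.Agent.Lib.Helper1 in
/-- The invariant separating the classes. -/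
def inv (n : ℕ) : ℕ := pcI 24 (O5 &&& n)

set_option maxRecDepth 1000000 in
/-- Class certificates: (invariant value, base mask, words). -/
noncomputable def cls : List (ℕ × ℕ × List (ℕ × List ℕ)) := [
  (2, 175681, [
    (175681, []),
    (213833, [2, 1, 3, 0, 0, 0, 4, 2, 1, 1, 4, 4, 0]),
    (493953, [3, 1, 3, 2, 0, 4, 1, 1, 4, 0, 4]),
    (582081, [3, 1, 1, 4, 0, 0, 3, 3, 0, 0, 2, 0]),
    (797449, [2, 1, 4, 1, 1, 1, 4, 1, 1, 4, 4, 1, 2]),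
    (902657, [4, 0, 4, 0, 3, 1, 3, 3, 2, 0]),
    (1302533, [4, 2, 0, 3, 3, 1, 1, 1, 4, 1, 3, 2]),
    (1454401, [0, 0, 4, 1, 1, 1, 4, 4, 2, 0, 4, 2]),
    (1460739, [3, 0, 3, 1, 4, 1, 4, 4, 1, 4]),
    (1647171, [4, 2, 1, 3, 0, 0, 3, 0, 0, 4, 0, 2]),
    (1661185, [4, 1, 4, 1, 4, 4, 0, 3, 1, 1, 3, 0]),
    (1737489, [4, 2, 0, 4, 1, 3, 1, 4, 0, 4, 2]),
    (1869893, [2, 0, 0, 0, 4, 4, 0, 3, 0, 4, 2]),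
    (2173253, [4, 1, 4, 0, 4, 1, 4, 0, 4, 4, 1, 2, 0]),
    (2392899, [4, 2, 1, 3, 0, 4, 4, 1, 4, 4, 2]),
    (2422785, [0, 0, 3, 3, 1, 3, 3, 1, 4, 4, 1, 4, 0]),
    (2564625, [1, 1, 3, 0, 4, 1, 4, 0, 0, 4]),
    (2640465, [2, 0, 3, 3, 1, 4, 4, 1, 1, 1, 1, 2]),
    (2854977, [3, 1, 1, 3, 0, 3, 1, 4, 0, 0]),
    (3031301, [2, 1, 1, 1, 3, 3, 1, 1, 1, 4, 0, 3, 2]),
    (3172097, [1, 4, 4, 2, 0, 4, 1, 3, 1, 3]),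
    (3246601, [3, 1, 3, 0, 0, 3, 1, 4, 2, 0, 4]),
    (3489985, [0, 3, 0, 0, 4, 1, 4, 1, 3, 1, 3, 1]),
    (3811457, [1, 1, 1, 3, 1, 4, 0, 3, 0, 0, 4, 0, 0]),
    (4287105, [2, 0, 4, 0, 3, 1, 1, 3, 0, 4, 2]),
    (4476225, [0, 4, 4, 0, 3, 0, 0, 3, 0, 0]),
    (4563017, [1, 3, 1, 4, 4, 1, 4, 1, 4, 0, 3, 1]),
    (4900873, [3, 0, 0, 4, 1, 3, 1, 4, 1, 4, 4, 0, 3]),
    (4924673, [4, 0, 4, 1, 3, 0, 0, 3, 1, 4, 2, 0, 0]),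
    (5112513, [3, 2, 1, 4, 1, 3, 3, 1, 1, 1, 2]),
    (5286147, [3, 3, 2, 0, 3, 3, 1, 4, 0, 3, 2]),
    (5296705, [3, 2, 1, 4, 0, 0, 4, 1, 3, 1, 2]),
    (5441617, [0, 3, 0, 2, 0, 0, 4, 4, 0, 0, 3, 2, 0]),
    (5571333, [0, 4, 0, 4, 0, 3, 0, 3, 1, 1, 4, 1]),
    (6053905, [3, 1, 1, 4, 1, 3, 1, 4, 4, 2, 0]),
    (6406417, [4, 0, 0, 0, 0, 3, 0, 3, 0, 0, 3, 0, 3]),
    (6429441, [3, 0, 3, 3, 0, 3, 0, 4, 1, 4]),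
    (6447171, [2, 0, 0, 2, 1, 4, 1, 4, 1]),
    (6857221, [3, 2, 1, 3, 3, 2, 0, 0, 0, 3, 1, 1]),
    (7145475, [3, 1, 2, 1, 1, 3, 3, 1, 4, 0, 0, 0]),
    (7767041, [3, 1, 4, 0, 3, 1, 2, 0, 0, 2, 1, 3]),
    (7864649, [4, 2, 1, 1, 4, 4, 0, 0, 3, 0, 3, 2]),
    (8499969, [2, 1, 1, 1, 1, 2, 0, 3, 0, 3, 0]),
    (8505411, [4, 2, 0, 0, 0, 4, 1, 4, 1, 1, 1, 3, 2]),
    (8546577, [1, 4, 2, 1, 1, 3, 3, 1, 2, 0, 4, 2, 1]),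
    (8675909, [3, 1, 1, 2, 0, 3, 1, 3, 1, 4, 0, 4]),
    (9112069, [3, 3, 2, 0, 4, 0, 4, 4, 0, 4, 1, 3, 3, 2]),
    (9240913, [1, 3, 3, 2, 0, 4, 0, 3, 0, 0, 4]),
    (9347075, [0, 3, 0, 3, 0, 2, 1, 1, 2]),
    (9440193, [1, 1, 2, 0, 3, 1, 1, 3, 0, 3, 0, 4]),
    (9748745, [3, 3, 2, 1, 3, 3, 0, 3, 3, 1, 1, 2]),
    (9776129, [3, 2, 0, 4, 4, 0, 4, 0, 0, 4, 2]),
    (10110017, [3, 2, 1, 3, 1, 4, 0, 3, 3, 1, 3, 2]),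
    (10666625, [3, 2, 1, 3, 0, 4, 0, 3, 1, 3, 2]),
    (10881097, [2, 1, 4, 4, 0, 3, 0, 3, 0, 0, 4, 1, 2]),
    (11046145, [3, 2, 1, 1, 3, 1, 3, 3, 1, 4, 2]),
    (11100169, [3, 1, 3, 2, 1, 1, 1, 2, 0, 4, 0, 2, 0]),
    (11575377, [1, 4, 1, 2, 0, 3, 0, 4, 1, 3, 1, 1, 4, 0]),
    (11731203, [3, 2, 1, 1, 4, 1, 4, 4, 0, 3, 3, 2]),
    (12325377, [2, 0, 4, 1, 1, 3, 1, 4, 1, 1, 3, 3, 2]),
    (12747077, [3, 2, 1, 1, 1, 3, 1, 4, 1, 3, 3, 1, 2]),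
    (12880401, [4, 1, 3, 0, 4, 4, 2, 1, 3, 1, 3, 1, 3]),
    (13062145, [1, 4, 2, 0, 3, 3, 1, 2, 0, 4, 0, 0, 3, 3]),
    (13121601, [1, 4, 1, 4, 1, 2, 0, 0, 0, 0, 2]),
    (13124355, [3, 3, 0, 4, 4, 2, 1, 1, 2, 1, 1, 1, 1]),
    (13771273, [2, 0, 3, 3, 0, 0, 3, 0, 0, 0, 3, 0, 2]),
    (14254209, [4, 4, 0, 3, 2, 1, 3, 2, 1, 1, 1, 4, 1]),
    (14747201, [4, 0, 3, 1, 3, 2, 1, 1, 4, 1, 1, 4, 1]),
    (14950785, [4, 4, 2, 1, 3, 3, 0, 3, 0, 0, 4, 2]),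
    (15747077, [0, 3, 0, 0, 0, 4, 2, 0, 4, 2, 1, 3, 3])]),
  (4, 39257, [
    (39257, []),
    (57883, [1, 1, 4, 2, 1, 1, 1, 4, 4, 1, 1, 4, 1]),
    (69395, [2, 1, 1, 3, 1, 1, 1, 3, 1, 3, 3, 0, 0, 2]),
    (95313, [4, 2, 1, 3, 0, 0, 3, 0, 0, 4, 0, 2]),
    (99029, [1, 2, 0, 0, 0, 3, 2, 1, 3, 0, 4, 4, 0]),
    (140167, [2, 0, 0, 0, 4, 0, 4, 0, 3, 3, 0, 0, 2]),
    (153797, [1, 2, 1, 1, 4, 4, 1, 1, 3, 0, 0, 4]),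
    (185603, [4, 0, 0, 0, 0, 3, 0, 3, 0, 0, 3, 0, 3]),
    (210955, [4, 2, 0, 3, 3, 1, 1, 1, 4, 1, 3, 2]),
    (272595, [1, 3, 1, 4, 4, 1, 4, 1, 4, 0, 3, 1]),
    (283537, [3, 1, 1, 2, 0, 3, 1, 3, 1, 4, 0, 4]),
    (304405, [0, 4, 1, 3, 0, 3, 0, 3, 3, 0, 4, 0]),
    (346141, [1, 3, 3, 1, 1, 2, 1, 1, 4, 1, 4, 0, 2, 0]),
    (418953, [3, 0, 3, 1, 4, 1, 4, 4, 1, 4]),
    (430605, [3, 1, 4, 1, 4, 0, 0, 4, 1, 2, 0, 0]),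
    (459847, [4, 0, 3, 1, 4, 1, 2, 0, 3, 3, 0, 2, 1]),
    (530245, [3, 3, 2, 1, 3, 1, 4, 0, 0, 3, 3, 1, 2]),
    (551943, [2, 0, 0, 0, 0, 3, 3, 0, 4, 4, 1, 2]),
    (563843, [2, 0, 4, 4, 0, 3, 0, 4, 0, 0, 0, 4, 2]),
    (593097, [4, 2, 0, 4, 1, 4, 0, 3, 2, 0, 3, 0, 3, 0]),
    (622863, [3, 0, 0, 0, 4, 1, 1, 1, 4, 1, 3, 0, 4, 1]),
    (663645, [0, 0, 3, 3, 2, 1, 1, 1, 3, 3, 2, 1, 1, 3]),
    (737427, [4, 1, 4, 1, 4, 4, 0, 3, 1, 1, 3, 0]),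
    (806987, [4, 0, 4, 0, 3, 1, 3, 3, 2, 0]),
    (864389, [2, 1, 4, 1, 3, 3, 0, 0, 3, 0, 2]),
    (924689, [2, 0, 4, 0, 4, 4, 1, 3, 1, 1, 4, 1, 1, 2]),
    (1063445, [3, 3, 2, 0, 3, 3, 1, 4, 0, 3, 2]),
    (1065303, [3, 1, 1, 4, 0, 0, 3, 3, 0, 0, 2, 0]),
    (1100945, [2, 0, 0, 4, 0, 0, 4, 1, 1, 1, 1, 1, 1, 2]),
    (1122713, [3, 2, 1, 1, 4, 1, 4, 4, 0, 3, 3, 2]),
    (1182989, [2, 1, 1, 3, 1, 4, 1, 1, 1, 1, 3, 3, 2]),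
    (1212619, [3, 0, 4, 4, 1, 3, 0, 3, 2, 0, 3, 0, 2]),
    (1250945, [0, 3, 0, 2, 0, 0, 4, 4, 0, 0, 3, 2, 0]),
    (1312345, [1, 3, 0, 2, 1, 1, 2, 0, 3, 3, 0, 0]),
    (1413139, [1, 4, 4, 0, 3, 1, 1, 3, 3, 1, 2, 0, 0]),
    (1589901, [2, 1, 4, 1, 1, 4, 4, 0, 3, 0, 2]),
    (1618953, [3, 1, 1, 4, 1, 3, 1, 4, 4, 2, 0]),
    (1836419, [3, 0, 0, 2, 0, 0, 0, 4, 0, 3, 1, 3, 0]),
    (2110153, [4, 2, 1, 3, 0, 4, 4, 1, 4, 4, 2]),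
    (2115979, [4, 0, 0, 3, 1, 3, 0, 4, 1, 2, 0, 4, 1, 1]),
    (2147405, [4, 1, 3, 0, 3, 3, 0, 3, 1, 4, 4, 2, 0, 0]),
    (2183687, [4, 2, 0, 4, 1, 4, 0, 3, 0, 0, 0, 0, 2]),
    (2204803, [2, 1, 1, 1, 1, 2, 0, 3, 0, 3, 0]),
    (2229713, [1, 4, 1, 4, 1, 1, 3, 0, 4, 1, 2, 0, 4]),
    (2263063, [2, 0, 0, 4, 0, 3, 0, 3, 3, 0, 4, 4, 0, 2]),
    (2363013, [2, 0, 0, 4, 4, 1, 4, 4, 0, 4, 4, 2]),
    (2430217, [1, 3, 3, 2, 0, 4, 0, 3, 0, 0, 4]),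
    (2634003, [0, 4, 2, 1, 4, 2, 1, 1, 3, 0, 0, 2, 1]),
    (2754059, [3, 2, 1, 3, 3, 2, 0, 0, 0, 3, 1, 1]),
    (2916505, [4, 2, 1, 4, 4, 1, 2, 0, 0, 0, 3, 1, 2, 0]),
    (3152963, [2, 1, 4, 4, 0, 3, 0, 3, 0, 0, 4, 1, 2]),
    (3182981, [3, 1, 4, 0, 4, 0, 4, 4, 0, 4, 0, 0]),
    (3297305, [1, 1, 1, 3, 1, 4, 0, 3, 0, 0, 4, 0, 0]),
    (3416079, [0, 3, 0, 0, 4, 1, 4, 1, 3, 1, 3, 1]),
    (3736597, [3, 1, 1, 3, 0, 3, 1, 4, 0, 0]),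
    (4196943, [0, 4, 4, 0, 3, 0, 0, 3, 0, 0]),
    (4223245, [3, 3, 0, 4, 0, 2, 1, 1, 4, 0, 4, 4, 1]),
    (4229001, [3, 0, 4, 1, 3, 1, 1, 3, 1, 3, 0, 3, 1]),
    (4264387, [3, 1, 4, 1, 3, 0, 3, 3, 1, 1, 3, 0, 2, 0]),
    (4299781, [1, 3, 3, 1, 4, 0, 4, 2, 1, 1, 1, 2, 0]),
    (4343317, [2, 1, 3, 0, 0, 0, 4, 2, 1, 1, 4, 4, 0]),
    (4370577, [2, 1, 4, 0, 0, 0, 3, 1, 1, 4, 0, 2]),
    (4470275, [1, 1, 3, 0, 4, 1, 4, 0, 0, 4]),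
    (4505735, [3, 3, 2, 1, 3, 3, 0, 3, 3, 1, 1, 2]),
    (4587803, [2, 1, 3, 1, 1, 4, 0, 4, 4, 0, 0, 0, 2]),
    (4721045, [3, 1, 2, 1, 1, 3, 3, 1, 4, 0, 0, 0]),
    (4752467, [3, 0, 3, 0, 2, 1, 4, 1, 3, 2, 0, 4, 1]),
    (4788761, [3, 3, 1, 4, 1, 1, 1, 3, 0, 3, 3, 0]),
    (5252293, [4, 2, 1, 1, 4, 4, 0, 0, 3, 0, 3, 2]),
    (5325835, [4, 2, 0, 0, 3, 0, 4, 0, 3, 3, 1, 1, 2]),
    (5511305, [4, 0, 2, 1, 1, 2, 0, 4, 1, 3, 0, 4]),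
    (5902343, [3, 0, 3, 0, 4, 0, 3, 3, 1, 1, 4, 1, 2, 0]),
    (6302745, [2, 0, 3, 0, 3, 2, 0, 3, 1, 3, 1, 2, 0]),
    (6488205, [2, 1, 3, 3, 1, 1, 4, 0, 4, 0, 0, 3, 2]),
    (6557781, [3, 2, 1, 3, 1, 2, 0, 3, 0, 4, 2, 1, 3, 0]),
    (6837377, [3, 1, 3, 2, 1, 1, 1, 2, 0, 4, 0, 2, 0]),
    (7340691, [3, 0, 3, 3, 0, 3, 0, 4, 1, 4]),
    (8398155, [4, 2, 1, 1, 4, 0, 0, 0, 0, 3, 3, 1, 2]),
    (8412681, [2, 1, 1, 1, 1, 4, 4, 1, 4, 0, 0, 3, 0, 2]),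
    (8431757, [3, 2, 0, 4, 4, 0, 4, 0, 0, 4, 2]),
    (8471941, [1, 3, 1, 2, 1, 1, 1, 1, 1, 3, 0, 0, 2, 0]),
    (8524371, [3, 2, 1, 4, 1, 3, 3, 1, 1, 1, 2]),
    (8619033, [3, 1, 3, 2, 0, 4, 1, 1, 4, 0, 4]),
    (8657159, [3, 2, 1, 1, 3, 1, 3, 3, 1, 4, 2]),
    (8688833, [2, 0, 4, 4, 1, 3, 0, 0, 3, 0, 4, 0, 2]),
    (8716939, [2, 0, 0, 4, 1, 1, 2, 1, 1, 1, 3, 0, 0, 0]),
    (8922769, [1, 3, 3, 0, 0, 3, 2, 1, 1, 1, 4, 0, 2]),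
    (8966165, [0, 3, 0, 3, 0, 2, 1, 1, 2]),
    (9048457, [4, 1, 1, 1, 3, 0, 2, 1, 4, 0, 0, 3, 0, 0]),
    (9465987, [2, 0, 0, 4, 4, 1, 3, 1, 4, 1, 1, 3, 2]),
    (9471495, [4, 2, 1, 4, 1, 1, 3, 3, 0, 0, 3, 2]),
    (9506893, [1, 1, 2, 0, 4, 4, 0, 0, 4, 1, 3, 3, 0]),
    (9830549, [3, 2, 0, 3, 1, 1, 3, 0, 4, 0, 4, 1, 2]),
    (9963547, [2, 1, 3, 1, 1, 4, 1, 1, 4, 0, 3, 2]),
    (10486557, [1, 4, 4, 2, 0, 4, 1, 3, 1, 3]),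
    (10557585, [1, 1, 4, 4, 1, 2, 0, 0, 2, 1, 4, 0]),
    (10630149, [3, 2, 1, 3, 0, 4, 0, 3, 1, 3, 2]),
    (10765331, [4, 2, 1, 1, 3, 1, 3, 0, 0, 4, 4, 0, 2]),
    (11010247, [2, 0, 3, 3, 1, 4, 4, 1, 1, 1, 1, 2]),
    (12599513, [2, 0, 0, 2, 1, 4, 1, 4, 1]),
    (12656663, [2, 0, 0, 3, 0, 4, 4, 1, 1, 1, 1, 3, 2]),
    (12717187, [1, 4, 1, 4, 1, 2, 0, 0, 0, 0, 2]),
    (13370381, [3, 3, 0, 3, 0, 4, 1, 3, 0, 4, 2, 1, 3]),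
    (13636881, [1, 1, 2, 0, 3, 1, 1, 3, 0, 3, 0, 4]),
    (14716939, [4, 4, 2, 1, 3, 3, 0, 3, 0, 0, 4, 2])]),
  (8, 5279, [
    (5279, [])])]

open Cfsg.Agent.Lib.Helper1 in
set_option maxRecDepth 1000000 in
theorem cls_ok : cls.all (fun c => certOK ([O5] : List ℕ) ([0, 5] : List ℕ) c.2.1 c.2.2) = true := by decide +kernel

open Cfsg.Agent.Lib.Helper1 in
set_option maxRecDepth 1000000 in
theorem cls_keys : ((allWords gbasis).filter P).all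
    (fun n => (cls.map (fun c => c.1)).contains (inv n)) = true := by decide +kernel

open Cfsg.Agent.Lib.Helper1 in
set_option maxRecDepth 1000000 in
theorem cls_lists : cls.all (fun c => c.2.2.map Prod.fst
    == (allWords gbasis).filter (fun n => P n && inv n == c.1)) = true := by decide +kernel

open Cfsg.Agent.Lib.Helper1 in
open scoped Pointwise in
theorem cls_trans (n n' : ℕ) (hn : n ∈ allWords gbasis) (hP : P n = true)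
    (hn' : n' ∈ allWords gbasis) (hP' : P n' = true) (hinv : inv n = inv n') :
    ∃ g ∈ Cfsg.M24, g • S n = S n' ∧ (∀ f ∈ ([O5] : List ℕ), g • S f = S f)
      ∧ (∀ i ∈ ([0, 5] : List ℕ), g (pt i) = pt i) :=
  classes_trans' P inv ([O5] : List ℕ) ([0, 5] : List ℕ) cls cls_ok cls_keys cls_lists n n' hn hP hn' hP' hinv

open Cfsg.Agent.Lib.Helper1 in
set_option maxRecDepth 1000000 in
theorem cnt2 : ((allWords gbasis).filter (fun n => P n && inv n == 2)).length = 70 := by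
  decide +kernel

open Cfsg.Agent.Lib.Helper1 in
set_option maxRecDepth 1000000 in
theorem cnt4 : ((allWords gbasis).filter (fun n => P n && inv n == 4)).length = 105 := by
  decide +kernel

open Cfsg.Agent.Lib.Helper1 in
theorem base_mem (b : Finset Cfsg.GolayPt) :
    (b ∈ Cfsg.octads ∧ pt 0 ∈ b ∧ pt 5 ∉ b) ↔ ∃ n ∈ allWords gbasis, P n = true ∧ b = S n := by
  constructor
  · rintro ⟨hb, hpts⟩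
    obtain ⟨n, hn, h8, rfl⟩ := (mem_octads_iff b).1 hb
    refine ⟨n, hn, ?_, rfl⟩
    simp only [pt_mem_S _ _ (show (0 : ℕ) < 24 by norm_num), pt_mem_S _ _ (show (5 : ℕ) < 24 by norm_num)] at hpts
    simp [P, h8, hpts]
  · rintro ⟨n, hn, hP, rfl⟩
    simp only [P, Bool.and_eq_true, beq_iff_eq, Bool.not_eq_true'] at hP
    refine ⟨(mem_octads_iff _).2 ⟨n, hn, hP.1.1, rfl⟩, ?_⟩
    simp only [pt_mem_S _ _ (show (0 : ℕ) < 24 by norm_num), pt_mem_S _ _ (show (5 : ℕ) < 24 by norm_num)]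
    simp [hP]

open Cfsg.Agent.Lib.Helper1 in
theorem base_set (k : ℕ) :
    {o' : Finset Cfsg.GolayPt | (o' ∈ Cfsg.octads ∧ pt 0 ∈ o' ∧ pt 5 ∉ o') ∧ (S O5 ∩ o').card = k}
    = {b : Finset Cfsg.GolayPt | ∃ n ∈ allWords gbasis, (P n && inv n == k) = true ∧ b = S n} := by
  ext b
  simp only [Set.mem_setOf_eq]
  constructor
  · rintro ⟨h1, h3⟩
    obtain ⟨n, hn, hP, rfl⟩ := (base_mem b).1 h1
    rw [S_inter, S_card] at h3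
    exact ⟨n, hn, by simp [hP, inv, h3], rfl⟩
  · rintro ⟨n, hn, hP, rfl⟩
    simp only [Bool.and_eq_true, beq_iff_eq] at hP
    refine ⟨(base_mem (S n)).2 ⟨n, hn, hP.1, rfl⟩, ?_⟩
    rw [S_inter, S_card]; exact hP.2

open Cfsg.Agent.Lib.Helper1 in
open scoped Pointwise in
theorem transport (g : Equiv.Perm Cfsg.GolayPt) (hg : g ∈ Cfsg.M24) (k : ℕ) :
    {o' : Finset Cfsg.GolayPt | (o' ∈ Cfsg.octads ∧ g (pt 0) ∈ o' ∧ g (pt 5) ∉ o') ∧ (g • S O5 ∩ o').card = k}.ncard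
      = {o' : Finset Cfsg.GolayPt | (o' ∈ Cfsg.octads ∧ pt 0 ∈ o' ∧ pt 5 ∉ o') ∧ (S O5 ∩ o').card = k}.ncard := by
  apply ncard_transport g
  intro b
  simp only [Set.mem_setOf_eq]
  rw [smul_mem_octads_iff g⁻¹ (Cfsg.M24.inv_mem hg), card_smul_inter]
  simp only [perm_mem_inv_smul]

open Cfsg.Agent.Lib.Helper1 in
open scoped Pointwise in
theorem base_trans (o' o'' : Finset Cfsg.GolayPt) (ho' : o' ∈ Cfsg.octads ∧ pt 0 ∈ o' ∧ pt 5 ∉ o')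
    (ho'' : o'' ∈ Cfsg.octads ∧ pt 0 ∈ o'' ∧ pt 5 ∉ o'')
    (h : (S O5 ∩ o').card = (S O5 ∩ o'').card) :
    ∃ g ∈ Cfsg.M24, g • S O5 = S O5 ∧ g • o' = o'' ∧ ∀ i ∈ ([0, 5] : List ℕ), g (pt i) = pt i := by
  obtain ⟨n, hn, hP, rfl⟩ := (base_mem o').1 ho'
  obtain ⟨n', hn', hP', rfl⟩ := (base_mem o'').1 ho''
  rw [S_inter, S_card, S_inter, S_card] at h
  obtain ⟨g, hg, h1, h2, h3⟩ := cls_trans n n' hn hP hn' hP' h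
  exact ⟨g, hg, h2 O5 (by simp), h1, h3⟩

open Cfsg.Agent.Lib.Helper1 in
open scoped Pointwise in
/-- The transitivity statement transported to the image configuration under `g`. -/
theorem gen_trans (g : Equiv.Perm Cfsg.GolayPt) (hg : g ∈ Cfsg.M24) (o' o'' : Finset Cfsg.GolayPt)
    (ho' : o' ∈ Cfsg.octads ∧ g (pt 0) ∈ o' ∧ g (pt 5) ∉ o') (ho'' : o'' ∈ Cfsg.octads ∧ g (pt 0) ∈ o'' ∧ g (pt 5) ∉ o'')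
    (h : (g • S O5 ∩ o').card = (g • S O5 ∩ o'').card) :
    ∃ k ∈ Cfsg.M24, k • (g • S O5) = g • S O5 ∧ k • o' = o''
      ∧ ∀ i ∈ ([0, 5] : List ℕ), k (g (pt i)) = g (pt i) := by
  have hinv := Cfsg.M24.inv_mem hg
  rw [card_smul_inter, card_smul_inter] at h
  have h1 : g⁻¹ • o' ∈ Cfsg.octads ∧ pt 0 ∈ g⁻¹ • o' ∧ pt 5 ∉ g⁻¹ • o' := by
    rw [smul_mem_octads_iff g⁻¹ hinv]
    simp only [perm_mem_inv_smul]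
    exact ho'
  have h2 : g⁻¹ • o'' ∈ Cfsg.octads ∧ pt 0 ∈ g⁻¹ • o'' ∧ pt 5 ∉ g⁻¹ • o'' := by
    rw [smul_mem_octads_iff g⁻¹ hinv]
    simp only [perm_mem_inv_smul]
    exact ho''
  obtain ⟨k, hk, k1, k2, k3⟩ := base_trans (g⁻¹ • o') (g⁻¹ • o'') h1 h2 h
  refine ⟨g * k * g⁻¹, Cfsg.M24.mul_mem (Cfsg.M24.mul_mem hg hk) hinv, ?_, ?_, ?_⟩
  · rw [mul_smul, mul_smul, inv_smul_smul, k1]
  · rw [mul_smul, mul_smul, k2, smul_inv_smul]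
  · intro i hi
    simp [k3 i hi]

open Cfsg.Agent.Lib.Helper1 in
set_option maxRecDepth 1000000 in
theorem cntAll : ((allWords gbasis).filter P).length = 176 := by decide +kernel

theorem card_pt : Nat.card Cfsg.GolayPt = 24 := by
  rw [Nat.card_eq_fintype_card]; decide

open Cfsg.Agent.Lib.Helper1 in
theorem two_pt_reach (p q : Cfsg.GolayPt) (hpq : p ≠ q) :
    ∃ g ∈ Cfsg.M24, g (pt 0) = p ∧ g (pt 5) = q := by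
  haveI h5 : MulAction.IsMultiplyPretransitive ↥Cfsg.M24 Cfsg.GolayPt 5 := M24_5trans
  have h2 : MulAction.IsMultiplyPretransitive ↥Cfsg.M24 Cfsg.GolayPt 2 :=
    MulAction.isMultiplyPretransitive_of_le (n := 5) (by norm_num) (by rw [card_pt]; norm_num)
  rw [MulAction.is_two_pretransitive_iff] at h2
  have hne : pt 0 ≠ pt 5 := fun h => by
    have := pt_inj (by norm_num) (by norm_num) h
    omega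
  obtain ⟨g, h1, h2⟩ := h2 hne hpq
  exact ⟨g.1, g.2, h1, h2⟩

open Cfsg.Agent.Lib.Helper1 in
open scoped Pointwise in
theorem countA (g : Equiv.Perm Cfsg.GolayPt) (hg : g ∈ Cfsg.M24) :
    {x : Finset Cfsg.GolayPt | (x ∈ Cfsg.octads ∧ g (pt 0) ∈ x ∧ g (pt 5) ∉ x)}.ncard = 176 := by
  have h1 : {x : Finset Cfsg.GolayPt | (x ∈ Cfsg.octads ∧ g (pt 0) ∈ x ∧ g (pt 5) ∉ x)}.ncard
      = {x : Finset Cfsg.GolayPt | (x ∈ Cfsg.octads ∧ pt 0 ∈ x ∧ pt 5 ∉ x)}.ncard := by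
    apply ncard_transport g
    intro b
    simp only [Set.mem_setOf_eq]
    rw [smul_mem_octads_iff g⁻¹ (Cfsg.M24.inv_mem hg)]
    simp only [perm_mem_inv_smul]
  have h2 : {x : Finset Cfsg.GolayPt | (x ∈ Cfsg.octads ∧ pt 0 ∈ x ∧ pt 5 ∉ x)}
      = {b : Finset Cfsg.GolayPt | ∃ n ∈ allWords gbasis, P n = true ∧ b = S n} := by
    ext b
    exact base_mem b
  rw [h1, h2, ncard_filter]
  exact cntAll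

/-- The two-point stabiliser acts on the 176 octads through the first point avoiding the second with rank 3 and subdegrees 1, 70, 105 (intersections 8, 2, 4). -/
theorem result (p q : Cfsg.GolayPt) (hpq : p ≠ q) : {x : Finset Cfsg.GolayPt | (x ∈ Cfsg.octads ∧ p ∈ x ∧ q ∉ x)}.ncard = 176 ∧ (∀ o o' : Finset Cfsg.GolayPt, (o ∈ Cfsg.octads ∧ p ∈ o ∧ q ∉ o) → (o' ∈ Cfsg.octads ∧ p ∈ o' ∧ q ∉ o') → ∃ g : Equiv.Perm Cfsg.GolayPt, g ∈ Cfsg.M24 ∧ g p = p ∧ g q = q ∧ g • o = o') ∧ ∀ o : Finset Cfsg.GolayPt, (o ∈ Cfsg.octads ∧ p ∈ o ∧ q ∉ o) → {x : Finset Cfsg.GolayPt | (x ∈ Cfsg.octads ∧ p ∈ x ∧ q ∉ x) ∧ (o ∩ x).card = 2}.ncard = 70 ∧ {x : Finset Cfsg.GolayPt | (x ∈ Cfsg.octads ∧ p ∈ x ∧ q ∉ x) ∧ (o ∩ x).card = 4}.ncard = 105 ∧ ∀ o' o'' : Finset Cfsg.GolayPt, (o' ∈ Cfsg.octads ∧ p ∈ o' ∧ q ∉ o')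 → (o'' ∈ Cfsg.octads ∧ p ∈ o'' ∧ q ∉ o'') → (o ∩ o').card = (o ∩ o'').card → ∃ g : Equiv.Perm Cfsg.GolayPt, g ∈ Cfsg.M24 ∧ g p = p ∧ g q = q ∧ g • o = o ∧ g • o' = o'' := by
  refine ⟨?_, ?_, ?_⟩
  · obtain ⟨g, hg, rfl, rfl⟩ := two_pt_reach p q hpq
    exact countA g hg
  · rintro o o' ⟨ho, hp, hq⟩ ⟨ho', hp', hq'⟩
    obtain ⟨g₁, hg₁, h1, h2, h3⟩ := Cfsg.Agent.Lib.Helper1.octad_pt_npt_reach o ho p q hp hq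
    obtain ⟨g₂, hg₂, h1', h2', h3'⟩ := Cfsg.Agent.Lib.Helper1.octad_pt_npt_reach o' ho' p q hp' hq'
    refine ⟨g₂ * g₁⁻¹, Cfsg.M24.mul_mem hg₂ (Cfsg.M24.inv_mem hg₁), ?_, ?_, ?_⟩
    · have e1 : g₁⁻¹ p = Cfsg.Agent.Lib.Helper1.pt 0 := by
        rw [Equiv.Perm.inv_eq_iff_eq, h2]
      rw [Equiv.Perm.mul_apply, e1, h2']
    · have e1 : g₁⁻¹ q = Cfsg.Agent.Lib.Helper1.pt 5 := by
        rw [Equiv.Perm.inv_eq_iff_eq, h3]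
      rw [Equiv.Perm.mul_apply, e1, h3']
    · rw [← h1, mul_smul, inv_smul_smul, h1']
  · rintro o ⟨ho, hp, hq⟩
    obtain ⟨g, hg, rfl, rfl, rfl⟩ := Cfsg.Agent.Lib.Helper1.octad_pt_npt_reach o ho p q hp hq
    refine ⟨?_, ?_, ?_⟩
    · rw [transport g hg 2, base_set 2, Cfsg.Agent.Lib.Helper1.ncard_filter]
      exact cnt2
    · rw [transport g hg 4, base_set 4, Cfsg.Agent.Lib.Helper1.ncard_filter]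
      exact cnt4
    · intro o' o'' ho' ho'' hcard
      obtain ⟨k, hk, k1, k2, k3⟩ := gen_trans g hg o' o'' ho' ho'' hcard
      exact ⟨k, hk, k3 0 (by simp), k3 5 (by simp), k1, k2⟩

end Cfsg.Agent.S1605
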