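import Cfsg.Statements.S1607
import Mathlib
import Cfsg.Agent.Lib.Helper1.M24Base

set_option autoImplicit false
open scoped Pointwise
open Cfsg

namespace Cfsg.Agent.S1607


open Cfsg.Agent.Lib.Helper1 in
/-- The property cutting out the relevant enumerated words. -/
def P (n : ℕ) : Bool := pcI 24 n == 8 && n.testBit 0

open Cfsg.Agent.Lib.Helper1 in
/-- The invariant separating the classes. -/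
def inv (n : ℕ) : ℕ := pcI 24 (O5 &&& n)

set_option maxRecDepth 1000000 in
/-- Class certificates: (invariant value, base mask, words). -/
def cls : List (ℕ × ℕ × List (ℕ × List ℕ)) := [
  (2, 52005, [
    (52005, []),
    (175681, [0, 4, 1, 1, 3, 0, 3, 3, 0, 4, 1]),
    (213833, [2, 1, 1, 3, 3, 0, 0, 4, 0, 4, 0, 2]),
    (334433, [1, 3, 1, 4, 1, 3, 1, 4, 4, 0, 0, 0]),
    (352547, [0, 3, 2, 1, 3, 0, 3, 0, 2, 1, 1]),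
    (442481, [4, 0, 4, 0, 3, 1, 3, 3, 2, 0]),
    (493953, [3, 2, 0, 0, 0, 3, 3, 1, 1, 1, 2]),
    (582081, [1, 3, 2, 1, 4, 1, 4, 4, 2, 0]),
    (632881, [0, 3, 1, 1, 4, 1, 3, 0, 4, 0, 0]),
    (657763, [0, 0, 0, 0, 3, 1, 2, 0, 3, 1, 1]),
    (684577, [2, 0, 4, 1, 1, 3, 1, 1, 2]),
    (797449, [0, 0, 4, 1, 2, 0, 4, 1, 1, 1, 1]),
    (902657, [1, 4, 0, 4, 1, 3, 1, 2, 0, 0, 3, 1]),
    (1075305, [3, 1, 4, 1, 1, 3, 3, 1, 3, 0, 0]),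
    (1148257, [4, 1, 1, 1, 3, 1, 3, 3, 0, 3]),
    (1302533, [1, 4, 0, 3, 0, 3, 1, 3, 3, 1]),
    (1352353, [1, 1, 4, 0, 4, 4, 1, 1, 1]),
    (1454401, [3, 3, 1, 4, 4, 1, 4, 0, 0, 4, 1]),
    (1460739, [4, 0, 4, 4, 1, 1, 1, 1, 1, 1]),
    (1647171, [4, 0, 0, 0, 3, 0, 3, 1, 1, 3, 3]),
    (1661185, [0, 0, 4, 1, 4, 0, 4, 2, 0]),
    (1737489, [4, 2, 0, 0, 0, 0, 3, 3, 0, 3, 2]),
    (1869893, [0, 4, 4, 1, 4, 4, 1, 3, 0, 0, 0]),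
    (2031657, [3, 2, 1, 4, 1, 1, 1, 1, 4, 2]),
    (2173253, [2, 0, 0, 4, 0, 0, 3, 0, 3, 2]),
    (2269481, [0, 0, 0, 0, 0, 0, 3, 3, 1, 3]),
    (2313249, [0, 0, 2, 1, 1, 3, 1, 3, 1, 2, 1]),
    (2392899, [0, 3, 1, 3, 1, 1, 4, 0, 2, 0]),
    (2422785, [3, 2, 1, 4, 1, 3, 3, 1, 3, 2]),
    (2564625, [4, 4, 2, 0, 3, 3, 1, 3, 1, 2]),
    (2640465, [4, 2, 1, 1, 4, 1, 1, 2]),
    (2687905, [0, 0, 0, 3, 3, 1, 3, 0, 0]),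
    (2854977, [4, 2, 0, 4, 4, 1, 1, 1, 4, 2]),
    (2892897, [4, 4, 0, 0, 0, 3, 1, 1, 3]),
    (3031301, [4, 1, 3, 3, 1, 1, 1, 4, 1, 1]),
    (3172097, [2, 0, 0, 3, 0, 4, 1, 1, 3, 3, 2]),
    (3246601, [0, 3, 1, 4, 4, 1, 4, 0, 0, 3, 1]),
    (3277413, [3, 3, 2, 1, 4, 0, 4, 4, 2]),
    (3410225, [0, 2, 1, 4, 1, 3, 2, 1, 1, 3, 0]),
    (3489985, [3, 1, 3, 0, 4, 4, 2, 0, 0, 4, 0]),
    (3719203, [3, 1, 1, 3, 0, 3, 1, 4, 0, 0]),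
    (3811457, [1, 4, 0, 0, 4, 1, 3, 1]),
    (4203377, [0, 4, 4, 0, 3, 0, 0, 3, 0, 0]),
    (4287105, [3, 0, 3, 2, 0, 3, 0, 0, 4, 1, 1]),
    (4424227, [0, 4, 2, 1, 3, 0, 0, 4, 2, 1, 1]),
    (4476225, [3, 1, 4, 1, 1, 1, 1, 1]),
    (4563017, [2, 0, 3, 1, 4, 1, 4, 0, 4, 2]),
    (4597797, [3, 0, 3, 1, 4, 1, 4, 4, 1, 4]),
    (4800613, [3, 1, 4, 0, 3, 3, 1, 3]),
    (4900873, [3, 2, 0, 3, 3, 0, 0, 3, 0, 0, 0, 2]),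
    (4924673, [4, 0, 0, 4, 1, 1, 1, 3, 3]),
    (5017889, [0, 0, 3, 1, 3, 1, 2, 0, 3, 1]),
    (5112513, [4, 0, 0, 0, 0, 3, 0, 3, 0, 4, 1]),
    (5286147, [2, 0, 4, 1, 1, 3, 3, 2]),
    (5296705, [3, 2, 0, 4, 4, 1, 1, 3, 0, 2]),
    (5390753, [4, 1, 4, 2, 0, 3, 0, 2, 1, 4, 0, 0]),
    (5441617, [0, 2, 1, 1, 2, 0, 3, 1, 4]),
    (5571333, [4, 1, 4, 1, 4, 1]),
    (5770785, [4, 4, 2, 0, 0, 3, 1, 2]),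
    (6053905, [4, 2, 1, 3, 0, 3, 1, 4, 4, 0, 2]),
    (6326497, [0, 3, 3, 1, 4, 1, 1, 3, 3, 1, 1]),
    (6406417, [3, 0, 2, 1, 1, 2, 0, 3, 1]),
    (6429441, [2, 0, 3, 1, 4, 0, 4, 4, 0, 2]),
    (6447171, [3, 3, 2, 1, 3, 0, 3, 3, 1, 1, 2]),
    (6570537, [0, 0, 0, 0, 0, 3, 0, 4]),
    (6857221, [0, 0, 3, 2, 1, 1, 1, 2, 1, 1]),
    (7145475, [3, 0, 4, 1, 2, 0, 0, 2, 1]),
    (7417889, [0, 4, 0, 3, 1, 1, 3, 0]),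
    (7767041, [2, 1, 1, 3, 1, 3, 1, 3, 3, 1, 2]),
    (7864649, [4, 0, 3, 3, 0, 4, 4, 0, 4, 0, 0]),
    (8499969, [3, 1, 4, 0, 3, 3, 2, 0, 0, 2, 0]),
    (8505411, [2, 0, 0, 3, 0, 0, 3, 2]),
    (8546577, [1, 1, 2, 0, 3, 3, 0, 0, 0, 3, 0]),
    (8593633, [1, 3, 3, 1, 3, 0, 3, 2, 1, 3, 0]),
    (8675909, [4, 2, 1, 4, 0, 4, 4, 0, 3, 1, 2]),
    (8783649, [0, 4, 1, 2, 0, 4, 0, 4, 1, 1]),
    (8946281, [2, 0, 3, 3, 1, 4, 4, 1, 1, 1, 1, 2]),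
    (9112069, [3, 3, 2, 1, 3, 0, 4, 4, 2]),
    (9193633, [0, 3, 0, 3, 0, 2, 1, 1, 2]),
    (9240913, [3, 2, 1, 3, 0, 0, 4, 4, 0, 2]),
    (9347075, [3, 2, 0, 3, 3, 1, 1, 1, 3, 0, 0, 2]),
    (9440193, [1, 1, 1, 1, 1, 4, 1, 2, 0, 4]),
    (9519665, [4, 2, 0, 4, 4, 0, 3, 0, 4, 2]),
    (9607201, [4, 0, 4, 1, 2, 0, 0, 0, 0, 2, 0]),
    (9748745, [2, 0, 0, 4, 0, 0, 3, 1, 2]),
    (9776129, [2, 1, 3, 3, 0, 4, 1, 4, 0, 3, 2]),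
    (9969957, [2, 1, 3, 3, 0, 3, 3, 1, 4, 4, 2]),
    (10110017, [3, 2, 0, 0, 3, 0, 4, 0, 4, 2]),
    (10496547, [1, 3, 2, 1, 3, 0, 3, 1, 1]),
    (10506593, [2, 0, 0, 2, 1, 4, 1, 4, 1]),
    (10666625, [2, 1, 3, 1, 1, 4, 1, 1, 4, 1, 2]),
    (10846245, [3, 3, 2, 1, 4, 4, 0, 4, 4, 2]),
    (10881097, [2, 0, 4, 1, 3, 3, 1, 3, 1, 2]),
    (11046145, [2, 1, 4, 0, 0, 3, 3, 1, 4, 2]),
    (11100169, [3, 3, 2, 0, 3, 3, 1, 4, 1, 2]),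
    (11575377, [4, 0, 0, 3, 2, 0, 3, 2, 1, 1]),
    (11731203, [0, 4, 2, 1, 3, 1, 2, 1, 1]),
    (12325377, [2, 0, 0, 3, 2]),
    (12641313, [0, 0, 2, 1, 4, 1, 4, 0, 4, 2, 1]),
    (12650793, [2, 1, 4, 4, 0, 4, 1, 4, 2]),
    (12747077, [4, 2, 1, 3, 1, 4, 0, 4, 4, 0, 2]),
    (12880401, [0, 4, 1, 2, 0, 0, 2, 1, 4]),
    (13062145, [0, 2, 1, 4, 2, 0, 3, 2, 1]),
    (13121601, [4, 2, 1, 4, 1, 1, 3, 3, 2]),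
    (13124355, [0, 3, 1, 4, 2, 0, 4, 2, 0, 0, 0]),
    (13771273, [4, 0, 0, 0, 0, 3, 2, 1, 4, 0, 0, 0]),
    (13893731, [3, 2, 1, 3, 0, 3, 0, 4, 1, 2]),
    (14254209, [4, 2, 1, 1, 2]),
    (14747201, [2, 0, 4, 4, 1, 1, 1, 1, 3, 2]),
    (14950785, [4, 4, 2, 0, 0, 3, 0, 3, 2]),
    (15335473, [4, 0, 2, 1, 1, 2, 0, 3, 1, 3]),
    (15747077, [4, 2, 1, 3, 2, 0, 0, 4, 0, 4, 1])]),
  (4, 15777, [
    (15777, []),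
    (18147, [0, 4, 4, 0, 3, 0, 0, 3, 0, 0]),
    (39257, [0, 0, 4, 4, 1, 1, 3, 2, 1, 4, 0]),
    (45159, [0, 3, 1, 1, 4, 1, 3, 0, 4, 0, 0]),
    (57883, [4, 4, 2, 0, 0, 0, 4, 4, 0, 3, 1, 2]),
    (69395, [0, 0, 4, 1, 2, 0, 4, 1, 1, 1, 1]),
    (75309, [0, 4, 0, 3, 1, 1, 3, 0]),
    (95313, [2, 0, 0, 3, 0, 0, 3, 2]),
    (99029, [3, 2, 0, 4, 4, 1, 1, 3, 0, 2]),
    (118953, [3, 3, 2, 1, 4, 4, 0, 4, 4, 2]),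
    (133817, [4, 0, 4, 4, 1, 1, 1, 1, 1, 1]),
    (140167, [3, 1, 3, 0, 4, 0, 3, 3, 0, 3, 3, 0]),
    (153797, [4, 0, 0, 3, 0, 0, 0, 0, 0, 4, 4]),
    (185603, [4, 2, 1, 4, 1, 1, 3, 1, 1, 2]),
    (201013, [1, 4, 4, 0, 4, 1, 4, 0, 0, 0, 2, 0]),
    (210955, [3, 3, 2, 1, 3, 0, 3, 0, 0, 3, 1, 2]),
    (262637, [0, 4, 1, 3, 0, 3, 0, 3, 3, 0, 4, 0]),
    (272595, [4, 1, 3, 1, 4, 2, 0, 0, 0, 3, 0, 0]),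
    (283537, [4, 1, 1, 1, 3, 1, 3, 1, 4, 1]),
    (298027, [3, 2, 0, 4, 4, 0, 4, 0, 0, 4, 2]),
    (304405, [4, 4, 2, 0, 0, 3, 0, 3, 2]),
    (346141, [3, 1, 4, 1, 3, 1, 2, 0, 3, 1, 1]),
    (418953, [0, 0, 0, 3, 1, 1, 1, 4, 1, 4, 2, 0]),
    (430605, [1, 1, 4, 0, 4, 4, 1, 1, 1]),
    (459847, [3, 2, 1, 3, 0, 0, 4, 4, 0, 2]),
    (530245, [3, 0, 4, 1, 1, 2, 0, 4, 2, 1, 1]),
    (542009, [0, 0, 4, 1, 4, 0, 4, 2, 0]),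
    (551943, [0, 0, 4, 4, 0, 0, 3, 0, 4, 4, 1]),
    (563843, [4, 4, 2, 0, 0, 3, 1, 2]),
    (593097, [2, 0, 3, 2, 0, 0, 4, 0, 4, 1]),
    (622863, [4, 0, 0, 4, 1, 1, 1, 3, 3]),
    (663645, [0, 0, 4, 1, 2, 0, 4, 0, 3, 0, 4]),
    (689317, [0, 0, 4, 1, 4, 4, 1, 4, 4, 2, 0]),
    (737427, [3, 2, 1, 4, 4, 1, 4, 1, 3, 0, 2]),
    (786999, [4, 4, 0, 0, 0, 3, 1, 1, 3]),
    (806987, [3, 1, 4, 1, 1, 1, 1, 1]),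
    (864389, [4, 4, 2, 1, 4, 1, 4, 0, 0, 4, 2]),
    (924689, [0, 4, 0, 4, 0, 0, 4, 4, 1, 2, 0]),
    (1053483, [3, 0, 3, 3, 0, 3, 0, 4, 1, 4]),
    (1063445, [1, 3, 2, 1, 3, 0, 3, 1, 1]),
    (1065303, [0, 0, 3, 1, 3, 0, 2, 1, 4]),
    (1100945, [0, 4, 4, 1, 4, 4, 1, 3, 0, 0, 0]),
    (1116327, [4, 2, 0, 4, 4, 0, 3, 0, 4, 2]),
    (1122713, [3, 1, 1, 4, 1, 4, 4, 0, 3, 1, 1]),
    (1182989, [1, 4, 0, 0, 4, 1, 3, 1]),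
    (1188915, [3, 0, 3, 1, 4, 1, 4, 4, 1, 4]),
    (1212619, [0, 4, 4, 0, 4, 1, 4, 1, 3, 0]),
    (1250945, [4, 1, 4, 1, 4, 1]),
    (1312345, [4, 1, 1, 1, 1, 3, 0, 3, 3, 2, 0, 4]),
    (1332261, [3, 2, 1, 4, 1, 1, 1, 1, 4, 2]),
    (1413139, [0, 0, 2, 0, 0, 0, 4, 2, 1, 1]),
    (1577201, [3, 1, 4, 0, 3, 3, 1, 3]),
    (1589901, [0, 3, 1, 1, 4, 2, 0, 4, 4, 1, 1]),
    (1618953, [2, 0, 4, 0, 4, 4, 1, 3, 3, 2]),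
    (1836419, [4, 0, 4, 4, 1, 3, 0, 4]),
    (2110153, [4, 2, 1, 1, 4, 1, 1, 2]),
    (2115979, [3, 0, 2, 1, 3, 0, 0, 0, 0, 3, 3]),
    (2121909, [3, 2, 1, 3, 0, 4, 0, 3, 1, 3, 2]),
    (2135601, [3, 2, 0, 3, 1, 3, 3, 0, 2]),
    (2147405, [4, 4, 2, 0, 0, 3, 1, 4, 1, 1, 2]),
    (2162811, [1, 3, 3, 2, 0, 4, 0, 3, 0, 0, 4]),
    (2183687, [0, 0, 0, 0, 0, 3, 0, 4]),
    (2204803, [3, 0, 2, 1, 1, 2, 0, 3, 1]),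
    (2229713, [4, 2, 0, 0, 3, 0, 3, 0, 4, 4, 2]),
    (2263063, [4, 2, 1, 1, 4, 2, 1, 4, 1, 4, 1]),
    (2363013, [4, 4, 2, 0, 3, 3, 1, 3, 1, 2]),
    (2430217, [1, 1, 1, 4, 2, 1, 1, 4, 2, 0, 0]),
    (2494627, [0, 0, 2, 1, 1, 3, 1, 3, 1, 2, 1]),
    (2627629, [1, 3, 3, 2, 0, 3, 0, 4, 2, 0]),
    (2634003, [1, 3, 2, 1, 4, 1, 4, 4, 2, 0]),
    (2754059, [2, 0, 4, 1, 1, 3, 1, 1, 2]),
    (2916505, [4, 2, 1, 4, 4, 1, 1, 1, 1, 3, 2]),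
    (3152963, [0, 2, 1, 1, 2, 0, 3, 1, 4]),
    (3182981, [2, 0, 4, 1, 1, 3, 3, 2]),
    (3297305, [1, 4, 0, 3, 0, 3, 1, 3, 3, 1]),
    (3416079, [2, 0, 0, 3, 2]),
    (3736597, [0, 4, 2, 1, 3, 1, 2, 1, 1]),
    (4196943, [1, 1, 1, 3, 0, 3, 1, 1, 2, 0, 3, 0]),
    (4216883, [0, 0, 2, 1, 4, 1, 4, 0, 4, 2, 1]),
    (4223245, [4, 2, 1, 3, 0, 3, 1, 4, 4, 0, 2]),
    (4229001, [1, 4, 0, 4, 2, 0, 3, 2, 0, 3, 0]),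
    (4264387, [4, 0, 4, 1, 2, 0, 0, 2, 1, 3]),
    (4299781, [3, 1, 2, 0, 3, 0, 0, 0, 0, 0]),
    (4330601, [1, 4, 1, 4, 1, 2, 0, 0, 0, 0, 2]),
    (4343317, [0, 3, 1, 4, 2, 0, 4, 2, 0, 0, 0]),
    (4370577, [3, 2, 1, 3, 2, 1, 4, 0, 3, 3, 2, 0]),
    (4470275, [0, 4, 1, 2, 0, 0, 2, 1, 4]),
    (4505735, [3, 0, 4, 1, 4, 4, 1, 4, 1, 3, 2, 0]),
    (4523185, [1, 1, 3, 0, 4, 1, 4, 0, 0, 4]),
    (4587803, [3, 3, 2, 1, 1, 3, 0, 4, 4, 1, 2]),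
    (4721045, [4, 2, 1, 4, 1, 1, 3, 3, 2]),
    (4726955, [2, 0, 0, 3, 0, 0, 3, 0, 0, 3, 2]),
    (4752467, [2, 0, 3, 1, 4, 1, 4, 0, 4, 2]),
    (4788761, [1, 4, 0, 4, 1, 3, 1, 2, 0, 0, 3, 1]),
    (5252293, [3, 1, 3, 0, 2, 0, 0, 4, 1, 4, 0]),
    (5275709, [0, 0, 3, 1, 3, 1, 2, 0, 3, 1]),
    (5325835, [0, 3, 1, 3, 1, 1, 4, 2, 0, 3, 2]),
    (5511305, [2, 0, 3, 3, 1, 4, 4, 1, 1, 3, 2]),
    (5902343, [3, 2, 0, 0, 3, 0, 4, 0, 4, 2]),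
    (6292775, [2, 1, 3, 3, 0, 4, 1, 4, 1, 2]),
    (6302745, [2, 0, 4, 0, 4, 4, 0, 3, 1, 2]),
    (6488205, [4, 0, 4, 2, 1, 3, 1, 1, 1, 3, 1]),
    (6557781, [4, 2, 0, 0, 0, 0, 3, 3, 1, 2]),
    (6837377, [3, 3, 1, 4, 1, 4, 1, 3, 3]),
    (7340691, [4, 4, 1, 3, 3, 1, 1, 3, 3, 0]),
    (8391797, [4, 0, 4, 1, 2, 0, 0, 0, 0, 2, 0]),
    (8398155, [3, 1, 1, 2, 0, 4, 4, 0, 3, 3, 0]),
    (8412681, [1, 1, 4, 2, 0, 0, 2, 0, 0, 0, 0]),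
    (8421811, [3, 1, 3, 2, 0, 4, 1, 1, 4, 0, 4]),
    (8431757, [0, 4, 1, 4, 0, 4, 1, 4, 2, 1, 3, 0]),
    (8471941, [2, 1, 4, 4, 0, 4, 1, 4, 2]),
    (8524371, [1, 1, 1, 3, 2, 1, 3, 2, 0, 4, 1]),
    (8536111, [2, 0, 0, 2, 1, 4, 1, 4, 1]),
    (8619033, [2, 0, 4, 4, 0, 0, 3, 1, 3, 0, 2]),
    (8657159, [2, 0, 4, 1, 3, 3, 1, 3, 1, 2]),
    (8663097, [0, 3, 1, 4, 2, 1, 3, 1, 4, 0, 3, 2, 0]),
    (8688833, [4, 1, 3, 1, 1, 4, 1, 2, 1, 1, 4, 0]),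
    (8716939, [3, 3, 2, 1, 3, 0, 4, 4, 2]),
    (8922769, [4, 0, 3, 1, 1, 1, 1, 2, 0, 0, 0, 2]),
    (8966165, [3, 2, 1, 1, 3, 3, 1, 1, 4, 0, 2]),
    (8983587, [2, 0, 4, 1, 4, 4, 1, 1, 3, 0, 4, 2]),
    (9048457, [3, 2, 0, 0, 0, 0, 3, 0, 4, 2]),
    (9465987, [1, 3, 3, 2, 0, 0, 4, 1, 1, 3, 2, 0]),
    (9471495, [2, 0, 0, 4, 0, 0, 3, 1, 2]),
    (9506893, [2, 0, 0, 4, 0, 3, 3, 1, 3, 1, 2]),
    (9830549, [0, 4, 1, 1, 2, 0, 4, 0, 3, 1, 3, 0]),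
    (9963547, [2, 1, 4, 0, 0, 0, 4, 0, 0, 4, 2]),
    (10486557, [3, 0, 2, 1, 4, 0, 4, 1, 1]),
    (10557585, [3, 0, 4, 1, 2, 0, 0, 2, 1]),
    (10630149, [4, 0, 0, 3, 2, 0, 3, 2, 1, 1]),
    (10765331, [0, 2, 1, 4, 2, 0, 3, 2, 1]),
    (11010247, [3, 2, 0, 0, 0, 3, 3, 1, 3, 2]),
    (11535529, [0, 0, 4, 2, 1, 4, 2, 1, 1, 3]),
    (12587685, [4, 0, 2, 1, 1, 2, 0, 3, 1, 3]),
    (12599513, [3, 2, 1, 3, 0, 3, 0, 4, 1, 2]),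
    (12656663, [4, 2, 1, 1, 2]),
    (12717187, [2, 1, 3, 3, 1, 3, 0, 4, 0, 3, 2]),
    (13370381, [4, 0, 2, 1, 3, 0, 3, 1, 3, 3, 0]),
    (13636881, [4, 1, 4, 2, 0, 3, 0, 2, 1, 4, 0, 0]),
    (14716939, [4, 1, 2, 1, 1, 1, 4, 4, 1, 4, 4, 0])]),
  (8, 5279, [
    (5279, [])])]

open Cfsg.Agent.Lib.Helper1 in
set_option maxRecDepth 1000000 in
theorem cls_ok : cls.all (fun c => certOK ([O5] : List ℕ) ([0] : List ℕ) c.2.1 c.2.2) = true := by decide +kernel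

set_option maxRecDepth 1000000 in
theorem cls_keys : (cls.map (fun c => c.1)).Nodup := by decide +kernel

open Cfsg.Agent.Lib.Helper1 in
set_option maxRecDepth 1000000 in
theorem cls_cover : ((allWords gbasis).filter P).all (fun n => cls.any (fun c => c.1 == inv n
    && (c.2.2.map Prod.fst).contains n)) = true := by decide +kernel

open Cfsg.Agent.Lib.Helper1 in
open scoped Pointwise in
theorem cls_trans (n n' : ℕ) (hn : n ∈ allWords gbasis) (hP : P n = true)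
    (hn' : n' ∈ allWords gbasis) (hP' : P n' = true) (hinv : inv n = inv n') :
    ∃ g ∈ Cfsg.M24, g • S n = S n' ∧ (∀ f ∈ ([O5] : List ℕ), g • S f = S f)
      ∧ (∀ i ∈ ([0] : List ℕ), g (pt i) = pt i) :=
  classes_trans P inv ([O5] : List ℕ) ([0] : List ℕ) cls cls_ok cls_keys cls_cover n n' hn hP hn' hP' hinv

open Cfsg.Agent.Lib.Helper1 in
set_option maxRecDepth 1000000 in
theorem cnt2 : ((allWords gbasis).filter (fun n => P n && inv n == 2)).length = 112 := by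
  decide +kernel

open Cfsg.Agent.Lib.Helper1 in
set_option maxRecDepth 1000000 in
theorem cnt4 : ((allWords gbasis).filter (fun n => P n && inv n == 4)).length = 140 := by
  decide +kernel

open Cfsg.Agent.Lib.Helper1 in
theorem base_mem (b : Finset Cfsg.GolayPt) :
    (b ∈ Cfsg.octads ∧ pt 0 ∈ b) ↔ ∃ n ∈ allWords gbasis, P n = true ∧ b = S n := by
  rw [mem_octads_iff]
  constructor
  · rintro ⟨⟨n, hn, h8, rfl⟩, h0⟩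
    rw [pt_mem_S _ _ (by norm_num)] at h0
    exact ⟨n, hn, by simp [P, h8, h0], rfl⟩
  · rintro ⟨n, hn, hP, rfl⟩
    simp only [P, Bool.and_eq_true, beq_iff_eq] at hP
    exact ⟨⟨n, hn, hP.1, rfl⟩, (pt_mem_S _ _ (by norm_num)).2 hP.2⟩

open Cfsg.Agent.Lib.Helper1 in
theorem base_set (k : ℕ) :
    {o' : Finset Cfsg.GolayPt | o' ∈ Cfsg.octads ∧ pt 0 ∈ o' ∧ (S O5 ∩ o').card = k}
    = {b : Finset Cfsg.GolayPt | ∃ n ∈ allWords gbasis, (P n && inv n == k) = true ∧ b = S n} := by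
  ext b
  simp only [Set.mem_setOf_eq]
  constructor
  · rintro ⟨h1, h2, h3⟩
    obtain ⟨n, hn, hP, rfl⟩ := (base_mem b).1 ⟨h1, h2⟩
    rw [S_inter, S_card] at h3
    exact ⟨n, hn, by simp [hP, inv, h3], rfl⟩
  · rintro ⟨n, hn, hP, rfl⟩
    simp only [Bool.and_eq_true, beq_iff_eq] at hP
    obtain ⟨h1, h2⟩ := (base_mem (S n)).2 ⟨n, hn, hP.1, rfl⟩
    refine ⟨h1, h2, ?_⟩
    rw [S_inter, S_card]; exact hP.2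

open Cfsg.Agent.Lib.Helper1 in
open scoped Pointwise in
theorem transport (g : Equiv.Perm Cfsg.GolayPt) (hg : g ∈ Cfsg.M24) (k : ℕ) :
    {o' : Finset Cfsg.GolayPt | o' ∈ Cfsg.octads ∧ g (pt 0) ∈ o' ∧ (g • S O5 ∩ o').card = k}.ncard
      = {o' : Finset Cfsg.GolayPt | o' ∈ Cfsg.octads ∧ pt 0 ∈ o' ∧ (S O5 ∩ o').card = k}.ncard := by
  apply ncard_transport g
  intro b
  simp only [Set.mem_setOf_eq]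
  rw [smul_mem_octads_iff g⁻¹ (Cfsg.M24.inv_mem hg), card_smul_inter, perm_mem_inv_smul]

open Cfsg.Agent.Lib.Helper1 in
open scoped Pointwise in
theorem base_trans (o' o'' : Finset Cfsg.GolayPt) (ho' : o' ∈ Cfsg.octads)
    (ho'' : o'' ∈ Cfsg.octads) (hx' : pt 0 ∈ o') (hx'' : pt 0 ∈ o'')
    (h : (S O5 ∩ o').card = (S O5 ∩ o'').card) :
    ∃ g ∈ Cfsg.M24, g (pt 0) = pt 0 ∧ g • S O5 = S O5 ∧ g • o' = o'' := by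
  obtain ⟨n, hn, hP, rfl⟩ := (base_mem o').1 ⟨ho', hx'⟩
  obtain ⟨n', hn', hP', rfl⟩ := (base_mem o'').1 ⟨ho'', hx''⟩
  rw [S_inter, S_card, S_inter, S_card] at h
  obtain ⟨g, hg, h1, h2, h3⟩ := cls_trans n n' hn hP hn' hP' h
  exact ⟨g, hg, h3 0 (by simp), h2 O5 (by simp), h1⟩

/-- The point stabiliser acts on the 253 heptads of its S(4, 7, 23) with rank 3 and subdegrees 1, 112, 140 (intersections 8, 2, 4). -/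
theorem result (x : Cfsg.GolayPt) (o : Finset Cfsg.GolayPt) (ho : o ∈ Cfsg.octads) (hx : x ∈ o) : {o' : Finset Cfsg.GolayPt | o' ∈ Cfsg.octads ∧ x ∈ o' ∧ (o ∩ o').card = 2}.ncard = 112 ∧ {o' : Finset Cfsg.GolayPt | o' ∈ Cfsg.octads ∧ x ∈ o' ∧ (o ∩ o').card = 4}.ncard = 140 ∧ ∀ o' o'' : Finset Cfsg.GolayPt, o' ∈ Cfsg.octads → o'' ∈ Cfsg.octads → x ∈ o' → x ∈ o'' → (o ∩ o').card = (o ∩ o'').card → ∃ g : Equiv.Perm Cfsg.GolayPt, g ∈ Cfsg.M24 ∧ g x = x ∧ g • o = o ∧ g • o' = o'' := by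
  obtain ⟨g, hg, rfl, rfl⟩ := Cfsg.Agent.Lib.Helper1.octad_pt_reach o ho x hx
  refine ⟨?_, ?_, ?_⟩
  · rw [transport g hg 2, base_set 2, Cfsg.Agent.Lib.Helper1.ncard_filter]
    exact cnt2
  · rw [transport g hg 4, base_set 4, Cfsg.Agent.Lib.Helper1.ncard_filter]
    exact cnt4
  · intro o' o'' ho' ho'' hx' hx'' hcard
    have hinv := Cfsg.M24.inv_mem hg
    rw [Cfsg.Agent.Lib.Helper1.card_smul_inter, Cfsg.Agent.Lib.Helper1.card_smul_inter] at hcard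
    obtain ⟨h, hh, h1, h2, h3⟩ := base_trans (g⁻¹ • o') (g⁻¹ • o'')
      ((Cfsg.Agent.Lib.Helper1.smul_mem_octads_iff g⁻¹ hinv o').2 ho')
      ((Cfsg.Agent.Lib.Helper1.smul_mem_octads_iff g⁻¹ hinv o'').2 ho'')
      ((Cfsg.Agent.Lib.Helper1.perm_mem_inv_smul g _ o').2 hx')
      ((Cfsg.Agent.Lib.Helper1.perm_mem_inv_smul g _ o'').2 hx'') hcard
    refine ⟨g * h * g⁻¹, Cfsg.M24.mul_mem (Cfsg.M24.mul_mem hg hh) hinv, ?_, ?_, ?_⟩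
    · simp [h1]
    · rw [mul_smul, mul_smul, inv_smul_smul, h2]
    · rw [mul_smul, mul_smul, h3, smul_inv_smul]

end Cfsg.Agent.S1607
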