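import Cfsg.Statements.S1635
import Mathlib
import Cfsg.Agent.Lib.Helper1.Cosets

set_option autoImplicit false
open Cfsg

namespace Cfsg.Agent.S1635

/-- Coset leaders of the length-24 code: a coset contains a unique word of weight ≤ 3, or else exactly six words of weight 4 and none lighter. -/
theorem result (w : Cfsg.GolayPt → ZMod 2) : ({v : Cfsg.GolayPt → ZMod 2 | hammingNorm v ≤ 4 ∧ w - v ∈ Cfsg.golayCode}.ncard = 1 ∧ ∃ v : Cfsg.GolayPt → ZMod 2, hammingNorm v ≤ 3 ∧ w - v ∈ Cfsg.golayCode) ∨ ({v : Cfsg.GolayPt → ZMod 2 | hammingNorm v ≤ 4 ∧ w - v ∈ Cfsg.golayCode}.ncard = 6 ∧ ∀ v : Cfsg.GolayPt → ZMod 2, w - v ∈ Cfsg.golayCode → hammingNorm v ≤ 4 → hammingNorm v = 4) := by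
  classical
  obtain ⟨v0, hv04, hv0⟩ := Cfsg.Agent.Lib.Helper1.golay_cover w
  by_cases h3 : ∃ v : Cfsg.GolayPt → ZMod 2, hammingNorm v ≤ 3 ∧ w - v ∈ Cfsg.golayCode
  · left
    obtain ⟨v, hv3, hv⟩ := h3
    refine ⟨?_, v, hv3, hv⟩
    have : {v : Cfsg.GolayPt → ZMod 2 | hammingNorm v ≤ 4 ∧ w - v ∈ Cfsg.golayCode} = {v} := by
      ext v'
      simp only [Set.mem_setOf_eq, Set.mem_singleton_iff]
      constructor
      · rintro ⟨h4, hv'⟩; exact (Cfsg.Agent.Lib.Helper1.coset_unique hv hv' hv3 h4).symm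
      · rintro rfl; exact ⟨by omega, hv⟩
    rw [this, Set.ncard_singleton]
  · right
    have hall : ∀ v : Cfsg.GolayPt → ZMod 2, w - v ∈ Cfsg.golayCode → hammingNorm v ≤ 4 →
        hammingNorm v = 4 := by
      intro v hv h4
      by_contra hne
      exact h3 ⟨v, by omega, hv⟩
    refine ⟨?_, hall⟩
    have h4 := hall v0 hv0 hv04
    have himg := Cfsg.Agent.Lib.Helper1.coset_sextet hv0 h4 hall
    have hinj : Set.InjOn Cfsg.support₂
        {v : Cfsg.GolayPt → ZMod 2 | hammingNorm v ≤ 4 ∧ w - v ∈ Cfsg.golayCode} :=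
      fun a _ b _ h => Cfsg.Agent.Lib.Helper1.support₂_injective a b h
    rw [← hinj.ncard_image, himg, Set.ncard_coe_finset]
    exact (Cfsg.Agent.Lib.Helper1.sxt_mem _ h4).1

end Cfsg.Agent.S1635
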