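import Cfsg.Statements.S1636
import Mathlib
import Cfsg.Agent.Lib.Helper1.GolayEnum
import Cfsg.Agent.S0359

set_option autoImplicit false
open Cfsg

namespace Cfsg.Agent.S1636


open Cfsg.Agent.Lib.Helper1 in
theorem norm_punct (w : Cfsg.GolayPt → ZMod 2) :
    hammingNorm w = hammingNorm (fun x : ZMod 23 => w (some x)) + (if w none ≠ 0 then 1 else 0) := by
  classical
  unfold hammingNorm
  rw [Finset.card_filter, Finset.card_filter, Fintype.sum_option]
  exact add_comm _ _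

/-- Decode the low 23 bits. -/
def pD (n : ℕ) : ZMod 23 → ZMod 2 := fun x => Cfsg.Agent.Lib.Helper1.gDec n (some x)

open Cfsg.Agent.Lib.Helper1 in
theorem pD_injOn {m n : ℕ} (hm : m ∈ allWords gbasis) (hn : n ∈ allWords gbasis)
    (h : pD m = pD n) : m = n := by
  have hmem : gDec m - gDec n ∈ Cfsg.golayCode :=
    Submodule.sub_mem _ ((mem_golay_iff _).2 ⟨m, hm, rfl⟩) ((mem_golay_iff _).2 ⟨n, hn, rfl⟩)
  have hn0 : hammingNorm (fun x : ZMod 23 => (gDec m - gDec n) (some x)) = 0 := by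
    rw [hammingNorm_eq_zero]
    funext x
    have := congrFun h x
    simp only [pD] at this
    simp [this]
  have hnp := norm_punct (gDec m - gDec n)
  have hw := Cfsg.Agent.S0359.result _ hmem
  have h0 : hammingNorm (gDec m - gDec n) = 0 := by
    split_ifs at hnp <;> omega
  rw [hammingNorm_eq_zero, sub_eq_zero] at h0
  exact gDec_injOn (allWords_lt hm) (allWords_lt hn) h0

open Cfsg.Agent.Lib.Helper1 in
theorem P_eq : {u : ZMod 23 → ZMod 2 | ∃ w ∈ Cfsg.golayCode, ∀ x : ZMod 23, u x = w (some x)}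
    = pD '' (↑(allWords gbasis).toFinset : Set ℕ) := by
  ext u
  constructor
  · rintro ⟨w, hw, hu⟩
    obtain ⟨n, hn, rfl⟩ := (mem_golay_iff w).1 hw
    exact ⟨n, by simpa using hn, (funext hu).symm⟩
  · rintro ⟨n, hn, rfl⟩
    exact ⟨gDec n, (mem_golay_iff _).2 ⟨n, by simpa using hn, rfl⟩, fun x => rfl⟩

theorem val_image : Finset.univ.image (ZMod.val : ZMod 23 → ℕ) = Finset.range 23 := by
  decide +kernel

open Cfsg.Agent.Lib.Helper1 in
theorem norm_pD (n : ℕ) : hammingNorm (pD n) = pcI 23 n := by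
  rw [pcI_eq, ← val_image, Finset.sum_image (fun a _ b _ h => ZMod.val_injective 23 h)]
  unfold hammingNorm
  rw [Finset.card_filter]
  refine Finset.sum_congr rfl (fun x _ => ?_)
  simp only [pD, gDec, gIdx]
  by_cases hb : n.testBit x.val = true <;> simp [hb]

open Cfsg.Agent.Lib.Helper1 in
theorem ncard_weight (k : ℕ) :
    {u : ZMod 23 → ZMod 2 | u ∈ {u : ZMod 23 → ZMod 2 | ∃ w ∈ Cfsg.golayCode,
        ∀ x : ZMod 23, u x = w (some x)} ∧ hammingNorm u = k}.ncard
      = ((allWords gbasis).filter (fun n => pcI 23 n == k)).length := by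
  have hset : {u : ZMod 23 → ZMod 2 | u ∈ {u : ZMod 23 → ZMod 2 | ∃ w ∈ Cfsg.golayCode,
        ∀ x : ZMod 23, u x = w (some x)} ∧ hammingNorm u = k}
      = pD '' (↑((allWords gbasis).filter (fun n => pcI 23 n == k)).toFinset : Set ℕ) := by
    ext u
    constructor
    · rintro ⟨hu, hk⟩
      rw [P_eq] at hu
      obtain ⟨n, hn, rfl⟩ := hu
      refine ⟨n, ?_, rfl⟩
      rw [norm_pD] at hk
      simp only [Finset.mem_coe, List.mem_toFinset, List.mem_filter] at hn ⊢
      exact ⟨hn, by simpa using hk⟩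
    · rintro ⟨n, hn, rfl⟩
      simp only [Finset.mem_coe, List.mem_toFinset, List.mem_filter] at hn
      refine ⟨?_, ?_⟩
      · rw [P_eq]; exact ⟨n, by simpa using hn.1, rfl⟩
      · rw [norm_pD]; simpa using hn.2
  have hinj : Set.InjOn pD
      (↑((allWords gbasis).filter (fun n => pcI 23 n == k)).toFinset : Set ℕ) := by
    intro m hm n hn h
    simp only [Finset.mem_coe, List.mem_toFinset, List.mem_filter] at hm hn
    exact pD_injOn hm.1 hn.1 h
  rw [hset, hinj.ncard_image, Set.ncard_coe_finset,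
    List.toFinset_card_of_nodup (allWords_gbasis_nodup.filter _)]

open Cfsg.Agent.Lib.Helper1 in
theorem ncard_P : {u : ZMod 23 → ZMod 2 | ∃ w ∈ Cfsg.golayCode,
    ∀ x : ZMod 23, u x = w (some x)}.ncard = 4096 := by
  have hinj : Set.InjOn pD (↑(allWords gbasis).toFinset : Set ℕ) := by
    intro m hm n hn h
    simp only [Finset.mem_coe, List.mem_toFinset] at hm hn
    exact pD_injOn hm hn h
  rw [P_eq, hinj.ncard_image, Set.ncard_coe_finset,
    List.toFinset_card_of_nodup allWords_gbasis_nodup, length_allWords]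

open Cfsg.Agent.Lib.Helper1 in
set_option maxRecDepth 100000 in
theorem cnt7 : ((allWords gbasis).filter (fun n => pcI 23 n == 7)).length = 253 := by
  decide +kernel

open Cfsg.Agent.Lib.Helper1 in
set_option maxRecDepth 100000 in
theorem cnt8 : ((allWords gbasis).filter (fun n => pcI 23 n == 8)).length = 506 := by
  decide +kernel

open Cfsg.Agent.Lib.Helper1 in
set_option maxRecDepth 100000 in
theorem cnt11 : ((allWords gbasis).filter (fun n => pcI 23 n == 11)).length = 1288 := by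
  decide +kernel

open Cfsg.Agent.Lib.Helper1 in
set_option maxRecDepth 100000 in
theorem cnt12 : ((allWords gbasis).filter (fun n => pcI 23 n == 12)).length = 1288 := by
  decide +kernel

open Cfsg.Agent.Lib.Helper1 in
set_option maxRecDepth 100000 in
theorem cnt15 : ((allWords gbasis).filter (fun n => pcI 23 n == 15)).length = 506 := by
  decide +kernel

open Cfsg.Agent.Lib.Helper1 in
set_option maxRecDepth 100000 in
theorem cnt16 : ((allWords gbasis).filter (fun n => pcI 23 n == 16)).length = 253 := by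
  decide +kernel

open Cfsg.Agent.Lib.Helper1 in
theorem min7 : ∀ u ∈ {u : ZMod 23 → ZMod 2 | ∃ w ∈ Cfsg.golayCode,
    ∀ x : ZMod 23, u x = w (some x)}, u ≠ 0 → 7 ≤ hammingNorm u := by
  rintro u ⟨w, hw, hu⟩ hne
  have hnp := norm_punct w
  have hww := Cfsg.Agent.S0359.result w hw
  have e : u = fun x : ZMod 23 => w (some x) := funext hu
  rw [← e] at hnp
  have hw0 : hammingNorm w ≠ 0 := by
    intro h0
    rw [hammingNorm_eq_zero] at h0
    apply hne
    rw [e, h0]
    rfl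
  split_ifs at hnp <;> omega

/-- The punctured length-23 code has weight distribution 0^1 7^253 8^506 11^1288 12^1288 15^506 16^253 23^1. -/
theorem result : {u : ZMod 23 → ZMod 2 | ∃ w ∈ Cfsg.golayCode, ∀ x : ZMod 23, u x = w (some x)}.ncard = 4096 ∧ {u : ZMod 23 → ZMod 2 | u ∈ {u : ZMod 23 → ZMod 2 | ∃ w ∈ Cfsg.golayCode, ∀ x : ZMod 23, u x = w (some x)} ∧ hammingNorm u = 7}.ncard = 253 ∧ {u : ZMod 23 → ZMod 2 | u ∈ {u : ZMod 23 → ZMod 2 | ∃ w ∈ Cfsg.golayCode, ∀ x : ZMod 23, u x = w (some x)} ∧ hammingNorm u = 8}.ncard = 506 ∧ {u : ZMod 23 → ZMod 2 | u ∈ {u : ZMod 23 → ZMod 2 | ∃ w ∈ Cfsg.golayCode, ∀ x : ZMod 23, u x = w (some x)} ∧ hammingNorm u = 11}.ncard = 1288 ∧ {u : ZMod 23 → ZMod 2 | u ∈ {u : ZMod 23 → ZMod 2 | ∃ w ∈ Cfsg.golayCode, ∀ x : ZMod 23, u x = w (some x)} ∧ hammingNorm u = 12}.ncard = 1288 ∧ {u : ZMod 23 → ZMod 2 | u ∈ {u : ZMod 23 → ZMod 2 | ∃ w ∈ Cfsg.golayCode, ∀ x : ZMod 23, u x = w (some x)} ∧ hammingNorm u = 15}.ncard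 = 506 ∧ {u : ZMod 23 → ZMod 2 | u ∈ {u : ZMod 23 → ZMod 2 | ∃ w ∈ Cfsg.golayCode, ∀ x : ZMod 23, u x = w (some x)} ∧ hammingNorm u = 16}.ncard = 253 ∧ ∀ u ∈ {u : ZMod 23 → ZMod 2 | ∃ w ∈ Cfsg.golayCode, ∀ x : ZMod 23, u x = w (some x)}, u ≠ 0 → 7 ≤ hammingNorm u := by
  refine ⟨ncard_P, ?_, ?_, ?_, ?_, ?_, ?_, min7⟩
  · rw [ncard_weight]; exact cnt7
  · rw [ncard_weight]; exact cnt8
  · rw [ncard_weight]; exact cnt11
  · rw [ncard_weight]; exact cnt12
  · rw [ncard_weight]; exact cnt15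
  · rw [ncard_weight]; exact cnt16

end Cfsg.Agent.S1636
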