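import Cfsg.Statements.S1637
import Mathlib
import Cfsg.Agent.Lib.Helper1.Cosets

set_option autoImplicit false
open Cfsg

namespace Cfsg.Agent.S1637


theorem norm_punct (w : Cfsg.GolayPt → ZMod 2) :
    hammingNorm w = hammingNorm (fun x : ZMod 23 => w (some x)) + (if w none ≠ 0 then 1 else 0) := by
  classical
  unfold hammingNorm
  rw [Finset.card_filter, Finset.card_filter, Fintype.sum_option]
  exact add_comm _ _

theorem dist_eq_norm_sub (a b : ZMod 23 → ZMod 2) : hammingDist a b = hammingNorm (a - b) := by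
  unfold hammingDist hammingNorm
  congr 1
  ext i
  simp [sub_eq_zero]

theorem exists_leader (u : ZMod 23 → ZMod 2) :
    ∃ v : Cfsg.GolayPt → ZMod 2, (fun p : Cfsg.GolayPt => p.elim 0 u) - v ∈ Cfsg.golayCode ∧
      hammingNorm (fun x : ZMod 23 => v (some x)) ≤ 3 := by
  classical
  obtain ⟨v, hv4, hv⟩ := Cfsg.Agent.Lib.Helper1.golay_cover (fun p : Cfsg.GolayPt => p.elim 0 u)
  have hn := norm_punct v
  by_cases h3 : hammingNorm v ≤ 3
  · exact ⟨v, hv, by omega⟩
  · have h4 : hammingNorm v = 4 := by omega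
    by_cases hnone : v none ≠ 0
    · rw [if_pos hnone] at hn; exact ⟨v, hv, by omega⟩
    · have hns : (none : Cfsg.GolayPt) ∉ Cfsg.support₂ v := by
        intro hmem
        rw [Cfsg.support₂, Finset.mem_filter] at hmem
        exact hnone hmem.2
      have h4' : (Cfsg.support₂ v).card = 4 := h4
      obtain ⟨o, ⟨ho, hso⟩, -⟩ := Cfsg.Agent.S0363.result.2 (insert none (Cfsg.support₂ v))
        (by rw [Finset.card_insert_of_notMem hns, h4'])
      obtain ⟨⟨c, hc, hco⟩, ho8⟩ := ho
      have hTo : Cfsg.support₂ v ⊆ o := (Finset.subset_insert _ _).trans hso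
      have hsupp : Cfsg.support₂ (v + c) = o \ Cfsg.support₂ v := by
        rw [Cfsg.Agent.S0363.support_add, hco, symmDiff_def,
          Finset.sdiff_eq_empty_iff_subset.2 hTo]
        simp
      have hnone' : (v + c) none ≠ 0 := by
        have hmem : (none : Cfsg.GolayPt) ∈ Cfsg.support₂ (v + c) := by
          rw [hsupp]; exact Finset.mem_sdiff.2 ⟨hso (Finset.mem_insert_self _ _), hns⟩
        rw [Cfsg.support₂, Finset.mem_filter] at hmem
        exact hmem.2
      have hn' := norm_punct (v + c)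
      rw [if_pos hnone'] at hn'
      have hcard : hammingNorm (v + c) = 4 := by
        show (Cfsg.support₂ (v + c)).card = 4
        rw [hsupp, Finset.card_sdiff_of_subset hTo, ho8]; omega
      refine ⟨v + c, ?_, by omega⟩
      have e : (fun p : Cfsg.GolayPt => p.elim 0 u) - (v + c)
          = ((fun p : Cfsg.GolayPt => p.elim 0 u) - v) - c := by abel
      rw [e]; exact Submodule.sub_mem _ hv hc

/-- The punctured length-23 code is a perfect 3-error-correcting code: each word of length 23 is within distance 3 of exactly one codeword. -/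
theorem result (u : ZMod 23 → ZMod 2) : ∃! c : ZMod 23 → ZMod 2, c ∈ {u : ZMod 23 → ZMod 2 | ∃ w ∈ Cfsg.golayCode, ∀ x : ZMod 23, u x = w (some x)} ∧ hammingDist u c ≤ 3 := by
  classical
  obtain ⟨v, hv, hv3⟩ := exists_leader u
  obtain ⟨w1, hw1⟩ : ∃ w1 : Cfsg.GolayPt → ZMod 2, w1 = (fun p : Cfsg.GolayPt => p.elim 0 u) - v :=
    ⟨_, rfl⟩
  rw [← hw1] at hv
  have hdist : hammingDist u (fun x : ZMod 23 => w1 (some x)) ≤ 3 := by
    rw [dist_eq_norm_sub]
    have e : u - (fun x : ZMod 23 => w1 (some x)) = fun x : ZMod 23 => v (some x) := by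
      funext x; rw [hw1]; simp
    rw [e]; exact hv3
  refine ⟨fun x => w1 (some x), ⟨⟨w1, hv, fun x => rfl⟩, hdist⟩, ?_⟩
  rintro c' ⟨⟨w', hw', hc'⟩, hd'⟩
  have hdiff : w' - w1 ∈ Cfsg.golayCode := Submodule.sub_mem _ hw' hv
  have hpn : hammingNorm (fun x : ZMod 23 => (w' - w1) (some x)) ≤ 6 := by
    have e : (fun x : ZMod 23 => (w' - w1) (some x)) = c' - (fun x : ZMod 23 => w1 (some x)) := by
      funext x; simp [hc' x]
    rw [e, ← dist_eq_norm_sub]
    have tri := hammingDist_triangle c' u (fun x : ZMod 23 => w1 (some x))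
    rw [hammingDist_comm c' u] at tri
    omega
  have hn := norm_punct (w' - w1)
  have hw := Cfsg.Agent.S0359.result (w' - w1) hdiff
  have h0 : hammingNorm (w' - w1) = 0 := by
    split_ifs at hn <;> omega
  rw [hammingNorm_eq_zero] at h0
  funext x
  rw [hc' x]
  have := congrFun h0 (some x)
  simp only [Pi.sub_apply, Pi.zero_apply, sub_eq_zero] at this
  exact this

end Cfsg.Agent.S1637
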