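import Cfsg.Statements.S1638
import Mathlib
import Cfsg.Agent.Lib.Helper1.M24Fix5

set_option autoImplicit false
open scoped Pointwise
open Cfsg

namespace Cfsg.Agent.S1638


theorem set_eqA (p q : Cfsg.GolayPt) (s : Finset Cfsg.GolayPt) :
    {t : Finset Cfsg.GolayPt | (t.card = 2 ∧ p ∉ t ∧ q ∉ t) ∧ Disjoint s t
      ∧ (∃ o ∈ Cfsg.octads, p ∈ o ∧ q ∈ o ∧ s ∪ t ⊆ o)}
    = {U : Finset Cfsg.GolayPt | U.card = 2 ∧ Disjoint (insert p (insert q s)) U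
      ∧ ∃ o ∈ Cfsg.octads, insert p (insert q s) ∪ U ⊆ o} := by
  classical
  ext t
  simp only [Set.mem_setOf_eq, Finset.disjoint_insert_left, Finset.insert_union,
    Finset.insert_subset_iff]
  tauto

theorem set_eqB (p q : Cfsg.GolayPt) (s : Finset Cfsg.GolayPt) :
    {t : Finset Cfsg.GolayPt | (t.card = 2 ∧ p ∉ t ∧ q ∉ t) ∧ Disjoint s t
      ∧ ¬ (∃ o ∈ Cfsg.octads, p ∈ o ∧ q ∈ o ∧ s ∪ t ⊆ o)}
    = {U : Finset Cfsg.GolayPt | U.card = 2 ∧ Disjoint (insert p (insert q s)) U}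
      \ {U : Finset Cfsg.GolayPt | ∃ o ∈ Cfsg.octads, insert p (insert q s) ∪ U ⊆ o} := by
  classical
  ext t
  simp only [Set.mem_setOf_eq, Set.mem_diff, Finset.disjoint_insert_left, Finset.insert_union,
    Finset.insert_subset_iff]
  tauto

open Cfsg.Agent.Lib.Helper1 in
theorem cntA (p q : Cfsg.GolayPt) (hpq : p ≠ q) (s : Finset Cfsg.GolayPt)
    (hs : (s.card = 2 ∧ p ∉ s ∧ q ∉ s)) :
    {U : Finset Cfsg.GolayPt | U.card = 2 ∧ Disjoint (insert p (insert q s)) U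
      ∧ ∃ o ∈ Cfsg.octads, insert p (insert q s) ∪ U ⊆ o}.ncard = 30 := by
  classical
  have hX : (insert p (insert q s)).card = 4 := by
    rw [Finset.card_insert_of_notMem (by simp [hpq, hs.2.1]), Finset.card_insert_of_notMem hs.2.2,
      hs.1]
  obtain ⟨Bf, hBf, -⟩ := exists_blockFinset Cfsg.octads
  have h1 := count_in_octad (insert p (insert q s)) 2 (by omega) Bf hBf
  have h2 := octads_through (insert p (insert q s)) (by omega) Bf hBf
  rw [hX] at h1 h2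
  have c1 : Nat.choose (8 - 4) 2 = 6 := by decide
  have c2 : Nat.choose (8 - 4) (5 - 4) = 4 := by decide
  have c3 : Nat.choose (24 - 4) (5 - 4) = 20 := by decide
  rw [c1] at h1
  rw [c2, c3] at h2
  rw [h1]
  omega

open Cfsg.Agent.Lib.Helper1 in
theorem cntB (p q : Cfsg.GolayPt) (hpq : p ≠ q) (s : Finset Cfsg.GolayPt)
    (hs : (s.card = 2 ∧ p ∉ s ∧ q ∉ s)) :
    ({U : Finset Cfsg.GolayPt | U.card = 2 ∧ Disjoint (insert p (insert q s)) U}
      \ {U : Finset Cfsg.GolayPt | ∃ o ∈ Cfsg.octads, insert p (insert q s) ∪ U ⊆ o}).ncard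
      = 160 := by
  classical
  have hX : (insert p (insert q s)).card = 4 := by
    rw [Finset.card_insert_of_notMem (by simp [hpq, hs.2.1]), Finset.card_insert_of_notMem hs.2.2,
      hs.1]
  have h := Set.ncard_inter_add_ncard_diff_eq_ncard
    {U : Finset Cfsg.GolayPt | U.card = 2 ∧ Disjoint (insert p (insert q s)) U}
    {U : Finset Cfsg.GolayPt | ∃ o ∈ Cfsg.octads, insert p (insert q s) ∪ U ⊆ o}
    (Set.toFinite _)
  have e1 : {U : Finset Cfsg.GolayPt | U.card = 2 ∧ Disjoint (insert p (insert q s)) U}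
      ∩ {U : Finset Cfsg.GolayPt | ∃ o ∈ Cfsg.octads, insert p (insert q s) ∪ U ⊆ o}
      = {U : Finset Cfsg.GolayPt | U.card = 2 ∧ Disjoint (insert p (insert q s)) U
        ∧ ∃ o ∈ Cfsg.octads, insert p (insert q s) ∪ U ⊆ o} := by
    ext U
    constructor
    · rintro ⟨⟨h1, h2⟩, h3⟩
      exact ⟨h1, h2, h3⟩
    · rintro ⟨h1, h2, h3⟩
      exact ⟨⟨h1, h2⟩, h3⟩
  rw [e1, cntA p q hpq s hs, ncard_disjoint, hX] at h
  have c : Nat.choose (24 - 4) 2 = 190 := by decide +kernel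
  omega

theorem pair_of_mem (s : Finset Cfsg.GolayPt) (hs : s.card = 2) (c : Cfsg.GolayPt)
    (hc : c ∈ s) : ∃ e, e ≠ c ∧ s = {c, e} := by
  classical
  obtain ⟨x, y, hxy, rfl⟩ := Finset.card_eq_two.1 hs
  rw [Finset.mem_insert, Finset.mem_singleton] at hc
  rcases hc with rfl | rfl
  · exact ⟨y, hxy.symm, rfl⟩
  · exact ⟨x, hxy, Finset.pair_comm _ _⟩

open Cfsg.Agent.Lib.Helper1 in
open scoped Pointwise in
theorem trans0 (p q : Cfsg.GolayPt) (hpq : p ≠ q) (s t t' : Finset Cfsg.GolayPt)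
    (hs : (s.card = 2 ∧ p ∉ s ∧ q ∉ s)) (ht : (t.card = 2 ∧ p ∉ t ∧ q ∉ t))
    (ht' : (t'.card = 2 ∧ p ∉ t' ∧ q ∉ t')) (hd : Disjoint s t) (hd' : Disjoint s t')
    (h : (∃ o ∈ Cfsg.octads, p ∈ o ∧ q ∈ o ∧ s ∪ t ⊆ o)
      ↔ (∃ o ∈ Cfsg.octads, p ∈ o ∧ q ∈ o ∧ s ∪ t' ⊆ o)) :
    ∃ g : Equiv.Perm Cfsg.GolayPt, g ∈ Cfsg.M24 ∧ g p = p ∧ g q = q ∧ g • s = s ∧ g • t = t' := by
  classical
  obtain ⟨hs2, hps, hqs⟩ := hs
  obtain ⟨ht2, hpt, hqt⟩ := ht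
  obtain ⟨ht2', hpt', hqt'⟩ := ht'
  obtain ⟨s1, s2, hs12, rfl⟩ := Finset.card_eq_two.1 hs2
  obtain ⟨t1, t2, ht12, rfl⟩ := Finset.card_eq_two.1 ht2
  obtain ⟨u1, u2, hu12, rfl⟩ := Finset.card_eq_two.1 ht2'
  have hxo : ∀ o : Finset Cfsg.GolayPt, (∀ i, ![p, q, s1, s2, t1, t2] i ∈ o)
      ↔ (p ∈ o ∧ q ∈ o ∧ {s1, s2} ∪ {t1, t2} ⊆ o) := by
    intro o
    simp [Fin.forall_fin_succ, Finset.subset_iff]
    tauto
  have hyo : ∀ o : Finset Cfsg.GolayPt, (∀ i, ![p, q, s1, s2, u1, u2] i ∈ o)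
      ↔ (p ∈ o ∧ q ∈ o ∧ {s1, s2} ∪ {u1, u2} ⊆ o) := by
    intro o
    simp [Fin.forall_fin_succ, Finset.subset_iff]
    tauto
  simp only [Finset.disjoint_left, Finset.mem_insert, Finset.mem_singleton, forall_eq_or_imp,
    forall_eq, not_or] at hd hd' hps hqs hpt hqt hpt' hqt'
  obtain ⟨⟨d11, d12⟩, d21, d22⟩ := hd
  obtain ⟨⟨e11, e12⟩, e21, e22⟩ := hd'
  have hx : Function.Injective ![p, q, s1, s2, t1, t2] := by
    apply inj_of_nodup6
    simp [*]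
  have hy : Function.Injective ![p, q, s1, s2, u1, u2] := by
    apply inj_of_nodup6
    simp [*]
  obtain ⟨g, hg, hgx⟩ := M24_trans6 _ _ hx hy (by simp only [hxo, hyo]; exact h)
  have h0 : g p = p := hgx 0
  have h1 : g q = q := hgx 1
  have h2 : g s1 = s1 := hgx 2
  have h3 : g s2 = s2 := hgx 3
  have h4 : g t1 = u1 := hgx 4
  have h5 : g t2 = u2 := hgx 5
  refine ⟨g, hg, h0, h1, ?_, ?_⟩
  · rw [Finset.smul_finset_insert, Finset.smul_finset_singleton,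
      Equiv.Perm.smul_def, Equiv.Perm.smul_def, h2, h3]
  · rw [Finset.smul_finset_insert, Finset.smul_finset_singleton,
      Equiv.Perm.smul_def, Equiv.Perm.smul_def, h4, h5]

open Cfsg.Agent.Lib.Helper1 in
open scoped Pointwise in
theorem trans1 (p q : Cfsg.GolayPt) (hpq : p ≠ q) (s t t' : Finset Cfsg.GolayPt)
    (hs : (s.card = 2 ∧ p ∉ s ∧ q ∉ s)) (ht : (t.card = 2 ∧ p ∉ t ∧ q ∉ t))
    (ht' : (t'.card = 2 ∧ p ∉ t' ∧ q ∉ t')) (hts : t ≠ s) (hts' : t' ≠ s)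
    (c c' : Cfsg.GolayPt) (hc : c ∈ s ∩ t) (hc' : c' ∈ s ∩ t') :
    ∃ g : Equiv.Perm Cfsg.GolayPt, g ∈ Cfsg.M24 ∧ g p = p ∧ g q = q ∧ g • s = s ∧ g • t = t' := by
  classical
  obtain ⟨hs2, hps, hqs⟩ := hs
  obtain ⟨ht2, hpt, hqt⟩ := ht
  obtain ⟨ht2', hpt', hqt'⟩ := ht'
  obtain ⟨hcs, hct⟩ := Finset.mem_inter.1 hc
  obtain ⟨hcs', hct'⟩ := Finset.mem_inter.1 hc'
  obtain ⟨e, hec, hse⟩ := pair_of_mem s hs2 c hcs
  obtain ⟨e', hec', hse'⟩ := pair_of_mem s hs2 c' hcs'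
  obtain ⟨d, hdc, rfl⟩ := pair_of_mem t ht2 c hct
  obtain ⟨d', hdc', rfl⟩ := pair_of_mem t' ht2' c' hct'
  have hed : e ≠ d := by
    rintro rfl
    exact hts hse.symm
  have hed' : e' ≠ d' := by
    rintro rfl
    exact hts' hse'.symm
  have hps1 := hps
  have hqs1 := hqs
  rw [hse] at hps hqs
  rw [hse'] at hps1 hqs1
  simp only [Finset.mem_insert, Finset.mem_singleton, not_or] at hps hqs hps1 hqs1
  simp only [Finset.mem_insert, Finset.mem_singleton, not_or] at hpt hqt hpt' hqt'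
  have hec2 := hec.symm
  have hdc2 := hdc.symm
  have hec2' := hec'.symm
  have hdc2' := hdc'.symm
  have hx : Function.Injective ![p, q, c, e, d] := by
    apply inj_of_nodup5
    simp [*]
  have hy : Function.Injective ![p, q, c', e', d'] := by
    apply inj_of_nodup5
    simp [*]
  obtain ⟨g, hg, hgx⟩ := M24_trans5 _ _ hx hy
  have h0 : g p = p := hgx 0
  have h1 : g q = q := hgx 1
  have h2 : g c = c' := hgx 2
  have h3 : g e = e' := hgx 3
  have h4 : g d = d' := hgx 4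
  refine ⟨g, hg, h0, h1, ?_, ?_⟩
  · have h5 : g • ({c, e} : Finset Cfsg.GolayPt) = {c', e'} := by
      rw [Finset.smul_finset_insert, Finset.smul_finset_singleton,
        Equiv.Perm.smul_def, Equiv.Perm.smul_def, h2, h3]
    rw [← hse'] at h5
    calc g • s = g • ({c, e} : Finset Cfsg.GolayPt) := by rw [← hse]
      _ = s := h5
  · rw [Finset.smul_finset_insert, Finset.smul_finset_singleton,
      Equiv.Perm.smul_def, Equiv.Perm.smul_def, h2, h4]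

/-- Fix two points p ≠ q and a pair s of two further points. Among the pairs avoiding p, q and disjoint from s, exactly 30 lie in an octad together with p, q and s and exactly 160 do not; and any two pairs other than s that meet s in equally many points and agree on that octad property are carried to one another by an element of the group of the length-24 code fixing p, q and s. -/
theorem result (p q : Cfsg.GolayPt) (hpq : p ≠ q) (s : Finset Cfsg.GolayPt) (hs : (s.card = 2 ∧ p ∉ s ∧ q ∉ s)) : {t : Finset Cfsg.GolayPt | (t.card = 2 ∧ p ∉ t ∧ q ∉ t) ∧ Disjoint s t ∧ (∃ o ∈ Cfsg.octads, p ∈ o ∧ q ∈ o ∧ s ∪ t ⊆ o)}.ncard = 30 ∧ {t : Finset Cfsg.GolayPt | (t.card = 2 ∧ p ∉ t ∧ q ∉ t) ∧ Disjoint s t ∧ ¬ (∃ o ∈ Cfsg.octads, p ∈ o ∧ q ∈ o ∧ s ∪ t ⊆ o)}.ncard = 160 ∧ ∀ t t' : Finset Cfsg.GolayPt, (t.card = 2 ∧ p ∉ t ∧ q ∉ t) → (t'.card = 2 ∧ p ∉ t' ∧ q ∉ t') → t ≠ s → t' ≠ s → (s ∩ t).card = (s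 ∩ t').card → ((∃ o ∈ Cfsg.octads, p ∈ o ∧ q ∈ o ∧ s ∪ t ⊆ o) ↔ (∃ o ∈ Cfsg.octads, p ∈ o ∧ q ∈ o ∧ s ∪ t' ⊆ o)) → ∃ g : Equiv.Perm Cfsg.GolayPt, g ∈ Cfsg.M24 ∧ g p = p ∧ g q = q ∧ g • s = s ∧ g • t = t' := by
  classical
  refine ⟨?_, ?_, ?_⟩
  · rw [set_eqA]
    exact cntA p q hpq s hs
  · rw [set_eqB]
    exact cntB p q hpq s hs
  · intro t t' ht ht' hts hts' hcard h
    by_cases h0 : (s ∩ t).card = 0
    · have h0' : (s ∩ t').card = 0 := by rw [← hcard]; exact h0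
      rw [Finset.card_eq_zero, ← Finset.disjoint_iff_inter_eq_empty] at h0 h0'
      exact trans0 p q hpq s t t' hs ht ht' h0 h0' h
    · have h1 : 0 < (s ∩ t).card := Nat.pos_of_ne_zero h0
      have h1' : 0 < (s ∩ t').card := by rw [← hcard]; exact h1
      obtain ⟨c, hc⟩ := Finset.card_pos.1 h1
      obtain ⟨c', hc'⟩ := Finset.card_pos.1 h1'
      exact trans1 p q hpq s t t' hs ht ht' hts hts' c c' hc hc'

end Cfsg.Agent.S1638
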