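import Cfsg.Statements.S1691
import Mathlib

set_option autoImplicit false
open Cfsg

namespace Cfsg.Agent.S1691

open Cfsg.Spor

/-- the Coxeter relation between two nodes holds in the presented group -/
theorem cox_rel {α : Type*} [DecidableEq α] (edges : List (α × ℕ × α)) (extra : List (FreeGroup α))
    (x y : α) (hx : x ∈ coxNodes edges) (hy : y ∈ coxNodes edges) :
    ((PresentedGroup.of x : CoxPresented α edges extra) * PresentedGroup.of y) ^ coxLabel edges x y = 1 := by
  have h : (FreeGroup.of x * FreeGroup.of y) ^ coxLabel edges x y ∈ coxRelators edges ∪ {r | r ∈ extra} :=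
    Or.inl ⟨x, hx, y, hy, rfl⟩
  have h2 := PresentedGroup.one_of_mem h
  rw [map_pow, map_mul] at h2
  exact h2

/-- in any commutative quotient, the two ends of an odd-labelled edge have the same image -/
theorem cox_edge_eq {α : Type*} [DecidableEq α] (edges : List (α × ℕ × α)) (extra : List (FreeGroup α))
    {A : Type*} [CommGroup A] (π : CoxPresented α edges extra →* A)
    (x y : α) (hx : x ∈ coxNodes edges) (hy : y ∈ coxNodes edges) (hxy : coxLabel edges x y = 3) :
    π (PresentedGroup.of x) = π (PresentedGroup.of y) := by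
  have h1 := cox_rel edges extra x y hx hy
  have hxx := cox_rel edges extra x x hx hx
  have hyy := cox_rel edges extra y y hy hy
  have e1 : coxLabel edges x x = 1 := by simp [coxLabel]
  have e2 : coxLabel edges y y = 1 := by simp [coxLabel]
  rw [hxy] at h1
  rw [e1, pow_one] at hxx
  rw [e2, pow_one] at hyy
  have h1' := congrArg π h1
  have hxx' := congrArg π hxx
  have hyy' := congrArg π hyy
  rw [map_pow, map_mul, map_one] at h1'
  rw [map_mul, map_one] at hxx' hyy'
  set u := π (PresentedGroup.of x)
  set v := π (PresentedGroup.of y)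
  have h3 : (u * v) ^ 3 = u * v := by
    calc (u * v) ^ 3 = (u * u) * (v * v) * (u * v) := by rw [pow_succ, pow_two]; simp only [mul_comm, mul_left_comm]
      _ = u * v := by rw [hxx', hyy', one_mul, one_mul]
  rw [h3] at h1'
  calc u = u * (v * v) := by rw [hyy', mul_one]
    _ = (u * v) * v := by rw [mul_assoc]
    _ = v := by rw [h1', one_mul]

/-- The commutator subgroup of the presented group Fi₂₄ has index 2 (the presented group is Fi₂₄′:2 with Fi₂₄′ its derived subgroup). -/
theorem result : (commutator Cfsg.Spor.Fi24).index = 2 := by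
  classical
  -- the sign homomorphism
  have hrel : ∀ r ∈ coxRelators Fi24.edges ∪ {r | r ∈ Fi24.extra},
      FreeGroup.lift (fun _ : Fi24.Gen => (-1 : ℤˣ)) r = 1 := by
    rintro r (⟨x, -, y, -, rfl⟩ | hr)
    · simp
    · simp only [Set.mem_ofPred_eq, Fi24.extra, List.mem_cons, List.not_mem_nil, or_false] at hr
      rcases hr with rfl | rfl
      · simp [Fi24.l, Fi24.a, Fi24.b, Fi24.c, Fi24.d, Fi24.e, Fi24.f, Fi24.h]
        decide
      · simp [Fi24.l, Fi24.k, Fi24.a, Fi24.b, Fi24.c, Fi24.d, Fi24.e, Fi24.f, Fi24.g, Fi24.j, Fi24.h, Fi24.i]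
  let φ : Fi24 →* ℤˣ := PresentedGroup.toGroup hrel
  let π : Fi24 →* Abelianization Fi24 := Abelianization.of
  set s : Abelianization Fi24 := π (PresentedGroup.of Fi24.Gen.d) with hs
  have hnode : ∀ x : Fi24.Gen, x ∈ coxNodes Fi24.edges := by
    intro x; cases x <;> decide
  have hall : ∀ x : Fi24.Gen, π (PresentedGroup.of x) = s := by
    have e := fun x y (h : coxLabel Fi24.edges x y = 3) => cox_edge_eq Fi24.edges Fi24.extra π x y (hnode x) (hnode y) h
    have hc : π (PresentedGroup.of Fi24.Gen.c) = s := e _ _ (by decide)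
    have hb : π (PresentedGroup.of Fi24.Gen.b) = s := (e .b .c (by decide)).trans hc
    have ha : π (PresentedGroup.of Fi24.Gen.a) = s := (e .a .b (by decide)).trans hb
    have hk : π (PresentedGroup.of Fi24.Gen.k) = s := (e .k .a (by decide)).trans ha
    have hl : π (PresentedGroup.of Fi24.Gen.l) = s := (e .l .k (by decide)).trans hk
    have he : π (PresentedGroup.of Fi24.Gen.e) = s := (e .e .d (by decide))
    have hf : π (PresentedGroup.of Fi24.Gen.f) = s := (e .f .e (by decide)).trans he
    have hg : π (PresentedGroup.of Fi24.Gen.g) = s := (e .g .f (by decide)).trans hf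
    have hj : π (PresentedGroup.of Fi24.Gen.j) = s := (e .j .g (by decide)).trans hg
    have hh : π (PresentedGroup.of Fi24.Gen.h) = s := (e .h .d (by decide))
    have hi : π (PresentedGroup.of Fi24.Gen.i) = s := (e .i .h (by decide)).trans hh
    intro x
    cases x <;> assumption
  have hs2 : s ^ 2 = 1 := by
    have h1 := cox_rel Fi24.edges Fi24.extra Fi24.Gen.d Fi24.Gen.d (hnode _) (hnode _)
    have e1 : coxLabel Fi24.edges Fi24.Gen.d Fi24.Gen.d = 1 := by decide
    rw [e1, pow_one] at h1
    have := congrArg π h1
    rw [map_mul, map_one] at this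
    rw [pow_two]; exact this
  have hs1 : s ≠ 1 := by
    intro h1
    have h2 : Abelianization.lift φ s = 1 := by rw [h1, map_one]
    rw [hs] at h2
    have h3 : Abelianization.lift φ (π (PresentedGroup.of Fi24.Gen.d)) = φ (PresentedGroup.of Fi24.Gen.d) :=
      Abelianization.lift_apply_of φ _
    rw [h3] at h2
    have h4 : φ (PresentedGroup.of Fi24.Gen.d) = -1 := PresentedGroup.toGroup.of hrel
    rw [h4] at h2
    exact absurd h2 (by decide)
  have hord : orderOf s = 2 := orderOf_eq_prime hs2 hs1
  have htop : Subgroup.zpowers s = ⊤ := by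
    rw [eq_top_iff]
    rintro x -
    obtain ⟨y, rfl⟩ := QuotientGroup.mk_surjective x
    have hy : y ∈ Subgroup.closure (Set.range (PresentedGroup.of : Fi24.Gen → Fi24)) := by
      rw [PresentedGroup.closure_range_of]; trivial
    induction hy using Subgroup.closure_induction with
    | mem z hz =>
      obtain ⟨w, rfl⟩ := hz
      have := hall w
      show π (PresentedGroup.of w) ∈ _
      rw [this]; exact Subgroup.mem_zpowers s
    | one => exact one_mem _
    | mul a b _ _ ha hb => exact mul_mem ha hb
    | inv a _ ha => exact inv_mem ha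
  show Nat.card (Abelianization Fi24) = 2
  rw [← hord, ← Nat.card_zpowers, htop, Subgroup.card_top]

end Cfsg.Agent.S1691
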