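import Cfsg.Statements.S1754
import Mathlib
import Cfsg.Agent.Lib.Helper3.Quasi

set_option autoImplicit false
open Cfsg

namespace Cfsg.Agent.S1754

/-- Let A be a standard subgroup of the finite group G (A quasisimple, C_G(A) tightly embedded of even order, A commuting elementwise with no other conjugate of itself, and N_G(A) = N_G(C_G(A))), and let t be an involution of G centralizing A. Then the centralizer of t lies in the normalizer of A; in particular A, viewed inside C_G(t), is a component of C_G(t). -/
theorem result {G : Type*} [Group G] [Finite G]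
    (A : Subgroup G) (hA : Cfsg.IsStandardSubgroup A) (t : G) (ht : orderOf t = 2) (htA : t ∈ Subgroup.centralizer (A : Set G)) :
    Subgroup.centralizer ({t} : Set G) ≤ Subgroup.normalizer (A : Set G) ∧
      Cfsg.IsComponent (A.subgroupOf (Subgroup.centralizer ({t} : Set G))) := by
  classical
  obtain ⟨hq, ⟨heven, htight⟩, hcomm, hnorm⟩ := hA
  have hCN : Subgroup.centralizer ({t} : Set G) ≤ Subgroup.normalizer (A : Set G) := by
    intro g hg
    rw [hnorm]
    by_contra hgN
    have hodd := htight g hgN
    have hgt : g * t * g⁻¹ = t := by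
      rw [Subgroup.mem_centralizer_singleton_iff] at hg
      rw [hg]; group
    have ht2 : t ∈ Subgroup.centralizer (A : Set G) ⊓
        (Subgroup.centralizer (A : Set G)).map (MulAut.conj g).toMonoidHom := by
      refine ⟨htA, ?_⟩
      rw [← hgt]; exact ⟨t, htA, rfl⟩
    have h2 : orderOf (⟨t, ht2⟩ : ↥(Subgroup.centralizer (A : Set G) ⊓
        (Subgroup.centralizer (A : Set G)).map (MulAut.conj g).toMonoidHom)) = 2 := by
      rw [Subgroup.orderOf_mk, ht]
    have h3 : 2 ∣ Nat.card ↥(Subgroup.centralizer (A : Set G) ⊓
        (Subgroup.centralizer (A : Set G)).map (MulAut.conj g).toMonoidHom) := by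
      rw [← h2]; exact orderOf_dvd_natCard _
    exact (Nat.not_even_iff_odd.mpr hodd) (even_iff_two_dvd.mpr h3)
  refine ⟨hCN, ?_⟩
  apply Lib.Helper3.isComponent_subgroupOf A _ ?_ hCN hq
  intro a ha
  rw [Subgroup.mem_centralizer_singleton_iff]
  exact (Subgroup.mem_centralizer_iff.mp htA) a ha

end Cfsg.Agent.S1754
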