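import Cfsg.Statements.S1756
import Mathlib
import Cfsg.Agent.Lib.Lead.SylowAux2
import Cfsg.Agent.Lib.Lead.ExtraCentral
import Cfsg.Agent.Lib.Lead.SZ
import Cfsg.Agent.Lib.Lead.Invol

set_option autoImplicit false
open Cfsg Cfsg.Agent.Lib.Lead

namespace Cfsg.Agent.S1756

open scoped Pointwise commutatorElement

/-- Let Q be an extraspecial 2-subgroup of the finite group G (special with centre of order 2) and t an involution of G normalizing Q such that the centralizer of t in Q has index at most 2 in Q. Then t lies in the product of Q with the centralizer of Q. -/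
theorem result {G : Type*} [Group G] [Finite G] (Q : Subgroup G)
    (hQ : Cfsg.IsExtraspecial 2 ↥Q) (t : G) (ht : orderOf t = 2) (htN : t ∈ Subgroup.normalizer (Q : Set G))
    (hi : (Subgroup.centralizer ({t} : Set G) ⊓ Q).relIndex Q ≤ 2) :
    t ∈ Q ⊔ Subgroup.centralizer (Q : Set G) := by
  classical
  haveI : Fact (Nat.Prime 2) := ⟨Nat.prime_two⟩
  have ht2 : t * t = 1 := invol_mul_self ht
  have htinv : t⁻¹ = t := invol_inv ht
  obtain ⟨K, hKdef⟩ : ∃ K : Subgroup ↥Q,
      K = (Subgroup.centralizer ({t} : Set G) ⊓ Q).subgroupOf Q := ⟨_, rfl⟩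
  have hKidx : K.index ≤ 2 := by rw [hKdef]; exact hi
  let φ : ↥Q →* ↥Q :=
    MonoidHom.mk' (fun e => ⟨t * e * t⁻¹, conj_mem_of_mem_normalizer htN e.2⟩) (by
      intro e e'
      apply Subtype.ext
      show t * ((e : G) * (e' : G)) * t⁻¹ = (t * e * t⁻¹) * (t * e' * t⁻¹)
      group)
  have hφval : ∀ e : ↥Q, ((φ e : ↥Q) : G) = t * e * t⁻¹ := fun e => rfl
  have hfix : ∀ e : ↥Q, e ∈ K ↔ φ e = e := by
    intro e
    rw [hKdef, Subgroup.mem_subgroupOf, Subgroup.mem_inf]
    constructor
    · rintro ⟨h1, -⟩
      apply Subtype.ext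
      rw [hφval]
      have h2 : t * (e : G) = (e : G) * t :=
        Subgroup.mem_centralizer_iff.mp h1 t (Set.mem_singleton t)
      rw [h2]; group
    · intro h1
      refine ⟨?_, e.2⟩
      rw [Subgroup.mem_centralizer_iff]
      intro s hs
      rw [Set.mem_singleton_iff] at hs
      rw [hs]
      have h2 : t * (e : G) * t⁻¹ = (e : G) := by rw [← hφval, h1]
      calc t * (e : G) = (t * (e : G) * t⁻¹) * t := by group
        _ = (e : G) * t := by rw [h2]
  have hφ2 : ∀ e : ↥Q, φ (φ e) = e := by
    intro e
    apply Subtype.ext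
    rw [hφval, hφval, htinv]
    calc t * (t * (e : G) * t) * t = (t * t) * (e : G) * (t * t) := by group
      _ = (e : G) := by rw [ht2, one_mul, mul_one]
  have hK0 : K.index ≠ 0 := Subgroup.index_ne_zero_of_finite
  have hcases : K.index = 1 ∨ K.index = 2 := by omega
  have hφ : ∀ y : ↥Q, φ y * y⁻¹ ∈ Subgroup.center ↥Q := by
    intro y
    by_cases hy : y ∈ K
    · rw [(hfix y).1 hy, mul_inv_cancel]; exact Subgroup.one_mem _
    · have hK2 : K.index = 2 := by
        rcases hcases with h | h
        · exfalso; apply hy; rw [Subgroup.index_eq_one.mp h]; exact Subgroup.mem_top _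
        · exact h
      haveI hKn : K.Normal := Subgroup.normal_of_index_eq_two hK2
      obtain ⟨c, hcdef⟩ : ∃ c : ↥Q, c = φ y * y⁻¹ := ⟨_, rfl⟩
      have hφy : φ y = c * y := by rw [hcdef]; group
      rw [← hcdef]
      have h1 : ∀ k ∈ K, c * k = k * c := by
        intro k hk
        have hk' : y⁻¹ * k * y ∈ K := by
          have := hKn.conj_mem k hk y⁻¹
          rwa [inv_inv] at this
        have e1 : φ k = k := (hfix k).1 hk
        have e2 : φ (y⁻¹ * k * y) = y⁻¹ * k * y := (hfix _).1 hk'
        have e3 : φ k = c * k * c⁻¹ := by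
          calc φ k = φ (y * (y⁻¹ * k * y) * y⁻¹) := by congr 1; group
            _ = φ y * φ (y⁻¹ * k * y) * (φ y)⁻¹ := by rw [map_mul, map_mul, map_inv]
            _ = (c * y) * (y⁻¹ * k * y) * (c * y)⁻¹ := by rw [e2, hφy]
            _ = c * k * c⁻¹ := by group
        rw [e1] at e3
        calc c * k = (c * k * c⁻¹) * c := by group
          _ = k * c := by rw [← e3]
      have h2 : c * y = y * c := by
        by_cases hc : c ∈ K
        · have e1 : φ c = c := (hfix c).1 hc
          have e2 : c * c = 1 := by
            have e3 := hφ2 y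
            rw [hφy, map_mul, e1, hφy] at e3
            have e4 : c * c * y = 1 * y := by rw [one_mul, mul_assoc]; exact e3
            exact mul_right_cancel e4
          have e4 : φ (y * y) = y * y := by
            apply (hfix _).1
            have := Subgroup.sq_mem_of_index_two hK2 y
            rwa [pow_two] at this
          rw [map_mul, hφy] at e4
          have e5 : c * y * c = y := by
            have e6 : (c * y * c) * y = y * y := by rw [← e4]; group
            exact mul_right_cancel e6
          calc c * y = c * (c * y * c) := by rw [e5]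
            _ = (c * c) * y * c := by group
            _ = y * c := by rw [e2, one_mul]
        · have hk₀ : y⁻¹ * c ∈ K := by
            rw [Subgroup.mul_mem_iff_of_index_two hK2]
            constructor
            · intro h; exact absurd ((Subgroup.inv_mem_iff _).mp h) hy
            · intro h; exact absurd h hc
          have e1 := h1 _ hk₀
          have e2 : c * y⁻¹ = y⁻¹ * c := by
            have e3 : c * y⁻¹ * c = y⁻¹ * c * c := by rw [← e1]; group
            exact mul_right_cancel e3
          calc c * y = y * (y⁻¹ * c) * y := by group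
            _ = y * (c * y⁻¹) * y := by rw [e2]
            _ = y * c := by group
      rw [Subgroup.mem_center_iff]
      intro e
      by_cases he : e ∈ K
      · exact (h1 e he).symm
      · have hk₀ : y⁻¹ * e ∈ K := by
          rw [Subgroup.mul_mem_iff_of_index_two hK2]
          constructor
          · intro h; exact absurd ((Subgroup.inv_mem_iff _).mp h) hy
          · intro h; exact absurd h he
        have e1 := h1 _ hk₀
        calc e * c = y * (y⁻¹ * e * c) := by group
          _ = y * (c * (y⁻¹ * e)) := by rw [e1]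
          _ = (y * c) * (y⁻¹ * e) := by group
          _ = (c * y) * (y⁻¹ * e) := by rw [h2]
          _ = c * e := by group
  obtain ⟨u, hu⟩ := extraspecial_central_aut hQ φ hφ
  have hc : (u : G)⁻¹ * t ∈ Subgroup.centralizer (Q : Set G) := by
    rw [Subgroup.mem_centralizer_iff]
    intro e he
    have h1 : t * e * t⁻¹ = (u : G) * e * (u : G)⁻¹ := congrArg Subtype.val (hu ⟨e, he⟩)
    calc e * ((u : G)⁻¹ * t) = (u : G)⁻¹ * ((u : G) * e * (u : G)⁻¹) * t := by group
      _ = (u : G)⁻¹ * (t * e * t⁻¹) * t := by rw [h1]
      _ = (u : G)⁻¹ * t * e := by group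
  have hg : t = (u : G) * ((u : G)⁻¹ * t) := by group
  rw [hg]
  exact Subgroup.mul_mem_sup u.2 hc

end Cfsg.Agent.S1756
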