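import Cfsg.Statements.S1757
import Mathlib

set_option autoImplicit false
open Cfsg

namespace Cfsg.Agent.S1757

/-- Core lemma: if `B` normalizes `A`, `A ⊓ B = ⊥`, `B` meets each conjugate by an element of `A`
trivially or equals it, and `card A ≤ card B`, then every element of `A` commutes with every element of `B`. -/
theorem comm_of_ti {G : Type*} [Group G] [Finite G] (A B : Subgroup G)
    (hBti : ∀ g : G, B.map (MulAut.conj g).toMonoidHom = B ∨ B.map (MulAut.conj g).toMonoidHom ⊓ B = ⊥)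
    (hle : Nat.card ↥A ≤ Nat.card ↥B) (hAB : A ⊓ B = ⊥) (hN : B ≤ Subgroup.normalizer (A : Set G)) :
    ∀ a ∈ A, ∀ b ∈ B, b * a = a * b := by
  intro a ha b₀ hb₀
  by_contra hne
  have hnorm : ∀ b ∈ B, ∀ x ∈ A, b * x * b⁻¹ ∈ A := by
    intro b hb x hx
    exact (Subgroup.mem_normalizer_iff.mp (hN hb) x).mp hx
  rcases hBti a with h | h
  · -- a normalizes B
    have h1 : a * b₀ * a⁻¹ ∈ B := by
      rw [← h]
      exact ⟨b₀, hb₀, rfl⟩
    have h2 : a * b₀ * a⁻¹ * b₀⁻¹ ∈ A ⊓ B := by
      refine Subgroup.mem_inf.mpr ⟨?_, mul_mem h1 (inv_mem hb₀)⟩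
      have h3 := hnorm b₀ hb₀ a⁻¹ (inv_mem ha)
      have : a * b₀ * a⁻¹ * b₀⁻¹ = a * (b₀ * a⁻¹ * b₀⁻¹) := by group
      rw [this]
      exact mul_mem ha h3
    rw [hAB, Subgroup.mem_bot] at h2
    apply hne
    calc b₀ * a = (a * b₀ * a⁻¹ * b₀⁻¹)⁻¹ * (a * b₀) := by group
      _ = a * b₀ := by rw [h2]; group
  · -- C_B(a) = 1
    have hcent : ∀ b ∈ B, b * a = a * b → b = 1 := by
      intro b hb hba
      have : b ∈ B.map (MulAut.conj a).toMonoidHom ⊓ B := by
        refine Subgroup.mem_inf.mpr ⟨⟨b, hb, ?_⟩, hb⟩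
        show a * b * a⁻¹ = b
        rw [← hba]; group
      rw [h, Subgroup.mem_bot] at this
      exact this
    have ha1 : a ≠ 1 := by
      rintro rfl
      apply hne; simp
    let φ : B → A := fun b => ⟨(b : G) * a * (b : G)⁻¹, hnorm b b.2 a ha⟩
    have hφ : Function.Injective φ := by
      intro b b' hbb
      have h1 : (b : G) * a * (b : G)⁻¹ = (b' : G) * a * (b' : G)⁻¹ := congrArg Subtype.val hbb
      have h2 : ((b' : G)⁻¹ * b) * a = a * ((b' : G)⁻¹ * b) := by
        calc ((b' : G)⁻¹ * b) * a = (b' : G)⁻¹ * ((b : G) * a * (b : G)⁻¹) * b := by group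
          _ = (b' : G)⁻¹ * ((b' : G) * a * (b' : G)⁻¹) * b := by rw [h1]
          _ = a * ((b' : G)⁻¹ * b) := by group
      have h3 := hcent _ (mul_mem (inv_mem b'.2) b.2) h2
      apply Subtype.ext
      calc (b : G) = (b' : G) * ((b' : G)⁻¹ * b) := by group
        _ = b' := by rw [h3, mul_one]
    have hmiss : (1 : A) ∉ Set.range φ := by
      rintro ⟨b, hb⟩
      have h1 : (b : G) * a * (b : G)⁻¹ = 1 := congrArg Subtype.val hb
      apply ha1
      calc a = (b : G)⁻¹ * ((b : G) * a * (b : G)⁻¹) * b := by group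
        _ = 1 := by rw [h1]; group
    haveI : Fintype A := Fintype.ofFinite A
    haveI : Fintype B := Fintype.ofFinite B
    have := Fintype.card_lt_of_injective_of_notMem φ hφ hmiss
    rw [← Nat.card_eq_fintype_card, ← Nat.card_eq_fintype_card] at this
    omega

/-- Let p be a prime and A, B p-subgroups of the finite group G, each of which meets every conjugate of itself other than itself trivially. Suppose the order of A is at most that of B, A and B intersect trivially, and B normalizes A. Then A and B commute elementwise. -/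
theorem result {G : Type*} [Group G] [Finite G] (p : ℕ) [Fact p.Prime] (A B : Subgroup G)
    (hA : IsPGroup p ↥A) (hB : IsPGroup p ↥B)
    (hAti : ∀ g : G, A.map (MulAut.conj g).toMonoidHom = A ∨ A.map (MulAut.conj g).toMonoidHom ⊓ A = ⊥)
    (hBti : ∀ g : G, B.map (MulAut.conj g).toMonoidHom = B ∨ B.map (MulAut.conj g).toMonoidHom ⊓ B = ⊥)
    (hle : Nat.card ↥A ≤ Nat.card ↥B) (hAB : A ⊓ B = ⊥) (hN : B ≤ Subgroup.normalizer (A : Set G)) : ⁅A, B⁆ = ⊥ := by
  rw [Subgroup.commutator_eq_bot_iff_le_centralizer]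
  intro a ha
  rw [Subgroup.mem_centralizer_iff]
  intro b hb
  exact comm_of_ti A B hBti hle hAB hN a ha b hb

end Cfsg.Agent.S1757
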