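import Cfsg.Statements.S1780
import Mathlib

set_option autoImplicit false
open Cfsg

namespace Cfsg.Agent.S1780

theorem iter_agree {α : Type*} (f g : α → α) (U : α → Prop) (hfg : ∀ x, U x → f x = g x)
    (hg : ∀ x, U x → U (g x)) : ∀ n x, U x → f^[n] x = g^[n] x := by
  intro n
  induction n with
  | zero => intro x _; rfl
  | succ n ih =>
    intro x hx
    rw [Function.iterate_succ_apply, Function.iterate_succ_apply, hfg x hx]
    exact ih _ (hg x hx)

theorem norm_iter {A : Type*} [CommGroup A] : ∀ (k : ℕ) (s : MulAut A), s ^ (2 ^ k) = 1 →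
    ∀ v : A, v * v = 1 → (fun w => s w * w)^[2 ^ k] v = 1 := by
  intro k
  induction k with
  | zero =>
    intro s hs v hv
    simp only [pow_zero, pow_one] at hs
    simp [hs, hv]
  | succ k ih =>
    intro s hs v hv
    have hs2 : (s * s) ^ (2 ^ k) = 1 := by
      rw [← pow_two, ← pow_mul, ← pow_succ']; exact hs
    have h1 := ih (s * s) hs2 v hv
    rw [pow_succ', Function.iterate_mul, ← h1]
    apply iter_agree _ _ (fun x => x * x = 1)
    · intro x hx
      have hsx : s x * s x = 1 := by rw [← map_mul, hx, map_one]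
      show s (s x * x) * (s x * x) = s (s x) * x
      rw [map_mul]
      calc s (s x) * s x * (s x * x) = s (s x) * (s x * s x) * x := by group
        _ = s (s x) * x := by rw [hsx, mul_one]
    · intro x hx
      show s (s x) * x * (s (s x) * x) = 1
      rw [mul_mul_mul_comm, ← map_mul, ← map_mul, hx, map_one, map_one, mul_one]
    · exact hv

/-- Let A be a finite abelian 2-group and t an automorphism of A whose order is a power of 2. If every element of A fixed by t² is fixed by t, then t fixes every element of A. -/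
theorem result {A : Type*} [CommGroup A] [Finite A]
    (hA : IsPGroup 2 A) (t : MulAut A) (ht : ∃ k : ℕ, orderOf t = 2 ^ k) (hC : ∀ a : A, t (t a) = a → t a = a) :
    ∀ a : A, t a = a := by
  by_contra hcon
  push Not at hcon
  obtain ⟨a, ha⟩ := hcon
  obtain ⟨k, hk⟩ := ht
  have htk : t ^ (2 ^ k) = 1 := by rw [← hk]; exact pow_orderOf_eq_one t
  let W : A → Prop := fun w => w * w = 1 ∧ ∃ b : A, w = t b * b⁻¹
  let f : A → A := fun w => t w * w
  have hfW : ∀ w, W w → W (f w) := by
    rintro w ⟨hw, b, rfl⟩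
    refine ⟨?_, t b * b, ?_⟩
    · show t (t b * b⁻¹) * (t b * b⁻¹) * (t (t b * b⁻¹) * (t b * b⁻¹)) = 1
      rw [mul_mul_mul_comm, ← map_mul, hw, map_one, one_mul]
    · show t (t b * b⁻¹) * (t b * b⁻¹) = t (t b * b) * (t b * b)⁻¹
      simp only [map_mul, map_inv, mul_inv]
      group
  have hinj : ∀ w, W w → f w = 1 → w = 1 := by
    rintro w ⟨hw, b, rfl⟩ hf
    have h1 : t (t b) * b⁻¹ = 1 := by
      have : f (t b * b⁻¹) = t (t b) * b⁻¹ := by
        show t (t b * b⁻¹) * (t b * b⁻¹) = _
        simp only [map_mul, map_inv]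
        group
      rw [← this]; exact hf
    have h2 : t (t b) = b := by rw [mul_inv_eq_one] at h1; exact h1
    rw [hC b h2, mul_inv_cancel]
  have hiter : ∀ i w, W w → f^[i] w = 1 → w = 1 := by
    intro i
    induction i with
    | zero => intro w _ h; exact h
    | succ i ih =>
      intro w hw h
      rw [Function.iterate_succ_apply] at h
      exact hinj w hw (ih _ (hfW w hw) h)
  have hm1 : t a * a⁻¹ ≠ 1 := by rw [Ne, mul_inv_eq_one]; exact ha
  obtain ⟨j, hj⟩ := (IsPGroup.iff_orderOf.mp hA) (t a * a⁻¹)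
  have hj0 : j ≠ 0 := by
    rintro rfl
    rw [pow_zero, orderOf_eq_one_iff] at hj
    exact hm1 hj
  obtain ⟨i, rfl⟩ := Nat.exists_eq_succ_of_ne_zero hj0
  have hv2 : (t a * a⁻¹) ^ (2 ^ i) * (t a * a⁻¹) ^ (2 ^ i) = 1 := by
    rw [← pow_add, ← two_mul, ← pow_succ', ← hj]; exact pow_orderOf_eq_one _
  have hv1 : (t a * a⁻¹) ^ (2 ^ i) ≠ 1 := by
    intro h
    have h3 := orderOf_dvd_of_pow_eq_one h
    rw [hj] at h3
    have h4 := Nat.le_of_dvd (by positivity) h3
    have h5 : 2 ^ i < 2 ^ (i + 1) := Nat.pow_lt_pow_right (by norm_num) (Nat.lt_succ_self i)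
    omega
  have hvW : W ((t a * a⁻¹) ^ (2 ^ i)) := ⟨hv2, a ^ (2 ^ i), by rw [mul_pow, map_pow, inv_pow]⟩
  exact hv1 (hiter _ _ hvW (norm_iter k t htk _ hv2))

end Cfsg.Agent.S1780
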