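import Cfsg.Statements.S1781
import Mathlib
import Cfsg.Agent.S1757
import Cfsg.Agent.S1780

set_option autoImplicit false
open Cfsg

namespace Cfsg.Agent.S1781

open scoped IsMulCommutative

theorem mem_map_conj {G : Type*} [Group G] (H : Subgroup G) (g x : G) :
    x ∈ H.map (MulAut.conj g).toMonoidHom ↔ g⁻¹ * x * g ∈ H := by
  constructor
  · rintro ⟨y, hy, rfl⟩
    have : g⁻¹ * (MulAut.conj g).toMonoidHom y * g = y := by
      show g⁻¹ * (g * y * g⁻¹) * g = y
      group
    rw [this]; exact hy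
  · intro h
    refine ⟨g⁻¹ * x * g, h, ?_⟩
    show g * (g⁻¹ * x * g) * g⁻¹ = x
    group

theorem conj_mem_map_conj {G : Type*} [Group G] (H : Subgroup G) (g y : G) (hy : y ∈ H) :
    g * y * g⁻¹ ∈ H.map (MulAut.conj g).toMonoidHom := ⟨y, hy, rfl⟩

theorem map_conj_mul {G : Type*} [Group G] (H : Subgroup G) (g h : G) :
    (H.map (MulAut.conj h).toMonoidHom).map (MulAut.conj g).toMonoidHom =
      H.map (MulAut.conj (g * h)).toMonoidHom := by
  ext x
  rw [mem_map_conj, mem_map_conj, mem_map_conj]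
  have : h⁻¹ * (g⁻¹ * x * g) * h = (g * h)⁻¹ * x * (g * h) := by group
  rw [this]

theorem mem_normalizer_of_map_conj_eq {G : Type*} [Group G] (H : Subgroup G) (b : G)
    (h : H.map (MulAut.conj b).toMonoidHom = H) : b ∈ Subgroup.normalizer (H : Set G) := by
  rw [Subgroup.mem_normalizer_iff]
  intro x
  constructor
  · intro hx
    rw [← h]; exact conj_mem_map_conj H b x hx
  · intro hx
    rw [← h, mem_map_conj] at hx
    have : b⁻¹ * (b * x * b⁻¹) * b = x := by group
    rwa [this] at hx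

theorem main {G : Type*} [Group G] [Finite G] (A : Subgroup G)
    (hA2 : IsPGroup 2 ↥A) (hAa : IsMulCommutative ↥A)
    (hti : ∀ h : G, A.map (MulAut.conj h).toMonoidHom = A ∨ A.map (MulAut.conj h).toMonoidHom ⊓ A = ⊥)
    (g : G) (hg : A.map (MulAut.conj g).toMonoidHom ≠ A)
    (a : G) (haA : a ∈ A) (haN : a ∈ Subgroup.normalizer ((A.map (MulAut.conj g).toMonoidHom : Subgroup G) : Set G))
    (ha2 : a ^ 2 ≠ 1) : ⁅A, A.map (MulAut.conj g).toMonoidHom⁆ = ⊥ := by
  set B := A.map (MulAut.conj g).toMonoidHom with hB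
  have hBA : B ⊓ A = ⊥ := (hti g).resolve_left hg
  have hcommA : ∀ x ∈ A, ∀ y ∈ A, x * y = y * x := by
    intro x hx y hy
    exact congrArg Subtype.val (hAa.is_comm.comm ⟨x, hx⟩ ⟨y, hy⟩)
  have hBc : IsMulCommutative ↥B := by
    refine ⟨⟨?_⟩⟩
    rintro ⟨x, hx⟩ ⟨y, hy⟩
    obtain ⟨x', hx', rfl⟩ := hx
    obtain ⟨y', hy', rfl⟩ := hy
    apply Subtype.ext
    show (MulAut.conj g).toMonoidHom x' * (MulAut.conj g).toMonoidHom y' = (MulAut.conj g).toMonoidHom y' * (MulAut.conj g).toMonoidHom x'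
    rw [← map_mul, ← map_mul, hcommA x' hx' y' hy']
  have hB2 : IsPGroup 2 ↥B := hA2.map _
  have haB : ∀ b ∈ B, a * b * a⁻¹ ∈ B := fun b hb => (Subgroup.mem_normalizer_iff.mp haN b).mp hb
  have haB' : ∀ b ∈ B, a⁻¹ * b * a ∈ B := fun b hb => by
    have := (Subgroup.mem_normalizer_iff.mp (inv_mem haN) b).mp hb
    simpa using this
  -- the automorphism of B induced by a
  let t : MulAut ↥B :=
    { toFun := fun b => ⟨a * b * a⁻¹, haB b b.2⟩
      invFun := fun b => ⟨a⁻¹ * b * a, haB' b b.2⟩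
      left_inv := fun b => by apply Subtype.ext; show a⁻¹ * (a * (b : G) * a⁻¹) * a = b; group
      right_inv := fun b => by apply Subtype.ext; show a * (a⁻¹ * (b : G) * a) * a⁻¹ = b; group
      map_mul' := fun b c => by apply Subtype.ext; show a * ((b : G) * c) * a⁻¹ = a * b * a⁻¹ * (a * c * a⁻¹); group }
  have htpow : ∀ n : ℕ, ∀ b : ↥B, (((t ^ n) b : ↥B) : G) = a ^ n * b * (a ^ n)⁻¹ := by
    intro n
    induction n with
    | zero => intro b; simp
    | succ n ih =>
      intro b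
      rw [pow_succ', MulAut.mul_apply]
      show a * (((t ^ n) b : ↥B) : G) * a⁻¹ = _
      rw [ih b, pow_succ']; group
  have ht : ∃ k : ℕ, orderOf t = 2 ^ k := by
    obtain ⟨j, hj⟩ := (IsPGroup.iff_orderOf.mp hA2) ⟨a, haA⟩
    have h1 : a ^ (2 ^ j) = 1 := by
      have := pow_orderOf_eq_one (⟨a, haA⟩ : A)
      rw [hj] at this
      exact congrArg Subtype.val this
    have h2 : t ^ (2 ^ j) = 1 := by
      ext b
      rw [htpow, h1]; simp
    have h3 := orderOf_dvd_of_pow_eq_one h2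
    obtain ⟨i, -, hi⟩ := (Nat.dvd_prime_pow Nat.prime_two).mp h3
    exact ⟨i, hi⟩
  have hC : ∀ b : ↥B, t (t b) = b → t b = b := by
    intro b hb
    have h1 : a * (a * (b : G) * a⁻¹) * a⁻¹ = b := congrArg Subtype.val hb
    -- b commutes with a^2
    have h2 : (b : G) * a ^ 2 * (b : G)⁻¹ = a ^ 2 := by
      have : (b : G) = a ^ 2 * b * (a ^ 2)⁻¹ := by
        calc (b : G) = a * (a * (b : G) * a⁻¹) * a⁻¹ := h1.symm
          _ = a ^ 2 * b * (a ^ 2)⁻¹ := by rw [pow_two]; group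
      calc (b : G) * a ^ 2 * (b : G)⁻¹ = (a ^ 2 * b * (a ^ 2)⁻¹) * a ^ 2 * (b : G)⁻¹ := by rw [← this]
        _ = a ^ 2 := by group
    have h3 : A.map (MulAut.conj (b : G)).toMonoidHom = A := by
      refine (hti b).resolve_right ?_
      intro hbot
      have : a ^ 2 ∈ A.map (MulAut.conj (b : G)).toMonoidHom ⊓ A := by
        refine Subgroup.mem_inf.mpr ⟨?_, pow_mem haA 2⟩
        rw [← h2]; exact conj_mem_map_conj A b _ (pow_mem haA 2)
      rw [hbot, Subgroup.mem_bot] at this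
      exact ha2 this
    have h4 : a * (b : G) * a⁻¹ * (b : G)⁻¹ ∈ B ⊓ A := by
      refine Subgroup.mem_inf.mpr ⟨mul_mem (haB b b.2) (inv_mem b.2), ?_⟩
      have h5 : (b : G) * a⁻¹ * (b : G)⁻¹ ∈ A := by
        rw [← h3]; exact conj_mem_map_conj A b _ (inv_mem haA)
      have : a * (b : G) * a⁻¹ * (b : G)⁻¹ = a * ((b : G) * a⁻¹ * (b : G)⁻¹) := by group
      rw [this]; exact mul_mem haA h5
    rw [hBA, Subgroup.mem_bot] at h4
    apply Subtype.ext
    show a * (b : G) * a⁻¹ = b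
    calc a * (b : G) * a⁻¹ = a * (b : G) * a⁻¹ * (b : G)⁻¹ * b := by group
      _ = b := by rw [h4, one_mul]
  have hfix : ∀ b : ↥B, t b = b := Cfsg.Agent.S1780.result hB2 t ht hC
  have ha1 : a ≠ 1 := by rintro rfl; exact ha2 (one_pow 2)
  -- B normalizes A
  have hBN : B ≤ Subgroup.normalizer (A : Set G) := by
    intro b hb
    apply mem_normalizer_of_map_conj_eq
    refine (hti b).resolve_right ?_
    intro hbot
    have h1 : a * b * a⁻¹ = b := congrArg Subtype.val (hfix ⟨b, hb⟩)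
    have : a ∈ A.map (MulAut.conj b).toMonoidHom ⊓ A := by
      refine Subgroup.mem_inf.mpr ⟨?_, haA⟩
      have h2 : b * a * b⁻¹ = a := by
        calc b * a * b⁻¹ = (a * b * a⁻¹) * a * b⁻¹ := by rw [h1]
          _ = a := by group
      rw [← h2]; exact conj_mem_map_conj A b _ haA
    rw [hbot, Subgroup.mem_bot] at this
    exact ha1 this
  -- B is TI
  have hBti : ∀ x : G, B.map (MulAut.conj x).toMonoidHom = B ∨ B.map (MulAut.conj x).toMonoidHom ⊓ B = ⊥ := by
    intro x
    have e1 : B.map (MulAut.conj x).toMonoidHom = (A.map (MulAut.conj (g⁻¹ * x * g)).toMonoidHom).map (MulAut.conj g).toMonoidHom := by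
      rw [hB, map_conj_mul, map_conj_mul]
      congr 3
      group
    rcases hti (g⁻¹ * x * g) with h | h
    · left; rw [e1, h]
    · right
      rw [e1, hB, ← Subgroup.map_inf_eq _ _ _ (MulAut.conj g).injective, h, Subgroup.map_bot]
  have hcard : Nat.card ↥A ≤ Nat.card ↥B := by
    rw [hB, Subgroup.card_map_of_injective (MulAut.conj g).injective]
  have hAB : A ⊓ B = ⊥ := by rw [inf_comm]; exact hBA
  rw [Subgroup.commutator_eq_bot_iff_le_centralizer]
  intro x hx
  rw [Subgroup.mem_centralizer_iff]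
  intro b hb
  exact Cfsg.Agent.S1757.comm_of_ti A B hBti hcard hAB hBN x hx b hb

/-- Let A be an abelian 2-subgroup of the finite group G such that every conjugate of A equals A or meets A trivially, and let g ∈ G with g A g⁻¹ ≠ A. Then either the subgroup of those elements of A that normalize g A g⁻¹ is an elementary abelian 2-group, or A and g A g⁻¹ commute elementwise. -/
theorem result {G : Type*} [Group G] [Finite G] (A : Subgroup G)
    (hA2 : IsPGroup 2 ↥A) (hAa : IsMulCommutative ↥A)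
    (hti : ∀ h : G, A.map (MulAut.conj h).toMonoidHom = A ∨ A.map (MulAut.conj h).toMonoidHom ⊓ A = ⊥)
    (g : G) (hg : A.map (MulAut.conj g).toMonoidHom ≠ A) :
    Cfsg.IsElementaryAbelian 2 (A ⊓ Subgroup.normalizer ((A.map (MulAut.conj g).toMonoidHom : Subgroup G) : Set G)) ∨
      ⁅A, A.map (MulAut.conj g).toMonoidHom⁆ = ⊥ := by
  by_cases hall : ∀ a ∈ A ⊓ Subgroup.normalizer ((A.map (MulAut.conj g).toMonoidHom : Subgroup G) : Set G), a ^ 2 = 1
  · left
    refine ⟨⟨⟨?_⟩⟩, hall⟩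
    rintro ⟨x, hx⟩ ⟨y, hy⟩
    apply Subtype.ext
    show x * y = y * x
    exact congrArg Subtype.val (hAa.is_comm.comm ⟨x, (Subgroup.mem_inf.mp hx).1⟩ ⟨y, (Subgroup.mem_inf.mp hy).1⟩)
  · right
    push Not at hall
    obtain ⟨a, ha, ha2⟩ := hall
    exact main A hA2 hAa hti g hg a (Subgroup.mem_inf.mp ha).1 (Subgroup.mem_inf.mp ha).2 ha2

end Cfsg.Agent.S1781
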