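import Cfsg.Statements.S1958
import Mathlib
import Cfsg.Agent.Lib.Helper2.Signal2

set_option autoImplicit false
open Cfsg

namespace Cfsg.Agent.S1958

theorem bal_le {G : Type*} [Group G] [Finite G] (p : ℕ) [Fact p.Prime] (a b : G)
    (ha : a ^ p = 1) (hab : a * b = b * a)
    (hs : Group.IsSolvable ↥(Subgroup.centralizer ({b} : Set G))) :
    Cfsg.centralizerPPrimeCore p a ⊓ Subgroup.centralizer ({b} : Set G) ≤
      Cfsg.centralizerPPrimeCore p b := by
  have hp : p.Prime := Fact.out
  have hcardθ : ∀ a : G, (Nat.card ↥(Cfsg.centralizerPPrimeCore p a)).Coprime p := by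
    intro a
    unfold Cfsg.centralizerPPrimeCore
    rw [Subgroup.card_map_of_injective (Subgroup.subtype_injective _)]
    exact Cfsg.Agent.Lib.Helper2.pPrimeCore_card_coprime p _
  have hθle : ∀ a : G, Cfsg.centralizerPPrimeCore p a ≤ Subgroup.centralizer ({a} : Set G) := by
    intro a
    unfold Cfsg.centralizerPPrimeCore
    exact Subgroup.map_subtype_le _
  have hθn : ∀ a : G, Subgroup.centralizer ({a} : Set G) ≤
      Subgroup.normalizer ((Cfsg.centralizerPPrimeCore p a : Subgroup G) : Set G) := by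
    intro a
    unfold Cfsg.centralizerPPrimeCore
    exact Cfsg.Agent.Lib.Helper2.le_normalizer_map_subtype_of_normal _ _
  have hmemC : ∀ a b : G, a * b = b * a → b ∈ Subgroup.centralizer ({a} : Set G) := by
    intro a b hab
    rw [Subgroup.mem_centralizer_iff]
    intro x hx
    rw [Set.mem_singleton_iff] at hx
    subst hx
    exact hab
  have haC : a ∈ Subgroup.centralizer ({b} : Set G) := hmemC b a hab.symm
  have key := Cfsg.Agent.Lib.Helper2.pprime_le_pPrimeCore_of_solvable p hs
    (⟨a, haC⟩ : ↥(Subgroup.centralizer ({b} : Set G)))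
    (by apply Subtype.ext; exact ha)
    ((Cfsg.centralizerPPrimeCore p a ⊓ Subgroup.centralizer ({b} : Set G)).subgroupOf
      (Subgroup.centralizer ({b} : Set G))) ?_ ?_ ?_
  · intro g hg
    have h1 : (⟨g, hg.2⟩ : ↥(Subgroup.centralizer ({b} : Set G))) ∈
        Cfsg.pPrimeCore p ↥(Subgroup.centralizer ({b} : Set G)) :=
      key (Subgroup.mem_subgroupOf.mpr hg)
    exact ⟨_, h1, rfl⟩
  · rw [Nat.card_congr (Subgroup.subgroupOfEquivOfLe
      (inf_le_right : Cfsg.centralizerPPrimeCore p a ⊓ Subgroup.centralizer ({b} : Set G) ≤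
        Subgroup.centralizer ({b} : Set G))).toEquiv]
    intro hdvd
    exact (Nat.Prime.coprime_iff_not_dvd hp).mp (hcardθ a).symm
      (hdvd.trans (Subgroup.card_dvd_of_le inf_le_left))
  · intro d hd
    rw [Subgroup.mem_subgroupOf] at hd
    have h1 := hθle a hd.1
    rw [Subgroup.mem_centralizer_iff]
    intro x hx
    rw [Set.mem_singleton_iff] at hx
    subst hx
    apply Subtype.ext
    exact Subgroup.mem_centralizer_iff.mp h1 a rfl
  · intro h hh
    have hha : (h : G) ∈ Subgroup.centralizer ({a} : Set G) := by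
      apply hmemC
      have := Subgroup.mem_centralizer_iff.mp hh ⟨a, haC⟩ rfl
      exact congrArg Subtype.val this
    have hnorm : (h : G) ∈ Subgroup.normalizer
        ((Cfsg.centralizerPPrimeCore p a ⊓ Subgroup.centralizer ({b} : Set G) : Subgroup G) :
          Set G) :=
      Cfsg.Agent.Lib.Helper2.mem_normalizer_inf _ _ _ (hθn a hha) (Subgroup.le_normalizer h.2)
    rw [Subgroup.mem_normalizer_iff]
    intro x
    rw [Subgroup.mem_subgroupOf, Subgroup.mem_subgroupOf]
    exact Subgroup.mem_normalizer_iff.mp hnorm x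

theorem core_le_cent {G : Type*} [Group G] (p : ℕ) (a : G) :
    Cfsg.centralizerPPrimeCore p a ≤ Subgroup.centralizer ({a} : Set G) := by
  unfold Cfsg.centralizerPPrimeCore
  exact Subgroup.map_subtype_le _

/-- Let `G` be a finite group, `p` a prime, and `x, y` commuting elements of order `p` whose centralizers `C_G(x)` and `C_G(y)` are both solvable. Then `O_{p'}(C_G(x)) ∩ C_G(y) = O_{p'}(C_G(y)) ∩ C_G(x)` (balance). -/
theorem result {G : Type*} [Group G] [Finite G]
    (p : ℕ) [Fact p.Prime] (x y : G) (hx : orderOf x = p) (hy : orderOf y = p) (hxy : x * y = y * x)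
    (hCx : Group.IsSolvable ↥(Subgroup.centralizer ({x} : Set G))) (hCy : Group.IsSolvable ↥(Subgroup.centralizer ({y} : Set G))) :
    Cfsg.centralizerPPrimeCore p x ⊓ Subgroup.centralizer {y} = Cfsg.centralizerPPrimeCore p y ⊓ Subgroup.centralizer {x} := by
  have hxp : x ^ p = 1 := by rw [← hx]; exact pow_orderOf_eq_one x
  have hyp : y ^ p = 1 := by rw [← hy]; exact pow_orderOf_eq_one y
  apply le_antisymm
  · exact le_inf (bal_le p x y hxp hxy hCy) (inf_le_left.trans (core_le_cent p x))
  · exact le_inf (bal_le p y x hyp hxy.symm hCx) (inf_le_left.trans (core_le_cent p y))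

end Cfsg.Agent.S1958
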