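import Cfsg.Statements.S1961
import Mathlib
import Cfsg.Agent.Lib.Helper3.CtrlFusion
import Cfsg.Agent.S1963

set_option autoImplicit false
open Cfsg

namespace Cfsg.Agent.S1961

/-- Local-to-global control of strong fusion through well-placed subgroups. Let p be a prime, G a finite group with Sylow p-subgroup S, and W a conjugacy functor for p on G. If W controls strong fusion in N_G(T) for every nonidentity subgroup T of S that is well placed in S with respect to W, then W controls strong fusion in G. -/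
theorem result {G : Type*} [Group G] [Finite G] {p : ℕ} [Fact p.Prime] (S : Sylow p G) (W : Subgroup G → Subgroup G) (hW : Cfsg.IsConjugacyFunctor p W) (hloc : ∀ T : Subgroup G, T ≠ ⊥ → Cfsg.IsWellPlaced p W (S : Subgroup G) T → Cfsg.ControlsStrongFusionIn p W (Subgroup.normalizer ((T : Subgroup G) : Set G))) : Cfsg.ControlsStrongFusionIn p W ⊤ := by
  classical
  refine ⟨(S : Subgroup G), le_top, S.isPGroup', ?_, ?_⟩
  · rw [Subgroup.relIndex_top_right]; exact S.not_dvd_index
  · intro A h _ hA hAh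
    have hclaim : ∀ (A : Set G) (g : G),
        Cfsg.Agent.Lib.Helper3.FusGood {T : Subgroup G | Cfsg.IsWellPlaced p W (S : Subgroup G) T} A g →
        A ⊆ ((S : Subgroup G) : Set G) →
        ∃ y ∈ Subgroup.normalizer ((W (S : Subgroup G) : Subgroup G) : Set G),
          ∀ a ∈ A, y⁻¹ * a * y = g⁻¹ * a * g := by
      intro A g hgood
      induction hgood with
      | nil A => intro _; exact ⟨1, one_mem _, fun a _ => by simp⟩
      | cons A T x g hT hx hAT _ ih =>
        intro hAS
        have hrS : Cfsg.Agent.Lib.Helper3.rcj x A ⊆ ((S : Subgroup G) : Set G) := by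
          have h1 := Cfsg.Agent.Lib.Helper3.rcj_mono hAT x
          rw [Cfsg.Agent.Lib.Helper3.rcj_eq_of_mem_normalizer T x hx] at h1
          exact h1.trans hT.1
        obtain ⟨y', hy', hy'a⟩ := ih hrS
        have hstep : ∃ y'' ∈ Subgroup.normalizer ((W (S : Subgroup G) : Subgroup G) : Set G),
            ∀ a ∈ A, y''⁻¹ * a * y'' = x⁻¹ * a * x := by
          by_cases hTbot : T = ⊥
          · refine ⟨1, one_mem _, fun a ha => ?_⟩
            have h1 : a ∈ T := hAT ha
            rw [hTbot, Subgroup.mem_bot] at h1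
            rw [h1]; simp
          · obtain ⟨y₀, hy₀, hy₀a⟩ := Cfsg.Agent.Lib.Helper3.ctrl_fusion_key S W hW hloc _ T hTbot hT rfl A x⁻¹
              (inv_mem hx) (hAT.trans (le_inf hT.1 Subgroup.le_normalizer)) (by
                rintro _ ⟨a, ha, rfl⟩
                have h1 : x⁻¹ * a * x⁻¹⁻¹ ∈ T :=
                  (Subgroup.mem_normalizer_iff.mp (inv_mem hx) a).mp (hAT ha)
                exact (le_inf hT.1 Subgroup.le_normalizer : T ≤ _) h1)
            refine ⟨y₀⁻¹, inv_mem hy₀, fun a ha => ?_⟩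
            have h1 := hy₀a a ha
            rw [inv_inv] at h1 ⊢
            exact h1
        obtain ⟨y'', hy'', hy''a⟩ := hstep
        refine ⟨y'' * y', mul_mem hy'' hy', fun a ha => ?_⟩
        have h1 := hy''a a ha
        have h2 := hy'a (x⁻¹ * a * x) ⟨a, ha, rfl⟩
        calc (y'' * y')⁻¹ * a * (y'' * y') = y'⁻¹ * (y''⁻¹ * a * y'') * y' := by group
          _ = y'⁻¹ * (x⁻¹ * a * x) * y' := by rw [h1]
          _ = g⁻¹ * (x⁻¹ * a * x) * g := h2
          _ = (x * g)⁻¹ * a * (x * g) := by group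
    have hfam : ∀ T : Subgroup G, T ≤ (S : Subgroup G) →
        ∃ U ∈ {T : Subgroup G | Cfsg.IsWellPlaced p W (S : Subgroup G) T},
          (∃ g : G, T.map (MulAut.conj g).toMonoidHom = U) ∧
          ¬ p ∣ ((S : Subgroup G) ⊓ Subgroup.normalizer ((U : Subgroup G) : Set G)).relIndex
            (Subgroup.normalizer ((U : Subgroup G) : Set G)) := by
      intro T hT
      obtain ⟨g, hg⟩ := Cfsg.Agent.S1963.result S W hW T hT
      exact ⟨T.map (MulAut.conj g).toMonoidHom, hg, ⟨g, rfl⟩, hg.2 0⟩
    have hgood := Cfsg.Agent.Lib.Helper3.fusGood_of_fully_normalized S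
      {T : Subgroup G | Cfsg.IsWellPlaced p W (S : Subgroup G) T} (fun U hU => hU.1) hfam _
      (Subgroup.closure A) ((Subgroup.closure_le _).mpr hA) h⁻¹ (by
        rw [inv_inv, MonoidHom.map_closure, Subgroup.closure_le]
        rintro _ ⟨a, ha, rfl⟩
        exact hAh ⟨a, ha, rfl⟩) rfl
    obtain ⟨y, hy, hya⟩ := hclaim A h⁻¹ (hgood.mono Subgroup.subset_closure) hA
    refine ⟨y⁻¹, Subgroup.mem_inf.mpr ⟨Subgroup.mem_top _, inv_mem hy⟩, fun a ha => ?_⟩
    have h1 := hya a ha
    rw [inv_inv] at h1 ⊢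
    exact h1

end Cfsg.Agent.S1961
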