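import Cfsg.Statements.S1962
import Mathlib
import Cfsg.Agent.Lib.Helper3.CtrlTransfer
import Cfsg.Agent.S1963

set_option autoImplicit false
open Cfsg

namespace Cfsg.Agent.S1962

/-- Local-to-global control of transfer through well-placed subgroups. Let p be a prime, G a finite group with Sylow p-subgroup S, and W a conjugacy functor for p on G. If W controls transfer in N_G(T) for every nonidentity subgroup T of S that is well placed in S with respect to W, then W controls transfer in G: S ∩ G' = S ∩ (N_G(W(S)))'. -/
theorem result {G : Type*} [Group G] [Finite G] {p : ℕ} [Fact p.Prime] (S : Sylow p G) (W : Subgroup G → Subgroup G) (hW : Cfsg.IsConjugacyFunctor p W) (hloc : ∀ T : Subgroup G, T ≠ ⊥ → Cfsg.IsWellPlaced p W (S : Subgroup G) T → Cfsg.ControlsTransferIn p W (Subgroup.normalizer ((T : Subgroup G) : Set G))) : Cfsg.ControlsTransferIn p W ⊤ := by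
  classical
  refine ⟨(S : Subgroup G), le_top, S.isPGroup', ?_, ?_⟩
  · rw [Subgroup.relIndex_top_right]; exact S.not_dvd_index
  · rw [top_inf_eq]
    apply le_antisymm
    · apply le_inf inf_le_left
      apply Cfsg.Agent.Lib.Helper3.sylow_inf_commutator_le_of_focal S
      intro a ha g hag
      have hfam : ∀ T : Subgroup G, T ≤ (S : Subgroup G) →
          ∃ U ∈ {T : Subgroup G | Cfsg.IsWellPlaced p W (S : Subgroup G) T},
            (∃ g : G, T.map (MulAut.conj g).toMonoidHom = U) ∧
            ¬ p ∣ ((S : Subgroup G) ⊓ Subgroup.normalizer ((U : Subgroup G) : Set G)).relIndex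
              (Subgroup.normalizer ((U : Subgroup G) : Set G)) := by
        intro T hT
        obtain ⟨g, hg⟩ := Cfsg.Agent.S1963.result S W hW T hT
        exact ⟨T.map (MulAut.conj g).toMonoidHom, hg, ⟨g, rfl⟩, hg.2 0⟩
      have hgood := Cfsg.Agent.Lib.Helper3.fusGood_of_fully_normalized_set S
        {T : Subgroup G | Cfsg.IsWellPlaced p W (S : Subgroup G) T} (fun U hU => hU.1) hfam
        {a} g (by rintro _ rfl; exact ha) (by rintro _ ⟨_, rfl, rfl⟩; exact hag)
      exact Cfsg.Agent.Lib.Helper3.focal_of_fusGood (S : Subgroup G)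
        {T : Subgroup G | Cfsg.IsWellPlaced p W (S : Subgroup G) T} (fun U hU => hU.1) _
        (fun T hT hTbot => Cfsg.Agent.Lib.Helper3.ctrl_transfer_key S W hW hloc _ T hTbot hT rfl)
        {a} g hgood (by rintro _ rfl; exact ha) a rfl
    · exact inf_le_inf_left _ (Subgroup.commutator_mono le_top le_top)

end Cfsg.Agent.S1962
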