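import Cfsg.Statements.S1966
import Mathlib
import Cfsg.Agent.Lib.Helper4.PCore

set_option autoImplicit false
open Cfsg

namespace Cfsg.Agent.S1966

/-- Let p be a prime, G a finite group with Sylow p-subgroup S and 𝓕 a conjugation family for S in G. Then the members of 𝓕 containing O_p(G) still form a conjugation family for S in G. -/
theorem result {G : Type*} [Group G] [Finite G] {p : ℕ} [Fact p.Prime] (S : Sylow p G) (𝓕 : Set (Subgroup G)) (h : Cfsg.IsConjugationFamily 𝓕 (S : Subgroup G)) : Cfsg.IsConjugationFamily {T : Subgroup G | T ∈ 𝓕 ∧ Cfsg.pCore p G ≤ T} (S : Subgroup G) := by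
  classical
  obtain ⟨h1, h2⟩ := h
  have hQn : (Cfsg.pCore p G).Normal := Lib.Helper4.pCore_normal p G
  have hQS : Cfsg.pCore p G ≤ (S : Subgroup G) := Lib.Helper4.pCore_le_sylow S
  refine ⟨fun T hT => h1 T hT.1, ?_⟩
  intro A g hAne hAS hAg
  have hA' : (A ∪ (Cfsg.pCore p G : Set G)) ⊆ (S : Subgroup G) := Set.union_subset hAS hQS
  have hAg' : (fun a => g⁻¹ * a * g) '' (A ∪ (Cfsg.pCore p G : Set G)) ⊆ (S : Subgroup G) := by
    rintro _ ⟨a, ha | ha, rfl⟩
    · exact hAg ⟨a, ha, rfl⟩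
    · apply hQS
      have := hQn.conj_mem a ha g⁻¹
      simpa using this
  obtain ⟨n, T, x, hprod, hT, hx, h0, hstep⟩ := h2 (A ∪ (Cfsg.pCore p G : Set G)) g (hAne.mono Set.subset_union_left) hA' hAg'
  refine ⟨n, T, x, hprod, ?_, hx, fun h => Set.subset_union_left.trans (h0 h), ?_⟩
  · intro i
    refine ⟨hT i, ?_⟩
    rcases Nat.eq_zero_or_pos i.val with hi | hi
    · have hn : 0 < n := i.pos
      have : i = ⟨0, hn⟩ := Fin.ext hi
      rw [this]
      exact fun q hq => h0 hn (Or.inr hq)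
    · obtain ⟨j, hj⟩ := Nat.exists_eq_succ_of_ne_zero hi.ne'
      have hjn : j + 1 < n := by rw [← Nat.succ_eq_add_one, ← hj]; exact i.2
      have hjn' : j < n := by omega
      have := hstep ⟨j, hjn'⟩ hjn
      have hi' : i = ⟨j + 1, hjn⟩ := Fin.ext (by rw [hj])
      rw [hi']
      intro q hq
      apply this
      refine ⟨((List.ofFn x).take (j + 1)).prod * q * (((List.ofFn x).take (j + 1)).prod)⁻¹, Or.inr (hQn.conj_mem q hq _), ?_⟩
      show (((List.ofFn x).take (j + 1)).prod)⁻¹ * (((List.ofFn x).take (j + 1)).prod * q * (((List.ofFn x).take (j + 1)).prod)⁻¹) * ((List.ofFn x).take (j + 1)).prod = q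
      group
  · intro i hi
    exact (Set.image_mono Set.subset_union_left).trans (hstep i hi)

end Cfsg.Agent.S1966
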