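import Cfsg.Statements.S1967
import Mathlib
import Cfsg.Agent.Lib.Helper3.PRes

set_option autoImplicit false
open Cfsg

namespace Cfsg.Agent.S1967

/-- Let p be a prime, G a finite group with Sylow p-subgroup S and W a conjugacy functor for p on G. Then W controls strong fusion in G if and only if, whenever T ≤ S and g ∈ G satisfy gTg⁻¹ ≤ S, one can write g = n c with n ∈ N_G(W(S)) and c ∈ C_G(T). -/
theorem result {G : Type*} [Group G] [Finite G] {p : ℕ} [Fact p.Prime] (S : Sylow p G) (W : Subgroup G → Subgroup G) (hW : Cfsg.IsConjugacyFunctor p W) : Cfsg.ControlsStrongFusionIn p W ⊤ ↔ ∀ (T : Subgroup G) (g : G), T ≤ (S : Subgroup G) → T.map (MulAut.conj g).toMonoidHom ≤ (S : Subgroup G) → ∃ n ∈ Subgroup.normalizer ((W (S : Subgroup G) : Subgroup G) : Set G), ∃ c ∈ Subgroup.centralizer (T : Set G), g = n * c := by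
  constructor
  · rintro ⟨T', -, hT'p, hT'idx, hT'⟩
    rw [Subgroup.relIndex_top_right] at hT'idx
    obtain ⟨k, hk⟩ := Lib.Helper3.exists_map_conj_eq_sylow T' hT'p hT'idx S
    intro T g hTS hTg
    have hA1 : ((fun t => k⁻¹ * t * k) '' (T : Set G)) ⊆ T' := by
      rintro _ ⟨t, ht, rfl⟩
      have : t ∈ T'.map (MulAut.conj k).toMonoidHom := by rw [hk]; exact hTS ht
      exact (Lib.Helper3.mem_map_conj_iff T' k t).mp this
    have hA2 : (fun a => (k⁻¹ * g * k) * a * (k⁻¹ * g * k)⁻¹) '' ((fun t => k⁻¹ * t * k) '' (T : Set G)) ⊆ T' := by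
      rintro _ ⟨_, ⟨t, ht, rfl⟩, rfl⟩
      have h3 : g * t * g⁻¹ ∈ T'.map (MulAut.conj k).toMonoidHom := by rw [hk]; exact hTg ⟨t, ht, rfl⟩
      have h4 := (Lib.Helper3.mem_map_conj_iff T' k _).mp h3
      have : (k⁻¹ * g * k) * (k⁻¹ * t * k) * (k⁻¹ * g * k)⁻¹ = k⁻¹ * (g * t * g⁻¹) * k := by group
      show (k⁻¹ * g * k) * (k⁻¹ * t * k) * (k⁻¹ * g * k)⁻¹ ∈ T'
      rw [this]; exact h4
    obtain ⟨x, hx, hxa⟩ := hT' ((fun t => k⁻¹ * t * k) '' (T : Set G)) (k⁻¹ * g * k) (Subgroup.mem_top _) hA1 hA2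
    refine ⟨k * x * k⁻¹, ?_, (k * x * k⁻¹)⁻¹ * g, ?_, by group⟩
    · have h1 := (hW T' hT'p).2.2 k
      rw [hk] at h1
      rw [h1]
      exact Lib.Helper3.conj_mem_normalizer_map_conj (W T') k x (Subgroup.mem_inf.mp hx).2
    · rw [Subgroup.mem_centralizer_iff]
      intro t ht
      have := hxa (k⁻¹ * t * k) ⟨t, ht, rfl⟩
      have h2 : (k * x * k⁻¹) * t * (k * x * k⁻¹)⁻¹ = g * t * g⁻¹ := by
        calc (k * x * k⁻¹) * t * (k * x * k⁻¹)⁻¹ = k * (x * (k⁻¹ * t * k) * x⁻¹) * k⁻¹ := by group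
          _ = k * ((k⁻¹ * g * k) * (k⁻¹ * t * k) * (k⁻¹ * g * k)⁻¹) * k⁻¹ := by rw [this]
          _ = g * t * g⁻¹ := by group
      calc t * ((k * x * k⁻¹)⁻¹ * g) = (k * x * k⁻¹)⁻¹ * ((k * x * k⁻¹) * t * (k * x * k⁻¹)⁻¹) * g := by group
        _ = (k * x * k⁻¹)⁻¹ * (g * t * g⁻¹) * g := by rw [h2]
        _ = (k * x * k⁻¹)⁻¹ * g * t := by group
  · intro hall
    refine ⟨S, le_top, S.isPGroup', ?_, ?_⟩
    · rw [Subgroup.relIndex_top_right]; exact S.not_dvd_index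
    · intro A h _ hA hAh
      have hcl : Subgroup.closure A ≤ (S : Subgroup G) := (Subgroup.closure_le _).mpr hA
      have hcl2 : (Subgroup.closure A).map (MulAut.conj h).toMonoidHom ≤ (S : Subgroup G) := by
        rw [MonoidHom.map_closure, Subgroup.closure_le]
        exact hAh
      obtain ⟨n, hn, c, hc, rfl⟩ := hall (Subgroup.closure A) h hcl hcl2
      refine ⟨n, ⟨Subgroup.mem_top _, hn⟩, fun a ha => ?_⟩
      have hca : c * a = a * c := ((Subgroup.mem_centralizer_iff.mp hc) a (Subgroup.subset_closure ha)).symm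
      calc n * a * n⁻¹ = n * (a * c) * c⁻¹ * n⁻¹ := by group
        _ = n * (c * a) * c⁻¹ * n⁻¹ := by rw [hca]
        _ = n * c * a * (n * c)⁻¹ := by group

end Cfsg.Agent.S1967
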