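import Cfsg.Statements.S1969
import Mathlib
import Cfsg.Agent.Lib.Helper3.StrongFus

set_option autoImplicit false
universe u
open Cfsg

namespace Cfsg.Agent.S1969

open Cfsg.Agent.Lib.Helper3

/-- Let p be a prime, G a finite group and W an isomorphism-invariant p-group functor (W assigns to every group Q a subgroup W(Q), nontrivial whenever Q is a nontrivial finite p-group, and every isomorphism from a finite p-group Q onto a group R carries W(Q) onto W(R)). Suppose that W(S*) is normal in G* whenever G* = K/R is a section of G with C_{G*}(O_p(G*)) ≤ O_p(G*) and S* is a Sylow p-subgroup of G*. Then W controls strong fusion in every section of G: for every section K/R and every Sylow p-subgroup T of K/R, the subgroup W(T) controls strong fusion in K/R. -/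
theorem result {G : Type u} [Group G] [Finite G] {p : ℕ} [Fact p.Prime] (W : ∀ (Q : Type u) [Group Q], Subgroup Q) (hW : Cfsg.IsCharPFunctor.{u} p W) (hloc : ∀ (K R : Subgroup G) [hR : (R.subgroupOf K).Normal], Subgroup.centralizer ((Cfsg.pCore p (↥K ⧸ R.subgroupOf K) : Subgroup (↥K ⧸ R.subgroupOf K)) : Set (↥K ⧸ R.subgroupOf K)) ≤ Cfsg.pCore p (↥K ⧸ R.subgroupOf K) → ∀ T : Sylow p (↥K ⧸ R.subgroupOf K), (Cfsg.inducedFunctor (G := (↥K ⧸ R.subgroupOf K)) W ((T : Subgroup (↥K ⧸ R.subgroupOf K)))).Normal) : ∀ (K R : Subgroup G) [hR : (R.subgroupOf K).Normal], ∀ T : Sylow p (↥K ⧸ R.subgroupOf K), Cfsg.ControlsStrongFusion p (Cfsg.inducedFunctor (G := (↥K ⧸ R.subgroupOf K)) W ((T : Subgroup (↥K ⧸ R.subgroupOf K)))) := by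
  have h𝓦 : ∀ W' ∈ ({W} : Set (∀ (Q : Type u) [Group Q], Subgroup Q)),
      Cfsg.IsCharPFunctor.{u} p W' := by
    intro W' hW'
    rw [Set.mem_singleton_iff] at hW'
    rw [hW']; exact hW
  have hall := sfIn_all_sections h𝓦 G (by
    intro K R hR hc S _ hSp hSidx A g _ hA hAg
    have hidx' : ¬ p ∣ S.index := by rwa [Subgroup.relIndex_top_right] at hSidx
    have hn := hloc K R hc (hSp.toSylow hidx')
    rw [IsPGroup.toSylow_coe] at hn
    refine Good.single ⟨W, rfl, Subgroup.mem_inf.mpr ⟨Subgroup.mem_top _, ?_⟩⟩ hA hAg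
    rw [Subgroup.normalizer_eq_top]; exact Subgroup.mem_top _)
  intro K R hR T
  have hsf := hall (↥K ⧸ R.subgroupOf K) (SecOf.literal K R)
  refine ⟨T, inducedFunctor_le _, fun A hA => ⟨hA, fun g hg => ?_⟩⟩
  have hTidx : ¬ p ∣ (T : Subgroup (↥K ⧸ R.subgroupOf K)).relIndex ⊤ := by
    rw [Subgroup.relIndex_top_right]; exact T.not_dvd_index
  have h1 := hsf T le_top T.isPGroup' hTidx A g⁻¹ (Subgroup.mem_top _) hA (by
    rintro _ ⟨a, ha, rfl⟩
    have := hg ⟨a, ha, rfl⟩
    simpa using this)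
  obtain ⟨g', hch, hag⟩ := h1
  have hg'N : g' ∈ Subgroup.normalizer ((Cfsg.inducedFunctor W (T : Subgroup (↥K ⧸ R.subgroupOf K)) :
      Subgroup (↥K ⧸ R.subgroupOf K)) : Set (↥K ⧸ R.subgroupOf K)) := by
    apply RChain.mem_of_forall _ _ hch
    rintro x ⟨W', hW', hx⟩
    rw [Set.mem_singleton_iff] at hW'
    rw [hW'] at hx
    exact (Subgroup.mem_inf.mp hx).2
  refine ⟨g'⁻¹, inv_mem hg'N, fun a ha => ?_⟩
  have h2 := hag a ha
  rw [inv_inv] at h2 ⊢
  exact h2.symm

end Cfsg.Agent.S1969
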