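import Cfsg.Statements.S1970
import Mathlib
import Cfsg.Agent.Lib.Helper3.TransferRed

set_option autoImplicit false
universe u
open Cfsg

namespace Cfsg.Agent.S1970

open Cfsg.Agent.Lib.Helper3

/-- Let p be a prime, G a finite group and W an isomorphism-invariant p-group functor (W assigns to every group Q a subgroup W(Q), nontrivial whenever Q is a nontrivial finite p-group, and every isomorphism from a finite p-group Q onto a group R carries W(Q) onto W(R)). Suppose that for every section G* = K/R of G with C_{G*}(O_p(G*)) ≤ O_p(G*) and every Sylow p-subgroup S* of G*, one has O_p(G*) ∩ (G*)' = O_p(G*) ∩ (N_{G*}(W(S*)))'. Then W controls transfer in every section G* of G: S* ∩ (G*)' = S* ∩ (N_{G*}(W(S*)))' for a Sylow p-subgroup S* of G*. -/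
theorem result {G : Type u} [Group G] [Finite G] {p : ℕ} [Fact p.Prime] (W : ∀ (Q : Type u) [Group Q], Subgroup Q) (hW : Cfsg.IsCharPFunctor.{u} p W) (hloc : ∀ (K R : Subgroup G) [hR : (R.subgroupOf K).Normal], Subgroup.centralizer ((Cfsg.pCore p (↥K ⧸ R.subgroupOf K) : Subgroup (↥K ⧸ R.subgroupOf K)) : Set (↥K ⧸ R.subgroupOf K)) ≤ Cfsg.pCore p (↥K ⧸ R.subgroupOf K) → ∀ T : Sylow p (↥K ⧸ R.subgroupOf K), Cfsg.pCore p (↥K ⧸ R.subgroupOf K) ⊓ commutator (↥K ⧸ R.subgroupOf K) = Cfsg.pCore p (↥K ⧸ R.subgroupOf K) ⊓ ⁅Subgroup.normalizer ((Cfsg.inducedFunctor (G := (↥K ⧸ R.subgroupOf K)) W ((T : Subgroup (↥K ⧸ R.subgroupOf K))) : Subgroup (↥K ⧸ R.subgroupOf K)) : Set (↥K ⧸ R.subgroupOf K)), Subgroup.normalizer ((Cfsg.inducedFunctor (G := (↥K ⧸ R.subgroupOf K)) W ((T : Subgroup (↥K ⧸ R.subgroupOf K))) : Subgroup (↥K ⧸ R.subgroupOf K)) : Set (↥K ⧸ R.subgroupOf K))⁆) : ∀ (K R : Subgroup G) [hR : (R.subgroupOf K).Normal], Cfsg.ControlsTransferIn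 p (Cfsg.inducedFunctor (G := (↥K ⧸ R.subgroupOf K)) W) ⊤ := by
  intro K R hR
  have h𝓦 : ∀ W' ∈ ({W} : Set (∀ (Q : Type u) [Group Q], Subgroup Q)),
      Cfsg.IsCharPFunctor.{u} p W' := by
    intro W' hW'
    rw [Set.mem_singleton_iff] at hW'
    rw [hW']; exact hW
  have hgood : GoodIn p ({W} : Set (∀ (Q : Type u) [Group Q], Subgroup Q))
      (⊤ : Subgroup (↥K ⧸ R.subgroupOf K)) := by
    apply transfer_main h𝓦 (Nat.card (↥K ⧸ R.subgroupOf K)) _ le_rfl
    intro Y _ _ hY hYc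
    obtain ⟨K₁, R₁, hR₁, ⟨e⟩⟩ := (hY.trans (SecOf.literal K R)).exists_literal
    have hc' : Constrained p (↥K₁ ⧸ R₁.subgroupOf K₁) := hYc.of_equiv e
    have h1 := hloc K₁ R₁ hc'
    have h2 : HC p ({W} : Set (∀ (Q : Type u) [Group Q], Subgroup Q))
        (↥K₁ ⧸ R₁.subgroupOf K₁) := by
      intro S hSp hSidx
      have hidx' : ¬ p ∣ S.index := by rwa [Subgroup.relIndex_top_right] at hSidx
      have h3 := h1 (hSp.toSylow hidx')
      have hcoe : ((hSp.toSylow hidx' : Sylow p (↥K₁ ⧸ R₁.subgroupOf K₁)) :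
          Subgroup (↥K₁ ⧸ R₁.subgroupOf K₁)) = S := IsPGroup.toSylow_coe hSp hidx'
      rw [hcoe] at h3
      rw [← commutator_def, h3]
      intro x hx
      obtain ⟨hx1, hx2⟩ := Subgroup.mem_inf.mp hx
      exact mem_focIn_top_of_mem (Set.mem_singleton W)
        (pCore_le_of_relIndex_top S hSp hSidx hx1) hx2
    exact HC.of_equiv h𝓦 e.symm h2
  obtain ⟨T, -, hTp, hTidx⟩ := exists_sylow_relIndex p (⊤ : Subgroup (↥K ⧸ R.subgroupOf K))
  refine ⟨T, le_top, hTp, hTidx, le_antisymm ?_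
    (inf_le_inf_left _ (Subgroup.commutator_mono inf_le_left inf_le_left))⟩
  have h4 := hgood T le_top hTp hTidx
  refine le_trans h4 ?_
  unfold focIn
  rw [iSup_singleton]

end Cfsg.Agent.S1970
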