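import Cfsg.Statements.S1976
import Mathlib
import Cfsg.Agent.Lib.Helper3.KSeq

set_option autoImplicit false
open Cfsg

namespace Cfsg.Agent.S1976

/-- Let P be a finite p-group. The K-sequence of P is eventually constant on each parity: from some index on, every even-indexed term equals the lower K-infinity subgroup and every odd-indexed term equals the upper K-infinity subgroup. -/
theorem result {P : Type*} [Group P] [Finite P] {p : ℕ} [Fact p.Prime] (hP : IsPGroup p P) : ∃ n : ℕ, ∀ m : ℕ, n ≤ m → Cfsg.kSeqEven P m = Cfsg.kInfLower P ∧ Cfsg.kSeqOdd P m = Cfsg.kInfUpper P := by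
  have hanti : Antitone (Cfsg.kSeqOdd P) := Cfsg.Agent.Lib.Helper3.kSeqOdd_antitone
  have hmono : Monotone (Cfsg.kSeqEven P) := Cfsg.Agent.Lib.Helper3.kSeqEven_monotone
  obtain ⟨n, hn⟩ := WellFoundedGT.monotone_chain_condition (α := (Subgroup P)ᵒᵈ)
    ⟨fun k => OrderDual.toDual (Cfsg.kSeqOdd P k), fun a b hab => hanti hab⟩
  have hn' : ∀ m, n ≤ m → Cfsg.kSeqOdd P n = Cfsg.kSeqOdd P m := fun m hm => by
    have := hn m hm
    exact congrArg OrderDual.ofDual this
  have hodd : Cfsg.kInfUpper P = Cfsg.kSeqOdd P n := by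
    apply le_antisymm
    · exact iInf_le _ n
    · refine le_iInf fun k => ?_
      rcases le_total n k with h | h
      · rw [hn' k h]
      · exact hanti h
  have heven' : ∀ m, n ≤ m → Cfsg.kSeqEven P m = Cfsg.kSeqEven P n := fun m hm => by
    unfold Cfsg.kSeqEven
    rw [hn' m hm]
  have heven : Cfsg.kInfLower P = Cfsg.kSeqEven P n := by
    apply le_antisymm
    · refine iSup_le fun k => ?_
      rcases le_total n k with h | h
      · rw [heven' k h]
      · exact hmono h
    · exact le_iSup (Cfsg.kSeqEven P) n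
  refine ⟨n, fun m hm => ⟨?_, ?_⟩⟩
  · rw [heven, heven' m hm]
  · rw [hodd, hn' m hm]

end Cfsg.Agent.S1976
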