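import Cfsg.Statements.S1977
import Mathlib
import Cfsg.Agent.Lib.Helper3.KCent

set_option autoImplicit false
open Cfsg

namespace Cfsg.Agent.S1977

open Cfsg.Agent.Lib.Helper3

/-- Let P be a finite p-group. A member B that is maximal under inclusion in any one of the families used to build the K-sequence of P — the class-two family, the lower-star family relative to an odd-indexed term, or the upper-star family relative to an even-indexed term — contains its centralizer: C_P(B) ≤ B. -/
theorem result {P : Type*} [Group P] [Finite P] {p : ℕ} [Fact p.Prime] (hP : IsPGroup p P) (B : Subgroup P) (𝒦 : Set (Subgroup P)) (h𝒦 : 𝒦 = Cfsg.classTwoSubgroups P ∨ (∃ n, 𝒦 = Cfsg.kLowerStarFamily (Cfsg.kSeqOdd P n)) ∨ ∃ n, 𝒦 = Cfsg.kUpperStarFamily (Cfsg.kSeqEven P n)) (hB : B ∈ 𝒦) (hmax : ∀ C ∈ 𝒦, B ≤ C → C = B) : Subgroup.centralizer (B : Set P) ≤ B := by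
  by_contra hcon
  obtain ⟨x, hxC, hxB, hxt⟩ := exists_centralizing_mod hP B hcon
  have key : ∀ C ∈ 𝒦, B ≤ C → x ∈ C → False :=
    fun C hC hBC hxC' => hxB ((hmax C hC hBC) ▸ hxC')
  have hxs : x ∈ B ⊔ Subgroup.zpowers x :=
    (le_sup_right : Subgroup.zpowers x ≤ _) (Subgroup.mem_zpowers x)
  rcases h𝒦 with h | ⟨n, h⟩ | ⟨n, h⟩
  · subst h
    exact key _ (classTwo_sup_zpowers B hB x hxC) le_sup_left hxs
  · subst h
    have hQN : kSeqOdd P n ≤ Subgroup.normalizer (B : Set P) := hB.2.1
    exact key _ (kLower_sup_zpowers _ B hB x hxC (fun q hq => hxt q (hQN hq))) le_sup_left hxs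
  · subst h
    have hQN : kSeqEven P n ≤ Subgroup.normalizer (B : Set P) := by
      rw [le_normalizer_iff_commutator_le, Subgroup.commutator_comm]
      exact hB.2.trans inf_le_left
    exact key _ (kUpper_sup_zpowers _ B hB x hxC (fun q hq => hxt q (hQN hq))) le_sup_left hxs

end Cfsg.Agent.S1977
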