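import Cfsg.Statements.S1986
import Mathlib
import Cfsg.Agent.Lib.Helper3.WeakClApp

set_option autoImplicit false
universe u
open Cfsg

namespace Cfsg.Agent.S1986

open Cfsg.Agent.Lib.Helper3

/-- Let p be a prime, G a finite group with Sylow p-subgroup S, K the lower K-infinity subgroup of S, and Z the subgroup of p-th powers of elements of Z(S). Then every element of Z commuting with all of N_G(K) is weakly closed in S with respect to G, and every subgroup of Z that is normal in N_G(K) is weakly closed in S with respect to G. -/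
theorem result {G : Type u} [Group G] [Finite G] {p : ℕ} [Fact p.Prime] (S : Sylow p G) (Z : Subgroup G) (hZ : Z = Subgroup.closure ((fun z : G => z ^ p) '' (((S : Subgroup G) ⊓ Subgroup.centralizer (((S : Subgroup G) : Subgroup G) : Set G) : Subgroup G) : Set G))) : (∀ x ∈ Z ⊓ Subgroup.centralizer ((Subgroup.normalizer ((Cfsg.inducedFunctor Cfsg.kInfLower (S : Subgroup G) : Subgroup G) : Set G) : Subgroup G) : Set G), ∀ g : G, g * x * g⁻¹ ∈ (S : Subgroup G) → g * x * g⁻¹ = x) ∧ ∀ A : Subgroup G, A ≤ Z → Subgroup.normalizer ((Cfsg.inducedFunctor Cfsg.kInfLower (S : Subgroup G) : Subgroup G) : Set G) ≤ Subgroup.normalizer ((A : Subgroup G) : Set G) → Cfsg.IsWeaklyClosed A (S : Subgroup G) := by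
  exact weak_closure_quad_statement S (Cfsg.inducedFunctor Cfsg.kInfLower)
    (isConjugacyFunctor_inducedFunctor (isCharPFunctor_kInfLower p) G)
    (fun P _ => center_le_inducedFunctor_kInfLower P)
    (kInf_hloc_quad Cfsg.kInfLower (isCharPFunctor_kInfLower p) (fun _ _ _ _ h => Or.inl h)) Z hZ

end Cfsg.Agent.S1986
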