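import Cfsg.Statements.S1990
import Mathlib
import Cfsg.Agent.Lib.Helper3.Special
import Cfsg.Agent.Lib.Helper3.PStab
import Cfsg.Agent.S2005

set_option autoImplicit false
universe u
open Cfsg

namespace Cfsg.Agent.S1990

open Cfsg.Agent.Lib.Helper3

/-- Let p be an odd prime, G a finite group with Sylow p-subgroup S, and W an isomorphism-invariant p-group functor (W assigns to every group Q a subgroup W(Q), nontrivial whenever Q is a nontrivial finite p-group, and every isomorphism from a finite p-group Q onto a group R carries W(Q) onto W(R)). Suppose N_G(W(S)) has a normal p-complement, and W(T) controls strong fusion in every section G* = K/R of G all of whose sections are p-stable in the normalizer form, for every Sylow p-subgroup T of G*. Then G has a normal p-complement. -/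
theorem result {G : Type u} [Group G] [Finite G] {p : ℕ} [Fact p.Prime] (hp : p ≠ 2) (W : ∀ (Q : Type u) [Group Q], Subgroup Q) (hW : Cfsg.IsCharPFunctor.{u} p W) (S : Sylow p G) (hN : Cfsg.HasNormalPComplement p ↥(Subgroup.normalizer ((Cfsg.inducedFunctor (G := G) W (S : Subgroup G) : Subgroup G) : Set G))) (hctl : ∀ (K R : Subgroup G) [hR : (R.subgroupOf K).Normal], (∀ (K' R' : Subgroup (↥K ⧸ R.subgroupOf K)) [hR' : (R'.subgroupOf K').Normal], Cfsg.IsNormalizerPStable p (↥K' ⧸ R'.subgroupOf K')) → ∀ T : Sylow p (↥K ⧸ R.subgroupOf K), Cfsg.ControlsStrongFusion p (Cfsg.inducedFunctor (G := (↥K ⧸ R.subgroupOf K)) W (T : Subgroup (↥K ⧸ R.subgroupOf K)))) : Cfsg.HasNormalPComplement p G := by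
  apply Cfsg.Agent.S2005.result W hW S hN
  intro K R hR hcon hq T hTco
  have hPAbP := isPAbP_of_special hq (T : Subgroup (↥K ⧸ R.subgroupOf K)) T.isPGroup'
    T.not_dvd_index hTco
  have hsec : ∀ (K' R' : Subgroup (↥K ⧸ R.subgroupOf K)) [hR' : (R'.subgroupOf K').Normal],
      Cfsg.IsNormalizerPStable p (↥K' ⧸ R'.subgroupOf K') := by
    intro K' R' hR'
    exact (hPAbP.of_secOf (SecOf.literal K' R')).isNormalizerPStable hp
  obtain ⟨T', hWT', hctl'⟩ := hctl K R hsec T
  rw [← Subgroup.normalizer_eq_top_iff, eq_top_iff]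
  intro y _
  have hQT' : Cfsg.pCore p (↥K ⧸ R.subgroupOf K) ≤ (T' : Subgroup (↥K ⧸ R.subgroupOf K)) :=
    Cfsg.Agent.Lib.Helper4.pCore_le_sylow T'
  have hQn : (Cfsg.pCore p (↥K ⧸ R.subgroupOf K)).Normal := inferInstance
  obtain ⟨hA, hcf⟩ := hctl' (Cfsg.pCore p (↥K ⧸ R.subgroupOf K) : Set (↥K ⧸ R.subgroupOf K)) hQT'
  obtain ⟨x, hxN, hx⟩ := hcf y (by
    rintro _ ⟨a, ha, rfl⟩
    exact hQT' (hQn.conj_mem a ha y))
  have hc : x⁻¹ * y ∈ Subgroup.centralizer
      ((Cfsg.pCore p (↥K ⧸ R.subgroupOf K) : Subgroup (↥K ⧸ R.subgroupOf K)) :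
        Set (↥K ⧸ R.subgroupOf K)) := by
    rw [Subgroup.mem_centralizer_iff]
    intro a ha
    have h1 := hx a ha
    calc a * (x⁻¹ * y) = x⁻¹ * (x * a * x⁻¹) * y := by group
      _ = x⁻¹ * (y * a * y⁻¹) * y := by rw [h1]
      _ = x⁻¹ * y * a := by group
  have hQ := hcon hc
  have hT : x⁻¹ * y ∈ Subgroup.normalizer
      ((Cfsg.inducedFunctor W (T : Subgroup (↥K ⧸ R.subgroupOf K)) :
        Subgroup (↥K ⧸ R.subgroupOf K)) : Set (↥K ⧸ R.subgroupOf K)) :=
    le_normalizer_inducedFunctor hW _ T.isPGroup' (Cfsg.Agent.Lib.Helper4.pCore_le_sylow T hQ)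
  have hy : y = x * (x⁻¹ * y) := by group
  rw [hy]
  exact Subgroup.mul_mem _ hxN hT

end Cfsg.Agent.S1990
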