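import Cfsg.Statements.S1994
import Mathlib
import Cfsg.Agent.Lib.Helper3.StrongFus

set_option autoImplicit false
universe u
open Cfsg

namespace Cfsg.Agent.S1994

open Cfsg.Agent.Lib.Helper3

/-- Let p be a prime, G a finite group and 𝓦 a set of isomorphism-invariant p-group functors (each assigns to every group Q a subgroup W(Q), nontrivial whenever Q is a nontrivial finite p-group, with every isomorphism from a finite p-group Q onto a group R carrying W(Q) onto W(R)). If the conjugacy functors induced by 𝓦 control strong fusion in every section G* = K/R of G with C_{G*}(O_p(G*)) ≤ O_p(G*), then they control strong fusion in G. -/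
theorem result {G : Type u} [Group G] [Finite G] {p : ℕ} [Fact p.Prime] (𝓦 : Set (∀ (Q : Type u) [Group Q], Subgroup Q)) (h𝓦 : ∀ W ∈ 𝓦, Cfsg.IsCharPFunctor.{u} p W) (hloc : ∀ (K R : Subgroup G) [hR : (R.subgroupOf K).Normal], Subgroup.centralizer ((Cfsg.pCore p (↥K ⧸ R.subgroupOf K) : Subgroup (↥K ⧸ R.subgroupOf K)) : Set (↥K ⧸ R.subgroupOf K)) ≤ Cfsg.pCore p (↥K ⧸ R.subgroupOf K) → Cfsg.FamilyControlsStrongFusionIn p ((fun W => Cfsg.inducedFunctor (G := (↥K ⧸ R.subgroupOf K)) W) '' 𝓦) ⊤) : Cfsg.FamilyControlsStrongFusionIn p ((fun W => Cfsg.inducedFunctor (G := G) W) '' 𝓦) ⊤ := by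
  rw [← sfIn_iff_family h𝓦]
  apply fusion_main h𝓦 (Nat.card G) G le_rfl
  intro Y _ _ hY hYc
  obtain ⟨K, R, hR, ⟨e⟩⟩ := hY.exists_literal
  have hc' : Constrained p (↥K ⧸ R.subgroupOf K) := hYc.of_equiv e
  have h1 := hloc K R hc'
  rw [← sfIn_iff_family h𝓦] at h1
  have h2 := SFIn.map h𝓦 e.symm.toMonoidHom e.symm.injective ⊤ h1
  rwa [Subgroup.map_top_of_surjective _ e.symm.surjective] at h2

end Cfsg.Agent.S1994
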