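import Cfsg.Statements.S1996
import Mathlib
import Cfsg.Agent.Lib.Helper3.StrongFus

set_option autoImplicit false
universe u
open Cfsg

namespace Cfsg.Agent.S1996

open Cfsg.Agent.Lib.Helper3

/-- Let p be a prime, G a finite group and W₁, W₂ two isomorphism-invariant p-group functors (W assigns to every group Q a subgroup W(Q), nontrivial whenever Q is a nontrivial finite p-group, and every isomorphism from a finite p-group Q onto a group R carries W(Q) onto W(R)). Suppose that G* = N_{G*}(W₁(S*)) N_{G*}(W₂(S*)) whenever G* = K/R is a section of G with C_{G*}(O_p(G*)) ≤ O_p(G*) and S* is a Sylow p-subgroup of G*. Then the pair {W₁, W₂} controls strong fusion in G. -/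
theorem result {G : Type u} [Group G] [Finite G] {p : ℕ} [Fact p.Prime] (W₁ W₂ : ∀ (Q : Type u) [Group Q], Subgroup Q) (hW₁ : Cfsg.IsCharPFunctor.{u} p W₁) (hW₂ : Cfsg.IsCharPFunctor.{u} p W₂) (hfac : ∀ (K R : Subgroup G) [hR : (R.subgroupOf K).Normal], Subgroup.centralizer ((Cfsg.pCore p (↥K ⧸ R.subgroupOf K) : Subgroup (↥K ⧸ R.subgroupOf K)) : Set (↥K ⧸ R.subgroupOf K)) ≤ Cfsg.pCore p (↥K ⧸ R.subgroupOf K) → ∀ T : Sylow p (↥K ⧸ R.subgroupOf K), ∀ x : (↥K ⧸ R.subgroupOf K), ∃ a ∈ Subgroup.normalizer ((Cfsg.inducedFunctor (G := (↥K ⧸ R.subgroupOf K)) W₁ (T : Subgroup (↥K ⧸ R.subgroupOf K)) : Subgroup (↥K ⧸ R.subgroupOf K)) : Set (↥K ⧸ R.subgroupOf K)), ∃ b ∈ Subgroup.normalizer ((Cfsg.inducedFunctor (G := (↥K ⧸ R.subgroupOf K)) W₂ (T : Subgroup (↥K ⧸ R.subgroupOf K)) : Subgroup (↥K ⧸ R.subgroupOf K)) : Set (↥K ⧸ R.subgroupOf K)), x = a * b) : Cfsg.FamilyControlsStrongFusionIn p {Cfsg.inducedFunctor (G := G) W₁, Cfsg.inducedFunctor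 (G := G) W₂} ⊤ := by
  have h𝓦 : ∀ W' ∈ ({W₁, W₂} : Set (∀ (Q : Type u) [Group Q], Subgroup Q)),
      Cfsg.IsCharPFunctor.{u} p W' := by
    intro W' hW'
    rcases hW' with h | h
    · rw [h]; exact hW₁
    · rw [Set.mem_singleton_iff] at h
      rw [h]; exact hW₂
  have hall := sfIn_all_sections h𝓦 G (by
    intro K R hR hc S _ hSp hSidx A g _ hA hAg
    have hidx' : ¬ p ∣ S.index := by rwa [Subgroup.relIndex_top_right] at hSidx
    obtain ⟨a, ha, b, hb, hgab⟩ := hfac K R hc (hSp.toSylow hidx') g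
    rw [IsPGroup.toSylow_coe] at ha hb
    exact good_of_two_normalizers S hSp hidx' _ _ (le_normalizer_inducedFunctor hW₁ S hSp)
      (le_normalizer_inducedFunctor hW₂ S hSp)
      (sStep ({W₁, W₂} : Set (∀ (Q : Type u) [Group Q], Subgroup Q)) ⊤ S)
      (fun x hx => ⟨W₁, Set.mem_insert _ _, Subgroup.mem_inf.mpr ⟨Subgroup.mem_top _, hx⟩⟩)
      (fun x hx => ⟨W₂, Set.mem_insert_of_mem _ rfl, Subgroup.mem_inf.mpr ⟨Subgroup.mem_top _, hx⟩⟩)
      A g a b ha hb hgab hA hAg)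
  have h1 := (sfIn_iff_family h𝓦 ⊤).mp (hall G (SecOf.refl G))
  rw [Set.image_pair] at h1
  exact h1

end Cfsg.Agent.S1996
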