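import Cfsg.Statements.S1998
import Mathlib
import Cfsg.Agent.Lib.Helper3.TransferChief

set_option autoImplicit false
universe u
open Cfsg

namespace Cfsg.Agent.S1998

open Cfsg.Agent.Lib.Helper3
open Cfsg.Agent.Lib.Helper4

/-- Let p be a prime, G a finite group with Sylow p-subgroup S, and 𝓦 a nonempty set of isomorphism-invariant p-group functors (W assigns to every group Q a subgroup W(Q), nontrivial whenever Q is a nontrivial finite p-group, and every isomorphism from a finite p-group Q onto a group R carries W(Q) onto W(R)). Suppose the induced conjugacy functors control transfer in every section of G other than G itself, but not in G. Let T be the subgroup generated by the S ∩ (N_G(W(S)))', W ∈ 𝓦, and M = N_G(T ∩ O_p(G)). Then: C_G(O_p(G)) ≤ O_p(G); M is a proper subgroup of G containing every proper subgroup of G that contains S (the unique maximal subgroup over S); [O_p(G), M] ≤ O_p(G) ∩ M' ≤ O_p(G) ∩ T; and every element u of S outside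 O_p(G) satisfies [X, u, …, u] ≰ Y with p − 1 entries u, for some chief factor X/Y of G with X ≤ O_p(G). -/
theorem result {G : Type u} [Group G] [Finite G] {p : ℕ} [Fact p.Prime] (S : Sylow p G) (𝓦 : Set (∀ (Q : Type u) [Group Q], Subgroup Q)) (h𝓦 : ∀ W ∈ 𝓦, Cfsg.IsCharPFunctor.{u} p W) (hne : 𝓦.Nonempty) (hsec : ∀ (K R : Subgroup G) [hR : (R.subgroupOf K).Normal], (K = ⊤ → R ≠ ⊥) → Cfsg.FamilyControlsTransferIn p ((fun W => Cfsg.inducedFunctor (G := (↥K ⧸ R.subgroupOf K)) W) '' 𝓦) ⊤) (hG : ¬ Cfsg.FamilyControlsTransferIn p ((fun W => Cfsg.inducedFunctor (G := G) W) '' 𝓦) ⊤) (T M : Subgroup G) (hT : T = (⨆ W ∈ 𝓦, (S : Subgroup G) ⊓ ⁅Subgroup.normalizer ((Cfsg.inducedFunctor (G := G) W (S : Subgroup G) : Subgroup G) : Set G), Subgroup.normalizer ((Cfsg.inducedFunctor (G := G) W (S : Subgroup G) : Subgroup G) : Set G)⁆)) (hM : M = Subgroup.normalizer ((T ⊓ Cfsg.pCore p G : Subgroup G) : Set G)) : Subgroup.centralizer ((Cfsg.pCore p G : Subgroup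 G) : Set G) ≤ Cfsg.pCore p G ∧ (M ≠ ⊤ ∧ ∀ H : Subgroup G, (S : Subgroup G) ≤ H → H ≠ ⊤ → H ≤ M) ∧ (⁅Cfsg.pCore p G, M⁆ ≤ Cfsg.pCore p G ⊓ ⁅M, M⁆ ∧ Cfsg.pCore p G ⊓ ⁅M, M⁆ ≤ Cfsg.pCore p G ⊓ T) ∧ ∀ u : G, u ∈ (S : Subgroup G) → u ∉ Cfsg.pCore p G → ∃ U V : Subgroup G, Cfsg.IsChiefFactor U V ∧ U ≤ Cfsg.pCore p G ∧ ¬ Cfsg.iterCommutator U (Subgroup.zpowers u) (p - 1) ≤ V := by
  classical
  have hQn : (Cfsg.pCore p G).Normal := pCore_normal p G
  have hbad : ¬ (S : Subgroup G) ⊓ ⁅(⊤ : Subgroup G), ⊤⁆ ≤ focIn 𝓦 ⊤ (S : Subgroup G) := by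
    intro hle
    apply hG
    refine ⟨S, le_top, S.isPGroup', ?_, ?_⟩
    · rw [Subgroup.relIndex_top_right]
      exact S.not_dvd_index
    · have h1 := focIn_eq_image 𝓦 (⊤ : Subgroup G) (S : Subgroup G)
      have h2 := focIn_le 𝓦 (⊤ : Subgroup G) (S : Subgroup G)
      rw [← h1]
      exact le_antisymm hle h2
  have hmin : MinCE p 𝓦 G (S : Subgroup G) := by
    apply minCE_of_sections h𝓦 hne (S : Subgroup G) S.isPGroup' S.not_dvd_index ?_ hbad
    intro K R hR hlt
    rw [goodIn_iff_family h𝓦]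
    apply hsec K R
    intro hK hRb
    subst hK
    subst hRb
    rw [card_top_quotient_bot] at hlt
    exact lt_irrefl _ hlt
  have hTeq : T = focIn 𝓦 ⊤ (S : Subgroup G) := by
    rw [hT]
    unfold focIn
    simp only [top_inf_eq]
  subst hTeq
  have hSM : (S : Subgroup G) ≤ M := by
    rw [hM]
    exact hmin.S_le_M
  have hMtop : M ≠ ⊤ := by
    rw [hM]
    exact hmin.M_ne_top
  have hQM : Cfsg.pCore p G ≤ M := hmin.pCore_le.trans hSM
  refine ⟨hmin.constrained, ⟨hMtop, ?_⟩, ⟨?_, ?_⟩, ?_⟩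
  · intro H hSH hH
    rw [hM]
    exact hmin.le_M H hSH hH
  · exact le_inf (Subgroup.commutator_le_left _ _) (Subgroup.commutator_mono hQM le_rfl)
  · exact le_inf inf_le_left
      ((inf_le_inf_right _ hmin.pCore_le).trans (hmin.inf_commutator_le M hSM hMtop))
  · intro u huS huQ
    exact hmin.exists_chief u huS huQ

end Cfsg.Agent.S1998
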