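import Cfsg.Statements.S2007
import Mathlib
import Cfsg.Agent.Lib.Helper3.PComplement

set_option autoImplicit false
open Cfsg

namespace Cfsg.Agent.S2007

/-- Let p be a prime, G a finite group with Sylow p-subgroup S, and T a normal subgroup of S containing C_S(T). If N_G(T)/C_G(T) is a p-group (every element of N_G(T) of order prime to p centralizes T), then N_G(T) has a normal p-complement. -/
theorem result {G : Type*} [Group G] [Finite G] {p : ℕ} [Fact p.Prime] (S : Sylow p G) (T : Subgroup G) (hTS : T ≤ (S : Subgroup G)) (hTn : (S : Subgroup G) ≤ Subgroup.normalizer ((T : Subgroup G) : Set G)) (hC : (S : Subgroup G) ⊓ Subgroup.centralizer ((T : Subgroup G) : Set G) ≤ T) (hN : ∀ g ∈ Subgroup.normalizer ((T : Subgroup G) : Set G), (orderOf g).Coprime p → g ∈ Subgroup.centralizer ((T : Subgroup G) : Set G)) : Cfsg.HasNormalPComplement p ↥(Subgroup.normalizer ((T : Subgroup G) : Set G)) := by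
  classical
  set N := Subgroup.normalizer ((T : Subgroup G) : Set G) with hNdef
  have hTn' : (T.subgroupOf N).Normal := Subgroup.normal_in_normalizer
  apply Lib.Helper3.hasNormalPComplement_of_centralizer (S.subtype hTn) (T.subgroupOf N)
  · rintro x ⟨hxS, hxC⟩
    have h1 : (x : G) ∈ (S : Subgroup G) := hxS
    have h2 : (x : G) ∈ Subgroup.centralizer ((T : Subgroup G) : Set G) := by
      rw [Subgroup.mem_centralizer_iff]
      intro t ht
      have := (Subgroup.mem_centralizer_iff.mp hxC) ⟨t, Subgroup.le_normalizer ht⟩ ht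
      exact congrArg Subtype.val this
    exact hC ⟨h1, h2⟩
  · intro g hg
    have h1 : (g : G) ∈ Subgroup.centralizer ((T : Subgroup G) : Set G) :=
      hN g g.2 (by rwa [Subgroup.orderOf_coe])
    rw [Subgroup.mem_centralizer_iff]
    intro t ht
    apply Subtype.ext
    exact (Subgroup.mem_centralizer_iff.mp h1) (t : G) ht

end Cfsg.Agent.S2007
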