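import Cfsg.Statements.S2009
import Mathlib

set_option autoImplicit false
open Cfsg

namespace Cfsg.Agent.S2009

theorem normal_eq_bot {H : Type*} [Group H] [Finite H] (z : H) (hz : orderOf z = 2)
    (hN : ∀ N : Subgroup H, N.Normal → N ≠ ⊤ → N ⊓ Subgroup.centralizer ({z} : Set H) = ⊥)
    (E : Subgroup H) (hE : IsKleinFour ↥E) (hzE : z ∈ E) (hc : ∀ e ∈ E, e ≠ 1 → IsConj z e)
    (N : Subgroup H) [hNn : N.Normal] (hNt : N ≠ ⊤) : N = ⊥ := by
  have hz1 : z ≠ 1 := by
    intro h; rw [h, orderOf_one] at hz; omega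
  have hzz : z * z = 1 := by
    have := pow_orderOf_eq_one z; rw [hz, pow_two] at this; exact this
  -- Claim A
  have hA : ∀ e ∈ E, e ≠ 1 → ∀ n ∈ N, e * n = n * e → n = 1 := by
    intro e he he1 n hn hcomm
    obtain ⟨c, hcz⟩ := isConj_iff.mp (hc e he he1)
    -- hcz : c * z * c⁻¹ = e
    have h1 : c⁻¹ * n * c ∈ N ⊓ Subgroup.centralizer ({z} : Set H) := by
      refine Subgroup.mem_inf.mpr ⟨?_, ?_⟩
      · have := hNn.conj_mem n hn c⁻¹
        simpa using this
      · rw [Subgroup.mem_centralizer_singleton_iff]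
        have : e = c * z * c⁻¹ := hcz.symm
        rw [this] at hcomm
        calc c⁻¹ * n * c * z = c⁻¹ * (n * (c * z * c⁻¹)) * c := by group
          _ = c⁻¹ * ((c * z * c⁻¹) * n) * c := by rw [hcomm]
          _ = z * (c⁻¹ * n * c) := by group
    rw [hN N hNn hNt, Subgroup.mem_bot] at h1
    calc n = c * (c⁻¹ * n * c) * c⁻¹ := by group
      _ = 1 := by rw [h1]; group
  -- every element of E squares to one
  have hsq : ∀ e ∈ E, e * e = 1 := by
    intro e he
    have h2 : (⟨e, he⟩ : E) ^ 2 = 1 := by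
      have := Monoid.pow_exponent_eq_one (⟨e, he⟩ : E)
      rwa [hE.exponent_two] at this
    have := congrArg Subtype.val h2
    simpa [pow_two] using this
  -- Claim B
  have hB : ∀ e ∈ E, e ≠ 1 → ∀ n ∈ N, e * n * e⁻¹ = n⁻¹ := by
    intro e he he1
    have hee := hsq e he
    have heinv : e⁻¹ = e := inv_eq_of_mul_eq_one_left hee
    let φ : N → N := fun n => ⟨(n : H)⁻¹ * (e * n * e⁻¹), mul_mem (inv_mem n.2) (hNn.conj_mem n n.2 e)⟩
    have hinj : Function.Injective φ := by
      intro n m hnm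
      have h1 : (n : H)⁻¹ * (e * n * e⁻¹) = (m : H)⁻¹ * (e * m * e⁻¹) := congrArg Subtype.val hnm
      have h2 : e * ((m : H) * (n : H)⁻¹) = ((m : H) * (n : H)⁻¹) * e := by
        have : (m : H) * (n : H)⁻¹ = e * m * e⁻¹ * (e * n * e⁻¹)⁻¹ := by
          have h3 : (e * n * e⁻¹) = (n : H) * ((m : H)⁻¹ * (e * m * e⁻¹)) := by
            rw [← h1]; group
          rw [h3]; group
        calc e * ((m : H) * (n : H)⁻¹) = e * (m : H) * e⁻¹ * (e * n * e⁻¹)⁻¹ * e := by group
          _ = ((m : H) * (n : H)⁻¹) * e := by rw [← this]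
      have h3 := hA e he he1 _ (mul_mem m.2 (inv_mem n.2)) h2
      apply Subtype.ext
      have : (m : H) = n := by
        calc (m : H) = (m : H) * (n : H)⁻¹ * n := by group
          _ = n := by rw [h3, one_mul]
      exact this.symm
    have hsurj : Function.Surjective φ := Finite.surjective_of_injective hinj
    intro x hx
    obtain ⟨n, hn⟩ := hsurj ⟨x, hx⟩
    have hx' : x = (n : H)⁻¹ * (e * n * e⁻¹) := (congrArg Subtype.val hn).symm
    rw [hx']
    have hee' : e⁻¹ * e⁻¹ = 1 := by rw [heinv, hee]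
    calc e * ((n : H)⁻¹ * (e * n * e⁻¹)) * e⁻¹ = e * (n : H)⁻¹ * e * n * (e⁻¹ * e⁻¹) := by group
      _ = e * (n : H)⁻¹ * e * n := by rw [hee', mul_one]
      _ = e * (n : H)⁻¹ * e⁻¹ * n := by rw [heinv]
      _ = ((n : H)⁻¹ * (e * n * e⁻¹))⁻¹ := by group
  -- find a second involution
  have hex : ∃ e₂ ∈ E, e₂ ≠ 1 ∧ e₂ ≠ z := by
    by_contra hcon
    push Not at hcon
    have hsub : (E : Set H) ⊆ {1, z} := by
      intro x hx
      by_cases h1 : x = 1
      · left; exact h1
      · right; exact hcon x hx h1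
    have hcard : Nat.card E ≤ 2 := by
      have h0 : Nat.card E = (E : Set H).ncard := (Nat.card_coe_set_eq (E : Set H))
      rw [h0]
      calc (E : Set H).ncard ≤ ({1, z} : Set H).ncard := Set.ncard_le_ncard hsub (Set.toFinite _)
        _ ≤ 2 := (Set.ncard_insert_le _ _).trans (by simp)
    have := hE.card_four
    omega
  obtain ⟨e₂, he₂, he₂1, he₂z⟩ := hex
  have he₃ : z * e₂ ≠ 1 := by
    intro h
    apply he₂z
    calc e₂ = z * (z * e₂) := by rw [← mul_assoc, hzz, one_mul]
      _ = z := by rw [h, mul_one]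
  rw [Subgroup.eq_bot_iff_forall]
  intro n hn
  apply hA (z * e₂) (mul_mem hzE he₂) he₃ n hn
  have h1 := hB z hzE hz1
  have h2 := hB e₂ he₂ he₂1 n hn
  have h3 := h1 n⁻¹ (inv_mem hn)
  rw [inv_inv] at h3
  calc z * e₂ * n = z * (e₂ * n * e₂⁻¹) * z⁻¹ * (z * e₂) := by group
    _ = n * (z * e₂) := by rw [h2, h3]

/-- Let H be a finite group and z an involution such that every proper normal subgroup of H meets the centralizer of z trivially, and suppose z lies in a Klein four-subgroup E of H all three of whose involutions are conjugate to z in H. Then H is simple. -/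
theorem result {H : Type*} [Group H] [Finite H] (z : H) (hz : orderOf z = 2) (hN : ∀ N : Subgroup H, N.Normal → N ≠ ⊤ → N ⊓ Subgroup.centralizer ({z} : Set H) = ⊥) (E : Subgroup H) (hE : IsKleinFour ↥E) (hzE : z ∈ E) (hc : ∀ e ∈ E, e ≠ 1 → IsConj z e) : IsSimpleGroup H := by
  have hz1 : z ≠ 1 := by
    intro h; rw [h, orderOf_one] at hz; omega
  have : Nontrivial H := ⟨⟨z, 1, hz1⟩⟩
  refine ⟨fun N hNn => ?_⟩
  by_cases hNt : N = ⊤
  · right; exact hNt
  · left; exact normal_eq_bot z hz hN E hE hzE hc N hNt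

end Cfsg.Agent.S2009
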