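import Cfsg.Statements.S2008
import Mathlib
import Cfsg.Agent.S2009

set_option autoImplicit false
open Cfsg

namespace Cfsg.Agent.S2008

/-- Let H be a finite group and z an involution such that every proper normal subgroup of H meets the centralizer of z trivially, and suppose z lies in a Klein four-subgroup E of H all three of whose involutions are conjugate to z in H. Then H has no non-trivial abelian normal subgroup. -/
theorem result {H : Type*} [Group H] [Finite H] (z : H) (hz : orderOf z = 2) (hN : ∀ N : Subgroup H, N.Normal → N ≠ ⊤ → N ⊓ Subgroup.centralizer ({z} : Set H) = ⊥) (E : Subgroup H) (hE : IsKleinFour ↥E) (hzE : z ∈ E) (hc : ∀ e ∈ E, e ≠ 1 → IsConj z e) (N : Subgroup H) [N.Normal] (hab : IsMulCommutative ↥N) : N = ⊥ := by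
  by_cases hNt : N = ⊤
  · exfalso
    have hcomm : ∀ a b : H, a * b = b * a := by
      intro a b
      have ha : a ∈ N := by rw [hNt]; exact Subgroup.mem_top a
      have hb : b ∈ N := by rw [hNt]; exact Subgroup.mem_top b
      have := hab.is_comm.comm ⟨a, ha⟩ ⟨b, hb⟩
      exact congrArg Subtype.val this
    have hz1 : z ≠ 1 := by
      intro h; rw [h, orderOf_one] at hz; omega
    have hall : ∀ e ∈ E, e ≠ 1 → e = z := by
      intro e he he1
      obtain ⟨c, hcz⟩ := isConj_iff.mp (hc e he he1)
      rw [← hcz, hcomm c z, mul_assoc, mul_inv_cancel, mul_one]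
    have hsub : (E : Set H) ⊆ {1, z} := by
      intro x hx
      by_cases h1 : x = 1
      · left; exact h1
      · right; exact hall x hx h1
    have hcard : Nat.card E ≤ 2 := by
      have h0 : Nat.card E = (E : Set H).ncard := (Nat.card_coe_set_eq (E : Set H))
      rw [h0]
      calc (E : Set H).ncard ≤ ({1, z} : Set H).ncard := Set.ncard_le_ncard hsub (Set.toFinite _)
        _ ≤ 2 := (Set.ncard_insert_le _ _).trans (by simp)
    have := hE.card_four
    omega
  · exact Cfsg.Agent.S2009.normal_eq_bot z hz hN E hE hzE hc N hNt

end Cfsg.Agent.S2008
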