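import Cfsg.Statements.S2298
import Mathlib
import Cfsg.Agent.Lib.Helper4.GL2CharG

set_option autoImplicit false
open Cfsg

namespace Cfsg.Agent.S2298

open Cfsg.Agent.Lib.Helper4 in

/-- Over a finite field F with q elements, every irreducible complex character of GL₂ has degree 1, q − 1, q or q + 1; and when q ≥ 3 (so that these four numbers are distinct) there are exactly q − 1 irreducible characters of degree 1, exactly q − 1 of degree q, exactly (q − 1)(q − 2)/2 of degree q + 1 and exactly q(q − 1)/2 of degree q − 1. -/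
theorem result {F : Type*} [Field F] [Fintype F] :
    (∀ χ : Matrix.GeneralLinearGroup (Fin 2) F → ℂ, Cfsg.IsIrrCharacter (Matrix.GeneralLinearGroup (Fin 2) F) χ →
      χ 1 = 1 ∨ χ 1 = (Fintype.card F : ℂ) - 1 ∨ χ 1 = (Fintype.card F : ℂ) ∨ χ 1 = (Fintype.card F : ℂ) + 1) ∧
    (3 ≤ Fintype.card F →
      Nat.card {χ : Cfsg.IrrCharacter (Matrix.GeneralLinearGroup (Fin 2) F) // (χ : Matrix.GeneralLinearGroup (Fin 2) F → ℂ) 1 = 1} = Fintype.card F - 1 ∧
      Nat.card {χ : Cfsg.IrrCharacter (Matrix.GeneralLinearGroup (Fin 2) F) // (χ : Matrix.GeneralLinearGroup (Fin 2) F → ℂ) 1 = (Fintype.card F : ℂ)} = Fintype.card F - 1 ∧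
      Nat.card {χ : Cfsg.IrrCharacter (Matrix.GeneralLinearGroup (Fin 2) F) // (χ : Matrix.GeneralLinearGroup (Fin 2) F → ℂ) 1 = (Fintype.card F : ℂ) + 1} = (Fintype.card F - 1) * (Fintype.card F - 2) / 2 ∧
      Nat.card {χ : Cfsg.IrrCharacter (Matrix.GeneralLinearGroup (Fin 2) F) // (χ : Matrix.GeneralLinearGroup (Fin 2) F → ℂ) 1 = (Fintype.card F : ℂ) - 1} = Fintype.card F * (Fintype.card F - 1) / 2) := by
  classical
  have hq2 := Fintype.one_lt_card (α := F)
  constructor
  · intro χ hχ
    rcases gl2_irr_cases χ hχ with ⟨α, rfl⟩ | ⟨α, rfl⟩ | ⟨α, β, -, rfl⟩ | ⟨h, -⟩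
    · exact Or.inl (gl2Det_one α)
    · exact Or.inr (Or.inr (Or.inl (gl2St_one α)))
    · exact Or.inr (Or.inr (Or.inr (gl2R_one α β)))
    · exact Or.inr (Or.inl h)
  · intro hq
    have hne0 : (Fintype.card F : ℂ) ≠ 0 := by exact_mod_cast (by omega : Fintype.card F ≠ 0)
    have hne1 : (Fintype.card F : ℂ) ≠ 1 := by exact_mod_cast (by omega : Fintype.card F ≠ 1)
    have hne2 : (Fintype.card F : ℂ) ≠ 2 := by exact_mod_cast (by omega : Fintype.card F ≠ 2)
    have e1 : ¬ ((1 : ℂ) = (Fintype.card F : ℂ)) := fun h => hne1 h.symm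
    have e2 : ¬ ((Fintype.card F : ℂ) + 1 = 1) := fun h => hne0 (by linear_combination h)
    have e3 : ¬ ((Fintype.card F : ℂ) - 1 = 1) := fun h => hne2 (by linear_combination h)
    have e4 : ¬ ((Fintype.card F : ℂ) + 1 = (Fintype.card F : ℂ)) := fun h => by
      have : (1 : ℂ) = 0 := by linear_combination h
      norm_num at this
    have e5 : ¬ ((Fintype.card F : ℂ) - 1 = (Fintype.card F : ℂ)) := fun h => by
      have : (1 : ℂ) = 0 := by linear_combination -h
      norm_num at this
    have e6 : ¬ ((1 : ℂ) = (Fintype.card F : ℂ) + 1) := fun h => e2 h.symm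
    have e7 : ¬ ((Fintype.card F : ℂ) = (Fintype.card F : ℂ) + 1) := fun h => e4 h.symm
    have e8 : ¬ ((Fintype.card F : ℂ) - 1 = (Fintype.card F : ℂ) + 1) := fun h => by
      have : (2 : ℂ) = 0 := by linear_combination -h
      norm_num at this
    have e9 : ¬ ((1 : ℂ) = (Fintype.card F : ℂ) - 1) := fun h => e3 h.symm
    have e10 : ¬ ((Fintype.card F : ℂ) = (Fintype.card F : ℂ) - 1) := fun h => e5 h.symm
    have e11 : ¬ ((Fintype.card F : ℂ) + 1 = (Fintype.card F : ℂ) - 1) := fun h => e8 h.symm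
    obtain ⟨r, hr⟩ : ∃ r, Fintype.card F = r + 3 := ⟨Fintype.card F - 3, by omega⟩
    have h1 : r + 3 - 1 = r + 2 := by omega
    have h2 : r + 3 - 2 = r + 1 := by omega
    refine ⟨?_, ?_, ?_, ?_⟩
    · apply Nat.cast_injective (R := ℂ)
      rw [gl2_irr_deg_count, if_pos rfl, if_neg hne1, if_neg e2, if_neg e3,
        Nat.cast_sub (by omega)]
      push_cast
      ring
    · apply Nat.cast_injective (R := ℂ)
      rw [gl2_irr_deg_count, if_neg e1, if_pos rfl, if_neg e4, if_neg e5,
        Nat.cast_sub (by omega)]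
      push_cast
      ring
    · apply Nat.cast_injective (R := ℂ)
      rw [gl2_irr_deg_count, if_neg e6, if_neg e7, if_pos rfl, if_neg e8]
      simp only [hr, h1, h2]
      have hd : 2 ∣ (r + 2) * (r + 1) := by
        have := (Nat.even_mul_succ_self (r + 1)).two_dvd
        rw [mul_comm]
        exact this
      rw [Nat.cast_div hd (by norm_num)]
      push_cast
      ring
    · apply Nat.cast_injective (R := ℂ)
      rw [gl2_irr_deg_count, if_neg e9, if_neg e10, if_neg e11, if_pos rfl]
      simp only [hr, h1]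
      have hd : 2 ∣ (r + 3) * (r + 2) := by
        have := (Nat.even_mul_succ_self (r + 2)).two_dvd
        rw [mul_comm]
        exact this
      rw [Nat.cast_div hd (by norm_num)]
      push_cast
      ring

end Cfsg.Agent.S2298
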