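import Cfsg.Statements.S2303
import Mathlib

set_option autoImplicit false
open Cfsg

namespace Cfsg.Agent.S2303

theorem mem_cent_iff {F : Type*} [Field F] (g h : Matrix.GeneralLinearGroup (Fin 2) F) :
    h ∈ Subgroup.centralizer ({g} : Set (Matrix.GeneralLinearGroup (Fin 2) F)) ↔
      (g : Matrix (Fin 2) (Fin 2) F) * (h : Matrix (Fin 2) (Fin 2) F) =
        (h : Matrix (Fin 2) (Fin 2) F) * (g : Matrix (Fin 2) (Fin 2) F) := by
  rw [Subgroup.mem_centralizer_iff]
  constructor
  · intro hh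
    have := hh g rfl
    rw [← Units.val_mul, ← Units.val_mul, this]
  · intro hh x hx
    rw [Set.mem_singleton_iff] at hx
    subst hx
    apply Units.ext
    rw [Units.val_mul, Units.val_mul, hh]

theorem part_a {F : Type*} [Field F] [Fintype F] (g : Matrix.GeneralLinearGroup (Fin 2) F)
    (h01 : (g : Matrix (Fin 2) (Fin 2) F) 0 1 = 0) (h10 : (g : Matrix (Fin 2) (Fin 2) F) 1 0 = 0)
    (hne : (g : Matrix (Fin 2) (Fin 2) F) 0 0 ≠ (g : Matrix (Fin 2) (Fin 2) F) 1 1) :
    Nat.card (Subgroup.centralizer ({g} : Set (Matrix.GeneralLinearGroup (Fin 2) F))) =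
      (Fintype.card F - 1) ^ 2 := by
  classical
  obtain ⟨a, ha⟩ : ∃ a, a = (g : Matrix (Fin 2) (Fin 2) F) 0 0 := ⟨_, rfl⟩
  obtain ⟨d, hd⟩ : ∃ d, d = (g : Matrix (Fin 2) (Fin 2) F) 1 1 := ⟨_, rfl⟩
  have hg : (g : Matrix (Fin 2) (Fin 2) F) = !![a, 0; 0, d] := by
    rw [ha, hd]
    ext i j
    fin_cases i <;> fin_cases j <;> simp [h01, h10]
  rw [← ha, ← hd] at hne
  have hdiag : ∀ h : Matrix.GeneralLinearGroup (Fin 2) F,
      h ∈ Subgroup.centralizer ({g} : Set (Matrix.GeneralLinearGroup (Fin 2) F)) ↔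
      ((h : Matrix (Fin 2) (Fin 2) F) 0 1 = 0 ∧ (h : Matrix (Fin 2) (Fin 2) F) 1 0 = 0) := by
    intro h
    rw [mem_cent_iff, hg]
    constructor
    · intro hh
      have e1 := congrFun (congrFun hh 0) 1
      have e2 := congrFun (congrFun hh 1) 0
      simp [Matrix.mul_apply, Fin.sum_univ_two] at e1 e2
      constructor
      · have : (a - d) * (h : Matrix (Fin 2) (Fin 2) F) 0 1 = 0 := by linear_combination e1
        rcases mul_eq_zero.1 this with h3 | h3
        · exact absurd (sub_eq_zero.1 h3) hne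
        · exact h3
      · have : (a - d) * (h : Matrix (Fin 2) (Fin 2) F) 1 0 = 0 := by linear_combination -e2
        rcases mul_eq_zero.1 this with h3 | h3
        · exact absurd (sub_eq_zero.1 h3) hne
        · exact h3
    · rintro ⟨e1, e2⟩
      rw [Matrix.eta_fin_two (h : Matrix (Fin 2) (Fin 2) F), e1, e2]
      ext i j
      fin_cases i <;> fin_cases j <;> simp [Matrix.mul_apply, Fin.sum_univ_two, mul_comm]
  have hnz : ∀ h : Matrix.GeneralLinearGroup (Fin 2) F,
      h ∈ Subgroup.centralizer ({g} : Set (Matrix.GeneralLinearGroup (Fin 2) F)) →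
      ((h : Matrix (Fin 2) (Fin 2) F) 0 0 ≠ 0 ∧ (h : Matrix (Fin 2) (Fin 2) F) 1 1 ≠ 0) := by
    intro h hh
    obtain ⟨e1, e2⟩ := (hdiag h).1 hh
    have hdet : ((Matrix.GeneralLinearGroup.det h : Fˣ) : F) =
        (h : Matrix (Fin 2) (Fin 2) F) 0 0 * (h : Matrix (Fin 2) (Fin 2) F) 1 1 := by
      have : ((Matrix.GeneralLinearGroup.det h : Fˣ) : F) =
          Matrix.det (h : Matrix (Fin 2) (Fin 2) F) := rfl
      rw [this, Matrix.det_fin_two, e1, e2]
      ring
    have hdn := (Matrix.GeneralLinearGroup.det h).ne_zero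
    rw [hdet] at hdn
    exact ⟨left_ne_zero_of_mul hdn, right_ne_zero_of_mul hdn⟩
  have hbij : Function.Bijective (fun h : ↥(Subgroup.centralizer ({g} : Set (Matrix.GeneralLinearGroup (Fin 2) F))) =>
      ((Units.mk0 _ (hnz h.1 h.2).1, Units.mk0 _ (hnz h.1 h.2).2) : Fˣ × Fˣ)) := by
    constructor
    · intro h h' hh
      simp only [Prod.mk.injEq, Units.mk0_inj] at hh
      obtain ⟨e1, e2⟩ := (hdiag h.1).1 h.2
      obtain ⟨e1', e2'⟩ := (hdiag h'.1).1 h'.2
      apply Subtype.ext
      apply Units.ext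
      rw [Matrix.eta_fin_two ((h : Matrix.GeneralLinearGroup (Fin 2) F) : Matrix (Fin 2) (Fin 2) F),
        Matrix.eta_fin_two ((h' : Matrix.GeneralLinearGroup (Fin 2) F) : Matrix (Fin 2) (Fin 2) F),
        e1, e2, e1', e2', hh.1, hh.2]
    · rintro ⟨x, y⟩
      refine ⟨⟨Matrix.GeneralLinearGroup.mkOfDetNeZero !![(x : F), 0; 0, (y : F)] (by
        simp [Matrix.det_fin_two]), (hdiag _).2 ⟨rfl, rfl⟩⟩, ?_⟩
      refine Prod.ext (Units.ext ?_) (Units.ext ?_)
      · rfl
      · rfl
  rw [Nat.card_congr (Equiv.ofBijective _ hbij), Nat.card_prod, Nat.card_eq_fintype_card,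
    Fintype.card_units, pow_two]

theorem part_b {F : Type*} [Field F] [Fintype F] (g : Matrix.GeneralLinearGroup (Fin 2) F)
    (hev : ∀ (c : F) (v : Fin 2 → F), v ≠ 0 → (g : Matrix (Fin 2) (Fin 2) F).mulVec v ≠ c • v) :
    Nat.card (Subgroup.centralizer ({g} : Set (Matrix.GeneralLinearGroup (Fin 2) F))) =
      Fintype.card F ^ 2 - 1 := by
  classical
  obtain ⟨G, hG⟩ : ∃ G : Matrix (Fin 2) (Fin 2) F, G = (g : Matrix (Fin 2) (Fin 2) F) := ⟨_, rfl⟩
  rw [← hG] at hev
  have hc : G 1 0 ≠ 0 := by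
    intro h0
    apply hev (G 0 0) ![1, 0] (by
      intro h
      have := congrFun h 0
      simp at this)
    ext i
    fin_cases i <;> simp [Matrix.mulVec, dotProduct, Fin.sum_univ_two, h0]
  have hdet : ∀ p : F × F, p ≠ 0 → (p.1 • (1 : Matrix (Fin 2) (Fin 2) F) + p.2 • G).det ≠ 0 := by
    rintro ⟨α, β⟩ hp hd
    obtain ⟨v, hv0, hv⟩ := Matrix.exists_mulVec_eq_zero_iff.2 hd
    simp only [Matrix.add_mulVec, Matrix.smul_mulVec, Matrix.one_mulVec] at hv
    by_cases hβ : β = 0
    · rw [hβ, zero_smul, add_zero] at hv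
      have hα : α = 0 := by
        by_contra hα
        exact hv0 ((smul_eq_zero.1 hv).resolve_left hα)
      exact hp (by rw [hα, hβ]; rfl)
    · apply hev (-α / β) v hv0
      have h1 : β • G.mulVec v = -(α • v) := by
        rw [eq_neg_iff_add_eq_zero, add_comm]
        exact hv
      calc G.mulVec v = β⁻¹ • (β • G.mulVec v) := by rw [smul_smul, inv_mul_cancel₀ hβ, one_smul]
        _ = β⁻¹ • (-(α • v)) := by rw [h1]
        _ = (-α / β) • v := by rw [smul_neg, smul_smul, ← neg_smul]; congr 1; field_simp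
  have hmem : ∀ (p : F × F) (hp : p ≠ 0),
      Matrix.GeneralLinearGroup.mkOfDetNeZero _ (hdet p hp) ∈
        Subgroup.centralizer ({g} : Set (Matrix.GeneralLinearGroup (Fin 2) F)) := by
    intro p hp
    rw [mem_cent_iff]
    show (g : Matrix (Fin 2) (Fin 2) F) * (p.1 • (1 : Matrix (Fin 2) (Fin 2) F) + p.2 • G) =
      (p.1 • (1 : Matrix (Fin 2) (Fin 2) F) + p.2 • G) * (g : Matrix (Fin 2) (Fin 2) F)
    rw [← hG]
    simp [Matrix.mul_add, Matrix.add_mul]
  have hbij : Function.Bijective (fun p : {p : F × F // p ≠ 0} =>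
      (⟨Matrix.GeneralLinearGroup.mkOfDetNeZero _ (hdet p.1 p.2), hmem p.1 p.2⟩ :
        ↥(Subgroup.centralizer ({g} : Set (Matrix.GeneralLinearGroup (Fin 2) F))))) := by
    constructor
    · rintro ⟨⟨α, β⟩, hp⟩ ⟨⟨α', β'⟩, hp'⟩ h
      have h1 : α • (1 : Matrix (Fin 2) (Fin 2) F) + β • G = α' • (1 : Matrix (Fin 2) (Fin 2) F) + β' • G :=
        congrArg (fun x : ↥(Subgroup.centralizer ({g} : Set (Matrix.GeneralLinearGroup (Fin 2) F))) =>
          ((x : Matrix.GeneralLinearGroup (Fin 2) F) : Matrix (Fin 2) (Fin 2) F)) h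
      have e10 := congrFun (congrFun h1 1) 0
      have e00 := congrFun (congrFun h1 0) 0
      simp at e10 e00
      have hβ : β = β' := by
        rcases e10 with h2 | h2
        · exact h2
        · exact absurd h2 hc
      subst hβ
      have hα : α = α' := by linear_combination e00
      subst hα
      rfl
    · rintro ⟨h, hh⟩
      rw [mem_cent_iff, ← hG] at hh
      obtain ⟨H, hH⟩ : ∃ H : Matrix (Fin 2) (Fin 2) F, H = (h : Matrix (Fin 2) (Fin 2) F) := ⟨_, rfl⟩
      rw [← hH] at hh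
      have e00 := congrFun (congrFun hh 0) 0
      have e10 := congrFun (congrFun hh 1) 0
      simp [Matrix.mul_apply, Fin.sum_univ_two] at e00 e10
      obtain ⟨β, hβ⟩ : ∃ β, β = H 1 0 / G 1 0 := ⟨_, rfl⟩
      obtain ⟨α, hα⟩ : ∃ α, α = H 0 0 - β * G 0 0 := ⟨_, rfl⟩
      have hβ' : β * G 1 0 = H 1 0 := by rw [hβ]; field_simp
      have hHeq : H = α • (1 : Matrix (Fin 2) (Fin 2) F) + β • G := by
        ext i j
        fin_cases i <;> fin_cases j
        · simp [hα]
        · simp
          have : G 1 0 * (H 0 1 - β * G 0 1) = 0 := by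
            linear_combination -e00 - G 0 1 * hβ'
          rcases mul_eq_zero.1 this with h3 | h3
          · exact absurd h3 hc
          · linear_combination h3
        · simp [hβ']
        · simp
          have : G 1 0 * (H 1 1 - (α + β * G 1 1)) = 0 := by
            rw [hα]
            linear_combination -e10 + (G 0 0 - G 1 1) * hβ'
          rcases mul_eq_zero.1 this with h3 | h3
          · exact absurd h3 hc
          · linear_combination h3
      have hp : ((α, β) : F × F) ≠ 0 := by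
        intro h0
        have h1 : α = 0 := congrArg Prod.fst h0
        have h2 : β = 0 := congrArg Prod.snd h0
        rw [h1, h2] at hHeq
        have hd : H.det = 0 := by rw [hHeq]; simp
        have hd' : ((Matrix.GeneralLinearGroup.det h : Fˣ) : F) = 0 := by
          have : ((Matrix.GeneralLinearGroup.det h : Fˣ) : F) =
            Matrix.det (h : Matrix (Fin 2) (Fin 2) F) := rfl
          rw [this, ← hH, hd]
        exact (Matrix.GeneralLinearGroup.det h).ne_zero hd'
      refine ⟨⟨(α, β), hp⟩, ?_⟩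
      apply Subtype.ext
      apply Units.ext
      show α • (1 : Matrix (Fin 2) (Fin 2) F) + β • G = (h : Matrix (Fin 2) (Fin 2) F)
      rw [← hH, hHeq]
  rw [← Nat.card_congr (Equiv.ofBijective _ hbij), Nat.card_eq_fintype_card]
  have h1 := Set.card_ne_eq (0 : F × F)
  rw [Fintype.card_prod, ← pow_two] at h1
  rw [← h1]
  rfl


/-- Over a finite field with q elements: a diagonal element of GL₂ with two distinct diagonal entries has centralizer of order (q − 1)² (so q(q + 1) conjugates), and an element of GL₂ with no eigenvector in F² has centralizer of order q² − 1 (so q(q − 1) conjugates). -/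
theorem result {F : Type*} [Field F] [Fintype F] (g : Matrix.GeneralLinearGroup (Fin 2) F) :
    ((g : Matrix (Fin 2) (Fin 2) F) 0 1 = 0 → (g : Matrix (Fin 2) (Fin 2) F) 1 0 = 0 → (g : Matrix (Fin 2) (Fin 2) F) 0 0 ≠ (g : Matrix (Fin 2) (Fin 2) F) 1 1 →
      Nat.card (Subgroup.centralizer ({g} : Set (Matrix.GeneralLinearGroup (Fin 2) F))) = (Fintype.card F - 1) ^ 2) ∧
    ((∀ (c : F) (v : Fin 2 → F), v ≠ 0 → (g : Matrix (Fin 2) (Fin 2) F).mulVec v ≠ c • v) →
      Nat.card (Subgroup.centralizer ({g} : Set (Matrix.GeneralLinearGroup (Fin 2) F))) = Fintype.card F ^ 2 - 1) := by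
  exact ⟨part_a g, part_b g⟩

end Cfsg.Agent.S2303
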