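import Cfsg.Statements.S2305
import Mathlib
import Cfsg.Agent.Lib.Helper4.GL2CharB

set_option autoImplicit false
open Cfsg

namespace Cfsg.Agent.S2305

open Cfsg.Agent.Lib.Helper4 in

/-- Over a finite field F, for multiplicative characters α, β, α′, β′ of F, the characters of GL₂ induced from the linear characters b ↦ α(b₁₁) β(b₂₂) and b ↦ α′(b₁₁) β′(b₂₂) of the upper triangular subgroup coincide exactly when {α, β} = {α′, β′} as unordered pairs. -/
theorem result {F : Type*} [Field F] [Fintype F] [DecidableEq F] (α β α' β' : MulChar F ℂ) :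
    Cfsg.indFun (Cfsg.upperTriangularGL 2 F) (fun b => α (((b : Matrix.GeneralLinearGroup (Fin 2) F) : Matrix (Fin 2) (Fin 2) F) 0 0) * β (((b : Matrix.GeneralLinearGroup (Fin 2) F) : Matrix (Fin 2) (Fin 2) F) 1 1)) = Cfsg.indFun (Cfsg.upperTriangularGL 2 F) (fun b => α' (((b : Matrix.GeneralLinearGroup (Fin 2) F) : Matrix (Fin 2) (Fin 2) F) 0 0) * β' (((b : Matrix.GeneralLinearGroup (Fin 2) F) : Matrix (Fin 2) (Fin 2) F) 1 1)) ↔
      (α = α' ∧ β = β') ∨ (α = β' ∧ β = α') := by
  classical
  constructor
  · intro h
    have hin := gl2R_inner α β α' β'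
    rw [← h, gl2R_inner α β α β, if_pos rfl, if_pos rfl] at hin
    by_cases h1 : α = α' ∧ β = β'
    · exact Or.inl h1
    · by_cases h2 : α = β' ∧ β = α'
      · exact Or.inr h2
      · exfalso
        have e1 : (if α = α' then (if β = β' then (1 : ℂ) else 0) else 0) = 0 := by
          by_cases h3 : α = α'
          · rw [if_pos h3, if_neg (fun h4 => h1 ⟨h3, h4⟩)]
          · rw [if_neg h3]
        have e2 : (if α = β' then (if β = α' then (1 : ℂ) else 0) else 0) = 0 := by
          by_cases h3 : α = β'
          · rw [if_pos h3, if_neg (fun h4 => h2 ⟨h3, h4⟩)]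
          · rw [if_neg h3]
        rw [e1, e2, add_zero] at hin
        by_cases h5 : α = β
        · rw [if_pos h5, if_pos h5.symm] at hin
          norm_num at hin
        · rw [if_neg h5, add_zero] at hin
          norm_num at hin
  · rintro (⟨rfl, rfl⟩ | ⟨rfl, rfl⟩)
    · rfl
    · have key : gl2R α β - gl2R β α = 0 := by
        apply classInner_self_eq_zero
        rw [Lib.Lead.classInner_sub_left, Lib.Lead.classInner_sub_right,
          Lib.Lead.classInner_sub_right, gl2R_classInner, gl2R_classInner, gl2R_classInner,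
          gl2R_classInner]
        simp only [if_true]
        by_cases h5 : α = β
        · simp [h5]
        · have h6 : ¬ β = α := fun h => h5 h.symm
          simp [h5, h6]
      exact sub_eq_zero.1 key

end Cfsg.Agent.S2305
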