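import Cfsg.Statements.S2307
import Mathlib
import Cfsg.Agent.Lib.Helper4.SL2CharG

set_option autoImplicit false
open Cfsg

namespace Cfsg.Agent.S2307

open Cfsg.Agent.Lib.Helper4 in


/-- Over a finite field F with q elements, q odd, let α be the multiplicative character of F of order 2. The character of SL₂ induced from the linear character b ↦ α(b₁₁) of the upper triangular subgroup is the sum of two distinct irreducible characters, each of degree (q + 1)/2, which are conjugate under GL₂: some fixed element of GL₂ conjugates the one into the other. -/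
theorem result {F : Type*} [Field F] [Fintype F] [DecidableEq F] (hodd : Odd (Fintype.card F)) (α : MulChar F ℂ)
    (hα : α ^ 2 = 1) (hα1 : α ≠ 1) :
    ∃ χ₁ χ₂ : Matrix.SpecialLinearGroup (Fin 2) F → ℂ, Cfsg.IsIrrCharacter (Matrix.SpecialLinearGroup (Fin 2) F) χ₁ ∧ Cfsg.IsIrrCharacter (Matrix.SpecialLinearGroup (Fin 2) F) χ₂ ∧ χ₁ ≠ χ₂ ∧
      Cfsg.indFun ((Cfsg.upperTriangularGL 2 F).comap Matrix.SpecialLinearGroup.toGL) (fun b => α (((b : Matrix.SpecialLinearGroup (Fin 2) F) : Matrix (Fin 2) (Fin 2) F) 0 0)) = χ₁ + χ₂ ∧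
      χ₁ 1 = (((Fintype.card F + 1) / 2 : ℕ) : ℂ) ∧ χ₂ 1 = (((Fintype.card F + 1) / 2 : ℕ) : ℂ) ∧
      ∃ x : Matrix.GeneralLinearGroup (Fin 2) F, ∀ g h : Matrix.SpecialLinearGroup (Fin 2) F,
        Matrix.SpecialLinearGroup.toGL h = x * Matrix.SpecialLinearGroup.toGL g * x⁻¹ → χ₂ h = χ₁ g := by
  obtain ⟨C, hC, hcard⟩ := sl2_exists_torus_odd hodd
  obtain ⟨ν, hν⟩ := sl2_exists_nonsquare_unit hodd
  haveI : Fintype (MulChar F ℂ) := Fintype.ofFinite _
  haveI : Fintype (C →* ℂˣ) := Fintype.ofFinite _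
  have D := sl2_dlData_odd C hodd hC hcard
  obtain ⟨χa, χb, hab, hdec⟩ := D.exists_half_R α hα
  have hne : Cfsg.classInner (sl2R α) (χa : Matrix.SpecialLinearGroup (Fin 2) F → ℂ) ≠ 0 := by
    rw [hdec, Lib.Lead.classInner_add_left, Lib.Lead.classInner_irr_self χa.2,
      Lib.Lead.classInner_irr χb.2 χa.2, if_neg (fun h => hab (Subtype.ext h.symm))]
    norm_num
  obtain ⟨hdeg, hσne, hσirr, hsum, -⟩ := sl2_half_R_odd hodd C hC hcard ν hν α hα hα1 χa.2 hne
  refine ⟨(χa : Matrix.SpecialLinearGroup (Fin 2) F → ℂ) ∘ sl2Twist ν, χa, hσirr, χa.2, hσne,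
    ?_, ?_, ?_, gl2Diag ν, ?_⟩
  · show sl2R α = _
    rw [hsum, add_comm]
  · rw [Function.comp_apply, map_one, hdeg, half_cast_add hodd]
  · rw [hdeg, half_cast_add hodd]
  · intro g h hh
    rw [sl2Twist_of_toGL ν g h hh]
    rfl

end Cfsg.Agent.S2307
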