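import Cfsg.Statements.S2308
import Mathlib
import Cfsg.Agent.Lib.Helper4.GL2Borel

set_option autoImplicit false
open Cfsg

namespace Cfsg.Agent.S2308

theorem mk_eq_one_iff {F : Type*} [Field F] (x : Matrix.GeneralLinearGroup (Fin 2) F) :
    (QuotientGroup.mk x : Matrix.GeneralLinearGroup (Fin 2) F ⧸ Cfsg.upperTriangularGL 2 F) =
      QuotientGroup.mk 1 ↔ (x : Matrix (Fin 2) (Fin 2) F) 1 0 = 0 := by
  rw [QuotientGroup.eq, mul_one, Subgroup.inv_mem_iff, Cfsg.Agent.Lib.Helper4.mem_borel2_iff]

/-- The antidiagonal swap matrix. -/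
noncomputable def wEl (F : Type*) [Field F] : Matrix.GeneralLinearGroup (Fin 2) F :=
  Matrix.GeneralLinearGroup.mkOfDetNeZero !![0, 1; 1, 0] (by simp [Matrix.det_fin_two])

theorem wEl_val (F : Type*) [Field F] :
    ((wEl F : Matrix.GeneralLinearGroup (Fin 2) F) : Matrix (Fin 2) (Fin 2) F) = !![0, 1; 1, 0] := rfl

theorem wEl_mul_self (F : Type*) [Field F] : wEl F * wEl F = 1 := by
  apply Units.ext
  rw [Units.val_mul, wEl_val, Units.val_one]
  ext i j
  fin_cases i <;> fin_cases j <;> simp [Matrix.mul_apply, Fin.sum_univ_two]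

theorem mk_eq_w_iff {F : Type*} [Field F] (x : Matrix.GeneralLinearGroup (Fin 2) F) :
    (QuotientGroup.mk x : Matrix.GeneralLinearGroup (Fin 2) F ⧸ Cfsg.upperTriangularGL 2 F) =
      QuotientGroup.mk (wEl F) ↔ (x : Matrix (Fin 2) (Fin 2) F) 0 0 = 0 := by
  rw [QuotientGroup.eq, ← Subgroup.inv_mem_iff]
  have h1 : (x⁻¹ * wEl F)⁻¹ = wEl F * x := by
    rw [mul_inv_rev, inv_inv]
    congr 1
    exact inv_eq_of_mul_eq_one_left (wEl_mul_self F)
  rw [h1, Cfsg.Agent.Lib.Helper4.mem_borel2_iff, Units.val_mul, wEl_val]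
  simp [Matrix.mul_apply, Fin.sum_univ_two]


/-- Values of the permutation character of GL₂ over a finite field F with q elements on the cosets of its upper triangular subgroup (equivalently, the number of lines of F² that an element maps to themselves): q + 1 at a scalar matrix, 2 at a diagonal matrix with two different diagonal entries, 0 at an element with no eigenvector in F², and 1 at an upper triangular matrix with equal diagonal entries and non-zero upper right entry. -/
theorem result {F : Type*} [Field F] [Fintype F] (g : Matrix.GeneralLinearGroup (Fin 2) F) :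
    ((∃ a : F, (g : Matrix (Fin 2) (Fin 2) F) = a • (1 : Matrix (Fin 2) (Fin 2) F)) → Cfsg.fixedPointCharacter (Cfsg.upperTriangularGL 2 F) g = Fintype.card F + 1) ∧
    ((g : Matrix (Fin 2) (Fin 2) F) 0 1 = 0 → (g : Matrix (Fin 2) (Fin 2) F) 1 0 = 0 → (g : Matrix (Fin 2) (Fin 2) F) 0 0 ≠ (g : Matrix (Fin 2) (Fin 2) F) 1 1 →
      Cfsg.fixedPointCharacter (Cfsg.upperTriangularGL 2 F) g = 2) ∧
    ((∀ (c : F) (v : Fin 2 → F), v ≠ 0 → (g : Matrix (Fin 2) (Fin 2) F).mulVec v ≠ c • v) → Cfsg.fixedPointCharacter (Cfsg.upperTriangularGL 2 F) g = 0) ∧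
    ((g : Matrix (Fin 2) (Fin 2) F) 1 0 = 0 → (g : Matrix (Fin 2) (Fin 2) F) 0 0 = (g : Matrix (Fin 2) (Fin 2) F) 1 1 → (g : Matrix (Fin 2) (Fin 2) F) 0 1 ≠ 0 →
      Cfsg.fixedPointCharacter (Cfsg.upperTriangularGL 2 F) g = 1) := by
  classical
  obtain ⟨G, hG⟩ : ∃ G : Matrix (Fin 2) (Fin 2) F, G = (g : Matrix (Fin 2) (Fin 2) F) := ⟨_, rfl⟩
  have hE : ∀ x : Matrix.GeneralLinearGroup (Fin 2) F, Cfsg.Agent.Lib.Helper4.eigDet g x =
      (x : Matrix (Fin 2) (Fin 2) F) 0 0 * (G 1 0 * (x : Matrix (Fin 2) (Fin 2) F) 0 0 + G 1 1 *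
      (x : Matrix (Fin 2) (Fin 2) F) 1 0) - (x : Matrix (Fin 2) (Fin 2) F) 1 0 *
      (G 0 0 * (x : Matrix (Fin 2) (Fin 2) F) 0 0 + G 0 1 * (x : Matrix (Fin 2) (Fin 2) F) 1 0) := by
    intro x
    rw [hG]
    rfl
  rw [← hG]
  refine ⟨?_, ?_, ?_, ?_⟩
  · rintro ⟨a, ha⟩
    have hfix : MulAction.fixedBy (Matrix.GeneralLinearGroup (Fin 2) F ⧸ Cfsg.upperTriangularGL 2 F) g = Set.univ := by
      ext q
      induction q using QuotientGroup.induction_on with
      | H x =>
        simp only [MulAction.mem_fixedBy, Set.mem_univ, iff_true]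
        rw [Cfsg.Agent.Lib.Helper4.borel2_fixed_iff, hE, ha]
        simp
        ring
    unfold Cfsg.fixedPointCharacter
    rw [hfix, Nat.card_coe_set_eq, Set.ncard_univ]
    have := Cfsg.Agent.Lib.Helper4.index_borel2 (F := F)
    unfold Subgroup.index at this
    rw [this]
    push_cast
    ring
  · intro h01 h10 hne
    have hfix : MulAction.fixedBy (Matrix.GeneralLinearGroup (Fin 2) F ⧸ Cfsg.upperTriangularGL 2 F) g =
        {QuotientGroup.mk 1, QuotientGroup.mk (wEl F)} := by
      ext q
      induction q using QuotientGroup.induction_on with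
      | H x =>
        simp only [MulAction.mem_fixedBy, Set.mem_insert_iff, Set.mem_singleton_iff]
        rw [Cfsg.Agent.Lib.Helper4.borel2_fixed_iff, hE, h01, h10, mk_eq_one_iff, mk_eq_w_iff]
        constructor
        · intro h
          have h2 : (G 1 1 - G 0 0) * ((x : Matrix (Fin 2) (Fin 2) F) 0 0 * (x : Matrix (Fin 2) (Fin 2) F) 1 0) = 0 := by
            linear_combination h
          rcases mul_eq_zero.1 h2 with h3 | h3
          · exact absurd (sub_eq_zero.1 h3).symm hne
          · rcases mul_eq_zero.1 h3 with h4 | h4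
            · right; exact h4
            · left; exact h4
        · rintro (h | h) <;> rw [h] <;> ring
    have hne' : (QuotientGroup.mk 1 : Matrix.GeneralLinearGroup (Fin 2) F ⧸ Cfsg.upperTriangularGL 2 F) ≠
        QuotientGroup.mk (wEl F) := by
      intro h
      have := (mk_eq_one_iff (wEl F)).1 h.symm
      rw [wEl_val] at this
      simp at this
    unfold Cfsg.fixedPointCharacter
    rw [hfix, Nat.card_coe_set_eq, Set.ncard_pair hne']
    norm_num
  · intro hev
    have hfix : MulAction.fixedBy (Matrix.GeneralLinearGroup (Fin 2) F ⧸ Cfsg.upperTriangularGL 2 F) g = ∅ := by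
      ext q
      induction q using QuotientGroup.induction_on with
      | H x =>
        simp only [MulAction.mem_fixedBy, Set.mem_empty_iff_false, iff_false]
        rw [Cfsg.Agent.Lib.Helper4.borel2_fixed_iff, hE]
        intro h
        obtain ⟨v0, hv0⟩ : ∃ v0, v0 = (x : Matrix (Fin 2) (Fin 2) F) 0 0 := ⟨_, rfl⟩
        obtain ⟨v1, hv1⟩ : ∃ v1, v1 = (x : Matrix (Fin 2) (Fin 2) F) 1 0 := ⟨_, rfl⟩
        rw [← hv0, ← hv1] at h
        have hmv : G.mulVec ![v0, v1] = ![G 0 0 * v0 + G 0 1 * v1, G 1 0 * v0 + G 1 1 * v1] := by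
          ext i
          fin_cases i <;> simp [Matrix.mulVec, dotProduct, Fin.sum_univ_two]
        have hdx := Cfsg.Agent.Lib.Helper4.gl2_det_ne_zero x
        rw [Matrix.det_fin_two, ← hv0, ← hv1] at hdx
        by_cases h0 : v0 = 0
        · have h1 : v1 ≠ 0 := by
            intro h1
            apply hdx
            rw [h0, h1]
            ring
          apply hev ((G 1 0 * v0 + G 1 1 * v1) / v1) ![v0, v1] (by
            intro hz
            have := congrFun hz 1
            simp at this
            exact h1 this)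
          rw [hmv]
          ext i
          fin_cases i
          · simp
            rw [h0] at h ⊢
            have : v1 * (G 0 1 * v1) = 0 := by linear_combination -h
            have := (mul_eq_zero.1 this).resolve_left h1
            rw [this]; simp
          · simp
            field_simp
        · apply hev ((G 0 0 * v0 + G 0 1 * v1) / v0) ![v0, v1] (by
            intro hz
            have := congrFun hz 0
            simp at this
            exact h0 this)
          rw [hmv]
          ext i
          fin_cases i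
          · simp
            field_simp
          · simp
            field_simp
            linear_combination h
    unfold Cfsg.fixedPointCharacter
    rw [hfix, Nat.card_coe_set_eq, Set.ncard_empty]
    norm_num
  · intro h10 h00 h01
    have hfix : MulAction.fixedBy (Matrix.GeneralLinearGroup (Fin 2) F ⧸ Cfsg.upperTriangularGL 2 F) g =
        {QuotientGroup.mk 1} := by
      ext q
      induction q using QuotientGroup.induction_on with
      | H x =>
        simp only [MulAction.mem_fixedBy, Set.mem_singleton_iff]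
        rw [Cfsg.Agent.Lib.Helper4.borel2_fixed_iff, hE, h10, h00, mk_eq_one_iff]
        constructor
        · intro h
          have h2 : G 0 1 * ((x : Matrix (Fin 2) (Fin 2) F) 1 0 * (x : Matrix (Fin 2) (Fin 2) F) 1 0) = 0 := by
            linear_combination -h
          rcases mul_eq_zero.1 h2 with h3 | h3
          · exact absurd h3 h01
          · exact mul_self_eq_zero.1 h3
        · intro h
          rw [h]; ring
    unfold Cfsg.fixedPointCharacter
    rw [hfix, Nat.card_coe_set_eq, Set.ncard_singleton]
    norm_num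

end Cfsg.Agent.S2308
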