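import Cfsg.Statements.S2309
import Mathlib
import Cfsg.Agent.Lib.Helper4.GL2CharG

set_option autoImplicit false
open Cfsg

namespace Cfsg.Agent.S2309

open Cfsg.Agent.Lib.Helper4 in

/-- Over a finite field F with q elements: every irreducible complex character of GL₂ of degree q − 1 vanishes at every diagonal matrix with two distinct entries, and every irreducible complex character of degree q + 1 vanishes at every element with no eigenvector in F². -/
theorem result {F : Type*} [Field F] [Fintype F] (χ : Matrix.GeneralLinearGroup (Fin 2) F → ℂ) (hχ : Cfsg.IsIrrCharacter (Matrix.GeneralLinearGroup (Fin 2) F) χ) (g : Matrix.GeneralLinearGroup (Fin 2) F) :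
    (χ 1 = (Fintype.card F : ℂ) - 1 → (g : Matrix (Fin 2) (Fin 2) F) 0 1 = 0 → (g : Matrix (Fin 2) (Fin 2) F) 1 0 = 0 → (g : Matrix (Fin 2) (Fin 2) F) 0 0 ≠ (g : Matrix (Fin 2) (Fin 2) F) 1 1 → χ g = 0) ∧
    (χ 1 = (Fintype.card F : ℂ) + 1 → (∀ (c : F) (v : Fin 2 → F), v ≠ 0 → (g : Matrix (Fin 2) (Fin 2) F).mulVec v ≠ c • v) → χ g = 0) := by
  classical
  haveI : Fintype (MulChar F ℂ) := Fintype.ofFinite _
  have hq2 := Fintype.one_lt_card (α := F)
  rcases gl2_irr_cases χ hχ with ⟨α, rfl⟩ | ⟨α, rfl⟩ | ⟨α, β, -, rfl⟩ | ⟨h, hc⟩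
  · constructor
    · intro hdeg h01 h10 hne
      exfalso
      rw [gl2Det_one] at hdeg
      have hc2 : Fintype.card F = 2 := by
        have : (Fintype.card F : ℂ) = 2 := by linear_combination -hdeg
        exact_mod_cast this
      obtain ⟨n0, n1⟩ := gl2Borel_diag_ne_zero g h10
      exact hne ((unit_eq_one_of_card_two hc2 n0).trans (unit_eq_one_of_card_two hc2 n1).symm)
    · intro hdeg _
      exfalso
      rw [gl2Det_one] at hdeg
      have h0 : (Fintype.card F : ℂ) = 0 := by linear_combination -hdeg
      have : Fintype.card F = 0 := by exact_mod_cast h0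
      omega
  · constructor
    · intro hdeg
      exfalso
      rw [gl2St_one] at hdeg
      have : (1 : ℂ) = 0 := by linear_combination hdeg
      norm_num at this
    · intro hdeg
      exfalso
      rw [gl2St_one] at hdeg
      have : (1 : ℂ) = 0 := by linear_combination -hdeg
      norm_num at this
  · constructor
    · intro hdeg
      exfalso
      rw [gl2R_one] at hdeg
      have : (2 : ℂ) = 0 := by linear_combination hdeg
      norm_num at this
    · intro _ hg
      exact gl2R_no_eig α β g hg
  · constructor
    · intro _ h01 h10 hne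
      exact gl2_cusp_split χ (Lib.Lead.isClassFunction_of_irr hχ) hc g h01 h10 hne
    · intro hdeg
      exfalso
      rw [h] at hdeg
      have : (2 : ℂ) = 0 := by linear_combination -hdeg
      norm_num at this

end Cfsg.Agent.S2309
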