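import Cfsg.Statements.S2310
import Mathlib
import Cfsg.Agent.Lib.Helper4.GL2CharG

set_option autoImplicit false
open Cfsg

namespace Cfsg.Agent.S2310

open Cfsg.Agent.Lib.Helper4 in

/-- Over a finite field F with q ≥ 3 elements, let u be the upper unitriangular matrix of GL₂ with off-diagonal entry 1. An irreducible complex character χ of GL₂ takes at u the value 1 if χ has degree 1 or q + 1, the value −1 if χ has degree q − 1, and the value 0 if χ has degree q. -/
theorem result {F : Type*} [Field F] [Fintype F] (hq : 3 ≤ Fintype.card F) (χ : Matrix.GeneralLinearGroup (Fin 2) F → ℂ) (hχ : Cfsg.IsIrrCharacter (Matrix.GeneralLinearGroup (Fin 2) F) χ)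
    (u : Matrix.GeneralLinearGroup (Fin 2) F) (hu : (u : Matrix (Fin 2) (Fin 2) F) = !![1, 1; 0, 1]) :
    (χ 1 = 1 → χ u = 1) ∧ (χ 1 = (Fintype.card F : ℂ) + 1 → χ u = 1) ∧
    (χ 1 = (Fintype.card F : ℂ) - 1 → χ u = -1) ∧ (χ 1 = (Fintype.card F : ℂ) → χ u = 0) := by
  classical
  haveI : Fintype (MulChar F ℂ) := Fintype.ofFinite _
  have hne0 : (Fintype.card F : ℂ) ≠ 0 := by exact_mod_cast (by omega : Fintype.card F ≠ 0)
  have hne1 : (Fintype.card F : ℂ) ≠ 1 := by exact_mod_cast (by omega : Fintype.card F ≠ 1)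
  have hne2 : (Fintype.card F : ℂ) ≠ 2 := by exact_mod_cast (by omega : Fintype.card F ≠ 2)
  rcases gl2_irr_cases χ hχ with ⟨α, rfl⟩ | ⟨α, rfl⟩ | ⟨α, β, -, rfl⟩ | ⟨h, hc⟩
  · refine ⟨fun _ => gl2Det_at_u α u hu, fun hdeg => ?_, fun hdeg => ?_, fun hdeg => ?_⟩
    · exfalso
      rw [gl2Det_one] at hdeg
      exact hne0 (by linear_combination -hdeg)
    · exfalso
      rw [gl2Det_one] at hdeg
      exact hne2 (by linear_combination -hdeg)
    · exfalso
      rw [gl2Det_one] at hdeg
      exact hne1 hdeg.symm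
  · refine ⟨fun hdeg => ?_, fun hdeg => ?_, fun hdeg => ?_, fun _ => gl2St_at_u α u hu⟩
    · exfalso
      rw [gl2St_one] at hdeg
      exact hne1 hdeg
    · exfalso
      rw [gl2St_one] at hdeg
      have : (1 : ℂ) = 0 := by linear_combination -hdeg
      norm_num at this
    · exfalso
      rw [gl2St_one] at hdeg
      have : (1 : ℂ) = 0 := by linear_combination hdeg
      norm_num at this
  · refine ⟨fun hdeg => ?_, fun _ => gl2R_at_u α β u hu, fun hdeg => ?_, fun hdeg => ?_⟩
    · exfalso
      rw [gl2R_one] at hdeg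
      exact hne0 (by linear_combination hdeg)
    · exfalso
      rw [gl2R_one] at hdeg
      have : (2 : ℂ) = 0 := by linear_combination hdeg
      norm_num at this
    · exfalso
      rw [gl2R_one] at hdeg
      have : (1 : ℂ) = 0 := by linear_combination hdeg
      norm_num at this
  · have hv := gl2_cusp_unip χ (Lib.Lead.isClassFunction_of_irr hχ) hc u hu
    rw [h] at hv
    have hq1 : (Fintype.card F : ℂ) - 1 ≠ 0 := sub_ne_zero.2 hne1
    have hu1 : χ u = -1 := by
      have h5 : ((Fintype.card F : ℂ) - 1) * (χ u + 1) = 0 := by linear_combination hv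
      have h6 := (mul_eq_zero.1 h5).resolve_left hq1
      linear_combination h6
    refine ⟨fun hdeg => ?_, fun hdeg => ?_, fun _ => hu1, fun hdeg => ?_⟩
    · exfalso
      rw [h] at hdeg
      exact hne2 (by linear_combination hdeg)
    · exfalso
      rw [h] at hdeg
      have : (2 : ℂ) = 0 := by linear_combination -hdeg
      norm_num at this
    · exfalso
      rw [h] at hdeg
      have : (1 : ℂ) = 0 := by linear_combination -hdeg
      norm_num at this

end Cfsg.Agent.S2310
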