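import Cfsg.Statements.S2320
import Mathlib
import Cfsg.Agent.Lib.Helper4.GL2CharG

set_option autoImplicit false
open Cfsg

namespace Cfsg.Agent.S2320

open Cfsg.Agent.Lib.Helper4 in

/-- Over a finite field F with q elements, every irreducible complex character of GL₂ of degree q takes a value of absolute value 1 at every diagonal matrix with two different diagonal entries and at every element with no eigenvector in F². -/
theorem result {F : Type*} [Field F] [Fintype F] (χ : Matrix.GeneralLinearGroup (Fin 2) F → ℂ) (hχ : Cfsg.IsIrrCharacter (Matrix.GeneralLinearGroup (Fin 2) F) χ) (hdeg : χ 1 = (Fintype.card F : ℂ)) (g : Matrix.GeneralLinearGroup (Fin 2) F) :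
    ((g : Matrix (Fin 2) (Fin 2) F) 0 1 = 0 → (g : Matrix (Fin 2) (Fin 2) F) 1 0 = 0 → (g : Matrix (Fin 2) (Fin 2) F) 0 0 ≠ (g : Matrix (Fin 2) (Fin 2) F) 1 1 → ‖χ g‖ = 1) ∧
    ((∀ (c : F) (v : Fin 2 → F), v ≠ 0 → (g : Matrix (Fin 2) (Fin 2) F).mulVec v ≠ c • v) → ‖χ g‖ = 1) := by
  classical
  have hq2 := Fintype.one_lt_card (α := F)
  have hne1 : (Fintype.card F : ℂ) ≠ 1 := by
    exact_mod_cast (by omega : Fintype.card F ≠ 1)
  rcases gl2_irr_cases χ hχ with ⟨α, rfl⟩ | ⟨α, rfl⟩ | ⟨α, β, -, rfl⟩ | ⟨h, -⟩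
  · exfalso
    rw [gl2Det_one] at hdeg
    exact hne1 hdeg.symm
  · exact ⟨fun h01 h10 hne => gl2St_split_norm α g h01 h10 hne,
      fun hg => gl2St_no_eig_norm α g hg⟩
  · exfalso
    rw [gl2R_one] at hdeg
    have : (1 : ℂ) = 0 := by linear_combination hdeg
    norm_num at this
  · exfalso
    rw [h] at hdeg
    have : (1 : ℂ) = 0 := by linear_combination -hdeg
    norm_num at this

end Cfsg.Agent.S2320
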