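import Cfsg.Statements.S2322
import Mathlib
import Cfsg.Agent.Lib.Helper4.SL2CharM

set_option autoImplicit false
open Cfsg

namespace Cfsg.Agent.S2322

open Cfsg.Agent.Lib.Helper4 in


/-- Over a finite field F with q elements, q odd: every irreducible complex character of SL₂ of degree q − 1 or (q − 1)/2 vanishes at every diagonal matrix whose diagonal entry a has a² ≠ 1, and every irreducible complex character of degree q + 1 or (q + 1)/2 vanishes at every element with no eigenvector in F². -/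
theorem result {F : Type*} [Field F] [Fintype F] (hodd : Odd (Fintype.card F)) (χ : Matrix.SpecialLinearGroup (Fin 2) F → ℂ) (hχ : Cfsg.IsIrrCharacter (Matrix.SpecialLinearGroup (Fin 2) F) χ) (g : Matrix.SpecialLinearGroup (Fin 2) F) :
    ((χ 1 = (Fintype.card F : ℂ) - 1 ∨ χ 1 = (((Fintype.card F - 1) / 2 : ℕ) : ℂ)) →
      (g : Matrix (Fin 2) (Fin 2) F) 0 1 = 0 → (g : Matrix (Fin 2) (Fin 2) F) 1 0 = 0 → (g : Matrix (Fin 2) (Fin 2) F) 0 0 ^ 2 ≠ 1 → χ g = 0) ∧
    ((χ 1 = (Fintype.card F : ℂ) + 1 ∨ χ 1 = (((Fintype.card F + 1) / 2 : ℕ) : ℂ)) →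
      (∀ (c : F) (v : Fin 2 → F), v ≠ 0 → (g : Matrix (Fin 2) (Fin 2) F).mulVec v ≠ c • v) → χ g = 0) := by
  classical
  obtain ⟨C, hC, hcard⟩ := sl2_exists_torus_odd hodd
  obtain ⟨ν, hν⟩ := sl2_exists_nonsquare_unit hodd
  have h2 : (2 : F) ≠ 0 := two_ne_zero_of_odd_card hodd
  have hq1 : 1 < Fintype.card F := Fintype.one_lt_card
  refine ⟨?_, ?_⟩
  · intro hdeg h01 h10 ha
    obtain ⟨ht, hroot, ha0⟩ := sl2_diag_facts g h01 h10 ha
    have hq := card_ge_five_of_sq_ne_one hodd _ ha0 ha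
    rcases hdeg with hdeg | hdeg
    · obtain ⟨θ, -, rfl⟩ := sl2_deg_sub_one hodd C hC hcard hq hχ hdeg
      exact sl2Cusp_split C hC hcard θ g ht _ hroot
    · obtain ⟨θ, -, -, -, -, -, hsum, -⟩ := sl2_deg_half_sub hodd C hC hcard hq ν hν hχ hdeg
      rw [sl2_half_value ν hχ hsum g ht, sl2Cusp_split C hC hcard θ g ht _ hroot]
      simp
  · intro hdeg hnev
    have hnr := sl2_no_root_of_no_eigenvector g hnev
    have ht := sq_ne_four_of_no_root _ hnr
    rcases hdeg with hdeg | hdeg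
    · obtain ⟨α, -, rfl⟩ := sl2_deg_add_one hodd C hC hcard hχ hdeg
      exact sl2R_no_root α g hnr
    · obtain ⟨d, hd, hcases⟩ := sl2_irr_odd_cases hodd C hC hcard ν hν hχ
      rw [hd] at hdeg
      have hd' : d = (Fintype.card F + 1) / 2 := by exact_mod_cast hdeg
      have hodd' := hodd
      obtain ⟨k, hk⟩ := hodd
      rcases hcases with ⟨h, -⟩ | ⟨h, -⟩ | ⟨h, -⟩ | ⟨h, θ, hθ, rfl⟩ |
        ⟨-, α, -, -, -, -, -, hsum, -⟩ | ⟨h, -⟩
      · omega
      · omega
      · omega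
      · have hq3 : Fintype.card F = 3 := by omega
        obtain ⟨c, hcc, -, hval⟩ := sl2Cusp_no_root C hC hcard hodd' θ g hnr
        rw [hval, sl2_q3_torus_sum C hC hcard hq3 θ hθ c hcc]
        simp
      · rw [sl2_half_value ν hχ hsum g ht, sl2R_no_root α g hnr]
        simp
      · omega

end Cfsg.Agent.S2322
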