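import Cfsg.Statements.S2323
import Mathlib
import Cfsg.Agent.Lib.Helper4.SL2CharR

set_option autoImplicit false
open Cfsg

namespace Cfsg.Agent.S2323

open Cfsg.Agent.Lib.Helper4 in


/-- Over a finite field F with q ≥ 4 elements, let u be the upper unitriangular matrix of SL₂ with off-diagonal entry 1. An irreducible complex character of SL₂ takes at u the value 1 if its degree is q + 1 and the value −1 if its degree is q − 1. -/
theorem result {F : Type*} [Field F] [Fintype F] (hq : 4 ≤ Fintype.card F) (χ : Matrix.SpecialLinearGroup (Fin 2) F → ℂ) (hχ : Cfsg.IsIrrCharacter (Matrix.SpecialLinearGroup (Fin 2) F) χ)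
    (u : Matrix.SpecialLinearGroup (Fin 2) F) (hu : (u : Matrix (Fin 2) (Fin 2) F) = !![1, 1; 0, 1]) :
    (χ 1 = (Fintype.card F : ℂ) + 1 → χ u = 1) ∧ (χ 1 = (Fintype.card F : ℂ) - 1 → χ u = -1) := by
  classical
  have hu' : u = sl2Unip 1 := Subtype.ext (by rw [hu, sl2Unip_val])
  subst hu'
  have hns := sl2Unip_nonscalar (1 : F) one_ne_zero
  have htr := sl2_trace_unip (1 : F)
  have hg1 := sl2Unip_ne_one (1 : F) one_ne_zero
  rcases Nat.even_or_odd (Fintype.card F) with he | ho
  · haveI : CharP F 2 :=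
      ringChar.of_eq (FiniteField.even_card_iff_char_two.2 (Nat.even_iff.1 he))
    obtain ⟨C, hC, hcard⟩ := sl2_exists_torus (F := F)
    refine ⟨?_, ?_⟩
    · intro hdeg
      obtain ⟨α, -, rfl⟩ := sl2_even_deg_add_one C hC hcard hχ hdeg
      exact sl2R_trace_two α _ hns htr
    · intro hdeg
      obtain ⟨θ, -, rfl⟩ := sl2_even_deg_sub_one C hC hcard hq hχ hdeg
      exact sl2CuspE_trace_two C hC hcard θ _ hg1 htr
  · obtain ⟨C, hC, hcard⟩ := sl2_exists_torus_odd ho
    have h2 : (2 : F) ≠ 0 := two_ne_zero_of_odd_card ho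
    have hq5 : 5 ≤ Fintype.card F := by
      obtain ⟨k, hk⟩ := ho
      omega
    refine ⟨?_, ?_⟩
    · intro hdeg
      obtain ⟨α, -, rfl⟩ := sl2_deg_add_one ho C hC hcard hχ hdeg
      exact sl2R_trace_two α _ hns htr
    · intro hdeg
      obtain ⟨θ, -, rfl⟩ := sl2_deg_sub_one ho C hC hcard hq5 hχ hdeg
      exact sl2Cusp_trace_two C hC hcard h2 θ _ hg1 htr

end Cfsg.Agent.S2323
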