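import Cfsg.Statements.S2324
import Mathlib
import Cfsg.Agent.Lib.Helper4.SL2CharJ

set_option autoImplicit false
open Cfsg

namespace Cfsg.Agent.S2324

open Cfsg.Agent.Lib.Helper4 in


/-- Over a finite field F with q elements, q odd and q ≥ 5, let u be the upper unitriangular matrix of SL₂ with off-diagonal entry 1 and let δ = (−1)^((q−1)/2). Every irreducible complex character χ of SL₂ of degree (q + 1)/2 satisfies (2χ(u) − 1)² = δq, and every irreducible complex character χ of degree (q − 1)/2 satisfies (2χ(u) + 1)² = δq; that is, χ(u) = (1 ± √(δq))/2 in the first case and χ(u) = (−1 ± √(δq))/2 in the second. Moreover two different irreducible characters of degree (q + 1)/2 take the two different values (their values at u add up to 1), and likewise for degree (q − 1)/2 (values adding up to −1). -/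
theorem result {F : Type*} [Field F] [Fintype F] (hodd : Odd (Fintype.card F)) (hq : 5 ≤ Fintype.card F)
    (u : Matrix.SpecialLinearGroup (Fin 2) F) (hu : (u : Matrix (Fin 2) (Fin 2) F) = !![1, 1; 0, 1]) :
    (∀ χ : Matrix.SpecialLinearGroup (Fin 2) F → ℂ, Cfsg.IsIrrCharacter (Matrix.SpecialLinearGroup (Fin 2) F) χ → χ 1 = (((Fintype.card F + 1) / 2 : ℕ) : ℂ) → (2 * χ u - 1) ^ 2 = (-1 : ℂ) ^ ((Fintype.card F - 1) / 2) * (Fintype.card F : ℂ)) ∧
    (∀ χ : Matrix.SpecialLinearGroup (Fin 2) F → ℂ, Cfsg.IsIrrCharacter (Matrix.SpecialLinearGroup (Fin 2) F) χ → χ 1 = (((Fintype.card F - 1) / 2 : ℕ) : ℂ) → (2 * χ u + 1) ^ 2 = (-1 : ℂ) ^ ((Fintype.card F - 1) / 2) * (Fintype.card F : ℂ)) ∧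
    (∀ χ₁ χ₂ : Matrix.SpecialLinearGroup (Fin 2) F → ℂ, Cfsg.IsIrrCharacter (Matrix.SpecialLinearGroup (Fin 2) F) χ₁ → Cfsg.IsIrrCharacter (Matrix.SpecialLinearGroup (Fin 2) F) χ₂ → χ₁ ≠ χ₂ →
      χ₁ 1 = (((Fintype.card F + 1) / 2 : ℕ) : ℂ) → χ₂ 1 = (((Fintype.card F + 1) / 2 : ℕ) : ℂ) → χ₁ u + χ₂ u = 1) ∧
    (∀ χ₁ χ₂ : Matrix.SpecialLinearGroup (Fin 2) F → ℂ, Cfsg.IsIrrCharacter (Matrix.SpecialLinearGroup (Fin 2) F) χ₁ → Cfsg.IsIrrCharacter (Matrix.SpecialLinearGroup (Fin 2) F) χ₂ → χ₁ ≠ χ₂ →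
      χ₁ 1 = (((Fintype.card F - 1) / 2 : ℕ) : ℂ) → χ₂ 1 = (((Fintype.card F - 1) / 2 : ℕ) : ℂ) → χ₁ u + χ₂ u = -1) := by
  classical
  obtain ⟨C, hC, hcard⟩ := sl2_exists_torus_odd hodd
  obtain ⟨ν, hν⟩ := sl2_exists_nonsquare_unit hodd
  have h2 : (2 : F) ≠ 0 := two_ne_zero_of_odd_card hodd
  have hu' : u = sl2Unip 1 := Subtype.ext (by rw [hu, sl2Unip_val])
  subst hu'
  have hns : ¬ (((sl2Unip (1 : F) : Matrix.SpecialLinearGroup (Fin 2) F) :
      Matrix (Fin 2) (Fin 2) F) 0 1 = 0 ∧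
      ((sl2Unip (1 : F) : Matrix.SpecialLinearGroup (Fin 2) F) :
      Matrix (Fin 2) (Fin 2) F) 1 0 = 0 ∧
      ((sl2Unip (1 : F) : Matrix.SpecialLinearGroup (Fin 2) F) :
      Matrix (Fin 2) (Fin 2) F) 0 0 = ((sl2Unip (1 : F) : Matrix.SpecialLinearGroup (Fin 2) F) :
      Matrix (Fin 2) (Fin 2) F) 1 1) := by
    rw [sl2Unip_val]
    simp
  have htr := sl2_trace_unip (1 : F)
  have hg1 : sl2Unip (1 : F) ≠ 1 := by
    intro h
    apply hns
    rw [h]
    simp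
  refine ⟨?_, ?_, ?_, ?_⟩
  · intro χ hχ hdeg
    obtain ⟨α, hα, hα1, hne, -, -, hsum, hD⟩ :=
      sl2_deg_half_add hodd C hC hcard hq ν hν hχ hdeg
    have e := congrFun hsum (sl2Unip 1)
    rw [sl2R_trace_two α _ hns htr, Pi.add_apply, Function.comp_apply, sl2Twist_unip,
      mul_one] at e
    rw [← sl2_unip_sq hodd ν hν hχ hD]
    congr 1
    linear_combination (-1 : ℂ) * e
  · intro χ hχ hdeg
    obtain ⟨θ, hθ, hθ1, hne, -, -, hsum, hD⟩ :=
      sl2_deg_half_sub hodd C hC hcard hq ν hν hχ hdeg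
    have e := congrFun hsum (sl2Unip 1)
    rw [sl2Cusp_trace_two C hC hcard h2 θ _ hg1 htr, Pi.add_apply, Function.comp_apply,
      sl2Twist_unip, mul_one] at e
    rw [← sl2_unip_sq hodd ν hν hχ hD]
    congr 1
    linear_combination (-1 : ℂ) * e
  · intro χ₁ χ₂ h1 h2' h12 d1 d2
    obtain ⟨α, hα, hα1, hne, -, hσirr, hsum, -⟩ :=
      sl2_deg_half_add hodd C hC hcard hq ν hν h1 d1
    obtain ⟨α', hα', hα'1, hne', -, -, -, -⟩ :=
      sl2_deg_half_add hodd C hC hcard hq ν hν h2' d2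
    have hαα : α' = α := mulChar_quadratic_unique α' α hα' hα'1 hα hα1
    subst hαα
    have e2 := irr_pair_other h1 hσirr h2' hsum hne' h12
    have e := congrFun hsum (sl2Unip 1)
    rw [sl2R_trace_two α' _ hns htr, Pi.add_apply] at e
    rw [e2]
    exact e.symm
  · intro χ₁ χ₂ h1 h2' h12 d1 d2
    obtain ⟨θ, hθ, hθ1, hne, -, hσirr, hsum, -⟩ :=
      sl2_deg_half_sub hodd C hC hcard hq ν hν h1 d1
    obtain ⟨θ', hθ', hθ'1, hne', -, -, -, -⟩ :=
      sl2_deg_half_sub hodd C hC hcard hq ν hν h2' d2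
    have hθθ : θ' = θ := torusChar_quadratic_unique C hC θ' θ hθ' hθ'1 hθ hθ1
    subst hθθ
    have e2 := irr_pair_other h1 hσirr h2' hsum hne' h12
    have e := congrFun hsum (sl2Unip 1)
    rw [sl2Cusp_trace_two C hC hcard h2 θ' _ hg1 htr, Pi.add_apply] at e
    rw [e2]
    exact e.symm

end Cfsg.Agent.S2324
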