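import Cfsg.Statements.S2325
import Mathlib
import Cfsg.Agent.Lib.Helper4.SL2Classes

set_option autoImplicit false
open Cfsg

namespace Cfsg.Agent.S2325

open Cfsg.Agent.Lib.Helper4

/-- Representatives of the conjugacy classes of `SL₂(q)`, `q` odd. -/
noncomputable def rep {F : Type*} [Field F] (ν : Fˣ) :
    Bool ⊕ ({t : F // t ^ 2 ≠ 4} ⊕ (Bool × Bool)) → Matrix.SpecialLinearGroup (Fin 2) F
  | Sum.inl s => sl2PM s 0
  | Sum.inr (Sum.inl t) => sl2Comp t.1 1
  | Sum.inr (Sum.inr (s1, s2)) => sl2Comp (if s1 then 2 else -2) (if s2 then 1 else ν)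


/-- Over a finite field with q elements, q odd, the special linear group SL₂ has exactly q + 4 conjugacy classes. -/
theorem result {F : Type*} [Field F] [Fintype F] (hodd : Odd (Fintype.card F)) :
    Nat.card (ConjClasses (Matrix.SpecialLinearGroup (Fin 2) F)) = Fintype.card F + 4 := by
  classical
  have hq1 : Fintype.card F % 2 = 1 := Nat.odd_iff.1 hodd
  have hchar : ringChar F ≠ 2 := by
    intro h
    have := FiniteField.even_card_of_char_two h
    omega
  have h2 : (2 : F) ≠ 0 := Ring.two_ne_zero hchar
  have h4 : (4 : F) ≠ 0 := by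
    have : (4 : F) = 2 * 2 := by norm_num
    rw [this]
    exact mul_ne_zero h2 h2
  have hpm : (2 : F) ≠ -2 := by
    intro h
    apply h4
    linear_combination h
  obtain ⟨ν0, hν⟩ := FiniteField.exists_nonsquare hchar
  have hν0 : ν0 ≠ 0 := by
    rintro rfl
    exact hν ⟨0, by simp⟩
  obtain ⟨ν, hνv⟩ : ∃ ν : Fˣ, (ν : F) = ν0 := ⟨Units.mk0 ν0 hν0, rfl⟩
  rw [← hνv] at hν
  have hmul : ∀ a b : F, ¬ IsSquare a → ¬ IsSquare b → IsSquare (a * b) := by
    intro a b ha hb
    have ha0 : a ≠ 0 := by
      rintro rfl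
      exact ha ⟨0, by simp⟩
    have hb0 : b ≠ 0 := by
      rintro rfl
      exact hb ⟨0, by simp⟩
    rw [← quadraticChar_one_iff_isSquare (mul_ne_zero ha0 hb0), map_mul,
      quadraticChar_neg_one_iff_not_isSquare.2 ha, quadraticChar_neg_one_iff_not_isSquare.2 hb]
    norm_num
  have pm_inj : ∀ s s' : Bool, (if s then (2 : F) else -2) = (if s' then (2 : F) else -2) →
      s = s' := by
    intro s s' h
    cases s <;> cases s' <;> simp at h ⊢
    · exact hpm h.symm
    · exact hpm h
  have pm_sq : ∀ s : Bool, (if s then (2 : F) else -2) ^ 2 = 4 := by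
    intro s
    cases s <;> simp <;> norm_num
  have usq : ∀ s s' : Bool, IsSquare ((((if s then 1 else ν : Fˣ)) : F) *
      (((if s' then 1 else ν : Fˣ)) : F)) → s = s' := by
    intro s s' h
    cases s <;> cases s' <;> simp at h ⊢
    · exact hν h
    · exact hν h
  have hsurj : ∀ g : Matrix.SpecialLinearGroup (Fin 2) F, ∃ i, IsConj (rep ν i) g := by
    intro g
    by_cases hs : ((g : Matrix (Fin 2) (Fin 2) F) 0 1 = 0 ∧
        (g : Matrix (Fin 2) (Fin 2) F) 1 0 = 0 ∧
        (g : Matrix (Fin 2) (Fin 2) F) 0 0 = (g : Matrix (Fin 2) (Fin 2) F) 1 1)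
    · obtain ⟨s, hs'⟩ := sl2_scalar_eq_pm g hs.1 hs.2.1 hs.2.2
      refine ⟨Sum.inl s, ?_⟩
      rw [hs']
      exact IsConj.refl _
    · obtain ⟨u, hu⟩ := sl2_isConj_comp g hs
      by_cases ht : (Matrix.trace (g : Matrix (Fin 2) (Fin 2) F)) ^ 2 = 4
      · have ht' : Matrix.trace (g : Matrix (Fin 2) (Fin 2) F) = 2 ∨
            Matrix.trace (g : Matrix (Fin 2) (Fin 2) F) = -2 := by
          have : (Matrix.trace (g : Matrix (Fin 2) (Fin 2) F) - 2) *
              (Matrix.trace (g : Matrix (Fin 2) (Fin 2) F) + 2) = 0 := by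
            linear_combination ht
          rcases mul_eq_zero.1 this with h | h
          · left
            exact sub_eq_zero.1 h
          · right
            exact eq_neg_of_add_eq_zero_left h
        obtain ⟨s1, hs1⟩ : ∃ s1 : Bool, (if s1 then (2 : F) else -2) =
            Matrix.trace (g : Matrix (Fin 2) (Fin 2) F) := by
          rcases ht' with h | h
          · exact ⟨true, by simp [h]⟩
          · exact ⟨false, by simp [h]⟩
        obtain ⟨s2, hs2⟩ : ∃ s2 : Bool, IsSquare ((((if s2 then 1 else ν : Fˣ)) : F) * u) := by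
          by_cases hsq : IsSquare (u : F)
          · exact ⟨true, by simpa using hsq⟩
          · exact ⟨false, by simpa using hmul ν u hν hsq⟩
        refine ⟨Sum.inr (Sum.inr (s1, s2)), ?_⟩
        show IsConj (sl2Comp (if s1 then 2 else -2) (if s2 then 1 else ν)) g
        rw [hs1]
        refine IsConj.trans ?_ hu.symm
        rw [sl2Comp_conj_iff_of_sq_eq_four h2 _ ht]
        exact hs2
      · refine ⟨Sum.inr (Sum.inl ⟨_, ht⟩), ?_⟩
        show IsConj (sl2Comp (Matrix.trace (g : Matrix (Fin 2) (Fin 2) F)) 1) g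
        exact (sl2Comp_conj_of_sq_ne_four hq1 h2 _ ht 1 u).trans hu.symm
  have trPM : ∀ (s : Bool) (y : F), Matrix.trace
      ((sl2PM s y : Matrix.SpecialLinearGroup (Fin 2) F) : Matrix (Fin 2) (Fin 2) F) =
        (if s then (2 : F) else -2) := by
    intro s y
    rw [sl2PM_val, Matrix.trace_fin_two]
    cases s <;> simp <;> norm_num
  have trComp : ∀ (t : F) (u : Fˣ), Matrix.trace
      ((sl2Comp t u : Matrix.SpecialLinearGroup (Fin 2) F) : Matrix (Fin 2) (Fin 2) F) = t := by
    intro t u
    rw [sl2Comp_val, Matrix.trace_fin_two]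
    simp
  have hscal : ∀ (s : Bool) (t : F) (u : Fˣ), ¬ IsConj (sl2PM s (0 : F)) (sl2Comp t u) := by
    intro s t u h
    have h1 := sl2PM_zero_conj s _ h
    have h3 := congrArg (fun M : Matrix.SpecialLinearGroup (Fin 2) F =>
      (M : Matrix (Fin 2) (Fin 2) F) 1 0) h1
    simp [sl2Comp_val, sl2PM_val] at h3
  have hinj : ∀ i j, IsConj (rep ν i) (rep ν j) → i = j := by
    intro i j hij
    have htr := sl2_conj_trace hij
    rcases i with s | t | ⟨s1, s2⟩ <;> rcases j with s' | t' | ⟨s1', s2'⟩
    · simp only [rep] at htr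
      rw [trPM, trPM] at htr
      rw [pm_inj s s' htr]
    · exfalso
      simp only [rep] at htr
      rw [trPM, trComp] at htr
      apply t'.2
      rw [← htr]
      exact pm_sq s
    · exfalso
      simp only [rep] at hij
      exact hscal _ _ _ hij
    · exfalso
      simp only [rep] at htr
      rw [trPM, trComp] at htr
      apply t.2
      rw [htr]
      exact pm_sq s'
    · simp only [rep] at htr
      rw [trComp, trComp] at htr
      rw [Subtype.ext htr]
    · exfalso
      simp only [rep] at htr
      rw [trComp, trComp] at htr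
      apply t.2
      rw [htr]
      exact pm_sq s1'
    · exfalso
      simp only [rep] at hij
      exact hscal _ _ _ hij.symm
    · exfalso
      simp only [rep] at htr
      rw [trComp, trComp] at htr
      apply t'.2
      rw [← htr]
      exact pm_sq s1
    · simp only [rep] at htr hij
      rw [trComp, trComp] at htr
      have h1 := pm_inj s1 s1' htr
      subst h1
      rw [sl2Comp_conj_iff_of_sq_eq_four h2 _ (pm_sq s1)] at hij
      rw [usq s2 s2' hij]
  have key : Function.Bijective (fun i => ConjClasses.mk (rep ν i)) := by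
    constructor
    · intro i j h
      exact hinj i j (ConjClasses.mk_eq_mk_iff_isConj.1 h)
    · intro c
      obtain ⟨g, rfl⟩ := ConjClasses.mk_surjective c
      obtain ⟨i, hi⟩ := hsurj g
      exact ⟨i, ConjClasses.mk_eq_mk_iff_isConj.2 hi⟩
  have hc : Fintype.card {t : F // t ^ 2 = 4} = 2 := by
    rw [Fintype.card_subtype]
    have : (Finset.univ.filter (fun t : F => t ^ 2 = 4)) = {2, -2} := by
      ext t
      simp only [Finset.mem_filter, Finset.mem_univ, true_and, Finset.mem_insert,
        Finset.mem_singleton]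
      constructor
      · intro ht
        have : (t - 2) * (t + 2) = 0 := by linear_combination ht
        rcases mul_eq_zero.1 this with h | h
        · left
          exact sub_eq_zero.1 h
        · right
          exact eq_neg_of_add_eq_zero_left h
      · rintro (rfl | rfl) <;> norm_num
    rw [this, Finset.card_pair hpm]
  have hc2 : 2 ≤ Fintype.card F := Fintype.one_lt_card
  rw [← Nat.card_congr (Equiv.ofBijective _ key), Nat.card_eq_fintype_card, Fintype.card_sum,
    Fintype.card_sum, Fintype.card_bool, Fintype.card_prod, Fintype.card_bool,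
    Fintype.card_subtype_compl, hc]
  omega

end Cfsg.Agent.S2325
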