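import Cfsg.Statements.S2329
import Mathlib
import Cfsg.Agent.Lib.Helper4.Unipotent

set_option autoImplicit false
open Cfsg

namespace Cfsg.Agent.S2329

/-- the standard unipotent matrix -/
def jMat (F : Type*) [Field F] : Matrix (Fin 2) (Fin 2) F := !![1, 1; 0, 1]

theorem jMat_det (F : Type*) [Field F] : (jMat F).det ≠ 0 := by
  simp [jMat, Matrix.det_fin_two]

/-- the standard unipotent element of `GL₂` -/
noncomputable def jGL (F : Type*) [Field F] : Matrix.GeneralLinearGroup (Fin 2) F :=
  Matrix.GeneralLinearGroup.mkOfDetNeZero (jMat F) (jMat_det F)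

theorem conj_jGL {F : Type*} [Field F] (g : Matrix.GeneralLinearGroup (Fin 2) F)
    (hN2 : ((g : Matrix (Fin 2) (Fin 2) F) - 1) ^ 2 = 0) (hne : g ≠ 1) : IsConj g (jGL F) := by
  have e00 := congrFun (congrFun hN2 0) 0
  have e01 := congrFun (congrFun hN2 0) 1
  have e10 := congrFun (congrFun hN2 1) 0
  have e11 := congrFun (congrFun hN2 1) 1
  simp only [pow_two, Matrix.mul_apply, Fin.sum_univ_two, Matrix.sub_apply, Matrix.one_apply_eq,
    Matrix.zero_apply, Matrix.one_apply_ne (show (0 : Fin 2) ≠ 1 by decide),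
    Matrix.one_apply_ne (show (1 : Fin 2) ≠ 0 by decide), sub_zero] at e00 e01 e10 e11
  -- it suffices to find an invertible P with g P = P J
  suffices h : ∃ P : Matrix (Fin 2) (Fin 2) F, P.det ≠ 0 ∧
      (g : Matrix (Fin 2) (Fin 2) F) * P = P * jMat F by
    obtain ⟨P, hdet, hP⟩ := h
    rw [isConj_iff]
    refine ⟨(Matrix.GeneralLinearGroup.mkOfDetNeZero P hdet)⁻¹, ?_⟩
    have hP' : g * Matrix.GeneralLinearGroup.mkOfDetNeZero P hdet =
        Matrix.GeneralLinearGroup.mkOfDetNeZero P hdet * jGL F := by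
      apply Units.ext
      exact hP
    rw [inv_inv, mul_assoc, hP', ← mul_assoc, inv_mul_cancel, one_mul]
  by_cases hc : (g : Matrix (Fin 2) (Fin 2) F) 1 0 = 0
  · -- c = 0
    have ha : (g : Matrix (Fin 2) (Fin 2) F) 0 0 - 1 = 0 := by
      rw [hc, mul_zero, add_zero] at e00
      exact mul_self_eq_zero.mp e00
    have hd : (g : Matrix (Fin 2) (Fin 2) F) 1 1 - 1 = 0 := by
      rw [hc, zero_mul, zero_add] at e11
      exact mul_self_eq_zero.mp e11
    have hb : (g : Matrix (Fin 2) (Fin 2) F) 0 1 ≠ 0 := by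
      intro hb
      apply hne
      apply Units.ext
      ext i j
      fin_cases i <;> fin_cases j
      · simpa using sub_eq_zero.mp ha
      · simpa using hb
      · simpa using hc
      · simpa using sub_eq_zero.mp hd
    refine ⟨!![(g : Matrix (Fin 2) (Fin 2) F) 0 1, 0; 0, 1], ?_, ?_⟩
    · simpa [Matrix.det_fin_two] using hb
    · ext i j
      fin_cases i <;> fin_cases j <;>
        simp [Matrix.mul_apply, Fin.sum_univ_two, jMat, hc, sub_eq_zero.mp ha, sub_eq_zero.mp hd]
  · -- c ≠ 0
    have had : (g : Matrix (Fin 2) (Fin 2) F) 0 0 - 1 + ((g : Matrix (Fin 2) (Fin 2) F) 1 1 - 1) = 0 := by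
      have : (g : Matrix (Fin 2) (Fin 2) F) 1 0 *
          ((g : Matrix (Fin 2) (Fin 2) F) 0 0 - 1 + ((g : Matrix (Fin 2) (Fin 2) F) 1 1 - 1)) = 0 := by
        linear_combination e10
      rcases mul_eq_zero.mp this with h | h
      · exact absurd h hc
      · exact h
    refine ⟨!![(g : Matrix (Fin 2) (Fin 2) F) 0 0 - 1, 1; (g : Matrix (Fin 2) (Fin 2) F) 1 0, 0], ?_, ?_⟩
    · simpa [Matrix.det_fin_two] using hc
    · ext i j
      fin_cases i <;> fin_cases j <;>
        simp [Matrix.mul_apply, Fin.sum_univ_two, jMat]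
      · linear_combination e00
      · linear_combination had * (g : Matrix (Fin 2) (Fin 2) F) 1 0


/-- Over a finite field of characteristic p, any two elements of order p of GL₂ are conjugate: there is a single conjugacy class of non-identity unipotent elements. -/
theorem result {F : Type*} [Field F] [Fintype F] (p : ℕ) [Fact p.Prime] [CharP F p] (g h : Matrix.GeneralLinearGroup (Fin 2) F)
    (hg : orderOf g = p) (hh : orderOf h = p) : IsConj g h := by
  have hp := (Fact.out : p.Prime)
  have key : ∀ x : Matrix.GeneralLinearGroup (Fin 2) F, orderOf x = p → IsConj x (jGL F) := by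
    intro x hx
    have hxp : x ^ p = 1 := by rw [← hx]; exact pow_orderOf_eq_one x
    have hne : x ≠ 1 := by
      intro h1
      rw [h1, orderOf_one] at hx
      exact hp.one_lt.ne hx
    have hN : ((x : Matrix (Fin 2) (Fin 2) F) - 1) ^ p = 0 := by
      have h4 := Lib.Helper4.unipotent_pow_char_pow p (x : Matrix (Fin 2) (Fin 2) F) 1
      rw [pow_one, ← Units.val_pow_eq_pow_val, hxp, Units.val_one] at h4
      exact left_eq_add.mp h4
    have hN2 : ((x : Matrix (Fin 2) (Fin 2) F) - 1) ^ 2 = 0 := by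
      have := Lib.Helper4.nilpotent_matrix_pow_card _ (⟨p, hN⟩ : IsNilpotent ((x : Matrix (Fin 2) (Fin 2) F) - 1))
      simpa using this
    exact conj_jGL x hN2 hne
  exact (key g hg).trans (key h hh).symm

end Cfsg.Agent.S2329
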