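import Cfsg.Statements.S2330
import Mathlib
import Cfsg.Agent.Lib.Helper4.GL2

set_option autoImplicit false
open Cfsg

namespace Cfsg.Agent.S2330

/-- Over a finite field with q elements, the general linear group GL₂ has exactly q² − 1 conjugacy classes. -/
theorem result {F : Type*} [Field F] [Fintype F] :
    Nat.card (ConjClasses (Matrix.GeneralLinearGroup (Fin 2) F)) = Fintype.card F ^ 2 - 1 := by
  classical
  rw [← Nat.card_congr (Equiv.ofBijective _ (Cfsg.Agent.Lib.Helper4.gl2_classes_bijective (F := F))),
    Nat.card_eq_fintype_card, Fintype.card_sum, Fintype.card_prod, Fintype.card_units]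
  obtain ⟨r, hr⟩ := Nat.exists_eq_succ_of_ne_zero (Fintype.card_ne_zero (α := F))
  rw [hr]
  simp only [Nat.succ_sub_one]
  have h1 : (r + 1) ^ 2 = r + (r + 1) * r + 1 := by ring
  rw [Nat.succ_eq_add_one, h1]
  omega

end Cfsg.Agent.S2330
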