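import Cfsg.Statements.S2331
import Mathlib
import Cfsg.Agent.Lib.Helper4.SL2

set_option autoImplicit false
open Cfsg

namespace Cfsg.Agent.S2331

open Cfsg.Agent.Lib.Helper4 in
/-- The parametrisation of the classes of `SL₂` in characteristic two. -/
noncomputable def classMap {F : Type*} [Field F] :
    Option F → ConjClasses (Matrix.SpecialLinearGroup (Fin 2) F)
  | none => ConjClasses.mk 1
  | some t => ConjClasses.mk (sl2Comp t 1)

open Cfsg.Agent.Lib.Helper4 in


/-- Over a finite field with q elements, q even, the special linear group SL₂ has exactly q + 1 conjugacy classes. -/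
theorem result {F : Type*} [Field F] [Fintype F] [CharP F 2] :
    Nat.card (ConjClasses (Matrix.SpecialLinearGroup (Fin 2) F)) = Fintype.card F + 1 := by
  classical
  have key : Function.Bijective (classMap (F := F)) := by
    constructor
    · intro x y hxy
      cases x with
      | none =>
        cases y with
        | none => rfl
        | some t =>
          exfalso
          simp only [classMap] at hxy
          rw [ConjClasses.mk_eq_mk_iff_isConj, isConj_one_right] at hxy
          have h1 := congrArg (fun M : Matrix.SpecialLinearGroup (Fin 2) F =>
            (M : Matrix (Fin 2) (Fin 2) F) 1 0) hxy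
          simp [sl2Comp_val] at h1
      | some t =>
        cases y with
        | none =>
          exfalso
          simp only [classMap] at hxy
          rw [eq_comm, ConjClasses.mk_eq_mk_iff_isConj, isConj_one_right] at hxy
          have h1 := congrArg (fun M : Matrix.SpecialLinearGroup (Fin 2) F =>
            (M : Matrix (Fin 2) (Fin 2) F) 1 0) hxy
          simp [sl2Comp_val] at h1
        | some t' =>
          simp only [classMap] at hxy
          rw [ConjClasses.mk_eq_mk_iff_isConj] at hxy
          have h1 := sl2_conj_trace hxy
          rw [sl2Comp_val, sl2Comp_val, Matrix.trace_fin_two, Matrix.trace_fin_two] at h1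
          simp at h1
          rw [h1]
    · intro c
      obtain ⟨g, rfl⟩ := ConjClasses.mk_surjective c
      by_cases hs : ((g : Matrix (Fin 2) (Fin 2) F) 0 1 = 0 ∧
          (g : Matrix (Fin 2) (Fin 2) F) 1 0 = 0 ∧
          (g : Matrix (Fin 2) (Fin 2) F) 0 0 = (g : Matrix (Fin 2) (Fin 2) F) 1 1)
      · refine ⟨none, ?_⟩
        obtain ⟨h01, h10, h00⟩ := hs
        have hdet := sl2_det g
        rw [h01, h10, ← h00] at hdet
        have h2 : (2 : F) = 0 := CharP.ofNat_eq_zero F 2
        have ha : (g : Matrix (Fin 2) (Fin 2) F) 0 0 = 1 := by
          have : ((g : Matrix (Fin 2) (Fin 2) F) 0 0 - 1) ^ 2 = 0 := by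
            linear_combination hdet - (g : Matrix (Fin 2) (Fin 2) F) 0 0 * h2 + h2
          have := pow_eq_zero_iff (two_ne_zero) |>.1 this
          exact sub_eq_zero.1 this
        have hg1 : g = 1 := by
          apply Subtype.ext
          rw [Matrix.SpecialLinearGroup.coe_one]
          ext i j
          fin_cases i <;> fin_cases j
          · simpa using ha
          · simpa using h01
          · simpa using h10
          · simpa using (h00.symm.trans ha)
        simp only [classMap]
        rw [hg1]
      · obtain ⟨u, hu⟩ := sl2_isConj_comp g hs
        obtain ⟨r, hr⟩ := FiniteField.isSquare_of_char_two (ringChar.eq F 2) (u : F)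
        have hr0 : r ≠ 0 := by
          rintro rfl
          simp at hr
        have hu2 : u = 1 * (Units.mk0 r hr0) ^ 2 := by
          apply Units.ext
          simp [hr, sq]
        refine ⟨some (Matrix.trace (g : Matrix (Fin 2) (Fin 2) F)), ?_⟩
        simp only [classMap]
        rw [ConjClasses.mk_eq_mk_iff_isConj]
        have h3 := sl2Comp_conj_sq (Matrix.trace (g : Matrix (Fin 2) (Fin 2) F)) 1
          (Units.mk0 r hr0)
        rw [← hu2] at h3
        exact (hu.trans h3).symm
  rw [← Nat.card_congr (Equiv.ofBijective _ key), Nat.card_eq_fintype_card, Fintype.card_option]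

end Cfsg.Agent.S2331
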