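import Cfsg.Statements.S2367
import Mathlib

set_option autoImplicit false
open Cfsg

namespace Cfsg.Agent.S2367

theorem pow_three_lt (p : ℕ) (hp : 5 ≤ p) : p ^ 3 < 2 ^ (2 * p - 1) := by
  induction p, hp using Nat.le_induction with
  | base => norm_num
  | succ k hk ih =>
    have h1 : 2 ^ (2 * (k + 1) - 1) = 4 * 2 ^ (2 * k - 1) := by
      have : 2 * (k + 1) - 1 = (2 * k - 1) + 2 := by omega
      rw [this, pow_add]; ring
    rw [h1]
    have h2 : (k + 1) ^ 3 ≤ 4 * k ^ 3 := by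
      have h3 : 25 ≤ k ^ 2 := by nlinarith
      nlinarith [mul_le_mul hk (le_refl (k ^ 2)) (Nat.zero_le _) (Nat.zero_le _)]
    omega

theorem aux (N : ℕ) (l : List ℕ) (hprod : l.prod = N) (hprime : ∀ q ∈ l, q.Prime) (p : ℕ)
    (hodd : p ≠ 2) (h3 : N.factorization p = 3)
    (hcheck : ∀ q ∈ l, q ≠ 2 → l.count q = 3 → q ^ 3 < 2 ^ (l.count 2)) :
    p ^ 3 < 2 ^ (N.factorization 2) := by
  have hperm := Nat.primeFactorsList_unique hprod hprime
  have hc : ∀ q, N.factorization q = l.count q := fun q => by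
    rw [← Nat.primeFactorsList_count_eq, hperm.count_eq]
  rw [hc] at h3 ⊢
  exact hcheck p (List.count_pos_iff.1 (by omega)) hodd h3

theorem alt_case (n : ℕ) (hn : 5 ≤ n) (p : ℕ) (hp : p.Prime) (hodd : p ≠ 2) (N : ℕ)
    (hN : 2 * N = n.factorial) (h3 : N.factorization p = 3) :
    p ^ 3 < 2 ^ N.factorization 2 := by
  have hN0 : N ≠ 0 := by
    rintro rfl
    exact (Nat.factorial_ne_zero n) (by simpa using hN.symm)
  have hfp : (n.factorial).factorization p = 3 := by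
    rw [← hN, Nat.factorization_mul two_ne_zero hN0, Finsupp.add_apply,
      Nat.prime_two.factorization, Finsupp.single_eq_of_ne hodd, zero_add, h3]
  have hf2 : (n.factorial).factorization 2 = N.factorization 2 + 1 := by
    rw [← hN, Nat.factorization_mul two_ne_zero hN0, Finsupp.add_apply,
      Nat.prime_two.factorization, Finsupp.single_eq_same, add_comm]
  have hp3 : 3 ≤ p := by
    have := hp.two_le
    omega
  have h3p : 3 * p ≤ n := by
    by_contra hlt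
    push Not at hlt
    have hlog : Nat.log p n < 2 := by
      apply Nat.log_lt_of_lt_pow (by omega)
      nlinarith
    have := Nat.factorization_factorial hp hlog
    rw [hfp] at this
    simp at this
    have h4 : 3 ≤ n / p := by omega
    rw [Nat.le_div_iff_mul_le hp.pos] at h4
    omega
  have hp5 : 5 ≤ p := by
    by_contra hlt
    push Not at hlt
    have hp34 : p = 3 ∨ p = 4 := by omega
    rcases hp34 with rfl | rfl
    · have h9 : (9 : ℕ).factorial ∣ n.factorial := Nat.factorial_dvd_factorial (by omega)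
      have h81 : 3 ^ 4 ∣ n.factorial := Dvd.dvd.trans (by decide) h9
      have := (hp.pow_dvd_iff_le_factorization (Nat.factorial_ne_zero n)).1 h81
      omega
    · exact absurd hp (by decide)
  have h2 : 2 * p ≤ (n.factorial).factorization 2 := by
    apply (Nat.prime_two.pow_dvd_iff_le_factorization (Nat.factorial_ne_zero n)).1
    have hlog : Nat.log 2 n < n := Nat.log_lt_self 2 (by omega)
    apply (Nat.Prime.pow_dvd_factorial_iff Nat.prime_two hlog).2
    have hsub : ({1, 2} : Finset ℕ) ⊆ Finset.Ico 1 n := by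
      intro x hx
      simp only [Finset.mem_insert, Finset.mem_singleton] at hx
      rw [Finset.mem_Ico]
      omega
    have hle := Finset.sum_le_sum_of_subset (f := fun i => n / 2 ^ i) hsub
    have hsum : ∑ i ∈ ({1, 2} : Finset ℕ), n / 2 ^ i = n / 2 + n / 4 := by
      rw [Finset.sum_pair (by decide)]
      norm_num
    rw [hsum] at hle
    omega
  calc p ^ 3 < 2 ^ (2 * p - 1) := pow_three_lt p hp5
    _ ≤ 2 ^ N.factorization 2 := Nat.pow_le_pow_right (by norm_num) (by omega)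


/-- Let G be an alternating group of degree at least 5 or a simple group with the order of one of the 26 sporadic groups, and let p be an odd prime such that p³ is the exact power of p dividing the order of G. Then p³ is less than the 2-part of the order of G. -/
theorem result {G : Type*} [Group G] [Finite G] (hG : Cfsg.IsAlternating G ∨ Cfsg.IsSporadic G)
    (p : ℕ) (hp : p.Prime) (hodd : p ≠ 2) (h3 : (Nat.card G).factorization p = 3) :
    p ^ 3 < 2 ^ (Nat.card G).factorization 2 := by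
  rcases hG with ⟨n, hn, ⟨e⟩⟩ | hS
  · have : Nontrivial (Fin n) := Fin.nontrivial_iff_two_le.2 (by omega)
    have h1 : Nat.card G = Nat.card (alternatingGroup (Fin n)) := Nat.card_congr e.toEquiv
    have h2 : 2 * Nat.card G = n.factorial := by
      rw [h1, two_mul_nat_card_alternatingGroup, Nat.card_eq_fintype_card, Fintype.card_perm,
        Fintype.card_fin]
    exact alt_case n hn p hp hodd _ h2 h3
  · unfold Cfsg.IsSporadic at hS
    unfold Cfsg.IsM11 Cfsg.IsM12 Cfsg.IsM22 Cfsg.IsM23 Cfsg.IsM24 Cfsg.IsJ1 Cfsg.IsJ2 Cfsg.IsJ3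
      Cfsg.IsJ4 Cfsg.IsCo1 Cfsg.IsCo2 Cfsg.IsCo3 Cfsg.IsFi22 Cfsg.IsFi23 Cfsg.IsFi24' Cfsg.IsHS
      Cfsg.IsMcL Cfsg.IsHe Cfsg.IsRu Cfsg.IsSuz Cfsg.IsON Cfsg.IsHN Cfsg.IsLy Cfsg.IsTh Cfsg.IsB
      Cfsg.IsM at hS
    rcases hS with hS | hS | hS | hS | hS | hS | hS | hS | hS | hS | hS | hS | hS | hS | hS | hS |
      hS | hS | hS | hS | hS | hS | hS | hS | hS | hS
    · obtain ⟨-, hN⟩ := hS
      rw [hN] at h3 ⊢
      exact aux _ [2, 2, 2, 2, 3, 3, 5, 11] (by norm_num) (by simp only [List.forall_mem_cons, List.not_mem_nil, IsEmpty.forall_iff, implies_true, and_true]; norm_num) p hodd h3 (by decide +kernel)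
    · obtain ⟨-, hN⟩ := hS
      rw [hN] at h3 ⊢
      exact aux _ [2, 2, 2, 2, 2, 2, 3, 3, 3, 5, 11] (by norm_num) (by simp only [List.forall_mem_cons, List.not_mem_nil, IsEmpty.forall_iff, implies_true, and_true]; norm_num) p hodd h3 (by decide +kernel)
    · obtain ⟨-, hN⟩ := hS
      rw [hN] at h3 ⊢
      exact aux _ [2, 2, 2, 2, 2, 2, 2, 3, 3, 5, 7, 11] (by norm_num) (by simp only [List.forall_mem_cons, List.not_mem_nil, IsEmpty.forall_iff, implies_true, and_true]; norm_num) p hodd h3 (by decide +kernel)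
    · obtain ⟨-, hN⟩ := hS
      rw [hN] at h3 ⊢
      exact aux _ [2, 2, 2, 2, 2, 2, 2, 3, 3, 5, 7, 11, 23] (by norm_num) (by simp only [List.forall_mem_cons, List.not_mem_nil, IsEmpty.forall_iff, implies_true, and_true]; norm_num) p hodd h3 (by decide +kernel)
    · obtain ⟨-, hN⟩ := hS
      rw [hN] at h3 ⊢
      exact aux _ [2, 2, 2, 2, 2, 2, 2, 2, 2, 2, 3, 3, 3, 5, 7, 11, 23] (by norm_num) (by simp only [List.forall_mem_cons, List.not_mem_nil, IsEmpty.forall_iff, implies_true, and_true]; norm_num) p hodd h3 (by decide +kernel)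
    · obtain ⟨-, hN⟩ := hS
      rw [hN] at h3 ⊢
      exact aux _ [2, 2, 2, 3, 5, 7, 11, 19] (by norm_num) (by simp only [List.forall_mem_cons, List.not_mem_nil, IsEmpty.forall_iff, implies_true, and_true]; norm_num) p hodd h3 (by decide +kernel)
    · obtain ⟨-, hN⟩ := hS
      rw [hN] at h3 ⊢
      exact aux _ [2, 2, 2, 2, 2, 2, 2, 3, 3, 3, 5, 5, 7] (by norm_num) (by simp only [List.forall_mem_cons, List.not_mem_nil, IsEmpty.forall_iff, implies_true, and_true]; norm_num) p hodd h3 (by decide +kernel)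
    · obtain ⟨-, hN⟩ := hS
      rw [hN] at h3 ⊢
      exact aux _ [2, 2, 2, 2, 2, 2, 2, 3, 3, 3, 3, 3, 5, 17, 19] (by norm_num) (by simp only [List.forall_mem_cons, List.not_mem_nil, IsEmpty.forall_iff, implies_true, and_true]; norm_num) p hodd h3 (by decide +kernel)
    · obtain ⟨-, hN⟩ := hS
      rw [hN] at h3 ⊢
      exact aux _ [2, 2, 2, 2, 2, 2, 2, 2, 2, 2, 2, 2, 2, 2, 2, 2, 2, 2, 2, 2, 2, 3, 3, 3, 5, 7, 11, 11, 11, 23, 29, 31, 37, 43] (by norm_num) (by simp only [List.forall_mem_cons, List.not_mem_nil, IsEmpty.forall_iff, implies_true, and_true]; norm_num) p hodd h3 (by decide +kernel)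
    · obtain ⟨-, hN⟩ := hS
      rw [hN] at h3 ⊢
      exact aux _ [2, 2, 2, 2, 2, 2, 2, 2, 2, 2, 2, 2, 2, 2, 2, 2, 2, 2, 2, 2, 2, 3, 3, 3, 3, 3, 3, 3, 3, 3, 5, 5, 5, 5, 7, 7, 11, 13, 23] (by norm_num) (by simp only [List.forall_mem_cons, List.not_mem_nil, IsEmpty.forall_iff, implies_true, and_true]; norm_num) p hodd h3 (by decide +kernel)
    · obtain ⟨-, hN⟩ := hS
      rw [hN] at h3 ⊢
      exact aux _ [2, 2, 2, 2, 2, 2, 2, 2, 2, 2, 2, 2, 2, 2, 2, 2, 2, 2, 3, 3, 3, 3, 3, 3, 5, 5, 5, 7, 11, 23] (by norm_num) (by simp only [List.forall_mem_cons, List.not_mem_nil, IsEmpty.forall_iff, implies_true, and_true]; norm_num) p hodd h3 (by decide +kernel)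
    · obtain ⟨-, hN⟩ := hS
      rw [hN] at h3 ⊢
      exact aux _ [2, 2, 2, 2, 2, 2, 2, 2, 2, 2, 3, 3, 3, 3, 3, 3, 3, 5, 5, 5, 7, 11, 23] (by norm_num) (by simp only [List.forall_mem_cons, List.not_mem_nil, IsEmpty.forall_iff, implies_true, and_true]; norm_num) p hodd h3 (by decide +kernel)
    · obtain ⟨-, hN⟩ := hS
      rw [hN] at h3 ⊢
      exact aux _ [2, 2, 2, 2, 2, 2, 2, 2, 2, 2, 2, 2, 2, 2, 2, 2, 2, 3, 3, 3, 3, 3, 3, 3, 3, 3, 5, 5, 7, 11, 13] (by norm_num) (by simp only [List.forall_mem_cons, List.not_mem_nil, IsEmpty.forall_iff, implies_true, and_true]; norm_num) p hodd h3 (by decide +kernel)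
    · obtain ⟨-, hN⟩ := hS
      rw [hN] at h3 ⊢
      exact aux _ [2, 2, 2, 2, 2, 2, 2, 2, 2, 2, 2, 2, 2, 2, 2, 2, 2, 2, 3, 3, 3, 3, 3, 3, 3, 3, 3, 3, 3, 3, 3, 5, 5, 7, 11, 13, 17, 23] (by norm_num) (by simp only [List.forall_mem_cons, List.not_mem_nil, IsEmpty.forall_iff, implies_true, and_true]; norm_num) p hodd h3 (by decide +kernel)
    · obtain ⟨-, hN⟩ := hS
      rw [hN] at h3 ⊢
      exact aux _ [2, 2, 2, 2, 2, 2, 2, 2, 2, 2, 2, 2, 2, 2, 2, 2, 2, 2, 2, 2, 2, 3, 3, 3, 3, 3, 3, 3, 3, 3, 3, 3, 3, 3, 3, 3, 3, 5, 5, 7, 7, 7, 11, 13, 17, 23, 29] (by norm_num) (by simp only [List.forall_mem_cons, List.not_mem_nil, IsEmpty.forall_iff, implies_true, and_true]; norm_num) p hodd h3 (by decide +kernel)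
    · obtain ⟨-, hN⟩ := hS
      rw [hN] at h3 ⊢
      exact aux _ [2, 2, 2, 2, 2, 2, 2, 2, 2, 3, 3, 5, 5, 5, 7, 11] (by norm_num) (by simp only [List.forall_mem_cons, List.not_mem_nil, IsEmpty.forall_iff, implies_true, and_true]; norm_num) p hodd h3 (by decide +kernel)
    · obtain ⟨-, hN⟩ := hS
      rw [hN] at h3 ⊢
      exact aux _ [2, 2, 2, 2, 2, 2, 2, 3, 3, 3, 3, 3, 3, 5, 5, 5, 7, 11] (by norm_num) (by simp only [List.forall_mem_cons, List.not_mem_nil, IsEmpty.forall_iff, implies_true, and_true]; norm_num) p hodd h3 (by decide +kernel)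
    · obtain ⟨-, hN⟩ := hS
      rw [hN] at h3 ⊢
      exact aux _ [2, 2, 2, 2, 2, 2, 2, 2, 2, 2, 3, 3, 3, 5, 5, 7, 7, 7, 17] (by norm_num) (by simp only [List.forall_mem_cons, List.not_mem_nil, IsEmpty.forall_iff, implies_true, and_true]; norm_num) p hodd h3 (by decide +kernel)
    · obtain ⟨-, hN⟩ := hS
      rw [hN] at h3 ⊢
      exact aux _ [2, 2, 2, 2, 2, 2, 2, 2, 2, 2, 2, 2, 2, 2, 3, 3, 3, 5, 5, 5, 7, 13, 29] (by norm_num) (by simp only [List.forall_mem_cons, List.not_mem_nil, IsEmpty.forall_iff, implies_true, and_true]; norm_num) p hodd h3 (by decide +kernel)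
    · obtain ⟨-, hN⟩ := hS
      rw [hN] at h3 ⊢
      exact aux _ [2, 2, 2, 2, 2, 2, 2, 2, 2, 2, 2, 2, 2, 3, 3, 3, 3, 3, 3, 3, 5, 5, 7, 11, 13] (by norm_num) (by simp only [List.forall_mem_cons, List.not_mem_nil, IsEmpty.forall_iff, implies_true, and_true]; norm_num) p hodd h3 (by decide +kernel)
    · obtain ⟨-, hN⟩ := hS
      rw [hN] at h3 ⊢
      exact aux _ [2, 2, 2, 2, 2, 2, 2, 2, 2, 3, 3, 3, 3, 5, 7, 7, 7, 11, 19, 31] (by norm_num) (by simp only [List.forall_mem_cons, List.not_mem_nil, IsEmpty.forall_iff, implies_true, and_true]; norm_num) p hodd h3 (by decide +kernel)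
    · obtain ⟨-, hN⟩ := hS
      rw [hN] at h3 ⊢
      exact aux _ [2, 2, 2, 2, 2, 2, 2, 2, 2, 2, 2, 2, 2, 2, 3, 3, 3, 3, 3, 3, 5, 5, 5, 5, 5, 5, 7, 11, 19] (by norm_num) (by simp only [List.forall_mem_cons, List.not_mem_nil, IsEmpty.forall_iff, implies_true, and_true]; norm_num) p hodd h3 (by decide +kernel)
    · obtain ⟨-, hN⟩ := hS
      rw [hN] at h3 ⊢
      exact aux _ [2, 2, 2, 2, 2, 2, 2, 2, 3, 3, 3, 3, 3, 3, 3, 5, 5, 5, 5, 5, 5, 7, 11, 31, 37, 67] (by norm_num) (by simp only [List.forall_mem_cons, List.not_mem_nil, IsEmpty.forall_iff, implies_true, and_true]; norm_num) p hodd h3 (by decide +kernel)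
    · obtain ⟨-, hN⟩ := hS
      rw [hN] at h3 ⊢
      exact aux _ [2, 2, 2, 2, 2, 2, 2, 2, 2, 2, 2, 2, 2, 2, 2, 3, 3, 3, 3, 3, 3, 3, 3, 3, 3, 5, 5, 5, 7, 7, 13, 19, 31] (by norm_num) (by simp only [List.forall_mem_cons, List.not_mem_nil, IsEmpty.forall_iff, implies_true, and_true]; norm_num) p hodd h3 (by decide +kernel)
    · obtain ⟨-, hN⟩ := hS
      rw [hN] at h3 ⊢
      exact aux _ [2, 2, 2, 2, 2, 2, 2, 2, 2, 2, 2, 2, 2, 2, 2, 2, 2, 2, 2, 2, 2, 2, 2, 2, 2, 2, 2, 2, 2, 2, 2, 2, 2, 2, 2, 2, 2, 2, 2, 2, 2, 3, 3, 3, 3, 3, 3, 3, 3, 3, 3, 3, 3, 3, 5, 5, 5, 5, 5, 5, 7, 7, 11, 13, 17, 19, 23, 31, 47] (by norm_num) (by simp only [List.forall_mem_cons, List.not_mem_nil, IsEmpty.forall_iff, implies_true, and_true]; norm_num) p hodd h3 (by decide +kernel)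
    · obtain ⟨-, hN⟩ := hS
      rw [hN] at h3 ⊢
      exact aux _ [2, 2, 2, 2, 2, 2, 2, 2, 2, 2, 2, 2, 2, 2, 2, 2, 2, 2, 2, 2, 2, 2, 2, 2, 2, 2, 2, 2, 2, 2, 2, 2, 2, 2, 2, 2, 2, 2, 2, 2, 2, 2, 2, 2, 2, 2, 3, 3, 3, 3, 3, 3, 3, 3, 3, 3, 3, 3, 3, 3, 3, 3, 3, 3, 3, 3, 5, 5, 5, 5, 5, 5, 5, 5, 5, 7, 7, 7, 7, 7, 7, 11, 11, 13, 13, 13, 17, 19, 23, 29, 31, 41, 47, 59, 71] (by norm_num) (by simp only [List.forall_mem_cons, List.not_mem_nil, IsEmpty.forall_iff, implies_true, and_true]; norm_num) p hodd h3 (by decide +kernel)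

end Cfsg.Agent.S2367
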