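import Cfsg.Statements.S2428
import Mathlib
import Cfsg.Agent.Lib.Helper4.SL2Normalizer

set_option autoImplicit false
open Cfsg

namespace Cfsg.Agent.S2428

open Cfsg.Agent.Lib.Helper4 in


/-- Let F be a finite field with q elements, q odd, and let d be a diagonal element of SL₂ over F whose diagonal entry a has a² ≠ 1 (such d exist exactly when q > 3). Then the centraliser of d is precisely the diagonal subgroup T; the normaliser of T has order 2(q − 1) and exactly (q + 5)/2 conjugacy classes; and every element of that normaliser outside T has square equal to −1. -/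
theorem result {F : Type*} [Field F] [Fintype F] (hodd : Odd (Fintype.card F))
    (d : Matrix.SpecialLinearGroup (Fin 2) F) (hd01 : (d : Matrix (Fin 2) (Fin 2) F) 0 1 = 0) (hd10 : (d : Matrix (Fin 2) (Fin 2) F) 1 0 = 0) (hda : (d : Matrix (Fin 2) (Fin 2) F) 0 0 ^ 2 ≠ 1) :
    (∀ g : Matrix.SpecialLinearGroup (Fin 2) F, g ∈ Subgroup.centralizer ({d} : Set (Matrix.SpecialLinearGroup (Fin 2) F)) ↔ ((g : Matrix (Fin 2) (Fin 2) F) 0 1 = 0 ∧ (g : Matrix (Fin 2) (Fin 2) F) 1 0 = 0)) ∧
    Nat.card (Subgroup.normalizer ((Subgroup.centralizer ({d} : Set (Matrix.SpecialLinearGroup (Fin 2) F))) : Set (Matrix.SpecialLinearGroup (Fin 2) F))) = 2 * (Fintype.card F - 1) ∧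
    Nat.card (ConjClasses (Subgroup.normalizer ((Subgroup.centralizer ({d} : Set (Matrix.SpecialLinearGroup (Fin 2) F))) : Set (Matrix.SpecialLinearGroup (Fin 2) F)))) = (Fintype.card F + 5) / 2 ∧
    ∀ g : Matrix.SpecialLinearGroup (Fin 2) F, g ∈ Subgroup.normalizer ((Subgroup.centralizer ({d} : Set (Matrix.SpecialLinearGroup (Fin 2) F))) : Set (Matrix.SpecialLinearGroup (Fin 2) F)) →
      g ∉ Subgroup.centralizer ({d} : Set (Matrix.SpecialLinearGroup (Fin 2) F)) → ((g * g) : Matrix (Fin 2) (Fin 2) F) = -1 := by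
  classical
  have hq1 := Nat.odd_iff.1 hodd
  have hchar : ringChar F ≠ 2 := by
    intro h
    have := FiniteField.even_card_of_char_two h
    omega
  have h2 : (2 : F) ≠ 0 := Ring.two_ne_zero hchar
  obtain ⟨a, ha⟩ : ∃ a, a = (d : Matrix (Fin 2) (Fin 2) F) 0 0 := ⟨_, rfl⟩
  obtain ⟨b, hb⟩ : ∃ b, b = (d : Matrix (Fin 2) (Fin 2) F) 1 1 := ⟨_, rfl⟩
  have hdm : (d : Matrix (Fin 2) (Fin 2) F) = !![a, 0; 0, b] := by
    have h := Matrix.eta_fin_two (d : Matrix (Fin 2) (Fin 2) F)
    rw [hd01, hd10, ← ha, ← hb] at h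
    exact h
  have hdet := sl2_det d
  rw [hd01, hd10, ← ha, ← hb] at hdet
  rw [← ha] at hda
  have hab : a * b = 1 := by linear_combination hdet
  have hne : a - b ≠ 0 := by
    intro h
    apply hda
    have : a = b := sub_eq_zero.1 h
    rw [← this] at hab
    rw [pow_two]
    exact hab
  have htr : Matrix.trace (d : Matrix (Fin 2) (Fin 2) F) = a + b := by
    rw [Matrix.trace_fin_two, ← ha, ← hb]
  have ht : (Matrix.trace (d : Matrix (Fin 2) (Fin 2) F)) ^ 2 ≠ 4 := by
    rw [htr]
    intro h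
    have : (a - b) * (a - b) = 0 := by linear_combination h - 4 * hab
    rcases mul_eq_zero.1 this with h' | h' <;> exact hne h'
  have hcardC := sl2_card_centralizer_of_split d ht a (by rw [htr]; linear_combination -hab)
  obtain ⟨hN1, hc1, hc2, hsq⟩ := sl2_normalizer_centralizer h2 d ht
  have hq2 := Fintype.one_lt_card (α := F)
  refine ⟨?_, ?_, ?_, ?_⟩
  · intro g
    rw [sl2_mem_centralizer_singleton]
    obtain ⟨g0, hg0⟩ : ∃ g0, g0 = (g : Matrix (Fin 2) (Fin 2) F) 0 0 := ⟨_, rfl⟩
    obtain ⟨g1, hg1⟩ : ∃ g1, g1 = (g : Matrix (Fin 2) (Fin 2) F) 0 1 := ⟨_, rfl⟩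
    obtain ⟨g2, hg2⟩ : ∃ g2, g2 = (g : Matrix (Fin 2) (Fin 2) F) 1 0 := ⟨_, rfl⟩
    obtain ⟨g3, hg3⟩ : ∃ g3, g3 = (g : Matrix (Fin 2) (Fin 2) F) 1 1 := ⟨_, rfl⟩
    have hgm : (g : Matrix (Fin 2) (Fin 2) F) = !![g0, g1; g2, g3] := by
      rw [hg0, hg1, hg2, hg3]
      exact Matrix.eta_fin_two _
    rw [← hg1, ← hg2]
    constructor
    · intro hc
      have hm := congrArg (fun M : Matrix.SpecialLinearGroup (Fin 2) F =>
        (M : Matrix (Fin 2) (Fin 2) F)) hc
      simp only [Matrix.SpecialLinearGroup.coe_mul] at hm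
      rw [hdm, hgm] at hm
      have e01 := congrFun (congrFun hm 0) 1
      have e10 := congrFun (congrFun hm 1) 0
      simp [Matrix.mul_apply, Fin.sum_univ_two] at e01 e10
      constructor
      · have : g1 * (a - b) = 0 := by linear_combination -e01
        rcases mul_eq_zero.1 this with h | h
        · exact h
        · exact absurd h hne
      · have : g2 * (a - b) = 0 := by linear_combination e10
        rcases mul_eq_zero.1 this with h | h
        · exact h
        · exact absurd h hne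
    · rintro ⟨h1, h2'⟩
      apply Subtype.ext
      rw [Matrix.SpecialLinearGroup.coe_mul, Matrix.SpecialLinearGroup.coe_mul, hdm, hgm, h1, h2']
      ext i j
      fin_cases i <;> fin_cases j <;> simp [Matrix.mul_apply, Fin.sum_univ_two, mul_comm]
  · rw [hc1, hcardC]
  · rw [hcardC] at hc2
    omega
  · intro g hg hgT
    have h := hsq g hg hgT
    have hm := congrArg (fun M : Matrix.SpecialLinearGroup (Fin 2) F =>
      (M : Matrix (Fin 2) (Fin 2) F)) h
    simp only [Matrix.SpecialLinearGroup.coe_mul, sl2PM_val] at hm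
    rw [hm]
    ext i j
    fin_cases i <;> fin_cases j <;> simp

end Cfsg.Agent.S2428
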