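import Cfsg.Statements.S2429
import Mathlib
import Cfsg.Agent.Lib.Helper4.SL2Nonsplit

set_option autoImplicit false
open Cfsg

namespace Cfsg.Agent.S2429

open Cfsg.Agent.Lib.Helper4 in


/-- Let F be a finite field with q elements, q odd. Then SL₂ over F contains a cyclic subgroup T′ of order q + 1 (a non-split torus) with the following properties: T′ is its own centraliser, and indeed the centraliser of each element of T′ other than 1 and −1 is exactly T′; every element of SL₂ having no eigenvector in F² is conjugate to an element of T′; the normaliser of T′ has order 2(q + 1) and exactly (q + 7)/2 conjugacy classes; and every element of that normaliser outside T′ has square −1. -/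
theorem result {F : Type*} [Field F] [Fintype F] (hodd : Odd (Fintype.card F)) :
    ∃ T' : Subgroup (Matrix.SpecialLinearGroup (Fin 2) F), IsCyclic T' ∧ Nat.card T' = Fintype.card F + 1 ∧
      Subgroup.centralizer ((T' : Set (Matrix.SpecialLinearGroup (Fin 2) F))) = T' ∧
      (∀ g : Matrix.SpecialLinearGroup (Fin 2) F, g ∈ T' → (g : Matrix (Fin 2) (Fin 2) F) ≠ 1 → (g : Matrix (Fin 2) (Fin 2) F) ≠ -1 → Subgroup.centralizer ({g} : Set (Matrix.SpecialLinearGroup (Fin 2) F)) = T') ∧
      (∀ g : Matrix.SpecialLinearGroup (Fin 2) F, (∀ (c : F) (v : Fin 2 → F), v ≠ 0 → (g : Matrix (Fin 2) (Fin 2) F).mulVec v ≠ c • v) → ∃ h : Matrix.SpecialLinearGroup (Fin 2) F, h * g * h⁻¹ ∈ T') ∧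
      Nat.card (Subgroup.normalizer (T' : Set (Matrix.SpecialLinearGroup (Fin 2) F))) = 2 * (Fintype.card F + 1) ∧
      Nat.card (ConjClasses (Subgroup.normalizer (T' : Set (Matrix.SpecialLinearGroup (Fin 2) F)))) = (Fintype.card F + 7) / 2 ∧
      ∀ g : Matrix.SpecialLinearGroup (Fin 2) F, g ∈ Subgroup.normalizer (T' : Set (Matrix.SpecialLinearGroup (Fin 2) F)) → g ∉ T' → ((g * g) : Matrix (Fin 2) (Fin 2) F) = -1 := by
  classical
  have h2 : (2 : F) ≠ 0 := two_ne_zero_of_odd_card hodd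
  obtain ⟨t, hnr⟩ := exists_trace_no_root_odd (F := F) hodd
  have htr : Matrix.trace ((sl2Comp t 1 : Matrix.SpecialLinearGroup (Fin 2) F) :
      Matrix (Fin 2) (Fin 2) F) = t := by
    rw [sl2Comp_val, Matrix.trace_fin_two]
    simp
  obtain ⟨x, hx⟩ : ∃ x : Matrix.SpecialLinearGroup (Fin 2) F, x = sl2Comp t 1 := ⟨_, rfl⟩
  rw [← hx] at htr
  have hnr' : ∀ a : F, a ^ 2 - Matrix.trace (x : Matrix (Fin 2) (Fin 2) F) * a + 1 ≠ 0 := by
    rw [htr]
    exact hnr
  have ht := sq_ne_four_of_no_root _ hnr'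
  have hns := sl2_nonscalar_of_trace x ht
  have hmemC := sl2_mem_centralizer_singleton x
  have hcardC := sl2_card_centralizer_of_no_root x hnr'
  obtain ⟨hN1, hc1, hc2, hsq⟩ := sl2_normalizer_centralizer h2 x ht
  have hq2 := Fintype.one_lt_card (α := F)
  refine ⟨Subgroup.centralizer ({x} : Set (Matrix.SpecialLinearGroup (Fin 2) F)), ?_, hcardC,
    ?_, ?_, ?_, ?_, ?_, ?_⟩
  · rw [hx]
    exact isCyclic_centralizer_sl2Comp_of_no_root t hnr
  · ext a
    rw [Subgroup.mem_centralizer_iff]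
    constructor
    · intro h
      rw [hmemC]
      exact (h x ((hmemC x).2 rfl)).symm
    · intro ha b hb
      exact sl2_centralizer_comm x hns b a ((hmemC b).1 hb) ((hmemC a).1 ha)
  · intro g hg hg1 hg2
    refine sl2_centralizer_eq_of_mem x g hns ?_ ((hmemC g).1 hg)
    rintro ⟨h01, h10, h00⟩
    obtain ⟨s, hs⟩ := sl2_scalar_eq_pm g h01 h10 h00
    cases s
    · apply hg2
      rw [hs]
      exact sl2PM_false_coe
    · apply hg1
      rw [hs, sl2PM_true_zero, Matrix.SpecialLinearGroup.coe_one]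
  · intro g hg
    have hτ : ∀ a : F, a ^ 2 - Matrix.trace (g : Matrix (Fin 2) (Fin 2) F) * a + 1 ≠ 0 := by
      intro a ha
      obtain ⟨v, hv0, hv⟩ := sl2_exists_eigenvector g a ha
      exact hg a v hv0 hv
    obtain ⟨y, hyx, hyt⟩ := sl2_exists_commute_of_trace h2 x hnr' _ hτ
    have hτ4 := sq_ne_four_of_no_root _ hτ
    obtain ⟨h, hh⟩ := isConj_iff.1 (sl2_isConj_of_trace_eq _ hτ4 (sl2Comp_conj_all _ hτ4) g y rfl hyt)
    refine ⟨h, ?_⟩
    rw [hh, hmemC]
    exact hyx
  · rw [hc1, hcardC]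
  · rw [hcardC] at hc2
    omega
  · intro g hg hgT
    have h := hsq g hg hgT
    have hm := congrArg (fun M : Matrix.SpecialLinearGroup (Fin 2) F =>
      (M : Matrix (Fin 2) (Fin 2) F)) h
    simp only [Matrix.SpecialLinearGroup.coe_mul] at hm
    rw [hm]
    exact sl2PM_false_coe

end Cfsg.Agent.S2429
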