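import Cfsg.Statements.S2434
import Mathlib
import Cfsg.Agent.Lib.Helper4.SL2CharM

set_option autoImplicit false
open Cfsg

namespace Cfsg.Agent.S2434

open Cfsg.Agent.Lib.Helper4 in


/-- Let F be a finite field with q elements, q odd, and C a cyclic subgroup of order q + 1 of SL₂ over F (a non-split torus; it contains the centre). For every homomorphism θ from C to the non-zero complex numbers with θ² ≠ 1 there is an irreducible complex character χ of degree q − 1 such that χ(c) = −θ(c) − θ(c)⁻¹ for every non-central c in C, χ(zg) = θ(z)χ(g) for central z in C, χ vanishes at diagonal elements with entry a, a² ≠ 1, and χ takes the value −1 at every upper unitriangular element other than 1. Conversely every irreducible character of degree q − 1 has, for some such θ, the values −θ(c) − θ(c)⁻¹ at the non-central elements c of C (for q ≥ 5 these are exactly the cuspidal characters of degree q − 1). -/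
theorem result {F : Type*} [Field F] [Fintype F] (hodd : Odd (Fintype.card F))
    (C : Subgroup (Matrix.SpecialLinearGroup (Fin 2) F)) (hC : IsCyclic C) (hcard : Nat.card C = Fintype.card F + 1) :
    (∀ θ : C →* ℂˣ, (∃ c : C, θ c ^ 2 ≠ 1) →
      ∃ χ : Matrix.SpecialLinearGroup (Fin 2) F → ℂ, Cfsg.IsIrrCharacter (Matrix.SpecialLinearGroup (Fin 2) F) χ ∧ χ 1 = (Fintype.card F : ℂ) - 1 ∧
        (∀ c : C, (c : Matrix.SpecialLinearGroup (Fin 2) F) ∉ Subgroup.center (Matrix.SpecialLinearGroup (Fin 2) F) → χ c = -((θ c).val + (θ c)⁻¹.val)) ∧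
        (∀ c : C, (c : Matrix.SpecialLinearGroup (Fin 2) F) ∈ Subgroup.center (Matrix.SpecialLinearGroup (Fin 2) F) → ∀ g : Matrix.SpecialLinearGroup (Fin 2) F, χ ((c : Matrix.SpecialLinearGroup (Fin 2) F) * g) = (θ c).val * χ g) ∧
        (∀ g : Matrix.SpecialLinearGroup (Fin 2) F, (g : Matrix (Fin 2) (Fin 2) F) 0 1 = 0 → (g : Matrix (Fin 2) (Fin 2) F) 1 0 = 0 → (g : Matrix (Fin 2) (Fin 2) F) 0 0 ^ 2 ≠ 1 → χ g = 0) ∧
        (∀ g : Matrix.SpecialLinearGroup (Fin 2) F, (g : Matrix (Fin 2) (Fin 2) F) 1 0 = 0 → (g : Matrix (Fin 2) (Fin 2) F) 0 0 = 1 → (g : Matrix (Fin 2) (Fin 2) F) 1 1 = 1 → (g : Matrix (Fin 2) (Fin 2) F) 0 1 ≠ 0 → χ g = -1)) ∧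
    (∀ χ : Matrix.SpecialLinearGroup (Fin 2) F → ℂ, Cfsg.IsIrrCharacter (Matrix.SpecialLinearGroup (Fin 2) F) χ → χ 1 = (Fintype.card F : ℂ) - 1 →
      ∃ θ : C →* ℂˣ, (∃ c : C, θ c ^ 2 ≠ 1) ∧
        ∀ c : C, (c : Matrix.SpecialLinearGroup (Fin 2) F) ∉ Subgroup.center (Matrix.SpecialLinearGroup (Fin 2) F) → χ c = -((θ c).val + (θ c)⁻¹.val)) := by
  classical
  obtain ⟨ν, hν⟩ := sl2_exists_nonsquare_unit hodd
  have h2 : (2 : F) ≠ 0 := two_ne_zero_of_odd_card hodd
  have hz := sl2_neg_one_mem_torus C hC hcard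
  haveI : Fintype (MulChar F ℂ) := Fintype.ofFinite _
  haveI : Fintype (C →* ℂˣ) := Fintype.ofFinite _
  have D := sl2_dlData_odd C hodd hC hcard
  refine ⟨?_, ?_⟩
  · rintro θ ⟨c₀, hc₀⟩
    have hθ : θ ^ 2 ≠ 1 := fun h => hc₀ ((torusChar_sq_eq_one_iff C θ).1 h c₀)
    refine ⟨sl2Cusp C θ, D.P_irr θ hθ, sl2Cusp_one C hcard h2 θ, ?_, ?_, ?_, ?_⟩
    · intro c hc
      exact sl2Cusp_torus C hC hcard θ c hc
    · intro c hc g
      rcases (sl2_mem_center_iff _).1 hc with h | h
      · have e : c = 1 := Subtype.ext h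
        rw [e]
        simp
      · have e : c = ⟨sl2PM false 0, hz⟩ := Subtype.ext h
        rw [e, sl2Cusp_central_mul C hC hcard θ g, sl2CuspSign_eq C hz]
    · intro g h01 h10 ha
      obtain ⟨ht, hroot, -⟩ := sl2_diag_facts g h01 h10 ha
      exact sl2Cusp_split C hC hcard θ g ht _ hroot
    · intro g h10 h00 h11 h01
      apply sl2Cusp_trace_two C hC hcard h2 θ g
      · intro h
        rw [h] at h01
        simp at h01
      · rw [Matrix.trace_fin_two, h00, h11]
        norm_num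
  · intro χ hχ hdeg
    obtain ⟨d, hd, hcases⟩ := sl2_irr_odd_cases hodd C hC hcard ν hν hχ
    rw [hd] at hdeg
    have hq1 : 1 < Fintype.card F := Fintype.one_lt_card
    have hd' := nat_eq_of_cast_sub_one (by omega) hdeg
    have hodd' := hodd
    obtain ⟨k, hk⟩ := hodd
    rcases hcases with ⟨h, -⟩ | ⟨h, -⟩ | ⟨h, -⟩ | ⟨-, θ, hθ, rfl⟩ |
      ⟨h, α, -, -, -, -, -, hsum, -⟩ | ⟨h, -⟩
    · omega
    · omega
    · omega
    · refine ⟨θ, ?_, fun c hc => sl2Cusp_torus C hC hcard θ c hc⟩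
      by_contra hcon
      push Not at hcon
      exact hθ ((torusChar_sq_eq_one_iff C θ).2 hcon)
    · have hq3 : Fintype.card F = 3 := by omega
      obtain ⟨θ, hθ⟩ := exists_torusChar_sq_ne_one C hC hcard hodd'
      refine ⟨θ, ?_, ?_⟩
      · by_contra hcon
        push Not at hcon
        exact hθ ((torusChar_sq_eq_one_iff C θ).2 hcon)
      · intro c hc
        have hns := fun h => hc ((sl2_mem_center_iff_scalar _).2 h)
        have hnr := (sl2_torus_elt C hC hcard _ c.2 hns).1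
        rw [sl2_half_value ν hχ hsum _ (sq_ne_four_of_no_root _ hnr), sl2R_no_root α _ hnr,
          sl2_q3_torus_sum C hC hcard hq3 θ hθ c hc]
        simp
    · omega

end Cfsg.Agent.S2434
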