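import Cfsg.Statements.S2435
import Mathlib
import Cfsg.Agent.Lib.Helper4.SL2CharL

set_option autoImplicit false
open Cfsg

namespace Cfsg.Agent.S2435

open Cfsg.Agent.Lib.Helper4 in


/-- Let F be a finite field with q elements, q odd and q ≥ 5, and χ an irreducible complex character of SL₂ over F. If χ has degree (q + 1)/2, then at a diagonal element with entry a, a² ≠ 1, χ takes the value 1 when a is a square in F and −1 otherwise. If χ has degree (q − 1)/2, then at an element g with no eigenvector in F² (so g has order dividing q + 1), χ takes the value −1 when g raised to the power (q + 1)/2 is the identity and the value 1 otherwise. -/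
theorem result {F : Type*} [Field F] [Fintype F] (hodd : Odd (Fintype.card F)) (hq : 5 ≤ Fintype.card F)
    (χ : Matrix.SpecialLinearGroup (Fin 2) F → ℂ) (hχ : Cfsg.IsIrrCharacter (Matrix.SpecialLinearGroup (Fin 2) F) χ) (g : Matrix.SpecialLinearGroup (Fin 2) F) :
    (χ 1 = (((Fintype.card F + 1) / 2 : ℕ) : ℂ) → (g : Matrix (Fin 2) (Fin 2) F) 0 1 = 0 → (g : Matrix (Fin 2) (Fin 2) F) 1 0 = 0 → (g : Matrix (Fin 2) (Fin 2) F) 0 0 ^ 2 ≠ 1 →
      (IsSquare ((g : Matrix (Fin 2) (Fin 2) F) 0 0) → χ g = 1) ∧ (¬ IsSquare ((g : Matrix (Fin 2) (Fin 2) F) 0 0) → χ g = -1)) ∧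
    (χ 1 = (((Fintype.card F - 1) / 2 : ℕ) : ℂ) → (∀ (c : F) (v : Fin 2 → F), v ≠ 0 → (g : Matrix (Fin 2) (Fin 2) F).mulVec v ≠ c • v) →
      (((g ^ ((Fintype.card F + 1) / 2)) : Matrix (Fin 2) (Fin 2) F) = 1 → χ g = -1) ∧ (((g ^ ((Fintype.card F + 1) / 2)) : Matrix (Fin 2) (Fin 2) F) ≠ 1 → χ g = 1)) := by
  classical
  obtain ⟨C, hC, hcard⟩ := sl2_exists_torus_odd hodd
  obtain ⟨ν, hν⟩ := sl2_exists_nonsquare_unit hodd
  have h2 : (2 : F) ≠ 0 := two_ne_zero_of_odd_card hodd
  refine ⟨?_, ?_⟩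
  · intro hdeg h01 h10 ha
    obtain ⟨α, hα, hα1, -, -, -, hsum, -⟩ := sl2_deg_half_add hodd C hC hcard hq ν hν hχ hdeg
    obtain ⟨ht, hroot, ha0⟩ := sl2_diag_facts g h01 h10 ha
    have hval := sl2_half_value ν hχ hsum g ht
    rw [sl2R_split α g ht _ hroot] at hval
    have hq := mulChar_quadratic_apply hodd α hα hα1 _ ha0
    have e : α ((g : Matrix (Fin 2) (Fin 2) F) 0 0)⁻¹ * α ((g : Matrix (Fin 2) (Fin 2) F) 0 0) = 1 := by
      rw [← map_mul, inv_mul_cancel₀ ha0, MulChar.map_one]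
    constructor
    · intro hs
      rw [hq.1 hs, mul_one] at e
      rw [hval, hq.1 hs, e]
      norm_num
    · intro hs
      rw [hq.2 hs] at e
      have e' : α ((g : Matrix (Fin 2) (Fin 2) F) 0 0)⁻¹ = -1 := by linear_combination -e
      rw [hval, hq.2 hs, e']
      norm_num
  · intro hdeg hnev
    obtain ⟨θ, hθ, hθ1, -, -, -, hsum, -⟩ := sl2_deg_half_sub hodd C hC hcard hq ν hν hχ hdeg
    have hnr := sl2_no_root_of_no_eigenvector g hnev
    have hval := sl2_half_value ν hχ hsum g (sq_ne_four_of_no_root _ hnr)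
    obtain ⟨c, -, hconj, hc⟩ := sl2Cusp_no_root C hC hcard hodd θ g hnr
    rw [hc, Units.val_inv_eq_inv_val] at hval
    have hq' := torusChar_quadratic_apply C hC hcard hodd θ hθ hθ1 c
    have hiff := isConj_pow_eq_one_iff hconj ((Fintype.card F + 1) / 2)
    have hcoe : ∀ n : ℕ, (c : Matrix.SpecialLinearGroup (Fin 2) F) ^ n = 1 ↔ c ^ n = 1 := by
      intro n
      constructor
      · intro h
        apply Subtype.ext
        rw [Subgroup.coe_pow, h]
        rfl
      · intro h
        rw [← Subgroup.coe_pow, h]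
        rfl
    have hmat : (((g ^ ((Fintype.card F + 1) / 2) : Matrix.SpecialLinearGroup (Fin 2) F)) :
        Matrix (Fin 2) (Fin 2) F) = 1 ↔ g ^ ((Fintype.card F + 1) / 2) = 1 := by
      constructor
      · intro h
        exact Subtype.ext h
      · intro h
        rw [h]
        rfl
    constructor
    · intro h
      rw [hval, hq'.1 ((hcoe _).1 (hiff.1 (hmat.1 h)))]
      norm_num
    · intro h
      rw [hval, hq'.2 (fun hh => h (hmat.2 (hiff.2 ((hcoe _).2 hh))))]
      norm_num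

end Cfsg.Agent.S2435
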