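import Cfsg.Statements.S2438
import Mathlib
import Cfsg.Agent.Lib.Helper4.SL2CharK

set_option autoImplicit false
open Cfsg

namespace Cfsg.Agent.S2438

open Cfsg.Agent.Lib.Helper4 in


/-- Let F be a finite field with q elements, q odd, q ≥ 5, U the upper unitriangular subgroup of SL₂ over F, and χ an irreducible complex character. The sum of the values of χ over U equals 2q, q, 0, q, 0 according as the degree of χ is q + 1, q, q − 1, (q + 1)/2, (q − 1)/2; so among these five degrees the sum vanishes exactly for the degrees q − 1 and (q − 1)/2, i.e. the irreducible characters of those two degrees are the ones whose restriction to U does not contain the trivial character (the cuspidal characters), while those of degree q + 1, q and (q + 1)/2 are not cuspidal. -/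
theorem result {F : Type*} [Field F] [Fintype F] [DecidableEq F] (hodd : Odd (Fintype.card F)) (hq : 5 ≤ Fintype.card F)
    (χ : Matrix.SpecialLinearGroup (Fin 2) F → ℂ) (hχ : Cfsg.IsIrrCharacter (Matrix.SpecialLinearGroup (Fin 2) F) χ) :
    (χ 1 = (Fintype.card F : ℂ) + 1 →
      (∑ g : Matrix.SpecialLinearGroup (Fin 2) F, if (g : Matrix (Fin 2) (Fin 2) F) 1 0 = 0 ∧ (g : Matrix (Fin 2) (Fin 2) F) 0 0 = 1 ∧ (g : Matrix (Fin 2) (Fin 2) F) 1 1 = 1 then χ g else 0) = 2 * (Fintype.card F : ℂ)) ∧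
    (χ 1 = (Fintype.card F : ℂ) →
      (∑ g : Matrix.SpecialLinearGroup (Fin 2) F, if (g : Matrix (Fin 2) (Fin 2) F) 1 0 = 0 ∧ (g : Matrix (Fin 2) (Fin 2) F) 0 0 = 1 ∧ (g : Matrix (Fin 2) (Fin 2) F) 1 1 = 1 then χ g else 0) = (Fintype.card F : ℂ)) ∧
    (χ 1 = (Fintype.card F : ℂ) - 1 →
      (∑ g : Matrix.SpecialLinearGroup (Fin 2) F, if (g : Matrix (Fin 2) (Fin 2) F) 1 0 = 0 ∧ (g : Matrix (Fin 2) (Fin 2) F) 0 0 = 1 ∧ (g : Matrix (Fin 2) (Fin 2) F) 1 1 = 1 then χ g else 0) = 0) ∧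
    (χ 1 = (((Fintype.card F + 1) / 2 : ℕ) : ℂ) →
      (∑ g : Matrix.SpecialLinearGroup (Fin 2) F, if (g : Matrix (Fin 2) (Fin 2) F) 1 0 = 0 ∧ (g : Matrix (Fin 2) (Fin 2) F) 0 0 = 1 ∧ (g : Matrix (Fin 2) (Fin 2) F) 1 1 = 1 then χ g else 0) = (Fintype.card F : ℂ)) ∧
    (χ 1 = (((Fintype.card F - 1) / 2 : ℕ) : ℂ) →
      (∑ g : Matrix.SpecialLinearGroup (Fin 2) F, if (g : Matrix (Fin 2) (Fin 2) F) 1 0 = 0 ∧ (g : Matrix (Fin 2) (Fin 2) F) 0 0 = 1 ∧ (g : Matrix (Fin 2) (Fin 2) F) 1 1 = 1 then χ g else 0) = 0) := by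
  obtain ⟨C, hC, hcard⟩ := sl2_exists_torus_odd hodd
  obtain ⟨ν, hν⟩ := sl2_exists_nonsquare_unit hodd
  have h2 : (2 : F) ≠ 0 := two_ne_zero_of_odd_card hodd
  have hR : ∀ α : MulChar F ℂ, ∑ b : F, sl2R α (sl2Unip b) = 2 * (Fintype.card F : ℂ) := by
    intro α
    rw [sl2_unip_sum_const _ 1 (fun b hb => sl2R_trace_two α _ (sl2Unip_nonscalar b hb)
      (sl2_trace_unip b)), sl2R_apply_one]
    ring
  have hP : ∀ θ : C →* ℂˣ, ∑ b : F, sl2Cusp C θ (sl2Unip b) = 0 := by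
    intro θ
    rw [sl2_unip_sum_const _ (-1) (fun b hb => sl2Cusp_trace_two C hC hcard h2 θ _
      (sl2Unip_ne_one b hb) (sl2_trace_unip b)), sl2Cusp_one C hcard h2]
    ring
  rw [sl2_unip_sum]
  refine ⟨?_, ?_, ?_, ?_, ?_⟩
  · intro hdeg
    obtain ⟨α, -, rfl⟩ := sl2_deg_add_one hodd C hC hcard hχ hdeg
    exact hR α
  · intro hdeg
    have h := sl2_deg_q hodd C hC hcard hχ hdeg
    subst h
    simp only [Pi.sub_apply]
    rw [Finset.sum_sub_distrib, hR, Finset.sum_const, Finset.card_univ]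
    simp
    ring
  · intro hdeg
    obtain ⟨θ, -, rfl⟩ := sl2_deg_sub_one hodd C hC hcard hq hχ hdeg
    exact hP θ
  · intro hdeg
    obtain ⟨α, -, -, -, -, -, hsum, -⟩ := sl2_deg_half_add hodd C hC hcard hq ν hν hχ hdeg
    rw [sl2_unip_sum_half ν hsum, hR]
    ring
  · intro hdeg
    obtain ⟨θ, -, -, -, -, -, hsum, -⟩ := sl2_deg_half_sub hodd C hC hcard hq ν hν hχ hdeg
    rw [sl2_unip_sum_half ν hsum, hP]
    ring

end Cfsg.Agent.S2438
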