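import Cfsg.Statements.S2532
import Mathlib
-- import your own Cfsg.Agent.* helpers here

set_option autoImplicit false
open Cfsg

namespace Cfsg.Agent.S2532

open MulAction in
theorem lemA {α : Type} [Fintype α] [DecidableEq α] {H : Type} [Group H] [Finite H] [MulAction H α] (r : ℕ)
    (hc : 2 ^ Nat.card H * Nat.card H * r ≤ Fintype.card α) :
    ∃ P : Equiv.Perm (Fin r) →* Equiv.Perm α, Function.Injective P ∧
      ∀ σ (h : H) (a : α), P σ (h • a) = h • P σ a := by
  classical
  haveI : Fintype H := Fintype.ofFinite H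
  haveI : Fintype (Subgroup H) := Fintype.ofFinite _
  have hle : Fintype.card (Subgroup H) ≤ 2 ^ Nat.card H := by
    have := Fintype.card_le_of_injective (fun S : Subgroup H => (S : Set H)) SetLike.coe_injective
    rw [Fintype.card_set] at this
    rw [Nat.card_eq_fintype_card]
    exact this
  have hcard : Fintype.card (Subgroup H) * (Nat.card H * r) ≤ Fintype.card α := by
    refine le_trans (Nat.mul_le_mul_right _ hle) ?_
    rw [← mul_assoc]
    exact hc
  obtain ⟨S0, hS0⟩ := Fintype.exists_le_card_fiber_of_mul_le_card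
    (fun x : α => stabilizer H x) (n := Nat.card H * r) hcard
  set T : Finset α := Finset.univ.filter (fun x => stabilizer H x = S0) with hT
  have h2 : T.card ≤ Nat.card H * (T.image (fun x => (orbit H x : Set α))).card := by
    apply Finset.card_le_mul_card_image
    intro a ha
    obtain ⟨x0, hx0, rfl⟩ := Finset.mem_image.mp ha
    calc _ ≤ (Finset.univ.image (fun h : H => h • x0)).card := by
            apply Finset.card_le_card
            intro y hy
            rw [Finset.mem_filter] at hy
            have : y ∈ orbit H x0 := by rw [← hy.2]; exact mem_orbit_self y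
            obtain ⟨h, rfl⟩ := this
            exact Finset.mem_image.mpr ⟨h, Finset.mem_univ _, rfl⟩
      _ ≤ Finset.univ.card := Finset.card_image_le
      _ = Nat.card H := by rw [Finset.card_univ, Nat.card_eq_fintype_card]
  have hpos : 0 < Nat.card H := Nat.card_pos
  have h3 : r ≤ (T.image (fun x => (orbit H x : Set α))).card := by
    have := le_trans hS0 h2
    exact Nat.le_of_mul_le_mul_left this hpos
  obtain ⟨g⟩ : Nonempty (Fin r ↪ ↥(T.image (fun x => (orbit H x : Set α)))) :=
    Function.Embedding.nonempty_of_card_le (by rw [Fintype.card_fin, Fintype.card_coe]; exact h3)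
  have hx : ∀ i, ∃ x, stabilizer H x = S0 ∧ (orbit H x : Set α) = (g i : Set α) := by
    intro i
    obtain ⟨x, hx, hxe⟩ := Finset.mem_image.mp (g i).2
    exact ⟨x, (Finset.mem_filter.mp hx).2, hxe⟩
  choose x hxS hxO using hx
  have hinj : ∀ i j, orbit H (x i) = orbit H (x j) → i = j := by
    intro i j hij
    apply g.injective
    apply Subtype.ext
    rw [← hxO i, ← hxO j, hij]
  let Ψf : Fin r × (H ⧸ S0) → α := fun p => Quotient.liftOn' p.2 (fun h => h • x p.1) (by
    intro a b hab
    rw [QuotientGroup.leftRel_apply] at hab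
    have h1 : (a⁻¹ * b) • x p.1 = x p.1 := by
      have : a⁻¹ * b ∈ stabilizer H (x p.1) := by rw [hxS]; exact hab
      exact this
    show a • x p.1 = b • x p.1
    calc a • x p.1 = a • (a⁻¹ * b) • x p.1 := by rw [h1]
      _ = b • x p.1 := by rw [smul_smul, mul_inv_cancel_left])
  have hΨ : ∀ i (b : H), Ψf (i, Quotient.mk'' b) = b • x i := fun i b => rfl
  have hΨinj : Function.Injective Ψf := by
    rintro ⟨i, q⟩ ⟨j, q'⟩ hEq
    induction q using Quotient.inductionOn' with
    | h a =>
      induction q' using Quotient.inductionOn' with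
      | h b =>
        have hEq' : a • x i = b • x j := hEq
        have hij : i = j := by
          apply hinj
          have : x i ∈ orbit H (x j) :=
            ⟨a⁻¹ * b, by show (a⁻¹ * b) • x j = x i; rw [mul_smul, ← hEq', inv_smul_smul]⟩
          exact orbit_eq_iff.mpr this
        subst hij
        refine Prod.ext rfl ?_
        apply Quotient.sound'
        rw [QuotientGroup.leftRel_apply, ← hxS i]
        show (a⁻¹ * b) • x i = x i
        rw [mul_smul, ← hEq', inv_smul_smul]
  let Ψ : Fin r × (H ⧸ S0) ↪ α := ⟨Ψf, hΨinj⟩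
  let Q : Equiv.Perm (Fin r) →* Equiv.Perm (Fin r × (H ⧸ S0)) :=
    { toFun := fun σ => Equiv.prodCongr σ (Equiv.refl _)
      map_one' := by ext p <;> rfl
      map_mul' := by intro a b; ext p <;> rfl }
  have hQ : Function.Injective Q := by
    intro σ τ hst
    ext i
    have := congrArg (fun e : Equiv.Perm (Fin r × (H ⧸ S0)) => (e (i, Quotient.mk'' 1)).1) hst
    exact congrArg Fin.val this
  refine ⟨(Equiv.Perm.viaEmbeddingHom Ψ).comp Q, (Equiv.Perm.viaEmbeddingHom_injective Ψ).comp hQ, ?_⟩
  intro σ h a
  by_cases ha : a ∈ Set.range Ψ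
  · obtain ⟨⟨i, q⟩, rfl⟩ := ha
    induction q using Quotient.inductionOn' with
    | h b =>
      have e1 : h • Ψ (i, Quotient.mk'' b) = Ψ (i, Quotient.mk'' (h * b)) := (mul_smul h b (x i)).symm
      show (Equiv.Perm.viaEmbedding (Q σ) Ψ) (h • Ψ (i, Quotient.mk'' b))
        = h • (Equiv.Perm.viaEmbedding (Q σ) Ψ) (Ψ (i, Quotient.mk'' b))
      rw [e1, Equiv.Perm.viaEmbedding_apply, Equiv.Perm.viaEmbedding_apply]
      exact mul_smul h b (x (σ i))
  · have ha' : h • a ∉ Set.range Ψ := by
      rintro ⟨⟨i, q⟩, hq⟩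
      induction q using Quotient.inductionOn' with
      | h b =>
        apply ha
        refine ⟨(i, Quotient.mk'' (h⁻¹ * b)), ?_⟩
        show (h⁻¹ * b) • x i = a
        have : b • x i = h • a := hq
        rw [mul_smul, this, inv_smul_smul]
    show (Equiv.Perm.viaEmbedding (Q σ) Ψ) (h • a) = h • (Equiv.Perm.viaEmbedding (Q σ) Ψ) a
    rw [Equiv.Perm.viaEmbedding_apply_of_notMem _ _ _ ha',
      Equiv.Perm.viaEmbedding_apply_of_notMem _ _ _ ha]

theorem even_of_hom {m r : ℕ} (P : Equiv.Perm (Fin r) →* Equiv.Perm (Fin m))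
    (τ : Equiv.Perm (Fin r)) (hτ : τ ∈ alternatingGroup (Fin r)) :
    P τ ∈ alternatingGroup (Fin m) := by
  classical
  rw [Equiv.Perm.mem_alternatingGroup]
  let ψ : Equiv.Perm (Fin r) →* ℤˣ := (Equiv.Perm.sign).comp P
  have hk : alternatingGroup (Fin r) ≤ ψ.ker := by
    rw [← Equiv.Perm.closure_three_cycles_eq_alternating, Subgroup.closure_le]
    intro c hc
    have hc3 : c ^ 3 = 1 := by
      have := hc.orderOf
      rw [← this]; exact pow_orderOf_eq_one c
    have h3 : ψ c ^ 3 = 1 := by rw [← map_pow, hc3, map_one]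
    show ψ c = 1
    rcases Int.units_eq_one_or (ψ c) with h | h
    · exact h
    · rw [h] at h3
      exact absurd h3 (by decide)
  exact hk hτ

/-- There is a function `f` of two natural-number arguments such that, whenever `m ≥ f(n, r)`, every subgroup of order `n` of the alternating group of degree `m` centralizes some subgroup of that alternating group isomorphic to the alternating group of degree `r`. -/
theorem result :
    ∃ f : ℕ → ℕ → ℕ, ∀ (m r : ℕ) (H : Subgroup ↥(alternatingGroup (Fin m))), f (Nat.card H) r ≤ m →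
      ∃ K : Subgroup ↥(alternatingGroup (Fin m)), Nonempty (↥K ≃* ↥(alternatingGroup (Fin r))) ∧
        K ≤ Subgroup.centralizer (H : Set ↥(alternatingGroup (Fin m))) := by
  classical
  refine ⟨fun n r => 2 ^ n * n * r, ?_⟩
  intro m r H hm
  obtain ⟨P, hPinj, hPc⟩ := lemA (α := Fin m) (H := H) r (by simpa using hm)
  let P' : ↥(alternatingGroup (Fin r)) →* ↥(alternatingGroup (Fin m)) :=
    (P.comp (alternatingGroup (Fin r)).subtype).codRestrict (alternatingGroup (Fin m))
      (fun τ => even_of_hom P τ.1 τ.2)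
  have hP'inj : Function.Injective P' := by
    intro a b hab
    apply Subtype.ext
    apply hPinj
    exact congrArg Subtype.val hab
  refine ⟨P'.range, ⟨(MonoidHom.ofInjective hP'inj).symm⟩, ?_⟩
  rintro _ ⟨τ, rfl⟩
  rw [Subgroup.mem_centralizer_iff]
  intro h hh
  apply Subtype.ext
  ext a
  have := hPc τ.1 ⟨h, hh⟩ a
  show ((h : Equiv.Perm (Fin m)) (P τ.1 a) : ℕ) = (P τ.1 ((h : Equiv.Perm (Fin m)) a) : ℕ)
  exact congrArg Fin.val this.symm

end Cfsg.Agent.S2532
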