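import Cfsg.Statements.S2540
import Mathlib
import Cfsg.Agent.Lib.Helper4.GLNormSL

set_option autoImplicit false
open Cfsg

namespace Cfsg.Agent.S2540

open Cfsg.Agent.Lib.Helper4 in

/-- Let F be a finite field and n ≥ 1, excluding the case n = 2 with #F ≤ 3. A subgroup of GL_n(F) that is normalized by every element of SL_n(F) either consists of scalar matrices or contains SL_n(F). -/
theorem result {F : Type*} [Field F] [Fintype F] (n : ℕ) (hn : 1 ≤ n) (hex : ¬ (n = 2 ∧ Fintype.card F ≤ 3)) (G : Subgroup (Matrix.GeneralLinearGroup (Fin n) F)) (hG : ∀ s : Matrix.SpecialLinearGroup (Fin n) F, ∀ g ∈ G, (Matrix.SpecialLinearGroup.toGL s) * g * (Matrix.SpecialLinearGroup.toGL s)⁻¹ ∈ G) : (∀ g ∈ G, ∃ c : F, (g : Matrix (Fin n) (Fin n) F) = c • (1 : Matrix (Fin n) (Fin n) F)) ∨ (Matrix.SpecialLinearGroup.toGL : Matrix.SpecialLinearGroup (Fin n) F →* _).range ≤ G := by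
  classical
  rcases Nat.lt_or_ge n 2 with h1 | h2
  · obtain rfl : n = 1 := by omega
    left
    intro g _
    refine ⟨g.val 0 0, ?_⟩
    ext i j
    have hi : i = 0 := Subsingleton.elim _ _
    have hj : j = 0 := Subsingleton.elim _ _
    subst hi hj
    simp
  rcases Nat.lt_or_ge n 3 with h3 | h3
  · obtain rfl : n = 2 := by omega
    have hq : 4 ≤ Fintype.card F := by
      by_contra hcon
      exact hex ⟨rfl, by omega⟩
    obtain ⟨a, ha, hasq⟩ := exists_sq_ne_one_of_four_le hq
    exact gl_normalized_by_sl (Matrix.SL2.commutator_eq_top ha hasq)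
      (Matrix.ProjectiveSpecialLinearGroup.rank_two_simple' ⟨a, ha, hasq⟩) G hG
  · have := Lib.Lead.fin_nontrivial_of_two_le n (by omega)
    exact gl_normalized_by_sl (Lib.Lead.sl_commutator_eq_top (Lib.Lead.exists_third n h3))
      (Lib.Lead.psl_simple_of_three (Lib.Lead.exists_third n h3)) G hG

end Cfsg.Agent.S2540
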