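import Cfsg.Statements.S2541
import Mathlib

set_option autoImplicit false
open Cfsg

namespace Cfsg.Agent.S2541

open Matrix

/-- the diagonal element `diag(w, 1)` of `GL₂` -/
noncomputable def dg {F : Type*} [Field F] (w : Fˣ) : GL (Fin 2) F :=
  ⟨Matrix.diagonal ![(w : F), 1], Matrix.diagonal ![((w⁻¹ : Fˣ) : F), 1],
    by
      rw [Matrix.diagonal_mul_diagonal]
      ext i j
      fin_cases i <;> fin_cases j <;> simp,
    by
      rw [Matrix.diagonal_mul_diagonal]
      ext i j
      fin_cases i <;> fin_cases j <;> simp⟩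

theorem dg_pow {F : Type*} [Field F] (w : Fˣ) (k : ℕ) : dg w ^ k = dg (w ^ k) := by
  apply Units.ext
  rw [Units.val_pow_eq_pow_val]
  show (Matrix.diagonal ![(w : F), 1]) ^ k = Matrix.diagonal ![((w ^ k : Fˣ) : F), 1]
  rw [Matrix.diagonal_pow]
  congr 1
  funext i
  fin_cases i <;> simp

theorem dg_center {F : Type*} [Field F] (w : Fˣ)
    (h : dg w ∈ Subgroup.center (GL (Fin 2) F)) : w = 1 := by
  rw [Matrix.GeneralLinearGroup.center_eq_range_scalar] at h
  obtain ⟨u, hu⟩ := h
  have h0 := congrArg (fun M : GL (Fin 2) F => (M : Matrix (Fin 2) (Fin 2) F) 0 0) hu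
  have h1 := congrArg (fun M : GL (Fin 2) F => (M : Matrix (Fin 2) (Fin 2) F) 1 1) hu
  simp only [Matrix.GeneralLinearGroup.coe_scalar] at h0 h1
  simp [dg, Matrix.scalar_apply] at h0 h1
  apply Units.ext
  rw [← h0, h1]

theorem no_order_eight (τ : Equiv.Perm (Fin 6)) : orderOf τ ≠ 8 := by
  intro h
  have hall : ∀ n ∈ τ.cycleType, n ∣ 4 := by
    intro n hn
    have h1 : n ∣ 8 := h ▸ Equiv.Perm.dvd_of_mem_cycleType hn
    have h2 : 2 ≤ n := Equiv.Perm.two_le_of_mem_cycleType hn
    have h3 : n ≤ 6 := by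
      have := Multiset.le_sum_of_mem hn
      have h4 := τ.sum_cycleType_le
      simp only [Fintype.card_fin] at h4
      omega
    have h8 : n ≤ 8 := Nat.le_of_dvd (by norm_num) h1
    interval_cases n <;> omega
  have hl : τ.cycleType.lcm ∣ 4 := Multiset.lcm_dvd.mpr hall
  rw [Equiv.Perm.lcm_cycleType, h] at hl
  omega


/-- Let F be a field with 9 elements. The symmetric group S_6 is not isomorphic to PGL_2(F) (although both have index-2 subgroups isomorphic to A_6). -/
theorem result {F : Type*} [Field F] [Fintype F] (hF : Fintype.card F = 9) : ¬ Nonempty (Equiv.Perm (Fin 6) ≃* Matrix.ProjGenLinGroup (Fin 2) F) := by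
  rintro ⟨e⟩
  -- a generator of the multiplicative group, of order 8
  obtain ⟨w, hw⟩ := IsCyclic.exists_generator (α := Fˣ)
  have hord : orderOf w = 8 := by
    rw [orderOf_eq_card_of_forall_mem_zpowers hw, Nat.card_units, Nat.card_eq_fintype_card, hF]
  have h8 : (Matrix.ProjGenLinGroup.mk (dg w)) ^ 8 = 1 := by
    rw [← map_pow, dg_pow, ← hord, pow_orderOf_eq_one]
    have : dg (1 : Fˣ) = 1 := by
      apply Units.ext
      show Matrix.diagonal ![((1 : Fˣ) : F), 1] = 1
      ext i j
      fin_cases i <;> fin_cases j <;> simp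
    rw [this, map_one]
  have hdvd : orderOf (Matrix.ProjGenLinGroup.mk (dg w)) ∣ 8 := orderOf_dvd_of_pow_eq_one h8
  have hdvd2 : 8 ∣ orderOf (Matrix.ProjGenLinGroup.mk (dg w)) := by
    have h1 := pow_orderOf_eq_one (Matrix.ProjGenLinGroup.mk (dg w))
    rw [← map_pow, dg_pow, Matrix.ProjGenLinGroup.mk_eq_one] at h1
    have h2 := dg_center _ h1
    rw [← hord]
    exact orderOf_dvd_of_pow_eq_one h2
  have h8' : orderOf (Matrix.ProjGenLinGroup.mk (dg w)) = 8 := Nat.dvd_antisymm hdvd hdvd2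
  have := no_order_eight (e.symm (Matrix.ProjGenLinGroup.mk (dg w)))
  rw [MulEquiv.orderOf_eq] at this
  exact this h8'

end Cfsg.Agent.S2541
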