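import Cfsg.Statements.S2550
import Mathlib
import Cfsg.Agent.S0820
import Cfsg.Agent.Lib.Helper4.SLCard

set_option autoImplicit false
open Cfsg

namespace Cfsg.Agent.S2550

open Cfsg.Agent.Lib.Helper4 in

/-- Let F be a field with 2 elements and K a field with 4 elements. PSL_4(F) and PSL_3(K) have the same order (20160) but are not isomorphic. -/
theorem result {F K : Type*} [Field F] [Fintype F] [Field K] [Fintype K] (hF : Fintype.card F = 2) (hK : Fintype.card K = 4) : Nat.card (Matrix.ProjectiveSpecialLinearGroup (Fin 4) F) = Nat.card (Matrix.ProjectiveSpecialLinearGroup (Fin 3) K) ∧ ¬ Nonempty (Matrix.ProjectiveSpecialLinearGroup (Fin 4) F ≃* Matrix.ProjectiveSpecialLinearGroup (Fin 3) K) := by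
  classical
  have h2 : (2 : F) = 0 := two_eq_zero_of_card_two hF
  have p4 : ∏ i : Fin 4, (2 ^ 4 - 2 ^ (i : ℕ)) = 20160 := by decide
  have p3 : ∏ i : Fin 3, (4 ^ 3 - 4 ^ (i : ℕ)) = 181440 := by decide
  have c1 : Nat.card (Matrix.ProjectiveSpecialLinearGroup (Fin 4) F) = 20160 := by
    have e1 := card_sl_mul (F := F) 4 (by norm_num)
    have e2 := card_psl_mul (F := F) 4 (by norm_num)
    have e3 := Matrix.card_GL_field (𝔽 := F) 4
    rw [hF] at e1 e2 e3
    rw [p4] at e3
    have g1 : Nat.gcd 4 (2 - 1) = 1 := by decide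
    rw [g1, mul_one] at e2
    rw [show (2 - 1 : ℕ) = 1 from rfl, mul_one] at e1
    omega
  have c2 : Nat.card (Matrix.ProjectiveSpecialLinearGroup (Fin 3) K) = 20160 := by
    have e1 := card_sl_mul (F := K) 3 (by norm_num)
    have e2 := card_psl_mul (F := K) 3 (by norm_num)
    have e3 := Matrix.card_GL_field (𝔽 := K) 3
    rw [hK] at e1 e2 e3
    rw [p3] at e3
    have g2 : Nat.gcd 3 (4 - 1) = 3 := by decide
    rw [g2] at e2
    rw [show (4 - 1 : ℕ) = 3 from rfl] at e1
    omega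
  refine ⟨by rw [c1, c2], ?_⟩
  rintro ⟨e⟩
  have hcen : Subgroup.center (Matrix.SpecialLinearGroup (Fin 4) F) = ⊥ := by
    apply Subgroup.eq_bot_of_card_eq
    rw [Cfsg.Agent.Lib.Lead.card_center_sl 4 (by norm_num), hF]
    rfl
  obtain ⟨Na, hNa⟩ : ∃ Na : Matrix (Fin 4) (Fin 4) F, Na = Matrix.single 0 1 1 := ⟨_, rfl⟩
  obtain ⟨S, hS⟩ : ∃ S : Matrix (Fin 4) (Fin 4) F, S = Matrix.single 2 3 1 := ⟨_, rfl⟩
  have hNaNa : Na * Na = 0 := by
    rw [hNa]; apply Matrix.single_mul_single_of_ne; decide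
  have hNaS : Na * S = 0 := by
    rw [hNa, hS]; apply Matrix.single_mul_single_of_ne; decide
  have hSNa : S * Na = 0 := by
    rw [hNa, hS]; apply Matrix.single_mul_single_of_ne; decide
  have hSS : S * S = 0 := by
    rw [hS]; apply Matrix.single_mul_single_of_ne; decide
  have hdeta : (1 + Na).det = 1 := by
    rw [hNa]
    exact Matrix.det_transvection_of_ne (0 : Fin 4) 1 (by decide) (1 : F)
  have hdetb : (1 + (Na + S)).det = 1 := by
    have : (1 + (Na + S)) = (1 + Na) * (1 + S) := by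
      rw [Matrix.add_mul, Matrix.one_mul, Matrix.mul_add, Matrix.mul_one, hNaS]
      abel
    rw [this, Matrix.det_mul, hdeta, hS, one_mul]
    exact Matrix.det_transvection_of_ne (2 : Fin 4) 3 (by decide) (1 : F)
  have hsq : ∀ N : Matrix (Fin 4) (Fin 4) F, N * N = 0 → (1 + N) * (1 + N) = 1 := by
    intro N hN
    have h3 : N + N = 0 := by rw [← two_smul F N, h2, zero_smul]
    have h4 : (1 + N) * (1 + N) = 1 + (N + N) + N * N := by noncomm_ring
    rw [h4, h3, hN, add_zero, add_zero]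
  have hNbNb : (Na + S) * (Na + S) = 0 := by
    rw [Matrix.add_mul, Matrix.mul_add, Matrix.mul_add, hNaNa, hNaS, hSNa, hSS]
    simp
  obtain ⟨a', ha'⟩ : ∃ a' : Matrix.SpecialLinearGroup (Fin 4) F, (a' : Matrix (Fin 4) (Fin 4) F) = 1 + Na :=
    ⟨⟨1 + Na, hdeta⟩, rfl⟩
  obtain ⟨b', hb'⟩ : ∃ b' : Matrix.SpecialLinearGroup (Fin 4) F, (b' : Matrix (Fin 4) (Fin 4) F) = 1 + (Na + S) :=
    ⟨⟨1 + (Na + S), hdetb⟩, rfl⟩
  have ha2 : a' * a' = 1 := by
    apply Subtype.ext
    show (a' : Matrix (Fin 4) (Fin 4) F) * (a' : Matrix (Fin 4) (Fin 4) F) = 1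
    rw [ha']
    exact hsq Na hNaNa
  have hb2 : b' * b' = 1 := by
    apply Subtype.ext
    show (b' : Matrix (Fin 4) (Fin 4) F) * (b' : Matrix (Fin 4) (Fin 4) F) = 1
    rw [hb']
    exact hsq _ hNbNb
  have hNa01 : Na 0 1 = 1 := by rw [hNa]; simp
  have ha1 : a' ≠ 1 := by
    intro h
    have h3 := congrArg (fun s : Matrix.SpecialLinearGroup (Fin 4) F => (s : Matrix (Fin 4) (Fin 4) F) 0 1) h
    simp only [ha'] at h3
    rw [Matrix.add_apply, hNa01] at h3
    simp at h3
  have hb1 : b' ≠ 1 := by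
    intro h
    have h3 := congrArg (fun s : Matrix.SpecialLinearGroup (Fin 4) F => (s : Matrix (Fin 4) (Fin 4) F) 0 1) h
    simp only [hb'] at h3
    rw [Matrix.add_apply, Matrix.add_apply, hNa01, hS] at h3
    simp at h3
  have hord : ∀ s : Matrix.SpecialLinearGroup (Fin 4) F, s * s = 1 → s ≠ 1 →
      orderOf (QuotientGroup.mk s : Matrix.ProjectiveSpecialLinearGroup (Fin 4) F) = 2 := by
    intro s hs2 hs1
    apply orderOf_eq_prime
    · rw [pow_two, ← QuotientGroup.mk_mul, hs2]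
      rfl
    · intro h
      have h3 := (QuotientGroup.eq_one_iff s).1 h
      rw [hcen, Subgroup.mem_bot] at h3
      exact hs1 h3
  have hnc : ¬ IsConj (QuotientGroup.mk a' : Matrix.ProjectiveSpecialLinearGroup (Fin 4) F)
      (QuotientGroup.mk b') := by
    intro hconj
    obtain ⟨c, hc⟩ := isConj_iff.1 hconj
    obtain ⟨g, rfl⟩ := QuotientGroup.mk_surjective c
    have h3 : (QuotientGroup.mk (g * a' * g⁻¹) : Matrix.ProjectiveSpecialLinearGroup (Fin 4) F) =
        QuotientGroup.mk b' := hc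
    rw [QuotientGroup.eq, hcen, Subgroup.mem_bot, inv_mul_eq_one] at h3
    have h4 : g * a' = b' * g := mul_inv_eq_iff_eq_mul.1 h3
    have hm : (g : Matrix (Fin 4) (Fin 4) F) * (1 + Na) = (1 + (Na + S)) * (g : Matrix (Fin 4) (Fin 4) F) := by
      have h := congrArg (fun s : Matrix.SpecialLinearGroup (Fin 4) F => (s : Matrix (Fin 4) (Fin 4) F)) h4
      simp only [Matrix.SpecialLinearGroup.coe_mul, ha', hb'] at h
      exact h
    have hm2 : (g : Matrix (Fin 4) (Fin 4) F) * Na = (Na + S) * (g : Matrix (Fin 4) (Fin 4) F) := by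
      rw [Matrix.mul_add, Matrix.mul_one, Matrix.add_mul, Matrix.one_mul] at hm
      exact add_left_cancel hm
    have hgi : (g : Matrix (Fin 4) (Fin 4) F) * ((g⁻¹ : Matrix.SpecialLinearGroup (Fin 4) F) : Matrix (Fin 4) (Fin 4) F) = 1 := by
      have h := congrArg (fun s : Matrix.SpecialLinearGroup (Fin 4) F => (s : Matrix (Fin 4) (Fin 4) F)) (mul_inv_cancel g)
      simp only [Matrix.SpecialLinearGroup.coe_mul, Matrix.SpecialLinearGroup.coe_one] at h
      exact h
    obtain ⟨G, hG⟩ : ∃ G : Matrix (Fin 4) (Fin 4) F, G = (g : Matrix (Fin 4) (Fin 4) F) := ⟨_, rfl⟩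
    obtain ⟨Gi, hGi⟩ : ∃ Gi : Matrix (Fin 4) (Fin 4) F, Gi = ((g⁻¹ : Matrix.SpecialLinearGroup (Fin 4) F) : Matrix (Fin 4) (Fin 4) F) := ⟨_, rfl⟩
    rw [← hG] at hm2 hgi
    rw [← hGi] at hgi
    have hNb : Na + S = G * Na * Gi := by
      rw [hm2, Matrix.mul_assoc, hgi, Matrix.mul_one]
    obtain ⟨M, hM⟩ : ∃ M : Matrix (Fin 4) (Fin 4) F, M = Matrix.single 1 2 1 := ⟨_, rfl⟩
    have key : (Na + S) * M * (Na + S) = (Gi * M * G) 1 0 • (Na + S) := by
      have h1 : Na * (Gi * M * G) * Na = (Gi * M * G) 1 0 • Na := by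
        rw [hNa, Matrix.single_mul_mul_single, Matrix.smul_single]
        simp
      calc (Na + S) * M * (Na + S) = G * (Na * (Gi * M * G) * Na) * Gi := by
            rw [hNb]
            simp only [Matrix.mul_assoc]
        _ = (Gi * M * G) 1 0 • (Na + S) := by
            rw [h1, Matrix.mul_smul, Matrix.smul_mul, ← hNb]
    have h03 := congrFun (congrFun key 0) 3
    rw [Matrix.smul_apply] at h03
    simp [hNa, hS, hM, Matrix.mul_apply, Fin.sum_univ_four, Matrix.add_apply, Matrix.single_apply] at h03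
  apply hnc
  have hex := Cfsg.Agent.S0820.result hK (e (QuotientGroup.mk a')) (e (QuotientGroup.mk b'))
    (by rw [MulEquiv.orderOf_eq]; exact hord a' ha2 ha1)
    (by rw [MulEquiv.orderOf_eq]; exact hord b' hb2 hb1)
  have h3 := e.symm.toMonoidHom.map_isConj hex
  simp only [MulEquiv.coe_toMonoidHom, MulEquiv.symm_apply_apply] at h3
  exact h3

end Cfsg.Agent.S2550
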