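import Cfsg.Statements.S2552
import Mathlib

set_option autoImplicit false
open Cfsg

namespace Cfsg.Agent.S2552

/-- Let F be a finite field and n ≥ 1. For every k, the special linear group SL_n(F) acts transitively on the set of k-dimensional subspaces of F^n: any two subspaces of the same dimension are carried onto each other by some matrix of determinant 1. -/
theorem result {F : Type*} [Field F] [Fintype F] (n : ℕ) (hn : 1 ≤ n) (U₁ U₂ : Submodule F (Fin n → F)) (h : Module.finrank F U₁ = Module.finrank F U₂) : ∃ g : Matrix.SpecialLinearGroup (Fin n) F, U₁.map ((Matrix.SpecialLinearGroup.toLin' g : (Fin n → F) ≃ₗ[F] (Fin n → F)) : (Fin n → F) →ₗ[F] (Fin n → F)) = U₂ := by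
  obtain ⟨C₁, hC₁⟩ := Submodule.exists_isCompl U₁
  obtain ⟨C₂, hC₂⟩ := Submodule.exists_isCompl U₂
  have hfin : Module.finrank F C₁ = Module.finrank F C₂ := by
    have h1 := Submodule.finrank_add_eq_of_isCompl hC₁
    have h2 := Submodule.finrank_add_eq_of_isCompl hC₂
    omega
  obtain ⟨eU⟩ : Nonempty (U₁ ≃ₗ[F] U₂) := FiniteDimensional.nonempty_linearEquiv_of_finrank_eq h
  obtain ⟨eC⟩ : Nonempty (C₁ ≃ₗ[F] C₂) := FiniteDimensional.nonempty_linearEquiv_of_finrank_eq hfin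
  obtain ⟨e, he⟩ : ∃ e : (Fin n → F) ≃ₗ[F] (Fin n → F), e = (Submodule.prodEquivOfIsCompl U₁ C₁ hC₁).symm.trans ((eU.prodCongr eC).trans (Submodule.prodEquivOfIsCompl U₂ C₂ hC₂)) := ⟨_, rfl⟩
  have heU : ∀ w ∈ U₁, e w ∈ U₂ := by
    intro w hw
    rw [he]
    have h1 := Submodule.prodEquivOfIsCompl_symm_apply_left U₁ C₁ hC₁ ⟨w, hw⟩
    simp only [LinearEquiv.trans_apply]
    rw [h1]
    simp
  have key : ∀ g : Matrix.SpecialLinearGroup (Fin n) F, (∀ w ∈ U₁, (g : Matrix (Fin n) (Fin n) F).mulVec w ∈ U₂) → U₁.map ((Matrix.SpecialLinearGroup.toLin' g : (Fin n → F) ≃ₗ[F] (Fin n → F)) : (Fin n → F) →ₗ[F] (Fin n → F)) = U₂ := by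
    intro g hg
    apply Submodule.eq_of_le_of_finrank_eq
    · rintro _ ⟨w, hw, rfl⟩
      exact hg w hw
    · rw [← h]; exact LinearEquiv.finrank_map_eq _ _
  obtain ⟨E, hE⟩ : ∃ E : Matrix (Fin n) (Fin n) F, E = LinearMap.toMatrix' (e : (Fin n → F) →ₗ[F] (Fin n → F)) := ⟨_, rfl⟩
  have hEv : ∀ w, E.mulVec w = e w := by
    intro w
    rw [hE, ← Matrix.toLin'_apply, Matrix.toLin'_toMatrix']
    rfl
  have hdet : E.det ≠ 0 := by
    rw [hE, LinearMap.det_toMatrix']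
    exact (LinearEquiv.isUnit_det' e).ne_zero
  by_cases hU : U₁ = ⊥
  · refine ⟨1, key 1 ?_⟩
    intro w hw
    rw [hU, Submodule.mem_bot] at hw
    rw [hw]
    simp
  · obtain ⟨u, huU, hu0⟩ := Submodule.exists_mem_ne_zero_of_ne_bot hU
    obtain ⟨i, hi⟩ := Function.ne_iff.1 hu0
    have hi' : u i ≠ 0 := hi
    obtain ⟨v, hv⟩ : ∃ v : Fin n → F, v = Pi.single i ((E.det⁻¹ - 1) / u i) := ⟨_, rfl⟩
    have hvu : v ⬝ᵥ u = E.det⁻¹ - 1 := by
      rw [hv, single_dotProduct]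
      field_simp
    obtain ⟨S, hS⟩ : ∃ S : Matrix (Fin n) (Fin n) F, S = 1 + Matrix.vecMulVec u v := ⟨_, rfl⟩
    have hSdet : S.det = E.det⁻¹ := by
      rw [hS, Matrix.vecMulVec_eq (ι := Fin 1), Matrix.det_one_add_replicateCol_mul_replicateRow, hvu]; ring
    have hSv : ∀ w, S.mulVec w = w + (v ⬝ᵥ w) • u := by
      intro w
      rw [hS, Matrix.add_mulVec, Matrix.one_mulVec, Matrix.vecMulVec_mulVec]
      ext j
      simp [mul_comm]
    refine ⟨⟨E * S, by rw [Matrix.det_mul, hSdet, mul_inv_cancel₀ hdet]⟩, key _ ?_⟩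
    intro w hw
    show (E * S).mulVec w ∈ U₂
    rw [← Matrix.mulVec_mulVec, hSv, hEv]
    exact heU _ (U₁.add_mem hw (U₁.smul_mem _ huU))

end Cfsg.Agent.S2552
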