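import Mathlib
import Cfsg.Statements.S2566
import Cfsg.Agent.Lib.Helper2.O42

set_option autoImplicit false
open Cfsg

namespace Cfsg.Agent.S2566

/-- The full orthogonal group of the plus-type form x₁y₁ + x₂y₂ in dimension 4 over the field of two elements has order 72 and is isomorphic to the wreath product of the symmetric group of degree 3 by a group of order 2: it has a normal subgroup isomorphic to the direct product of two symmetric groups of degree 3, of index 2, whose two direct factors are interchanged by conjugation by some element. -/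
theorem result :
    Nat.card ↥(Cfsg.isometryGroup (ZMod 2) (Cfsg.quadFormPlus 2 (ZMod 2))) = 72 ∧
    ∃ (A B : Subgroup ↥(Cfsg.isometryGroup (ZMod 2) (Cfsg.quadFormPlus 2 (ZMod 2)))),
      Nonempty (↥A ≃* Equiv.Perm (Fin 3)) ∧ Nonempty (↥B ≃* Equiv.Perm (Fin 3)) ∧ A ⊓ B = ⊥ ∧ (∀ a ∈ A, ∀ b ∈ B, a * b = b * a) ∧
      (A ⊔ B).index = 2 ∧ ∃ g : ↥(Cfsg.isometryGroup (ZMod 2) (Cfsg.quadFormPlus 2 (ZMod 2))), A.map (MulAut.conj g).toMonoidHom = B := by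
  obtain ⟨hfin, hcard⟩ := Cfsg.Agent.Lib.Helper2.o42_card_le
  obtain ⟨mat, hmat, hmatinj⟩ :
      ∃ mat : ↥(Cfsg.isometryGroup (ZMod 2) (Cfsg.quadFormPlus 2 (ZMod 2))) →*
        Matrix (Fin 2 ⊕ Fin 2) (Fin 2 ⊕ Fin 2) (ZMod 2),
      (∀ A, mat A = A.1.1) ∧ Function.Injective mat := by
    refine ⟨(Units.coeHom (Matrix (Fin 2 ⊕ Fin 2) (Fin 2 ⊕ Fin 2) (ZMod 2))).comp
      (Cfsg.isometryGroup (ZMod 2) (Cfsg.quadFormPlus 2 (ZMod 2))).subtype, ?_, ?_⟩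
    · intro A
      rfl
    · intro A A' h
      exact Subtype.ext (Units.ext h)
  have hmk : ∀ M N : Matrix (Fin 2 ⊕ Fin 2) (Fin 2 ⊕ Fin 2) (ZMod 2), M * N = 1 → N * M = 1 →
      (∀ u, Cfsg.quadFormPlus 2 (ZMod 2) (Matrix.mulVec M u) = Cfsg.quadFormPlus 2 (ZMod 2) u) →
      ∃ x : ↥(Cfsg.isometryGroup (ZMod 2) (Cfsg.quadFormPlus 2 (ZMod 2))), mat x = M := by
    intro M N h1 h2 hQ
    refine ⟨⟨⟨M, N, h1, h2⟩, ?_⟩, hmat _⟩
    intro u v
    exact hQ u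
  have hA : ∀ σ : Equiv.Perm (Fin 3),
      ∃ x : ↥(Cfsg.isometryGroup (ZMod 2) (Cfsg.quadFormPlus 2 (ZMod 2))),
        mat x = Cfsg.Agent.Lib.Helper2.o42A σ := by
    intro σ
    refine hmk (Cfsg.Agent.Lib.Helper2.o42A σ) (Cfsg.Agent.Lib.Helper2.o42A σ⁻¹) ?_ ?_
      (Cfsg.Agent.Lib.Helper2.o42A_isom σ)
    · rw [← Cfsg.Agent.Lib.Helper2.o42A_mul, mul_inv_cancel, Cfsg.Agent.Lib.Helper2.o42A_one]
    · rw [← Cfsg.Agent.Lib.Helper2.o42A_mul, inv_mul_cancel, Cfsg.Agent.Lib.Helper2.o42A_one]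
  have hB : ∀ σ : Equiv.Perm (Fin 3),
      ∃ x : ↥(Cfsg.isometryGroup (ZMod 2) (Cfsg.quadFormPlus 2 (ZMod 2))),
        mat x = Cfsg.Agent.Lib.Helper2.o42B σ := by
    intro σ
    refine hmk (Cfsg.Agent.Lib.Helper2.o42B σ) (Cfsg.Agent.Lib.Helper2.o42B σ⁻¹) ?_ ?_
      (Cfsg.Agent.Lib.Helper2.o42B_isom σ)
    · rw [← Cfsg.Agent.Lib.Helper2.o42B_mul, mul_inv_cancel, Cfsg.Agent.Lib.Helper2.o42B_one]
    · rw [← Cfsg.Agent.Lib.Helper2.o42B_mul, inv_mul_cancel, Cfsg.Agent.Lib.Helper2.o42B_one]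
  choose a ha using hA
  choose b hb using hB
  obtain ⟨α, hα⟩ : ∃ α : Equiv.Perm (Fin 3) →*
      ↥(Cfsg.isometryGroup (ZMod 2) (Cfsg.quadFormPlus 2 (ZMod 2))),
      ∀ σ, mat (α σ) = Cfsg.Agent.Lib.Helper2.o42A σ := by
    refine ⟨MonoidHom.mk' a ?_, ha⟩
    intro σ τ
    apply hmatinj
    rw [map_mul, ha, ha, ha, Cfsg.Agent.Lib.Helper2.o42A_mul]
  obtain ⟨β, hβ⟩ : ∃ β : Equiv.Perm (Fin 3) →*
      ↥(Cfsg.isometryGroup (ZMod 2) (Cfsg.quadFormPlus 2 (ZMod 2))),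
      ∀ σ, mat (β σ) = Cfsg.Agent.Lib.Helper2.o42B σ := by
    refine ⟨MonoidHom.mk' b ?_, hb⟩
    intro σ τ
    apply hmatinj
    rw [map_mul, hb, hb, hb, Cfsg.Agent.Lib.Helper2.o42B_mul]
  obtain ⟨g, hg⟩ := hmk Cfsg.Agent.Lib.Helper2.o42G Cfsg.Agent.Lib.Helper2.o42G
    Cfsg.Agent.Lib.Helper2.o42G_sq Cfsg.Agent.Lib.Helper2.o42G_sq
    Cfsg.Agent.Lib.Helper2.o42G_isom
  have comm : ∀ σ τ, Commute (α σ) (β τ) := by
    intro σ τ
    show α σ * β τ = β τ * α σ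
    apply hmatinj
    rw [map_mul, map_mul, hα, hβ, Cfsg.Agent.Lib.Helper2.o42_comm]
  have hγinj : Function.Injective (α.noncommCoprod β comm) := by
    refine (injective_iff_map_eq_one _).mpr ?_
    rintro ⟨σ, τ⟩ h
    rw [MonoidHom.noncommCoprod_apply] at h
    have h' := congrArg mat h
    rw [map_mul, hα, hβ, map_one] at h'
    obtain ⟨h1, h2⟩ := Cfsg.Agent.Lib.Helper2.o42_inj σ τ h'
    exact Prod.ext h1 h2
  obtain ⟨hαinj, hβinj, hdisj⟩ := (MonoidHom.noncommCoprod_injective α β comm).mp hγinj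
  have hsup : α.range ⊔ β.range = (α.noncommCoprod β comm).range :=
    (MonoidHom.noncommCoprod_range α β comm).symm
  have hc36 : Nat.card ↥(α.range ⊔ β.range) = 36 := by
    rw [hsup, ← Nat.card_congr (MonoidHom.ofInjective hγinj).toEquiv, Nat.card_prod,
      Nat.card_eq_fintype_card, Fintype.card_perm, Fintype.card_fin]
    rfl
  have hidx := Subgroup.card_mul_index (α.range ⊔ β.range)
  have hgnot : g ∉ α.range ⊔ β.range := by
    rw [hsup]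
    rintro ⟨⟨σ, τ⟩, h⟩
    rw [MonoidHom.noncommCoprod_apply] at h
    have h' := congrArg mat h
    rw [map_mul, hα, hβ, hg] at h'
    exact Cfsg.Agent.Lib.Helper2.o42_ne σ τ h'
  have hne1 : (α.range ⊔ β.range).index ≠ 1 := by
    intro h1
    rw [Subgroup.index_eq_one] at h1
    apply hgnot
    rw [h1]
    exact Subgroup.mem_top g
  have hpos : 0 < Nat.card ↥(Cfsg.isometryGroup (ZMod 2) (Cfsg.quadFormPlus 2 (ZMod 2))) :=
    Nat.card_pos
  rw [hc36] at hidx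
  have hidx2 : (α.range ⊔ β.range).index = 2 := by
    have h0 : (α.range ⊔ β.range).index ≠ 0 := by
      intro h0
      rw [h0] at hidx
      omega
    by_contra hne2
    have h3 : 3 ≤ (α.range ⊔ β.range).index := by omega
    have h108 : 36 * 3 ≤ 36 * (α.range ⊔ β.range).index := Nat.mul_le_mul_left 36 h3
    omega
  have hgg : g * g = 1 := by
    apply hmatinj
    rw [map_mul, hg, map_one, Cfsg.Agent.Lib.Helper2.o42G_sq]
  have hginv : g⁻¹ = g := inv_eq_of_mul_eq_one_right hgg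
  have hconj : ∀ σ, g * α σ * g⁻¹ = β σ := by
    intro σ
    apply hmatinj
    rw [hginv, map_mul, map_mul, hg, hα, hβ, Cfsg.Agent.Lib.Helper2.o42_conj]
  refine ⟨?_, α.range, β.range, ⟨(MonoidHom.ofInjective hαinj).symm⟩,
    ⟨(MonoidHom.ofInjective hβinj).symm⟩, disjoint_iff.mp hdisj, ?_, hidx2, g, ?_⟩
  · rw [hidx2] at hidx
    omega
  · rintro _ ⟨σ, rfl⟩ _ ⟨τ, rfl⟩
    exact (comm σ τ).eq
  · ext x
    rw [Subgroup.mem_map]
    constructor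
    · rintro ⟨_, ⟨σ, rfl⟩, rfl⟩
      exact ⟨σ, (hconj σ).symm⟩
    · rintro ⟨σ, rfl⟩
      exact ⟨α σ, ⟨σ, rfl⟩, hconj σ⟩

end Cfsg.Agent.S2566
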