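import Cfsg.Statements.S2567
import Mathlib

set_option autoImplicit false
open Cfsg

namespace Cfsg.Agent.S2567

/-- Lifting elements of prime order from PGL to GL: let F be a finite field with q elements, r a prime not dividing q − 1, and x an element of order r in GL_n(F) modulo its centre (the scalar matrices). Then x has exactly one preimage in GL_n(F) of order r. -/
theorem result {F : Type*} [Field F] [Fintype F] {q n r : ℕ} (hF : Fintype.card F = q) (hr : r.Prime) (hdiv : ¬ r ∣ q - 1) (x : GL (Fin n) F ⧸ Subgroup.center (GL (Fin n) F)) (hx : orderOf x = r) : ∃! g : GL (Fin n) F, (QuotientGroup.mk g : GL (Fin n) F ⧸ Subgroup.center (GL (Fin n) F)) = x ∧ orderOf g = r := by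
  have hcard : Nat.card Fˣ = q - 1 := by
    rw [Nat.card_units, Nat.card_eq_fintype_card, hF]
  have hcop : (Nat.card Fˣ).Coprime r := by
    rw [hcard]
    exact ((Nat.Prime.coprime_iff_not_dvd hr).mpr hdiv).symm
  obtain ⟨g₀, rfl⟩ := QuotientGroup.mk_surjective x
  have hscal_center : ∀ v : Fˣ, Matrix.GeneralLinearGroup.scalar (Fin n) v ∈
      Subgroup.center (GL (Fin n) F) := by
    intro v
    rw [Matrix.GeneralLinearGroup.center_eq_range_scalar]
    exact ⟨v, rfl⟩
  have hg₀ : g₀ ^ r ∈ Subgroup.center (GL (Fin n) F) := by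
    have h1 : (QuotientGroup.mk g₀ : GL (Fin n) F ⧸ Subgroup.center (GL (Fin n) F)) ^ r = 1 := by
      rw [← hx]; exact pow_orderOf_eq_one _
    rw [← QuotientGroup.mk_pow, QuotientGroup.eq_one_iff] at h1
    exact h1
  rw [Matrix.GeneralLinearGroup.center_eq_range_scalar] at hg₀
  obtain ⟨u, hu⟩ := hg₀
  obtain ⟨v, hv⟩ : ∃ v : Fˣ, v ^ r = u⁻¹ := ⟨(powCoprime hcop).symm u⁻¹, (powCoprime hcop).apply_symm_apply u⁻¹⟩
  have hmk : (QuotientGroup.mk (g₀ * Matrix.GeneralLinearGroup.scalar (Fin n) v) :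
      GL (Fin n) F ⧸ Subgroup.center (GL (Fin n) F)) = QuotientGroup.mk g₀ := by
    rw [QuotientGroup.mk_mul, (QuotientGroup.eq_one_iff _).mpr (hscal_center v), mul_one]
  have hpow : (g₀ * Matrix.GeneralLinearGroup.scalar (Fin n) v) ^ r = 1 := by
    have hc : Commute g₀ (Matrix.GeneralLinearGroup.scalar (Fin n) v) :=
      (Matrix.GeneralLinearGroup.scalar_commute v g₀).symm
    rw [hc.mul_pow, ← hu, ← map_pow, ← map_mul, hv, mul_inv_cancel, map_one]
  have hord : orderOf (g₀ * Matrix.GeneralLinearGroup.scalar (Fin n) v) = r := by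
    rcases (Nat.dvd_prime hr).mp (orderOf_dvd_of_pow_eq_one hpow) with h1 | h1
    · exfalso
      rw [orderOf_eq_one_iff] at h1
      rw [h1] at hmk
      have : orderOf (QuotientGroup.mk g₀ : GL (Fin n) F ⧸ Subgroup.center (GL (Fin n) F)) = 1 := by
        rw [← hmk]
        exact orderOf_eq_one_iff.mpr rfl
      rw [hx] at this
      exact hr.one_lt.ne' this
    · exact h1
  refine ⟨g₀ * Matrix.GeneralLinearGroup.scalar (Fin n) v, ⟨hmk, hord⟩, ?_⟩
  rintro g' ⟨hg'mk, hg'ord⟩
  -- z = g⁻¹ g' is central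
  have hz : (g₀ * Matrix.GeneralLinearGroup.scalar (Fin n) v)⁻¹ * g' ∈
      Subgroup.center (GL (Fin n) F) := by
    rw [← QuotientGroup.eq, hmk, hg'mk]
  set g := g₀ * Matrix.GeneralLinearGroup.scalar (Fin n) v with hgdef
  have hcomm : Commute g (g⁻¹ * g') := Subgroup.mem_center_iff.mp hz g
  have hg' : g' = g * (g⁻¹ * g') := by group
  have hzr : (g⁻¹ * g') ^ r = 1 := by
    have h1 : g' ^ r = 1 := by rw [← hg'ord]; exact pow_orderOf_eq_one _
    rw [hg', hcomm.mul_pow, hpow, one_mul] at h1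
    exact h1
  have hzq : (g⁻¹ * g') ^ (q - 1) = 1 := by
    have hz' := hz
    rw [Matrix.GeneralLinearGroup.center_eq_range_scalar] at hz'
    obtain ⟨w, hw⟩ := hz'
    rw [← hw, ← map_pow, ← hcard, pow_card_eq_one', map_one]
  have hz1 : g⁻¹ * g' = 1 := by
    have h1 : orderOf (g⁻¹ * g') ∣ r := orderOf_dvd_of_pow_eq_one hzr
    have h2 : orderOf (g⁻¹ * g') ∣ q - 1 := orderOf_dvd_of_pow_eq_one hzq
    have h3 : orderOf (g⁻¹ * g') ∣ 1 := by
      have := Nat.dvd_gcd h1 h2
      rwa [(Nat.Prime.coprime_iff_not_dvd hr).mpr hdiv] at this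
    exact orderOf_eq_one_iff.mp (Nat.dvd_one.mp h3)
  rw [hg', hz1, mul_one]

end Cfsg.Agent.S2567
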