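import Cfsg.Statements.S2569
import Mathlib
import Cfsg.Agent.Lib.Helper4.SemisimpleDet

set_option autoImplicit false
open Cfsg

namespace Cfsg.Agent.S2569

open Cfsg.Agent.Lib.Helper4 in

/-- In GL_n over a finite field of characteristic p, the conjugacy class of a semisimple element (an element of order prime to p) under the special linear group is its whole GL-conjugacy class: for every such x and every invertible g there is h of determinant one with h x h⁻¹ = g x g⁻¹. -/
theorem result {F : Type*} [Field F] [Fintype F] {p : ℕ} [Fact p.Prime] [CharP F p] {n : ℕ} (x g : GL (Fin n) F) (hx : (orderOf x).Coprime p) : ∃ h : GL (Fin n) F, (h : Matrix (Fin n) (Fin n) F).det = 1 ∧ h * x * h⁻¹ = g * x * g⁻¹ := by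
  classical
  by_cases hn : n = 0
  · subst hn
    exact ⟨g, Matrix.det_isEmpty, rfl⟩
  · have hdet : (g : Matrix (Fin n) (Fin n) F).det ≠ 0 :=
      ((Matrix.isUnit_iff_isUnit_det _).1 g.isUnit).ne_zero
    obtain ⟨c, hc, hcdet⟩ := exists_commuting_det hn x hx (g : Matrix (Fin n) (Fin n) F).det⁻¹
      (inv_ne_zero hdet)
    refine ⟨g * c, ?_, ?_⟩
    · rw [Units.val_mul, Matrix.det_mul, hcdet, mul_inv_cancel₀ hdet]
    · rw [mul_inv_rev, mul_assoc g c x, hc]
      group

end Cfsg.Agent.S2569
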