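import Cfsg.Statements.S2571
import Mathlib
import Cfsg.Agent.Lib.Helper4.RegUnipotent2

open Cfsg.Agent.Lib.Helper4

set_option autoImplicit false
open Cfsg

namespace Cfsg.Agent.S2571

/-- Centraliser of a regular unipotent element in GL_n(q): if u is an invertible n × n matrix over the field with q elements, n ≥ 1, with (u − 1)^n = 0 and rank(u − 1) = n − 1 (a single unipotent Jordan block), then its centraliser in GL_n(q) has order (q − 1) q^(n−1). -/
theorem result {F : Type*} [Field F] [Fintype F] {q n : ℕ} (hF : Fintype.card F = q) (hn : 1 ≤ n) (u : GL (Fin n) F) (hnil : ((u : Matrix (Fin n) (Fin n) F) - 1) ^ n = 0) (hreg : ((u : Matrix (Fin n) (Fin n) F) - 1).rank = n - 1) : Nat.card ↥(Subgroup.centralizer ({u} : Set (GL (Fin n) F))) = (q - 1) * q ^ (n - 1) := by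
  classical
  obtain ⟨U, hU⟩ : ∃ U : Matrix (Fin n) (Fin n) F, U = (u : Matrix (Fin n) (Fin n) F) := ⟨_, rfl⟩
  have hcard : Fintype.card (Fin n) = n := Fintype.card_fin n
  have hnil' : (U - 1) ^ Fintype.card (Fin n) = 0 := by rw [hcard, hU]; exact hnil
  have hreg' : (U - 1).rank = Fintype.card (Fin n) - 1 := by rw [hcard, hU]; exact hreg
  obtain ⟨e, he⟩ := regUnipotent_exists_cyclic U hnil' hreg' (by rw [hcard]; omega)
  obtain ⟨N, hN⟩ : ∃ N, N = U - 1 := ⟨_, rfl⟩
  have he' : Matrix.mulVec (N ^ (n - 1)) e ≠ 0 := by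
    rw [hN]; rw [hcard] at he; exact he
  have hNn : N ^ n = 0 := by rw [hN]; rw [hcard] at hnil'; exact hnil'
  have hUN : ∀ X : Matrix (Fin n) (Fin n) F, U * X = X * U → N * X = X * N := by
    intro X h
    rw [hN, Matrix.sub_mul, Matrix.mul_sub, h, Matrix.one_mul, Matrix.mul_one]
  have hinj : ∀ X Y : Matrix (Fin n) (Fin n) F, U * X = X * U → U * Y = Y * U →
      Matrix.mulVec X e = Matrix.mulVec Y e → X = Y := by
    intro X Y hX hY hXY
    have hW : ∀ v ∈ LinearMap.ker (Matrix.mulVecLin (X - Y)),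
        U.mulVec v ∈ LinearMap.ker (Matrix.mulVecLin (X - Y)) := by
      intro v hv
      rw [LinearMap.mem_ker, Matrix.mulVecLin_apply] at hv ⊢
      rw [Matrix.mulVec_mulVec, Matrix.sub_mul, ← hX, ← hY, ← Matrix.mul_sub,
        ← Matrix.mulVec_mulVec, hv, Matrix.mulVec_zero]
    have heW : e ∈ LinearMap.ker (Matrix.mulVecLin (X - Y)) := by
      rw [LinearMap.mem_ker, Matrix.mulVecLin_apply, Matrix.sub_mulVec, hXY, sub_self]
    have htop := regUnipotent_invariant_eq_top U hnil' hreg' _ hW e heW he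
    have h0 : X - Y = 0 := by
      apply Matrix.mulVec_injective
      funext v
      have : v ∈ LinearMap.ker (Matrix.mulVecLin (X - Y)) := by rw [htop]; trivial
      rw [LinearMap.mem_ker, Matrix.mulVecLin_apply] at this
      rw [this, Matrix.zero_mulVec]
    exact sub_eq_zero.1 h0
  have hsurj : ∀ v : Fin n → F, Matrix.mulVec (N ^ (n - 1)) v ≠ 0 →
      ∃ X : Matrix (Fin n) (Fin n) F, U * X = X * U ∧ Matrix.mulVec X e = v ∧ IsUnit X := by
    intro v hv
    let R : Submodule F (Fin n → F) :=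
      { carrier := {w | ∃ X : Matrix (Fin n) (Fin n) F, U * X = X * U ∧ Matrix.mulVec X e = w}
        add_mem' := by
          rintro _ _ ⟨X, hX, rfl⟩ ⟨Y, hY, rfl⟩
          exact ⟨X + Y, by rw [Matrix.mul_add, Matrix.add_mul, hX, hY], Matrix.add_mulVec _ _ _⟩
        zero_mem' := ⟨0, by simp, by simp⟩
        smul_mem' := by
          rintro c _ ⟨X, hX, rfl⟩
          exact ⟨c • X, by rw [Matrix.mul_smul, Matrix.smul_mul, hX], Matrix.smul_mulVec _ _ _⟩ }
    have hRU : ∀ w ∈ R, U.mulVec w ∈ R := by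
      rintro _ ⟨X, hX, rfl⟩
      exact ⟨U * X, by rw [Matrix.mul_assoc, ← hX],
        (Matrix.mulVec_mulVec _ _ _).symm⟩
    have heR : e ∈ R := ⟨1, by simp, Matrix.one_mulVec e⟩
    have hRtop := regUnipotent_invariant_eq_top U hnil' hreg' R hRU e heR he
    have hvR : v ∈ R := by rw [hRtop]; trivial
    obtain ⟨X, hX, hXe⟩ := hvR
    refine ⟨X, hX, hXe, ?_⟩
    rw [← Matrix.mulVec_injective_iff_isUnit]
    have hW : ∀ w ∈ LinearMap.ker (Matrix.mulVecLin X),
        U.mulVec w ∈ LinearMap.ker (Matrix.mulVecLin X) := by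
      intro w hw
      rw [LinearMap.mem_ker, Matrix.mulVecLin_apply] at hw ⊢
      rw [Matrix.mulVec_mulVec, ← hX, ← Matrix.mulVec_mulVec, hw, Matrix.mulVec_zero]
    have hWk := regUnipotent_invariant U hnil' hreg' _ hW
    rw [← hN] at hWk
    have hj : Module.finrank F (LinearMap.ker (Matrix.mulVecLin X)) = 0 := by
      by_contra hj
      have h1 : 1 ≤ Module.finrank F (LinearMap.ker (Matrix.mulVecLin X)) :=
        Nat.one_le_iff_ne_zero.2 hj
      have h2 := ker_mulVecLin_pow_mono N h1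
      rw [← hWk] at h2
      have h3 : Matrix.mulVec (N ^ (n - 1)) e ∈ LinearMap.ker (Matrix.mulVecLin (N ^ 1)) := by
        rw [LinearMap.mem_ker, Matrix.mulVecLin_apply, Matrix.mulVec_mulVec, ← pow_add]
        have e1 : 1 + (n - 1) = n := by omega
        rw [e1, hNn, Matrix.zero_mulVec]
      have h4 := h2 h3
      rw [LinearMap.mem_ker, Matrix.mulVecLin_apply, Matrix.mulVec_mulVec] at h4
      have hc : X * N ^ (n - 1) = N ^ (n - 1) * X :=
        (Commute.pow_left (hUN X hX : Commute N X) (n - 1)).eq.symm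
      rw [hc, ← Matrix.mulVec_mulVec, hXe] at h4
      exact hv h4
    have hbot : LinearMap.ker (Matrix.mulVecLin X) = ⊥ := Submodule.finrank_eq_zero.1 hj
    exact LinearMap.ker_eq_bot.1 hbot
  obtain ⟨K, hK⟩ : ∃ K : Submodule F (Fin n → F),
      K = LinearMap.ker (Matrix.mulVecLin (N ^ (n - 1))) := ⟨_, rfl⟩
  have hmemK : ∀ v : Fin n → F, v ∈ K ↔ Matrix.mulVec (N ^ (n - 1)) v = 0 := by
    intro v; rw [hK, LinearMap.mem_ker, Matrix.mulVecLin_apply]
  have hcomm : ∀ g : ↥(Subgroup.centralizer ({u} : Set (GL (Fin n) F))),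
      U * ((g : GL (Fin n) F) : Matrix (Fin n) (Fin n) F)
        = ((g : GL (Fin n) F) : Matrix (Fin n) (Fin n) F) * U := by
    intro g
    have h1 := Subgroup.mem_centralizer_iff.1 g.2 u rfl
    rw [hU]
    exact congrArg Units.val h1
  have hfmem : ∀ g : ↥(Subgroup.centralizer ({u} : Set (GL (Fin n) F))),
      ¬ Matrix.mulVec ((g : GL (Fin n) F) : Matrix (Fin n) (Fin n) F) e ∈ K := by
    intro g hg
    rw [hmemK, Matrix.mulVec_mulVec] at hg
    have hc : N ^ (n - 1) * ((g : GL (Fin n) F) : Matrix (Fin n) (Fin n) F)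
        = ((g : GL (Fin n) F) : Matrix (Fin n) (Fin n) F) * N ^ (n - 1) :=
      (Commute.pow_left (hUN _ (hcomm g) : Commute N _) (n - 1)).eq
    rw [hc, ← Matrix.mulVec_mulVec] at hg
    have hinjg : Function.Injective
        (Matrix.mulVec ((g : GL (Fin n) F) : Matrix (Fin n) (Fin n) F)) :=
      Matrix.mulVec_injective_iff_isUnit.2 (Units.isUnit _)
    apply he'
    apply hinjg
    rw [hg, Matrix.mulVec_zero]
  let f : ↥(Subgroup.centralizer ({u} : Set (GL (Fin n) F))) → {v : Fin n → F // ¬ v ∈ K} :=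
    fun g => ⟨Matrix.mulVec ((g : GL (Fin n) F) : Matrix (Fin n) (Fin n) F) e, hfmem g⟩
  have hfbij : Function.Bijective f := by
    constructor
    · intro g₁ g₂ h12
      have h1 : Matrix.mulVec ((g₁ : GL (Fin n) F) : Matrix (Fin n) (Fin n) F) e
          = Matrix.mulVec ((g₂ : GL (Fin n) F) : Matrix (Fin n) (Fin n) F) e :=
        congrArg Subtype.val h12
      have h2 := hinj _ _ (hcomm g₁) (hcomm g₂) h1
      exact Subtype.ext (Units.ext h2)
    · rintro ⟨v, hv⟩
      rw [hmemK] at hv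
      obtain ⟨X, hX, hXe, hXu⟩ := hsurj v hv
      have hg : hXu.unit ∈ Subgroup.centralizer ({u} : Set (GL (Fin n) F)) := by
        rw [Subgroup.mem_centralizer_iff]
        intro h hh
        rw [Set.mem_singleton_iff] at hh
        subst hh
        apply Units.ext
        show (h : Matrix (Fin n) (Fin n) F) * X = X * (h : Matrix (Fin n) (Fin n) F)
        rw [← hU]; exact hX
      refine ⟨⟨hXu.unit, hg⟩, ?_⟩
      apply Subtype.ext
      exact hXe
  rw [Nat.card_congr (Equiv.ofBijective f hfbij), Nat.card_eq_fintype_card,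
    Fintype.card_subtype_compl]
  have hcK : Fintype.card {v : Fin n → F // v ∈ K} = q ^ (n - 1) := by
    have h1 := Module.card_eq_pow_finrank (K := F) (V := ↥K)
    have h2 : Module.finrank F ↥K = n - 1 := by
      have := regUnipotent_finrank_ker_pow U hnil' hreg' (n - 1) (by rw [hcard]; omega)
      rw [hK, hN]; exact this
    rw [h2, hF] at h1
    rw [← h1]
  have hcV : Fintype.card (Fin n → F) = q ^ n := by
    rw [Fintype.card_fun, hF, Fintype.card_fin]
  rw [hcK, hcV]
  obtain ⟨k, rfl⟩ : ∃ k, n = k + 1 := ⟨n - 1, by omega⟩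
  rw [Nat.add_sub_cancel, pow_succ, Nat.sub_mul, one_mul, mul_comm]

end Cfsg.Agent.S2571
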