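import Cfsg.Statements.S2572
import Mathlib
import Cfsg.Agent.Lib.Helper4.TransvCent

set_option autoImplicit false
open Cfsg

namespace Cfsg.Agent.S2572

open Cfsg.Agent.Lib.Helper4 in

/-- Centraliser of a transvection in GL_n(q), n ≥ 2: if t − 1 has rank one and square zero, the centraliser of t in GL_n(q) has order q^(2n−3) (q − 1) |GL_(n−2)(q)| (a group of order q^(2n−3) extended by GL_1(q) × GL_(n−2)(q)). -/
theorem result {F : Type*} [Field F] [Fintype F] {q n : ℕ} (hF : Fintype.card F = q) (hn : 2 ≤ n) (t : GL (Fin n) F) (ht : Cfsg.IsTransvection (t : Matrix (Fin n) (Fin n) F)) : Nat.card ↥(Subgroup.centralizer ({t} : Set (GL (Fin n) F))) = q ^ (2 * n - 3) * (q - 1) * ∏ i : Fin (n - 2), (q ^ (n - 2) - q ^ (i : ℕ)) := by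
  obtain ⟨m, rfl⟩ : ∃ m, n = m + 2 := ⟨n - 2, by omega⟩
  obtain ⟨hr, hsq⟩ := ht
  rw [transv_centralizer_card_eq t hr hsq, transv_std_centralizer_card m, hF]
  show _ = q ^ (2 * (m + 2) - 3) * (q - 1) * ∏ i : Fin m, (q ^ m - q ^ (i : ℕ))
  have e1 : q ^ (2 * (m + 2) - 3) = q ^ (m + 1) * q ^ m := by
    rw [← pow_add]
    congr 1
    omega
  rw [e1]
  ring

end Cfsg.Agent.S2572
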