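import Cfsg.Statements.S2573
import Mathlib

set_option autoImplicit false
open Cfsg

namespace Cfsg.Agent.S2573

theorem finrank_ker_pow_le {K V : Type*} [Field K] [AddCommGroup V] [Module K V]
    [FiniteDimensional K V] (f : Module.End K V) (j : ℕ) :
    Module.finrank K (LinearMap.ker (f ^ j)) ≤ j * Module.finrank K (LinearMap.ker f) := by
  induction j with
  | zero =>
    have : LinearMap.ker (f ^ 0) = ⊥ := by
      rw [pow_zero]; exact LinearMap.ker_id
    rw [this]; simp
  | succ j ih =>
    have hmem : ∀ v : LinearMap.ker (f ^ (j + 1)),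
        ((f ^ j).comp (LinearMap.ker (f ^ (j + 1))).subtype) v ∈ LinearMap.ker f := by
      intro v
      rw [LinearMap.mem_ker]
      have h0 := v.2
      rw [LinearMap.mem_ker] at h0
      have e : ∀ x : V, (f ^ (j + 1)) x = f ((f ^ j) x) := fun x => by
        rw [pow_succ', Module.End.mul_apply]
      rw [e] at h0
      exact h0
    let g : LinearMap.ker (f ^ (j + 1)) →ₗ[K] LinearMap.ker f :=
      LinearMap.codRestrict (LinearMap.ker f)
        ((f ^ j).comp (LinearMap.ker (f ^ (j + 1))).subtype) hmem
    have h1 := LinearMap.finrank_range_add_finrank_ker g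
    have h2 : Module.finrank K (LinearMap.range g) ≤ Module.finrank K (LinearMap.ker f) :=
      Submodule.finrank_le _
    have h3 : Module.finrank K (LinearMap.ker g) ≤ Module.finrank K (LinearMap.ker (f ^ j)) := by
      let e : LinearMap.ker g →ₗ[K] LinearMap.ker (f ^ j) :=
        LinearMap.codRestrict (LinearMap.ker (f ^ j))
          ((LinearMap.ker (f ^ (j + 1))).subtype.comp (LinearMap.ker g).subtype) (by
            intro v
            rw [LinearMap.mem_ker]
            have h := v.2
            rw [LinearMap.mem_ker] at h
            exact congrArg Subtype.val h)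
      apply LinearMap.finrank_le_finrank_of_injective (f := e)
      intro a b hab
      have h := congrArg Subtype.val hab
      exact Subtype.ext (Subtype.ext h)
    rw [Nat.succ_mul]
    omega


/-- The invariant subspaces of a regular unipotent matrix form a chain: over a finite field, if u is an n × n matrix with (u − 1)^n = 0 and rank(u − 1) = n − 1, then every subspace W of F^n with u W ⊆ W is the kernel of (u − 1)^(dim W); so u has at most one invariant subspace of each dimension. -/
theorem result {F : Type*} [Field F] [Finite F] {n : ℕ} (u : Matrix (Fin n) (Fin n) F) (hnil : (u - 1) ^ n = 0) (hreg : (u - 1).rank = n - 1) (W : Submodule F (Fin n → F)) (hW : ∀ v ∈ W, u.mulVec v ∈ W) : W = LinearMap.ker (Matrix.mulVecLin ((u - 1) ^ Module.finrank F W)) := by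
  classical
  obtain ⟨N, hN⟩ : ∃ N : Module.End F (Fin n → F), N = Matrix.mulVecLin (u - 1) := ⟨_, rfl⟩
  have hNk : ∀ k : ℕ, Matrix.mulVecLin ((u - 1) ^ k) = N ^ k := by
    intro k
    induction k with
    | zero => rw [pow_zero, pow_zero, Matrix.mulVecLin_one]; rfl
    | succ k ih => rw [pow_succ, pow_succ, Matrix.mulVecLin_mul, ih, hN]; rfl
  rw [hNk]
  have hWN : ∀ v ∈ W, N v ∈ W := by
    intro v hv
    rw [hN, Matrix.mulVecLin_apply, Matrix.sub_mulVec, Matrix.one_mulVec]
    exact W.sub_mem (hW v hv) hv
  have hNn : N ^ n = 0 := by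
    rw [← hNk, hnil]; ext; simp
  have hle : W ≤ LinearMap.ker (N ^ Module.finrank F W) := by
    intro w hw
    have h1 : (N.restrict hWN) ^ n = 0 := by
      rw [Module.End.pow_restrict n hWN]
      ext x
      simp [hNn]
    have h2 : Module.finrank F W ≤ n := by
      have := Submodule.finrank_le W
      rw [Module.finrank_fin_fun] at this
      exact this
    have h3 := Module.End.ker_pow_eq_ker_pow_finrank_of_le (f := N.restrict hWN) h2
    rw [h1] at h3
    have h4 : (⟨w, hw⟩ : W) ∈ LinearMap.ker ((N.restrict hWN) ^ Module.finrank F W) := by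
      rw [← h3]; simp
    rw [LinearMap.mem_ker, Module.End.pow_restrict _ hWN] at h4
    have := congrArg Subtype.val h4
    rw [LinearMap.mem_ker]
    simpa using this
  have hker1 : Module.finrank F (LinearMap.ker N) ≤ 1 := by
    have h1 := LinearMap.finrank_range_add_finrank_ker N
    rw [Module.finrank_fin_fun] at h1
    have h2 : Module.finrank F (LinearMap.range N) = n - 1 := by rw [hN]; exact hreg
    omega
  have hdim := finrank_ker_pow_le N (Module.finrank F W)
  apply Submodule.eq_of_le_of_finrank_le hle
  calc _ ≤ Module.finrank F W * Module.finrank F (LinearMap.ker N) := hdim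
    _ ≤ Module.finrank F W * 1 := Nat.mul_le_mul_left _ hker1
    _ = _ := mul_one _

end Cfsg.Agent.S2573
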