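import Cfsg.Statements.S2574
import Mathlib
import Cfsg.Agent.Lib.Helper4.RegUnipotent

open Cfsg.Agent.Lib.Helper4

set_option autoImplicit false
open Cfsg

namespace Cfsg.Agent.S2574

open Matrix in
theorem symp_zero {F : Type*} [Field F] {m : ℕ}
    (U Ui : Matrix (Fin m ⊕ Fin m) (Fin m ⊕ Fin m) F) (h1 : U * Ui = 1) (h2 : Ui * U = 1)
    (hJ : Uᵀ * Matrix.J (Fin m) F * U = Matrix.J (Fin m) F) (j : ℕ)
    (v' w : Fin m ⊕ Fin m → F) (hw : ((U - 1) ^ j) *ᵥ w = 0) :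
    Cfsg.sympForm m F (((U - 1) ^ j) *ᵥ v') w = 0 := by
  obtain ⟨N, hN⟩ : ∃ N, N = U - 1 := ⟨_, rfl⟩
  rw [← hN] at hw ⊢
  obtain ⟨c, hc⟩ : ∃ c, c = -Ui := ⟨_, rfl⟩
  have hTJ : Uᵀ * Matrix.J (Fin m) F = Matrix.J (Fin m) F * Ui := by
    calc Uᵀ * Matrix.J (Fin m) F = Uᵀ * Matrix.J (Fin m) F * (U * Ui) := by
          rw [h1, Matrix.mul_one]
      _ = (Uᵀ * Matrix.J (Fin m) F * U) * Ui := by simp only [Matrix.mul_assoc]
      _ = Matrix.J (Fin m) F * Ui := by rw [hJ]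
  have hbase : Nᵀ * Matrix.J (Fin m) F = Matrix.J (Fin m) F * c * N := by
    rw [hN, hc]
    calc (U - 1)ᵀ * Matrix.J (Fin m) F = Uᵀ * Matrix.J (Fin m) F - Matrix.J (Fin m) F := by
          rw [Matrix.transpose_sub, Matrix.transpose_one, Matrix.sub_mul, Matrix.one_mul]
      _ = Matrix.J (Fin m) F * Ui - Matrix.J (Fin m) F * (Ui * U) := by
          rw [hTJ, h2, Matrix.mul_one]
      _ = Matrix.J (Fin m) F * (-Ui) * (U - 1) := by noncomm_ring
  have hcomm : Commute c N := by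
    rw [hN, hc]
    show (-Ui) * (U - 1) = (U - 1) * (-Ui)
    calc (-Ui) * (U - 1) = -(Ui * U) + Ui := by noncomm_ring
      _ = -(U * Ui) + Ui := by rw [h2, h1]
      _ = (U - 1) * (-Ui) := by noncomm_ring
  have hpow : ∀ j : ℕ, (N ^ j)ᵀ * Matrix.J (Fin m) F = Matrix.J (Fin m) F * c ^ j * N ^ j := by
    intro j
    induction j with
    | zero => simp
    | succ j ih =>
      calc (N ^ (j + 1))ᵀ * Matrix.J (Fin m) F = Nᵀ * ((N ^ j)ᵀ * Matrix.J (Fin m) F) := by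
            rw [pow_succ, Matrix.transpose_mul, Matrix.mul_assoc]
        _ = Nᵀ * (Matrix.J (Fin m) F * c ^ j * N ^ j) := by rw [ih]
        _ = (Nᵀ * Matrix.J (Fin m) F) * c ^ j * N ^ j := by simp only [Matrix.mul_assoc]
        _ = Matrix.J (Fin m) F * c * (N * c ^ j) * N ^ j := by
            rw [hbase]; simp only [Matrix.mul_assoc]
        _ = Matrix.J (Fin m) F * c * (c ^ j * N) * N ^ j := by
            rw [(hcomm.symm.pow_right j).eq]
        _ = Matrix.J (Fin m) F * c ^ (j + 1) * N ^ (j + 1) := by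
            rw [pow_succ' c, pow_succ' N]; simp only [Matrix.mul_assoc]
  unfold Cfsg.sympForm
  have e : ∀ (A : Matrix (Fin m ⊕ Fin m) (Fin m ⊕ Fin m) F) (x y : Fin m ⊕ Fin m → F),
      (A *ᵥ x) ⬝ᵥ y = x ⬝ᵥ (Aᵀ *ᵥ y) := by
    intro A x y
    rw [Matrix.dotProduct_mulVec, Matrix.vecMul_transpose]
  rw [e, Matrix.mulVec_mulVec, hpow, ← Matrix.mulVec_mulVec, hw, Matrix.mulVec_zero,
    dotProduct_zero]


/-- A regular unipotent element of the symplectic group has totally isotropic small invariant subspaces: over a finite field, if u ∈ Sp_2m(F) satisfies (u − 1)^(2m) = 0 and rank(u − 1) = 2m − 1, and W is a u-invariant subspace with 2 dim W ≤ 2m, then the alternating form vanishes identically on W. -/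
theorem result {F : Type*} [Field F] [Finite F] {m : ℕ} (u : Matrix.symplecticGroup (Fin m) F) (hnil : ((u : Matrix (Fin m ⊕ Fin m) (Fin m ⊕ Fin m) F) - 1) ^ (2 * m) = 0) (hreg : ((u : Matrix (Fin m ⊕ Fin m) (Fin m ⊕ Fin m) F) - 1).rank = 2 * m - 1) (W : Submodule F (Fin m ⊕ Fin m → F)) (hW : ∀ v ∈ W, (u : Matrix (Fin m ⊕ Fin m) (Fin m ⊕ Fin m) F).mulVec v ∈ W) (hdim : 2 * Module.finrank F W ≤ 2 * m) : ∀ v ∈ W, ∀ w ∈ W, Cfsg.sympForm m F v w = 0 := by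
  classical
  obtain ⟨U, hU⟩ : ∃ U : Matrix (Fin m ⊕ Fin m) (Fin m ⊕ Fin m) F,
      U = (u : Matrix (Fin m ⊕ Fin m) (Fin m ⊕ Fin m) F) := ⟨_, rfl⟩
  obtain ⟨Ui, hUi⟩ : ∃ Ui : Matrix (Fin m ⊕ Fin m) (Fin m ⊕ Fin m) F,
      Ui = ((u⁻¹ : Matrix.symplecticGroup (Fin m) F) : Matrix (Fin m ⊕ Fin m) (Fin m ⊕ Fin m) F) :=
    ⟨_, rfl⟩
  have h1 : U * Ui = 1 := by rw [hU, hUi]; exact congrArg Subtype.val (mul_inv_cancel u)
  have h2 : Ui * U = 1 := by rw [hU, hUi]; exact congrArg Subtype.val (inv_mul_cancel u)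
  have hJ : U.transpose * Matrix.J (Fin m) F * U = Matrix.J (Fin m) F := by
    rw [hU]; exact SymplecticGroup.mem_iff'.1 u.2
  have hcard : Fintype.card (Fin m ⊕ Fin m) = 2 * m := by
    rw [Fintype.card_sum, Fintype.card_fin, two_mul]
  have hnil' : (U - 1) ^ Fintype.card (Fin m ⊕ Fin m) = 0 := by rw [hcard, hU]; exact hnil
  have hreg' : (U - 1).rank = Fintype.card (Fin m ⊕ Fin m) - 1 := by rw [hcard, hU]; exact hreg
  have hW' : ∀ v ∈ W, U.mulVec v ∈ W := by rw [hU]; exact hW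
  have hWk := regUnipotent_invariant U hnil' hreg' W hW'
  obtain ⟨k, hk⟩ : ∃ k, k = Module.finrank F W := ⟨_, rfl⟩
  rw [← hk] at hWk hdim
  have hkc : k ≤ Fintype.card (Fin m ⊕ Fin m) := by omega
  have hrange := regUnipotent_range_eq_ker U hnil' hreg' k hkc
  intro v hv w hw
  have hv' := hWk.le hv
  have hw' := hWk.le hw
  rw [← hrange] at hv'
  obtain ⟨v', rfl⟩ := hv'
  rw [Matrix.mulVecLin_apply]
  apply symp_zero U Ui h1 h2 hJ
  have e2 : Fintype.card (Fin m ⊕ Fin m) - k = (Fintype.card (Fin m ⊕ Fin m) - 2 * k) + k := by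
    omega
  rw [e2, pow_add, ← Matrix.mulVec_mulVec]
  have h3 : Matrix.mulVec ((U - 1) ^ k) w = 0 := hw'
  rw [h3, Matrix.mulVec_zero]

end Cfsg.Agent.S2574
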