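import Cfsg.Statements.S2575
import Mathlib

set_option autoImplicit false
open Cfsg

namespace Cfsg.Agent.S2575

theorem prod_neg_one {F : Type*} [Field F] (n i : ℕ) (hi : i ≤ n) :
    ∏ j : Fin n, (if (j : ℕ) < i then (-1 : F) else 1) = (-1) ^ i := by
  rw [Fin.prod_univ_eq_prod_range (fun j => if j < i then (-1 : F) else 1) n]
  rw [Finset.prod_ite, Finset.prod_const_one, mul_one, Finset.prod_const]
  congr 1
  have : Finset.filter (fun x => x < i) (Finset.range n) = Finset.range i := by
    ext x
    simp only [Finset.mem_filter, Finset.mem_range]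
    omega
  rw [this, Finset.card_range]

theorem padic_two_pow_mul_odd (b m : ℕ) (hm : Odd m) : padicValNat 2 (2 ^ b * m) = b := by
  have hm0 : m ≠ 0 := by
    rintro rfl
    exact (Nat.not_odd_iff_even.mpr (by decide : Even 0)) hm
  rw [padicValNat.mul (pow_ne_zero _ (by norm_num)) hm0, padicValNat.prime_pow,
    padicValNat.eq_zero_of_not_dvd hm.not_two_dvd_nat, add_zero]


/-- Which diagonal involutions of PGL_n(q) lie in PSL_n(q), q odd: for the diagonal matrix t with i entries −1 and n − i entries 1, some non-zero scalar multiple of t has determinant one if and only if i is even or the 2-part of q − 1 exceeds the 2-part of n (that is, −1 is an n-th power in the field exactly in the latter case). -/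
theorem result {F : Type*} [Field F] [Fintype F] {q : ℕ} (hF : Fintype.card F = q) (hq : Odd q) {n : ℕ} (hn : 1 ≤ n) (i : ℕ) (hi : i ≤ n) : (∃ c : F, c ≠ 0 ∧ (c • Matrix.diagonal (fun j : Fin n => if (j : ℕ) < i then (-1 : F) else 1)).det = 1) ↔ (Even i ∨ padicValNat 2 n < padicValNat 2 (q - 1)) := by
  have hdet : ∀ c : F, (c • Matrix.diagonal (fun j : Fin n => if (j : ℕ) < i then (-1 : F) else 1)).det =
      c ^ n * (-1) ^ i := by
    intro c
    rw [Matrix.det_smul, Matrix.det_diagonal, prod_neg_one n i hi, Fintype.card_fin]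
  simp only [hdet]
  have hq2 : 2 ≤ q := by
    rw [← hF]; exact Fintype.one_lt_card
  have hN0 : q - 1 ≠ 0 := by omega
  have hn0 : n ≠ 0 := by omega
  have hne : (-1 : F) ≠ 1 := by
    intro h
    have h2 : ((2 : ℕ) : F) = 0 := by
      have : (2 : F) = 1 + 1 := by norm_num
      push_cast
      rw [this]
      nth_rewrite 1 [← h]
      ring
    have h3 := CharP.ringChar_of_prime_eq_zero Nat.prime_two h2
    have h4 := FiniteField.even_card_of_char_two h3
    rw [hF] at h4
    rcases hq with ⟨k, hk⟩
    omega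
  constructor
  · rintro ⟨c, hc0, hc⟩
    by_contra hcon
    push Not at hcon
    obtain ⟨hi', hv⟩ := hcon
    have hiodd : Odd i := Nat.not_even_iff_odd.mp hi'
    rw [hiodd.neg_one_pow] at hc
    have hcn : c ^ n = -1 := by linear_combination (-1 : F) * hc
    obtain ⟨b, N', hN'odd, hN⟩ := Nat.exists_eq_two_pow_mul_odd hN0
    have hb : padicValNat 2 (q - 1) = b := by rw [hN]; exact padic_two_pow_mul_odd b N' hN'odd
    have hdvd : 2 ^ b ∣ n := (padicValNat_dvd_iff_le hn0).mpr (hb ▸ hv)
    obtain ⟨t, ht⟩ := hdvd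
    have h1 : c ^ (q - 1) = 1 := by
      rw [← hF]; exact FiniteField.pow_card_sub_one_eq_one c hc0
    have : (-1 : F) = 1 := by
      calc (-1 : F) = (-1) ^ N' := (hN'odd.neg_one_pow).symm
        _ = (c ^ n) ^ N' := by rw [hcn]
        _ = (c ^ (q - 1)) ^ t := by
          rw [← pow_mul, ← pow_mul, ht, hN]; congr 1; ring
        _ = 1 := by rw [h1, one_pow]
    exact hne this
  · intro h
    by_cases hi' : Even i
    · exact ⟨1, one_ne_zero, by rw [one_pow, one_mul, hi'.neg_one_pow]⟩
    · have hv : padicValNat 2 n < padicValNat 2 (q - 1) := by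
        rcases h with h | h
        · exact absurd h hi'
        · exact h
      have hiodd : Odd i := Nat.not_even_iff_odd.mp hi'
      obtain ⟨a, n', hn'odd, hn⟩ := Nat.exists_eq_two_pow_mul_odd hn0
      have ha : padicValNat 2 n = a := by rw [hn]; exact padic_two_pow_mul_odd a n' hn'odd
      have hdvd : 2 ^ (a + 1) ∣ q - 1 := (padicValNat_dvd_iff_le hN0).mpr (by omega)
      obtain ⟨M, hM⟩ := hdvd
      have hM0 : M ≠ 0 := by
        rintro rfl
        rw [mul_zero] at hM
        exact hN0 hM
      obtain ⟨ω, hω⟩ := IsCyclic.exists_generator (α := Fˣ)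
      have hord : orderOf ω = q - 1 := by
        rw [orderOf_eq_card_of_forall_mem_zpowers hω, Nat.card_units, Nat.card_eq_fintype_card, hF]
      have hz2 : ((ω ^ (M * 2 ^ a) : Fˣ) : F) ^ 2 = 1 := by
        rw [← Units.val_pow_eq_pow_val, ← pow_mul]
        have : M * 2 ^ a * 2 = q - 1 := by rw [hM]; ring
        rw [this, ← hord, pow_orderOf_eq_one]
        rfl
      have hz1 : ((ω ^ (M * 2 ^ a) : Fˣ) : F) ≠ 1 := by
        intro h1
        have h2 : ω ^ (M * 2 ^ a) = 1 := Units.ext h1
        have hpos : 0 < M * 2 ^ a := Nat.mul_pos (Nat.pos_of_ne_zero hM0) (pow_pos (by norm_num) a)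
        have hlt : M * 2 ^ a < orderOf ω := by
          rw [hord, hM, pow_succ]
          nlinarith
        exact pow_ne_one_of_lt_orderOf hpos.ne' hlt h2
      have hz : ((ω ^ (M * 2 ^ a) : Fˣ) : F) = -1 := by
        have h3 : (((ω ^ (M * 2 ^ a) : Fˣ) : F) - 1) * (((ω ^ (M * 2 ^ a) : Fˣ) : F) + 1) = 0 := by
          linear_combination hz2
        rcases mul_eq_zero.mp h3 with h4 | h4
        · exact absurd (sub_eq_zero.mp h4) hz1
        · exact eq_neg_of_add_eq_zero_left h4
      refine ⟨((ω ^ M : Fˣ) : F), Units.ne_zero _, ?_⟩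
      rw [hiodd.neg_one_pow]
      have h5 : ((ω ^ M : Fˣ) : F) ^ n = (((ω ^ (M * 2 ^ a) : Fˣ) : F)) ^ n' := by
        rw [← Units.val_pow_eq_pow_val, ← Units.val_pow_eq_pow_val, ← pow_mul, ← pow_mul, mul_assoc, ← hn]
      rw [h5, hz, hn'odd.neg_one_pow]
      ring

end Cfsg.Agent.S2575
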