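import Cfsg.Statements.S2576
import Mathlib

set_option autoImplicit false
open Cfsg

namespace Cfsg.Agent.S2576

/-- Which involutions of PGL_2m(q) coming from a scalar of the quadratic extension field lie in PSL_2m(q), q odd: let μ generate the Sylow 2-subgroup of the multiplicative group of the field with q elements (μ has order the 2-part of q − 1) and let t be the block-diagonal matrix with m diagonal blocks [[0, 1], [μ, 0]] (so t² is the scalar μ and t is an involution modulo scalars). Then some non-zero scalar multiple of t has determinant one if and only if q ≡ 3 (mod 4) or the 2-part of q − 1 is less than the 2-part of 2m. -/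
theorem result {F : Type*} [Field F] [Fintype F] {q : ℕ} (hF : Fintype.card F = q) (hq : Odd q) {m : ℕ} (hm : 1 ≤ m) (μ : F) (hμ : orderOf μ = 2 ^ padicValNat 2 (q - 1)) : (∃ c : F, c ≠ 0 ∧ (c • Matrix.blockDiagonal (fun _ : Fin m => !![(0 : F), 1; μ, 0])).det = 1) ↔ (q % 4 = 3 ∨ padicValNat 2 (q - 1) < padicValNat 2 (2 * m)) := by
  subst hF
  have hdet : ∀ c : F, (c • Matrix.blockDiagonal (fun _ : Fin m => !![(0 : F), 1; μ, 0])).det =
      c ^ (2 * m) * (-μ) ^ m := by
    intro c
    rw [Matrix.det_smul, Matrix.det_blockDiagonal]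
    simp [Matrix.det_fin_two_of]
  simp only [hdet]
  have hq2 : 2 ≤ Fintype.card F := Fintype.one_lt_card
  obtain ⟨s, hs⟩ := hq
  have hq1 : Fintype.card F - 1 ≠ 0 := by omega
  have hm0 : m ≠ 0 := by omega
  have hv2m : padicValNat 2 (2 * m) = 1 + padicValNat 2 m := by
    rw [padicValNat.mul (by norm_num) hm0, padicValNat_self]
  have ha1 : 1 ≤ padicValNat 2 (Fintype.card F - 1) := by
    rw [← padicValNat_dvd_iff_le hq1]
    omega
  have hprim : IsPrimitiveRoot μ (2 ^ padicValNat 2 (Fintype.card F - 1)) := by
    rw [← hμ]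
    exact IsPrimitiveRoot.orderOf μ
  constructor
  · rintro ⟨c, hc, hcm⟩
    by_cases h4 : Fintype.card F % 4 = 3
    · exact Or.inl h4
    · right
      have ha2 : 2 ≤ padicValNat 2 (Fintype.card F - 1) := by
        rw [← padicValNat_dvd_iff_le hq1]
        omega
      obtain ⟨a, ha⟩ : ∃ a, a = padicValNat 2 (Fintype.card F - 1) := ⟨_, rfl⟩
      rw [← ha] at ha2 hprim ha1 ⊢
      obtain ⟨t, ht⟩ : 2 ^ a ∣ Fintype.card F - 1 := by
        rw [padicValNat_dvd_iff_le hq1, ha]
      have htodd : Odd t := by
        by_contra hne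
        rw [Nat.not_odd_iff_even] at hne
        obtain ⟨t', ht'⟩ := hne
        have : 2 ^ (a + 1) ∣ Fintype.card F - 1 := ⟨t', by rw [ht, ht', pow_succ]; ring⟩
        rw [padicValNat_dvd_iff_le hq1, ← ha] at this
        omega
      have hd : (c ^ t) ^ (2 ^ a) = 1 := by
        rw [← pow_mul, mul_comm, ← ht]
        exact FiniteField.pow_card_sub_one_eq_one c hc
      obtain ⟨j, -, hj⟩ := hprim.eq_pow_of_pow_eq_one hd
      have hneg : μ ^ (2 ^ (a - 1)) = -1 := by
        have h2 : 2 ^ a = 2 ^ (a - 1) * 2 := by
          rw [← pow_succ]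
          congr 1
          omega
        exact (hprim.pow (by positivity) h2).eq_neg_one_of_two_right
      have hnegμ : -μ = μ ^ (2 ^ (a - 1) + 1) := by
        rw [pow_succ, hneg]
        ring
      have h5 : μ ^ (m * (2 * j + (2 ^ (a - 1) + 1) * t)) = 1 := by
        have h6 := congrArg (fun z => z ^ t) hcm
        simp only [one_pow] at h6
        rw [← h6, hnegμ, mul_pow, ← pow_mul, ← pow_mul, ← pow_mul]
        have h7 : c ^ (2 * m * t) = (c ^ t) ^ (2 * m) := by
          rw [← pow_mul]
          congr 1
          ring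
        rw [h7, ← hj, ← pow_mul, ← pow_add]
        congr 1
        ring
      have h8 := orderOf_dvd_of_pow_eq_one h5
      rw [hμ, ← ha] at h8
      have hodd : Odd (2 * j + (2 ^ (a - 1) + 1) * t) := by
        have h9 : Even (2 ^ (a - 1)) := by
          apply Nat.even_pow.2
          exact ⟨even_two, by omega⟩
        have h10 : Odd ((2 ^ (a - 1) + 1) * t) := (h9.add_one).mul htodd
        exact (even_two_mul j).add_odd h10
      have hcop : Nat.Coprime (2 ^ a) (2 * j + (2 ^ (a - 1) + 1) * t) :=
        Nat.Coprime.pow_left a (Nat.coprime_two_left.2 hodd)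
      have h11 : 2 ^ a ∣ m := hcop.dvd_of_dvd_mul_right h8
      rw [padicValNat_dvd_iff_le hm0] at h11
      omega
  · rintro (h4 | hlt)
    · refine ⟨1, one_ne_zero, ?_⟩
      have ha : padicValNat 2 (Fintype.card F - 1) = 1 := by
        apply le_antisymm _ ha1
        by_contra hcon
        push Not at hcon
        have : 2 ^ 2 ∣ Fintype.card F - 1 := by
          rw [padicValNat_dvd_iff_le hq1]
          omega
        omega
      rw [ha, pow_one] at hprim
      rw [hprim.eq_neg_one_of_two_right]
      simp
    · refine ⟨1, one_ne_zero, ?_⟩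
      rw [hv2m] at hlt
      have h1 : 2 ^ padicValNat 2 (Fintype.card F - 1) ∣ m := by
        rw [padicValNat_dvd_iff_le hm0]
        omega
      have h2 : μ ^ m = 1 := by
        rw [← orderOf_dvd_iff_pow_eq_one, hμ]
        exact h1
      have h3 : Even m := by
        have : 2 ∣ m := dvd_trans (dvd_pow_self 2 (by omega)) h1
        exact even_iff_two_dvd.2 this
      rw [neg_pow, h2, h3.neg_one_pow]
      simp

end Cfsg.Agent.S2576
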