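import Cfsg.Statements.S2579
import Mathlib
import Cfsg.Agent.Lib.Helper4.TransvConj

set_option autoImplicit false
open Cfsg

namespace Cfsg.Agent.S2579

open Cfsg.Agent.Lib.Helper4 in

/-- In SL_n(F) with n ≥ 3, over a finite field F, any two transvections (matrices t with t − 1 of rank one and square zero) are conjugate by an element of SL_n(F). -/
theorem result {F : Type*} [Field F] [Finite F] {n : ℕ} (hn : 3 ≤ n) (s t : Matrix.SpecialLinearGroup (Fin n) F) (hs : Cfsg.IsTransvection (s : Matrix (Fin n) (Fin n) F)) (ht : Cfsg.IsTransvection (t : Matrix (Fin n) (Fin n) F)) : IsConj s t := by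
  classical
  obtain ⟨m, rfl⟩ : ∃ m, n = m + 3 := ⟨n - 3, by omega⟩
  have key : ∀ x : Matrix.SpecialLinearGroup (Fin (m + 3)) F,
      Cfsg.IsTransvection (x : Matrix (Fin (m + 3)) (Fin (m + 3)) F) →
      ∃ g : Matrix.SpecialLinearGroup (Fin (m + 3)) F,
        ((g⁻¹ * x * g : Matrix.SpecialLinearGroup (Fin (m + 3)) F) :
          Matrix (Fin (m + 3)) (Fin (m + 3)) F) =
          1 + (Matrix.single 1 0 (1 : F) : Matrix (Fin (m + 3)) (Fin (m + 3)) F) := by
    intro x hx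
    obtain ⟨g, hg1, hg2⟩ := rank_one_sq_zero_normal_form _ hx.1 hx.2
    obtain ⟨G, hG⟩ : ∃ G : Matrix.SpecialLinearGroup (Fin (m + 3)) F,
        (G : Matrix (Fin (m + 3)) (Fin (m + 3)) F) = g := ⟨⟨g, hg1⟩, rfl⟩
    refine ⟨G, ?_⟩
    have h1 : (x : Matrix (Fin (m + 3)) (Fin (m + 3)) F) * g =
        g * (1 + (Matrix.single 1 0 (1 : F) : Matrix (Fin (m + 3)) (Fin (m + 3)) F)) := by
      have h0 : (x : Matrix (Fin (m + 3)) (Fin (m + 3)) F) =
          ((x : Matrix (Fin (m + 3)) (Fin (m + 3)) F) - 1) + 1 := by abel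
      rw [h0, Matrix.add_mul, hg2, Matrix.mul_add, Matrix.one_mul, Matrix.mul_one]
      exact add_comm _ _
    rw [← hG] at h1
    rw [Matrix.SpecialLinearGroup.coe_mul, Matrix.SpecialLinearGroup.coe_mul, Matrix.mul_assoc,
      h1, ← Matrix.mul_assoc, ← Matrix.SpecialLinearGroup.coe_mul, inv_mul_cancel,
      Matrix.SpecialLinearGroup.coe_one, Matrix.one_mul]
  obtain ⟨g₁, h₁⟩ := key s hs
  obtain ⟨g₂, h₂⟩ := key t ht
  have h : g₁⁻¹ * s * g₁ = g₂⁻¹ * t * g₂ := Subtype.ext (h₁.trans h₂.symm)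
  rw [isConj_iff]
  refine ⟨g₂ * g₁⁻¹, ?_⟩
  have h3 : t = g₂ * (g₂⁻¹ * t * g₂) * g₂⁻¹ := by group
  rw [h3, ← h]
  group

end Cfsg.Agent.S2579
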