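import Cfsg.Statements.S2599
import Mathlib

set_option autoImplicit false
open Cfsg

namespace Cfsg.Agent.S2599

/-- An irreducible invariant subspace of a semisimple isometry is non-degenerate or totally singular: let Q be a quadratic form on F^n (F finite of characteristic p) with non-degenerate polar form f, x an isometry of Q of order prime to p, and U a non-zero x-invariant subspace containing no x-invariant subspace other than 0 and U. Then U meets its f-orthogonal trivially, or Q vanishes on U, or p = 2, U is a line spanned by a non-singular vector and x fixes U pointwise. -/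
theorem result {F : Type*} [Field F] [Fintype F] {p : ℕ} [Fact p.Prime] [CharP F p] {n : ℕ} (Q : QuadraticForm F (Fin n → F)) (hQ : (QuadraticMap.polarBilin Q).Nondegenerate) (x : ↥(Cfsg.isometryGroup F ⇑Q)) (hx : (orderOf x).Coprime p) (U : Submodule F (Fin n → F)) (hU0 : U ≠ ⊥) (hUx : ∀ u ∈ U, ((x : Matrix.GeneralLinearGroup (Fin n) F) : Matrix (Fin n) (Fin n) F).mulVec u ∈ U) (hirr : ∀ W : Submodule F (Fin n → F), W ≤ U → (∀ w ∈ W, ((x : Matrix.GeneralLinearGroup (Fin n) F) : Matrix (Fin n) (Fin n) F).mulVec w ∈ W) → W = ⊥ ∨ W = U) : U ⊓ LinearMap.BilinForm.orthogonal (QuadraticMap.polarBilin Q) U = ⊥ ∨ (∀ u ∈ U, Q u = 0) ∨ (p = 2 ∧ Module.finrank F U = 1 ∧ (∃ u ∈ U, Q u ≠ 0) ∧ ∀ u ∈ U, ((x : Matrix.GeneralLinearGroup (Fin n) F) : Matrix (Fin n) (Fin n) F).mulVec u = u) := by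
  obtain ⟨A, hA⟩ : ∃ A : Matrix (Fin n) (Fin n) F,
    A = ((x : Matrix.GeneralLinearGroup (Fin n) F) : Matrix (Fin n) (Fin n) F) := ⟨_, rfl⟩
  rw [← hA] at hUx hirr ⊢
  have hQA : ∀ u, Q (A.mulVec u) = Q u := by
    intro u
    have := x.2 u u
    rw [hA]
    exact this
  obtain ⟨f, hf⟩ : ∃ f, f = QuadraticMap.polarBilin Q := ⟨_, rfl⟩
  rw [← hf]
  have hfdef : ∀ u v, f u v = Q (u + v) - Q u - Q v := by
    intro u v
    rw [hf]
    rfl
  have hfA : ∀ u v, f (A.mulVec u) (A.mulVec v) = f u v := by
    intro u v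
    rw [hfdef, hfdef, ← Matrix.mulVec_add, hQA, hQA, hQA]
  have hpow : ∀ j : ℕ, ∀ u ∈ U, (A ^ j).mulVec u ∈ U := by
    intro j
    induction j with
    | zero => intro u hu; simpa using hu
    | succ j ih =>
      intro u hu
      rw [pow_succ, ← Matrix.mulVec_mulVec]
      exact ih _ (hUx u hu)
  obtain ⟨B, hAB, hBU⟩ : ∃ B : Matrix (Fin n) (Fin n) F, A * B = 1 ∧
      ∀ u ∈ U, B.mulVec u ∈ U := by
    have hpos := orderOf_pos (x : Matrix.GeneralLinearGroup (Fin n) F)
    obtain ⟨k, hk⟩ : ∃ k, orderOf (x : Matrix.GeneralLinearGroup (Fin n) F) = k + 1 :=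
      ⟨orderOf (x : Matrix.GeneralLinearGroup (Fin n) F) - 1, by omega⟩
    have h2 : (x : Matrix.GeneralLinearGroup (Fin n) F) * (x : Matrix.GeneralLinearGroup (Fin n) F) ^ k = 1 := by
      rw [← pow_succ', ← hk, pow_orderOf_eq_one]
    refine ⟨A ^ k, ?_, hpow k⟩
    have := congrArg (fun g : Matrix.GeneralLinearGroup (Fin n) F => (g : Matrix (Fin n) (Fin n) F)) h2
    simpa [hA] using this
  have hperp : ∀ w ∈ LinearMap.BilinForm.orthogonal f U,
      A.mulVec w ∈ LinearMap.BilinForm.orthogonal f U := by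
    intro w hw
    rw [LinearMap.BilinForm.mem_orthogonal_iff] at hw ⊢
    intro u hu
    have hu' : u = A.mulVec (B.mulVec u) := by
      rw [Matrix.mulVec_mulVec, hAB, Matrix.one_mulVec]
    rw [hu', hfA]
    exact hw _ (hBU u hu)
  rcases hirr (U ⊓ LinearMap.BilinForm.orthogonal f U) inf_le_left
    (fun w hw => ⟨hUx w hw.1, hperp w hw.2⟩) with h | h
  · left
    exact h
  · right
    have hUperp : ∀ u ∈ U, ∀ v ∈ U, f u v = 0 := by
      intro u hu v hv
      have hv' : v ∈ U ⊓ LinearMap.BilinForm.orthogonal f U := by rw [h]; exact hv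
      exact (LinearMap.BilinForm.mem_orthogonal_iff.1 hv'.2) u hu
    have hadd : ∀ u ∈ U, ∀ v ∈ U, Q (u + v) = Q u + Q v := by
      intro u hu v hv
      have := hUperp u hu v hv
      rw [hfdef] at this
      linear_combination this
    obtain ⟨W, hW⟩ : ∃ W : Submodule F (Fin n → F), ∀ u, u ∈ W ↔ (u ∈ U ∧ Q u = 0) :=
      ⟨{ carrier := {u | u ∈ U ∧ Q u = 0}
         add_mem' := fun {a b} ha hb => ⟨U.add_mem ha.1 hb.1, by
           rw [hadd a ha.1 b hb.1, ha.2, hb.2, add_zero]⟩
         zero_mem' := ⟨U.zero_mem, map_zero Q⟩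
         smul_mem' := fun c {a} ha => ⟨U.smul_mem c ha.1, by
           rw [QuadraticMap.map_smul, ha.2, smul_zero]⟩ }, fun u => Iff.rfl⟩
    rcases hirr W (fun w hw => ((hW w).1 hw).1)
      (fun w hw => (hW _).2 ⟨hUx w ((hW w).1 hw).1, by rw [hQA]; exact ((hW w).1 hw).2⟩) with hW0 | hWU
    · right
      have hne : ∀ u ∈ U, Q u = 0 → u = 0 := by
        intro u hu hq
        have : u ∈ W := (hW u).2 ⟨hu, hq⟩
        rw [hW0] at this
        exact (Submodule.mem_bot F).1 this
      obtain ⟨u₀, hu₀U, hu₀0⟩ := Submodule.exists_mem_ne_zero_of_ne_bot hU0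
      have hQu₀ : Q u₀ ≠ 0 := fun h0 => hu₀0 (hne u₀ hu₀U h0)
      have hp2 : p = 2 := by
        by_contra hp2
        have h2F : (2 : F) ≠ 0 := by
          intro h20
          have h3 : ((2 : ℕ) : F) = 0 := by exact_mod_cast h20
          rw [CharP.cast_eq_zero_iff F p] at h3
          exact hp2 ((Nat.prime_dvd_prime_iff_eq Fact.out Nat.prime_two).1 h3)
        have h1 := hadd u₀ hu₀U u₀ hu₀U
        have h2 : Q (u₀ + u₀) = 4 * Q u₀ := by
          rw [← two_smul F u₀, QuadraticMap.map_smul, smul_eq_mul]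
          ring
        rw [h2] at h1
        have h4 : (2 : F) * Q u₀ = 0 := by linear_combination h1
        rcases mul_eq_zero.1 h4 with h5 | h5
        · exact h2F h5
        · exact hQu₀ h5
      subst hp2
      have h2F : (2 : F) = 0 := CharTwo.two_eq_zero
      refine ⟨rfl, ?_, ⟨u₀, hu₀U, hQu₀⟩, ?_⟩
      · have hspan : U = Submodule.span F {u₀} := by
          apply le_antisymm
          · intro u hu
            obtain ⟨c, hc⟩ : IsSquare (Q u / Q u₀) := FiniteField.isSquare_of_char_two
              (ringChar.eq F 2) _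
            have h0 : Q (u + c • u₀) = 0 := by
              rw [hadd u hu _ (U.smul_mem c hu₀U), QuadraticMap.map_smul, smul_eq_mul, ← hc]
              field_simp
              linear_combination Q u * h2F
            have h1 := hne _ (U.add_mem hu (U.smul_mem c hu₀U)) h0
            rw [Submodule.mem_span_singleton]
            exact ⟨-c, by rw [neg_smul]; exact (eq_neg_of_add_eq_zero_left h1).symm⟩
          · rw [Submodule.span_singleton_le_iff_mem]
            exact hu₀U
        rw [hspan]
        exact finrank_span_singleton hu₀0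
      · intro u hu
        have h0 : Q (A.mulVec u + u) = 0 := by
          rw [hadd _ (hUx u hu) u hu, hQA]
          linear_combination Q u * h2F
        have h1 := hne _ (U.add_mem (hUx u hu) hu) h0
        have hneg : -u = u := by
          have : u + u = 0 := by rw [← two_smul F u, h2F, zero_smul]
          exact neg_eq_of_add_eq_zero_left this
        calc A.mulVec u = -u := eq_neg_of_add_eq_zero_left h1
          _ = u := hneg
    · left
      intro u hu
      have : u ∈ W := by rw [hWU]; exact hu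
      exact ((hW u).1 this).2

end Cfsg.Agent.S2599
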