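import Cfsg.Statements.S2619
import Mathlib

set_option autoImplicit false
open Cfsg

namespace Cfsg.Agent.S2619

/-- Over a finite field of characteristic two, given an alternating bilinear form B on a finite-dimensional space, a basis (v_i) and scalars (λ_i), there is exactly one quadratic form whose polar form is B and whose value at each v_i is λ_i. -/
theorem result {F V ι : Type*} [Field F] [Finite F] [CharP F 2] [AddCommGroup V] [Module F V] [Fintype ι] (b : Module.Basis ι F V) (B : LinearMap.BilinForm F V) (hB : B.IsAlt) (c : ι → F) : ∃! Q : QuadraticForm F V, QuadraticMap.polarBilin Q = B ∧ ∀ i, Q (b i) = c i := by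
  classical
  letI lo : LinearOrder ι := LinearOrder.lift' (Fintype.equivFin ι) (Fintype.equivFin ι).injective
  let M : Matrix ι ι F := fun i j => if i < j then B (b i) (b j) else if i = j then c i else 0
  have hM : ∀ i j, (Matrix.toBilin b M) (b i) (b j) = M i j := by
    intro i j
    rw [← LinearMap.BilinForm.toMatrix_apply b, LinearMap.BilinForm.toMatrix_toBilin]
  have h2 : ∀ x : F, x + x = 0 := by
    intro x
    exact CharTwo.add_self_eq_zero x
  refine ⟨LinearMap.BilinMap.toQuadraticMap (Matrix.toBilin b M), ⟨?_, ?_⟩, ?_⟩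
  · rw [LinearMap.BilinMap.polarBilin_toQuadraticMap]
    apply LinearMap.BilinForm.ext_basis b
    intro i j
    show (Matrix.toBilin b M) (b i) (b j) + (Matrix.toBilin b M) (b j) (b i) = B (b i) (b j)
    rw [hM, hM]
    simp only [M]
    rcases lt_trichotomy i j with hij | hij | hij
    · rw [if_pos hij, if_neg (not_lt.mpr hij.le), if_neg hij.ne', add_zero]
    · subst hij
      rw [if_neg (lt_irrefl i), if_pos rfl, h2, hB (b i)]
    · rw [if_neg (not_lt.mpr hij.le), if_neg hij.ne', if_pos hij, zero_add, ← hB.neg_eq,
        CharTwo.neg_eq]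
  · intro i
    rw [LinearMap.BilinMap.toQuadraticMap_apply, hM]
    simp [M]
  · rintro Q' ⟨hQ'B, hQ'c⟩
    set Q₀ := LinearMap.BilinMap.toQuadraticMap (Matrix.toBilin b M) with hQ₀
    have hQ₀B : QuadraticMap.polarBilin Q₀ = B := by
      rw [hQ₀, LinearMap.BilinMap.polarBilin_toQuadraticMap]
      apply LinearMap.BilinForm.ext_basis b
      intro i j
      show (Matrix.toBilin b M) (b i) (b j) + (Matrix.toBilin b M) (b j) (b i) = B (b i) (b j)
      rw [hM, hM]
      simp only [M]
      rcases lt_trichotomy i j with hij | hij | hij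
      · rw [if_pos hij, if_neg (not_lt.mpr hij.le), if_neg hij.ne', add_zero]
      · subst hij
        rw [if_neg (lt_irrefl i), if_pos rfl, h2, hB (b i)]
      · rw [if_neg (not_lt.mpr hij.le), if_neg hij.ne', if_pos hij, zero_add, ← hB.neg_eq,
          CharTwo.neg_eq]
    have hQ₀c : ∀ i, Q₀ (b i) = c i := by
      intro i
      rw [hQ₀, LinearMap.BilinMap.toQuadraticMap_apply, hM]
      simp [M]
    ext v
    have hv : v ∈ Submodule.span F (Set.range b) := by
      rw [b.span_eq]; exact Submodule.mem_top
    induction hv using Submodule.span_induction with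
    | mem x hx =>
      obtain ⟨i, rfl⟩ := hx
      rw [hQ'c, hQ₀c]
    | zero => rw [QuadraticMap.map_zero, QuadraticMap.map_zero]
    | add x y _ _ hx hy =>
      rw [QuadraticMap.map_add Q', QuadraticMap.map_add Q₀, hx, hy]
      congr 1
      have h3 : QuadraticMap.polar Q' x y = QuadraticMap.polarBilin Q' x y := rfl
      have h4 : QuadraticMap.polar Q₀ x y = QuadraticMap.polarBilin Q₀ x y := rfl
      rw [h3, h4, hQ'B, hQ₀B]
    | smul a x _ hx =>
      rw [QuadraticMap.map_smul, QuadraticMap.map_smul, hx]

end Cfsg.Agent.S2619
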