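import Cfsg.Statements.S2620
import Mathlib
import Cfsg.Agent.Lib.Helper4.Discriminant

set_option autoImplicit false
open Cfsg

namespace Cfsg.Agent.S2620


theorem polar_plus {F : Type*} [Field F] (m : ℕ) (v w : Fin m ⊕ Fin m → F) :
    QuadraticMap.polar (Cfsg.quadFormPlus m F) v w
      = v ⬝ᵥ ((Matrix.fromBlocks (0 : Matrix (Fin m) (Fin m) F) (1 : Matrix (Fin m) (Fin m) F)
      (1 : Matrix (Fin m) (Fin m) F) (0 : Matrix (Fin m) (Fin m) F)).mulVec w) := by
  classical
  simp only [QuadraticMap.polar, Cfsg.quadFormPlus, dotProduct, Matrix.mulVec,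
    Fintype.sum_sum_type, Matrix.fromBlocks_apply₁₁, Matrix.fromBlocks_apply₁₂,
    Matrix.fromBlocks_apply₂₁, Matrix.fromBlocks_apply₂₂, Matrix.zero_apply, Matrix.one_apply,
    zero_mul, Finset.sum_const_zero, zero_add, add_zero, ite_mul, one_mul,
    Finset.sum_ite_eq, Finset.mem_univ, if_true, Pi.add_apply]
  rw [← Finset.sum_add_distrib, ← Finset.sum_sub_distrib, ← Finset.sum_sub_distrib]
  refine Finset.sum_congr rfl fun i _ => ?_
  ring


/-- Discriminant of the hyperbolic quadratic form Σ_(i<m) x_i y_i over a field with q elements, q odd, m ≥ 1: the determinant of the Gram matrix of its polar form in any basis is a square if and only if m(q − 1)/2 is even (equivalently q^m ≡ 1 (mod 4)). -/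
theorem result {F : Type*} [Field F] [Fintype F] {q : ℕ} (hF : Fintype.card F = q) (hq : Odd q) {m : ℕ} (hm : 1 ≤ m) {ι : Type*} [Fintype ι] [DecidableEq ι] (b : Module.Basis ι F (Fin m ⊕ Fin m → F)) : IsSquare (Matrix.of (fun i j : ι => QuadraticMap.polar (Cfsg.quadFormPlus m F) (b i) (b j))).det ↔ Even (m * (q - 1) / 2) := by
  classical
  have hG : (Matrix.of (fun i j : ι => QuadraticMap.polar (Cfsg.quadFormPlus m F) (b i) (b j)))
      = Matrix.of (fun i j : ι => (b i) ⬝ᵥ
        ((Matrix.fromBlocks (0 : Matrix (Fin m) (Fin m) F) (1 : Matrix (Fin m) (Fin m) F)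
      (1 : Matrix (Fin m) (Fin m) F) (0 : Matrix (Fin m) (Fin m) F)).mulVec (b j))) := by
    ext i j
    simp only [Matrix.of_apply]
    exact polar_plus m (b i) (b j)
  rw [hG]
  obtain ⟨d, hd, hdet⟩ := Cfsg.Agent.Lib.Helper4.gram_det_of_matrix
    (Matrix.fromBlocks (0 : Matrix (Fin m) (Fin m) F) (1 : Matrix (Fin m) (Fin m) F)
      (1 : Matrix (Fin m) (Fin m) F) (0 : Matrix (Fin m) (Fin m) F)) b
  rw [hdet, Cfsg.Agent.Lib.Helper4.det_hyp, Cfsg.Agent.Lib.Helper4.isSquare_sq_mul_iff hd]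
  exact Cfsg.Agent.Lib.Helper4.isSquare_neg_one_pow_iff hF hq m

end Cfsg.Agent.S2620
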