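import Cfsg.Statements.S2621
import Mathlib
import Cfsg.Agent.Lib.Helper4.Discriminant

set_option autoImplicit false
open Cfsg

namespace Cfsg.Agent.S2621


theorem polar_minus {F : Type*} [Field F] (k : ℕ) (a c : F)
    (v w : (Fin k ⊕ Fin k) ⊕ Fin 2 → F) :
    QuadraticMap.polar (Cfsg.quadFormMinus k F a c) v w
      = v ⬝ᵥ ((Matrix.fromBlocks
      (Matrix.fromBlocks (0 : Matrix (Fin k) (Fin k) F) (1 : Matrix (Fin k) (Fin k) F)
        (1 : Matrix (Fin k) (Fin k) F) (0 : Matrix (Fin k) (Fin k) F))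
      (0 : Matrix (Fin k ⊕ Fin k) (Fin 2) F) (0 : Matrix (Fin 2) (Fin k ⊕ Fin k) F)
      (!![2, a; a, 2 * c] : Matrix (Fin 2) (Fin 2) F)).mulVec w) := by
  classical
  simp only [QuadraticMap.polar, Cfsg.quadFormMinus, dotProduct, Matrix.mulVec,
    Fintype.sum_sum_type, Matrix.fromBlocks_apply₁₁, Matrix.fromBlocks_apply₁₂,
    Matrix.fromBlocks_apply₂₁, Matrix.fromBlocks_apply₂₂, Matrix.zero_apply, Matrix.one_apply,
    zero_mul, Finset.sum_const_zero, zero_add, add_zero, ite_mul, one_mul,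
    Finset.sum_ite_eq, Finset.mem_univ, if_true, Pi.add_apply, Fin.sum_univ_two,
    Matrix.of_apply, Matrix.cons_val', Matrix.cons_val_zero, Matrix.cons_val_one,
    Matrix.cons_val_fin_one]
  have e1 : ∑ x : Fin k, (v (Sum.inl (Sum.inl x)) + w (Sum.inl (Sum.inl x)))
        * (v (Sum.inl (Sum.inr x)) + w (Sum.inl (Sum.inr x)))
      = ∑ x : Fin k, v (Sum.inl (Sum.inl x)) * v (Sum.inl (Sum.inr x))
        + ∑ x : Fin k, w (Sum.inl (Sum.inl x)) * w (Sum.inl (Sum.inr x))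
        + (∑ x : Fin k, v (Sum.inl (Sum.inl x)) * w (Sum.inl (Sum.inr x))
        + ∑ x : Fin k, v (Sum.inl (Sum.inr x)) * w (Sum.inl (Sum.inl x))) := by
    rw [← Finset.sum_add_distrib, ← Finset.sum_add_distrib, ← Finset.sum_add_distrib]
    refine Finset.sum_congr rfl fun i _ => ?_
    ring
  rw [e1]
  ring


/-- Discriminant of an elliptic quadratic form Σ_(i<m−1) x_i y_i + z₁² + a z₁z₂ + c z₂² (binary part anisotropic) in dimension 2m over a field with q elements, q odd, m ≥ 1: the determinant of the Gram matrix of its polar form in any basis is a square if and only if m(q − 1)/2 is odd (equivalently q^m ≡ 3 (mod 4)). -/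
theorem result {F : Type*} [Field F] [Fintype F] {q : ℕ} (hF : Fintype.card F = q) (hq : Odd q) {m : ℕ} (hm : 1 ≤ m) (a c : F) (hac : ∀ z₁ z₂ : F, z₁ ^ 2 + a * z₁ * z₂ + c * z₂ ^ 2 = 0 → z₁ = 0 ∧ z₂ = 0) {ι : Type*} [Fintype ι] [DecidableEq ι] (b : Module.Basis ι F ((Fin (m - 1) ⊕ Fin (m - 1)) ⊕ Fin 2 → F)) : IsSquare (Matrix.of (fun i j : ι => QuadraticMap.polar (Cfsg.quadFormMinus (m - 1) F a c) (b i) (b j))).det ↔ ¬ Even (m * (q - 1) / 2) := by
  classical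
  generalize hk : m - 1 = k at b ⊢
  obtain rfl : m = k + 1 := by omega
  have hqF : Odd (Fintype.card F) := hF ▸ hq
  have h2 : (2 : F) ≠ 0 := Cfsg.Agent.Lib.Helper4.two_ne_zero_of_odd_card hqF
  have hG : (Matrix.of (fun i j : ι => QuadraticMap.polar (Cfsg.quadFormMinus k F a c) (b i) (b j)))
      = Matrix.of (fun i j : ι => (b i) ⬝ᵥ
        ((Matrix.fromBlocks
      (Matrix.fromBlocks (0 : Matrix (Fin k) (Fin k) F) (1 : Matrix (Fin k) (Fin k) F)
        (1 : Matrix (Fin k) (Fin k) F) (0 : Matrix (Fin k) (Fin k) F))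
      (0 : Matrix (Fin k ⊕ Fin k) (Fin 2) F) (0 : Matrix (Fin 2) (Fin k ⊕ Fin k) F)
      (!![2, a; a, 2 * c] : Matrix (Fin 2) (Fin 2) F)).mulVec (b j))) := by
    ext i j
    simp only [Matrix.of_apply]
    exact polar_minus k a c (b i) (b j)
  rw [hG]
  obtain ⟨d, hd, hdet⟩ := Cfsg.Agent.Lib.Helper4.gram_det_of_matrix
    (Matrix.fromBlocks
      (Matrix.fromBlocks (0 : Matrix (Fin k) (Fin k) F) (1 : Matrix (Fin k) (Fin k) F)
        (1 : Matrix (Fin k) (Fin k) F) (0 : Matrix (Fin k) (Fin k) F))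
      (0 : Matrix (Fin k ⊕ Fin k) (Fin 2) F) (0 : Matrix (Fin 2) (Fin k ⊕ Fin k) F)
      (!![2, a; a, 2 * c] : Matrix (Fin 2) (Fin 2) F)) b
  rw [hdet, Cfsg.Agent.Lib.Helper4.det_ell, Cfsg.Agent.Lib.Helper4.isSquare_sq_mul_iff hd]
  have hN := Cfsg.Agent.Lib.Helper4.disc_nonsquare h2 a c hac
  have hx : ((-1 : F)) ^ (k + 1) ≠ 0 := pow_ne_zero _ (neg_ne_zero.2 one_ne_zero)
  rw [Cfsg.Agent.Lib.Helper4.isSquare_mul_nonsquare_iff hx hN,
    Cfsg.Agent.Lib.Helper4.isSquare_neg_one_pow_iff hF hq (k + 1)]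

end Cfsg.Agent.S2621
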