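import Cfsg.Statements.S2622
import Mathlib
import Cfsg.Agent.Lib.Helper4.OrthoCharTwo

set_option autoImplicit false
open Cfsg

namespace Cfsg.Agent.S2622

open Cfsg.Agent.Lib.Helper4 in

/-- Over a finite field of characteristic two, a non-degenerate symmetric bilinear form that is not alternating (some vector v has B(v, v) ≠ 0) admits an orthonormal basis. -/
theorem result {F V : Type*} [Field F] [Finite F] [CharP F 2] [AddCommGroup V] [Module F V] [FiniteDimensional F V] {n : ℕ} (hV : Module.finrank F V = n) (B : LinearMap.BilinForm F V) (hS : B.IsSymm) (hB : B.Nondegenerate) (hna : ∃ v : V, B v v ≠ 0) : ∃ b : Module.Basis (Fin n) F V, ∀ i j, B (b i) (b j) = if i = j then 1 else 0 := by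
  obtain ⟨m, rfl⟩ : ∃ m, n = m + 1 := by
    rcases Nat.eq_zero_or_pos n with h0 | h0
    · exfalso
      subst h0
      obtain ⟨v, hv⟩ := hna
      haveI : Subsingleton V := Module.finrank_zero_iff.1 hV
      have : v = 0 := Subsingleton.elim _ _
      rw [this, map_zero] at hv
      exact hv rfl
    · exact ⟨n - 1, by omega⟩
  exact char_two_orthonormal_aux F m V hV B hS hB hna

end Cfsg.Agent.S2622
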