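import Cfsg.Statements.S2625
import Mathlib

set_option autoImplicit false
open Cfsg

namespace Cfsg.Agent.S2625

/-- For a quadratic form Q on F^n with non-degenerate polar form, F finite and n odd (so |F| is odd), the multiplier of any similarity is a square: if g is an invertible linear map with Q(g v) = c·Q(v) for all v then c is a square. -/
theorem result {F : Type*} [Field F] [Fintype F] {n : ℕ} (hn : Odd n) (Q : QuadraticForm F (Fin n → F)) (hQ : (QuadraticMap.polarBilin Q).Nondegenerate) (g : (Fin n → F) ≃ₗ[F] (Fin n → F)) (c : F) (hg : ∀ v, Q (g v) = c * Q v) : IsSquare c := by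
  classical
  set B : LinearMap.BilinForm F (Fin n → F) := QuadraticMap.polarBilin Q with hB
  have hcomp : B.comp (g : (Fin n → F) →ₗ[F] (Fin n → F)) (g : (Fin n → F) →ₗ[F] (Fin n → F)) = c • B := by
    apply LinearMap.ext
    intro v
    apply LinearMap.ext
    intro w
    show QuadraticMap.polar Q (g v) (g w) = c * QuadraticMap.polar Q v w
    simp only [QuadraticMap.polar]
    rw [← map_add, hg, hg, hg]
    ring
  have hdetM : (LinearMap.BilinForm.toMatrix' B).det ≠ 0 := by
    have h1 : (LinearMap.BilinForm.toMatrix' B).Nondegenerate :=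
      LinearMap.BilinForm.nondegenerate_toMatrix'_iff.mpr hQ
    exact Matrix.nondegenerate_iff_det_ne_zero.mp h1
  have hmat := congrArg LinearMap.BilinForm.toMatrix' hcomp
  rw [LinearMap.BilinForm.toMatrix'_comp] at hmat
  have hdet := congrArg Matrix.det hmat
  rw [Matrix.det_mul, Matrix.det_mul, Matrix.det_transpose, map_smul, Matrix.det_smul,
    Fintype.card_fin] at hdet
  set d := (LinearMap.toMatrix' (g : (Fin n → F) →ₗ[F] (Fin n → F))).det with hd
  have hcn : c ^ n = d ^ 2 := by
    have : d * (LinearMap.BilinForm.toMatrix' B).det * d = c ^ n * (LinearMap.BilinForm.toMatrix' B).det := hdet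
    have h2 : (c ^ n - d ^ 2) * (LinearMap.BilinForm.toMatrix' B).det = 0 := by linear_combination -this
    rcases mul_eq_zero.mp h2 with h3 | h3
    · exact sub_eq_zero.mp h3
    · exact absurd h3 hdetM
  have hd0 : d ≠ 0 := by
    rw [hd]
    have : IsUnit (LinearMap.toMatrix' (g : (Fin n → F) →ₗ[F] (Fin n → F))).det := by
      rw [← Matrix.isUnit_iff_isUnit_det]
      refine ⟨⟨LinearMap.toMatrix' (g : (Fin n → F) →ₗ[F] (Fin n → F)),
        LinearMap.toMatrix' (g.symm : (Fin n → F) →ₗ[F] (Fin n → F)), ?_, ?_⟩, rfl⟩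
      · rw [← LinearMap.toMatrix'_comp]
        simp
      · rw [← LinearMap.toMatrix'_comp]
        simp
    exact this.ne_zero
  have hc0 : c ≠ 0 := by
    intro h0
    rw [h0] at hcn
    rcases hn with ⟨k, hk⟩
    rw [hk, zero_pow (by omega)] at hcn
    exact hd0 (pow_eq_zero_iff (by norm_num) |>.mp hcn.symm)
  obtain ⟨k, hk⟩ := hn
  refine ⟨d * (c ^ k)⁻¹, ?_⟩
  have hck : c ^ k ≠ 0 := pow_ne_zero _ hc0
  have h4 : c * (c ^ k) ^ 2 = d ^ 2 := by
    rw [← hcn, hk]; ring
  field_simp
  linear_combination h4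

end Cfsg.Agent.S2625
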