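import Cfsg.Statements.S2626
import Mathlib

set_option autoImplicit false
open Cfsg

namespace Cfsg.Agent.S2626

open Matrix

/-- block diagonal matrices as a monoid homomorphism -/
def blk (F : Type*) [Field F] (k l : ℕ) :
    Matrix (Fin k) (Fin k) F × Matrix (Fin l) (Fin l) F →*
      Matrix (Fin k ⊕ Fin l) (Fin k ⊕ Fin l) F where
  toFun AB := Matrix.fromBlocks AB.1 0 0 AB.2
  map_one' := Matrix.fromBlocks_one
  map_mul' := by
    intro x y
    rw [Matrix.fromBlocks_multiply]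
    simp

/-- block diagonal embedding of `GL k × GL l` into `GL (k ⊕ l)` -/
def blkGL (F : Type*) [Field F] (k l : ℕ) :
    Matrix.GeneralLinearGroup (Fin k) F × Matrix.GeneralLinearGroup (Fin l) F →*
      Matrix.GeneralLinearGroup (Fin k ⊕ Fin l) F :=
  (Units.map (blk F k l)).comp (MulEquiv.prodUnits (M := Matrix (Fin k) (Fin k) F)
    (N := Matrix (Fin l) (Fin l) F)).symm.toMonoidHom

theorem blkGL_val (F : Type*) [Field F] (k l : ℕ)
    (A : Matrix.GeneralLinearGroup (Fin k) F) (B : Matrix.GeneralLinearGroup (Fin l) F) :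
    ((blkGL F k l (A, B) : Matrix.GeneralLinearGroup (Fin k ⊕ Fin l) F) :
      Matrix (Fin k ⊕ Fin l) (Fin k ⊕ Fin l) F) =
    Matrix.fromBlocks (A : Matrix (Fin k) (Fin k) F) 0 0 (B : Matrix (Fin l) (Fin l) F) := rfl

theorem map_mem_commutator {G G' : Type*} [Group G] [Group G'] (f : G →* G') {x : G}
    (hx : x ∈ commutator G) : f x ∈ commutator G' := by
  have h1 : f x ∈ (commutator G).map f := Subgroup.mem_map_of_mem f hx
  rw [commutator_def, Subgroup.map_commutator] at h1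
  rw [commutator_def]
  exact Subgroup.commutator_mono le_top le_top h1


/-- Ω of an orthogonal direct sum contains the product of the Ω's: for quadratic forms Q₁ on F^k and Q₂ on F^l with non-degenerate polar forms (F finite) and Q = Q₁ ⊕ Q₂ on F^(k+l), if g₁ lies in Ω(Q₁) and g₂ in Ω(Q₂) (commutator subgroups of the orthogonal groups) then the block-diagonal isometry diag(g₁, g₂) lies in Ω(Q). -/
theorem result {F : Type*} [Field F] [Fintype F] {k l : ℕ} (Q₁ : QuadraticForm F (Fin k → F)) (Q₂ : QuadraticForm F (Fin l → F)) (h₁ : (QuadraticMap.polarBilin Q₁).Nondegenerate) (h₂ : (QuadraticMap.polarBilin Q₂).Nondegenerate) (g₁ : ↥(Cfsg.isometryGroup F ⇑Q₁)) (g₂ : ↥(Cfsg.isometryGroup F ⇑Q₂)) (hg₁ : g₁ ∈ Cfsg.Omega F ⇑Q₁) (hg₂ : g₂ ∈ Cfsg.Omega F ⇑Q₂) : ∃ g : ↥(Cfsg.isometryGroup F (fun v : Fin k ⊕ Fin l → F => Q₁ (v ∘ Sum.inl) + Q₂ (v ∘ Sum.inr))), g ∈ Cfsg.Omega F (fun v : Fin k ⊕ Fin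 l → F => Q₁ (v ∘ Sum.inl) + Q₂ (v ∘ Sum.inr)) ∧ ((g : Matrix.GeneralLinearGroup (Fin k ⊕ Fin l) F) : Matrix (Fin k ⊕ Fin l) (Fin k ⊕ Fin l) F) = Matrix.fromBlocks ((g₁ : Matrix.GeneralLinearGroup (Fin k) F) : Matrix (Fin k) (Fin k) F) 0 0 ((g₂ : Matrix.GeneralLinearGroup (Fin l) F) : Matrix (Fin l) (Fin l) F) := by
  -- the block-diagonal homomorphism between the isometry groups
  have hmem : ∀ x : ↥(Cfsg.isometryGroup F ⇑Q₁) × ↥(Cfsg.isometryGroup F ⇑Q₂),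
      blkGL F k l ((x.1 : Matrix.GeneralLinearGroup (Fin k) F),
        (x.2 : Matrix.GeneralLinearGroup (Fin l) F)) ∈
      Cfsg.isometryGroup F (fun v : Fin k ⊕ Fin l → F => Q₁ (v ∘ Sum.inl) + Q₂ (v ∘ Sum.inr)) := by
    rintro ⟨⟨A, hA⟩, ⟨B, hB⟩⟩
    intro u v
    show Q₁ (((blkGL F k l (A, B) : Matrix.GeneralLinearGroup (Fin k ⊕ Fin l) F) :
        Matrix (Fin k ⊕ Fin l) (Fin k ⊕ Fin l) F).mulVec u ∘ Sum.inl) +
      Q₂ (((blkGL F k l (A, B) : Matrix.GeneralLinearGroup (Fin k ⊕ Fin l) F) :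
        Matrix (Fin k ⊕ Fin l) (Fin k ⊕ Fin l) F).mulVec u ∘ Sum.inr) =
      Q₁ (u ∘ Sum.inl) + Q₂ (u ∘ Sum.inr)
    rw [blkGL_val]
    have hu : u = Sum.elim (u ∘ Sum.inl) (u ∘ Sum.inr) := (Sum.elim_comp_inl_inr u).symm
    have h1 : (Matrix.fromBlocks (A : Matrix (Fin k) (Fin k) F) 0 0 (B : Matrix (Fin l) (Fin l) F)).mulVec u ∘ Sum.inl =
        (A : Matrix (Fin k) (Fin k) F).mulVec (u ∘ Sum.inl) := by
      conv_lhs => rw [hu, Matrix.fromBlocks_mulVec]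
      simp
    have h2 : (Matrix.fromBlocks (A : Matrix (Fin k) (Fin k) F) 0 0 (B : Matrix (Fin l) (Fin l) F)).mulVec u ∘ Sum.inr =
        (B : Matrix (Fin l) (Fin l) F).mulVec (u ∘ Sum.inr) := by
      conv_lhs => rw [hu, Matrix.fromBlocks_mulVec]
      simp
    rw [h1, h2]
    have hA' := hA (u ∘ Sum.inl) (u ∘ Sum.inl)
    have hB' := hB (u ∘ Sum.inr) (u ∘ Sum.inr)
    have hA'' : Q₁ ((A : Matrix (Fin k) (Fin k) F).mulVec (u ∘ Sum.inl)) = Q₁ (u ∘ Sum.inl) := hA'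
    have hB'' : Q₂ ((B : Matrix (Fin l) (Fin l) F).mulVec (u ∘ Sum.inr)) = Q₂ (u ∘ Sum.inr) := hB'
    rw [hA'', hB'']
  let ψ : ↥(Cfsg.isometryGroup F ⇑Q₁) × ↥(Cfsg.isometryGroup F ⇑Q₂) →*
      ↥(Cfsg.isometryGroup F (fun v : Fin k ⊕ Fin l → F => Q₁ (v ∘ Sum.inl) + Q₂ (v ∘ Sum.inr))) :=
    ((blkGL F k l).comp (MonoidHom.prodMap (Subgroup.subtype _) (Subgroup.subtype _))).codRestrict _ hmem
  refine ⟨ψ (g₁, g₂), ?_, ?_⟩
  · have hsplit : ψ (g₁, g₂) = (ψ.comp (MonoidHom.inl _ _)) g₁ * (ψ.comp (MonoidHom.inr _ _)) g₂ := by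
      rw [MonoidHom.comp_apply, MonoidHom.comp_apply, ← map_mul]
      simp
    rw [hsplit]
    exact Subgroup.mul_mem _ (map_mem_commutator _ hg₁) (map_mem_commutator _ hg₂)
  · rfl

end Cfsg.Agent.S2626
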