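import Cfsg.Statements.S2666
import Mathlib
import Cfsg.Agent.Lib.Helper4.Shintani

set_option autoImplicit false
open Cfsg

namespace Cfsg.Agent.S2666

/-- Shintani descent, in an abstract form. Let `σ` be an automorphism of a group `X` such that the maps `a ↦ a·σ(a)⁻¹` and `a ↦ a·σᵉ(a)⁻¹` are surjective on `X` (the Lang–Steinberg property, which holds when `X` is a connected algebraic group and `σ` a Steinberg endomorphism), where `e ≥ 1`. Write `G` for the subgroup of fixed points of `σᵉ` and `H` for the subgroup of fixed points of `σ`. The `G`-conjugacy classes in the coset `G σ` of the semidirect product of `G` by `σ` correspond to the orbits of `G` on itself under twisted conjugation `g ↦ k g σ(k)⁻¹`, and the `e`-th power of `g σ` has `G`-part the norm `g σ(g) ⋯ σ^(e-1)(g)`. For `g` in `G` and any `a` with `g = a σ(a)⁻¹`, put `x = σᵉ(a)⁻¹ a`. Then: (1) `x` lies in `H`, and `a⁻¹ · (g σ(g) ⋯ σ^(e-1)(g)) · a = x`; (2)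 for `g, g'` in `G` with such elements `a, b` and `x, x'`, the elements `g, g'` are twisted-conjugate under `G` if and only if `x, x'` are conjugate in `H`; (3) every element of `H` arises as such an `x`. So `g ↦ x` induces a well-defined bijection from the twisted `G`-classes of `G` onto the conjugacy classes of `H` (the Shintani map). -/
theorem result {X : Type*} [Group X] (σ : MulAut X) (e : ℕ) (he : 1 ≤ e)
    (hL : ∀ g : X, ∃ a : X, g = a * (σ a)⁻¹) (hLe : ∀ g : X, ∃ a : X, g = a * ((σ ^ e) a)⁻¹) :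
    (∀ g ∈ (MulEquiv.toMonoidHom (σ ^ e)).eqLocus (MonoidHom.id X), ∀ a : X, g = a * (σ a)⁻¹ →
        ((σ ^ e) a)⁻¹ * a ∈ (MulEquiv.toMonoidHom σ).eqLocus (MonoidHom.id X) ∧
          a⁻¹ * ((List.range e).map (fun i => (σ ^ i) g)).prod * a = ((σ ^ e) a)⁻¹ * a) ∧
    (∀ g ∈ (MulEquiv.toMonoidHom (σ ^ e)).eqLocus (MonoidHom.id X), ∀ g' ∈ (MulEquiv.toMonoidHom (σ ^ e)).eqLocus (MonoidHom.id X), ∀ a b : X,
        g = a * (σ a)⁻¹ → g' = b * (σ b)⁻¹ →
          ((∃ k ∈ (MulEquiv.toMonoidHom (σ ^ e)).eqLocus (MonoidHom.id X), g' = k * g * (σ k)⁻¹) ↔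
            (∃ h ∈ (MulEquiv.toMonoidHom σ).eqLocus (MonoidHom.id X), ((σ ^ e) b)⁻¹ * b = h * (((σ ^ e) a)⁻¹ * a) * h⁻¹))) ∧
    (∀ x ∈ (MulEquiv.toMonoidHom σ).eqLocus (MonoidHom.id X), ∃ g ∈ (MulEquiv.toMonoidHom (σ ^ e)).eqLocus (MonoidHom.id X), ∃ a : X,
        g = a * (σ a)⁻¹ ∧ ((σ ^ e) a)⁻¹ * a = x) := by
  have mem_e : ∀ z : X, z ∈ (MulEquiv.toMonoidHom (σ ^ e)).eqLocus (MonoidHom.id X) ↔ (σ ^ e) z = z :=
    fun z => Iff.rfl
  have mem_1 : ∀ z : X, z ∈ (MulEquiv.toMonoidHom σ).eqLocus (MonoidHom.id X) ↔ σ z = z :=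
    fun z => Iff.rfl
  refine ⟨?_, ?_, ?_⟩
  · intro g hg a ha
    rw [mem_e] at hg
    subst ha
    refine ⟨?_, ?_⟩
    · rw [mem_1]
      exact Lib.Helper4.shin_x_fixed σ e a hg
    · rw [Lib.Helper4.shin_tele]; group
  · intro g hg g' hg' a b ha hb
    rw [mem_e] at hg hg'
    subst ha hb
    have hxa := Lib.Helper4.shin_x_fixed σ e a hg
    have hxb := Lib.Helper4.shin_x_fixed σ e b hg'
    constructor
    · rintro ⟨k, hk, hkk⟩
      rw [mem_e] at hk
      -- c = (k a)⁻¹ b is fixed by σ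
      have hc : σ ((k * a)⁻¹ * b) = (k * a)⁻¹ * b := by
        have h1 : (σ (k * a))⁻¹ = (k * a)⁻¹ * (b * (σ b)⁻¹) := by
          rw [hkk, map_mul]; group
        rw [map_mul, map_inv, h1]; group
      have hce : (σ ^ e) ((k * a)⁻¹ * b) = (k * a)⁻¹ * b := Lib.Helper4.shin_fix_pow σ _ hc e
      refine ⟨((k * a)⁻¹ * b)⁻¹, ?_, ?_⟩
      · rw [mem_1, map_inv, hc]
      · have hb' : b = k * a * ((k * a)⁻¹ * b) := by group
        have h2 : (σ ^ e) b = k * (σ ^ e) a * ((k * a)⁻¹ * b) := by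
          conv_lhs => rw [hb']
          rw [map_mul, map_mul, hce, hk]
        rw [h2]; group
    · rintro ⟨h, hh, hhx⟩
      rw [mem_1] at hh
      have hhe : (σ ^ e) h = h := Lib.Helper4.shin_fix_pow σ _ hh e
      refine ⟨b * h * a⁻¹, ?_, ?_⟩
      · rw [mem_e, map_mul, map_mul, map_inv, hhe]
        have h3 : (σ ^ e) b = b * (h * (((σ ^ e) a)⁻¹ * a) * h⁻¹)⁻¹ := by
          rw [← hhx]; group
        rw [h3]; group
      · rw [map_mul, map_mul, map_inv, hh]; group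
  · intro x hx
    rw [mem_1] at hx
    obtain ⟨c, hc⟩ := hLe x⁻¹
    have hcc : (σ ^ e) c = x * c := by
      have h5 : ((σ ^ e) c)⁻¹ = c⁻¹ * x⁻¹ := by rw [hc]; group
      have h6 : (σ ^ e) c = (c⁻¹ * x⁻¹)⁻¹ := by rw [← h5, inv_inv]
      rw [h6]; group
    obtain ⟨a, ha⟩ : ∃ a : X, a = c⁻¹ := ⟨_, rfl⟩
    have hca : (σ ^ e) a = a * x⁻¹ := by
      rw [ha, map_inv, hcc]; group
    refine ⟨a * (σ a)⁻¹, ?_, a, rfl, ?_⟩
    · have h7 : (σ ^ e) (σ a) = σ ((σ ^ e) a) := by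
        rw [← Lib.Helper4.shin_pow_succ_apply, Lib.Helper4.shin_pow_succ_apply']
      rw [mem_e, map_mul, map_inv, h7, hca, map_mul, map_inv σ x, hx]; group
    · rw [hca]; group

end Cfsg.Agent.S2666
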