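import Cfsg.Statements.S2669
import Mathlib
import Cfsg.Agent.Lib.Helper4.Shintani

set_option autoImplicit false
open Cfsg

namespace Cfsg.Agent.S2669

/-- counting a relation whose nonempty fibres are torsors under a freely acting type -/
theorem card_rel_torsor {K L Z : Type*} (R : K → L → Prop) (act : Z → L → L)
    (hfree : ∀ l, Function.Injective (fun z => act z l))
    (horb : ∀ k l l', R k l → (R k l' ↔ ∃ z, l' = act z l)) :
    Nat.card {kl : K × L // R kl.1 kl.2} = Nat.card {k : K // ∃ l, R k l} * Nat.card Z := by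
  classical
  rw [← Nat.card_prod]
  apply Nat.card_congr
  let l₀ : {k : K // ∃ l, R k l} → L := fun k => Classical.choose k.2
  have hl₀ : ∀ k : {k : K // ∃ l, R k l}, R k.1 (l₀ k) := fun k => Classical.choose_spec k.2
  have hex : ∀ kl : {kl : K × L // R kl.1 kl.2},
      ∃ z, kl.1.2 = act z (l₀ ⟨kl.1.1, ⟨kl.1.2, kl.2⟩⟩) := by
    intro kl
    exact (horb kl.1.1 _ kl.1.2 (hl₀ ⟨kl.1.1, ⟨kl.1.2, kl.2⟩⟩)).mp kl.2
  refine
    { toFun := fun kl => (⟨kl.1.1, ⟨kl.1.2, kl.2⟩⟩, Classical.choose (hex kl))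
      invFun := fun kz => ⟨(kz.1.1, act kz.2 (l₀ kz.1)),
        (horb kz.1.1 _ _ (hl₀ kz.1)).mpr ⟨kz.2, rfl⟩⟩
      left_inv := ?_
      right_inv := ?_ }
  · intro kl
    apply Subtype.ext
    apply Prod.ext
    · rfl
    · exact (Classical.choose_spec (hex kl)).symm
  · rintro ⟨k, z⟩
    apply Prod.ext
    · rfl
    · have hspec := Classical.choose_spec
        (hex ⟨(k.1, act z (l₀ k)), (horb k.1 _ _ (hl₀ k)).mpr ⟨z, rfl⟩⟩)
      exact (hfree _ hspec).symm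


/-- Shintani descent preserves numbers of fixed points on coset spaces (abstract form). Let `σ` be an automorphism of a group `X` and `e ≥ 1`; write `G` for the fixed points of `σᵉ` and `H` for the fixed points of `σ`, and assume `G` is finite. Let `Y` be a `σ`-stable subgroup of `X` on which the maps `a ↦ a σ(a)⁻¹` and `a ↦ a σᵉ(a)⁻¹` are surjective (as for a closed connected `σ`-stable subgroup of an algebraic group). Let `g ∈ G`, let `a ∈ X` satisfy `g = a σ(a)⁻¹` and put `x = σᵉ(a)⁻¹ a` (the Shintani image, an element of `H`). The element `g σ` of the semidirect product acts on the cosets of `Y ∩ G` in `G` by `k (Y ∩ G) ↦ g σ(k) (Y ∩ G)`, fixing that coset exactly when `k⁻¹ g σ(k) ∈ Y`; and `x` fixes the coset `h (Y ∩ H)` of `H` exactly when `h⁻¹ x h ∈ Y`. Then the two numbers of fixed cosets agree; in cross-multiplied form, `#{k ∈ G : k⁻¹ g σ(k) ∈ Y} · |Y ∩ H| = #{h ∈ H : h⁻¹ x h ∈ Y} · |Y ∩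 G|`. -/
theorem result {X : Type*} [Group X] (σ : MulAut X) (e : ℕ) (he : 1 ≤ e)
    [Finite ↥((MulEquiv.toMonoidHom (σ ^ e)).eqLocus (MonoidHom.id X))]
    (Y : Subgroup X) (hY : ∀ y : X, y ∈ Y ↔ σ y ∈ Y)
    (hYL : ∀ y ∈ Y, ∃ a ∈ Y, y = a * (σ a)⁻¹) (hYLe : ∀ y ∈ Y, ∃ a ∈ Y, y = a * ((σ ^ e) a)⁻¹)
    (g : X) (hg : g ∈ (MulEquiv.toMonoidHom (σ ^ e)).eqLocus (MonoidHom.id X)) (a : X) (ha : g = a * (σ a)⁻¹) :
    Nat.card {k : ↥((MulEquiv.toMonoidHom (σ ^ e)).eqLocus (MonoidHom.id X)) // (k : X)⁻¹ * g * σ k ∈ Y} *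
        Nat.card ↥(Y ⊓ (MulEquiv.toMonoidHom σ).eqLocus (MonoidHom.id X)) =
      Nat.card {h : ↥((MulEquiv.toMonoidHom σ).eqLocus (MonoidHom.id X)) // (h : X)⁻¹ * (((σ ^ e) a)⁻¹ * a) * h ∈ Y} *
        Nat.card ↥(Y ⊓ (MulEquiv.toMonoidHom (σ ^ e)).eqLocus (MonoidHom.id X)) := by
  have memG : ∀ z : X, z ∈ (MulEquiv.toMonoidHom (σ ^ e)).eqLocus (MonoidHom.id X) ↔ (σ ^ e) z = z :=
    fun z => Iff.rfl
  have memH : ∀ z : X, z ∈ (MulEquiv.toMonoidHom σ).eqLocus (MonoidHom.id X) ↔ σ z = z :=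
    fun z => Iff.rfl
  have hYn : ∀ n : ℕ, ∀ y ∈ Y, (σ ^ n) y ∈ Y := by
    intro n
    induction n with
    | zero => intro y hy; simpa using hy
    | succ n ih =>
      intro y hy
      rw [Lib.Helper4.shin_pow_succ_apply']
      exact (hY _).mp (ih y hy)
  rw [memG] at hg
  -- first characterisation
  have c1 : ∀ k : X, (k⁻¹ * g * σ k ∈ Y ↔
      ∃ h ∈ (MulEquiv.toMonoidHom σ).eqLocus (MonoidHom.id X), k⁻¹ * a * h⁻¹ ∈ Y) := by
    intro k
    have hu : k⁻¹ * g * σ k = (k⁻¹ * a) * (σ (k⁻¹ * a))⁻¹ := by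
      rw [ha, map_mul, map_inv]; group
    constructor
    · intro hk
      rw [hu] at hk
      obtain ⟨y, hy, hyu⟩ := hYL _ hk
      refine ⟨y⁻¹ * (k⁻¹ * a), ?_, ?_⟩
      · rw [memH, map_mul, map_inv]
        have : (σ y)⁻¹ = y⁻¹ * ((k⁻¹ * a) * (σ (k⁻¹ * a))⁻¹) := by rw [hyu]; group
        rw [this]; group
      · have : k⁻¹ * a * (y⁻¹ * (k⁻¹ * a))⁻¹ = y := by group
        rw [this]; exact hy
    · rintro ⟨h, hh, hy⟩
      rw [memH] at hh
      rw [hu]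
      have h1 : k⁻¹ * a = (k⁻¹ * a * h⁻¹) * h := by group
      have h2 : (k⁻¹ * a) * (σ (k⁻¹ * a))⁻¹ = (k⁻¹ * a * h⁻¹) * (σ (k⁻¹ * a * h⁻¹))⁻¹ := by
        conv_lhs => rw [h1]
        rw [map_mul σ (k⁻¹ * a * h⁻¹) h, hh]; group
      rw [h2]
      exact Y.mul_mem hy (Y.inv_mem ((hY _).mp hy))
  -- second characterisation
  have c2 : ∀ h : X, h ∈ (MulEquiv.toMonoidHom σ).eqLocus (MonoidHom.id X) →
      (h⁻¹ * (((σ ^ e) a)⁻¹ * a) * h ∈ Y ↔
        ∃ k ∈ (MulEquiv.toMonoidHom (σ ^ e)).eqLocus (MonoidHom.id X), k⁻¹ * a * h ∈ Y) := by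
    intro h hh
    rw [memH] at hh
    have hhe : (σ ^ e) h = h := Lib.Helper4.shin_fix_pow σ h hh e
    have hw : h⁻¹ * (((σ ^ e) a)⁻¹ * a) * h = ((σ ^ e) (a * h))⁻¹ * (a * h) := by
      rw [map_mul, hhe]; group
    constructor
    · intro hb
      rw [hw] at hb
      have hv : (a * h)⁻¹ * ((σ ^ e) ((a * h)⁻¹))⁻¹ ∈ Y := by
        have : (a * h)⁻¹ * ((σ ^ e) ((a * h)⁻¹))⁻¹ = (((σ ^ e) (a * h))⁻¹ * (a * h))⁻¹ := by
          rw [map_inv]; group
        rw [this]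
        exact Y.inv_mem hb
      obtain ⟨y, hy, hyv⟩ := hYLe _ hv
      refine ⟨(y⁻¹ * (a * h)⁻¹)⁻¹, ?_, ?_⟩
      · rw [memG, map_inv, map_mul, map_inv]
        have : ((σ ^ e) y)⁻¹ = y⁻¹ * ((a * h)⁻¹ * ((σ ^ e) ((a * h)⁻¹))⁻¹) := by rw [hyv]; group
        rw [this]; group
      · have : (y⁻¹ * (a * h)⁻¹)⁻¹⁻¹ * a * h = y⁻¹ := by group
        rw [this]; exact Y.inv_mem hy
    · rintro ⟨k, hk, hy⟩
      rw [memG] at hk
      rw [hw]
      have h1 : a * h = k * (k⁻¹ * a * h) := by group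
      have h2 : ((σ ^ e) (a * h))⁻¹ * (a * h) =
          ((σ ^ e) (k⁻¹ * a * h))⁻¹ * (k⁻¹ * a * h) := by
        conv_lhs => rw [h1]
        rw [map_mul (σ ^ e) k (k⁻¹ * a * h), hk]; group
      rw [h2]
      exact Y.mul_mem (Y.inv_mem (hYn e _ hy)) hy
  -- the two counts of the set of triples
  have cnt1 := card_rel_torsor
    (K := ↥((MulEquiv.toMonoidHom (σ ^ e)).eqLocus (MonoidHom.id X)))
    (L := ↥((MulEquiv.toMonoidHom σ).eqLocus (MonoidHom.id X)))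
    (Z := ↥(Y ⊓ (MulEquiv.toMonoidHom σ).eqLocus (MonoidHom.id X)))
    (fun k h => (k : X)⁻¹ * a * (h : X)⁻¹ ∈ Y)
    (fun z h => ⟨(z : X) * (h : X), Subgroup.mul_mem _ z.2.2 h.2⟩)
    (by
      intro l z z' hzz
      have := congrArg Subtype.val hzz
      simp only at this
      exact Subtype.ext (mul_right_cancel this))
    (by
      intro k l l' hR
      constructor
      · intro hR'
        refine ⟨⟨(l' : X) * (l : X)⁻¹, ?_, Subgroup.mul_mem _ l'.2 (Subgroup.inv_mem _ l.2)⟩, ?_⟩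
        · have : (l' : X) * (l : X)⁻¹ = ((k : X)⁻¹ * a * (l' : X)⁻¹)⁻¹ * ((k : X)⁻¹ * a * (l : X)⁻¹) := by
            group
          rw [this]
          exact Y.mul_mem (Y.inv_mem hR') hR
        · apply Subtype.ext
          simp
      · rintro ⟨z, rfl⟩
        have : (k : X)⁻¹ * a * ((z : X) * (l : X))⁻¹ = ((k : X)⁻¹ * a * (l : X)⁻¹) * (z : X)⁻¹ := by
          group
        show (k : X)⁻¹ * a * ((z : X) * (l : X))⁻¹ ∈ Y
        rw [this]
        exact Y.mul_mem hR (Y.inv_mem z.2.1))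
  have cnt2 := card_rel_torsor
    (K := ↥((MulEquiv.toMonoidHom σ).eqLocus (MonoidHom.id X)))
    (L := ↥((MulEquiv.toMonoidHom (σ ^ e)).eqLocus (MonoidHom.id X)))
    (Z := ↥(Y ⊓ (MulEquiv.toMonoidHom (σ ^ e)).eqLocus (MonoidHom.id X)))
    (fun h k => (k : X)⁻¹ * a * (h : X) ∈ Y)
    (fun z k => ⟨(k : X) * (z : X), Subgroup.mul_mem _ k.2 z.2.2⟩)
    (by
      intro l z z' hzz
      have := congrArg Subtype.val hzz
      simp only at this
      exact Subtype.ext (mul_left_cancel this))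
    (by
      intro h k k' hR
      constructor
      · intro hR'
        refine ⟨⟨(k : X)⁻¹ * (k' : X), ?_, Subgroup.mul_mem _ (Subgroup.inv_mem _ k.2) k'.2⟩, ?_⟩
        · have : (k : X)⁻¹ * (k' : X) = ((k : X)⁻¹ * a * (h : X)) * ((k' : X)⁻¹ * a * (h : X))⁻¹ := by
            group
          rw [this]
          exact Y.mul_mem hR (Y.inv_mem hR')
        · apply Subtype.ext
          simp
      · rintro ⟨z, rfl⟩
        have : ((k : X) * (z : X))⁻¹ * a * (h : X) = (z : X)⁻¹ * ((k : X)⁻¹ * a * (h : X)) := by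
          group
        show ((k : X) * (z : X))⁻¹ * a * (h : X) ∈ Y
        rw [this]
        exact Y.mul_mem (Y.inv_mem z.2.1) hR)
  -- identify the index sets
  have eA : Nat.card {k : ↥((MulEquiv.toMonoidHom (σ ^ e)).eqLocus (MonoidHom.id X)) //
        ∃ h : ↥((MulEquiv.toMonoidHom σ).eqLocus (MonoidHom.id X)), (k : X)⁻¹ * a * (h : X)⁻¹ ∈ Y} =
      Nat.card {k : ↥((MulEquiv.toMonoidHom (σ ^ e)).eqLocus (MonoidHom.id X)) //
        (k : X)⁻¹ * g * σ k ∈ Y} := by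
    apply Nat.card_congr
    apply Equiv.subtypeEquivRight
    intro k
    rw [c1 (k : X)]
    constructor
    · rintro ⟨h, hh⟩
      exact ⟨h, h.2, hh⟩
    · rintro ⟨h, hh, hy⟩
      exact ⟨⟨h, hh⟩, hy⟩
  have eB : Nat.card {h : ↥((MulEquiv.toMonoidHom σ).eqLocus (MonoidHom.id X)) //
        ∃ k : ↥((MulEquiv.toMonoidHom (σ ^ e)).eqLocus (MonoidHom.id X)), (k : X)⁻¹ * a * (h : X) ∈ Y} =
      Nat.card {h : ↥((MulEquiv.toMonoidHom σ).eqLocus (MonoidHom.id X)) //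
        (h : X)⁻¹ * (((σ ^ e) a)⁻¹ * a) * h ∈ Y} := by
    apply Nat.card_congr
    apply Equiv.subtypeEquivRight
    intro h
    rw [c2 (h : X) h.2]
    constructor
    · rintro ⟨k, hk⟩
      exact ⟨k, k.2, hk⟩
    · rintro ⟨k, hk, hy⟩
      exact ⟨⟨k, hk⟩, hy⟩
  have eT : Nat.card {kl : ↥((MulEquiv.toMonoidHom (σ ^ e)).eqLocus (MonoidHom.id X)) ×
        ↥((MulEquiv.toMonoidHom σ).eqLocus (MonoidHom.id X)) // (kl.1 : X)⁻¹ * a * (kl.2 : X)⁻¹ ∈ Y} =
      Nat.card {kl : ↥((MulEquiv.toMonoidHom σ).eqLocus (MonoidHom.id X)) ×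
        ↥((MulEquiv.toMonoidHom (σ ^ e)).eqLocus (MonoidHom.id X)) // (kl.2 : X)⁻¹ * a * (kl.1 : X) ∈ Y} := by
    apply Nat.card_congr
    refine
      { toFun := fun kl => ⟨(kl.1.2⁻¹, kl.1.1), kl.2⟩
        invFun := fun kl => ⟨(kl.1.2, kl.1.1⁻¹), by
          show ((kl.1.2 : X))⁻¹ * a * ((kl.1.1 : X)⁻¹)⁻¹ ∈ Y
          rw [inv_inv]
          exact kl.2⟩
        left_inv := ?_
        right_inv := ?_ }
    · intro kl
      apply Subtype.ext
      exact Prod.ext rfl (inv_inv _)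
    · intro kl
      apply Subtype.ext
      exact Prod.ext (inv_inv _) rfl
  rw [← eA, ← eB, ← cnt1, ← cnt2, eT]

end Cfsg.Agent.S2669
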