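import Cfsg.Statements.S2738
import Mathlib

set_option autoImplicit false
open Cfsg

namespace Cfsg.Agent.S2738

/-- The special linear group SL(3, 4) has centre of order 3 and does not split over it: no subgroup is a complement to the centre (so SL(3, 4) is a non-split central extension of PSL(3, 4) by a group of order 3). -/
theorem result (F : Type*) [Field F] [Fintype F] (hF : Fintype.card F = 4) : Nat.card ↥(Subgroup.center (Matrix.SpecialLinearGroup (Fin 3) F)) = 3 ∧ ¬ ∃ K : Subgroup (Matrix.SpecialLinearGroup (Fin 3) F), Subgroup.IsComplement' (Subgroup.center (Matrix.SpecialLinearGroup (Fin 3) F)) K := by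
  classical
  have hunit : ∀ x : F, x ≠ 0 → x ^ 3 = 1 := by
    intro x hx
    have := FiniteField.pow_card_sub_one_eq_one x hx
    rwa [hF] at this
  constructor
  · have e := Matrix.SpecialLinearGroup.center_equiv_rootsOfUnity' (n := Fin 3) (R := F) 0
    rw [Nat.card_congr e.toEquiv]
    have htop : rootsOfUnity (Fintype.card (Fin 3)) F = ⊤ := by
      ext u
      simp only [Fintype.card_fin, mem_rootsOfUnity, Subgroup.mem_top, iff_true]
      apply Units.ext
      simpa using hunit u u.ne_zero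
    rw [htop, Subgroup.card_top, Nat.card_eq_fintype_card, Fintype.card_units, hF]
  · rintro ⟨K, hK⟩
    obtain ⟨ω, hω0, hω1⟩ : ∃ ω : F, ω ≠ 0 ∧ ω ≠ 1 := by
      by_contra hcon
      push Not at hcon
      have : Fintype.card F ≤ 2 := by
        calc Fintype.card F = (Finset.univ : Finset F).card := rfl
          _ ≤ ({0, 1} : Finset F).card := Finset.card_le_card (fun x _ => by
              by_cases hx : x = 0
              · simp [hx]
              · simp [hcon x hx])
          _ ≤ 2 := Finset.card_le_two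
      omega
    have hω3 := hunit ω hω0
    obtain ⟨a, ha⟩ : ∃ a : Matrix.SpecialLinearGroup (Fin 3) F,
        (a : Matrix (Fin 3) (Fin 3) F) = !![1, 0, 0; 0, ω, 0; 0, 0, ω ^ 2] :=
      ⟨⟨!![1, 0, 0; 0, ω, 0; 0, 0, ω ^ 2], by
        rw [Matrix.det_fin_three]
        simp
        linear_combination hω3⟩, rfl⟩
    obtain ⟨b, hb⟩ : ∃ b : Matrix.SpecialLinearGroup (Fin 3) F,
        (b : Matrix (Fin 3) (Fin 3) F) = !![0, 0, 1; 1, 0, 0; 0, 1, 0] :=
      ⟨⟨!![0, 0, 1; 1, 0, 0; 0, 1, 0], by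
        rw [Matrix.det_fin_three]
        simp⟩, rfl⟩
    obtain ⟨z, hz⟩ : ∃ z : Matrix.SpecialLinearGroup (Fin 3) F,
        (z : Matrix (Fin 3) (Fin 3) F) = ω • (1 : Matrix (Fin 3) (Fin 3) F) :=
      ⟨⟨ω • (1 : Matrix (Fin 3) (Fin 3) F), by
        rw [Matrix.det_smul, Matrix.det_one, Fintype.card_fin, hω3, mul_one]⟩, rfl⟩
    have hzc : ∀ g : Matrix.SpecialLinearGroup (Fin 3) F, g * z = z * g := by
      intro g
      apply Subtype.ext
      show (g : Matrix (Fin 3) (Fin 3) F) * (z : Matrix (Fin 3) (Fin 3) F) =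
        (z : Matrix (Fin 3) (Fin 3) F) * (g : Matrix (Fin 3) (Fin 3) F)
      rw [hz]
      simp
    have hz1 : z ≠ 1 := by
      intro h
      have h2 : (z : Matrix (Fin 3) (Fin 3) F) 0 0 = (1 : Matrix (Fin 3) (Fin 3) F) 0 0 := by
        rw [h]; rfl
      rw [hz] at h2
      simp at h2
      exact hω1 h2
    have hab : a * b = z * b * a := by
      apply Subtype.ext
      show (a : Matrix (Fin 3) (Fin 3) F) * (b : Matrix (Fin 3) (Fin 3) F) =
        (z : Matrix (Fin 3) (Fin 3) F) * (b : Matrix (Fin 3) (Fin 3) F) *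
          (a : Matrix (Fin 3) (Fin 3) F)
      rw [ha, hb, hz]
      ext i j
      fin_cases i <;> fin_cases j <;>
        simp [Matrix.mul_apply, Fin.sum_univ_three] <;>
        first | ring1 | linear_combination hω3 | linear_combination (-1 : F) * hω3
    obtain ⟨⟨z₁, k₁⟩, h1⟩ := hK.2 a
    obtain ⟨⟨z₂, k₂⟩, h2⟩ := hK.2 b
    simp only at h1 h2
    have hc1 : ∀ g : Matrix.SpecialLinearGroup (Fin 3) F, g * (z₁ : Matrix.SpecialLinearGroup (Fin 3) F) = z₁ * g :=
      fun g => Subgroup.mem_center_iff.1 z₁.2 g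
    have hc2 : ∀ g : Matrix.SpecialLinearGroup (Fin 3) F, g * (z₂ : Matrix.SpecialLinearGroup (Fin 3) F) = z₂ * g :=
      fun g => Subgroup.mem_center_iff.1 z₂.2 g
    have hzK : z ∈ K := by
      have e1 : a * b = (z₁ : Matrix.SpecialLinearGroup (Fin 3) F) * z₂ * ((k₁ : Matrix.SpecialLinearGroup (Fin 3) F) * k₂) := by
        rw [← h1, ← h2]
        calc (z₁ : Matrix.SpecialLinearGroup (Fin 3) F) * k₁ * (z₂ * k₂) = z₁ * (k₁ * z₂) * k₂ := by group
          _ = z₁ * (z₂ * k₁) * k₂ := by rw [hc2]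
          _ = _ := by group
      have e2 : z * b * a = (z₁ : Matrix.SpecialLinearGroup (Fin 3) F) * z₂ * (z * ((k₂ : Matrix.SpecialLinearGroup (Fin 3) F) * k₁)) := by
        rw [← h1, ← h2]
        calc z * ((z₂ : Matrix.SpecialLinearGroup (Fin 3) F) * k₂) * (z₁ * k₁) = (z * z₂) * (k₂ * z₁) * k₁ := by group
          _ = (z₂ * z) * (z₁ * k₂) * k₁ := by rw [hc1, hzc]
          _ = z₂ * (z * z₁) * k₂ * k₁ := by group
          _ = z₂ * (z₁ * z) * k₂ * k₁ := by rw [← hzc]
          _ = (z₂ * z₁) * (z * (k₂ * k₁)) := by group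
          _ = (z₁ * z₂) * (z * (k₂ * k₁)) := by rw [hc1]
      have e3 : (k₁ : Matrix.SpecialLinearGroup (Fin 3) F) * k₂ = z * ((k₂ : Matrix.SpecialLinearGroup (Fin 3) F) * k₁) :=
        mul_left_cancel (e1.symm.trans (hab.trans e2))
      have e4 : z = (k₁ : Matrix.SpecialLinearGroup (Fin 3) F) * k₂ * ((k₂ : Matrix.SpecialLinearGroup (Fin 3) F) * k₁)⁻¹ := by
        rw [e3]; group
      rw [e4]
      exact K.mul_mem (K.mul_mem k₁.2 k₂.2) (K.inv_mem (K.mul_mem k₂.2 k₁.2))
    have hzZ : z ∈ Subgroup.center (Matrix.SpecialLinearGroup (Fin 3) F) :=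
      Subgroup.mem_center_iff.2 hzc
    exact hz1 (Subgroup.disjoint_def.1 hK.disjoint hzZ hzK)

end Cfsg.Agent.S2738
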