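import Cfsg.Statements.S2739
import Mathlib
import Cfsg.Agent.Lib.Helper4.PSL34Ord3

set_option autoImplicit false
open scoped Pointwise
open Cfsg

namespace Cfsg.Agent.S2739

open Cfsg.Agent.Lib.Helper4 in

/-- In the projective special linear group PSL(3, 4) all subgroups of order 3 are conjugate. -/
theorem result (F : Type*) [Field F] [Fintype F] (hF : Fintype.card F = 4) (X Y : Subgroup (Matrix.ProjectiveSpecialLinearGroup (Fin 3) F)) (hX : Nat.card ↥X = 3) (hY : Nat.card ↥Y = 3) : ∃ g : Matrix.ProjectiveSpecialLinearGroup (Fin 3) F, MulAut.conj g • X = Y := by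
  classical
  obtain ⟨ω, hω, hω1, hω0⟩ := f4_exists_omega hF
  have hω3 : ω ^ 3 = 1 := by linear_combination (ω - 1) * hω
  obtain ⟨D', hD'⟩ : ∃ D' : Matrix.SpecialLinearGroup (Fin 3) F,
      D'.1 = Matrix.diagonal ![1, ω, ω ^ 2] :=
    ⟨⟨Matrix.diagonal ![1, ω, ω ^ 2], by
      rw [Matrix.det_diagonal, Fin.prod_univ_three]
      simp
      linear_combination hω3⟩, rfl⟩
  have key : ∀ X : Subgroup (Matrix.ProjectiveSpecialLinearGroup (Fin 3) F), Nat.card ↥X = 3 →
      ∃ c : Matrix.ProjectiveSpecialLinearGroup (Fin 3) F,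
        X = Subgroup.zpowers (c * QuotientGroup.mk D' * c⁻¹) := by
    intro X hX
    haveI : Finite X := Nat.finite_of_card_ne_zero (by rw [hX]; norm_num)
    obtain ⟨x, hx1⟩ : ∃ x : X, x ≠ 1 := by
      haveI : Nontrivial X := by
        rw [← Finite.one_lt_card_iff_nontrivial, hX]
        norm_num
      exact exists_ne 1
    have hxo : orderOf x = 3 := by
      have h1 : orderOf x ∣ 3 := by
        have h := orderOf_dvd_natCard x
        rw [hX] at h
        exact h
      rcases (Nat.dvd_prime Nat.prime_three).1 h1 with h | h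
      · exact absurd (orderOf_eq_one_iff.1 h) hx1
      · exact h
    have hxo' : orderOf (x : Matrix.ProjectiveSpecialLinearGroup (Fin 3) F) = 3 := by
      rw [Subgroup.orderOf_coe]
      exact hxo
    obtain ⟨c, hc⟩ := isConj_iff.1 (psl3_ord3_conj hF ω hω D' hD' (x : Matrix.ProjectiveSpecialLinearGroup (Fin 3) F) hxo')
    refine ⟨c, ?_⟩
    rw [hc]
    symm
    apply Subgroup.eq_of_le_of_card_ge
    · rw [Subgroup.zpowers_le]
      exact x.2
    · rw [Nat.card_zpowers, hxo', hX]
  obtain ⟨c1, h1⟩ := key X hX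
  obtain ⟨c2, h2⟩ := key Y hY
  refine ⟨c2 * c1⁻¹, ?_⟩
  rw [h1, h2, Subgroup.pointwise_smul_def]
  refine (MonoidHom.map_zpowers _ _).trans ?_
  congr 1
  show MulAut.conj (c2 * c1⁻¹) (c1 * QuotientGroup.mk D' * c1⁻¹) = c2 * QuotientGroup.mk D' * c2⁻¹
  rw [MulAut.conj_apply]
  group

end Cfsg.Agent.S2739
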