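import Cfsg.Statements.S2758
import Mathlib
import Cfsg.Agent.Lib.Helper4.DihedralHom
import Cfsg.Agent.Lib.Helper4.PClosed
import Cfsg.Agent.Lib.Helper8.Involves

set_option autoImplicit false
open Cfsg

namespace Cfsg.Agent.S2758


open Cfsg.Agent.Lib Cfsg.Agent.Lib.Helper4

theorem involves_of_inverted {G : Type*} [Group G] [Finite G] {p : ℕ} [Fact p.Prime]
    (hp : p ≠ 2) (x y : G) (hx : ∃ k : ℕ, orderOf x = 2 ^ k) (hy : ∃ k : ℕ, orderOf y = p ^ k)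
    (hy1 : y ≠ 1) (hxy : x * y * x⁻¹ = y⁻¹) : Cfsg.Involves (DihedralGroup p) G := by
  have hpp : p.Prime := Fact.out
  have : NeZero p := ⟨hpp.ne_zero⟩
  obtain ⟨m, hm⟩ := hy
  have hm0 : m ≠ 0 := by
    rintro rfl
    rw [pow_zero, orderOf_eq_one_iff] at hm
    exact hy1 hm
  obtain ⟨y', hy'def⟩ : ∃ y', y' = y ^ p ^ (m - 1) := ⟨_, rfl⟩
  have hy'p : y' ^ p = 1 := by
    rw [hy'def, ← pow_mul, ← pow_succ, Nat.sub_add_cancel (Nat.pos_of_ne_zero hm0), ← hm]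
    exact pow_orderOf_eq_one y
  have hy'1 : y' ≠ 1 := by
    intro h
    rw [hy'def] at h
    have hdvd := orderOf_dvd_of_pow_eq_one h
    rw [hm] at hdvd
    have := (Nat.pow_dvd_pow_iff_le_right hpp.one_lt).1 hdvd
    omega
  have hxy' : x * y' * x⁻¹ = y'⁻¹ := by rw [hy'def, ← conj_pow, hxy, inv_pow]
  obtain ⟨K, hK⟩ : ∃ K : Subgroup G, K = Subgroup.centralizer {x * x} := ⟨_, rfl⟩
  have hxK : x ∈ K := by
    rw [hK, Subgroup.mem_centralizer_iff]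
    intro h hh
    rw [Set.mem_singleton_iff.1 hh]; group
  have hyK : y' ∈ K := by
    rw [hK, Subgroup.mem_centralizer_iff]
    intro h hh
    rw [Set.mem_singleton_iff.1 hh]
    calc x * x * y' = x * (x * y' * x⁻¹) * x := by group
      _ = x * y'⁻¹ * x := by rw [hxy']
      _ = (x * y' * x⁻¹)⁻¹ * (x * x) := by group
      _ = y' * (x * x) := by rw [hxy', inv_inv]
  have hxxK : x * x ∈ K := K.mul_mem hxK hxK
  obtain ⟨N, hN⟩ : ∃ N : Subgroup ↥K, N = Subgroup.zpowers (⟨x * x, hxxK⟩ : ↥K) := ⟨_, rfl⟩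
  have hNn : N.Normal := by
    constructor
    intro n hn g
    rw [hN] at hn ⊢
    obtain ⟨j, rfl⟩ := Subgroup.mem_zpowers_iff.1 hn
    have hcomm : g * (⟨x * x, hxxK⟩ : ↥K) = ⟨x * x, hxxK⟩ * g := by
      apply Subtype.ext
      have hg : (g : G) ∈ Subgroup.centralizer {x * x} := hK.le g.2
      rw [Subgroup.mem_centralizer_iff] at hg
      exact (hg (x * x) rfl).symm
    have hcj : g * (⟨x * x, hxxK⟩ : ↥K) ^ j * g⁻¹ = (⟨x * x, hxxK⟩ : ↥K) ^ j := by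
      rw [(Commute.zpow_right hcomm j).eq, mul_inv_cancel_right]
    rw [hcj]
    exact Subgroup.zpow_mem _ (Subgroup.mem_zpowers _) j
  obtain ⟨a, hadef⟩ : ∃ a : ↥K ⧸ N, a = QuotientGroup.mk ⟨y', hyK⟩ := ⟨_, rfl⟩
  obtain ⟨b, hbdef⟩ : ∃ b : ↥K ⧸ N, b = QuotientGroup.mk ⟨x, hxK⟩ := ⟨_, rfl⟩
  have ha : a ^ p = 1 := by
    rw [hadef, ← QuotientGroup.mk_pow]
    have h1 : (⟨y', hyK⟩ : ↥K) ^ p = 1 := Subtype.ext hy'p
    rw [h1]; rfl
  have hb : b * b = 1 := by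
    rw [hbdef, ← QuotientGroup.mk_mul, QuotientGroup.eq_one_iff, hN]
    exact Subgroup.mem_zpowers _
  have hab : b * a * b⁻¹ = a⁻¹ := by
    rw [hadef, hbdef, ← QuotientGroup.mk_inv, ← QuotientGroup.mk_mul, ← QuotientGroup.mk_mul,
      ← QuotientGroup.mk_inv]
    congr 1
    exact Subtype.ext hxy'
  have ha1 : a ≠ 1 := by
    intro h
    rw [hadef] at h
    have h1 : (⟨y', hyK⟩ : ↥K) ∈ N := (QuotientGroup.eq_one_iff _).1 h
    rw [hN] at h1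
    obtain ⟨j, hj⟩ := Subgroup.mem_zpowers_iff.1 h1
    have hj' : (x * x) ^ j = y' := by
      have := congrArg Subtype.val hj
      simpa using this
    have hmem : y' ∈ Subgroup.zpowers x := by
      rw [← hj']
      exact Subgroup.zpow_mem _
        (Subgroup.mul_mem _ (Subgroup.mem_zpowers x) (Subgroup.mem_zpowers x)) j
    have hdvd : orderOf y' ∣ orderOf x := orderOf_dvd_of_mem_zpowers hmem
    have hoy : orderOf y' = p := orderOf_eq_prime hy'p hy'1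
    obtain ⟨k, hk⟩ := hx
    rw [hoy, hk] at hdvd
    exact hp ((Nat.prime_dvd_prime_iff_eq hpp Nat.prime_two).1 (hpp.dvd_of_dvd_pow hdvd))
  have hord : orderOf a = p := orderOf_eq_prime ha ha1
  have hbn : b ∉ Subgroup.zpowers a := by
    intro hmem
    obtain ⟨j, hj⟩ := Subgroup.mem_zpowers_iff.1 hmem
    have hbp : b ^ p = 1 := by
      rw [← hj, ← zpow_natCast, ← zpow_mul, mul_comm, zpow_mul, zpow_natCast, ha, one_zpow]
    have hb2 : b ^ 2 = 1 := by rw [pow_two]; exact hb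
    have hb1 : b = 1 := by
      have hcop : Nat.Coprime p 2 := (Nat.coprime_primes hpp Nat.prime_two).2 hp
      have hd1 : orderOf b ∣ p := orderOf_dvd_of_pow_eq_one hbp
      have hd2 : orderOf b ∣ 2 := orderOf_dvd_of_pow_eq_one hb2
      have hd3 : orderOf b ∣ Nat.gcd p 2 := Nat.dvd_gcd hd1 hd2
      rw [hcop.gcd_eq_one] at hd3
      exact orderOf_eq_one_iff.1 (Nat.dvd_one.1 hd3)
    rw [hb1, one_mul, inv_one, mul_one] at hab
    have ha2 : a ^ 2 = 1 := by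
      rw [pow_two]
      nth_rewrite 1 [hab]
      exact inv_mul_cancel a
    have hd : orderOf a ∣ 2 := orderOf_dvd_of_pow_eq_one ha2
    rw [hord] at hd
    exact hp ((Nat.prime_dvd_prime_iff_eq hpp Nat.prime_two).1 hd)
  have hinj := dihedralLift_injective ha hb hab hord hbn
  have h1 : Cfsg.Involves (DihedralGroup p) (↥K ⧸ N) :=
    Helper8.involves_of_maps (dihedralLift p a b ha hb hab) hinj (MonoidHom.id _)
      Function.surjective_id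
  have h2 : Cfsg.Involves (DihedralGroup p) ↥K :=
    Helper8.involves_of_surj_hom (QuotientGroup.mk' N) (QuotientGroup.mk'_surjective N) h1
  exact Helper8.involves_of_injective K.subtype K.subtype_injective h2

theorem inverted_of_normalizing {G : Type*} [Group G] [Finite G] {p : ℕ} [Fact p.Prime]
    (x : G) (P : Subgroup G) (hx : ∃ k : ℕ, orderOf x = 2 ^ k) (hP : IsPGroup p ↥P)
    (hxN : x ∈ Subgroup.normalizer (P : Set G)) (hxC : x ∉ Subgroup.centralizer (P : Set G)) :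
    ∃ x' y : G, (∃ k : ℕ, orderOf x' = 2 ^ k) ∧ (∃ k : ℕ, orderOf y = p ^ k) ∧ y ≠ 1 ∧
      x' * y * x'⁻¹ = y⁻¹ := by
  classical
  obtain ⟨k, hk⟩ := hx
  have hex : ∃ i, x ^ 2 ^ i ∈ Subgroup.centralizer (P : Set G) :=
    ⟨k, by rw [← hk, pow_orderOf_eq_one]; exact Subgroup.one_mem _⟩
  have hi₀ : x ^ 2 ^ (Nat.find hex) ∈ Subgroup.centralizer (P : Set G) := Nat.find_spec hex
  have hi₀pos : Nat.find hex ≠ 0 := by
    intro h
    rw [h, pow_zero, pow_one] at hi₀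
    exact hxC hi₀
  have hmin : x ^ 2 ^ (Nat.find hex - 1) ∉ Subgroup.centralizer (P : Set G) :=
    Nat.find_min hex (by omega)
  obtain ⟨x', hx'⟩ : ∃ x', x' = x ^ 2 ^ (Nat.find hex - 1) := ⟨_, rfl⟩
  have hx'2 : x' * x' ∈ Subgroup.centralizer (P : Set G) := by
    rw [hx', ← pow_add, ← two_mul, ← pow_succ',
      Nat.sub_add_cancel (Nat.pos_of_ne_zero hi₀pos)]
    exact hi₀
  have hx'N : x' ∈ Subgroup.normalizer (P : Set G) := hx' ▸ Subgroup.pow_mem _ hxN _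
  rw [← hx', Subgroup.mem_centralizer_iff] at hmin
  push Not at hmin
  obtain ⟨u, hu, hne⟩ := hmin
  refine ⟨x', u⁻¹ * (x' * u * x'⁻¹), ?_, ?_, ?_, ?_⟩
  · have hd : orderOf x' ∣ 2 ^ k := by
      rw [← hk, hx']; exact orderOf_pow_dvd _
    obtain ⟨j, -, hj⟩ := (Nat.dvd_prime_pow Nat.prime_two).1 hd
    exact ⟨j, hj⟩
  · have hyP : u⁻¹ * (x' * u * x'⁻¹) ∈ P :=
      P.mul_mem (P.inv_mem hu) ((Subgroup.mem_normalizer_iff.1 hx'N u).1 hu)
    obtain ⟨j, hj⟩ := hP ⟨_, hyP⟩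
    have hj' : (u⁻¹ * (x' * u * x'⁻¹)) ^ p ^ j = 1 := by
      have := congrArg Subtype.val hj
      simpa using this
    obtain ⟨m, -, hm⟩ := (Nat.dvd_prime_pow Fact.out).1 (orderOf_dvd_of_pow_eq_one hj')
    exact ⟨m, hm⟩
  · intro h
    apply hne
    have h1 : x' * u * x'⁻¹ = u := by
      have h2 : u * (u⁻¹ * (x' * u * x'⁻¹)) = u * 1 := by rw [h]
      rw [mul_inv_cancel_left, mul_one] at h2
      exact h2
    calc u * x' = (x' * u * x'⁻¹) * x' := by rw [h1]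
      _ = x' * u := by group
  · have hc : (x' * x') * u = u * (x' * x') :=
      (Subgroup.mem_centralizer_iff.1 hx'2 u hu).symm
    calc x' * (u⁻¹ * (x' * u * x'⁻¹)) * x'⁻¹
        = (x' * u * x'⁻¹)⁻¹ * ((x' * x') * u) * (x' * x')⁻¹ := by group
      _ = (x' * u * x'⁻¹)⁻¹ * (u * (x' * x')) * (x' * x')⁻¹ := by rw [hc]
      _ = (u⁻¹ * (x' * u * x'⁻¹))⁻¹ := by group

theorem normalizing_of_involves {G : Type*} [Group G] [Finite G] {p : ℕ} [Fact p.Prime]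
    (hp : p ≠ 2) (h : Cfsg.Involves (DihedralGroup p) G) :
    ∃ (x : G) (P : Subgroup G), (∃ k : ℕ, orderOf x = 2 ^ k) ∧ IsPGroup p ↥P ∧
      x ∈ Subgroup.normalizer (P : Set G) ∧ x ∉ Subgroup.centralizer (P : Set G) := by
  have hpp : p.Prime := Fact.out
  have : NeZero p := ⟨hpp.ne_zero⟩
  obtain ⟨K, f, hf⟩ := Helper8.exists_surj_of_involves h
  obtain ⟨C, hC⟩ : ∃ C : Subgroup (DihedralGroup p),
      C = Subgroup.zpowers (DihedralGroup.r 1) := ⟨_, rfl⟩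
  have hCmem : ∀ d : DihedralGroup p, d ∈ C ↔ ∃ i, d = DihedralGroup.r i := by
    intro d
    rw [hC, Subgroup.mem_zpowers_iff]
    constructor
    · rintro ⟨k, rfl⟩
      exact ⟨_, DihedralGroup.r_one_zpow k⟩
    · rintro ⟨i, rfl⟩
      refine ⟨(i.val : ℤ), ?_⟩
      rw [zpow_natCast, DihedralGroup.r_one_pow, ZMod.natCast_zmod_val]
  have hCn : C.Normal := by
    constructor
    intro n hn g
    obtain ⟨i, rfl⟩ := (hCmem n).1 hn
    rw [hCmem]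
    rcases g with j | j
    · exact ⟨i, by simp⟩
    · exact ⟨-i, by simp⟩
  obtain ⟨K₁, hK₁⟩ : ∃ K₁ : Subgroup ↥K, K₁ = C.comap f := ⟨_, rfl⟩
  have hK₁n : K₁.Normal := hK₁ ▸ hCn.comap f
  obtain ⟨P₀⟩ : Nonempty (Sylow p ↥K₁) := inferInstance
  have hfr := Sylow.normalizer_sup_eq_top P₀
  obtain ⟨P₁, hP₁⟩ : ∃ P₁ : Subgroup ↥K, P₁ = (P₀ : Subgroup ↥K₁).map K₁.subtype := ⟨_, rfl⟩
  rw [← hP₁] at hfr
  obtain ⟨s₀, hs₀⟩ := hf (DihedralGroup.sr 0)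
  have hs₀mem : s₀ ∈ Subgroup.normalizer (P₁ : Set ↥K) ⊔ K₁ := hfr ▸ Subgroup.mem_top _
  rw [Subgroup.mem_sup_of_normal_right] at hs₀mem
  obtain ⟨n, hn, k₁, hk₁, hnk⟩ := hs₀mem
  have hk₁' : f k₁ ∈ C := by rw [hK₁] at hk₁; exact hk₁
  obtain ⟨i, hi⟩ := (hCmem _).1 hk₁'
  have hfn : f n = DihedralGroup.sr (-i) := by
    have h1 : f n = f s₀ * (f k₁)⁻¹ := by rw [← hnk, map_mul, mul_inv_cancel_right]
    rw [h1, hs₀, hi]; simp
  obtain ⟨a, m, hmodd, hnm⟩ := Nat.exists_eq_two_pow_mul_odd (orderOf_pos n).ne'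
  obtain ⟨x₀, hx₀⟩ : ∃ x₀, x₀ = n ^ m := ⟨_, rfl⟩
  have hx₀ord : orderOf x₀ = 2 ^ a := by
    rw [hx₀, orderOf_pow_of_dvd hmodd.pos.ne' ⟨2 ^ a, by rw [hnm, mul_comm]⟩, hnm,
      Nat.mul_div_cancel _ hmodd.pos]
  have hfx₀ : f x₀ = DihedralGroup.sr (-i) := by
    rw [hx₀, map_pow, hfn]
    obtain ⟨t, ht⟩ := hmodd
    rw [ht, pow_succ, pow_mul, pow_two, DihedralGroup.sr_mul_self, one_pow, one_mul]
  have hx₀N : x₀ ∈ Subgroup.normalizer (P₁ : Set ↥K) := hx₀ ▸ Subgroup.pow_mem _ hn m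
  have hy₀ : ∃ y₀ ∈ P₁, f y₀ = DihedralGroup.r 1 := by
    obtain ⟨k, hk⟩ := hf (DihedralGroup.r 1)
    obtain ⟨c, m', hm', hkm⟩ := Nat.exists_eq_pow_mul_and_not_dvd (orderOf_pos k).ne' p
      hpp.one_lt.ne'
    have hm'0 : (m' : ZMod p) ≠ 0 := by
      intro h0
      exact hm' ((ZMod.natCast_eq_zero_iff m' p).1 h0)
    obtain ⟨y₁, hy₁⟩ : ∃ y₁, y₁ = k ^ (m' * ((m' : ZMod p)⁻¹).val) := ⟨_, rfl⟩
    have hfy₁ : f y₁ = DihedralGroup.r 1 := by
      rw [hy₁, map_pow, hk, DihedralGroup.r_one_pow, Nat.cast_mul, ZMod.natCast_zmod_val,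
        mul_inv_cancel₀ hm'0]
    have hy₁K₁ : y₁ ∈ K₁ := by
      rw [hK₁, Subgroup.mem_comap, hfy₁, hCmem]; exact ⟨1, rfl⟩
    have hy₁pow : y₁ ^ p ^ c = 1 := by
      rw [hy₁, ← pow_mul, mul_comm m', mul_assoc, mul_comm m', ← hkm, mul_comm, pow_mul,
        pow_orderOf_eq_one, one_pow]
    have hzp : IsPGroup p ↥(Subgroup.zpowers (⟨y₁, hy₁K₁⟩ : ↥K₁)) := by
      have hord : orderOf (⟨y₁, hy₁K₁⟩ : ↥K₁) ∣ p ^ c := by
        apply orderOf_dvd_of_pow_eq_one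
        exact Subtype.ext hy₁pow
      obtain ⟨e, -, he⟩ := (Nat.dvd_prime_pow hpp).1 hord
      apply IsPGroup.of_card (n := e)
      rw [Nat.card_zpowers, he]
    obtain ⟨Q, hQ⟩ := hzp.exists_le_sylow
    obtain ⟨g, hg⟩ := MulAction.exists_smul_eq ↥K₁ Q P₀
    have hmem : g * ⟨y₁, hy₁K₁⟩ * g⁻¹ ∈ P₀ := by
      rw [← hg]
      apply Cfsg.Agent.Lib.Helper4.mem_sylow_smul_iff.2
      have e : g⁻¹ * (g * ⟨y₁, hy₁K₁⟩ * g⁻¹) * g = ⟨y₁, hy₁K₁⟩ := by group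
      rw [e]
      exact hQ (Subgroup.mem_zpowers _)
    refine ⟨K₁.subtype (g * ⟨y₁, hy₁K₁⟩ * g⁻¹), hP₁ ▸ ⟨_, hmem, rfl⟩, ?_⟩
    have hgC : f (g : ↥K) ∈ C := Subgroup.mem_comap.1 (hK₁.le g.2)
    obtain ⟨j, hj⟩ := (hCmem _).1 hgC
    show f ((g : ↥K) * y₁ * (g : ↥K)⁻¹) = DihedralGroup.r 1
    rw [map_mul, map_mul, map_inv, hj, hfy₁]
    simp
  obtain ⟨y₀, hy₀P, hfy₀⟩ := hy₀
  refine ⟨(x₀ : G), P₁.map K.subtype, ⟨a, by rw [Subgroup.orderOf_coe]; exact hx₀ord⟩,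
    ?_, ?_, ?_⟩
  · rw [hP₁]; exact (P₀.isPGroup'.map _).map _
  · exact Subgroup.le_normalizer_map K.subtype ⟨x₀, hx₀N, rfl⟩
  · intro hcen
    rw [Subgroup.mem_centralizer_iff] at hcen
    have h1 := hcen (y₀ : G) ⟨y₀, hy₀P, rfl⟩
    have h2 : y₀ * x₀ = x₀ * y₀ := Subtype.ext h1
    have h3 := congrArg f h2
    rw [map_mul, map_mul, hfx₀, hfy₀, DihedralGroup.r_mul_sr, DihedralGroup.sr_mul_r] at h3
    have h4 : -i - 1 = -i + 1 := DihedralGroup.sr.inj h3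
    have h5 : ((2 : ℕ) : ZMod p) = 0 := by
      push_cast
      linear_combination -h4
    have h6 := (ZMod.natCast_eq_zero_iff 2 p).1 h5
    exact hp ((Nat.prime_dvd_prime_iff_eq hpp Nat.prime_two).1 h6)


/-- For an odd prime p and a finite group G the following are equivalent: the dihedral group of order 2p is involved in G; some element of 2-power order normalizes but does not centralize some p-subgroup of G; some element of 2-power order inverts some nonidentity element of p-power order. -/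
theorem result {G : Type*} [Group G] [Finite G] {p : ℕ} [Fact p.Prime] (hp : p ≠ 2) : (Cfsg.Involves (DihedralGroup p) G ↔ ∃ (x : G) (P : Subgroup G), (∃ k : ℕ, orderOf x = 2 ^ k) ∧ IsPGroup p ↥P ∧ x ∈ Subgroup.normalizer (P : Set G) ∧ x ∉ Subgroup.centralizer (P : Set G)) ∧ (Cfsg.Involves (DihedralGroup p) G ↔ ∃ x y : G, (∃ k : ℕ, orderOf x = 2 ^ k) ∧ (∃ k : ℕ, orderOf y = p ^ k) ∧ y ≠ 1 ∧ x * y * x⁻¹ = y⁻¹) := by
  have hAB : (∃ (x : G) (P : Subgroup G), (∃ k : ℕ, orderOf x = 2 ^ k) ∧ IsPGroup p ↥P ∧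
      x ∈ Subgroup.normalizer (P : Set G) ∧ x ∉ Subgroup.centralizer (P : Set G)) →
      ∃ x y : G, (∃ k : ℕ, orderOf x = 2 ^ k) ∧ (∃ k : ℕ, orderOf y = p ^ k) ∧ y ≠ 1 ∧
        x * y * x⁻¹ = y⁻¹ := by
    rintro ⟨x, P, hx, hP, hN, hC⟩
    exact inverted_of_normalizing x P hx hP hN hC
  have hBI : (∃ x y : G, (∃ k : ℕ, orderOf x = 2 ^ k) ∧ (∃ k : ℕ, orderOf y = p ^ k) ∧ y ≠ 1 ∧
      x * y * x⁻¹ = y⁻¹) → Cfsg.Involves (DihedralGroup p) G := by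
    rintro ⟨x, y, hx, hy, hy1, hxy⟩
    exact involves_of_inverted hp x y hx hy hy1 hxy
  have hIA := normalizing_of_involves (G := G) (p := p) hp
  exact ⟨⟨hIA, fun h => hBI (hAB h)⟩, ⟨fun h => hAB (hIA h), hBI⟩⟩

end Cfsg.Agent.S2758
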