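import Cfsg.Statements.S2761
import Mathlib

set_option autoImplicit false
open Cfsg

namespace Cfsg.Agent.S2761

/-- The defining predicate of `Qd(2)`. -/
def pred (M : Matrix.SpecialLinearGroup (Fin 3) (ZMod 2)) : Prop :=
  (M : Matrix (Fin 3) (Fin 3) (ZMod 2)) 2 0 = 0 ∧
    (M : Matrix (Fin 3) (Fin 3) (ZMod 2)) 2 1 = 0 ∧ (M : Matrix (Fin 3) (Fin 3) (ZMod 2)) 2 2 = 1

instance : DecidablePred pred := fun M => by unfold pred; infer_instance

set_option maxRecDepth 100000 in
theorem pred_inv : ∀ M : Matrix.SpecialLinearGroup (Fin 3) (ZMod 2), pred M → pred M⁻¹ := by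
  decide +kernel

set_option maxRecDepth 100000 in
theorem card_pred : Fintype.card {M : Matrix.SpecialLinearGroup (Fin 3) (ZMod 2) // pred M} = 24 := by
  decide +kernel

theorem pred_mul (M N : Matrix.SpecialLinearGroup (Fin 3) (ZMod 2)) (hM : pred M) (hN : pred N) :
    pred (M * N) := by
  obtain ⟨h0, h1, h2⟩ := hM
  obtain ⟨k0, k1, k2⟩ := hN
  refine ⟨?_, ?_, ?_⟩
  · simp [Matrix.mul_apply, Fin.sum_univ_three, h0, h1, h2, k0]
  · simp [Matrix.mul_apply, Fin.sum_univ_three, h0, h1, h2, k1]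
  · simp [Matrix.mul_apply, Fin.sum_univ_three, h0, h1, h2, k2]

theorem mem_qd (M : Matrix.SpecialLinearGroup (Fin 3) (ZMod 2)) : M ∈ Cfsg.qd 2 ↔ pred M := by
  constructor
  · intro h
    unfold Cfsg.qd at h
    induction h using Subgroup.closure_induction with
    | mem x hx => exact hx
    | one => exact ⟨by simp, by simp, by simp⟩
    | mul x y _ _ hx hy => exact pred_mul x y hx hy
    | inv x _ hx => exact pred_inv x hx
  · intro h
    exact Subgroup.subset_closure h

theorem card_qd : Nat.card ↥(Cfsg.qd 2) = 24 := by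
  have e : ↥(Cfsg.qd 2) ≃ {M : Matrix.SpecialLinearGroup (Fin 3) (ZMod 2) // pred M} :=
    Equiv.subtypeEquivRight mem_qd
  rw [Nat.card_congr e, Nat.card_eq_fintype_card, card_pred]

/-- The four affine points. -/
abbrev X : Type := {w : Fin 3 → ZMod 2 // w 2 = 1}

theorem card_X : Nat.card X = 4 := by
  rw [Nat.card_eq_fintype_card]
  decide

/-- The action of `Qd(2)` on the four affine points. -/
noncomputable def act : MulAction ↥(Cfsg.qd 2) X where
  smul M w := ⟨((M : Matrix.SpecialLinearGroup (Fin 3) (ZMod 2)) : Matrix (Fin 3) (Fin 3) (ZMod 2)).mulVec w.1, by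
    obtain ⟨h0, h1, h2⟩ := (mem_qd _).1 M.2
    simp [Matrix.mulVec, dotProduct, Fin.sum_univ_three, h0, h1, h2, w.2]⟩
  one_smul w := Subtype.ext (by
    show (((1 : ↥(Cfsg.qd 2)) : Matrix.SpecialLinearGroup (Fin 3) (ZMod 2)) : Matrix (Fin 3) (Fin 3) (ZMod 2)).mulVec w.1 = w.1
    simp)
  mul_smul M N w := Subtype.ext (by
    show (((M * N : ↥(Cfsg.qd 2)) : Matrix.SpecialLinearGroup (Fin 3) (ZMod 2)) : Matrix (Fin 3) (Fin 3) (ZMod 2)).mulVec w.1 = ((M : Matrix.SpecialLinearGroup (Fin 3) (ZMod 2)) : Matrix (Fin 3) (Fin 3) (ZMod 2)).mulVec (((N : Matrix.SpecialLinearGroup (Fin 3) (ZMod 2)) : Matrix (Fin 3) (Fin 3) (ZMod 2)).mulVec w.1)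
    simp [Matrix.mulVec_mulVec])

theorem act_injective : Function.Injective (@MulAction.toPermHom ↥(Cfsg.qd 2) X _ act) := by
  rw [injective_iff_map_eq_one]
  intro M hM
  have hfix : ∀ w : X, ((M : Matrix.SpecialLinearGroup (Fin 3) (ZMod 2)) : Matrix (Fin 3) (Fin 3) (ZMod 2)).mulVec w.1 = w.1 := by
    intro w
    have := congrArg (fun τ : Equiv.Perm X => (τ w).1) hM
    exact this
  apply Subtype.ext
  apply Subtype.ext
  show ((M : Matrix.SpecialLinearGroup (Fin 3) (ZMod 2)) : Matrix (Fin 3) (Fin 3) (ZMod 2)) = 1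
  have h1 := hfix ⟨![0, 0, 1], rfl⟩
  have h2 := hfix ⟨![1, 0, 1], rfl⟩
  have h3 := hfix ⟨![0, 1, 1], rfl⟩
  ext i j
  have h1i := congrFun h1 i
  have h2i := congrFun h2 i
  have h3i := congrFun h3 i
  simp only [Matrix.mulVec, dotProduct, Fin.sum_univ_three] at h1i h2i h3i
  fin_cases i <;> fin_cases j <;> simp [Matrix.one_apply] at h1i h2i h3i ⊢ <;> simp_all


/-- The group Qd(2), the natural semidirect product of an elementary abelian group of order 4 by SL₂(2) (realised as the affine subgroup of SL₃(2)), is isomorphic to the symmetric group of degree 4. -/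
theorem result : Nonempty (↥(Cfsg.qd 2) ≃* Equiv.Perm (Fin 4)) := by
  have hinj := act_injective
  have hbij : Function.Bijective (@MulAction.toPermHom ↥(Cfsg.qd 2) X _ act) := by
    apply Function.Injective.bijective_of_nat_card_le hinj
    rw [Nat.card_perm, card_X, card_qd]
    decide
  have e1 : ↥(Cfsg.qd 2) ≃* Equiv.Perm X := MulEquiv.ofBijective _ hbij
  have hX : Fintype.card X = Fintype.card (Fin 4) := by
    rw [← Nat.card_eq_fintype_card, card_X]; rfl
  have e2 : X ≃ Fin 4 := Fintype.equivOfCardEq hX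
  exact ⟨e1.trans e2.permCongrHom⟩

end Cfsg.Agent.S2761
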