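import Cfsg.Statements.S2781
import Mathlib
import Cfsg.Agent.Lib.Helper4.ConjHom
import Cfsg.Agent.Lib.Helper4.SylowCenter
import Cfsg.Agent.Lib.Helper4.PRedIn

open Cfsg.Agent.Lib.Helper4

set_option autoImplicit false
open Cfsg

namespace Cfsg.Agent.S2781

/-- Let H act faithfully by conjugation on the elementary abelian p-subgroup V of a finite group, let O^p(H) be the subgroup of H generated by its elements of order prime to p, and T a Sylow p-subgroup of O^p(H). If V is generated by the H-conjugates of C_V(T) (V is the smallest H-invariant subgroup containing C_V(T)), then V = [V, O^p(H)]·C_V(O^p(H)). -/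
theorem result {G : Type*} [Group G] [Finite G] {p : ℕ} [Fact p.Prime] (V H : Subgroup G) (hV : Cfsg.IsElementaryAbelian p V) (hHV : H ≤ Subgroup.normalizer (V : Set G)) (hf : H ⊓ Subgroup.centralizer (V : Set G) = ⊥) (R : Subgroup G) (hR : R = (Cfsg.pResidual p ↥H).map H.subtype) (S : Sylow p ↥R) (T : Subgroup G) (hT : T = ((S : Subgroup ↥R).map R.subtype)) (hgen : ∀ W : Subgroup G, H ≤ Subgroup.normalizer (W : Set G) → (V ⊓ Subgroup.centralizer ((T : Subgroup G) : Set G)) ≤ W → V ≤ W) : ⁅V, R⁆ ⊔ (V ⊓ Subgroup.centralizer ((R : Subgroup G) : Set G)) = V := by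
  classical
  obtain ⟨hVc, hVp⟩ := hV
  have hRH : R ≤ H := hR ▸ Subgroup.map_subtype_le _
  have hRV : R ≤ Subgroup.normalizer (V : Set G) := hRH.trans hHV
  have hHR : H ≤ Subgroup.normalizer (R : Set G) := hR ▸ le_normalizer_map_pResidual H
  obtain ⟨W, hWdef⟩ : ∃ W, W = ⁅V, R⁆ ⊔ (V ⊓ Subgroup.centralizer (R : Set G)) := ⟨_, rfl⟩
  have hHW : H ≤ Subgroup.normalizer (W : Set G) := by
    rw [hWdef]
    exact le_normalizer_sup (le_normalizer_commutator hHV hHR)
      (le_normalizer_inf hHV (le_normalizer_centralizer hHR))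
  have hVRV : ⁅V, R⁆ ≤ V := by
    rw [Subgroup.commutator_le]
    intro v hv k hk
    show v * k * v⁻¹ * k⁻¹ ∈ V
    have h1 : k * v⁻¹ * k⁻¹ ∈ V := conj_mem_of_mem_normalizer (hRV hk) (V.inv_mem hv)
    have e : v * k * v⁻¹ * k⁻¹ = v * (k * v⁻¹ * k⁻¹) := by group
    rw [e]; exact V.mul_mem hv h1
  have hWV : W ≤ V := hWdef ▸ sup_le hVRV inf_le_left
  have hCW : V ⊓ Subgroup.centralizer (T : Set G) ≤ W := by
    intro x hx
    obtain ⟨hxV, hxT⟩ := Subgroup.mem_inf.1 hx
    let inst : CommGroup ↥V :=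
      { (inferInstance : Group ↥V) with mul_comm := fun a b => hVc.is_comm.comm a b }
    have : Fintype (↥R ⧸ (S : Subgroup ↥R)) := Fintype.ofFinite _
    have hfix : ∀ s ∈ (S : Subgroup ↥R), conjHom V R hRV s ⟨x, hxV⟩ = ⟨x, hxV⟩ := by
      intro s hs
      apply Subtype.ext
      show (s : G) * x * (s : G)⁻¹ = x
      have hsT : (s : G) ∈ T := hT ▸ ⟨s, hs, rfl⟩
      have := Subgroup.mem_centralizer_iff.1 hxT _ hsT
      rw [this]; group
    obtain ⟨c, hc1, hc2, hc3⟩ := @trace_hom ↥R ↥V _ inst (conjHom V R hRV) (S : Subgroup ↥R) _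
      ⟨x, hxV⟩ hfix
    have hcC : (c : G) ∈ V ⊓ Subgroup.centralizer (R : Set G) := by
      refine Subgroup.mem_inf.2 ⟨c.2, ?_⟩
      rw [Subgroup.mem_centralizer_iff]
      intro r hr
      have e : r * (c : G) * r⁻¹ = c := congrArg Subtype.val (hc1 ⟨r, hr⟩)
      calc r * (c : G) = r * c * r⁻¹ * r := by group
        _ = c * r := by rw [e]
    have hB := hc2 ((⁅V, R⁆ : Subgroup G).subgroupOf V) (by
      intro r
      rw [Subgroup.mem_subgroupOf]
      have e : (((conjHom V R hRV r) (⟨x, hxV⟩ : ↥V) / (⟨x, hxV⟩ : ↥V) : ↥V) : G) =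
          (r : G) * x * (r : G)⁻¹ * x⁻¹ := by
        simp [div_eq_mul_inv, conjHom_apply]
      rw [e, Subgroup.commutator_comm]
      exact Subgroup.commutator_mem_commutator r.2 hxV)
    rw [Subgroup.mem_subgroupOf] at hB
    obtain ⟨n, hn⟩ : ∃ n, n = Fintype.card (↥R ⧸ (S : Subgroup ↥R)) := ⟨_, rfl⟩
    rw [← hn] at hB
    have hxn : x ^ n ∈ W := by
      have e : x ^ n = (((c / (⟨x, hxV⟩ : ↥V) ^ n : ↥V)) : G)⁻¹ * (c : G) := by
        simp [div_eq_mul_inv]
      rw [e, hWdef]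
      exact Subgroup.mul_mem _ (Subgroup.mem_sup_left (Subgroup.inv_mem _ hB))
        (Subgroup.mem_sup_right hcC)
    have hnp : n.Coprime p := by
      have h1 : ¬ p ∣ (S : Subgroup ↥R).index := S.not_dvd_index
      have h2 : n = (S : Subgroup ↥R).index := by
        rw [hn, Subgroup.index, Nat.card_eq_fintype_card]
      rw [h2]
      exact ((Nat.Prime.coprime_iff_not_dvd (Fact.out)).2 h1).symm
    have hord : n.Coprime (orderOf x) :=
      Nat.Coprime.coprime_dvd_right (orderOf_dvd_of_pow_eq_one (hVp x hxV)) hnp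
    obtain ⟨m, hm⟩ := exists_pow_eq_self_of_coprime hord
    rw [← hm]; exact Subgroup.pow_mem _ hxn m
  rw [← hWdef]
  exact le_antisymm hWV (hgen W hHW hCW)

end Cfsg.Agent.S2781
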