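import Cfsg.Statements.S2791
import Mathlib
import Cfsg.Agent.Lib.Helper3.StrongSeries

set_option autoImplicit false
open Cfsg

namespace Cfsg.Agent.S2791

/-- Let S be a Sylow p-subgroup of the finite group G and A an abelian subgroup of S that is strongly closed in S with respect to G. Then A controls strong fusion in G: for some Sylow p-subgroup T containing A, whenever a subset of T is conjugated into T by an element of G, the same elementwise conjugation is induced by an element of N_G(A). -/
theorem result {G : Type*} [Group G] [Finite G] {p : ℕ} [Fact p.Prime] (S : Sylow p G) (A : Subgroup G) (hA : IsMulCommutative ↥A) (hsc : Cfsg.IsStronglyClosed A (S : Subgroup G)) : Cfsg.ControlsStrongFusion p A := by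
  classical
  obtain ⟨hAS, hcl⟩ := hsc
  have hnormP : (S : Subgroup G) ≤ Subgroup.normalizer (A : Set G) := by
    intro s hs
    apply Cfsg.Agent.Lib.Helper3.mem_normalizer_of_map_conj_eq'
    apply Subgroup.eq_of_le_of_card_ge _ (by rw [Cfsg.Agent.Lib.Helper3.card_map_conj])
    rintro _ ⟨a, ha, rfl⟩
    exact hcl a ha s (mul_mem (mul_mem hs (hAS ha)) (inv_mem hs))
  have key := Cfsg.Agent.Lib.Helper3.normalizer_controls_of_series S A
    (fun i => if i = 0 then A else ⊥) 1 (by simp) hAS (by simp) hnormP
    (by
      intro i w hw a ha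
      by_cases hi : i = 0
      · subst hi
        simp only [if_true] at ha
        have hcomm : w * a = a * w := by
          have := hA.is_comm.comm (⟨w, hw⟩ : ↥A) ⟨a, ha⟩
          exact congrArg Subtype.val this
        have h1 : w * a * w⁻¹ * a⁻¹ = 1 := by rw [hcomm]; group
        rw [h1]; exact one_mem _
      · simp only [hi, if_false, Subgroup.mem_bot] at ha
        subst ha
        have h1 : w * 1 * w⁻¹ * (1 : G)⁻¹ = 1 := by group
        rw [h1]; exact one_mem _)
    (by
      intro i w hw g hg
      by_cases hi : i = 0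
      · subst hi
        simp only [if_true] at hw ⊢
        exact hcl w hw g hg
      · simp only [hi, if_false, Subgroup.mem_bot] at hw ⊢
        subst hw
        group)
  refine ⟨S, hAS, fun A' hA' => ⟨hA', fun g hg => ?_⟩⟩
  have hB : Subgroup.closure A' ≤ (S : Subgroup G) := (Subgroup.closure_le _).mpr hA'
  have hBg : (Subgroup.closure A').map (MulAut.conj g).toMonoidHom ≤ (S : Subgroup G) := by
    rw [MonoidHom.map_closure, Subgroup.closure_le]
    rintro _ ⟨a, ha, rfl⟩
    exact hg ⟨a, ha, rfl⟩
  obtain ⟨h, hh, c, hc, rfl⟩ := key _ hB g hBg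
  refine ⟨h, hh, fun a ha => ?_⟩
  have hca : a * c = c * a := (Subgroup.mem_centralizer_iff.mp hc) a (Subgroup.subset_closure ha)
  calc h * c * a * (h * c)⁻¹ = h * (c * a) * c⁻¹ * h⁻¹ := by group
    _ = h * (a * c) * c⁻¹ * h⁻¹ := by rw [hca]
    _ = h * a * h⁻¹ := by group

end Cfsg.Agent.S2791
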