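import Cfsg.Statements.S3374
import Mathlib
import Cfsg.Agent.Lib.Helper7.FrobSemidirect
import Cfsg.Agent.Lib.Lead.SLGen

set_option autoImplicit false
open Cfsg

namespace Cfsg.Agent.S3374

open Cfsg.Agent.Lib.Helper7

/-- Lookup table of a faithful representation of SL(2,5) in SL(2,11). -/
def tbl : ℕ → ℕ → ℕ → ℕ → Matrix (Fin 2) (Fin 2) (ZMod 11)
  | 0, 1, 4, 0 => !![8, 7; 8, 3]
  | 0, 1, 4, 1 => !![9, 3; 5, 3]
  | 0, 1, 4, 2 => !![8, 2; 7, 6]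
  | 0, 1, 4, 3 => !![4, 3; 5, 4]
  | 0, 1, 4, 4 => !![4, 7; 8, 6]
  | 0, 2, 2, 0 => !![0, 7; 3, 0]
  | 0, 2, 2, 1 => !![10, 4; 2, 2]
  | 0, 2, 2, 2 => !![4, 10; 0, 3]
  | 0, 2, 2, 3 => !![7, 0; 9, 8]
  | 0, 2, 2, 4 => !![1, 1; 8, 9]
  | 0, 3, 3, 0 => !![0, 4; 8, 0]
  | 0, 3, 3, 1 => !![10, 10; 3, 2]
  | 0, 3, 3, 2 => !![4, 0; 2, 3]
  | 0, 3, 3, 3 => !![7, 1; 0, 8]
  | 0, 3, 3, 4 => !![1, 7; 9, 9]
  | 0, 4, 1, 0 => !![3, 4; 3, 8]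
  | 0, 4, 1, 1 => !![7, 4; 3, 5]
  | 0, 4, 1, 2 => !![7, 8; 6, 7]
  | 0, 4, 1, 3 => !![3, 9; 4, 5]
  | 0, 4, 1, 4 => !![2, 8; 6, 8]
  | 1, 0, 0, 1 => !![1, 0; 0, 1]
  | 1, 0, 1, 1 => !![3, 5; 2, 0]
  | 1, 0, 2, 1 => !![8, 4; 6, 10]
  | 1, 0, 3, 1 => !![10, 7; 5, 8]
  | 1, 0, 4, 1 => !![0, 6; 9, 3]
  | 1, 1, 0, 1 => !![0, 1; 10, 3]
  | 1, 1, 1, 2 => !![6, 7; 0, 2]
  | 1, 1, 2, 3 => !![7, 9; 1, 3]
  | 1, 1, 3, 4 => !![4, 9; 3, 7]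
  | 1, 1, 4, 0 => !![5, 7; 8, 7]
  | 1, 2, 0, 1 => !![10, 3; 8, 8]
  | 1, 2, 1, 3 => !![4, 5; 9, 6]
  | 1, 2, 2, 0 => !![2, 1; 8, 10]
  | 1, 2, 3, 2 => !![2, 9; 4, 2]
  | 1, 2, 4, 4 => !![4, 4; 4, 7]
  | 1, 3, 0, 1 => !![8, 8; 3, 10]
  | 1, 3, 1, 4 => !![6, 8; 5, 5]
  | 1, 3, 2, 2 => !![10, 5; 1, 5]
  | 1, 3, 3, 0 => !![2, 7; 9, 10]
  | 1, 3, 4, 3 => !![7, 5; 4, 3]
  | 1, 4, 0, 1 => !![3, 10; 1, 0]
  | 1, 4, 1, 0 => !![3, 8; 6, 9]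
  | 1, 4, 2, 4 => !![6, 3; 6, 5]
  | 1, 4, 3, 3 => !![4, 1; 1, 6]
  | 1, 4, 4, 2 => !![6, 0; 8, 2]
  | 2, 0, 0, 3 => !![10, 1; 9, 1]
  | 2, 0, 1, 3 => !![9, 6; 1, 2]
  | 2, 0, 2, 3 => !![9, 8; 9, 2]
  | 2, 0, 3, 3 => !![10, 6; 7, 1]
  | 2, 0, 4, 3 => !![6, 1; 7, 5]
  | 2, 1, 0, 3 => !![6, 2; 9, 5]
  | 2, 1, 1, 1 => !![2, 0; 3, 6]
  | 2, 1, 2, 4 => !![8, 9; 1, 4]
  | 2, 1, 3, 2 => !![10, 8; 4, 0]
  | 2, 1, 4, 0 => !![7, 3; 5, 7]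
  | 2, 2, 0, 3 => !![10, 2; 10, 1]
  | 2, 2, 1, 4 => !![5, 5; 9, 7]
  | 2, 2, 2, 0 => !![3, 0; 9, 4]
  | 2, 2, 3, 1 => !![5, 6; 10, 10]
  | 2, 2, 4, 2 => !![10, 9; 6, 0]
  | 2, 3, 0, 3 => !![9, 1; 6, 2]
  | 2, 3, 1, 2 => !![0, 2; 5, 10]
  | 2, 3, 2, 1 => !![2, 2; 7, 2]
  | 2, 3, 3, 0 => !![3, 1; 0, 4]
  | 2, 3, 4, 4 => !![8, 5; 4, 4]
  | 2, 4, 0, 3 => !![9, 5; 10, 2]
  | 2, 4, 1, 0 => !![6, 9; 4, 8]
  | 2, 4, 2, 2 => !![0, 3; 7, 10]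
  | 2, 4, 3, 4 => !![5, 1; 1, 7]
  | 2, 4, 4, 1 => !![2, 4; 0, 6]
  | 3, 0, 0, 2 => !![1, 10; 2, 10]
  | 3, 0, 1, 2 => !![5, 10; 4, 6]
  | 3, 0, 2, 2 => !![1, 5; 4, 10]
  | 3, 0, 3, 2 => !![2, 3; 2, 9]
  | 3, 0, 4, 2 => !![2, 5; 10, 9]
  | 3, 1, 0, 2 => !![2, 6; 1, 9]
  | 3, 1, 1, 4 => !![9, 7; 0, 5]
  | 3, 1, 2, 1 => !![6, 10; 10, 4]
  | 3, 1, 3, 3 => !![0, 8; 4, 1]
  | 3, 1, 4, 0 => !![5, 2; 7, 3]
  | 3, 2, 0, 2 => !![2, 10; 5, 9]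
  | 3, 2, 1, 1 => !![3, 6; 7, 7]
  | 3, 2, 2, 0 => !![8, 10; 0, 7]
  | 3, 2, 3, 4 => !![9, 9; 4, 9]
  | 3, 2, 4, 3 => !![0, 9; 6, 1]
  | 3, 3, 0, 2 => !![1, 9; 1, 10]
  | 3, 3, 1, 3 => !![1, 2; 5, 0]
  | 3, 3, 2, 4 => !![6, 5; 1, 1]
  | 3, 3, 3, 0 => !![8, 0; 2, 7]
  | 3, 3, 4, 1 => !![6, 6; 2, 4]
  | 3, 4, 0, 2 => !![5, 9; 2, 6]
  | 3, 4, 1, 0 => !![4, 8; 6, 4]
  | 3, 4, 2, 3 => !![1, 3; 7, 0]
  | 3, 4, 3, 1 => !![3, 2; 10, 7]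
  | 3, 4, 4, 4 => !![9, 0; 8, 5]
  | 4, 0, 0, 4 => !![10, 0; 0, 10]
  | 4, 0, 1, 4 => !![0, 5; 2, 8]
  | 4, 0, 2, 4 => !![1, 4; 6, 3]
  | 4, 0, 3, 4 => !![3, 7; 5, 1]
  | 4, 0, 4, 4 => !![8, 6; 9, 0]
  | 4, 1, 0, 4 => !![8, 1; 10, 0]
  | 4, 1, 1, 3 => !![5, 0; 3, 9]
  | 4, 1, 2, 2 => !![7, 10; 10, 5]
  | 4, 1, 3, 1 => !![5, 8; 5, 6]
  | 4, 1, 4, 0 => !![8, 3; 5, 2]
  | 4, 2, 0, 4 => !![3, 3; 8, 1]
  | 4, 2, 1, 2 => !![4, 6; 7, 8]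
  | 4, 2, 2, 0 => !![9, 4; 2, 1]
  | 4, 2, 3, 3 => !![1, 6; 10, 6]
  | 4, 2, 4, 1 => !![5, 3; 6, 6]
  | 4, 3, 0, 4 => !![1, 8; 3, 3]
  | 4, 3, 1, 1 => !![7, 7; 7, 4]
  | 4, 3, 2, 3 => !![9, 2; 7, 9]
  | 4, 3, 3, 0 => !![9, 10; 3, 1]
  | 4, 3, 4, 2 => !![7, 6; 2, 5]
  | 4, 4, 0, 4 => !![0, 10; 1, 8]
  | 4, 4, 1, 0 => !![6, 4; 3, 4]
  | 4, 4, 2, 1 => !![7, 2; 8, 4]
  | 4, 4, 3, 2 => !![4, 2; 10, 8]
  | 4, 4, 4, 3 => !![5, 4; 0, 9]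
  | _, _, _, _ => !![1, 0; 0, 1]

def tb (a b c d : ZMod 5) : Matrix (Fin 2) (Fin 2) (ZMod 11) := tbl a.val b.val c.val d.val

set_option maxRecDepth 1000000 in
theorem tb_mul_u : ∀ a b c d x : ZMod 5, a * d - b * c = 1 →
    tb a (a * x + b) c (c * x + d) = tb a b c d * tb 1 x 0 1 := by
  decide +kernel

set_option maxRecDepth 1000000 in
theorem tb_mul_l : ∀ a b c d x : ZMod 5, a * d - b * c = 1 →
    tb (a + b * x) b (c + d * x) d = tb a b c d * tb 1 0 x 1 := by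
  decide +kernel

set_option maxRecDepth 1000000 in
theorem tb_free : ∀ a b c d : ZMod 5, a * d - b * c = 1 → ¬ (a = 1 ∧ b = 0 ∧ c = 0 ∧ d = 1) →
    (tb a b c d 0 0 - 1) * (tb a b c d 1 1 - 1) - tb a b c d 0 1 * tb a b c d 1 0 ≠ 0 := by
  decide +kernel

theorem tb_one : tb 1 0 0 1 = 1 := by
  decide +kernel

/-- The representation. -/
def M (A : Matrix.SpecialLinearGroup (Fin 2) (ZMod 5)) : Matrix (Fin 2) (Fin 2) (ZMod 11) :=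
  tb (A 0 0) (A 0 1) (A 1 0) (A 1 1)

theorem det_eq (A : Matrix.SpecialLinearGroup (Fin 2) (ZMod 5)) :
    A 0 0 * A 1 1 - A 0 1 * A 1 0 = 1 := by
  have h := A.det_coe
  rw [Matrix.det_fin_two] at h
  exact h

instance fact11 : Fact (Nat.Prime 11) := ⟨by norm_num⟩
instance fact5 : Fact (Nat.Prime 5) := ⟨by norm_num⟩

theorem M_mul_transvec (i j : Fin 2) (hij : i ≠ j) (x : ZMod 5)
    (A : Matrix.SpecialLinearGroup (Fin 2) (ZMod 5)) :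
    M (A * Matrix.SpecialLinearGroup.transvection hij x) =
      M A * M (Matrix.SpecialLinearGroup.transvection hij x) := by
  fin_cases i <;> fin_cases j
  · exact absurd rfl hij
  · have h := tb_mul_u (A 0 0) (A 0 1) (A 1 0) (A 1 1) x (det_eq A)
    unfold M
    simp only [Matrix.SpecialLinearGroup.coe_mul, Matrix.SpecialLinearGroup.transvection_coe,
      Matrix.mul_apply, Fin.sum_univ_two, Matrix.transvection, Matrix.add_apply,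
      Matrix.one_apply, Matrix.single_apply]
    simpa using h
  · have h := tb_mul_l (A 0 0) (A 0 1) (A 1 0) (A 1 1) x (det_eq A)
    unfold M
    simp only [Matrix.SpecialLinearGroup.coe_mul, Matrix.SpecialLinearGroup.transvection_coe,
      Matrix.mul_apply, Fin.sum_univ_two, Matrix.transvection, Matrix.add_apply,
      Matrix.one_apply, Matrix.single_apply]
    simpa using h
  · exact absurd rfl hij

theorem M_mul (A B : Matrix.SpecialLinearGroup (Fin 2) (ZMod 5)) : M (A * B) = M A * M B := by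
  revert A
  refine Cfsg.Agent.Lib.Lead.transvection_induction_gen
    (fun B => ∀ A, M (A * B) = M A * M B) ?_ ?_ B
  · intro i j hij a A
    exact M_mul_transvec i j hij a A
  · intro B C hB hC A
    rw [← mul_assoc, hC, hB, hC B, mul_assoc]

theorem M_one : M 1 = 1 := by
  unfold M
  rw [← tb_one]
  simp

theorem M_free (A : Matrix.SpecialLinearGroup (Fin 2) (ZMod 5)) (hA : A ≠ 1)
    (v : Fin 2 → ZMod 11) (hv : (M A).mulVec v = v) : v = 0 := by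
  have key := tb_free (A 0 0) (A 0 1) (A 1 0) (A 1 1) (det_eq A) (by
    rintro ⟨h1, h2, h3, h4⟩
    apply hA
    ext i j
    fin_cases i <;> fin_cases j <;> simp [h1, h2, h3, h4])
  have hdet : (M A - 1).det ≠ 0 := by
    rw [Matrix.det_fin_two]
    simpa [M] using key
  apply Matrix.eq_zero_of_mulVec_eq_zero hdet
  rw [Matrix.sub_mulVec, Matrix.one_mulVec, hv, sub_self]

/-- SL(2,5) occurs as a Frobenius complement: there is a finite group L with a subgroup H isomorphic to SL(2,5) which is a non-trivial proper subgroup meeting each conjugate gHg⁻¹ with g outside H trivially. -/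
theorem result :
    ∃ (L : Type) (_ : Group L) (_ : Finite L) (H : Subgroup L),
      Cfsg.IsFrobeniusComplement H ∧ Nonempty (H ≃* Matrix.SpecialLinearGroup (Fin 2) (ZMod 5)) := by
  letI : DistribMulAction (Matrix.SpecialLinearGroup (Fin 2) (ZMod 5)) (Fin 2 → ZMod 11) :=
    { smul := fun A v => (M A).mulVec v
      one_smul := by
        intro v
        show (M 1).mulVec v = v
        rw [M_one, Matrix.one_mulVec]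
      mul_smul := by
        intro A B v
        show (M (A * B)).mulVec v = (M A).mulVec ((M B).mulVec v)
        rw [M_mul, Matrix.mulVec_mulVec]
      smul_zero := by
        intro A
        show (M A).mulVec 0 = 0
        rw [Matrix.mulVec_zero]
      smul_add := by
        intro A v w
        show (M A).mulVec (v + w) = (M A).mulVec v + (M A).mulVec w
        rw [Matrix.mulVec_add] }
  haveI : Finite (Matrix.SpecialLinearGroup (Fin 2) (ZMod 5)) :=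
    Finite.of_injective (fun A => (A : Matrix (Fin 2) (Fin 2) (ZMod 5))) Subtype.coe_injective
  haveI : Nontrivial (Matrix.SpecialLinearGroup (Fin 2) (ZMod 5)) := by
    refine ⟨⟨1, ⟨!![1, 1; 0, 1], by decide⟩, ?_⟩⟩
    intro h
    have h1 := congrArg (fun A : Matrix.SpecialLinearGroup (Fin 2) (ZMod 5) => A 0 1) h
    simp at h1
  haveI : Nontrivial (Fin 2 → ZMod 11) := Function.nontrivial
  apply exists_frobenius_of_free_action (Matrix.SpecialLinearGroup (Fin 2) (ZMod 5)) (Fin 2 → ZMod 11)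
  intro A hA v hv
  exact M_free A hA v hv

end Cfsg.Agent.S3374
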