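import Cfsg.Statements.S3704
import Mathlib
import Cfsg.Agent.Lib.Lead.CharTwoTrans
import Cfsg.Agent.Lib.Lead.CharCenter
import Cfsg.Agent.Lib.Lead.CharInd3
import Cfsg.Agent.Lib.Lead.CharFrob
-- import your own Cfsg.Agent.* helpers here

set_option autoImplicit false
open Cfsg

namespace Cfsg.Agent.S3704


open Cfsg.Agent.Lib.Lead
open scoped ComplexConjugate

/-- Let G be a finite group acting faithfully and 2-transitively on a finite set Ω of size n, and let H be a subgroup of index n in G which is not transitive on Ω and fixes no point of Ω. Then H has exactly two orbits on Ω. -/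
theorem result {G Ω : Type*} [Group G] [Finite G] [MulAction G Ω] [FaithfulSMul G Ω] [Finite Ω] (h2 : MulAction.IsMultiplyPretransitive G Ω 2) (H : Subgroup G) (hidx : H.index = Nat.card Ω) (hnt : ¬ MulAction.IsPretransitive H Ω) (hfix : ∀ a : Ω, ∃ h : H, h • a ≠ a) : Nat.card (MulAction.orbitRel.Quotient H Ω) = 2 := by
  classical
  haveI : Fintype G := Fintype.ofFinite G
  haveI : Fintype H := Fintype.ofFinite H
  have hn2 : 2 ≤ Nat.card Ω := by
    by_contra hlt
    push Not at hlt
    have hidx0 : H.index ≠ 0 := Subgroup.index_ne_zero_of_finite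
    have h1 : Nat.card Ω = 1 := by omega
    apply hnt
    have hsub : Subsingleton Ω := (Nat.card_eq_one_iff_unique.mp h1).1
    exact ⟨fun x y => ⟨1, Subsingleton.elim _ _⟩⟩
  haveI : MulAction.IsPretransitive G Ω := MulAction.isPretransitive_of_is_two_pretransitive
  haveI : Nonempty Ω := by
    have : 0 < Nat.card Ω := by omega
    exact (Nat.card_pos_iff.mp this).1
  obtain ⟨π, hπdef⟩ : ∃ π : G → ℂ, π = fun g => (Nat.card (MulAction.fixedBy Ω g) : ℂ) := ⟨_, rfl⟩
  have hπchar : Cfsg.IsCharacter G π := by rw [hπdef]; exact isCharacter_perm Ω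
  have hπcf := isClassFunction_of_isCharacter hπchar
  have hχ : Cfsg.IsIrrCharacter G (fun g => π g - 1) := by
    rw [hπdef]; exact (irr_perm_sub_one_iff Ω hn2).mpr h2
  obtain ⟨ψ, hψdef⟩ : ∃ ψ : G → ℂ, ψ = Cfsg.indFun H (fun _ => 1) := ⟨_, rfl⟩
  have hψchar : Cfsg.IsCharacter G ψ := by
    rw [hψdef]; exact isCharacter_indFun H _ isCharacter_one
  have hψcf := isClassFunction_of_isCharacter hψchar
  have h_ψ1 : Cfsg.classInner ψ (fun _ => 1) = 1 := by
    rw [hψdef, frobenius_reciprocity H _ _ (isClassFunction_of_irr (isIrrCharacter_one G))]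
    exact classInner_one_one
  obtain ⟨t, ht⟩ : ∃ t : ℕ, t = Nat.card (MulAction.orbitRel.Quotient H Ω) := ⟨_, rfl⟩
  rw [← ht]
  have h_ψπ : Cfsg.classInner ψ π = (t : ℂ) := by
    rw [hψdef, frobenius_reciprocity H _ _ hπcf, ht]
    haveI : Fintype Ω := Fintype.ofFinite Ω
    haveI : Fintype (MulAction.orbitRel.Quotient H Ω) := Fintype.ofFinite _
    have hB := MulAction.sum_card_fixedBy_eq_card_orbits_mul_card_group H Ω
    unfold Cfsg.classInner
    have h1 : ∑ h : H, (1 : ℂ) * conj (π (h : G)) =
        ((∑ h : H, Fintype.card (MulAction.fixedBy Ω h) : ℕ) : ℂ) := by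
      push_cast
      apply Finset.sum_congr rfl
      intro h _
      rw [one_mul, hπdef]
      simp only [Complex.conj_natCast]
      rw [← Nat.card_eq_fintype_card]
      rfl
    rw [h1, hB, ← Nat.card_eq_fintype_card, ← Nat.card_eq_fintype_card]
    have hne : (Nat.card H : ℂ) ≠ 0 := by exact_mod_cast Nat.card_pos.ne'
    push_cast
    field_simp
  have hfun : (fun g : G => π g - 1) = π - (fun _ => 1) := rfl
  have h_ψχ : Cfsg.classInner ψ (fun g => π g - 1) = (t : ℂ) - 1 := by
    rw [hfun, classInner_sub_right, h_ψπ, h_ψ1]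
  have ht1 : 1 ≤ t := by
    rw [ht]
    haveI : Nonempty (MulAction.orbitRel.Quotient H Ω) := ⟨Quotient.mk _ (Classical.arbitrary Ω)⟩
    haveI : Finite (MulAction.orbitRel.Quotient H Ω) := Quotient.finite _
    exact Nat.card_pos
  have ht_ne1 : t ≠ 1 := by
    intro h1
    apply hnt
    rw [MulAction.pretransitive_iff_subsingleton_quotient]
    rw [ht] at h1
    exact (Nat.card_eq_one_iff_unique.mp h1).1
  have ht_le : t ≤ 2 := by
    by_contra hgt
    push Not at hgt
    obtain ⟨η, hη⟩ : ∃ η : G → ℂ, η = ψ - (fun _ => 1) - (fun g => π g - 1) := ⟨_, rfl⟩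
    have hχne1 : (fun g : G => π g - 1) ≠ (fun _ => (1:ℂ)) := by
      intro heq
      have h1 := classInner_perm_one (G := G) Ω
      rw [← hπdef] at h1
      have : Cfsg.classInner (fun g : G => π g - 1) (fun _ => 1) = 0 := by
        rw [hfun, classInner_sub_left, h1, classInner_one_one]; ring
      rw [heq, classInner_one_one] at this
      exact one_ne_zero this
    have hηchar : Cfsg.IsCharacter G η := by
      apply isCharacter_of_nat_inner
      · rw [hη]
        exact isClassFunction_sub (isClassFunction_sub hψcf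
          (isClassFunction_of_irr (isIrrCharacter_one G))) (isClassFunction_of_irr hχ)
      · intro φ hφ
        rw [hη, classInner_sub_left, classInner_sub_left,
          classInner_irr (isIrrCharacter_one G) hφ, classInner_irr hχ hφ]
        obtain ⟨a, ha⟩ := classInner_char_char_nat hψchar (isCharacter_of_isIrrCharacter hφ)
        rw [ha]
        by_cases h1 : (fun _ : G => (1:ℂ)) = φ
        · have h1' : ¬ (fun g : G => π g - 1) = φ := by rw [← h1]; exact hχne1
          rw [if_pos h1, if_neg h1']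
          have : (a : ℂ) = 1 := by rw [← ha, ← h1]; exact h_ψ1
          exact ⟨0, by rw [this]; simp⟩
        · by_cases h2 : (fun g : G => π g - 1) = φ
          · rw [if_neg h1, if_pos h2]
            have : (a : ℂ) = (t : ℂ) - 1 := by rw [← ha, ← h2]; exact h_ψχ
            refine ⟨t - 2, ?_⟩
            rw [this]
            push_cast [Nat.cast_sub (by omega : 2 ≤ t)]
            ring
          · rw [if_neg h1, if_neg h2]; exact ⟨a, by simp⟩
    have hηχ : Cfsg.classInner η (fun g => π g - 1) ≠ 0 := by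
      rw [hη, classInner_sub_left, classInner_sub_left, h_ψχ,
        classInner_irr (isIrrCharacter_one G) hχ, if_neg (Ne.symm hχne1),
        classInner_irr hχ hχ, if_pos rfl]
      have h3 : ((t : ℂ) - 1 - 0 - 1) = ((t - 2 : ℕ) : ℂ) := by
        push_cast [Nat.cast_sub (by omega : 2 ≤ t)]
        ring
      rw [h3]
      exact_mod_cast (by omega : t - 2 ≠ 0)
    have hπ1 : π 1 = (Nat.card Ω : ℂ) := by
      rw [hπdef]
      show ((Nat.card (MulAction.fixedBy Ω (1 : G)) : ℕ) : ℂ) = _
      congr 1
      apply Nat.card_congr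
      exact ⟨fun x => x.1, fun x => ⟨x, by simp⟩, fun x => rfl, fun x => rfl⟩
    have hψ1 : ψ 1 = (Nat.card Ω : ℂ) := by
      rw [hψdef]
      unfold Cfsg.indFun
      have h4 : ∀ x : G, Cfsg.extendByZero H (fun _ => (1:ℂ)) (x⁻¹ * 1 * x) = 1 := by
        intro x
        rw [extendByZero_mem H _ (by simp : x⁻¹ * 1 * x ∈ H)]
      have h5 : ∑ x : G, Cfsg.extendByZero H (fun _ => (1:ℂ)) (x⁻¹ * 1 * x) = (Nat.card G : ℂ) := by
        rw [Finset.sum_congr rfl (fun x _ => h4 x)]
        simp [Nat.card_eq_fintype_card]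
      rw [h5, ← hidx]
      have hne : (Nat.card H : ℂ) ≠ 0 := by exact_mod_cast Nat.card_pos.ne'
      rw [← Subgroup.card_mul_index H]
      push_cast
      field_simp
    have hχ1 : (fun g : G => π g - 1) 1 = ((Nat.card Ω - 1 : ℕ) : ℂ) := by
      show π 1 - 1 = _
      rw [hπ1]
      push_cast [Nat.cast_sub (by omega : 1 ≤ Nat.card Ω)]
      ring
    have hη1 : η 1 = ((0 : ℕ) : ℂ) := by
      rw [hη]
      show ψ 1 - 1 - (π 1 - 1) = _
      rw [hψ1, hπ1]; simp
    have := degree_le_of_constituent hηchar hχ hηχ (Nat.card Ω - 1) 0 hχ1 hη1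
    omega
  omega

end Cfsg.Agent.S3704
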