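import Cfsg.Statements.S3733
import Mathlib

set_option autoImplicit false
open Cfsg

namespace Cfsg.Agent.S3733

/-- Let A and V be subgroups of a finite group with V abelian and nontrivial and A normalizing V. Suppose a nonempty finite family of proper subgroups of A partitions A: every non-identity element of A lies in exactly one member. If the number of members minus one is coprime to the order of V, then some member B of the family has a non-identity fixed point on V, that is V ∩ C(B) ≠ 1. -/
theorem result {G : Type*} [Group G] [Finite G] (A V : Subgroup G) (hVab : IsMulCommutative V) (hV : V ≠ ⊥) (hAV : A ≤ Subgroup.normalizer (V : Set G)) (𝒜 : Finset (Subgroup G)) (hne : 𝒜.Nonempty) (hprop : ∀ B ∈ 𝒜, B < A) (hpart : ∀ a ∈ A, a ≠ 1 → ∃! B, B ∈ 𝒜 ∧ a ∈ B) (hk : (𝒜.card - 1).Coprime (Nat.card V)) : ∃ B ∈ 𝒜, V ⊓ Subgroup.centralizer (B : Set G) ≠ ⊥ := by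
  classical
  by_contra hcon
  push Not at hcon
  let _ : Fintype G := Fintype.ofFinite G
  let _ : CommGroup V := { (inferInstance : Group V) with mul_comm := hVab.is_comm.comm }
  have hconj : ∀ a ∈ A, ∀ v ∈ V, a * v * a⁻¹ ∈ V := fun a ha v hv =>
    ((Subgroup.mem_set_normalizer_iff.mp (hAV ha)) v).mp hv
  -- conjugation homomorphisms
  let φ : ∀ a : G, a ∈ A → (V →* V) := fun a ha =>
    { toFun := fun v => ⟨a * v * a⁻¹, hconj a ha v v.2⟩
      map_one' := by ext; simp
      map_mul' := fun v w => by ext; simp [mul_assoc] }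
  let c : G → V → V := fun a v => if ha : a ∈ A then φ a ha v else 1
  have hc : ∀ a (ha : a ∈ A) (v : V), c a v = φ a ha v := by
    intro a ha v; simp [c, ha]
  have hφ : ∀ a (ha : a ∈ A) (v : V), ((φ a ha v : V) : G) = a * v * a⁻¹ := fun a ha v => rfl
  let T : Subgroup G → V → V := fun B v => ∏ b ∈ Finset.univ.filter (fun x : G => x ∈ B), c b v
  -- fixedness
  have hfix : ∀ B : Subgroup G, B ≤ A → ∀ v : V, ∀ b ∈ B, b * (T B v : G) * b⁻¹ = (T B v : G) := by
    intro B hBA v b hb
    have h1 : φ b (hBA hb) (T B v) = T B v := by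
      change φ b (hBA hb) (∏ x ∈ Finset.univ.filter (fun x : G => x ∈ B), c x v) =
        ∏ x ∈ Finset.univ.filter (fun x : G => x ∈ B), c x v
      rw [map_prod]
      refine Finset.prod_nbij' (fun x => b * x) (fun x => b⁻¹ * x) ?_ ?_ ?_ ?_ ?_
      · intro x hx
        simp only [Finset.mem_filter, Finset.mem_univ, true_and] at hx ⊢
        exact B.mul_mem hb hx
      · intro x hx
        simp only [Finset.mem_filter, Finset.mem_univ, true_and] at hx ⊢
        exact B.mul_mem (B.inv_mem hb) hx
      · intro x _; simp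
      · intro x _; simp
      · intro x hx
        simp only [Finset.mem_filter, Finset.mem_univ, true_and] at hx
        rw [hc x (hBA hx), hc (b * x) (hBA (B.mul_mem hb hx))]
        apply Subtype.ext
        rw [hφ b (hBA hb), hφ x (hBA hx), hφ (b * x) (hBA (B.mul_mem hb hx))]
        group
    have h2 := congrArg (Subtype.val : V → G) h1
    rw [hφ b (hBA hb)] at h2
    exact h2
  have hT1 : ∀ B : Subgroup G, B ≤ A → ∀ B₀ ∈ 𝒜, B₀ ≤ B → ∀ v : V, T B v = 1 := by
    intro B hBA B₀ hB₀ hle v
    have hmem : (T B v : G) ∈ V ⊓ Subgroup.centralizer (B₀ : Set G) := by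
      refine ⟨(T B v).2, ?_⟩
      show (T B v : G) ∈ Subgroup.centralizer (B₀ : Set G)
      rw [Subgroup.mem_centralizer_iff]
      intro b hb
      have h := hfix B hBA v b (hle hb)
      rw [mul_inv_eq_iff_eq_mul] at h
      exact h
    rw [hcon B₀ hB₀, Subgroup.mem_bot] at hmem
    exact Subtype.ext hmem
  obtain ⟨B₀, hB₀⟩ := hne
  have hTA : ∀ v : V, T A v = 1 := hT1 A le_rfl B₀ hB₀ (hprop B₀ hB₀).le
  have hTB : ∀ B ∈ 𝒜, ∀ v : V, T B v = 1 := fun B hB => hT1 B (hprop B hB).le B hB le_rfl
  -- the counting identity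
  have hident : ∀ v : V, ∏ B ∈ 𝒜, T B v = T A v * v ^ (𝒜.card - 1) := by
    intro v
    have e1 : ∀ B ∈ 𝒜, T B v = ∏ x ∈ Finset.univ.filter (fun x : G => x ∈ A),
        (if x ∈ B then c x v else 1) := by
      intro B hB
      rw [← Finset.prod_filter, Finset.filter_filter]
      change ∏ b ∈ Finset.univ.filter (fun x : G => x ∈ B), c b v = _
      congr 1
      ext x
      simp only [Finset.mem_filter, Finset.mem_univ, true_and]
      constructor
      · intro hx; exact ⟨(hprop B hB).le hx, hx⟩
      · intro hx; exact hx.2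
    rw [Finset.prod_congr rfl e1, Finset.prod_comm]
    have e2 : ∀ x ∈ Finset.univ.filter (fun x : G => x ∈ A),
        ∏ B ∈ 𝒜, (if x ∈ B then c x v else 1) = c x v * (if x = 1 then v ^ (𝒜.card - 1) else 1) := by
      intro x hx
      simp only [Finset.mem_filter, Finset.mem_univ, true_and] at hx
      rw [← Finset.prod_filter, Finset.prod_const]
      by_cases hx1 : x = 1
      · subst hx1
        have hall : 𝒜.filter (fun B => (1 : G) ∈ B) = 𝒜 := by
          apply Finset.filter_true_of_mem
          intro B _; exact B.one_mem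
        have hc1 : c 1 v = v := by
          rw [hc 1 A.one_mem]
          apply Subtype.ext
          rw [hφ 1 A.one_mem]; simp
        rw [hall, hc1, if_pos rfl, ← pow_succ']
        congr 1
        have : 0 < 𝒜.card := Finset.card_pos.mpr ⟨B₀, hB₀⟩
        omega
      · rw [if_neg hx1, mul_one]
        obtain ⟨B, ⟨hB, hxB⟩, huniq⟩ := hpart x hx hx1
        have : 𝒜.filter (fun B => x ∈ B) = {B} := by
          ext B'
          simp only [Finset.mem_filter, Finset.mem_singleton]
          constructor
          · intro h; exact huniq B' h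
          · rintro rfl; exact ⟨hB, hxB⟩
        rw [this, Finset.card_singleton, pow_one]
    rw [Finset.prod_congr rfl e2, Finset.prod_mul_distrib]
    congr 1
    rw [Finset.prod_ite_eq']
    simp
  -- conclusion: V is trivial
  apply hV
  rw [eq_bot_iff]
  intro g hg
  rw [Subgroup.mem_bot]
  have h1 := hident ⟨g, hg⟩
  rw [hTA, one_mul, Finset.prod_eq_one (fun B hB => hTB B hB ⟨g, hg⟩)] at h1
  have h2 : orderOf (⟨g, hg⟩ : V) ∣ 𝒜.card - 1 := orderOf_dvd_of_pow_eq_one h1.symm
  have h3 : orderOf (⟨g, hg⟩ : V) ∣ Nat.card V := orderOf_dvd_natCard _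
  have h4 : orderOf (⟨g, hg⟩ : V) ∣ 1 := by
    have := Nat.dvd_gcd h2 h3
    rwa [hk] at this
  have h5 : (⟨g, hg⟩ : V) = 1 := orderOf_eq_one_iff.mp (Nat.dvd_one.mp h4)
  exact congrArg Subtype.val h5

end Cfsg.Agent.S3733
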