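import Cfsg.Statements.S3734
import Mathlib
import Cfsg.Agent.Lib.Helper6.GenAb
import Cfsg.Agent.Lib.Lead.CoprimeAction2
import Cfsg.Agent.Lib.Lead.SZ
import Cfsg.Agent.Lib.Helper3.PiCore
import Cfsg.Agent.Lib.Helper2.Signal
-- import your own Cfsg.Agent.* helpers here

set_option autoImplicit false
open Cfsg

namespace Cfsg.Agent.S3734

open scoped commutatorElement

/-- Let A and G be subgroups of a finite group with A abelian, A normalizing G and the orders of A and G coprime. Then G is generated by the fixed-point subgroups C_G(B) of those subgroups B of A for which A/B is cyclic (that is, A = ⟨B, a⟩ for some a), and [G, A] is generated by the commutator subgroups [C_G(B), A] over the same subgroups B. -/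
theorem result {X : Type*} [Group X] [Finite X] (A G : Subgroup X) (hAab : IsMulCommutative A) (hAG : A ≤ Subgroup.normalizer (G : Set X)) (hcop : (Nat.card A).Coprime (Nat.card G)) : (⨆ B ∈ {B : Subgroup X | B ≤ A ∧ ∃ a ∈ A, B ⊔ Subgroup.zpowers a = A}, G ⊓ Subgroup.centralizer (B : Set X)) = G ∧ (⨆ B ∈ {B : Subgroup X | B ≤ A ∧ ∃ a ∈ A, B ⊔ Subgroup.zpowers a = A}, ⁅G ⊓ Subgroup.centralizer (B : Set X), A⁆) = ⁅G, A⁆ := by
  classical
  obtain ⟨S, hS⟩ : ∃ S : Set (Subgroup X), S = {B : Subgroup X | B ≤ A ∧ ∃ a ∈ A, B ⊔ Subgroup.zpowers a = A} := ⟨_, rfl⟩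
  rw [← hS]
  have hAc : ∀ a ∈ A, ∀ b ∈ A, a * b = b * a := fun a ha b hb =>
    congrArg Subtype.val (hAab.is_comm.comm ⟨a, ha⟩ ⟨b, hb⟩)
  have hAsolv : Group.IsSolvable ↥A :=
    Group.isSolvable_of_comm (fun a b => Subtype.ext (hAc a.1 a.2 b.1 b.2))
  have hmemB : ∀ B : Subgroup X, B ≤ A → (∃ x ∈ A, A ≤ B ⊔ Subgroup.zpowers x) →
      B ∈ S := by
    rintro B hBA ⟨x, hxA, hle⟩
    rw [hS]
    exact ⟨hBA, x, hxA, le_antisymm (sup_le hBA (Subgroup.zpowers_le.mpr hxA)) hle⟩
  constructor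
  · apply le_antisymm
    · exact iSup₂_le (fun B _ => inf_le_left)
    · apply Cfsg.Agent.Lib.Helper6.gen_coprimeAb A G _ hAc hcop hAG
      intro B hBA hx
      exact le_iSup₂_of_le B (hmemB B hBA hx) le_rfl
  · apply le_antisymm
    · exact iSup₂_le (fun B _ => Subgroup.commutator_mono inf_le_left le_rfl)
    · obtain ⟨G₁, hG₁⟩ : ∃ G₁ : Subgroup X, G₁ = ⁅G, A⁆ := ⟨_, rfl⟩
      have hG₁G : G₁ ≤ G := by
        rw [hG₁]; exact Cfsg.Agent.Lib.Lead.commutator_le_of_le_normalizer G A hAG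
      have hAG₁ : A ≤ Subgroup.normalizer (G₁ : Set X) := by
        rw [hG₁]
        exact Cfsg.Agent.Lib.Lead.le_normalizer_of_conj_mem _ _ (Cfsg.Agent.Lib.Lead.commutator_conj_mem_right G A)
      have hcop₁ : (Nat.card A).Coprime (Nat.card G₁) :=
        Nat.Coprime.coprime_dvd_right (Subgroup.card_dvd_of_le hG₁G) hcop
      obtain ⟨T, hT⟩ : ∃ T : Subgroup X, T = ⨆ B ∈ S, ⁅G₁ ⊓ Subgroup.centralizer (B : Set X), A⁆ := ⟨_, rfl⟩
      have hTle : T ≤ ⨆ B ∈ S, ⁅G ⊓ Subgroup.centralizer (B : Set X), A⁆ := by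
        rw [hT]
        exact iSup₂_mono (fun B _ => Subgroup.commutator_mono (inf_le_inf_right _ hG₁G) le_rfl)
      rw [← hG₁]
      refine le_trans ?_ hTle
      have hpiece : ∀ B ∈ S, ⁅G₁ ⊓ Subgroup.centralizer (B : Set X), A⁆ ≤ T := by
        intro B hB
        rw [hT]
        exact le_iSup₂_of_le B hB le_rfl
      have hTA : ∀ a ∈ A, ∀ t ∈ T, a * t * a⁻¹ ∈ T := by
        intro a ha
        have : T ≤ T.comap (MulAut.conj a).toMonoidHom := by
          conv_lhs => rw [hT]
          apply iSup₂_le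
          intro B hB y hy
          show a * y * a⁻¹ ∈ T
          exact hpiece B hB (Cfsg.Agent.Lib.Lead.commutator_conj_mem_right _ A a ha y hy)
        exact fun t ht => this ht
      have hTC : ∀ c ∈ G₁ ⊓ Subgroup.centralizer (A : Set X), ∀ t ∈ T, c * t * c⁻¹ ∈ T := by
        intro c hc
        have : T ≤ T.comap (MulAut.conj c).toMonoidHom := by
          conv_lhs => rw [hT]
          apply iSup₂_le
          intro B hB y hy
          show c * y * c⁻¹ ∈ T
          have hBA : B ≤ A := by rw [hS] at hB; exact hB.1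
          have hcB : c ∈ G₁ ⊓ Subgroup.centralizer (B : Set X) :=
            ⟨hc.1, Subgroup.centralizer_le hBA hc.2⟩
          exact hpiece B hB (Cfsg.Agent.Lib.Lead.commutator_conj_mem_left _ A c hcB y hy)
        exact fun t ht => this ht
      have hG₁le : G₁ ≤ (G₁ ⊓ Subgroup.centralizer (A : Set X)) ⊔ T := by
        apply Cfsg.Agent.Lib.Helper6.gen_coprimeAb A G₁ _ hAc hcop₁ hAG₁
        intro B hBA hx k hk
        have hB := hmemB B hBA hx
        have hAD : A ≤ Subgroup.normalizer ((G₁ ⊓ Subgroup.centralizer (B : Set X) : Subgroup X) : Set X) := by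
          intro a ha
          apply Cfsg.Agent.Lib.Helper2.mem_normalizer_inf _ _ a (hAG₁ ha)
          apply Cfsg.Agent.Lib.Helper2.normalizer_le_normalizer_centralizer' B
          apply Subgroup.centralizer_le_normalizer
          rw [Subgroup.mem_centralizer_iff]
          intro b hb
          exact hAc b (hBA hb) a ha
        have hcopD : (Nat.card A).Coprime (Nat.card ↥(G₁ ⊓ Subgroup.centralizer (B : Set X))) :=
          Nat.Coprime.coprime_dvd_right (Subgroup.card_dvd_of_le inf_le_left) hcop₁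
        obtain ⟨x, hx, c, hc, rfl⟩ := Cfsg.Agent.Lib.Lead.coprime_commutator_decomp A _ hAD hcopD (Or.inl hAsolv) k hk
        have hcC : c ∈ G₁ ⊓ Subgroup.centralizer (A : Set X) := ⟨hc.1.1, hc.2⟩
        exact Subgroup.mul_mem _ (Subgroup.mem_sup_right (hpiece B hB hx)) (Subgroup.mem_sup_left hcC)
      have h1 : ⁅G₁, A⁆ ≤ T := by
        rw [Subgroup.commutator_le]
        intro g hg a ha
        obtain ⟨c, hc, t, ht, rfl⟩ := Cfsg.Agent.Lib.Helper3.exists_mul_of_mem_sup_of_le_normalizer _ T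
          (Cfsg.Agent.Lib.Lead.le_normalizer_of_conj_mem _ _ hTC) (hG₁le hg)
        have hca : a * c = c * a := Subgroup.mem_centralizer_iff.mp hc.2 a ha
        have hca' : c⁻¹ * a⁻¹ = a⁻¹ * c⁻¹ := by rw [← mul_inv_rev, hca, mul_inv_rev]
        have e : ⁅c * t, a⁆ = c * (t * (a * t⁻¹ * a⁻¹)) * c⁻¹ := by
          rw [commutatorElement_def, mul_inv_rev]
          simp only [mul_assoc]
          rw [hca']
        rw [e]
        exact hTC c hc _ (T.mul_mem ht (hTA a ha _ (T.inv_mem ht)))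
      have h2 : ⁅G, A⁆ ≤ ⁅G₁, A⁆ := by
        rw [Subgroup.commutator_le]
        intro g hg a ha
        obtain ⟨x, hx, c, hc, rfl⟩ := Cfsg.Agent.Lib.Lead.coprime_commutator_decomp A G hAG hcop (Or.inl hAsolv) g hg
        have hca : a * c = c * a := Subgroup.mem_centralizer_iff.mp hc.2 a ha
        have e : ⁅x * c, a⁆ = ⁅x, a⁆ := by
          rw [commutatorElement_def, commutatorElement_def, mul_inv_rev]
          simp only [mul_assoc]
          rw [← mul_assoc c a, ← hca, mul_assoc a c, mul_inv_cancel_left]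
        rw [e, hG₁]
        exact Subgroup.commutator_mem_commutator hx ha
      have h3 : G₁ ≤ ⁅G₁, A⁆ := by
        conv_lhs => rw [hG₁]
        exact h2
      exact h3.trans h1

end Cfsg.Agent.S3734
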