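import Cfsg.Statements.S3735
import Mathlib
import Cfsg.Agent.Lib.Helper6.Conj
-- import your own Cfsg.Agent.* helpers here

set_option autoImplicit false
open Cfsg

namespace Cfsg.Agent.S3735


open Cfsg.Agent.Lib.Helper6 in
theorem mem_sup_of_comm {G : Type*} [Group G] (W T : Subgroup G)
    (hc : ∀ w ∈ W, ∀ t ∈ T, w * t = t * w) (x : G) (hx : x ∈ W ⊔ T) :
    ∃ w ∈ W, ∃ t ∈ T, x = w * t := by
  let P : Subgroup G :=
    { carrier := {x | ∃ w ∈ W, ∃ t ∈ T, x = w * t}
      one_mem' := ⟨1, W.one_mem, 1, T.one_mem, by simp⟩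
      mul_mem' := by
        rintro _ _ ⟨w, hw, t, ht, rfl⟩ ⟨w', hw', t', ht', rfl⟩
        refine ⟨w * w', W.mul_mem hw hw', t * t', T.mul_mem ht ht', ?_⟩
        have := hc w' hw' t ht
        calc w * t * (w' * t') = w * (t * w') * t' := by group
          _ = w * (w' * t) * t' := by rw [this]
          _ = w * w' * (t * t') := by group
      inv_mem' := by
        rintro _ ⟨w, hw, t, ht, rfl⟩
        refine ⟨w⁻¹, W.inv_mem hw, t⁻¹, T.inv_mem ht, ?_⟩
        have := hc w hw t ht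
        rw [this]; group }
  have h : W ⊔ T ≤ P := by
    apply sup_le
    · intro w hw; exact ⟨w, hw, 1, T.one_mem, by simp⟩
    · intro t ht; exact ⟨1, W.one_mem, t, ht, by simp⟩
  exact h hx

open Cfsg.Agent.Lib.Helper6 in
theorem normalizer_map_conj {G : Type*} [Group G] (A X : Subgroup G) (h : G)
    (hhA : h⁻¹ ∈ Subgroup.normalizer (A : Set G)) (hX : A ≤ Subgroup.normalizer (X : Set G)) :
    A ≤ Subgroup.normalizer ((X.map (MulAut.conj h).toMonoidHom : Subgroup G) : Set G) := by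
  intro a ha
  rw [← map_conj_eq_self_iff, ← map_conj_mul]
  have ha' : h⁻¹ * a * h⁻¹⁻¹ ∈ A := (Subgroup.mem_normalizer_iff.mp hhA a).mp ha
  have : a * h = h * (h⁻¹ * a * h⁻¹⁻¹) := by group
  rw [this, map_conj_mul]
  congr 1
  exact (map_conj_eq_self_iff X _).mpr (hX ha')

/-- Clifford's Theorem for actions on finite abelian groups, first part. Let H and V be subgroups of a finite group with V abelian and H normalizing V, and let A be a normal subgroup of H. If every H-invariant subgroup of V has an H-invariant complement in V, then every A-invariant subgroup of V has an A-invariant complement in V. -/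
theorem result {G : Type*} [Group G] [Finite G] (H A V : Subgroup G) (hVab : IsMulCommutative V) (hHV : H ≤ Subgroup.normalizer (V : Set G)) (hAH : A ≤ H) (hAn : H ≤ Subgroup.normalizer (A : Set G)) (hss : ∀ U : Subgroup G, U ≤ V → H ≤ Subgroup.normalizer (U : Set G) → ∃ W : Subgroup G, W ≤ V ∧ H ≤ Subgroup.normalizer (W : Set G) ∧ U ⊓ W = ⊥ ∧ U ⊔ W = V) (U : Subgroup G) (hUV : U ≤ V) (hAU : A ≤ Subgroup.normalizer (U : Set G)) : ∃ W : Subgroup G, W ≤ V ∧ A ≤ Subgroup.normalizer (W : Set G) ∧ U ⊓ W = ⊥ ∧ U ⊔ W = V := by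
  classical
  have hVc : ∀ x ∈ V, ∀ y ∈ V, x * y = y * x := by
    intro x hx y hy
    have := mul_comm' (⟨x, hx⟩ : V) ⟨y, hy⟩
    exact congrArg Subtype.val this
  let IsMin : Subgroup G → Prop := fun T => T ≤ V ∧ A ≤ Subgroup.normalizer (T : Set G) ∧
    T ≠ ⊥ ∧ ∀ T' : Subgroup G, T' ≤ T → A ≤ Subgroup.normalizer (T' : Set G) → T' = ⊥ ∨ T' = T
  have hexmin : ∀ W : Subgroup G, W ≤ V → A ≤ Subgroup.normalizer (W : Set G) → W ≠ ⊥ →
      ∃ T, IsMin T ∧ T ≤ W := by
    intro W hWV hWA hWbot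
    obtain ⟨T, ⟨hT1, hT2, hT3⟩, hTmin⟩ := (wellFounded_lt (α := Subgroup G)).has_min
      {T | T ≤ W ∧ A ≤ Subgroup.normalizer (T : Set G) ∧ T ≠ ⊥} ⟨W, le_rfl, hWA, hWbot⟩
    refine ⟨T, ⟨hT1.trans hWV, hT2, hT3, ?_⟩, hT1⟩
    intro T' hT'T hT'A
    by_cases h : T' = ⊥
    · exact Or.inl h
    · right
      by_contra hne
      exact hTmin T' ⟨hT'T.trans hT1, hT'A, h⟩ (lt_of_le_of_ne hT'T hne)
  obtain ⟨S0, hS0def⟩ : ∃ S0 : Subgroup G, S0 = sSup {T | IsMin T} := ⟨_, rfl⟩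
  have hS0V : S0 ≤ V := by rw [hS0def]; exact sSup_le (fun T hT => hT.1)
  have hconjmin : ∀ h ∈ H, ∀ T, IsMin T → IsMin (T.map (MulAut.conj h).toMonoidHom) := by
    intro h hh T ⟨hT1, hT2, hT3, hT4⟩
    have hhinv : h⁻¹ ∈ Subgroup.normalizer (A : Set G) := hAn (H.inv_mem hh)
    have hhinv' : h⁻¹⁻¹ ∈ Subgroup.normalizer (A : Set G) := by rw [inv_inv]; exact hAn hh
    refine ⟨?_, normalizer_map_conj A T h hhinv hT2, ?_, ?_⟩
    · calc T.map (MulAut.conj h).toMonoidHom ≤ V.map (MulAut.conj h).toMonoidHom :=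
            Subgroup.map_mono hT1
        _ = V := (Cfsg.Agent.Lib.Helper6.map_conj_eq_self_iff V h).mpr (hHV hh)
    · intro hbot
      apply hT3
      have := Cfsg.Agent.Lib.Helper6.map_conj_inv_map_conj T h
      rw [hbot, Subgroup.map_bot] at this
      exact this.symm
    · intro T' hT'le hT'A
      have h1 : T'.map (MulAut.conj h⁻¹).toMonoidHom ≤ T := by
        calc T'.map (MulAut.conj h⁻¹).toMonoidHom
            ≤ (T.map (MulAut.conj h).toMonoidHom).map (MulAut.conj h⁻¹).toMonoidHom :=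
              Subgroup.map_mono hT'le
          _ = T := Cfsg.Agent.Lib.Helper6.map_conj_inv_map_conj T h
      have h2 := normalizer_map_conj A T' h⁻¹ hhinv' hT'A
      rcases hT4 _ h1 h2 with h3 | h3
      · left
        have := Cfsg.Agent.Lib.Helper6.map_conj_map_conj_inv T' h
        rw [h3, Subgroup.map_bot] at this
        exact this.symm
      · right
        have := Cfsg.Agent.Lib.Helper6.map_conj_map_conj_inv T' h
        rw [h3] at this
        exact this.symm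
  have hS0H : H ≤ Subgroup.normalizer (S0 : Set G) := by
    intro h hh
    rw [← Cfsg.Agent.Lib.Helper6.map_conj_eq_self_iff]
    have hle : ∀ g ∈ H, S0.map (MulAut.conj g).toMonoidHom ≤ S0 := by
      intro g hg
      rw [Subgroup.map_le_iff_le_comap, hS0def]
      apply sSup_le
      intro T hT
      rw [← Subgroup.map_le_iff_le_comap]
      exact le_sSup (hconjmin g hg T hT)
    exact Subgroup.eq_of_le_of_card_ge (hle h hh)
      (by rw [Cfsg.Agent.Lib.Helper6.card_map_conj])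
  obtain ⟨W0, hW0V, hW0H, hW0inf, hW0sup⟩ := hss S0 hS0V hS0H
  have hW0bot : W0 = ⊥ := by
    by_contra hne
    obtain ⟨T, hTmin, hTW⟩ := hexmin W0 hW0V (hAH.trans hW0H) hne
    have hTS : T ≤ S0 := by rw [hS0def]; exact le_sSup hTmin
    have : T ≤ S0 ⊓ W0 := le_inf hTS hTW
    rw [hW0inf] at this
    exact hTmin.2.2.1 (le_bot_iff.mp this)
  have hS0eq : S0 = V := by rw [← hW0sup, hW0bot, sup_bot_eq]
  have hbotA : A ≤ Subgroup.normalizer (((⊥ : Subgroup G) : Subgroup G) : Set G) := by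
    intro a _
    rw [Subgroup.mem_normalizer_iff]
    intro h
    simp [Subgroup.mem_bot]
  obtain ⟨W, ⟨hW1, hW2, hW3⟩, hWmax⟩ := (wellFounded_gt (α := Subgroup G)).has_min
    {W | W ≤ V ∧ A ≤ Subgroup.normalizer (W : Set G) ∧ U ⊓ W = ⊥} ⟨⊥, bot_le, hbotA, inf_bot_eq _⟩
  refine ⟨W, hW1, hW2, hW3, ?_⟩
  by_contra hne
  have hUW : U ⊔ W ≤ V := sup_le hUV hW1
  have hex : ∃ T, IsMin T ∧ ¬ T ≤ U ⊔ W := by
    by_contra hno
    push Not at hno
    apply hne
    apply le_antisymm hUW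
    rw [← hS0eq, hS0def]
    exact sSup_le (fun T hT => hno T hT)
  obtain ⟨T, ⟨hT1, hT2, hT3, hT4⟩, hTnot⟩ := hex
  have hsupA : ∀ X Y : Subgroup G, A ≤ Subgroup.normalizer (X : Set G) →
      A ≤ Subgroup.normalizer (Y : Set G) →
      A ≤ Subgroup.normalizer ((X ⊔ Y : Subgroup G) : Set G) := by
    intro X Y hX hY a ha
    rw [← Cfsg.Agent.Lib.Helper6.map_conj_eq_self_iff, Subgroup.map_sup,
      (Cfsg.Agent.Lib.Helper6.map_conj_eq_self_iff X a).mpr (hX ha),
      (Cfsg.Agent.Lib.Helper6.map_conj_eq_self_iff Y a).mpr (hY ha)]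
  have hUWA := hsupA U W hAU hW2
  have hTinf : T ⊓ (U ⊔ W) = ⊥ := by
    have hA' : A ≤ Subgroup.normalizer ((T ⊓ (U ⊔ W) : Subgroup G) : Set G) := by
      intro a ha
      rw [Subgroup.mem_normalizer_iff]
      intro x
      rw [Subgroup.mem_inf, Subgroup.mem_inf, (Subgroup.mem_normalizer_iff.mp (hT2 ha) x),
        (Subgroup.mem_normalizer_iff.mp (hUWA ha) x)]
    rcases hT4 _ inf_le_left hA' with h | h
    · exact h
    · exact absurd (inf_eq_left.mp h) hTnot
  have hWT : U ⊓ (W ⊔ T) = ⊥ := by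
    rw [eq_bot_iff]
    intro x hx
    rw [Subgroup.mem_inf] at hx
    obtain ⟨w, hw, t, ht, rfl⟩ := mem_sup_of_comm W T
      (fun w hw t ht => hVc w (hW1 hw) t (hT1 ht)) x hx.2
    have ht' : t ∈ T ⊓ (U ⊔ W) := by
      refine Subgroup.mem_inf.mpr ⟨ht, ?_⟩
      have h1 : w⁻¹ * (w * t) ∈ W ⊔ U := Subgroup.mul_mem_sup (W.inv_mem hw) hx.1
      rw [sup_comm] at h1
      simpa using h1
    rw [hTinf, Subgroup.mem_bot] at ht'
    subst ht'
    rw [mul_one] at hx ⊢
    have : w ∈ U ⊓ W := Subgroup.mem_inf.mpr ⟨hx.1, hw⟩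
    rw [hW3] at this
    exact this
  have hlt : W < W ⊔ T := by
    apply lt_of_le_of_ne le_sup_left
    intro heq
    have hTW : T ≤ W := by rw [heq]; exact le_sup_right
    exact hTnot (hTW.trans le_sup_right)
  exact hWmax (W ⊔ T) ⟨sup_le hW1 hT1, hsupA W T hW2 hT2, hWT⟩ hlt

end Cfsg.Agent.S3735
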