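import Cfsg.Statements.S3741
import Mathlib
import Cfsg.Agent.Lib.Helper1.Basic
import Cfsg.Agent.Lib.Helper6.SylowSub
-- import your own Cfsg.Agent.* helpers here

set_option autoImplicit false
open Cfsg

namespace Cfsg.Agent.S3741

open scoped commutatorElement

theorem card_filter_mem {G : Type*} [Group G] (A K : Subgroup G) [Fintype ↥A]
    [DecidablePred fun a : ↥A => (a : G) ∈ K] :
    (Finset.univ.filter (fun a : ↥A => (a : G) ∈ K)).card = Nat.card ↥(A ⊓ K) := by
  rw [← Fintype.card_subtype, ← Nat.card_eq_fintype_card]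
  apply Nat.card_congr
  exact { toFun := fun a => ⟨a.1.1, Subgroup.mem_inf.mpr ⟨a.1.2, a.2⟩⟩, invFun := fun x => ⟨⟨x.1, (Subgroup.mem_inf.mp x.2).1⟩, (Subgroup.mem_inf.mp x.2).2⟩, left_inv := fun a => rfl, right_inv := fun x => rfl }

theorem count_comm {G : Type*} [Group G] [Finite G] (A B : Subgroup G) (p : ℕ) (hp : 1 ≤ p)
    (h : ∀ a ∈ A, a ∉ Subgroup.centralizer (B : Set G) →
      Nat.card ↥(B ⊓ Subgroup.centralizer ({a} : Set G)) * p = Nat.card B) :
    p * Nat.card {x : ↥A × ↥B // (x.2 : G) * x.1 = x.1 * x.2} =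
      Nat.card B * (Nat.card ↥(A ⊓ Subgroup.centralizer (B : Set G)) * (p - 1) + Nat.card A) := by
  classical
  haveI := Fintype.ofFinite ↥A
  haveI := Fintype.ofFinite ↥B
  have h1 : Nat.card {x : ↥A × ↥B // (x.2 : G) * x.1 = x.1 * x.2} =
      ∑ a : ↥A, (Finset.univ.filter (fun b : ↥B => (b : G) * a = a * b)).card := by
    rw [Nat.card_eq_fintype_card, Fintype.card_subtype, Finset.card_filter, Fintype.sum_prod_type]
    apply Finset.sum_congr rfl
    intro a _
    rw [Finset.card_filter]
  have h2 : ∀ a : ↥A, p * (Finset.univ.filter (fun b : ↥B => (b : G) * a = a * b)).card =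
      Nat.card B + (if (a : G) ∈ Subgroup.centralizer (B : Set G) then (p - 1) * Nat.card B else 0) := by
    intro a
    have h3 : (Finset.univ.filter (fun b : ↥B => (b : G) * a = a * b)).card =
        Nat.card ↥(B ⊓ Subgroup.centralizer ({(a : G)} : Set G)) := by
      rw [← card_filter_mem]
      congr 1
      ext b
      simp only [Finset.mem_filter, Finset.mem_univ, true_and, Subgroup.mem_centralizer_singleton_iff]
    rw [h3]
    split_ifs with hc
    · have : B ⊓ Subgroup.centralizer ({(a : G)} : Set G) = B := by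
        apply inf_eq_left.mpr
        intro b hb
        rw [Subgroup.mem_centralizer_singleton_iff]
        exact ((Subgroup.mem_centralizer_iff.mp hc) b hb)
      rw [this]
      obtain ⟨q, rfl⟩ : ∃ q, p = q + 1 := ⟨p - 1, by omega⟩
      simp only [Nat.add_one_sub_one]
      ring
    · rw [add_zero, mul_comm]
      exact h a a.2 hc
  rw [h1, Finset.mul_sum]
  rw [Finset.sum_congr rfl (fun a _ => h2 a)]
  rw [Finset.sum_add_distrib, Finset.sum_const, Finset.card_univ, Finset.sum_ite, Finset.sum_const,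
    Finset.sum_const_zero, add_zero, card_filter_mem, smul_eq_mul, smul_eq_mul,
    ← Nat.card_eq_fintype_card]
  ring

theorem cent_of_norm_prime {G : Type*} [Group G] [Finite G] {p : ℕ} [Fact p.Prime] (hG : IsPGroup p G)
    (Z : Subgroup G) (hZ : Nat.card Z = p) (g : G) (hg : g ∈ Subgroup.normalizer (Z : Set G)) :
    g ∈ Subgroup.centralizer (Z : Set G) := by
  have hp := (Fact.out : p.Prime)
  haveI : IsCyclic ↥Z := isCyclic_of_prime_card hZ
  have hcard : Nat.card (MulAut ↥Z) = p - 1 := by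
    rw [IsCyclic.card_mulAut, hZ, Nat.totient_prime hp]
  have h1 : (Z.normalizerMonoidHom ⟨g, hg⟩) ^ (p - 1) = 1 := by
    rw [← hcard]; exact pow_card_eq_one'
  obtain ⟨k, hk⟩ := hG g
  have h2 : (Z.normalizerMonoidHom ⟨g, hg⟩) ^ (p ^ k) = 1 := by
    rw [← map_pow]
    have : (⟨g, hg⟩ : ↥(Subgroup.normalizer (Z : Set G))) ^ (p ^ k) = 1 :=
      Subtype.ext (by rw [Subgroup.coe_pow]; exact hk)
    rw [this, map_one]
  have hcop : Nat.Coprime (p - 1) (p ^ k) := by
    apply Nat.Coprime.pow_right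
    apply Nat.Coprime.symm
    rw [Nat.Prime.coprime_iff_not_dvd hp]
    intro h
    have h3 := hp.two_le
    have := Nat.le_of_dvd (by omega) h
    omega
  have h3 : orderOf (Z.normalizerMonoidHom ⟨g, hg⟩) = 1 :=
    Nat.eq_one_of_dvd_coprimes hcop (orderOf_dvd_of_pow_eq_one h1) (orderOf_dvd_of_pow_eq_one h2)
  have h4 : (⟨g, hg⟩ : ↥(Subgroup.normalizer (Z : Set G))) ∈ Z.normalizerMonoidHom.ker := by
    rw [MonoidHom.mem_ker]; exact orderOf_eq_one_iff.mp h3
  rw [Subgroup.normalizerMonoidHom_ker, Subgroup.mem_subgroupOf] at h4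
  exact h4

theorem card_cent_mul {G : Type*} [Group G] [Finite G] {p : ℕ} [Fact p.Prime] (Z B : Subgroup G)
    (hZp : Nat.card Z = p) (a : G)
    (hZB : ∀ b ∈ B, ∀ z ∈ Z, z * b = b * z) (hab : ∀ b ∈ B, ⁅a, b⁆ ∈ Z)
    (ha : a ∉ Subgroup.centralizer (B : Set G)) :
    Nat.card ↥(B ⊓ Subgroup.centralizer ({a} : Set G)) * p = Nat.card B := by
  classical
  have hmul : ∀ b b' : ↥B, ⁅a, (b : G) * b'⁆ = ⁅a, (b : G)⁆ * ⁅a, (b' : G)⁆ := by
    intro b b'
    have e : ⁅a, (b : G) * b'⁆ = ⁅a, (b : G)⁆ * ((b : G) * ⁅a, (b' : G)⁆ * (b : G)⁻¹) := by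
      simp only [commutatorElement_def]; group
    rw [e]; congr 1
    have := hZB b b.2 _ (hab b' b'.2)
    rw [← this, mul_inv_cancel_right]
  let ψ : ↥B →* ↥Z := { toFun := fun b => ⟨⁅a, (b : G)⁆, hab b b.2⟩, map_one' := Subtype.ext (by simp), map_mul' := fun b b' => Subtype.ext (hmul b b') }
  have hker : ψ.ker = (Subgroup.centralizer ({a} : Set G)).subgroupOf B := by
    ext b
    rw [MonoidHom.mem_ker, Subgroup.mem_subgroupOf, Subgroup.mem_centralizer_singleton_iff]
    constructor
    · intro h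
      have h' : ⁅a, (b : G)⁆ = 1 := congrArg Subtype.val h
      rw [commutatorElement_eq_one_iff_mul_comm] at h'
      exact h'.symm
    · intro h
      apply Subtype.ext
      show ⁅a, (b : G)⁆ = 1
      rw [commutatorElement_eq_one_iff_mul_comm]; exact h.symm
  have hrange : ψ.range = ⊤ := by
    haveI : Fact (Nat.card ↥Z).Prime := ⟨hZp.symm ▸ Fact.out⟩
    rcases Subgroup.eq_bot_or_eq_top_of_prime_card ψ.range with h | h
    · exfalso; apply ha
      rw [Subgroup.mem_centralizer_iff]
      intro b hb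
      have h1 : ψ ⟨b, hb⟩ ∈ ψ.range := ⟨_, rfl⟩
      rw [h, Subgroup.mem_bot] at h1
      have h2 : ⁅a, b⁆ = 1 := congrArg Subtype.val h1
      rw [commutatorElement_eq_one_iff_mul_comm] at h2
      exact h2.symm
    · exact h
  have h1 := Subgroup.card_mul_index ψ.ker
  rw [Subgroup.index_ker, hrange, Subgroup.card_top, hZp, hker] at h1
  rw [← h1]; congr 1
  rw [← Subgroup.inf_subgroupOf_left]
  exact Nat.card_congr (Subgroup.subgroupOfEquivOfLe inf_le_left).toEquiv.symm

/-- Let A and B be subgroups of a finite p-group with [A, B] ≤ A ∩ B and [A, B] of order at most p. Then |A : C_A(B)| = |B : C_B(A)|. -/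
theorem result {G : Type*} [Group G] [Finite G] {p : ℕ} [Fact p.Prime] (hG : IsPGroup p G) (A B : Subgroup G) (hAB : ⁅A, B⁆ ≤ A ⊓ B) (hcard : Nat.card ↥⁅A, B⁆ ≤ p) : (A ⊓ Subgroup.centralizer (B : Set G)).relIndex A = (B ⊓ Subgroup.centralizer (A : Set G)).relIndex B := by
  classical
  have hp := (Fact.out : p.Prime)
  set Z := ⁅A, B⁆ with hZ
  by_cases hZ1 : Z = ⊥
  · have hAC : A ≤ Subgroup.centralizer (B : Set G) := by
      intro a ha
      rw [Subgroup.mem_centralizer_iff]
      intro b hb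
      have : ⁅a, b⁆ ∈ Z := Subgroup.commutator_mem_commutator ha hb
      rw [hZ1, Subgroup.mem_bot, commutatorElement_eq_one_iff_mul_comm] at this
      exact this.symm
    have hBC : B ≤ Subgroup.centralizer (A : Set G) := by
      intro b hb
      rw [Subgroup.mem_centralizer_iff]
      intro a ha
      exact ((Subgroup.mem_centralizer_iff.mp (hAC ha)) b hb).symm
    rw [Subgroup.relIndex_eq_one.mpr (le_inf le_rfl hAC), Subgroup.relIndex_eq_one.mpr (le_inf le_rfl hBC)]
  · have hZp : Nat.card Z = p := by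
      obtain ⟨k, hk⟩ := IsPGroup.iff_card.mp (hG.to_subgroup Z)
      have hk0 : k ≠ 0 := by
        rintro rfl
        exact hZ1 (Subgroup.card_eq_one.mp (by rw [hk, pow_zero]))
      have h1 : p ^ k ≤ p ^ 1 := by rw [← hk, pow_one]; exact hcard
      have hk1 : k ≤ 1 := (Nat.pow_le_pow_iff_right hp.one_lt).mp h1
      have : k = 1 := by omega
      rw [hk, this, pow_one]
    have hAN : A ≤ Subgroup.normalizer (Z : Set G) := by
      intro a ha
      apply Cfsg.Agent.Lib.Helper1.mem_normalizer_of_finite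
      have hle : Z ≤ Z.comap (MulAut.conj a).toMonoidHom := by
        rw [hZ, Subgroup.commutator_le]
        intro a' ha' b hb
        show a * ⁅a', b⁆ * a⁻¹ ∈ ⁅A, B⁆
        have e : a * ⁅a', b⁆ * a⁻¹ = ⁅a * a', b⁆ * ⁅a, b⁆⁻¹ := by
          simp only [commutatorElement_def]; group
        rw [e]
        exact mul_mem (Subgroup.commutator_mem_commutator (mul_mem ha ha') hb)
          (inv_mem (Subgroup.commutator_mem_commutator ha hb))
      exact fun n hn => hle hn
    have hBN : B ≤ Subgroup.normalizer (Z : Set G) := by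
      intro b hb
      apply Cfsg.Agent.Lib.Helper1.mem_normalizer_of_finite
      have hle : Z ≤ Z.comap (MulAut.conj b).toMonoidHom := by
        rw [hZ, Subgroup.commutator_le]
        intro a' ha' b' hb'
        show b * ⁅a', b'⁆ * b⁻¹ ∈ ⁅A, B⁆
        have e : b * ⁅a', b'⁆ * b⁻¹ = ⁅a', b⁆⁻¹ * ⁅a', b * b'⁆ := by
          simp only [commutatorElement_def]; group
        rw [e]
        exact mul_mem (inv_mem (Subgroup.commutator_mem_commutator ha' hb))
          (Subgroup.commutator_mem_commutator ha' (mul_mem hb hb'))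
      exact fun n hn => hle hn
    have hcA : ∀ a ∈ A, ∀ z ∈ Z, z * a = a * z := fun a ha z hz =>
      (Subgroup.mem_centralizer_iff.mp (cent_of_norm_prime hG Z hZp a (hAN ha))) z hz
    have hcB : ∀ b ∈ B, ∀ z ∈ Z, z * b = b * z := fun b hb z hz =>
      (Subgroup.mem_centralizer_iff.mp (cent_of_norm_prime hG Z hZp b (hBN hb))) z hz
    have h1 := count_comm A B p hp.one_lt.le (fun a ha hna =>
      card_cent_mul Z B hZp a hcB (fun b hb => Subgroup.commutator_mem_commutator ha hb) hna)
    have h2 := count_comm B A p hp.one_lt.le (fun b hb hnb =>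
      card_cent_mul Z A hZp b hcA (fun a ha => by
        rw [← commutatorElement_inv]
        exact inv_mem (Subgroup.commutator_mem_commutator ha hb)) hnb)
    have h3 : Nat.card {x : ↥A × ↥B // (x.2 : G) * x.1 = x.1 * x.2} =
        Nat.card {x : ↥B × ↥A // (x.2 : G) * x.1 = x.1 * x.2} := by
      apply Nat.card_congr
      exact (Equiv.prodComm _ _).subtypeEquiv (fun x => by simp [eq_comm])
    rw [h3, h2] at h1
    set cA := Nat.card ↥(A ⊓ Subgroup.centralizer (B : Set G)) with hcA'
    set cB := Nat.card ↥(B ⊓ Subgroup.centralizer (A : Set G)) with hcB'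
    have e1 := Cfsg.Agent.Lib.Helper6.card_mul_relIndex_of_le (inf_le_left : A ⊓ Subgroup.centralizer (B : Set G) ≤ A)
    have e2 := Cfsg.Agent.Lib.Helper6.card_mul_relIndex_of_le (inf_le_left : B ⊓ Subgroup.centralizer (A : Set G) ≤ B)
    rw [← hcA'] at e1
    rw [← hcB'] at e2
    have hpos1 : 0 < cA := Nat.card_pos
    have hpos2 : 0 < cB := Nat.card_pos
    obtain ⟨q, hq⟩ : ∃ q, p = q + 2 := ⟨p - 2, by have := hp.two_le; omega⟩
    rw [hq] at h1
    simp only [show q + 2 - 1 = q + 1 by omega] at h1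
    -- h1 : |A| * (cB * (q+1) + |B|) = |B| * (cA * (q+1) + |A|)
    have h4 : Nat.card A * cB = Nat.card B * cA := by
      have : (Nat.card A * cB) * (q + 1) = (Nat.card B * cA) * (q + 1) := by nlinarith
      exact Nat.eq_of_mul_eq_mul_right (Nat.succ_pos q) this
    rw [← e1, ← e2] at h4
    have h5 : (A ⊓ Subgroup.centralizer (B : Set G)).relIndex A * (cA * cB) =
        (B ⊓ Subgroup.centralizer (A : Set G)).relIndex B * (cA * cB) := by nlinarith
    exact Nat.eq_of_mul_eq_mul_right (Nat.mul_pos hpos1 hpos2) h5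

end Cfsg.Agent.S3741
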