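import Cfsg.Statements.S3745
import Mathlib
import Cfsg.Agent.Lib.Helper6.HallRel
import Cfsg.Agent.Lib.Helper6.SylowSub
import Cfsg.Agent.Lib.Helper1.ThompsonJ
import Cfsg.Agent.Lib.Lead.SZ2
-- import your own Cfsg.Agent.* helpers here

set_option autoImplicit false
open Cfsg

namespace Cfsg.Agent.S3745

open scoped Pointwise

theorem exists_pi_decomp (π : Set ℕ) (N : ℕ) (hN : 0 < N) :
    ∃ m n, N = m * n ∧ m.Coprime n ∧ (∀ p, p.Prime → p ∣ m → p ∈ π) ∧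
      (∀ p, p.Prime → p ∣ n → p ∉ π) := by
  classical
  set P : ℕ → Prop := fun d => d ∣ N ∧ ∀ p, p.Prime → p ∣ d → p ∈ π with hP
  have hP1 : P 1 := ⟨one_dvd N, fun p hp h => absurd (Nat.dvd_one.mp h) hp.ne_one⟩
  set m := Nat.findGreatest P N with hm
  have hPm : P m := Nat.findGreatest_spec (P := P) (m := 1) hN hP1
  obtain ⟨n, hn⟩ := hPm.1
  have hnπ : ∀ p, p.Prime → p ∣ n → p ∉ π := by
    intro p hp hpn hpπ
    have h1 : P (m * p) := by
      refine ⟨?_, ?_⟩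
      · rw [hn]; exact Nat.mul_dvd_mul_left m hpn
      · intro q hq hqd
        rcases (Nat.Prime.dvd_mul hq).mp hqd with h | h
        · exact hPm.2 q hq h
        · rw [(Nat.prime_dvd_prime_iff_eq hq hp).mp h]; exact hpπ
    have hm0 : 0 < m := Nat.pos_of_dvd_of_pos hPm.1 hN
    have h2 : m < m * p := by
      have := hp.one_lt
      nlinarith
    have h3 : m * p ≤ N := Nat.le_of_dvd hN h1.1
    exact Nat.findGreatest_is_greatest (P := P) h2 h3 h1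
  refine ⟨m, n, hn, ?_, hPm.2, hnπ⟩
  apply Nat.coprime_of_dvd
  intro k hk hkm hkn
  exact hnπ k hk hkn (hPm.2 k hk hkm)

theorem piHallOf_card {X : Type*} [Group X] [Finite X] (π : Set ℕ) (H G : Subgroup X)
    (h : Cfsg.IsPiHallOf π H G) (m n : ℕ) (hG : Nat.card G = m * n)
    (hmπ : ∀ p, p.Prime → p ∣ m → p ∈ π) (hnπ : ∀ p, p.Prime → p ∣ n → p ∉ π) :
    Nat.card H = m := by
  obtain ⟨hHG, hH1, hH2⟩ := h
  have h1 : Nat.card H * H.relIndex G = m * n := by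
    rw [← hG]; exact Cfsg.Agent.Lib.Helper6.card_mul_relIndex_of_le hHG
  have hc1 : (Nat.card H).Coprime n :=
    Nat.coprime_of_dvd (fun k hk hkH hkn => hnπ k hk hkn (hH1 k hk hkH))
  have hc2 : m.Coprime (H.relIndex G) :=
    Nat.coprime_of_dvd (fun k hk hkm hkr => hH2 k hk (hmπ k hk hkm) hkr)
  apply Nat.dvd_antisymm
  · exact hc1.dvd_of_dvd_mul_right (Dvd.intro _ h1)
  · exact hc2.dvd_of_dvd_mul_right (Dvd.intro _ h1.symm)

theorem isPiHallOf_of_card {X : Type*} [Group X] [Finite X] (π : Set ℕ) (H G : Subgroup X)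
    (hHG : H ≤ G) (m n : ℕ) (hG : Nat.card G = m * n)
    (hmπ : ∀ p, p.Prime → p ∣ m → p ∈ π) (hnπ : ∀ p, p.Prime → p ∣ n → p ∉ π)
    (hH : Nat.card H = m) : Cfsg.IsPiHallOf π H G := by
  refine ⟨hHG, fun p hp hpH => hmπ p hp (hH ▸ hpH), fun p hp hpπ hpr => ?_⟩
  have h1 : Nat.card H * H.relIndex G = m * n := by
    rw [← hG]; exact Cfsg.Agent.Lib.Helper6.card_mul_relIndex_of_le hHG
  rw [hH] at h1
  have hm0 : 0 < m := by rw [← hH]; exact Nat.card_pos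
  have h2 : H.relIndex G = n := Nat.eq_of_mul_eq_mul_left hm0 h1
  rw [h2] at hpr
  exact hnπ p hp hpr hpπ

/-- Containment: every `A`-invariant `π`-subgroup lies in an `A`-invariant subgroup of order
`m`. -/
theorem invariant_hall_le {X : Type*} [Group X] [Finite X] (A G : Subgroup X)
    (hAG : A ≤ Subgroup.normalizer (G : Set X)) (hcop : (Nat.card A).Coprime (Nat.card G))
    (hsolv : Group.IsSolvable G) (m₀ n : ℕ) (hG : Nat.card G = m₀ * n) (hmn : m₀.Coprime n)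
    (U : Subgroup X) (hUG : U ≤ G) (hAU : A ≤ Subgroup.normalizer (U : Set X))
    (hU : (Nat.card U).Coprime n) :
    ∃ H : Subgroup X, H ≤ G ∧ Nat.card H = m₀ ∧ A ≤ Subgroup.normalizer (H : Set X) ∧ U ≤ H := by
  classical
  haveI := hsolv
  have hAGbot : A ⊓ G = ⊥ := disjoint_iff.mp (Subgroup.disjoint_of_coprime_natCard hcop)
  have hAUbot : A ⊓ U = ⊥ := le_bot_iff.mp (hAGbot ▸ inf_le_inf_left A hUG)
  have hΓcard : Nat.card ↥(A ⊔ G) = Nat.card A * Nat.card G := by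
    have := Cfsg.Agent.Lib.Helper1.card_sup_mul_card_inf A G hAG
    rw [hAGbot, Subgroup.card_bot, mul_one] at this
    exact this
  have hAUcard : Nat.card ↥(A ⊔ U) = Nat.card A * Nat.card U := by
    have := Cfsg.Agent.Lib.Helper1.card_sup_mul_card_inf A U hAU
    rw [hAUbot, Subgroup.card_bot, mul_one] at this
    exact this
  have hAn : (Nat.card A).Coprime n :=
    Nat.Coprime.coprime_dvd_right (Dvd.intro_left m₀ hG.symm) hcop
  have hGΓ : G ≤ A ⊔ G := le_sup_right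
  have hAUΓ : A ⊔ U ≤ A ⊔ G := sup_le_sup_left hUG A
  haveI hG₀n : (G.subgroupOf (A ⊔ G)).Normal := Subgroup.normal_subgroupOf_sup_of_le_normalizer hAG
  have hG₀s : Group.IsSolvable ↥(G.subgroupOf (A ⊔ G)) :=
    Group.isSolvable_of_isSolvable_injective
      (f := (Subgroup.subgroupOfEquivOfLe hGΓ).toMonoidHom) (Subgroup.subgroupOfEquivOfLe hGΓ).injective
  have hG₀i : (G.subgroupOf (A ⊔ G)).index = Nat.card A := by
    have h1 : Nat.card G * G.relIndex (A ⊔ G) = Nat.card ↥(A ⊔ G) :=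
      Cfsg.Agent.Lib.Helper6.card_mul_relIndex_of_le hGΓ
    rw [hΓcard, mul_comm] at h1
    exact Nat.eq_of_mul_eq_mul_right Nat.card_pos h1
  have hKcard : Nat.card ((A ⊔ U).subgroupOf (A ⊔ G)) = Nat.card A * Nat.card U := by
    rw [Nat.card_congr (Subgroup.subgroupOfEquivOfLe hAUΓ).toEquiv, hAUcard]
  obtain ⟨H', hH'card, hKH'⟩ := Cfsg.Agent.Lib.Helper6.hall_le_rel (Nat.card ↥(A ⊔ G)) ↥(A ⊔ G)
    (G.subgroupOf (A ⊔ G)) (Nat.card A * m₀) n hG₀n hG₀s (by rw [hG₀i]; exact hAn) rfl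
    (by rw [hΓcard, hG]; ring) (Nat.Coprime.mul_left hAn hmn)
    ((A ⊔ U).subgroupOf (A ⊔ G)) (by rw [hKcard]; exact Nat.Coprime.mul_left hAn hU)
  set Hs := H'.map (A ⊔ G).subtype with hHs
  have hHsΓ : Hs ≤ A ⊔ G := Subgroup.map_subtype_le H'
  have hHscard : Nat.card Hs = Nat.card A * m₀ := by
    rw [hHs, Subgroup.card_map_of_injective (Subgroup.subtype_injective _), hH'card]
  have hAUHs : A ⊔ U ≤ Hs := by
    intro x hx
    exact ⟨⟨x, hAUΓ hx⟩, hKH' (Subgroup.mem_subgroupOf.mpr hx), rfl⟩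
  have hAHs : A ≤ Hs := le_sup_left.trans hAUHs
  have hUHs : U ≤ Hs := le_sup_right.trans hAUHs
  have hΓnorm : A ⊔ G ≤ Subgroup.normalizer (G : Set X) := sup_le hAG Subgroup.le_normalizer
  have hsup : Hs ⊔ G = A ⊔ G :=
    le_antisymm (sup_le hHsΓ le_sup_right) (sup_le (hAHs.trans le_sup_left) le_sup_right)
  refine ⟨Hs ⊓ G, inf_le_right, ?_, ?_, le_inf hUHs hUG⟩
  · have h1 := Cfsg.Agent.Lib.Helper1.card_sup_mul_card_inf Hs G (hHsΓ.trans hΓnorm)
    rw [hsup, hΓcard, hHscard] at h1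
    have h2 : Nat.card A * Nat.card G * Nat.card ↥(Hs ⊓ G) = Nat.card A * Nat.card G * m₀ := by
      rw [h1]; ring
    exact Nat.eq_of_mul_eq_mul_left (Nat.mul_pos Nat.card_pos Nat.card_pos) h2
  · intro a ha
    apply Cfsg.Agent.Lib.Helper1.mem_normalizer_of_finite
    intro h hh
    refine ⟨Hs.mul_mem (Hs.mul_mem (hAHs ha) hh.1) (Hs.inv_mem (hAHs ha)), ?_⟩
    exact (Subgroup.mem_normalizer_iff.mp (hAG ha) h).mp hh.2

/-- Coprime action on a solvable group and Hall subgroups. Let A and G be subgroups of a finite group with A normalizing G, the orders of A and G coprime, and G solvable, and let π be a set of primes. Then (a) G has an A-invariant Hall π-subgroup; (b) any two A-invariant Hall π-subgroups of G are conjugate by an element of C_G(A); (c) every A-invariant π-subgroup of G lies in an A-invariant Hall π-subgroup of G. -/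
theorem result {X : Type*} [Group X] [Finite X] (A G : Subgroup X) (hAG : A ≤ Subgroup.normalizer (G : Set X)) (hcop : (Nat.card A).Coprime (Nat.card G)) (hsolv : Group.IsSolvable G) (π : Set ℕ) : (∃ H : Subgroup X, Cfsg.IsPiHallOf π H G ∧ A ≤ Subgroup.normalizer (H : Set X)) ∧ (∀ H₁ H₂ : Subgroup X, Cfsg.IsPiHallOf π H₁ G → A ≤ Subgroup.normalizer (H₁ : Set X) → Cfsg.IsPiHallOf π H₂ G → A ≤ Subgroup.normalizer (H₂ : Set X) → ∃ c ∈ G ⊓ Subgroup.centralizer (A : Set X), H₂ = H₁.map (MulAut.conj c).toMonoidHom) ∧ (∀ U : Subgroup X, U ≤ G → A ≤ Subgroup.normalizer (U : Set X) → (∀ p : ℕ, p.Prime → p ∣ Nat.card U → p ∈ π) → ∃ H : Subgroup X, Cfsg.IsPiHallOf π H G ∧ A ≤ Subgroup.normalizer (H : Set X) ∧ U ≤ H) := by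
  classical
  haveI := hsolv
  obtain ⟨m₀, n, hG, hmn, hmπ, hnπ⟩ := exists_pi_decomp π (Nat.card G) Nat.card_pos
  have hAGbot : A ⊓ G = ⊥ := disjoint_iff.mp (Subgroup.disjoint_of_coprime_natCard hcop)
  have hC : ∀ U : Subgroup X, U ≤ G → A ≤ Subgroup.normalizer (U : Set X) →
      (∀ p : ℕ, p.Prime → p ∣ Nat.card U → p ∈ π) →
      ∃ H : Subgroup X, Cfsg.IsPiHallOf π H G ∧ A ≤ Subgroup.normalizer (H : Set X) ∧ U ≤ H := by
    intro U hUG hAU hUπ
    have hU : (Nat.card U).Coprime n :=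
      Nat.coprime_of_dvd (fun k hk hkU hkn => hnπ k hk hkn (hUπ k hk hkU))
    obtain ⟨H, hHG, hHcard, hAH, hUH⟩ :=
      invariant_hall_le A G hAG hcop hsolv m₀ n hG hmn U hUG hAU hU
    exact ⟨H, isPiHallOf_of_card π H G hHG m₀ n hG hmπ hnπ hHcard, hAH, hUH⟩
  refine ⟨?_, ?_, hC⟩
  · obtain ⟨H, hH, hAH, -⟩ := hC ⊥ bot_le
      (by
        intro a _
        rw [Subgroup.mem_normalizer_iff]
        intro h
        simp [Subgroup.mem_bot])
      (by
        intro p hp hpd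
        rw [Subgroup.card_bot] at hpd
        exact absurd (Nat.dvd_one.mp hpd) hp.ne_one)
    exact ⟨H, hH, hAH⟩
  · intro H₁ H₂ hH₁ hA₁ hH₂ hA₂
    have hc1 : Nat.card H₁ = m₀ := piHallOf_card π H₁ G hH₁ m₀ n hG hmπ hnπ
    have hc2 : Nat.card H₂ = m₀ := piHallOf_card π H₂ G hH₂ m₀ n hG hmπ hnπ
    have hH₁G : H₁ ≤ G := hH₁.1
    have hH₂G : H₂ ≤ G := hH₂.1
    obtain ⟨g', hg'⟩ := Cfsg.Agent.Lib.Lead.hall_conj (Nat.card G) ↥G m₀ n rfl hG hmn
      (H₁.subgroupOf G) (H₂.subgroupOf G)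
      (by rw [Nat.card_congr (Subgroup.subgroupOfEquivOfLe hH₁G).toEquiv, hc1])
      (by rw [Nat.card_congr (Subgroup.subgroupOfEquivOfLe hH₂G).toEquiv, hc2])
    obtain ⟨g, hgG⟩ := g'
    have hconj : ∀ x ∈ G, x ∈ H₂ ↔ g⁻¹ * x * g ∈ H₁ := by
      intro x hx
      have h1 : (⟨x, hx⟩ : ↥G) ∈ H₂.subgroupOf G ↔
          (⟨g, hgG⟩ : ↥G)⁻¹ * ⟨x, hx⟩ * ⟨g, hgG⟩ ∈ H₁.subgroupOf G := by
        rw [← hg', Cfsg.Agent.Lib.Helper1.mem_conj_smul]
      exact h1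
    have hgH : ∀ h ∈ H₁, g * h * g⁻¹ ∈ H₂ := by
      intro h hh
      rw [hconj _ (G.mul_mem (G.mul_mem hgG (hH₁G hh)) (G.inv_mem hgG))]
      have : g⁻¹ * (g * h * g⁻¹) * g = h := by group
      rw [this]
      exact hh
    have hNA : A ≤ Subgroup.normalizer ((G ⊓ Subgroup.normalizer (H₂ : Set X) : Subgroup X) : Set X) := by
      intro a ha
      apply Cfsg.Agent.Lib.Helper1.mem_normalizer_of_finite
      intro x hx
      refine ⟨(Subgroup.mem_normalizer_iff.mp (hAG ha) x).mp hx.1, ?_⟩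
      exact Subgroup.mul_mem _ (Subgroup.mul_mem _ (hA₂ ha) hx.2) (Subgroup.inv_mem _ (hA₂ ha))
    have hgAg : ∀ a ∈ A, g * a * g⁻¹ ∈ Subgroup.normalizer (H₂ : Set X) := by
      intro a ha
      apply Cfsg.Agent.Lib.Helper1.mem_normalizer_of_finite
      intro x hx
      have hx1 : g⁻¹ * x * g ∈ H₁ := (hconj x (hH₂G hx)).mp hx
      have hx2 : a * (g⁻¹ * x * g) * a⁻¹ ∈ H₁ :=
        (Subgroup.mem_normalizer_iff.mp (hA₁ ha) _).mp hx1
      have := hgH _ hx2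
      have h3 : g * a * g⁻¹ * x * (g * a * g⁻¹)⁻¹ = g * (a * (g⁻¹ * x * g) * a⁻¹) * g⁻¹ := by group
      rw [h3]
      exact this
    have hK : MulAut.conj g • A ≤ A ⊔ (G ⊓ Subgroup.normalizer (H₂ : Set X)) := by
      intro k hk
      rw [Cfsg.Agent.Lib.Helper1.mem_conj_smul] at hk
      have h1 : k = (g⁻¹ * k * g) * ((g⁻¹ * k * g)⁻¹ * g * (g⁻¹ * k * g) * g⁻¹) := by group
      rw [h1]
      apply Subgroup.mul_mem
      · exact Subgroup.mem_sup_left hk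
      · apply Subgroup.mem_sup_right
        refine ⟨?_, ?_⟩
        · have h2 : (g⁻¹ * k * g)⁻¹ * g * (g⁻¹ * k * g) ∈ G := by
            have := (Subgroup.mem_normalizer_iff.mp (hAG (A.inv_mem hk)) g).mp hgG
            simpa using this
          exact G.mul_mem h2 (G.inv_mem hgG)
        · have h2 := hgAg _ hk
          have h3 : (g⁻¹ * k * g)⁻¹ * g * (g⁻¹ * k * g) * g⁻¹ =
              (g⁻¹ * k * g)⁻¹ * (g * (g⁻¹ * k * g) * g⁻¹) := by group
          rw [h3]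
          exact Subgroup.mul_mem _ (Subgroup.inv_mem _ (hA₂ hk)) h2
    have hNsolv : Group.IsSolvable ↥(G ⊓ Subgroup.normalizer (H₂ : Set X) : Subgroup X) :=
      Group.isSolvable_of_isSolvable_injective
        (f := Subgroup.inclusion (inf_le_left : G ⊓ Subgroup.normalizer (H₂ : Set X) ≤ G))
        (Subgroup.inclusion_injective _)
    obtain ⟨n₀, hn₀, hn₀A⟩ := Cfsg.Agent.Lib.Lead.szc (G ⊓ Subgroup.normalizer (H₂ : Set X)) A
      (MulAut.conj g • A) hNA hK (Cfsg.Agent.Lib.Lead.card_conj_smul g A)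
      (Nat.Coprime.coprime_dvd_left (Subgroup.card_dvd_of_le inf_le_left) hcop.symm)
      (Or.inl hNsolv)
    have hcG : n₀⁻¹ * g ∈ G := G.mul_mem (G.inv_mem hn₀.1) hgG
    have hcA : ∀ a ∈ A, (n₀⁻¹ * g) * a * (n₀⁻¹ * g)⁻¹ ∈ A := by
      intro a ha
      have h1 : g * a * g⁻¹ ∈ MulAut.conj g • A := by
        rw [Cfsg.Agent.Lib.Helper1.mem_conj_smul]
        have : g⁻¹ * (g * a * g⁻¹) * g = a := by group
        rw [this]; exact ha
      rw [← hn₀A, Cfsg.Agent.Lib.Helper1.mem_conj_smul] at h1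
      have h2 : (n₀⁻¹ * g) * a * (n₀⁻¹ * g)⁻¹ = n₀⁻¹ * (g * a * g⁻¹) * n₀ := by group
      rw [h2]
      exact h1
    refine ⟨n₀⁻¹ * g, ⟨hcG, ?_⟩, ?_⟩
    · show n₀⁻¹ * g ∈ Subgroup.centralizer (A : Set X)
      rw [Subgroup.mem_centralizer_iff]
      intro a ha
      have h1 : (n₀⁻¹ * g) * a * (n₀⁻¹ * g)⁻¹ * a⁻¹ ∈ A ⊓ G := by
        refine ⟨A.mul_mem (hcA a ha) (A.inv_mem ha), ?_⟩
        have h2 : a * (n₀⁻¹ * g)⁻¹ * a⁻¹ ∈ G :=
          (Subgroup.mem_normalizer_iff.mp (hAG ha) _).mp (G.inv_mem hcG)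
        have h3 : (n₀⁻¹ * g) * a * (n₀⁻¹ * g)⁻¹ * a⁻¹ = (n₀⁻¹ * g) * (a * (n₀⁻¹ * g)⁻¹ * a⁻¹) := by
          group
        rw [h3]
        exact G.mul_mem hcG h2
      rw [hAGbot, Subgroup.mem_bot] at h1
      calc a * (n₀⁻¹ * g) = ((n₀⁻¹ * g) * a * (n₀⁻¹ * g)⁻¹ * a⁻¹)⁻¹ * ((n₀⁻¹ * g) * a) := by group
        _ = (n₀⁻¹ * g) * a := by rw [h1, inv_one, one_mul]
    · symm
      apply Subgroup.eq_of_le_of_card_ge
      · rintro _ ⟨h, hh, rfl⟩
        show (n₀⁻¹ * g) * h * (n₀⁻¹ * g)⁻¹ ∈ H₂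
        have h1 := hgH h hh
        have h2 : (n₀⁻¹ * g) * h * (n₀⁻¹ * g)⁻¹ = n₀⁻¹ * (g * h * g⁻¹) * n₀⁻¹⁻¹ := by group
        rw [h2]
        exact (Subgroup.mem_normalizer_iff.mp (Subgroup.inv_mem _ hn₀.2) _).mp h1
      · rw [Subgroup.card_map_of_injective (MulAut.conj (n₀⁻¹ * g)).injective, hc1, hc2]

end Cfsg.Agent.S3745
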