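import Cfsg.Statements.S3746
import Mathlib
import Cfsg.Agent.Lib.Helper2.Quasi
import Cfsg.Agent.Lib.Helper2.FStar
import Cfsg.Agent.Lib.Helper2.PComp
-- import your own Cfsg.Agent.* helpers here

set_option autoImplicit false
open Cfsg

namespace Cfsg.Agent.S3746

open scoped commutatorElement

/-- Let Z ≤ Z(G) be a central subgroup of a finite group G and E a subgroup of G containing Z whose image E/Z is a component of G/Z (subnormal and quasisimple). Then the derived subgroup [E, E] is a component of G. -/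
theorem result {G : Type*} [Group G] [Finite G] (Z : Subgroup G) (hZ : Z ≤ Subgroup.center G) [Z.Normal] (E : Subgroup G) (hZE : Z ≤ E) (hE : Cfsg.IsComponent (E.map (QuotientGroup.mk' Z))) : Cfsg.IsComponent ⁅E, E⁆ := by
  classical
  obtain ⟨hsub, hq⟩ := hE
  set Eb := E.map (QuotientGroup.mk' Z) with hEb
  have hker : (QuotientGroup.mk' Z).ker ≤ E := by rw [QuotientGroup.ker_mk']; exact hZE
  -- E is subnormal
  have hEsub : E.IsSubnormal := by
    have h1 := Subgroup.IsSubnormal.comap (QuotientGroup.mk' Z) hsub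
    rwa [hEb, Subgroup.comap_map_eq_self hker] at h1
  have hcomle : ⁅E, E⁆ ≤ E := by
    rw [Subgroup.commutator_le]
    intro a ha b hb
    exact mul_mem (mul_mem (mul_mem ha hb) (inv_mem ha)) (inv_mem hb)
  have hnorm : (⁅E, E⁆.subgroupOf E).Normal := by
    have h1 : ⁅E, E⁆.subgroupOf E = commutator ↥E := by
      rw [← Subgroup.map_subtype_commutator]
      exact Subgroup.comap_map_eq_self_of_injective E.subtype_injective _
    rw [h1]
    infer_instance
  refine ⟨Subgroup.IsSubnormal.trans hcomle hnorm.isSubnormal hEsub, ?_⟩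
  -- quasisimplicity
  have hperf : ⁅Eb, Eb⁆ = Eb := Subgroup.isPerfect_iff.mp hq.1
  -- E = E' Z elementwise
  have hEdec : ∀ x ∈ E, ∃ c ∈ ⁅E, E⁆, ∃ z ∈ Z, x = c * z := by
    intro x hx
    have h1 : (QuotientGroup.mk' Z x) ∈ ⁅Eb, Eb⁆ := by
      rw [hperf]; exact Subgroup.mem_map_of_mem _ hx
    rw [hEb, ← Subgroup.map_commutator] at h1
    obtain ⟨c, hc, hcx⟩ := Subgroup.mem_map.mp h1
    have h2 : c⁻¹ * x ∈ Z := QuotientGroup.eq.mp hcx
    exact ⟨c, hc, c⁻¹ * x, h2, by group⟩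
  let φ : ↥E →* ↥Eb := (QuotientGroup.mk' Z).subgroupMap E
  have hφ : Function.Surjective φ := (QuotientGroup.mk' Z).subgroupMap_surjective E
  let ψ : ↥E →* ↥Eb ⧸ Subgroup.center ↥Eb := (QuotientGroup.mk' (Subgroup.center ↥Eb)).comp φ
  have hψ : Function.Surjective ψ := (QuotientGroup.mk'_surjective _).comp hφ
  set W := ψ.ker.map E.subtype with hW
  have hWE : W ≤ E := Subgroup.map_subtype_le _
  have hWZ : ⁅W, E⁆ ≤ Z := by
    rw [Subgroup.commutator_le]
    intro w hw x hx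
    obtain ⟨w', hw', rfl⟩ := Subgroup.mem_map.mp hw
    have h1 : ψ w' = 1 := MonoidHom.mem_ker.mp hw'
    have h2 : φ w' ∈ Subgroup.center ↥Eb := (QuotientGroup.eq_one_iff _).mp h1
    have h3 := (Subgroup.mem_center_iff.mp h2) (φ ⟨x, hx⟩)
    have h4 : (QuotientGroup.mk' Z x) * (QuotientGroup.mk' Z (w' : G)) =
        (QuotientGroup.mk' Z (w' : G)) * (QuotientGroup.mk' Z x) := congrArg Subtype.val h3
    rw [← QuotientGroup.eq_one_iff]
    show (QuotientGroup.mk' Z) ⁅(w' : G), x⁆ = 1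
    rw [commutatorElement_def, map_mul, map_mul, map_mul, map_inv, map_inv, ← h4]
    group
  have hZcent : Z ≤ Subgroup.centralizer (E : Set G) := by
    intro z hz
    rw [Subgroup.mem_centralizer_iff]
    intro x _
    exact ((Subgroup.mem_center_iff.mp (hZ hz)) x)
  have h3 : ⁅⁅W, E⁆, E⁆ = ⊥ :=
    Subgroup.commutator_eq_bot_iff_le_centralizer.mpr (hWZ.trans hZcent)
  have h4 : ⁅⁅E, W⁆, E⁆ = ⊥ := by rw [Subgroup.commutator_comm E W]; exact h3
  have h5 : ⁅⁅E, E⁆, W⁆ = ⊥ := Subgroup.commutator_commutator_eq_bot_of_rotate h4 h3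
  have h6 : ⁅E, E⁆ ≤ Subgroup.centralizer (W : Set G) :=
    Subgroup.commutator_eq_bot_iff_le_centralizer.mp h5
  have hkerψ : ψ.ker ≤ Subgroup.center ↥E := by
    intro w hw
    rw [Subgroup.mem_center_iff]
    intro x
    have hwW : (w : G) ∈ W := Subgroup.mem_map.mpr ⟨w, hw, rfl⟩
    obtain ⟨c, hc, z, hz, hxcz⟩ := hEdec x x.2
    have hc1 : (w : G) * c = c * w := (Subgroup.mem_centralizer_iff.mp (h6 hc)) w hwW
    have hz1 : (w : G) * z = z * w := ((Subgroup.mem_center_iff.mp (hZ hz)) w)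
    apply Subtype.ext
    show (x : G) * w = w * x
    rw [hxcz, mul_assoc, ← hz1, ← mul_assoc, ← hc1, mul_assoc]
  have hqs := Cfsg.Agent.Lib.Helper2.commutator_quasisimple_of_surjective ψ hψ hkerψ hq.2
    (Cfsg.Agent.Lib.Helper2.quasisimple_quotient_not_comm hq)
  have e1 : ↥(commutator ↥E) ≃* ↥((commutator ↥E).map E.subtype) :=
    Subgroup.equivMapOfInjective _ _ E.subtype_injective
  have e2 : ↥((commutator ↥E).map E.subtype) ≃* ↥⁅E, E⁆ :=
    MulEquiv.subgroupCongr (Subgroup.map_subtype_commutator E)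
  exact Cfsg.Agent.Lib.Helper2.isQuasisimple_of_mulEquiv (e1.trans e2) hqs

end Cfsg.Agent.S3746
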