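import Cfsg.Statements.S3747
import Mathlib
import Cfsg.Agent.Lib.Helper2.Layer
import Cfsg.Agent.Lib.Helper2.Comp
import Cfsg.Agent.Lib.Helper2.Quasi
import Cfsg.Agent.Lib.Helper2.Nilp
import Cfsg.Agent.Lib.Helper4.FStarAct
import Cfsg.Agent.Lib.Helper6.Conj
-- import your own Cfsg.Agent.* helpers here

set_option autoImplicit false
open Cfsg

namespace Cfsg.Agent.S3747

open scoped commutatorElement

universe u

/-- A join of finitely many components with trivial centres has trivial centre (elementwise). -/
theorem central_eq_one {G : Type u} [Group G] [Finite G] (S : Finset (Subgroup G))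
    (hS : ∀ L ∈ S, Cfsg.IsComponent L ∧ ∀ l ∈ L, (∀ x ∈ L, x * l = l * x) → l = 1) :
    ∀ z ∈ sSup (↑S : Set (Subgroup G)), (∀ L ∈ S, ∀ x ∈ L, x * z = z * x) → z = 1 := by
  classical
  induction S using Finset.induction_on with
  | empty =>
    intro z hz _
    rw [Finset.coe_empty, sSup_empty, Subgroup.mem_bot] at hz
    exact hz
  | insert L S hLS ih =>
    intro z hz hcent
    have hS' : ∀ L' ∈ S, Cfsg.IsComponent L' ∧ ∀ l ∈ L', (∀ x ∈ L', x * l = l * x) → l = 1 :=
      fun L' hL' => hS L' (Finset.mem_insert_of_mem hL')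
    obtain ⟨hLc, hLZ⟩ := hS L (Finset.mem_insert_self L S)
    rw [Finset.coe_insert, sSup_insert] at hz
    have hC : sSup (↑S : Set (Subgroup G)) ≤ Subgroup.centralizer (L : Set G) := by
      apply sSup_le
      intro L' hL'
      have hL'S : L' ∈ S := hL'
      apply Cfsg.Agent.Lib.Helper2.components_commute L' L (hS' L' hL'S).1 hLc
      rintro rfl
      exact hLS hL'S
    obtain ⟨l, hl, c, hc, hzlc⟩ := Cfsg.Agent.Lib.Helper4.exists_mul_of_mem_sup_of_le_normalizer
      (hC.trans (Cfsg.Agent.Lib.Helper6.centralizer_le_normalizer' L)) hz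
    have hl1 : l = 1 := by
      apply hLZ l hl
      intro x hx
      have h1 := hcent L (Finset.mem_insert_self L S) x hx
      have h2 : x * c = c * x := (Subgroup.mem_centralizer_iff.mp (hC hc)) x hx
      have h3 : l = z * c⁻¹ := by rw [hzlc]; group
      have h4 : x * c⁻¹ = c⁻¹ * x := by
        calc x * c⁻¹ = c⁻¹ * (c * x) * c⁻¹ := by group
          _ = c⁻¹ * (x * c) * c⁻¹ := by rw [h2]
          _ = c⁻¹ * x := by group
      rw [h3, ← mul_assoc, h1, mul_assoc, h4, mul_assoc]
    have hzc : z = c := by rw [hzlc, hl1, one_mul]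
    apply ih hS' z (hzc ▸ hc)
    intro L' hL' x hx
    exact hcent L' (Finset.mem_insert_of_mem hL') x hx

theorem partA {G : Type u} [Group G] [Finite G] (K : Subgroup G) (hK : Cfsg.IsComponent K)
    (hZ : Subgroup.center ↥K = ⊥) :
    Subgroup.normalClosure (K : Set G) ≠ ⊥ ∧ ∀ N : Subgroup G, N.Normal →
      N ≤ Subgroup.normalClosure (K : Set G) → N = ⊥ ∨ N = Subgroup.normalClosure (K : Set G) := by
  classical
  have hKne : K ≠ ⊥ :=
    (Subgroup.nontrivial_iff_ne_bot K).mp (Cfsg.Agent.Lib.Helper2.quasisimple_nontrivial hK.2)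
  have hKle : K ≤ Subgroup.normalClosure (K : Set G) := Subgroup.le_normalClosure
  refine ⟨?_, ?_⟩
  · intro h
    apply hKne
    rw [eq_bot_iff, ← h]
    exact hKle
  intro N hN hNle
  haveI := hN
  by_cases hKN : K ≤ N
  · right
    exact le_antisymm hNle (Subgroup.normalClosure_le_normal hKN)
  left
  have hcent : K ≤ Subgroup.centralizer (N : Set G) :=
    (Cfsg.Agent.Lib.Helper2.component_le_or_centralizes K N hK hN.isSubnormal).resolve_left hKN
  have hNC : Subgroup.normalClosure (K : Set G) ≤ Subgroup.centralizer (N : Set G) :=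
    Subgroup.normalClosure_le_normal hcent
  -- the family of conjugates
  set 𝒦 : Set (Subgroup G) := Set.range (fun g : G => K.map (MulAut.conj g).toMonoidHom) with h𝒦
  have hfin : 𝒦.Finite := Set.toFinite 𝒦
  have hsup : Subgroup.normalClosure (K : Set G) ≤ sSup 𝒦 := by
    haveI : (sSup 𝒦).Normal := by
      apply Cfsg.Agent.Lib.Helper2.sSup_normal_of_conj_invariant
      rintro L ⟨g, rfl⟩ h
      exact ⟨h * g, Cfsg.Agent.Lib.Helper6.map_conj_mul K h g⟩
    apply Subgroup.normalClosure_le_normal
    have : K ≤ sSup 𝒦 := le_sSup ⟨1, Cfsg.Agent.Lib.Helper6.map_conj_one K⟩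
    exact this
  have hmem : ∀ L ∈ hfin.toFinset, Cfsg.IsComponent L ∧ ∀ l ∈ L, (∀ x ∈ L, x * l = l * x) → l = 1 := by
    intro L hL
    rw [Set.Finite.mem_toFinset] at hL
    obtain ⟨g, rfl⟩ := hL
    refine ⟨Cfsg.Agent.Lib.Helper2.isComponent_conj K hK g, ?_⟩
    intro l hl hlc
    rw [Cfsg.Agent.Lib.Helper6.mem_map_conj] at hl
    have h1 : (⟨g⁻¹ * l * g, hl⟩ : ↥K) ∈ Subgroup.center ↥K := by
      rw [Subgroup.mem_center_iff]
      intro k
      apply Subtype.ext
      show (k : G) * (g⁻¹ * l * g) = g⁻¹ * l * g * k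
      have h2 := hlc (g * k * g⁻¹) (Cfsg.Agent.Lib.Helper6.conj_mem_map_conj K g k.2)
      calc (k : G) * (g⁻¹ * l * g) = g⁻¹ * ((g * k * g⁻¹) * l) * g := by group
        _ = g⁻¹ * (l * (g * k * g⁻¹)) * g := by rw [h2]
        _ = g⁻¹ * l * g * k := by group
    rw [hZ, Subgroup.mem_bot] at h1
    have h3 : g⁻¹ * l * g = 1 := congrArg Subtype.val h1
    calc l = g * (g⁻¹ * l * g) * g⁻¹ := by group
      _ = 1 := by rw [h3]; group
  rw [eq_bot_iff]
  intro n hn
  rw [Subgroup.mem_bot]
  apply central_eq_one hfin.toFinset hmem n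
  · rw [Set.Finite.coe_toFinset]
    exact hsup (hNle hn)
  · intro L hL x hx
    rw [Set.Finite.mem_toFinset] at hL
    obtain ⟨g, rfl⟩ := hL
    have hx' : x ∈ Subgroup.normalClosure (K : Set G) :=
      Cfsg.Agent.Lib.Helper6.map_conj_le_normal K _ hKle g hx
    exact ((Subgroup.mem_centralizer_iff.mp (hNC hx')) n hn).symm

/-- Let G be a finite group. (a) If K is a component of G with trivial centre, then the normal closure of K in G is a minimal normal subgroup of G. (b) If the Fitting subgroup of G is trivial, then the layer E(G) is generated by the minimal normal subgroups of G. -/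
theorem result {G : Type*} [Group G] [Finite G] : (∀ K : Subgroup G, Cfsg.IsComponent K → Subgroup.center ↥K = ⊥ → (Subgroup.normalClosure (K : Set G) ≠ ⊥ ∧ ∀ N : Subgroup G, N.Normal → N ≤ Subgroup.normalClosure (K : Set G) → N = ⊥ ∨ N = Subgroup.normalClosure (K : Set G))) ∧ (Cfsg.fittingSubgroup G = ⊥ → sSup {N : Subgroup G | N ≠ ⊥ ∧ N.Normal ∧ ∀ N' : Subgroup G, N'.Normal → N' ≤ N → N' = ⊥ ∨ N' = N} = Cfsg.layer G) := by
  classical
  refine ⟨fun K hK hZ => partA K hK hZ, ?_⟩
  intro hF
  apply le_antisymm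
  · apply sSup_le
    rintro N₀ ⟨hN₀ne, hN₀n, hN₀min⟩
    haveI := hN₀n
    -- a minimal nontrivial subnormal subgroup inside N₀
    obtain ⟨T, ⟨hTsn, hTle, hTne⟩, hTmin⟩ := (wellFounded_lt (α := Subgroup G)).has_min
      {T : Subgroup G | T.IsSubnormal ∧ T ≤ N₀ ∧ T ≠ ⊥} ⟨N₀, hN₀n.isSubnormal, le_rfl, hN₀ne⟩
    haveI hTnt : Nontrivial ↥T := (Subgroup.nontrivial_iff_ne_bot T).mpr hTne
    have hTsimple : ∀ H : Subgroup ↥T, H.Normal → H = ⊥ ∨ H = ⊤ := by
      intro H hH
      by_cases hH0 : H = ⊥
      · exact Or.inl hH0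
      right
      have hmem : H.map T.subtype ∈ {T : Subgroup G | T.IsSubnormal ∧ T ≤ N₀ ∧ T ≠ ⊥} := by
        refine ⟨?_, (Subgroup.map_subtype_le H).trans hTle, ?_⟩
        · apply Subgroup.IsSubnormal.trans (Subgroup.map_subtype_le H) _ hTsn
          have h1 : (H.map T.subtype).subgroupOf T = H :=
            Subgroup.comap_map_eq_self_of_injective T.subtype_injective H
          rw [h1]
          exact hH.isSubnormal
        · intro h
          apply hH0
          exact (Subgroup.map_eq_bot_iff_of_injective H T.subtype_injective).mp h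
      have hnlt := hTmin _ hmem
      have heq : H.map T.subtype = T := by
        by_contra hne
        exact hnlt (lt_of_le_of_ne (Subgroup.map_subtype_le H) hne)
      rw [eq_top_iff]
      intro t _
      have ht : (t : G) ∈ H.map T.subtype := by rw [heq]; exact t.2
      obtain ⟨h, hh, hht⟩ := Subgroup.mem_map.mp ht
      have : h = t := Subtype.ext hht
      rw [← this]; exact hh
    have hTnc : ¬ ∀ a b : ↥T, a * b = b * a := by
      intro hc
      letI : CommGroup ↥T := { (inferInstance : Group ↥T) with mul_comm := hc }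
      have hnil : Group.IsNilpotent ↥T := inferInstance
      have := Cfsg.Agent.Lib.Helper2.subnormal_nilpotent_le_fitting T hTsn hnil
      rw [hF] at this
      exact hTne (eq_bot_iff.mpr this)
    have hperf : Group.IsPerfect ↥T := by
      rw [Group.isPerfect_def]
      rcases hTsimple (commutator ↥T) inferInstance with h | h
      · exfalso
        apply hTnc
        intro a b
        have : ⁅a, b⁆ ∈ commutator ↥T := Subgroup.commutator_mem_commutator (Subgroup.mem_top a) (Subgroup.mem_top b)
        rw [h, Subgroup.mem_bot] at this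
        exact commutatorElement_eq_one_iff_mul_comm.mp this
      · exact h
    have hcen : Subgroup.center ↥T = ⊥ := by
      rcases hTsimple (Subgroup.center ↥T) inferInstance with h | h
      · exact h
      · exfalso
        apply hTnc
        intro a b
        have : b ∈ Subgroup.center ↥T := by rw [h]; exact Subgroup.mem_top b
        exact (Subgroup.mem_center_iff.mp this) a
    have hsimp : IsSimpleGroup ↥T := ⟨hTsimple⟩
    have hqs : Cfsg.IsQuasisimple ↥T := by
      refine ⟨hperf, ?_⟩
      have e : ↥T ⧸ Subgroup.center ↥T ≃* ↥T :=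
        (QuotientGroup.quotientMulEquivOfEq hcen).trans QuotientGroup.quotientBot
      exact e.isSimpleGroup
    have hTcomp : Cfsg.IsComponent T := ⟨hTsn, hqs⟩
    have hNCle : Subgroup.normalClosure (T : Set G) ≤ N₀ := Subgroup.normalClosure_le_normal hTle
    have hNCne : Subgroup.normalClosure (T : Set G) ≠ ⊥ := by
      intro h
      apply hTne
      rw [eq_bot_iff, ← h]
      exact Subgroup.le_normalClosure
    have hNCeq : Subgroup.normalClosure (T : Set G) = N₀ :=
      (hN₀min _ inferInstance hNCle).resolve_left hNCne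
    haveI := Cfsg.Agent.Lib.Helper2.layer_normal G
    rw [← hNCeq]
    exact Subgroup.normalClosure_le_normal (Cfsg.Agent.Lib.Helper2.component_le_layer T hTcomp)
  · apply sSup_le
    intro K hK
    have hKc : Cfsg.IsComponent K := hK
    have hZ : Subgroup.center ↥K = ⊥ := by
      have hsn : ((Subgroup.center ↥K).map K.subtype).IsSubnormal := by
        apply Subgroup.IsSubnormal.trans (Subgroup.map_subtype_le _) _ hKc.1
        have h1 : ((Subgroup.center ↥K).map K.subtype).subgroupOf K = Subgroup.center ↥K :=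
          Subgroup.comap_map_eq_self_of_injective K.subtype_injective _
        rw [h1]
        exact (inferInstance : (Subgroup.center ↥K).Normal).isSubnormal
      haveI : Group.IsNilpotent ↥(Subgroup.center ↥K) := by
        letI : CommGroup ↥(Subgroup.center ↥K) := { (inferInstance : Group ↥(Subgroup.center ↥K)) with mul_comm := fun a b => Subtype.ext ((Subgroup.mem_center_iff.mp b.2) a) }
        infer_instance
      have hnil : Group.IsNilpotent ↥((Subgroup.center ↥K).map K.subtype) :=
        Group.nilpotent_of_mulEquiv (Subgroup.equivMapOfInjective _ _ K.subtype_injective)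
      have h2 := Cfsg.Agent.Lib.Helper2.subnormal_nilpotent_le_fitting _ hsn hnil
      rw [hF] at h2
      exact (Subgroup.map_eq_bot_iff_of_injective _ K.subtype_injective).mp (eq_bot_iff.mpr h2)
    obtain ⟨hne, hmin⟩ := partA K hKc hZ
    exact Subgroup.le_normalClosure.trans (le_sSup ⟨hne, inferInstance, hmin⟩)

end Cfsg.Agent.S3747
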