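import Cfsg.Statements.S3748
import Mathlib
import Cfsg.Agent.Lib.Helper1.Subn
import Cfsg.Agent.Lib.Helper2.Nilp
import Cfsg.Agent.Lib.Helper2.Fit
import Cfsg.Agent.Lib.Helper7.Subnormal
import Cfsg.Agent.Lib.Helper6.Conj
-- import your own Cfsg.Agent.* helpers here

set_option autoImplicit false
open Cfsg

namespace Cfsg.Agent.S3748


theorem closure_conj {G : Type*} [Group G] [Finite G] (M L : Subgroup G) (hL : L.IsSubnormal)
    (hLM : L ≤ M) :
    ∃ N : Subgroup G, N.IsSubnormal ∧ N ≤ M ∧ M ≤ Subgroup.normalizer (N : Set G) ∧ L ≤ N := by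
  refine ⟨⨆ m : M, L.map (MulAut.conj (m : G)).toMonoidHom, ?_, ?_, ?_, ?_⟩
  · rw [iSup]
    apply Cfsg.Agent.Lib.Helper1.subnormal_sSup
    rintro U ⟨m, rfl⟩
    exact hL.map (MulAut.conj (m : G)).surjective
  · apply iSup_le
    intro m
    exact Cfsg.Agent.Lib.Helper6.map_conj_le_of_mem L M hLM m.2
  · intro m hm
    rw [← Cfsg.Agent.Lib.Helper6.map_conj_eq_self_iff, Subgroup.map_iSup]
    have h1 : ∀ m' : M, (L.map (MulAut.conj (m' : G)).toMonoidHom).map (MulAut.conj m).toMonoidHom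
        = L.map (MulAut.conj (((⟨m, hm⟩ : M) * m' : M) : G)).toMonoidHom := by
      intro m'
      rw [Subgroup.coe_mul, Cfsg.Agent.Lib.Helper6.map_conj_mul]
    simp_rw [h1]
    exact Equiv.iSup_comp (Equiv.mulLeft (⟨m, hm⟩ : M))
      (g := fun m' : M => L.map (MulAut.conj (m' : G)).toMonoidHom)
  · have h := le_iSup (fun m : M => L.map (MulAut.conj (m : G)).toMonoidHom) 1
    have h1 : L.map (MulAut.conj ((1 : M) : G)).toMonoidHom = L := by
      rw [Subgroup.coe_one]; exact Cfsg.Agent.Lib.Helper6.map_conj_one L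
    calc L = L.map (MulAut.conj ((1 : M) : G)).toMonoidHom := h1.symm
      _ ≤ _ := h

/-- Call a proper subgroup M of G primitive when M = N_G(N) for every non-trivial normal subgroup N of M. If M is a primitive subgroup of the finite group G, then no non-trivial subnormal subgroup of G is contained in M; in particular M ∩ F(G) = 1. -/
theorem result {G : Type*} [Group G] [Finite G] (M : Subgroup G) (hM : M ≠ ⊤) (hprim : ∀ N : Subgroup G, N ≤ M → M ≤ Subgroup.normalizer (N : Set G) → N ≠ ⊥ → Subgroup.normalizer (N : Set G) = M) : (∀ L : Subgroup G, L.IsSubnormal → L ≤ M → L = ⊥) ∧ M ⊓ Cfsg.fittingSubgroup G = ⊥ := by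
  classical
  have claim1 : ∀ L : Subgroup G, L.IsSubnormal → L ≤ M → L = ⊥ := by
    intro L hL hLM
    by_contra hLbot
    let S : Set (Subgroup G) :=
      {N | N.IsSubnormal ∧ N ≤ M ∧ M ≤ Subgroup.normalizer (N : Set G) ∧ N ≠ ⊥}
    have hSne : S.Nonempty := by
      obtain ⟨N, h1, h2, h3, h4⟩ := closure_conj M L hL hLM
      exact ⟨N, h1, h2, h3, fun h => hLbot (le_bot_iff.mp (h ▸ h4))⟩
    obtain ⟨N, ⟨hN1, hN2, hN3, hN4⟩, hNmax⟩ :=
      (wellFounded_gt (α := Subgroup G)).has_min S hSne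
    have hNtop : N ≠ ⊤ := fun h => hM (top_le_iff.mp (h ▸ hN2))
    rcases Subgroup.IsSubnormal.iff_eq_top_or_exists.mp hN1 with h | ⟨K, hNK, hK, hKn⟩
    · exact hNtop h
    · have hKnorm : K ≤ Subgroup.normalizer (N : Set G) :=
        (Subgroup.normal_subgroupOf_iff_le_normalizer hNK.le).mp hKn
      rw [hprim N hN2 hN3 hN4] at hKnorm
      obtain ⟨K', h1, h2, h3, h4⟩ := closure_conj M K hK hKnorm
      have hK'bot : K' ≠ ⊥ := by
        intro h
        rw [h] at h4
        have : N < ⊥ := lt_of_lt_of_le hNK h4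
        exact not_lt_bot this
      exact hNmax K' ⟨h1, h2, h3, hK'bot⟩ (lt_of_lt_of_le hNK h4)
  refine ⟨claim1, ?_⟩
  apply claim1
  · have hFn : (Cfsg.fittingSubgroup G).Normal := Cfsg.Agent.Lib.Helper2.fitting_normal G
    haveI := Cfsg.Agent.Lib.Helper2.fitting_isNilpotent G
    have h1 : ((M ⊓ Cfsg.fittingSubgroup G).subgroupOf (Cfsg.fittingSubgroup G)).IsSubnormal :=
      Cfsg.Agent.Lib.Helper7.isSubnormal_of_isNilpotent _
    exact Subgroup.IsSubnormal.trans inf_le_right h1 hFn.isSubnormal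
  · exact inf_le_left

end Cfsg.Agent.S3748
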