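import Cfsg.Statements.S3749
import Mathlib
import Cfsg.Agent.Lib.Helper3.PrimAct
import Cfsg.Agent.Lib.Helper3.PiCore
import Cfsg.Agent.Lib.Helper4.PCore
import Cfsg.Agent.Lib.Helper4.Normalizer
import Cfsg.Agent.Lib.Helper3.PRes

set_option autoImplicit false
open Cfsg

namespace Cfsg.Agent.S3749

open Cfsg.Agent.Lib.Helper3

/-- Call a proper subgroup M of G primitive when M = N_G(N) for every non-trivial normal subgroup N of M. Let M be a primitive subgroup of the finite group G, p a prime with O_p(M) ≠ 1, and N a normal subgroup of G with M ∩ N = 1. Then p does not divide the order of N; for every prime q there is exactly one Sylow q-subgroup of N normalized by M; and if the order of N has at least two prime divisors then M is not a maximal subgroup of G. -/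
theorem result {G : Type*} [Group G] [Finite G] (M : Subgroup G) (hM : M ≠ ⊤) (hprim : ∀ N : Subgroup G, N ≤ M → M ≤ Subgroup.normalizer (N : Set G) → N ≠ ⊥ → Subgroup.normalizer (N : Set G) = M) {p : ℕ} [Fact p.Prime] (hOp : Cfsg.pCore p ↥M ≠ ⊥) (N : Subgroup G) [N.Normal] (hMN : M ⊓ N = ⊥) : ¬ p ∣ Nat.card N ∧ (∀ q : ℕ, [Fact q.Prime] → ∃! Q : Sylow q ↥N, M ≤ Subgroup.normalizer ((Q : Subgroup ↥N).map N.subtype : Set G)) ∧ ((∃ q r : ℕ, q.Prime ∧ r.Prime ∧ q ≠ r ∧ q ∣ Nat.card N ∧ r ∣ Nat.card N) → ¬ IsCoatom M) := by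
  classical
  have hp : p.Prime := Fact.out
  have hNn : N.Normal := inferInstance
  obtain ⟨P, hPdef⟩ : ∃ P : Subgroup G, P = (Cfsg.pCore p ↥M).map M.subtype := ⟨_, rfl⟩
  have hPp : IsPGroup p ↥P := by
    rw [hPdef]
    exact (Cfsg.Agent.Lib.Helper4.pCore_isPGroup p ↥M).map _
  have hPM : P ≤ M := by
    rw [hPdef]
    exact Subgroup.map_subtype_le _
  have hPn : M ≤ Subgroup.normalizer (P : Set G) := by
    apply Cfsg.Agent.Lib.Helper4.le_normalizer_of_conj_mem
    intro s hs d hd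
    rw [hPdef] at hd ⊢
    obtain ⟨d', hd', rfl⟩ := hd
    exact ⟨⟨s, hs⟩ * d' * ⟨s, hs⟩⁻¹,
      (Cfsg.Agent.Lib.Helper4.pCore_normal p ↥M).conj_mem d' hd' ⟨s, hs⟩, rfl⟩
  have hP1 : P ≠ ⊥ := by
    intro h
    apply hOp
    rw [hPdef] at h
    exact (Subgroup.map_eq_bot_iff_of_injective _ M.subtype_injective).mp h
  have hNP : Subgroup.normalizer (P : Set G) = M := hprim P hPM hPn hP1
  have hC : ∀ n ∈ N, (∀ x ∈ P, x * n = n * x) → n = 1 := by
    intro n hn hc
    have h1 : n ∈ Subgroup.centralizer (P : Set G) := by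
      rw [Subgroup.mem_centralizer_iff]
      intro x hx
      exact hc x hx
    have h2 : n ∈ M := by
      rw [← hNP]
      exact Subgroup.centralizer_le_normalizer _ h1
    have h3 : n ∈ M ⊓ N := Subgroup.mem_inf.mpr ⟨h2, hn⟩
    rw [hMN] at h3
    exact Subgroup.mem_bot.mp h3
  have ha : ¬ p ∣ Nat.card N := by
    intro hd
    have hinv : ∀ x ∈ P, ∀ s ∈ (N : Set G), x * s * x⁻¹ ∈ (N : Set G) :=
      fun x _ s hs => hNn.conj_mem s hs x
    obtain ⟨s, hs, hs1, hsc⟩ := exists_centralized_ne_of_dvd P hPp (N : Set G) hinv hd 1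
      N.one_mem (by intro x _; simp)
    exact hs1 (hC s hs hsc)
  have hb : ∀ q : ℕ, [Fact q.Prime] → ∃! Q : Sylow q ↥N,
      M ≤ Subgroup.normalizer ((Q : Subgroup ↥N).map N.subtype : Set G) := by
    intro q _
    obtain ⟨Q, hQ⟩ := exists_sylow_normalized (q := q) P N hPp ha
    have hQM : M ≤ Subgroup.normalizer ((Q : Subgroup ↥N).map N.subtype : Set G) := by
      intro m hm
      apply mem_normalizer_of_map_conj_eq'
      rw [← sylow_conjNormal_smul_map_subtype N Q m]
      have hsm : (MulAut.conjNormal m : MulAut ↥N) • Q = Q := by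
        apply sylow_eq_of_normalized P N hPp ha hC
        · intro x hx
          rw [sylow_conjNormal_smul_map_subtype]
          apply mem_normalizer_of_map_conj_eq'
          have hx' : m⁻¹ * x * m ∈ P := by
            have h1 := (Subgroup.mem_normalizer_iff.mp (inv_mem (hPn hm)) x).mp hx
            simpa using h1
          rw [← map_conj_mul, show x * m = m * (m⁻¹ * x * m) by group, map_conj_mul,
            map_conj_eq_of_mem_normalizer _ _ (hQ hx')]
        · exact hQ
      rw [hsm]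
    refine ⟨Q, hQM, ?_⟩
    intro Q2 hQ2
    exact sylow_eq_of_normalized P N hPp ha hC Q2 Q (le_trans hPM hQ2) hQ
  refine ⟨ha, hb, ?_⟩
  rintro ⟨q, r, hq, hr, hqr, hqN, hrN⟩ hco
  haveI : Fact q.Prime := ⟨hq⟩
  obtain ⟨Q, hQM, -⟩ := hb q
  have hQ'N : (Q : Subgroup ↥N).map N.subtype ≤ N := Subgroup.map_subtype_le _
  have hQ1 : (Q : Subgroup ↥N).map N.subtype ≠ ⊥ := by
    intro h
    have h1 : (Q : Subgroup ↥N) = ⊥ :=
      (Subgroup.map_eq_bot_iff_of_injective _ N.subtype_injective).mp h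
    exact Sylow.ne_bot_of_dvd_card Q hqN h1
  have hnot : ¬ (Q : Subgroup ↥N).map N.subtype ≤ M := by
    intro h
    apply hQ1
    rw [eq_bot_iff, ← hMN]
    exact le_inf h hQ'N
  have hlt : M < M ⊔ (Q : Subgroup ↥N).map N.subtype :=
    lt_of_le_of_ne le_sup_left (fun h => hnot (h ▸ le_sup_right))
  have htop : M ⊔ (Q : Subgroup ↥N).map N.subtype = ⊤ := hco.2 _ hlt
  have hNQ : N ≤ (Q : Subgroup ↥N).map N.subtype := by
    intro n hn
    have hn' : n ∈ M ⊔ (Q : Subgroup ↥N).map N.subtype := by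
      rw [htop]
      exact Subgroup.mem_top n
    obtain ⟨m, hm, k, hk, rfl⟩ := exists_mul_of_mem_sup_of_le_normalizer M _ hQM hn'
    have hmN : m ∈ N := by
      have h1 := N.mul_mem hn (N.inv_mem (hQ'N hk))
      simpa using h1
    have hm1 : m = 1 := by
      have h1 : m ∈ M ⊓ N := Subgroup.mem_inf.mpr ⟨hm, hmN⟩
      rw [hMN] at h1
      exact Subgroup.mem_bot.mp h1
    rw [hm1, one_mul]
    exact hk
  have hNq : IsPGroup q ↥N := by
    intro g
    obtain ⟨u, hu, hug⟩ := hNQ g.2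
    have hgu : u = g := Subtype.ext hug
    obtain ⟨k, hk⟩ := Q.isPGroup' ⟨u, hu⟩
    refine ⟨k, ?_⟩
    rw [← hgu]
    have h1 := congrArg Subtype.val hk
    simpa using h1
  obtain ⟨k, hk⟩ := IsPGroup.iff_card.mp hNq
  rw [hk] at hrN
  exact hqr ((Nat.prime_dvd_prime_iff_eq hr hq).mp (hr.dvd_of_dvd_pow hrN)).symm

end Cfsg.Agent.S3749
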