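import Cfsg.Statements.S3750
import Mathlib
import Cfsg.Agent.Lib.Helper2.FStarCent
import Cfsg.Agent.Lib.Helper2.Layer3
import Cfsg.Agent.Lib.Helper2.Comp
import Cfsg.Agent.Lib.Helper2.Nilp
import Cfsg.Agent.Lib.Helper2.Quasi
import Cfsg.Agent.Lib.Helper2.Fit
import Cfsg.Agent.Lib.Helper2.Layer

set_option autoImplicit false
open Cfsg

namespace Cfsg.Agent.S3750

open Cfsg.Agent.Lib.Helper2

/-- Call a proper subgroup M of G primitive when M = N_G(N) for every non-trivial normal subgroup N of M. Let M be a primitive subgroup of the finite group G and N a normal subgroup of G with M ∩ F*(N) ≠ 1. Then F(G) = 1 and F*(N) = F*(G) = E(G); in particular every minimal normal subgroup of G is contained in N. -/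
theorem result {G : Type*} [Group G] [Finite G] (M : Subgroup G) (hM : M ≠ ⊤) (hprim : ∀ N : Subgroup G, N ≤ M → M ≤ Subgroup.normalizer (N : Set G) → N ≠ ⊥ → Subgroup.normalizer (N : Set G) = M) (N : Subgroup G) [N.Normal] (hMF : M ⊓ (Cfsg.generalizedFittingSubgroup ↥N).map N.subtype ≠ ⊥) : Cfsg.fittingSubgroup G = ⊥ ∧ (Cfsg.generalizedFittingSubgroup ↥N).map N.subtype = Cfsg.generalizedFittingSubgroup G ∧ Cfsg.generalizedFittingSubgroup G = Cfsg.layer G ∧ ∀ K : Subgroup G, K.Normal → K ≠ ⊥ → (∀ K' : Subgroup G, K'.Normal → K' ≤ K → K' = ⊥ ∨ K' = K) → K ≤ N := by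
  classical
  have hNsub : N.IsSubnormal := Subgroup.Normal.isSubnormal inferInstance
  have hFNn : ((Cfsg.generalizedFittingSubgroup ↥N).map N.subtype).Normal := by
    rw [← Subgroup.normalizer_eq_top_iff]
    have h1 := normalizer_le_normalizer_genFittingOf N
    rw [Subgroup.normalizer_eq_top] at h1
    exact top_le_iff.mp h1
  have hMD : M ≤ Subgroup.normalizer
      ((M ⊓ (Cfsg.generalizedFittingSubgroup ↥N).map N.subtype : Subgroup G) : Set G) := by
    intro m hm
    rw [Subgroup.mem_normalizer_iff]
    intro h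
    constructor
    · intro hh
      exact Subgroup.mem_inf.mpr ⟨M.mul_mem (M.mul_mem hm hh.1) (M.inv_mem hm),
        hFNn.conj_mem _ hh.2 m⟩
    · intro hh
      refine Subgroup.mem_inf.mpr ⟨?_, ?_⟩
      · have := M.mul_mem (M.mul_mem (M.inv_mem hm) hh.1) hm
        simpa [mul_assoc] using this
      · have := hFNn.conj_mem _ hh.2 m⁻¹
        simpa [mul_assoc] using this
  have hcentD : Subgroup.centralizer
      ((M ⊓ (Cfsg.generalizedFittingSubgroup ↥N).map N.subtype : Subgroup G) : Set G) ≤ M := by
    have h1 := hprim _ inf_le_left hMD hMF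
    exact le_trans (Subgroup.centralizer_le_normalizer _) (le_of_eq h1)
  have hcore : ∀ K : Subgroup G, K.Normal → K ≤ M → K = ⊥ := by
    intro K hKn hKM
    by_contra hne
    have h1 := hprim K hKM (by rw [Subgroup.normalizer_eq_top]; exact le_top) hne
    rw [Subgroup.normalizer_eq_top] at h1
    exact hM h1.symm
  have hFNle : (Cfsg.generalizedFittingSubgroup ↥N).map N.subtype ≤
      Cfsg.generalizedFittingSubgroup G := by
    unfold Cfsg.generalizedFittingSubgroup
    rw [Subgroup.map_sup]
    exact sup_le_sup (layer_map_subtype_le N hNsub) (fitting_map_subtype_le N hNsub)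
  have hFNN : (Cfsg.generalizedFittingSubgroup ↥N).map N.subtype ≤ N := Subgroup.map_subtype_le _
  have hcentN : Subgroup.centralizer (N : Set G) ≤ M := by
    refine le_trans (Subgroup.centralizer_le ?_) hcentD
    intro x hx
    exact hFNN (Subgroup.mem_inf.mp hx).2
  -- (1) F(G) = 1
  have hF : Cfsg.fittingSubgroup G = ⊥ := by
    by_contra hF
    have hFn : (Cfsg.fittingSubgroup G).Normal := fitting_normal G
    have hnil : Group.IsNilpotent ↥(Cfsg.fittingSubgroup G) := fitting_isNilpotent G
    have : Nontrivial ↥(Cfsg.fittingSubgroup G) :=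
      (Subgroup.nontrivial_iff_ne_bot _).mpr hF
    have hc := Group.IsNilpotent.center_ne_bot (G := ↥(Cfsg.fittingSubgroup G))
    obtain ⟨⟨z, hz⟩, hz1'⟩ := (Subgroup.ne_bot_iff_exists_ne_one).mp hc
    have hz1 : z ≠ 1 := fun h => hz1' (Subtype.ext h)
    have hAn : (Cfsg.fittingSubgroup G ⊓
        Subgroup.centralizer ((Cfsg.fittingSubgroup G : Subgroup G) : Set G)).Normal :=
      inferInstance
    have hAM : Cfsg.fittingSubgroup G ⊓
        Subgroup.centralizer ((Cfsg.fittingSubgroup G : Subgroup G) : Set G) ≤ M := by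
      refine le_trans ?_ hcentD
      intro a ha
      obtain ⟨haF, haC⟩ := Subgroup.mem_inf.mp ha
      have hle : Cfsg.generalizedFittingSubgroup G ≤ Subgroup.centralizer ({a} : Set G) := by
        unfold Cfsg.generalizedFittingSubgroup
        refine sup_le ?_ ?_
        · intro b hb
          rw [Subgroup.mem_centralizer_singleton_iff]
          exact layer_fitting_commute b a hb haF
        · intro b hb
          rw [Subgroup.mem_centralizer_singleton_iff]
          exact (Subgroup.mem_centralizer_iff.mp haC) b hb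
      rw [Subgroup.mem_centralizer_iff]
      intro d hd
      have hd2 := hle (hFNle (Subgroup.mem_inf.mp hd).2)
      rw [Subgroup.mem_centralizer_singleton_iff] at hd2
      exact hd2
    have hA := hcore _ hAn hAM
    apply hz1
    have hzA : (z : G) ∈ Cfsg.fittingSubgroup G ⊓
        Subgroup.centralizer ((Cfsg.fittingSubgroup G : Subgroup G) : Set G) := by
      refine Subgroup.mem_inf.mpr ⟨z.2, ?_⟩
      rw [Subgroup.mem_centralizer_iff]
      intro b hb
      have h1 := (Subgroup.mem_center_iff.mp hz) ⟨b, hb⟩
      have h2 := congrArg Subtype.val h1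
      simpa using h2
    rw [hA, Subgroup.mem_bot] at hzA
    exact Subtype.ext hzA
  have h3 : Cfsg.generalizedFittingSubgroup G = Cfsg.layer G := by
    unfold Cfsg.generalizedFittingSubgroup
    rw [hF, sup_bot_eq]
  refine ⟨hF, ?_, h3, ?_⟩
  · refine le_antisymm hFNle ?_
    rw [h3]
    unfold Cfsg.layer
    refine sSup_le ?_
    intro L hL
    rcases component_le_or_centralizes L N hL hNsub with hLN | hLC
    · have h1 : Cfsg.IsComponent (L.subgroupOf N) := isComponent_subgroupOf L N hLN hL
      have h2 : L.subgroupOf N ≤ Cfsg.generalizedFittingSubgroup ↥N := by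
        unfold Cfsg.generalizedFittingSubgroup
        exact le_trans (component_le_layer _ h1) le_sup_left
      have h3' := Subgroup.map_mono (f := N.subtype) h2
      rw [Subgroup.map_subgroupOf_eq_of_le hLN] at h3'
      exact h3'
    · exfalso
      have h1 : Subgroup.normalClosure (L : Set G) ≤ Subgroup.centralizer (N : Set G) :=
        Subgroup.normalClosure_le_normal hLC
      have h2 := hcore _ Subgroup.normalClosure_normal (le_trans h1 hcentN)
      have h3' : L = ⊥ := by
        rw [eq_bot_iff, ← h2]
        exact Subgroup.le_normalClosure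
      have h4 : Nontrivial ↥L := quasisimple_nontrivial hL.2
      exact ((Subgroup.nontrivial_iff_ne_bot _).mp h4) h3'
  · intro K hKn hK1 hKmin
    have hKNn : (K ⊓ N).Normal := inferInstance
    rcases hKmin (K ⊓ N) hKNn inf_le_left with h | h
    · exfalso
      have h1 : ⁅K, N⁆ = ⊥ := by
        rw [eq_bot_iff, ← h]
        exact Subgroup.commutator_le_inf K N
      rw [Subgroup.commutator_eq_bot_iff_le_centralizer] at h1
      exact hK1 (hcore K hKn (le_trans h1 hcentN))
    · rw [← h]
      exact inf_le_right

end Cfsg.Agent.S3750
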