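import Cfsg.Statements.S3751
import Mathlib
import Cfsg.Agent.Lib.Helper3.PrimPair
import Cfsg.Agent.Lib.Helper4.PCore

set_option autoImplicit false
open Cfsg

namespace Cfsg.Agent.S3751

open Cfsg.Agent.Lib.Helper3

/-- Two distinct subgroups M₁, M₂ of G form a primitive pair when, for {i, j} = {1, 2}, every non-trivial normal subgroup A of M_i contained in M₁ ∩ M₂ satisfies N_{M_j}(A) = M₁ ∩ M₂; the pair has characteristic p when moreover C_{M_i}(O_p(M_i)) ≤ O_p(M_i) for both i and O_p(M₁)O_p(M₂) ≤ M₁ ∩ M₂. Let G be a finite group, p a prime dividing its order, with O_p(G) = 1 and every p-local subgroup of characteristic p. Then either G has a primitive pair of characteristic p, or every maximal p-local subgroup M of G is strongly p-embedded in G: M is a proper subgroup, p divides its order, and for every g ∉ M the order of M ∩ gMg⁻¹ is prime to p. -/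
theorem result {G : Type*} [Group G] [Finite G] {p : ℕ} [Fact p.Prime] (hloc : Cfsg.IsOfLocalCharacteristic p G) (hOp : Cfsg.pCore p G = ⊥) : (∃ M₁ M₂ : Subgroup G, M₁ ≠ M₂ ∧ (∀ A : Subgroup G, A ≠ ⊥ → A ≤ M₁ ⊓ M₂ → (M₁ ≤ Subgroup.normalizer (A : Set G) → M₂ ⊓ Subgroup.normalizer (A : Set G) = M₁ ⊓ M₂) ∧ (M₂ ≤ Subgroup.normalizer (A : Set G) → M₁ ⊓ Subgroup.normalizer (A : Set G) = M₁ ⊓ M₂)) ∧ Subgroup.centralizer (Cfsg.pCore p ↥M₁ : Set ↥M₁) ≤ Cfsg.pCore p ↥M₁ ∧ Subgroup.centralizer (Cfsg.pCore p ↥M₂ : Set ↥M₂) ≤ Cfsg.pCore p ↥M₂ ∧ (Cfsg.pCore p ↥M₁).map M₁.subtype ⊔ (Cfsg.pCore p ↥M₂).map M₂.subtype ≤ M₁ ⊓ M₂) ∨ (∀ M : Subgroup G, (∃ T : Subgroup G, IsPGroup p T ∧ T ≠ ⊥ ∧ M = Subgroup.normalizer (T : Set G)) → (∀ L : Subgroup G, (∃ T : Subgroup G, IsPGroup p T ∧ T ≠ ⊥ ∧ L = Subgroup.normalizer (T : Set G)) → M ≤ L → L = M) → M ≠ ⊤ ∧ p ∣ Nat.card M ∧ ∀ g : G, g ∉ M → ¬ p ∣ Nat.card ↥(M ⊓ M.map (MulAut.conj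 g).toMonoidHom)) := by
  classical
  have hp : p.Prime := Fact.out
  by_cases hex : ∃ L₁ L₂ : Subgroup G, IsMaxPLocalSub p L₁ ∧ IsMaxPLocalSub p L₂ ∧ L₁ ≠ L₂ ∧
      Cfsg.pCoreOf p L₁ ≤ L₂
  · left
    obtain ⟨L₁, L₂, hL₁, hL₂, hne, h12⟩ := hex
    obtain ⟨M₁, M₂, h₁, h₂, hne', h12', h21'⟩ := exists_pair_of_one_sided hL₁ hL₂ hne h12
    refine ⟨M₁, M₂, hne', ?_, isPLocalSub_charp hloc h₁.1, isPLocalSub_charp hloc h₂.1, ?_⟩
    · intro A hA1 hA
      refine ⟨fun h => primitive_of_isMaxPLocalSub hloc h₁ A hA1 hA h, fun h => ?_⟩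
      have h0 := primitive_of_isMaxPLocalSub hloc h₂ (M₂ := M₁) A hA1
        (by rw [inf_comm]; exact hA) h
      rw [h0, inf_comm]
    · exact sup_le (le_inf (pCoreOf_le_self M₁) h12') (le_inf h21' (pCoreOf_le_self M₂))
  · right
    intro M hMloc hMmax
    have hMax : IsMaxPLocalSub p M := ⟨hMloc, hMmax⟩
    refine ⟨?_, ?_, ?_⟩
    · intro htop
      obtain ⟨T, hT, hT1, hMT⟩ := hMloc
      apply hT1
      have hTn : T.Normal := by
        rw [← Subgroup.normalizer_eq_top_iff, ← hMT, htop]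
      rw [eq_bot_iff, ← hOp]
      exact Cfsg.Agent.Lib.Helper4.le_pCore hTn hT
    · obtain ⟨T, hT, hT1, hMT⟩ := hMloc
      have hTM : T ≤ M := by rw [hMT]; exact Subgroup.le_normalizer
      obtain ⟨k, hk⟩ := IsPGroup.iff_card.mp hT
      have hk0 : k ≠ 0 := by
        rintro rfl
        rw [pow_zero] at hk
        exact hT1 (Subgroup.card_eq_one.mp hk)
      exact dvd_trans (by rw [hk]; exact dvd_pow_self p hk0) (Subgroup.card_dvd_of_le hTM)
    · intro g hg hdvd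
      exact hex (exists_one_sided_of_not_strongly_embedded hMax g hg hdvd)

end Cfsg.Agent.S3751
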