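import Cfsg.Statements.S3760
import Mathlib

set_option autoImplicit false
open Cfsg

namespace Cfsg.Agent.S3760

theorem mem_map_conj {G : Type*} [Group G] (K : Subgroup G) (g y : G) :
    y ∈ K.map (MulAut.conj g).toMonoidHom ↔ g⁻¹ * y * g ∈ K := by
  constructor
  · rintro ⟨k, hk, rfl⟩
    have e : g⁻¹ * ((MulAut.conj g).toMonoidHom k) * g = k := by
      simp [mul_assoc]
    rw [e]; exact hk
  · intro h
    exact ⟨g⁻¹ * y * g, h, by simp [mul_assoc]⟩

/-- Let the group G act transitively on a set X, let x ∈ X with stabilizer H = G_x, and let K ≤ H. Then N_G(K) acts transitively on the set of fixed points of K if and only if every G-conjugate of K contained in H is already an H-conjugate of K. -/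
theorem result {G : Type*} [Group G] {X : Type*} [MulAction G X] (htrans : ∀ a b : X, ∃ g : G, g • a = b) (x : X) (K : Subgroup G) (hK : K ≤ MulAction.stabilizer G x) : (∀ a b : X, (∀ k ∈ K, k • a = a) → (∀ k ∈ K, k • b = b) → ∃ g ∈ Subgroup.normalizer (K : Set G), g • a = b) ↔ ∀ g : G, K.map (MulAut.conj g).toMonoidHom ≤ MulAction.stabilizer G x → ∃ h ∈ MulAction.stabilizer G x, K.map (MulAut.conj g).toMonoidHom = K.map (MulAut.conj h).toMonoidHom := by
  constructor
  · intro hN g hg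
    have hfix1 : ∀ k ∈ K, k • (g⁻¹ • x) = g⁻¹ • x := by
      intro k hk
      have h1 : g * k * g⁻¹ ∈ MulAction.stabilizer G x := by
        apply hg
        rw [mem_map_conj]
        simpa [mul_assoc] using hk
      have h2 : (g * k * g⁻¹) • x = x := MulAction.mem_stabilizer_iff.mp h1
      calc k • g⁻¹ • x = g⁻¹ • ((g * k * g⁻¹) • x) := by simp [mul_smul]
        _ = g⁻¹ • x := by rw [h2]
    have hfix2 : ∀ k ∈ K, k • x = x := fun k hk => MulAction.mem_stabilizer_iff.mp (hK hk)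
    obtain ⟨n, hn, hnx⟩ := hN (g⁻¹ • x) x hfix1 hfix2
    refine ⟨g * n⁻¹, ?_, ?_⟩
    · rw [MulAction.mem_stabilizer_iff, mul_smul]
      have : n⁻¹ • x = g⁻¹ • x := by
        calc n⁻¹ • x = n⁻¹ • (n • g⁻¹ • x) := by rw [hnx]
          _ = g⁻¹ • x := by simp
      rw [this]; simp
    · ext y
      rw [mem_map_conj, mem_map_conj]
      have hn' := (Subgroup.mem_set_normalizer_iff.mp hn) (g⁻¹ * y * g)
      have e : (g * n⁻¹)⁻¹ * y * (g * n⁻¹) = n * (g⁻¹ * y * g) * n⁻¹ := by group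
      rw [e]
      exact hn'
  · intro hconj a b ha hb
    -- a general construction
    have aux : ∀ c : X, (∀ k ∈ K, k • c = c) → ∃ n ∈ Subgroup.normalizer (K : Set G), n • x = c := by
      intro c hc
      obtain ⟨u, hu⟩ := htrans x c
      have hle : K.map (MulAut.conj u⁻¹).toMonoidHom ≤ MulAction.stabilizer G x := by
        intro y hy
        rw [mem_map_conj] at hy
        rw [MulAction.mem_stabilizer_iff]
        have h1 := hc _ hy
        rw [← hu] at h1
        have h2 : y • x = u⁻¹ • ((u⁻¹⁻¹ * y * u⁻¹) • u • x) := by simp [mul_smul]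
        rw [h2, h1]; simp
      obtain ⟨h₁, hh₁, heq⟩ := hconj u⁻¹ hle
      refine ⟨u * h₁, ?_, ?_⟩
      · rw [Subgroup.mem_set_normalizer_iff]
        intro z
        have h3 : h₁ * z * h₁⁻¹ ∈ K.map (MulAut.conj h₁).toMonoidHom ↔ z ∈ K := by
          rw [mem_map_conj]
          have : h₁⁻¹ * (h₁ * z * h₁⁻¹) * h₁ = z := by group
          rw [this]
        have h4 : h₁ * z * h₁⁻¹ ∈ K.map (MulAut.conj u⁻¹).toMonoidHom ↔ u * h₁ * z * (u * h₁)⁻¹ ∈ K := by
          rw [mem_map_conj]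
          have : u⁻¹⁻¹ * (h₁ * z * h₁⁻¹) * u⁻¹ = u * h₁ * z * (u * h₁)⁻¹ := by group
          rw [this]
        rw [SetLike.mem_coe, SetLike.mem_coe, ← h4, heq, h3]
      · rw [mul_smul, MulAction.mem_stabilizer_iff.mp hh₁, hu]
    obtain ⟨n₁, hn₁, h1⟩ := aux a ha
    obtain ⟨n₂, hn₂, h2⟩ := aux b hb
    refine ⟨n₂ * n₁⁻¹, Subgroup.mul_mem _ hn₂ (Subgroup.inv_mem _ hn₁), ?_⟩
    rw [mul_smul, ← h1]
    simp [h2]

end Cfsg.Agent.S3760
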