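import Cfsg.Statements.S3763
import Mathlib
import Cfsg.Agent.Lib.Helper6.Rank2
-- import your own Cfsg.Agent.* helpers here

set_option autoImplicit false
open Cfsg

namespace Cfsg.Agent.S3763

/-- Let E be an extraspecial 2-group of order 2^(2n+1). Then the largest elementary abelian subgroups of E have order 2^n or 2^(n+1); and two extraspecial 2-groups of the same order whose largest elementary abelian subgroups have the same order are isomorphic. -/
theorem result {E : Type*} [Group E] [Finite E] (hE : Cfsg.IsExtraspecial 2 E) (n : ℕ) (hn : Nat.card E = 2 ^ (2 * n + 1)) : ((Cfsg.PRankLE 2 n E ∧ ¬ Cfsg.PRankLE 2 (n - 1) E) ∨ (Cfsg.PRankLE 2 (n + 1) E ∧ ¬ Cfsg.PRankLE 2 n E)) ∧ ∀ (E' : Type*) [Group E'] [Finite E'], Cfsg.IsExtraspecial 2 E' → Nat.card E' = Nat.card E → (∀ k : ℕ, Cfsg.PRankLE 2 k E ↔ Cfsg.PRankLE 2 k E') → Nonempty (E ≃* E') := by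
  classical
  obtain ⟨m, hm⟩ := Cfsg.Agent.Lib.Helper6.Rank2.rank_types hE
  constructor
  · rcases hm with ⟨_, hm1, hcard, hle, hnot⟩ | ⟨_, hcard, hle, hnot⟩
    · have h1 : 2 ^ (2 * m + 1) = 2 ^ (2 * n + 1) := by rw [← hcard, hn]
      have h2 : m = n := by
        have := Nat.pow_right_injective (le_refl 2) h1
        omega
      subst h2
      exact Or.inr ⟨hle, hnot⟩
    · have h1 : 2 ^ (2 * (m + 1) + 1) = 2 ^ (2 * n + 1) := by rw [← hcard, hn]
      have h2 : n = m + 1 := by
        have := Nat.pow_right_injective (le_refl 2) h1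
        omega
      subst h2
      refine Or.inl ⟨hle, ?_⟩
      rw [Nat.add_sub_cancel]
      exact hnot
  · intro E' _ _ hE' hcc hiff
    obtain ⟨m', hm'⟩ := Cfsg.Agent.Lib.Helper6.Rank2.rank_types hE'
    rcases hm with ⟨⟨e⟩, hm1, hcard, hle, hnot⟩ | ⟨⟨e⟩, hcard, hle, hnot⟩ <;>
      rcases hm' with ⟨⟨e'⟩, hm1', hcard', hle', hnot'⟩ | ⟨⟨e'⟩, hcard', hle', hnot'⟩
    · have h1 : 2 ^ (2 * m' + 1) = 2 ^ (2 * m + 1) := by rw [← hcard', ← hcard, hcc]
      have h2 : m' = m := by
        have := Nat.pow_right_injective (le_refl 2) h1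
        omega
      subst h2
      exact ⟨e.symm.trans e'⟩
    · exfalso
      have h1 : 2 ^ (2 * (m' + 1) + 1) = 2 ^ (2 * m + 1) := by rw [← hcard', ← hcard, hcc]
      have h2 : m = m' + 1 := by
        have := Nat.pow_right_injective (le_refl 2) h1
        omega
      subst h2
      exact hnot ((hiff (m' + 1)).mpr hle')
    · exfalso
      have h1 : 2 ^ (2 * m' + 1) = 2 ^ (2 * (m + 1) + 1) := by rw [← hcard', ← hcard, hcc]
      have h2 : m' = m + 1 := by
        have := Nat.pow_right_injective (le_refl 2) h1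
        omega
      subst h2
      exact hnot' ((hiff (m + 1)).mp hle)
    · have h1 : 2 ^ (2 * (m' + 1) + 1) = 2 ^ (2 * (m + 1) + 1) := by rw [← hcard', ← hcard, hcc]
      have h2 : m' = m := by
        have := Nat.pow_right_injective (le_refl 2) h1
        omega
      subst h2
      exact ⟨e.symm.trans e'⟩

end Cfsg.Agent.S3763
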