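import Cfsg.Statements.S3766
import Mathlib
import Cfsg.Agent.Lib.Helper2.Nilp
-- import your own Cfsg.Agent.* helpers here

set_option autoImplicit false
open Cfsg

namespace Cfsg.Agent.S3766

open scoped commutatorElement

/-- The Fitting subgroup is characteristic. -/
theorem fitting_char (G : Type*) [Group G] : (Cfsg.fittingSubgroup G).Characteristic := by
  rw [Subgroup.characteristic_iff_map_le]
  intro ϕ
  rw [Subgroup.map_le_iff_le_comap]
  refine sSup_le ?_
  rintro N ⟨hNn, hNnil⟩
  rw [← Subgroup.map_le_iff_le_comap]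
  refine le_sSup ⟨Subgroup.Normal.map hNn _ ϕ.surjective, ?_⟩
  exact (Group.isNilpotent_congr (N.equivMapOfInjective ϕ.toMonoidHom ϕ.injective)).mp hNnil

/-- Normal nilpotent subgroups of `G` inside `N` lie in the image of `F(N)`. -/
theorem le_fitting_map {G : Type*} [Group G] (N : Subgroup G) (E : Subgroup G)
    (hEn : E.Normal) (hEN : E ≤ N) (hnil : Group.IsNilpotent ↥E) :
    E ≤ (Cfsg.fittingSubgroup ↥N).map N.subtype := by
  intro x hx
  refine ⟨⟨x, hEN hx⟩, ?_, rfl⟩
  have h1 : E.subgroupOf N ≤ Cfsg.fittingSubgroup ↥N := by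
    apply le_sSup
    refine ⟨Subgroup.Normal.subgroupOf hEn N, ?_⟩
    exact (Group.isNilpotent_congr (Subgroup.subgroupOfEquivOfLe hEN)).mpr hnil
  exact h1 (Subgroup.mem_subgroupOf.mpr hx)

/-- `U / V` is a chief factor. -/
def IsChief {G : Type*} [Group G] (U V : Subgroup G) : Prop :=
  U.Normal ∧ V.Normal ∧ V < U ∧ ∀ W : Subgroup G, W.Normal → V ≤ W → W ≤ U → W = V ∨ W = U

/-- The elements of `N` centralizing all chief factors below `F`. -/
def centChief {G : Type*} [Group G] (N F : Subgroup G) : Subgroup G where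
  carrier := {x | x ∈ N ∧ ∀ U V : Subgroup G, IsChief U V → U ≤ F →
    ∀ u ∈ U, u * x * u⁻¹ * x⁻¹ ∈ V}
  one_mem' := by
    refine ⟨N.one_mem, ?_⟩
    intro U V h _ u _
    have h1 : u * 1 * u⁻¹ * (1 : G)⁻¹ = 1 := by group
    rw [h1]
    exact V.one_mem
  mul_mem' := by
    rintro x y ⟨hxN, hx⟩ ⟨hyN, hy⟩
    refine ⟨N.mul_mem hxN hyN, ?_⟩
    intro U V h hUF u hu
    have hVn : V.Normal := h.2.1
    have h1 : u * (x * y) * u⁻¹ * (x * y)⁻¹ =
        (u * x * u⁻¹ * x⁻¹) * (x * (u * y * u⁻¹ * y⁻¹) * x⁻¹) := by group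
    rw [h1]
    exact V.mul_mem (hx U V h hUF u hu) (hVn.conj_mem _ (hy U V h hUF u hu) x)
  inv_mem' := by
    rintro x ⟨hxN, hx⟩
    refine ⟨N.inv_mem hxN, ?_⟩
    intro U V h hUF u hu
    have hVn : V.Normal := h.2.1
    have h1 : u * x⁻¹ * u⁻¹ * x⁻¹⁻¹ = x⁻¹ * (u * x * u⁻¹ * x⁻¹)⁻¹ * x⁻¹⁻¹ := by group
    rw [h1]
    exact hVn.conj_mem _ (V.inv_mem (hx U V h hUF u hu)) x⁻¹

theorem centChief_normal {G : Type*} [Group G] (N F : Subgroup G) [hN : N.Normal] :
    (centChief N F).Normal := by
  constructor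
  rintro x ⟨hxN, hx⟩ t
  refine ⟨hN.conj_mem x hxN t, ?_⟩
  intro U V h hUF u hu
  have hUn : U.Normal := h.1
  have hVn : V.Normal := h.2.1
  have h1 : u * (t * x * t⁻¹) * u⁻¹ * (t * x * t⁻¹)⁻¹ =
      t * ((t⁻¹ * u * t) * x * (t⁻¹ * u * t)⁻¹ * x⁻¹) * t⁻¹ := by group
  rw [h1]
  apply hVn.conj_mem
  apply hx U V h hUF
  have := hUn.conj_mem u hu t⁻¹
  simpa using this

/-- Let G be a finite solvable group and N a normal subgroup of G. Call a pair V < U of normal subgroups of G a chief factor of G when no normal subgroup of G lies strictly between them; an element g centralizes the chief factor U/V when u g u⁻¹ g⁻¹ ∈ V for all u ∈ U. Then an element of G lies in the Fitting subgroup F(N) if and only if it lies in N and centralizes every chief factor of G; and also if and only if it lies in N and centralizes every chief factor U/V of G with U ≤ F(N). -/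
theorem result {G : Type*} [Group G] [Finite G] (hG : Group.IsSolvable G) (N : Subgroup G) [N.Normal] (g : G) : (g ∈ (Cfsg.fittingSubgroup ↥N).map N.subtype ↔ g ∈ N ∧ ∀ U V : Subgroup G, (U.Normal ∧ V.Normal ∧ V < U ∧ ∀ W : Subgroup G, W.Normal → V ≤ W → W ≤ U → W = V ∨ W = U) → ∀ u ∈ U, u * g * u⁻¹ * g⁻¹ ∈ V) ∧ (g ∈ (Cfsg.fittingSubgroup ↥N).map N.subtype ↔ g ∈ N ∧ ∀ U V : Subgroup G, (U.Normal ∧ V.Normal ∧ V < U ∧ ∀ W : Subgroup G, W.Normal → V ≤ W → W ≤ U → W = V ∨ W = U) → U ≤ (Cfsg.fittingSubgroup ↥N).map N.subtype → ∀ u ∈ U, u * g * u⁻¹ * g⁻¹ ∈ V) := by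
  classical
  haveI := hG
  set F := (Cfsg.fittingSubgroup ↥N).map N.subtype with hF
  haveI hFc : (Cfsg.fittingSubgroup ↥N).Characteristic := fitting_char ↥N
  haveI hFn : F.Normal := ConjAct.normal_of_characteristic_of_normal
  have hFN : F ≤ N := Subgroup.map_subtype_le _
  have hFnil : Group.IsNilpotent ↥F :=
    (Group.isNilpotent_congr ((Cfsg.fittingSubgroup ↥N).equivMapOfInjective N.subtype
      N.subtype_injective)).mp (Cfsg.Agent.Lib.Helper2.fitting_isNilpotent ↥N)
  have hA : ∀ x ∈ F, ∀ U V : Subgroup G, IsChief U V → ∀ u ∈ U, u * x * u⁻¹ * x⁻¹ ∈ V := by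
    intro x hx U V ⟨hUn, hVn, hVU, hchief⟩ u hu
    haveI := hUn
    haveI := hVn
    have hW : V ⊔ ⁅U, F⁆ = V ∨ V ⊔ ⁅U, F⁆ = U := by
      apply hchief
      · infer_instance
      · exact le_sup_left
      · exact sup_le hVU.le (Subgroup.commutator_le_left U F)
    rcases hW with h | h
    · have h1 : ⁅U, F⁆ ≤ V := by rw [← h]; exact le_sup_right
      exact h1 (Subgroup.commutator_mem_commutator hu hx)
    · exfalso
      obtain ⟨c, hc⟩ := (Subgroup.isNilpotent_iff_lowerCentralSeries F).mp hFnil
      have hind : ∀ n, U ≤ V ⊔ F.lowerCentralSeries n := by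
        intro n
        induction n with
        | zero =>
          calc U = V ⊔ ⁅U, F⁆ := h.symm
            _ ≤ V ⊔ F.lowerCentralSeries 0 :=
              sup_le le_sup_left ((Subgroup.commutator_le_right U F).trans le_sup_right)
        | succ n ih =>
          have h1 : ⁅U, F⁆ ≤ V ⊔ F.lowerCentralSeries (n + 1) := by
            rw [Subgroup.commutator_le]
            intro a ha f hf
            have ha' : a ∈ ((V ⊔ F.lowerCentralSeries n : Subgroup G) : Set G) := ih ha
            rw [Subgroup.normal_mul] at ha'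
            obtain ⟨v, hv, l, hl, rfl⟩ := Set.mem_mul.mp ha'
            have h2 : ⁅v * l, f⁆ = v * ⁅l, f⁆ * (f * v⁻¹ * f⁻¹) := by
              rw [commutatorElement_def, commutatorElement_def]; group
            rw [h2]
            apply Subgroup.mul_mem
            · apply Subgroup.mul_mem
              · exact Subgroup.mem_sup_left hv
              · apply Subgroup.mem_sup_right
                show ⁅l, f⁆ ∈ ⁅F.lowerCentralSeries n, F⁆
                exact Subgroup.commutator_mem_commutator hl hf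
            · exact Subgroup.mem_sup_left (hVn.conj_mem _ (V.inv_mem hv) f)
          calc U = V ⊔ ⁅U, F⁆ := h.symm
            _ ≤ V ⊔ F.lowerCentralSeries (n + 1) := sup_le le_sup_left h1
      have h3 := hind c
      rw [hc, sup_bot_eq] at h3
      exact not_le_of_gt hVU h3
  set Cc := centChief N F with hCc
  haveI hCcn : Cc.Normal := centChief_normal N F
  have hFC : F ≤ Cc := fun x hx => ⟨hFN hx, fun U V h _ u hu => hA x hx U V h u hu⟩
  have hCN : Cc ≤ N := fun x hx => hx.1
  have hCF : Cc ≤ F := by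
    by_contra hne
    let 𝒮 : Set (Subgroup G) := {E | E.Normal ∧ F < E ∧ E ≤ Cc}
    have h𝒮 : 𝒮.Nonempty :=
      ⟨Cc, hCcn, lt_of_le_of_ne hFC (fun h => hne (h ▸ le_refl _)), le_refl _⟩
    obtain ⟨E, hEmin⟩ := Set.Finite.exists_minimal (Set.toFinite 𝒮) h𝒮
    obtain ⟨⟨hEn, hFE, hEC⟩, hmin⟩ := hEmin
    haveI := hEn
    have hchiefE : ∀ W : Subgroup G, W.Normal → F ≤ W → W ≤ E → W = F ∨ W = E := by
      intro W hWn hFW hWE
      by_cases h : W = F
      · left; exact h
      · right
        exact le_antisymm hWE (hmin ⟨hWn, lt_of_le_of_ne hFW (Ne.symm h), hWE.trans hEC⟩ hWE)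
    have hEab : ⁅E, E⁆ ≤ F := by
      rcases hchiefE (F ⊔ ⁅E, E⁆) inferInstance le_sup_left
        (sup_le hFE.le (Subgroup.commutator_le_left E E)) with h | h
      · rw [← h]; exact le_sup_right
      · exfalso
        have hperf : E.map (QuotientGroup.mk' F) =
            ⁅E.map (QuotientGroup.mk' F), E.map (QuotientGroup.mk' F)⁆ := by
          rw [← Subgroup.map_commutator]
          conv_lhs => rw [← h]
          rw [Subgroup.map_sup, QuotientGroup.map_mk'_self, bot_sup_eq]
        have hbot : E.map (QuotientGroup.mk' F) = ⊥ := by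
          by_contra hnb
          have := Group.IsSolvable.commutator_lt_of_ne_bot hnb
          rw [← hperf] at this
          exact lt_irrefl _ this
        have hEF : E ≤ F := by
          intro e he
          have h1 : (QuotientGroup.mk' F e) ∈ E.map (QuotientGroup.mk' F) := ⟨e, he, rfl⟩
          rw [hbot, Subgroup.mem_bot, QuotientGroup.mk'_apply, QuotientGroup.eq_one_iff] at h1
          exact h1
        exact not_le_of_gt hFE hEF
    have hP : ∀ (k : ℕ) (U : Subgroup G), Nat.card U ≤ k → U.Normal → U ≤ F →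
        ∃ m, ∀ j, E.lowerCentralSeries j ≤ U → E.lowerCentralSeries (j + m) = ⊥ := by
      intro k
      induction k with
      | zero =>
        intro U hU
        exfalso
        have := Nat.card_pos (α := U)
        omega
      | succ k ih =>
        intro U hUk hUn hUF
        by_cases hU1 : U = ⊥
        · refine ⟨0, fun j hj => ?_⟩
          rw [hU1] at hj
          exact le_bot_iff.mp hj
        · let 𝒯 : Set (Subgroup G) := {V | V.Normal ∧ V < U}
          have h𝒯 : 𝒯.Nonempty := ⟨⊥, inferInstance, bot_lt_iff_ne_bot.mpr hU1⟩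
          obtain ⟨V, hVmax⟩ := Set.Finite.exists_maximal (Set.toFinite 𝒯) h𝒯
          obtain ⟨⟨hVn, hVU⟩, hmax⟩ := hVmax
          have hchief : IsChief U V := by
            refine ⟨hUn, hVn, hVU, ?_⟩
            intro W hWn hVW hWU
            by_cases h : W = U
            · right; exact h
            · left
              exact le_antisymm (hmax ⟨hWn, lt_of_le_of_ne hWU h⟩ hVW) hVW
          have hcomm : ⁅U, E⁆ ≤ V := by
            rw [Subgroup.commutator_le]
            intro u hu e he
            exact (hEC he).2 U V hchief hUF u hu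
          have hVcard : Nat.card V ≤ k := by
            by_contra hge
            exact (ne_of_lt hVU) (Subgroup.eq_of_le_of_card_ge hVU.le (by omega))
          obtain ⟨m, hm⟩ := ih V hVcard hVn (hVU.le.trans hUF)
          refine ⟨m + 1, fun j hj => ?_⟩
          have h1 : E.lowerCentralSeries (j + 1) ≤ V := by
            show ⁅E.lowerCentralSeries j, E⁆ ≤ V
            exact (Subgroup.commutator_mono hj (le_refl E)).trans hcomm
          have h2 := hm (j + 1) h1
          rw [show j + (m + 1) = j + 1 + m by ring]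
          exact h2
    obtain ⟨m, hm⟩ := hP (Nat.card F) F (le_refl _) hFn (le_refl _)
    have hEnil : Group.IsNilpotent ↥E := by
      rw [Subgroup.isNilpotent_iff_lowerCentralSeries]
      exact ⟨1 + m, hm 1 hEab⟩
    have hEF : E ≤ F := le_fitting_map N E hEn (hEC.trans hCN) hEnil
    exact not_le_of_gt hFE hEF
  constructor
  · constructor
    · intro hg
      exact ⟨hFN hg, fun U V h u hu => hA g hg U V h u hu⟩
    · rintro ⟨hgN, hg⟩
      exact hCF ⟨hgN, fun U V h _ u hu => hg U V h u hu⟩
  · constructor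
    · intro hg
      exact ⟨hFN hg, fun U V h _ u hu => hA g hg U V h u hu⟩
    · rintro ⟨hgN, hg⟩
      exact hCF ⟨hgN, fun U V h hUF u hu => hg U V h hUF u hu⟩

end Cfsg.Agent.S3766
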