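import Cfsg.Statements.S3768
import Mathlib
import Cfsg.Agent.Lib.Lead.CharFrob
import Cfsg.Agent.Lib.Lead.Frobenius
-- import your own Cfsg.Agent.* helpers here

set_option autoImplicit false
open Cfsg

namespace Cfsg.Agent.S3768


open scoped Pointwise

theorem mem_conj_smul {G : Type*} [Group G] (H : Subgroup G) (g x : G) :
    x ∈ MulAut.conj g • H ↔ g⁻¹ * x * g ∈ H := by
  rw [Subgroup.mem_pointwise_smul_iff_inv_smul_mem]
  have : (MulAut.conj g)⁻¹ • x = g⁻¹ * x * g := by
    rw [← map_inv]; simp [MulAut.smul_def]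
  rw [this]

theorem mem_kernel_iff {G : Type*} [Group G] (H : Subgroup G) (x : G) :
    x ∈ Cfsg.frobeniusKernel H ↔ (x = 1 ∨ ∀ g : G, x ∉ MulAut.conj g • H) := Iff.rfl

/-- The commutator map with a nontrivial complement element is injective on a normal subgroup
meeting the complement trivially. -/
theorem psi_inj {G : Type*} [Group G] (R : Subgroup G) (hR : Cfsg.IsFrobeniusComplement R)
    (M : Subgroup G) (hM : ∀ x ∈ M, x ∈ R → x = 1) (ρ : G) (hρ : ρ ∈ R) (hρ1 : ρ ≠ 1)
    (k l : G) (hk : k ∈ M) (hl : l ∈ M) (h : k⁻¹ * ρ⁻¹ * k * ρ = l⁻¹ * ρ⁻¹ * l * ρ) : k = l := by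
  have h1 : k⁻¹ * ρ⁻¹ * k = l⁻¹ * ρ⁻¹ * l := mul_right_cancel h
  have h1' : k⁻¹ * ρ * k = l⁻¹ * ρ * l := by
    have := congrArg (fun z => z⁻¹) h1
    simpa [mul_assoc] using this
  have hc : (l * k⁻¹) * ρ * (l * k⁻¹)⁻¹ = ρ := by
    calc (l * k⁻¹) * ρ * (l * k⁻¹)⁻¹ = l * (k⁻¹ * ρ * k) * l⁻¹ := by group
      _ = l * (l⁻¹ * ρ * l) * l⁻¹ := by rw [h1']
      _ = ρ := by group
  have hcR : l * k⁻¹ ∈ R :=
    Cfsg.Agent.Lib.Lead.frob_mem_of_conj_mem R hR (l * k⁻¹) ρ hρ hρ1 (by rw [hc]; exact hρ)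
  have hcM : l * k⁻¹ ∈ M := M.mul_mem hl (M.inv_mem hk)
  have := hM _ hcM hcR
  exact (mul_inv_eq_one.mp this).symm

theorem psi_surj {G : Type*} [Group G] [Finite G] (R : Subgroup G)
    (hR : Cfsg.IsFrobeniusComplement R) (M : Subgroup G) [hMn : M.Normal]
    (hM : ∀ x ∈ M, x ∈ R → x = 1) (ρ : G) (hρ : ρ ∈ R) (hρ1 : ρ ≠ 1)
    (m : G) (hm : m ∈ M) : ∃ k ∈ M, k⁻¹ * ρ⁻¹ * k * ρ = m := by
  let ψ : M → M := fun k => ⟨(k : G)⁻¹ * ρ⁻¹ * k * ρ, by
    have h1 : ρ⁻¹ * (k : G) * ρ ∈ M := by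
      have := hMn.conj_mem (k : G) k.2 ρ⁻¹
      simpa using this
    have h2 : (k : G)⁻¹ * (ρ⁻¹ * (k : G) * ρ) ∈ M := M.mul_mem (M.inv_mem k.2) h1
    convert h2 using 1; group⟩
  have hinj : Function.Injective ψ := by
    intro k l h
    have h' := congrArg Subtype.val h
    exact Subtype.ext (psi_inj R hR M hM ρ hρ hρ1 k l k.2 l.2 h')
  obtain ⟨k, hk⟩ := (Finite.injective_iff_surjective.mp hinj) ⟨m, hm⟩
  exact ⟨k, k.2, congrArg Subtype.val hk⟩

/-- Let G be a finite Frobenius group with Frobenius complement R and Frobenius kernel K (the identity together with the elements in no conjugate of R), and let N be a normal subgroup of G not containing K. Then G/N is a Frobenius group with Frobenius complement RN/N whose Frobenius kernel is the image of K. -/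
theorem result {G : Type*} [Group G] [Finite G] (R : Subgroup G) (hR : Cfsg.IsFrobeniusComplement R) (N : Subgroup G) [N.Normal] (hKN : ¬ Cfsg.frobeniusKernel R ⊆ N) : Cfsg.IsFrobeniusComplement (R.map (QuotientGroup.mk' N)) ∧ Cfsg.frobeniusKernel (R.map (QuotientGroup.mk' N)) = QuotientGroup.mk' N '' Cfsg.frobeniusKernel R := by
  classical
  obtain ⟨K, hKset, hKn, hKc⟩ := Cfsg.Agent.Lib.Lead.frobenius_kernel R hR
  haveI := hKn
  have hNn : N.Normal := inferInstance
  have hKmem : ∀ x, x ∈ K ↔ x ∈ Cfsg.frobeniusKernel R := fun x => by rw [← hKset]; rfl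
  have hKR : ∀ x ∈ K, x ∈ R → x = 1 := by
    intro x hxK hxR
    rw [hKmem, mem_kernel_iff] at hxK
    rcases hxK with h | h
    · exact h
    · exfalso; apply h 1; rw [mem_conj_smul]; simpa using hxR
  have hNR : ∀ x ∈ N, x ∈ R → x = 1 := by
    intro r hrN hrR
    by_contra hr1
    apply hKN
    intro x hx
    rw [← hKset] at hx
    obtain ⟨k, hkK, hk⟩ := psi_surj R hR K hKR r hrR hr1 x hx
    rw [← hk]
    have h1 : k⁻¹ * r⁻¹ * k ∈ N := by
      have := hNn.conj_mem r⁻¹ (N.inv_mem hrN) k⁻¹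
      simpa using this
    exact N.mul_mem h1 hrN
  have hNK : N ≤ K := by
    intro n hn
    rw [hKmem, mem_kernel_iff]
    by_cases hn1 : n = 1
    · left; exact hn1
    · right
      intro g hg
      rw [mem_conj_smul] at hg
      have h1 : g⁻¹ * n * g ∈ N := by
        have := hNn.conj_mem n hn g⁻¹
        simpa using this
      have h2 := hNR _ h1 hg
      apply hn1
      calc n = g * (g⁻¹ * n * g) * g⁻¹ := by group
        _ = 1 := by rw [h2]; group
  have hdecomp : ∀ g : G, ∃ k ∈ K, ∃ r ∈ R, g = k * r := by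
    intro g
    obtain ⟨⟨k, r⟩, hkr⟩ := hKc.2 g
    exact ⟨k, k.2, r, r.2, hkr.symm⟩
  obtain ⟨π, hπ⟩ : ∃ π : G →* G ⧸ N, π = QuotientGroup.mk' N := ⟨_, rfl⟩
  rw [← hπ]
  have hπ1 : ∀ x : G, π x = 1 ↔ x ∈ N := fun x => by rw [hπ]; exact QuotientGroup.eq_one_iff x
  have hπeq : ∀ x y : G, π x = π y ↔ x⁻¹ * y ∈ N := fun x y => by rw [hπ]; exact QuotientGroup.eq
  have hsurj : Function.Surjective π := by rw [hπ]; exact QuotientGroup.mk'_surjective N
  have hF : Cfsg.IsFrobeniusComplement (R.map π) := by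
    refine ⟨?_, ?_, ?_⟩
    · intro hbot
      obtain ⟨r, hr⟩ := Subgroup.ne_bot_iff_exists_ne_one.mp hR.1
      have h1 : π (r : G) ∈ R.map π := Subgroup.mem_map_of_mem π r.2
      rw [hbot, Subgroup.mem_bot, hπ1] at h1
      exact hr (Subtype.ext (hNR _ h1 r.2))
    · intro htop
      obtain ⟨k, hkK, hkN⟩ := Set.not_subset.mp hKN
      rw [← hKset] at hkK
      have h1 : π k ∈ R.map π := by rw [htop]; trivial
      obtain ⟨r, hrR, hr⟩ := Subgroup.mem_map.mp h1
      rw [hπeq] at hr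
      have h2 : r ∈ K := by
        have h3 : r⁻¹ * k ∈ K := hNK hr
        have h4 : r⁻¹ ∈ K := by
          have := K.mul_mem h3 (K.inv_mem hkK)
          simpa using this
        simpa using K.inv_mem h4
      have h5 := hKR r h2 hrR
      rw [h5] at hr
      apply hkN
      simpa using hr
    · intro gbar hg
      obtain ⟨g, rfl⟩ := hsurj gbar
      rw [eq_bot_iff]
      intro xbar hx
      rw [Subgroup.mem_inf] at hx
      obtain ⟨hx1, hx2⟩ := hx
      rw [mem_conj_smul] at hx2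
      obtain ⟨r1, hr1R, hr1⟩ := Subgroup.mem_map.mp hx1
      obtain ⟨r2, hr2R, hr2⟩ := Subgroup.mem_map.mp hx2
      obtain ⟨k, hkK, r, hrR, hgkr⟩ := hdecomp g
      have hkN : k ∉ N := by
        intro hkN
        apply hg
        refine Subgroup.mem_map.mpr ⟨r, hrR, ?_⟩
        rw [hπeq, hgkr]
        have := hNn.conj_mem k hkN r⁻¹
        simpa [mul_assoc] using this
      obtain ⟨r3, hr3⟩ : ∃ r3 : G, r3 = r * r2 * r⁻¹ := ⟨_, rfl⟩
      have hr3R : r3 ∈ R := by
        rw [hr3]; exact R.mul_mem (R.mul_mem hrR hr2R) (R.inv_mem hrR)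
      have h6 : π r1 = π (k * r3 * k⁻¹) := by
        rw [hr1]
        have : π (k * r3 * k⁻¹) = π g * π r2 * (π g)⁻¹ := by
          rw [hgkr, hr3]; simp only [map_mul, map_inv]; group
        rw [this, hr2]; group
      rw [hπeq] at h6
      have h7 : r1⁻¹ * r3 ∈ K := by
        have h8 : r1⁻¹ * (k * r3 * k⁻¹) ∈ K := hNK h6
        have h9 : r3⁻¹ * k * r3 ∈ K := by
          have := hKn.conj_mem k hkK r3⁻¹
          simpa using this
        have h10 : r1⁻¹ * (k * r3 * k⁻¹) * (k * (r3⁻¹ * k * r3)⁻¹) ∈ K :=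
          K.mul_mem h8 (K.mul_mem hkK (K.inv_mem h9))
        convert h10 using 1
        group
      have h11 : r1⁻¹ * r3 = 1 := hKR _ h7 (R.mul_mem (R.inv_mem hr1R) hr3R)
      have h12 : r3 = r1 := by
        calc r3 = r1 * (r1⁻¹ * r3) := by group
          _ = r1 := by rw [h11, mul_one]
      rw [Subgroup.mem_bot, ← hr1, hπ1]
      by_contra hr1N
      have hr11 : r1 ≠ 1 := fun h => hr1N (h ▸ N.one_mem)
      rw [h12] at h6
      have h13 : k⁻¹ * r1⁻¹ * k * r1 ∈ N := by
        have := hNn.conj_mem _ h6 k⁻¹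
        convert this using 1
        group
      obtain ⟨n', hn'N, hn'⟩ := psi_surj R hR N hNR r1 hr1R hr11 _ h13
      have := psi_inj R hR K hKR r1 hr1R hr11 n' k (hNK hn'N) hkK hn'
      exact hkN (this ▸ hn'N)
  refine ⟨hF, ?_⟩
  ext xbar
  constructor
  · intro hx
    obtain ⟨x, rfl⟩ := hsurj xbar
    by_cases hxK : x ∈ K
    · exact ⟨x, (hKmem x).mp hxK, rfl⟩
    · exfalso
      rw [hKmem, Cfsg.Agent.Lib.Lead.not_mem_frobeniusKernel_iff] at hxK
      obtain ⟨hx1, g, hxg⟩ := hxK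
      rw [mem_conj_smul] at hxg
      rw [mem_kernel_iff] at hx
      rcases hx with h | h
      · have hxN : x ∈ N := (hπ1 x).mp h
        have hxK' := hNK hxN
        have h1 : g⁻¹ * x * g ∈ K := by
          have := hKn.conj_mem x hxK' g⁻¹
          simpa using this
        have h2 := hKR _ h1 hxg
        apply hx1
        calc x = g * (g⁻¹ * x * g) * g⁻¹ := by group
          _ = 1 := by rw [h2]; group
      · apply h (π g)
        rw [mem_conj_smul]
        refine Subgroup.mem_map.mpr ⟨g⁻¹ * x * g, hxg, ?_⟩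
        simp
  · rintro ⟨k, hk, rfl⟩
    rw [← hKmem] at hk
    rw [mem_kernel_iff]
    by_cases hkN : k ∈ N
    · left; exact (hπ1 k).mpr hkN
    · right
      intro gbar hmem
      obtain ⟨g, rfl⟩ := hsurj gbar
      rw [mem_conj_smul] at hmem
      obtain ⟨r, hrR, hr⟩ := Subgroup.mem_map.mp hmem
      have h1 : π r = π (g⁻¹ * k * g) := by rw [hr]; simp
      rw [hπeq] at h1
      have h2 : g⁻¹ * k * g ∈ K := by
        have := hKn.conj_mem k hk g⁻¹
        simpa using this
      have h3 : r⁻¹ ∈ K := by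
        have := K.mul_mem (hNK h1) (K.inv_mem h2)
        convert this using 1
        group
      have h4 : r = 1 := hKR r (by simpa using K.inv_mem h3) hrR
      rw [h4] at h1
      apply hkN
      have h5 : g⁻¹ * k * g ∈ N := by simpa using h1
      have := hNn.conj_mem _ h5 g
      convert this using 1
      group

end Cfsg.Agent.S3768
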