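import Cfsg.Statements.S3771
import Mathlib
import Cfsg.Agent.Lib.Helper5.DStar
import Cfsg.Agent.Lib.Helper6.NormalSq
-- import your own Cfsg.Agent.* helpers here

set_option autoImplicit false
open Cfsg

namespace Cfsg.Agent.S3771



/-- Let p be a prime and R a finite p-group of p-rank at most 2 (no elementary abelian subgroup of order p³) in which every element has order dividing p. Then R has order at most p³. -/
theorem result {R : Type*} [Group R] [Finite R] {p : ℕ} [Fact p.Prime] (hR : IsPGroup p R) (hrank : Cfsg.PRankLE p 2 R) (hexp : ∀ x : R, x ^ p = 1) : Nat.card R ≤ p ^ 3 := by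
  classical
  have hp := (Fact.out : p.Prime)
  obtain ⟨A, hAn, hAc, hAmax⟩ := Cfsg.Agent.Lib.Helper5.exists_max_normal_abelian R
  have hCA := Cfsg.Agent.Lib.Helper5.centralizer_le_of_max_normal_abelian hR A hAn hAc hAmax
  haveI := hAn
  have hAle : Nat.card A ≤ p ^ 2 :=
    hrank A (IsMulCommutative.of_setLike_mul_comm hAc) (fun a _ => hexp a)
  obtain ⟨k, hk⟩ := IsPGroup.iff_card.mp (hR.to_subgroup A)
  have hk2 : k ≤ 2 := by
    rw [hk] at hAle
    exact (Nat.pow_le_pow_iff_right hp.one_lt).mp hAle
  have hcentral : (∀ g : R, g ∈ Subgroup.centralizer (A : Set R)) → Nat.card R ≤ p ^ 3 := by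
    intro h
    have h1 : A = ⊤ := by
      rw [eq_top_iff]
      intro g _
      exact hCA (h g)
    rw [← Subgroup.card_top (G := R), ← h1, hk]
    exact Nat.pow_le_pow_right hp.pos (by omega)
  interval_cases k
  · apply hcentral
    intro g
    have hA1 : A = ⊥ := Subgroup.card_eq_one.mp (by rw [hk, pow_zero])
    rw [Subgroup.mem_centralizer_iff]
    intro h hh
    have hh' : h ∈ A := hh
    rw [hA1, Subgroup.mem_bot] at hh'
    rw [hh', one_mul, mul_one]
  · apply hcentral
    intro g
    exact Cfsg.Agent.Lib.Helper6.centralizes_of_normalizes_prime hR A (by rw [hk, pow_one]) g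
      (by rw [Subgroup.normalizer_eq_top]; exact Subgroup.mem_top _)
  · have h1 := Cfsg.Agent.Lib.Helper6.card_le_of_normal_sq hR A hk
    have h2 := Subgroup.card_le_of_le hCA
    rw [hk] at h2
    calc Nat.card R ≤ p * Nat.card (Subgroup.centralizer (A : Set R)) := h1
      _ ≤ p * p ^ 2 := Nat.mul_le_mul_left p h2
      _ = p ^ 3 := by ring

end Cfsg.Agent.S3771
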