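import Cfsg.Statements.S3774
import Mathlib
-- import your own Cfsg.Agent.* helpers here

set_option autoImplicit false
open Cfsg

namespace Cfsg.Agent.S3774


/-- In a 2-group, the involution in `⟨x⟩`. -/
theorem invol_pow {G : Type*} [Group G] (hG : IsPGroup 2 G) (x : G) (hx : x ≠ 1) :
    x ^ (orderOf x / 2) ≠ 1 ∧ (x ^ (orderOf x / 2)) ^ 2 = 1 := by
  obtain ⟨j, hj⟩ := hG x
  have hdvd : orderOf x ∣ 2 ^ j := orderOf_dvd_of_pow_eq_one hj
  obtain ⟨i, hij, hi⟩ := (Nat.dvd_prime_pow Nat.prime_two).1 hdvd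
  have hi0 : i ≠ 0 := by
    rintro rfl
    rw [pow_zero, orderOf_eq_one_iff] at hi
    exact hx hi
  obtain ⟨i', rfl⟩ : ∃ i', i = i' + 1 := ⟨i - 1, by omega⟩
  have hhalf : orderOf x / 2 = 2 ^ i' := by rw [hi, pow_succ]; simp
  have hpos : 0 < 2 ^ i' := by positivity
  constructor
  · apply pow_ne_one_of_lt_orderOf
    · rw [hhalf]; exact hpos.ne'
    · rw [hhalf, hi, pow_succ]; omega
  · rw [← pow_mul, hhalf, ← pow_succ, ← hi]; exact pow_orderOf_eq_one x

/-- Let G be a nontrivial finite 2-group whose automorphism group permutes the involutions of G transitively. Then every involution of G is central, so that the involutions together with 1 form the subgroup Ω₁(Z(G)), and if this subgroup has order q then |G| is a power of q. -/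
theorem result {G : Type*} [Group G] [Finite G] [Nontrivial G] (hG : IsPGroup 2 G) (htrans : ∀ x y : G, x ≠ 1 → x ^ 2 = 1 → y ≠ 1 → y ^ 2 = 1 → ∃ a : MulAut G, a x = y) : (∀ x : G, x ^ 2 = 1 → x ∈ Subgroup.center G) ∧ ∃ m : ℕ, Nat.card G = Nat.card {z : G // z ^ 2 = 1} ^ m := by
  classical
  haveI : Fact (Nat.Prime 2) := ⟨Nat.prime_two⟩
  haveI := hG.center_nontrivial
  obtain ⟨z, hz1⟩ := exists_ne (1 : Subgroup.center G)
  have hz1' : (z : G) ≠ 1 := fun h => hz1 (Subtype.ext h)
  obtain ⟨hz0ne, hz0sq⟩ := invol_pow hG (z : G) hz1'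
  obtain ⟨z0, hz0⟩ : ∃ z0 : G, z0 = (z : G) ^ (orderOf (z : G) / 2) := ⟨_, rfl⟩
  rw [← hz0] at hz0ne hz0sq
  have hz0c : z0 ∈ Subgroup.center G := by rw [hz0]; exact Subgroup.pow_mem _ z.2 _
  have hcentral : ∀ x : G, x ^ 2 = 1 → x ∈ Subgroup.center G := by
    intro x hx
    by_cases hx1 : x = 1
    · rw [hx1]; exact Subgroup.one_mem _
    · obtain ⟨a, ha⟩ := htrans z0 x hz0ne hz0sq hx1 hx
      rw [← ha]
      rw [Subgroup.mem_center_iff] at hz0c ⊢
      intro g
      have := hz0c (a.symm g)
      have h2 := congrArg a this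
      simpa using h2
  refine ⟨hcentral, ?_⟩
  letI : Fintype G := Fintype.ofFinite G
  let f : G → G := fun x => x ^ (orderOf x / 2)
  let s : Finset G := Finset.univ.erase 1
  let t : Finset G := (Finset.univ.filter (fun z : G => z ^ 2 = 1)).erase 1
  have hmaps : (s : Set G).MapsTo f t := by
    intro x hx
    simp only [s, Finset.coe_erase, Finset.coe_univ, Set.mem_diff, Set.mem_univ,
      Set.mem_singleton_iff, true_and] at hx
    have := invol_pow hG x hx
    simp [t, f, this.1, this.2]
  have hsum := Finset.card_eq_sum_card_fiberwise hmaps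
  have hfib : ∀ b ∈ t, (s.filter (fun a => f a = b)).card = (s.filter (fun a => f a = z0)).card := by
    intro b hb
    simp only [t, Finset.mem_erase, Finset.mem_filter, Finset.mem_univ, true_and] at hb
    obtain ⟨α, hα⟩ := htrans z0 b hz0ne hz0sq hb.1 hb.2
    symm
    refine Finset.card_nbij' (fun x => α x) (fun x => α.symm x) ?_ ?_ ?_ ?_
    · intro x hx
      simp only [Finset.coe_filter, Set.mem_setOf_eq, s, Finset.mem_erase, Finset.mem_univ,
        and_true] at hx ⊢
      refine ⟨?_, ?_⟩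
      · intro h; apply hx.1; simpa using h
      · show (α x) ^ (orderOf (α x) / 2) = b
        rw [MulEquiv.orderOf_eq α x, ← map_pow, ← hα]
        congr 1
        exact hx.2
    · intro x hx
      simp only [Finset.coe_filter, Set.mem_setOf_eq, s, Finset.mem_erase, Finset.mem_univ,
        and_true] at hx ⊢
      refine ⟨?_, ?_⟩
      · intro h; apply hx.1; simpa using h
      · show (α.symm x) ^ (orderOf (α.symm x) / 2) = z0
        rw [MulEquiv.orderOf_eq α.symm x, ← map_pow]
        apply α.injective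
        rw [MulEquiv.apply_symm_apply, hα]
        exact hx.2
    · intro x _; simp
    · intro x _; simp
  rw [Finset.sum_congr rfl hfib, Finset.sum_const, smul_eq_mul] at hsum
  have hs : s.card = Nat.card G - 1 := by
    simp [s, Nat.card_eq_fintype_card]
  have ht : t.card = Nat.card {z : G // z ^ 2 = 1} - 1 := by
    rw [Finset.card_erase_of_mem (by simp), Nat.card_eq_fintype_card, Fintype.card_subtype]
  let T : Subgroup G :=
    { carrier := {z | z ^ 2 = 1}
      one_mem' := by simp
      mul_mem' := by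
        intro a b ha hb
        simp only [Set.mem_setOf_eq] at ha hb ⊢
        have hc : Commute a b := (Subgroup.mem_center_iff.mp (hcentral a ha) b).symm
        rw [hc.mul_pow, ha, hb, one_mul]
      inv_mem' := by
        intro a ha
        simp only [Set.mem_setOf_eq] at ha ⊢
        rw [inv_pow, ha, inv_one] }
  have hTcard : Nat.card T = Nat.card {z : G // z ^ 2 = 1} :=
    Nat.card_congr (Equiv.subtypeEquivRight (fun z => Iff.rfl))
  obtain ⟨k, hk⟩ := IsPGroup.iff_card.mp (hG.to_subgroup T)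
  obtain ⟨n, hn⟩ := IsPGroup.iff_card.mp hG
  have hk1 : k ≠ 0 := by
    rintro rfl
    rw [pow_zero] at hk
    haveI : Subsingleton T := (Nat.card_eq_one_iff_unique.mp hk).1
    have := Subsingleton.elim (⟨z0, hz0sq⟩ : T) 1
    exact hz0ne (congrArg Subtype.val this)
  have hdvd : 2 ^ k - 1 ∣ 2 ^ n - 1 := by
    rw [← hk, hTcard, ← ht, ← hn, ← hs, hsum]; exact dvd_mul_right _ _
  have hgcd := Nat.pow_sub_one_gcd_pow_sub_one 2 k n
  rw [Nat.gcd_eq_left hdvd] at hgcd
  have h2 : 2 ^ k = 2 ^ (Nat.gcd k n) := by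
    have := Nat.one_le_two_pow (n := k)
    have := Nat.one_le_two_pow (n := Nat.gcd k n)
    omega
  have hkn : k = Nat.gcd k n := Nat.pow_right_injective (le_refl 2) h2
  have hkdvd : k ∣ n := by rw [hkn]; exact Nat.gcd_dvd_right _ _
  obtain ⟨m, rfl⟩ := hkdvd
  exact ⟨m, by rw [hn, ← hTcard, hk, pow_mul]⟩

end Cfsg.Agent.S3774
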