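import Cfsg.Statements.S3778
import Mathlib
import Cfsg.Agent.Lib.Helper3.Breadth

set_option autoImplicit false
open Cfsg

namespace Cfsg.Agent.S3778

open Cfsg.Agent.Lib.Helper3

/-- If G is a finite p-group in which every conjugacy class has at most p^b elements (every element has centralizer of index at most p^b), then G is abelian when b = 0, and when b ≥ 1 its nilpotency class c satisfies (c − 1)(p − 1) < bp, that is c < bp/(p − 1) + 1, and hence c ≤ 2b. -/
theorem result {G : Type*} [Group G] [Finite G] {p : ℕ} [Fact p.Prime] (hG : IsPGroup p G) (b : ℕ) (hb : ∀ x : G, (Subgroup.centralizer ({x} : Set G)).index ≤ p ^ b) : ∃ c : ℕ, (⊤ : Subgroup G).lowerCentralSeries c = ⊥ ∧ (b ≠ 0 → (c - 1) * (p - 1) < b * p ∧ c ≤ 2 * b) ∧ (b = 0 → c ≤ 1) := by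
  classical
  have hp := (Fact.out : p.Prime)
  have hnil : Group.IsNilpotent G := hG.isNilpotent
  have hex : ∃ n, (⊤ : Subgroup G).lowerCentralSeries n = ⊥ :=
    Subgroup.nilpotent_iff_lowerCentralSeries.mp hnil
  have hcbot : (⊤ : Subgroup G).lowerCentralSeries (Nat.find hex) = ⊥ := Nat.find_spec hex
  have hmin : ∀ j, j < Nat.find hex → (⊤ : Subgroup G).lowerCentralSeries j ≠ ⊥ :=
    fun j hj => Nat.find_min hex hj
  generalize Nat.find hex = c at hcbot hmin
  have hT : ∀ j, j + 1 < c → commCentralizer ((⊤ : Subgroup G).lowerCentralSeries j)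
      ((⊤ : Subgroup G).lowerCentralSeries (j + 2)) ≠ ⊤ := by
    intro j hj h
    have h1 := lcs_stable j (lcs_le_of_commCentralizer_eq_top j h) (c - (j + 1))
    have e : j + 1 + (c - (j + 1)) = c := by omega
    rw [e, hcbot] at h1
    exact hmin (j + 1) hj (eq_bot_iff.mpr h1)
  have hs : ∀ x : G, ((Finset.range (c - 1)).filter (fun j => x ∉ commCentralizer
      ((⊤ : Subgroup G).lowerCentralSeries j) ((⊤ : Subgroup G).lowerCentralSeries (j + 2)))).card ≤ b := by
    intro x
    have h1 := breadth_count hG x (c - 1)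
    have h2 := hb x
    have h3 : 1 ≤ (Subgroup.centralizer ({x} : Set G)).relIndex
        ((⊤ : Subgroup G).lowerCentralSeries (c - 1)) :=
      Nat.pos_of_ne_zero (relIndex_ne_zero_of_finite' _ _)
    have h4 := (Nat.mul_le_mul_right _ h3).trans (h1.trans h2)
    rw [one_mul] at h4
    exact (Nat.pow_le_pow_iff_right hp.one_lt).mp h4
  haveI : Fintype G := Fintype.ofFinite G
  set T : ℕ → Subgroup G := fun j => commCentralizer ((⊤ : Subgroup G).lowerCentralSeries j)
    ((⊤ : Subgroup G).lowerCentralSeries (j + 2)) with hTdef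
  set s : G → ℕ := fun x => ((Finset.range (c - 1)).filter (fun j => x ∉ T j)).card with hsdef
  have hs' : ∀ x : G, s x ≤ b := hs
  have hsum1 : ∑ x : G, s x =
      ∑ j ∈ Finset.range (c - 1), (Finset.univ.filter (fun x : G => x ∉ T j)).card := by
    simp only [hsdef, Finset.card_filter]
    rw [Finset.sum_comm]
  have hone : s 1 = 0 := by
    simp only [hsdef]
    rw [Finset.card_eq_zero, Finset.filter_eq_empty_iff]
    intro j _ h
    exact h (Subgroup.one_mem _)
  have hupper : ∑ x : G, s x + b ≤ b * Fintype.card G := by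
    have h1 : ∑ x : G, s x = ∑ x ∈ Finset.univ.erase (1 : G), s x := by
      rw [← Finset.add_sum_erase Finset.univ s (Finset.mem_univ 1), hone, zero_add]
    rw [h1]
    have h2 : ∑ x ∈ Finset.univ.erase (1 : G), s x ≤ (Finset.univ.erase (1 : G)).card * b := by
      have h := Finset.sum_le_card_nsmul (Finset.univ.erase (1 : G)) s b (fun x _ => hs' x)
      simpa [smul_eq_mul] using h
    rw [Finset.card_erase_of_mem (Finset.mem_univ 1), Finset.card_univ] at h2
    have h3 : 1 ≤ Fintype.card G := Fintype.card_pos
    obtain ⟨k, hk⟩ : ∃ k, Fintype.card G = k + 1 := ⟨Fintype.card G - 1, by omega⟩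
    rw [hk] at h2 ⊢
    simp only [Nat.add_sub_cancel] at h2
    linarith
  have hlower : ∀ j ∈ Finset.range (c - 1),
      (p - 1) * Fintype.card G ≤ p * (Finset.univ.filter (fun x : G => x ∉ T j)).card := by
    intro j hj
    have hj' : j + 1 < c := by have := Finset.mem_range.mp hj; omega
    have hTj := hT j hj'
    have h1 := Subgroup.card_mul_index (T j)
    have h2 : p ≤ (T j).index := by
      obtain ⟨n, hn⟩ := hG.index (T j)
      rw [hn]
      have hn0 : n ≠ 0 := by
        intro h0; rw [h0, pow_zero] at hn
        exact hTj (Subgroup.index_eq_one.mp hn)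
      exact Nat.le_self_pow hn0 p
    have h3 : (Finset.univ.filter (fun x : G => x ∈ T j)).card +
        (Finset.univ.filter (fun x : G => x ∉ T j)).card = Fintype.card G := by
      rw [Finset.card_filter_add_card_filter_not, Finset.card_univ]
    have h4 : (Finset.univ.filter (fun x : G => x ∈ T j)).card = Nat.card (T j) := by
      rw [Nat.card_eq_fintype_card, Fintype.card_subtype]
    have h5 : Nat.card G = Fintype.card G := Nat.card_eq_fintype_card
    have h6 : p * Nat.card (T j) ≤ Fintype.card G := by
      rw [← h5, ← h1, mul_comm]; exact Nat.mul_le_mul_left _ h2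
    have hp1 : p - 1 + 1 = p := Nat.sub_add_cancel hp.one_lt.le
    have e2 : (p - 1) * Fintype.card G + Fintype.card G = p * Fintype.card G := by
      calc (p - 1) * Fintype.card G + Fintype.card G = (p - 1 + 1) * Fintype.card G := by ring
        _ = p * Fintype.card G := by rw [hp1]
    have e1 : p * (Finset.univ.filter (fun x : G => x ∈ T j)).card +
        p * (Finset.univ.filter (fun x : G => x ∉ T j)).card = p * Fintype.card G := by
      rw [← mul_add, h3]
    rw [h4] at e1
    linarith
  have htotal : (c - 1) * ((p - 1) * Fintype.card G) ≤ p * ∑ x : G, s x := by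
    rw [hsum1, Finset.mul_sum]
    calc (c - 1) * ((p - 1) * Fintype.card G)
        = ∑ j ∈ Finset.range (c - 1), (p - 1) * Fintype.card G := by
          rw [Finset.sum_const, Finset.card_range, smul_eq_mul]
      _ ≤ _ := Finset.sum_le_sum hlower
  have hN : 1 ≤ Fintype.card G := Fintype.card_pos
  refine ⟨c, hcbot, fun hb0 => ?_, fun hb0 => ?_⟩
  · have key : (c - 1) * (p - 1) < b * p := by
      by_contra hcon
      push_neg at hcon
      have h1 : b * p * Fintype.card G ≤ (c - 1) * (p - 1) * Fintype.card G :=
        Nat.mul_le_mul_right _ hcon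
      have h2 : 0 < b * p := Nat.mul_pos (Nat.pos_of_ne_zero hb0) hp.pos
      have h3 : p * (∑ x : G, s x) + p * b ≤ p * (b * Fintype.card G) := by
        rw [← mul_add]; exact Nat.mul_le_mul_left _ hupper
      have e1 : (c - 1) * (p - 1) * Fintype.card G = (c - 1) * ((p - 1) * Fintype.card G) := by ring
      have e2 : p * (b * Fintype.card G) = b * p * Fintype.card G := by ring
      have e3 : p * b = b * p := by ring
      rw [e1] at h1
      rw [e2, e3] at h3
      linarith
    refine ⟨key, ?_⟩
    have hp2 : 2 ≤ p := hp.two_le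
    by_contra hcon
    push_neg at hcon
    have h1 : 2 * b ≤ c - 1 := by omega
    have h2 : 2 * b * (p - 1) ≤ (c - 1) * (p - 1) := Nat.mul_le_mul_right _ h1
    have h3 : b * p ≤ 2 * b * (p - 1) := by
      have h4 : p ≤ 2 * (p - 1) := by omega
      calc b * p ≤ b * (2 * (p - 1)) := Nat.mul_le_mul_left _ h4
        _ = 2 * b * (p - 1) := by ring
    omega
  · rw [hb0] at hupper
    have h1 : ∑ x : G, s x = 0 := by simpa using hupper
    rw [h1] at htotal
    have h2 : (c - 1) * ((p - 1) * Fintype.card G) = 0 := by simpa using htotal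
    have h3 : 0 < (p - 1) * Fintype.card G := Nat.mul_pos (by have := hp.two_le; omega) hN
    rcases Nat.mul_eq_zero.mp h2 with h4 | h4
    · omega
    · omega

end Cfsg.Agent.S3778
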