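import Cfsg.Statements.S3780
import Mathlib
import Cfsg.Agent.Lib.Helper6.AbGen
-- import your own Cfsg.Agent.* helpers here

set_option autoImplicit false
open Cfsg

namespace Cfsg.Agent.S3780



/-- Let V be a finite abelian p-group and α an automorphism of V of order p whose fixed-point subgroup has order p^n. Then V can be generated by pn elements: some subset of V with at most pn elements generates V. -/
theorem result {V : Type*} [CommGroup V] [Finite V] {p : ℕ} [Fact p.Prime] (hV : IsPGroup p V) (α : MulAut V) (hα : orderOf α = p) (n : ℕ) (hfix : Nat.card {v : V // α v = v} = p ^ n) : ∃ S : Finset V, S.card ≤ p * n ∧ Subgroup.closure (S : Set V) = ⊤ := by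
  classical
  have hp : p.Prime := Fact.out
  have hαp : α ^ p = 1 := by
    rw [← hα]
    exact pow_orderOf_eq_one α
  have h1 := Cfsg.Agent.Lib.Helper6.card_ker_pow_le_of_pow_eq_one (p := p) α hαp
  obtain ⟨r, hr⟩ := IsPGroup.iff_card.mp (hV.to_subgroup (powMonoidHom p : V →* V).ker)
  obtain ⟨f, hf⟩ := Cfsg.Agent.Lib.Helper6.exists_generators_of_comm_pgroup hV r hr
  have hrn : r ≤ p * n := by
    rw [hr, hfix, ← pow_mul] at h1
    have := (Nat.pow_le_pow_iff_right hp.one_lt).mp h1
    rw [mul_comm]
    exact this
  refine ⟨Finset.univ.image f, ?_, ?_⟩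
  · refine le_trans Finset.card_image_le ?_
    rw [Finset.card_univ, Fintype.card_fin]
    exact hrn
  · rw [Finset.coe_image, Finset.coe_univ, Set.image_univ]
    exact hf

end Cfsg.Agent.S3780
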