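import Cfsg.Statements.S3781
import Mathlib
import Cfsg.Agent.Lib.Helper3.IterComm

set_option autoImplicit false
open Cfsg

namespace Cfsg.Agent.S3781

open Cfsg.Agent.Lib.Helper3

/-- Let G be a finite p-group and n ≥ 1, and write γ_1(G) = G, γ_{k+1}(G) = [γ_k(G), G], and likewise γ_k(N) for a subgroup N. Let N be a normal subgroup of G contained in γ_n(G). If i > 1 and γ_{i+1}(N) ≠ 1, then |γ_i(N) : γ_{i+1}(N)| ≥ p^n. -/
theorem result {G : Type*} [Group G] [Finite G] {p : ℕ} [Fact p.Prime] (hG : IsPGroup p G) (n : ℕ) (hn : 1 ≤ n) (N : Subgroup G) [N.Normal] (hN : N ≤ (⊤ : Subgroup G).lowerCentralSeries (n - 1)) (i : ℕ) (hi : 1 < i) (hne : N.lowerCentralSeries i ≠ ⊥) : p ^ n ≤ (N.lowerCentralSeries i).relIndex (N.lowerCentralSeries (i - 1)) := by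
  have hp : p.Prime := Fact.out
  obtain ⟨j, rfl⟩ : ∃ j, i = j + 1 := ⟨i - 1, by omega⟩
  rw [Nat.add_sub_cancel]
  haveI hMn : (N.lowerCentralSeries j).Normal := lcs_normal_of_normal N j
  haveI hM₁n : (N.lowerCentralSeries (j + 1)).Normal := lcs_normal_of_normal N (j + 1)
  have hM₁M : N.lowerCentralSeries (j + 1) ≤ N.lowerCentralSeries j :=
    Subgroup.lowerCentralSeries_antitone _ (Nat.le_succ j)
  by_contra hcon
  rw [not_le] at hcon
  obtain ⟨t, ht⟩ : ∃ t, (N.lowerCentralSeries (j + 1)).relIndex (N.lowerCentralSeries j) = p ^ t :=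
    (hG.to_subgroup (N.lowerCentralSeries j)).index
      ((N.lowerCentralSeries (j + 1)).subgroupOf (N.lowerCentralSeries j))
  have htn : t ≤ n - 1 := by
    rw [ht] at hcon
    have := (Nat.pow_lt_pow_iff_right hp.one_lt).mp hcon
    omega
  have hπ : Function.Surjective (QuotientGroup.mk' (N.lowerCentralSeries (j + 1))) :=
    QuotientGroup.mk'_surjective _
  have hQ : IsPGroup p (G ⧸ N.lowerCentralSeries (j + 1)) := hG.to_quotient _
  haveI : ((N.lowerCentralSeries j).map (QuotientGroup.mk' (N.lowerCentralSeries (j + 1)))).Normal :=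
    Subgroup.Normal.map inferInstance _ hπ
  have hcard : Nat.card ((N.lowerCentralSeries j).map
      (QuotientGroup.mk' (N.lowerCentralSeries (j + 1)))) ≤ p ^ (n - 1) := by
    have h1 : ((N.lowerCentralSeries j).map
        (QuotientGroup.mk' (N.lowerCentralSeries (j + 1)))).index = (N.lowerCentralSeries j).index :=
      Subgroup.index_map_eq _ hπ (by rw [QuotientGroup.ker_mk']; exact hM₁M)
    have h2 := Subgroup.card_mul_index ((N.lowerCentralSeries j).map
        (QuotientGroup.mk' (N.lowerCentralSeries (j + 1))))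
    rw [h1, ← Subgroup.index_eq_card, ← Subgroup.relIndex_mul_index hM₁M] at h2
    have h3 : (N.lowerCentralSeries j).index ≠ 0 := Subgroup.index_ne_zero_of_finite
    have h4 := Nat.eq_of_mul_eq_mul_right (Nat.pos_of_ne_zero h3) h2
    rw [h4, ht]
    exact Nat.pow_le_pow_right hp.pos htn
  have h1 := iterComm_eq_bot_of_card_le hQ _ (n - 1) hcard
  have hmap : ∀ k, (iterComm k (N.lowerCentralSeries j)).map
      (QuotientGroup.mk' (N.lowerCentralSeries (j + 1))) =
      iterComm k ((N.lowerCentralSeries j).map (QuotientGroup.mk' (N.lowerCentralSeries (j + 1)))) := by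
    intro k
    induction k with
    | zero => rfl
    | succ k ih =>
      rw [iterComm_succ, iterComm_succ, Subgroup.map_commutator, ih,
        Subgroup.map_top_of_surjective _ hπ]
  have h2 : iterComm (n - 1) (N.lowerCentralSeries j) ≤ N.lowerCentralSeries (j + 1) := by
    rw [← Cfsg.Agent.Lib.Helper7.map_mk'_eq_bot_iff, hmap, h1]
  have h3 : N.lowerCentralSeries (j + 1) ≤ ⁅N.lowerCentralSeries (j + 1), (⊤ : Subgroup G)⁆ := by
    calc N.lowerCentralSeries (j + 1) = ⁅N.lowerCentralSeries j, N⁆ := rfl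
      _ ≤ ⁅N.lowerCentralSeries j, (⊤ : Subgroup G).lowerCentralSeries (n - 1)⁆ :=
          Subgroup.commutator_mono le_rfl hN
      _ ≤ iterComm (n - 1 + 1) (N.lowerCentralSeries j) :=
          commutator_lcs_le_iterComm (n - 1) (N.lowerCentralSeries j)
      _ = ⁅iterComm (n - 1) (N.lowerCentralSeries j), (⊤ : Subgroup G)⁆ := iterComm_succ _ _
      _ ≤ ⁅N.lowerCentralSeries (j + 1), (⊤ : Subgroup G)⁆ := Subgroup.commutator_mono h2 le_rfl
  have h4 : ⁅N.lowerCentralSeries (j + 1), (⊤ : Subgroup G)⁆ = N.lowerCentralSeries (j + 1) :=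
    le_antisymm (Subgroup.commutator_le_left _ _) h3
  have h5 : ∀ k, iterComm k (N.lowerCentralSeries (j + 1)) = N.lowerCentralSeries (j + 1) := by
    intro k
    induction k with
    | zero => rfl
    | succ k ih => rw [iterComm_succ, ih, h4]
  haveI : Group.IsNilpotent G := hG.isNilpotent
  obtain ⟨c, hc⟩ := Subgroup.nilpotent_iff_lowerCentralSeries.mp (inferInstance : Group.IsNilpotent G)
  have h6 := iterComm_le_lcs c (N.lowerCentralSeries (j + 1))
  rw [h5 c, hc] at h6
  exact hne (le_bot_iff.mp h6)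

end Cfsg.Agent.S3781
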