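import Cfsg.Statements.S3784
import Mathlib

set_option autoImplicit false
open Cfsg

namespace Cfsg.Agent.S3784

theorem odd_factor_add (q : ℤ) (hq : Odd q) (k : ℕ) :
    ∃ S : ℤ, Odd S ∧ q ^ (2 * k + 1) + 1 = (q + 1) * S := by
  induction k with
  | zero => exact ⟨1, odd_one, by ring⟩
  | succ k ih =>
    obtain ⟨S, hS, hSe⟩ := ih
    refine ⟨q ^ 2 * S - (q - 1), ?_, ?_⟩
    · have h1 : Odd (q ^ 2 * S) := (hq.pow).mul hS
      have h2 : Even (q - 1) := hq.sub_odd odd_one
      exact h1.sub_even h2
    · have e : q ^ (2 * (k + 1) + 1) = q ^ 2 * q ^ (2 * k + 1) := by ring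
      rw [e]
      linear_combination q ^ 2 * hSe

theorem odd_factor_sub (p : ℤ) (hp : Odd p) (k : ℕ) :
    ∃ T : ℤ, Odd T ∧ p ^ (2 * k + 1) - 1 = (p - 1) * T := by
  induction k with
  | zero => exact ⟨1, odd_one, by ring⟩
  | succ k ih =>
    obtain ⟨T, hT, hTe⟩ := ih
    refine ⟨p ^ 2 * T + (p + 1), ?_, ?_⟩
    · have h1 : Odd (p ^ 2 * T) := (hp.pow).mul hT
      have h2 : Even (p + 1) := hp.add_odd odd_one
      exact h1.add_even h2
    · have e : p ^ (2 * (k + 1) + 1) = p ^ 2 * p ^ (2 * k + 1) := by ring
      rw [e]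
      linear_combination p ^ 2 * hTe

theorem odd_dvd_two_pow (S : ℤ) (hS : Odd S) (hpos : 0 < S) (a : ℕ) (hd : S ∣ 2 ^ a) : S = 1 := by
  have h1 : S.natAbs ∣ 2 ^ a := by
    have := Int.natAbs_dvd_natAbs.mpr hd
    simpa [Int.natAbs_pow] using this
  obtain ⟨j, -, hj⟩ := (Nat.dvd_prime_pow Nat.prime_two).1 h1
  have h2 : Odd S.natAbs := Int.natAbs_odd.mpr hS
  have hj0 : j = 0 := by
    by_contra hne
    rw [hj] at h2
    have : Even (2 ^ j) := (Nat.even_pow' hne).mpr even_two
    exact (Nat.not_odd_iff_even.mpr this) h2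
  rw [hj0, pow_zero] at hj
  omega

theorem pow_eq_self_imp (q b : ℕ) (hq : 2 ≤ q) (h : q ^ b = q) : b = 1 := by
  have : q ^ b = q ^ 1 := by rw [pow_one]; exact h
  exact Nat.pow_right_injective hq this

/-- Let p, q be primes and a, b positive integers with p^a = q^b + 1. Then either p = 2, b = 1, a is prime and q = 2^a − 1; or q = 2, a = 1, b is a power of 2 and p = 2^b + 1; or p^a = 9 and q^b = 8. -/
theorem result (p q a b : ℕ) (hp : p.Prime) (hq : q.Prime) (ha : 1 ≤ a) (hb : 1 ≤ b) (h : p ^ a = q ^ b + 1) : (p = 2 ∧ b = 1 ∧ a.Prime ∧ q + 1 = 2 ^ a) ∨ (q = 2 ∧ a = 1 ∧ (∃ m : ℕ, b = 2 ^ m) ∧ p = 2 ^ b + 1) ∨ (p ^ a = 9 ∧ q ^ b = 8) := by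
  by_cases hq2 : q = 2
  · subst hq2
    -- p is odd
    have hpodd : Odd p := by
      rcases hp.eq_two_or_odd' with h2 | h2
      · exfalso
        subst h2
        have h1 : Even (2 ^ a) := (Nat.even_pow' (by omega)).mpr even_two
        have h3 : Even (2 ^ b) := (Nat.even_pow' (by omega)).mpr even_two
        rw [h] at h1
        have : Odd (2 ^ b + 1) := h3.add_one
        exact (Nat.not_even_iff_odd.mpr this) h1
      · exact h2
    by_cases ha1 : a = 1
    · subst ha1
      rw [pow_one] at h
      right; left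
      refine ⟨rfl, rfl, ?_, h⟩
      apply Nat.pow_of_pow_add_prime (a := 2) (by norm_num) (by omega)
      rw [← h]; exact hp
    · rcases Nat.even_or_odd a with hae | hao
      · -- a even
        obtain ⟨c, hc⟩ := hae
        have hc1 : 1 ≤ c := by omega
        obtain ⟨x, hx⟩ : ∃ x, x = p ^ c := ⟨_, rfl⟩
        have hx2 : x * x = 2 ^ b + 1 := by
          rw [← h, hc, pow_add, hx]
        have hx3 : 3 ≤ x := by
          rw [hx]
          have hp3 : 3 ≤ p := by
            have := hp.two_le
            rcases hpodd with ⟨k, hk⟩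
            omega
          calc 3 ≤ p := hp3
            _ = p ^ 1 := (pow_one p).symm
            _ ≤ p ^ c := Nat.pow_le_pow_right hp.pos hc1
        have hprod : (x - 1) * (x + 1) = 2 ^ b := by
          obtain ⟨y, hy⟩ : ∃ y, x = y + 1 := ⟨x - 1, by omega⟩
          rw [hy] at hx2 ⊢
          have e : (y + 1 - 1) * (y + 1 + 1) + 1 = (y + 1) * (y + 1) := by
            rw [Nat.add_sub_cancel]; ring
          omega
        have hd1 : x - 1 ∣ 2 ^ b := ⟨x + 1, hprod.symm⟩
        have hd2 : x + 1 ∣ 2 ^ b := ⟨x - 1, by rw [← hprod, mul_comm]⟩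
        obtain ⟨i, -, hi⟩ := (Nat.dvd_prime_pow Nat.prime_two).1 hd1
        obtain ⟨j, -, hj⟩ := (Nat.dvd_prime_pow Nat.prime_two).1 hd2
        have hij : 2 ^ j = 2 ^ i + 2 := by omega
        have hx3' : x = 3 := by
          rcases Nat.lt_or_ge i 2 with hi2 | hi2
          · interval_cases i
            · -- 2^j = 3
              exfalso
              rcases Nat.lt_or_ge j 2 with hj2 | hj2
              · interval_cases j <;> omega
              · have : 2 ^ 2 ∣ 2 ^ j := pow_dvd_pow 2 hj2
                omega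
            · -- 2^j = 4, x = 3
              omega
          · exfalso
            have h4 : 2 ^ 2 ∣ 2 ^ i := pow_dvd_pow 2 hi2
            rcases Nat.lt_or_ge j 2 with hj2 | hj2
            · interval_cases j
              · omega
              · have : 0 < 2 ^ i := by positivity
                omega
            · have : 2 ^ 2 ∣ 2 ^ j := pow_dvd_pow 2 hj2
              omega
        right; right
        have h9 : p ^ a = 9 := by
          rw [hc, pow_add, ← hx, hx3']; norm_num
        refine ⟨h9, ?_⟩
        omega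
      · -- a odd, a ≥ 3
        exfalso
        obtain ⟨k, hk⟩ := hao
        obtain ⟨T, hT, hTe⟩ := odd_factor_sub (p : ℤ) (by exact_mod_cast hpodd) k
        have h1 : ((p : ℤ) - 1) * T = 2 ^ b := by
          rw [← hTe, ← hk]
          have := congrArg (Nat.cast : ℕ → ℤ) h
          push_cast at this
          linarith
        have hp1 : (0 : ℤ) < (p : ℤ) - 1 := by
          have := hp.two_le
          have : (2 : ℤ) ≤ p := by exact_mod_cast this
          linarith
        have hTpos : 0 < T := by
          by_contra hneg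
          push Not at hneg
          have : ((p : ℤ) - 1) * T ≤ 0 := mul_nonpos_of_nonneg_of_nonpos hp1.le hneg
          have h2 : (0 : ℤ) < 2 ^ b := by positivity
          linarith
        have hT1 : T = 1 := odd_dvd_two_pow T hT hTpos b ⟨(p : ℤ) - 1, by rw [← h1]; ring⟩
        rw [hT1, mul_one] at hTe
        have h3 : (p : ℤ) ^ (2 * k + 1) = p := by linarith
        have h4 : p ^ (2 * k + 1) = p := by exact_mod_cast h3
        have := pow_eq_self_imp p (2 * k + 1) hp.two_le h4
        omega
  · -- q odd, so p = 2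
    have hqodd : Odd q := by
      rcases hq.eq_two_or_odd' with h2 | h2
      · exact absurd h2 hq2
      · exact h2
    have hp2 : p = 2 := by
      rcases hp.eq_two_or_odd' with h2 | h2
      · exact h2
      · exfalso
        have h1 : Odd (p ^ a) := h2.pow
        have h3 : Odd (q ^ b) := hqodd.pow
        rw [h] at h1
        have : Even (q ^ b + 1) := h3.add_one
        exact (Nat.not_even_iff_odd.mpr h1) this
    subst hp2
    have hq3 : 3 ≤ q := by
      have := hq.two_le
      rcases hqodd with ⟨k, hk⟩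
      omega
    have hb1 : b = 1 := by
      rcases Nat.even_or_odd b with hbe | hbo
      · exfalso
        obtain ⟨c, hc⟩ := hbe
        -- q^b = (q^c)^2 ≡ 1 mod 4
        have hqc : Odd (q ^ c) := hqodd.pow
        obtain ⟨m, hm⟩ := hqc
        have hqb : q ^ b = 4 * (m * m + m) + 1 := by
          rw [hc, pow_add, hm]; ring
        have hmod : (2 ^ a) % 4 = 2 := by
          rw [h, hqb]; omega
        rcases Nat.lt_or_ge a 2 with ha2 | ha2
        · have ha1 : a = 1 := by omega
          subst ha1
          have : q ^ b = 1 := by omega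
          have h5 : 3 ≤ q ^ b := by
            calc 3 ≤ q := hq3
              _ = q ^ 1 := (pow_one q).symm
              _ ≤ q ^ b := Nat.pow_le_pow_right hq.pos hb
          omega
        · have : 2 ^ 2 ∣ 2 ^ a := pow_dvd_pow 2 ha2
          omega
      · obtain ⟨k, hk⟩ := hbo
        obtain ⟨S, hS, hSe⟩ := odd_factor_add (q : ℤ) (by exact_mod_cast hqodd) k
        have h1 : ((q : ℤ) + 1) * S = 2 ^ a := by
          rw [← hSe, ← hk]
          have := congrArg (Nat.cast : ℕ → ℤ) h
          push_cast at this
          linarith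
        have hq1 : (0 : ℤ) < (q : ℤ) + 1 := by positivity
        have hSpos : 0 < S := by
          by_contra hneg
          push Not at hneg
          have : ((q : ℤ) + 1) * S ≤ 0 := mul_nonpos_of_nonneg_of_nonpos hq1.le hneg
          have h2 : (0 : ℤ) < 2 ^ a := by positivity
          linarith
        have hS1 : S = 1 := odd_dvd_two_pow S hS hSpos a ⟨(q : ℤ) + 1, by rw [← h1]; ring⟩
        rw [hS1, mul_one] at hSe
        have h3 : (q : ℤ) ^ (2 * k + 1) = q := by linarith
        have h4 : q ^ (2 * k + 1) = q := by exact_mod_cast h3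
        have := pow_eq_self_imp q (2 * k + 1) hq.two_le h4
        omega
    subst hb1
    rw [pow_one] at h
    left
    refine ⟨rfl, rfl, ?_, h.symm⟩
    have ha1 : a ≠ 1 := by
      intro h1; subst h1; omega
    have hP : (2 ^ a - 1).Prime := by
      have : 2 ^ a - 1 = q := by omega
      rw [this]; exact hq
    exact (Nat.prime_of_pow_sub_one_prime ha1 hP).2

end Cfsg.Agent.S3784
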