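import Cfsg.Statements.S3785
import Mathlib
import Cfsg.Agent.Lib.Helper6.PPartsInd
import Cfsg.Agent.Lib.Helper6.PiElts
import Cfsg.Agent.Lib.Helper4.Subnormal
import Cfsg.Agent.Lib.Helper2.Nilp
import Cfsg.Agent.Lib.Helper3.HallHigman
import Cfsg.Agent.S0044
-- import your own Cfsg.Agent.* helpers here

set_option autoImplicit false
open Cfsg

namespace Cfsg.Agent.S3785


open Cfsg.Agent.Lib.Helper6 in
theorem main {G : Type*} [Group G] [Finite G] [Group.IsSolvable G]
    (hodd : Odd (Nat.card (Cfsg.fittingSubgroup G))) (g : G)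
    (hg : ∀ x ∈ Cfsg.fittingSubgroup G, (orderOf x).Prime → g * x = x * g) :
    g ∈ Cfsg.fittingSubgroup G := by
  classical
  set F := Cfsg.fittingSubgroup G with hF
  have hFn : F.Normal := Cfsg.Agent.Lib.Helper2.fitting_normal G
  haveI hFnil : Group.IsNilpotent ↥F := Cfsg.Agent.Lib.Helper2.fitting_isNilpotent G
  -- the set of prime order elements of F and its centralizer
  let S : Set G := {x | x ∈ F ∧ (orderOf x).Prime}
  let C : Subgroup G := Subgroup.centralizer S
  have hSconj : ∀ a : G, ∀ x ∈ S, a * x * a⁻¹ ∈ S := by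
    intro a x hx
    refine ⟨hFn.conj_mem x hx.1 a, ?_⟩
    have : orderOf (a * x * a⁻¹) = orderOf x := Cfsg.Agent.Lib.Helper6.orderOf_conj_eq a x
    rw [this]
    exact hx.2
  have hCn : C.Normal := by
    refine ⟨fun c hc a => ?_⟩
    show a * c * a⁻¹ ∈ Subgroup.centralizer S
    rw [Subgroup.mem_centralizer_iff]
    intro s hs
    have hc' : c ∈ Subgroup.centralizer S := hc
    rw [Subgroup.mem_centralizer_iff] at hc'
    have h1 := hc' (a⁻¹ * s * a⁻¹⁻¹) (hSconj a⁻¹ s hs)
    rw [inv_inv] at h1
    calc s * (a * c * a⁻¹) = a * ((a⁻¹ * s * a) * c) * a⁻¹ := by group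
      _ = a * (c * (a⁻¹ * s * a)) * a⁻¹ := by rw [h1]
      _ = a * c * a⁻¹ * s := by group
  have hgC : g ∈ C := by
    show g ∈ Subgroup.centralizer S
    rw [Subgroup.mem_centralizer_iff]
    intro s hs
    exact (hg s hs.1 hs.2).symm
  have hCcomm : ∀ c ∈ C, ∀ s ∈ F, (orderOf s).Prime → c * s = s * c := by
    intro c hc s hs hsp
    have hc' : c ∈ Subgroup.centralizer S := hc
    rw [Subgroup.mem_centralizer_iff] at hc'
    exact (hc' s ⟨hs, hsp⟩).symm
  -- (ii) p-elements of F lie in O_p(G)
  have hE : ∀ (p : ℕ) [Fact p.Prime], ∀ u ∈ F, ∀ k : ℕ, orderOf u = p ^ k → u ∈ Cfsg.pCore p G := by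
    intro p _ u hu k hk
    have hle : Subgroup.zpowers u ≤ F := by
      rw [Subgroup.zpowers_le]
      exact hu
    have hsn : (Subgroup.zpowers u).IsSubnormal :=
      Subgroup.IsSubnormal.trans hle
        (Cfsg.Agent.Lib.Helper4.isSubnormal_of_isNilpotent ((Subgroup.zpowers u).subgroupOf F))
        hFn.isSubnormal
    have hpg : IsPGroup p ↥(Subgroup.zpowers u) := by
      apply IsPGroup.of_card (n := k)
      rw [Nat.card_zpowers, hk]
    exact Cfsg.Agent.Lib.Helper2.subnormal_pgroup_le_pCore p (Subgroup.zpowers u) hsn hpg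
      (Subgroup.mem_zpowers u)
  -- (i) p'-elements of C centralize O_p(G)
  have hH : ∀ (p : ℕ) [Fact p.Prime], ∀ z ∈ C, (orderOf z).Coprime p →
      ∀ a ∈ Cfsg.pCore p G, z * a = a * z := by
    intro p hpf z hz hcop
    have hp : p.Prime := hpf.out
    have hQn : (Cfsg.pCore p G).Normal := Cfsg.pCore_normal p G
    have hQp : IsPGroup p ↥(Cfsg.pCore p G) := Cfsg.Agent.Lib.Helper2.pCore_isPGroup' p G
    have hQF : Cfsg.pCore p G ≤ F := Cfsg.Agent.Lib.Helper2.pCore_le_fitting p G
    by_contra hcon
    have hnc : ¬ ∀ a ∈ Cfsg.pCore p G, z * a * z⁻¹ = a := by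
      intro h
      apply hcon
      intro a ha
      have := h a ha
      calc z * a = z * a * z⁻¹ * z := by group
        _ = a * z := by rw [this]
    obtain ⟨R, hRQ, hzR, hncR, hexp⟩ :=
      Cfsg.Agent.Lib.Helper3.exists_small_exponent_not_centralized (Cfsg.pCore p G) hQp z
        (fun a ha => hQn.conj_mem a ha z) hcop hnc
    -- p is odd
    have hp2 : p ≠ 2 := by
      intro h2
      have hne : Cfsg.pCore p G ≠ ⊥ := by
        intro hbot
        apply hnc
        intro a ha
        rw [hbot, Subgroup.mem_bot] at ha
        rw [ha]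
        group
      have hdvd : p ∣ Nat.card ↥(Cfsg.pCore p G) := by
        obtain ⟨k, hk⟩ := IsPGroup.iff_card.mp hQp
        rcases Nat.eq_zero_or_pos k with h | h
        · exfalso
          rw [h, pow_zero] at hk
          exact hne (Subgroup.card_eq_one.mp hk)
        · rw [hk]
          exact dvd_pow_self p h.ne'
      have hdvd2 : p ∣ Nat.card ↥F := hdvd.trans (Subgroup.card_dvd_of_le hQF)
      rw [h2] at hdvd2
      rcases hodd with ⟨m, hm⟩
      omega
    apply hncR
    intro a ha
    have hap : a ^ p = 1 := by
      rcases hexp a ha with h | ⟨h, _⟩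
      · exact h
      · exact absurd h hp2
    by_cases ha1 : a = 1
    · rw [ha1]
      group
    · have hoa : orderOf a = p := orderOf_eq_prime hap ha1
      have := hCcomm z hz a (hQF (hRQ ha)) (by rw [hoa]; exact hp)
      rw [this]
      group
  -- the q-elements of C lie in F
  have hQel : ∀ (q : ℕ) [Fact q.Prime], ∀ x ∈ C, ∀ k : ℕ, orderOf x = q ^ k → x ∈ F := by
    intro q hqf x hx k hk
    have hq : q.Prime := hqf.out
    let T : Set G := {y | y ∈ F ∧ (orderOf y).Coprime q}
    let K : Subgroup G := Subgroup.centralizer T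
    have hTconj : ∀ a : G, ∀ y ∈ T, a * y * a⁻¹ ∈ T := by
      intro a y hy
      refine ⟨hFn.conj_mem y hy.1 a, ?_⟩
      have : orderOf (a * y * a⁻¹) = orderOf y := Cfsg.Agent.Lib.Helper6.orderOf_conj_eq a y
      rw [this]
      exact hy.2
    have hKn : K.Normal := by
      refine ⟨fun c hc a => ?_⟩
      show a * c * a⁻¹ ∈ Subgroup.centralizer T
      rw [Subgroup.mem_centralizer_iff]
      intro s hs
      have hc' : c ∈ Subgroup.centralizer T := hc
      rw [Subgroup.mem_centralizer_iff] at hc'
      have h1 := hc' (a⁻¹ * s * a⁻¹⁻¹) (hTconj a⁻¹ s hs)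
      rw [inv_inv] at h1
      calc s * (a * c * a⁻¹) = a * ((a⁻¹ * s * a) * c) * a⁻¹ := by group
        _ = a * (c * (a⁻¹ * s * a)) * a⁻¹ := by rw [h1]
        _ = a * c * a⁻¹ * s := by group
    have hKcomm : ∀ c ∈ K, ∀ s ∈ F, (orderOf s).Coprime q → c * s = s * c := by
      intro c hc s hs hsp
      have hc' : c ∈ Subgroup.centralizer T := hc
      rw [Subgroup.mem_centralizer_iff] at hc'
      exact (hc' s ⟨hs, hsp⟩).symm
    -- x ∈ K
    have hxK : x ∈ K := by
      show x ∈ Subgroup.centralizer T
      rw [Subgroup.mem_centralizer_iff]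
      intro f hf
      have hcomm : x * f = f * x := by
        refine prime_parts_induction (fun f => x * f = f * x) ?_ f ?_
        · intro a b ha hb
          show x * (a * b) = a * b * x
          calc x * (a * b) = (x * a) * b := by group
            _ = a * (x * b) := by rw [ha]; group
            _ = a * b * x := by rw [hb]; group
        · intro y hy p j hp hj
          show x * y = y * x
          by_cases hj0 : j = 0
          · rw [hj0, pow_zero, orderOf_eq_one_iff] at hj
            rw [hj]
            group
          · haveI : Fact p.Prime := ⟨hp⟩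
            have hyF : y ∈ F := by
              have hle : Subgroup.zpowers f ≤ F := by
                rw [Subgroup.zpowers_le]
                exact hf.1
              exact hle hy
            have hyQ : y ∈ Cfsg.pCore p G := hE p y hyF j hj
            have hpy : p ∣ orderOf y := by
              rw [hj]
              exact dvd_pow_self p hj0
            have hpf : p ∣ orderOf f := hpy.trans (orderOf_dvd_of_mem_zpowers hy)
            have hpq : p ≠ q := by
              intro he
              have h3 : p ∣ Nat.gcd (orderOf f) q := Nat.dvd_gcd hpf (by rw [he])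
              have hc : Nat.gcd (orderOf f) q = 1 := hf.2
              rw [hc] at h3
              exact hp.one_lt.ne' (Nat.dvd_one.mp h3)
            have hcop : (orderOf x).Coprime p := by
              rw [hk]
              apply Nat.Coprime.pow_left
              exact (Nat.coprime_primes hq hp).mpr (Ne.symm hpq)
            exact hH p x hx hcop y hyQ
      exact hcomm.symm
    let N : Subgroup G := C ⊓ K
    have hNn : N.Normal := Subgroup.normal_inf_normal C K
    have hxN : x ∈ N := ⟨hx, hxK⟩
    -- q'-elements of N are central in N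
    have hA : ∀ z ∈ N, (orderOf z).Coprime q → ∀ n ∈ N, n * z = z * n := by
      intro z hz hcop n hn
      have hzF : z ∈ F := by
        apply Cfsg.Agent.S0044.result
        show z ∈ Subgroup.centralizer (F : Set G)
        rw [Subgroup.mem_centralizer_iff]
        intro f hf
        obtain ⟨y, w, hfyw, -, ⟨k', hk'⟩, hwcop, hy, hw⟩ := exists_p_decomp q f
        have hle : Subgroup.zpowers f ≤ F := by
          rw [Subgroup.zpowers_le]
          exact hf
        have h1 : z * y = y * z := hH q z hz.1 hcop y (hE q y (hle hy) k' hk')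
        have h2 : z * w = w * z := hKcomm z hz.2 w (hle hw) hwcop
        rw [hfyw]
        calc y * w * z = y * (w * z) := by group
          _ = y * (z * w) := by rw [h2]
          _ = (y * z) * w := by group
          _ = (z * y) * w := by rw [h1]
          _ = z * (y * w) := by group
      exact hKcomm n hn.2 z hzF hcop
    -- N / Z(N) is a q-group
    have hNZ : IsPGroup q (↥N ⧸ Subgroup.center ↥N) := by
      intro a
      obtain ⟨n, rfl⟩ := QuotientGroup.mk_surjective a
      obtain ⟨y, w, hnyw, -, ⟨k', hk'⟩, hwcop, hy, hw⟩ := exists_p_decomp q n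
      refine ⟨k', ?_⟩
      have hwZ : w ∈ Subgroup.center ↥N := by
        rw [Subgroup.mem_center_iff]
        intro m
        have hwo : (orderOf (w : G)).Coprime q := by
          rw [Subgroup.orderOf_coe]
          exact hwcop
        have := hA (w : G) w.2 hwo (m : G) m.2
        exact Subtype.ext this
      have hyk : y ^ q ^ k' = 1 := by
        rw [← hk']
        exact pow_orderOf_eq_one y
      have : ((n : ↥N) : ↥N ⧸ Subgroup.center ↥N) = ((y : ↥N) : ↥N ⧸ Subgroup.center ↥N) := by
        rw [hnyw, QuotientGroup.mk_mul, (QuotientGroup.eq_one_iff w).mpr hwZ, mul_one]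
      rw [this, ← QuotientGroup.mk_pow, hyk, QuotientGroup.mk_one]
    have hNnil : Group.IsNilpotent ↥N := by
      haveI : Group.IsNilpotent (↥N ⧸ Subgroup.center ↥N) := hNZ.isNilpotent
      exact Group.of_quotient_center_nilpotent this
    have hNF : N ≤ F := by
      rw [hF]
      unfold Cfsg.fittingSubgroup
      exact le_sSup ⟨hNn, hNnil⟩
    exact hNF hxN
  -- every element of C lies in F
  refine prime_parts_induction (fun x => x ∈ F) ?_ g ?_
  · intro a b ha hb
    exact F.mul_mem ha hb
  · intro y hy p k hp hk
    haveI : Fact p.Prime := ⟨hp⟩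
    have hle : Subgroup.zpowers g ≤ C := by
      rw [Subgroup.zpowers_le]
      exact hgC
    exact hQel p y (hle hy) k hk

/-- Let G be a finite solvable group whose Fitting subgroup F(G) has odd order. If an element g of G commutes with every element of prime order of F(G), then g ∈ F(G). -/
theorem result {G : Type*} [Group G] [Finite G] (hG : Group.IsSolvable G) (hodd : Odd (Nat.card (Cfsg.fittingSubgroup G))) (g : G) (hg : ∀ x ∈ Cfsg.fittingSubgroup G, (orderOf x).Prime → g * x = x * g) : g ∈ Cfsg.fittingSubgroup G := by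
  haveI := hG
  exact main hodd g hg

end Cfsg.Agent.S3785
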