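import Mathlib
import Cfsg.Statements.S3790
import Cfsg.Agent.Lib.Helper2.PLenSub

set_option autoImplicit false
open Cfsg

namespace Cfsg.Agent.S3790

/-- Let G be a finite solvable group and p a prime. Suppose p₁, …, p_r are distinct primes, all different from p, that include every prime dividing the order of G other than p, and that G has p_i-length at most l_i for each i. Then G has p-length at most the product of the numbers 1 + l_i. -/
theorem result {G : Type*} [Group G] [Finite G] (hG : Group.IsSolvable G) (p : ℕ) [Fact p.Prime] (r : ℕ) (q : Fin r → ℕ) (hq : ∀ i, (q i).Prime ∧ q i ≠ p) (hinj : Function.Injective q) (hcover : ∀ s : ℕ, s.Prime → s ∣ Nat.card G → s ≠ p → ∃ i, q i = s) (l : Fin r → ℕ) (hl : ∀ i, Cfsg.PLengthLE (q i) (l i) G) : Cfsg.PLengthLE p (Finset.univ.prod fun i => 1 + l i) G := by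
  have h := Cfsg.Agent.Lib.Helper2.plen_prod_aux p r q hq l Finset.univ G
    (fun t ht hdvd hne => by
      obtain ⟨i, hi⟩ := hcover t ht hdvd hne
      exact ⟨i, Finset.mem_univ i, hi⟩)
    (fun i _ => hl i)
  exact h

end Cfsg.Agent.S3790
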