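import Cfsg.Statements.S3800
import Mathlib
import Cfsg.Agent.Lib.Helper6.SylowSub

set_option autoImplicit false
open Cfsg

namespace Cfsg.Agent.S3800

open Cfsg.Agent.Lib.Helper6

theorem normalizer_lift {G : Type*} [Group G] [Finite G] {p : ℕ} [Fact p.Prime] (N : Subgroup G)
    [N.Normal] (hN : (Nat.card N).Coprime p) (P : Subgroup G) (hP : IsPGroup p P) (g : G)
    (hg : (QuotientGroup.mk' N) g ∈
      Subgroup.normalizer ((P.map (QuotientGroup.mk' N)) : Set (G ⧸ N))) :
    ∃ n ∈ N, n⁻¹ * g ∈ Subgroup.normalizer (P : Set G) := by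
  have hp : p.Prime := Fact.out
  have hQle : P.map (MulAut.conj g).toMonoidHom ≤ P ⊔ N := by
    intro y hy
    rw [mem_map_conj] at hy
    rw [Subgroup.mem_set_normalizer_iff] at hg
    have h1 : (QuotientGroup.mk' N) (g⁻¹ * y * g) ∈ P.map (QuotientGroup.mk' N) :=
      Subgroup.mem_map_of_mem _ hy
    have h2 := (hg _).mp h1
    rw [← map_inv, ← map_mul, ← map_mul] at h2
    obtain ⟨u, hu, hue⟩ := h2
    have e : g * (g⁻¹ * y * g) * g⁻¹ = y := by group
    rw [e, QuotientGroup.mk'_apply, QuotientGroup.mk'_apply, QuotientGroup.eq] at hue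
    have : y = u * (u⁻¹ * y) := by group
    rw [this]
    exact Subgroup.mul_mem_sup hu hue
  have hidx : ¬ p ∣ P.relIndex (P ⊔ N) := by
    intro h
    have h3 : p ∣ Nat.card N := h.trans (relIndex_sup_normal_dvd P N)
    have h4 : p ∣ Nat.gcd (Nat.card N) p := Nat.dvd_gcd h3 dvd_rfl
    rw [hN] at h4
    exact hp.one_lt.ne' (Nat.dvd_one.mp h4)
  obtain ⟨h, hh, hhe⟩ := exists_conj_of_sylow_in_subgroup (P ⊔ N) P (P.map (MulAut.conj g).toMonoidHom)
    le_sup_left hQle hP (hP.map _) hidx (card_map_conj P g)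
  rw [sup_comm] at hh
  obtain ⟨n, hn, u, hu, rfl⟩ := Subgroup.mem_sup_of_normal_left.mp hh
  refine ⟨n, hn, ?_⟩
  apply mem_normalizer_of_map_conj_eq
  rw [hhe, map_conj_mul, map_conj_of_mem P hu]

/-- Let G be a finite group, N a normal subgroup of G whose order is prime to p, and P a p-subgroup of G. Then in G/N the normalizer of the image of P is the image of N_G(P), and the centralizer of the image of P is the image of C_G(P). -/
theorem result {G : Type*} [Group G] [Finite G] {p : ℕ} [Fact p.Prime] (N : Subgroup G) [N.Normal] (hN : (Nat.card N).Coprime p) (P : Subgroup G) (hP : IsPGroup p P) : Subgroup.normalizer ((P.map (QuotientGroup.mk' N)) : Set (G ⧸ N)) = (Subgroup.normalizer (P : Set G)).map (QuotientGroup.mk' N) ∧ Subgroup.centralizer ((P.map (QuotientGroup.mk' N)) : Set (G ⧸ N)) = (Subgroup.centralizer (P : Set G)).map (QuotientGroup.mk' N) := by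
  have hp : p.Prime := Fact.out
  have key : ∀ g : G, (QuotientGroup.mk' N) g ∈
      Subgroup.normalizer ((P.map (QuotientGroup.mk' N)) : Set (G ⧸ N)) →
      ∃ m ∈ Subgroup.normalizer (P : Set G), (QuotientGroup.mk' N) m = (QuotientGroup.mk' N) g := by
    intro g hg
    obtain ⟨n, hn, hm⟩ := normalizer_lift N hN P hP g hg
    refine ⟨n⁻¹ * g, hm, ?_⟩
    rw [QuotientGroup.mk'_apply, QuotientGroup.mk'_apply, QuotientGroup.eq]
    have e : (n⁻¹ * g)⁻¹ * g = g⁻¹ * n * g := by group
    rw [e]
    have := ‹N.Normal›.conj_mem n hn g⁻¹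
    simpa using this
  constructor
  · apply le_antisymm
    · intro q hq
      obtain ⟨g, rfl⟩ := QuotientGroup.mk'_surjective N q
      obtain ⟨m, hm, hme⟩ := key g hq
      exact ⟨m, hm, hme⟩
    · exact Subgroup.le_normalizer_map _
  · apply le_antisymm
    · intro q hq
      obtain ⟨g, rfl⟩ := QuotientGroup.mk'_surjective N q
      have hqn : (QuotientGroup.mk' N) g ∈
          Subgroup.normalizer ((P.map (QuotientGroup.mk' N)) : Set (G ⧸ N)) :=
        centralizer_le_normalizer' _ hq
      obtain ⟨m, hm, hme⟩ := key g hqn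
      refine ⟨m, ?_, hme⟩
      show m ∈ Subgroup.centralizer (P : Set G)
      rw [Subgroup.mem_centralizer_iff]
      intro x hx
      have hdis : P ⊓ N = ⊥ := by
        obtain ⟨k, hk⟩ := hP.exists_card_eq
        apply Disjoint.eq_bot
        apply Subgroup.disjoint_of_coprime_natCard
        rw [hk]
        exact (Nat.Coprime.pow_right k hN).symm
      have h1 : m * x * m⁻¹ ∈ P := by
        rw [Subgroup.mem_set_normalizer_iff] at hm
        exact (hm x).mp hx
      have h2 : m * x * m⁻¹ * x⁻¹ ∈ N := by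
        rw [← hme] at hq
        rw [Subgroup.mem_centralizer_iff] at hq
        have h3 := hq _ (Subgroup.mem_map_of_mem (QuotientGroup.mk' N) hx)
        rw [← map_mul, ← map_mul, QuotientGroup.mk'_apply, QuotientGroup.mk'_apply,
          QuotientGroup.eq] at h3
        have h4 := ‹N.Normal›.conj_mem _ h3 (x * m)
        have e : x * m * ((x * m)⁻¹ * (m * x)) * (x * m)⁻¹ = m * x * m⁻¹ * x⁻¹ := by group
        rwa [e] at h4
      have h5 : m * x * m⁻¹ * x⁻¹ ∈ P ⊓ N := ⟨P.mul_mem h1 (P.inv_mem hx), h2⟩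
      rw [hdis, Subgroup.mem_bot] at h5
      have h6 : m * x * m⁻¹ = x := by
        rw [mul_inv_eq_one] at h5; exact h5
      rw [mul_inv_eq_iff_eq_mul] at h6
      exact h6.symm
    · have := Subgroup.map_centralizer_le_centralizer_image (P : Set G) (QuotientGroup.mk' N)
      exact this

end Cfsg.Agent.S3800
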