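import Cfsg.Statements.S3950
import Mathlib
import Cfsg.Agent.Lib.Helper5.SchurAbelian5

set_option autoImplicit false
open Cfsg

namespace Cfsg.Agent.S3950

/-- A finite abelian group has trivial Schur multiplier if and only if it is cyclic. -/
theorem result {G : Type*} [CommGroup G] [Finite G] : Cfsg.HasCyclicSchurMultiplier G 1 ↔ IsCyclic G := by
  exact Cfsg.Agent.Lib.Helper5.schur_abelian_iff_cyclic5

end Cfsg.Agent.S3950
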