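import Cfsg.Statements.S3962
import Mathlib

set_option autoImplicit false
open Cfsg

namespace Cfsg.Agent.S3962

/-- Let `G` be a perfect group and `π : G →* Q` a surjective homomorphism whose kernel is central. Then `π` maps the centre of `G` onto the centre of `Q`. Taking `π` to be the map to `G ⧸ Z(G)` shows that the central quotient of a perfect group has trivial centre. -/
theorem result {G Q : Type*} [Group G] [Group Q] (hG : Group.IsPerfect G) (π : G →* Q) (hπ : Function.Surjective π) (hker : π.ker ≤ Subgroup.center G) : (Subgroup.center G).map π = Subgroup.center Q := by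
  apply le_antisymm
  · rintro _ ⟨z, hz, rfl⟩
    rw [Subgroup.mem_center_iff]
    intro q
    obtain ⟨g, rfl⟩ := hπ q
    rw [← map_mul, ← map_mul, (Subgroup.mem_center_iff.mp hz) g]
  · intro q hq
    obtain ⟨g, rfl⟩ := hπ q
    refine ⟨g, ?_, rfl⟩
    have hc : ∀ x : G, g * x * g⁻¹ * x⁻¹ ∈ Subgroup.center G := by
      intro x
      apply hker
      rw [MonoidHom.mem_ker]
      have := (Subgroup.mem_center_iff.mp hq) (π x)
      simp only [map_mul, map_inv]
      rw [← this]
      group
    let f : G →* Subgroup.center G := MonoidHom.mk' (fun x => ⟨g * x * g⁻¹ * x⁻¹, hc x⟩) (by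
      intro x y
      apply Subtype.ext
      simp only [Subgroup.coe_mul]
      have h1 := (Subgroup.mem_center_iff.mp (hc y)) x⁻¹
      calc g * (x * y) * g⁻¹ * (x * y)⁻¹ = g * x * g⁻¹ * ((g * y * g⁻¹ * y⁻¹) * x⁻¹) := by group
        _ = g * x * g⁻¹ * (x⁻¹ * (g * y * g⁻¹ * y⁻¹)) := by rw [h1]
        _ = g * x * g⁻¹ * x⁻¹ * (g * y * g⁻¹ * y⁻¹) := by simp only [mul_assoc])
    have hf : commutator G ≤ f.ker := by
      rw [commutator_eq_closure, Subgroup.closure_le]
      rintro x ⟨a, b, rfl⟩
      rw [SetLike.mem_coe, MonoidHom.mem_ker, commutatorElement_def]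
      simp only [map_mul, map_inv]
      apply Subtype.ext
      simp only [Subgroup.coe_mul, Subgroup.coe_inv, Subgroup.coe_one]
      have h2 := (Subgroup.mem_center_iff.mp (f a).2) (f b : G)
      rw [← h2]
      group
    rw [hG.commutator_eq_top] at hf
    change g ∈ Subgroup.center G
    rw [Subgroup.mem_center_iff]
    intro x
    have hx : f x = 1 := MonoidHom.mem_ker.mp (hf (Subgroup.mem_top x))
    have hx' : g * x * g⁻¹ * x⁻¹ = 1 := congrArg Subtype.val hx
    have : g * x = x * g := by
      calc g * x = (g * x * g⁻¹ * x⁻¹) * (x * g) := by group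
        _ = x * g := by rw [hx', one_mul]
    exact this.symm

end Cfsg.Agent.S3962
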