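import Cfsg.Statements.S3966
import Mathlib
-- import your own Cfsg.Agent.* helpers here

set_option autoImplicit false
open Cfsg

namespace Cfsg.Agent.S3966

open scoped commutatorElement

theorem two_n_zero (n : ℕ) : (2 : ZMod (2 * n)) * (n : ZMod (2 * n)) = 0 := by
  have h2 : ((2 * n : ℕ) : ZMod (2 * n)) = 0 := ZMod.natCast_self _
  push_cast at h2
  exact h2

theorem inv_a' {n : ℕ} (i : ZMod (2 * n)) : (QuaternionGroup.a i)⁻¹ = QuaternionGroup.a (-i) := by
  apply inv_eq_of_mul_eq_one_right
  rw [QuaternionGroup.a_mul_a, add_neg_cancel, QuaternionGroup.a_zero]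

theorem inv_xa' {n : ℕ} (i : ZMod (2 * n)) :
    (QuaternionGroup.xa i)⁻¹ = QuaternionGroup.xa ((n : ZMod (2 * n)) + i) := by
  apply inv_eq_of_mul_eq_one_right
  rw [QuaternionGroup.xa_mul_xa]
  have : (n : ZMod (2 * n)) + (n + i) - i = 0 := by
    linear_combination two_n_zero n
  rw [this, QuaternionGroup.a_zero]

/-- the cast map -/
noncomputable def cc (n : ℕ) : ZMod (2 * n) →+* ZMod n :=
  ZMod.castHom (Dvd.intro_left 2 rfl : n ∣ 2 * n) (ZMod n)

theorem cc_n (n : ℕ) : cc n (n : ZMod (2 * n)) = 0 := by
  rw [map_natCast]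
  exact ZMod.natCast_self n

/-- the projection -/
noncomputable def sigmaFun (n : ℕ) : QuaternionGroup n → DihedralGroup n
  | QuaternionGroup.a i => DihedralGroup.r (cc n i)
  | QuaternionGroup.xa i => DihedralGroup.sr (cc n i)

/-- the projection as a hom -/
noncomputable def sigma (n : ℕ) : QuaternionGroup n →* DihedralGroup n where
  toFun := sigmaFun n
  map_one' := by
    rw [QuaternionGroup.one_def, DihedralGroup.one_def]
    show DihedralGroup.r (cc n 0) = DihedralGroup.r 0
    rw [map_zero]
  map_mul' := by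
    rintro (i | i) (j | j)
    · show sigmaFun n (QuaternionGroup.a i * QuaternionGroup.a j) =
        DihedralGroup.r (cc n i) * DihedralGroup.r (cc n j)
      rw [QuaternionGroup.a_mul_a, DihedralGroup.r_mul_r]
      show DihedralGroup.r (cc n (i + j)) = _
      rw [map_add]
    · show sigmaFun n (QuaternionGroup.a i * QuaternionGroup.xa j) =
        DihedralGroup.r (cc n i) * DihedralGroup.sr (cc n j)
      rw [QuaternionGroup.a_mul_xa, DihedralGroup.r_mul_sr]
      show DihedralGroup.sr (cc n (j - i)) = _
      rw [map_sub]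
    · show sigmaFun n (QuaternionGroup.xa i * QuaternionGroup.a j) =
        DihedralGroup.sr (cc n i) * DihedralGroup.r (cc n j)
      rw [QuaternionGroup.xa_mul_a, DihedralGroup.sr_mul_r]
      show DihedralGroup.sr (cc n (i + j)) = _
      rw [map_add]
    · show sigmaFun n (QuaternionGroup.xa i * QuaternionGroup.xa j) =
        DihedralGroup.sr (cc n i) * DihedralGroup.sr (cc n j)
      rw [QuaternionGroup.xa_mul_xa, DihedralGroup.sr_mul_sr]
      show DihedralGroup.r (cc n ((n : ZMod (2 * n)) + j - i)) = _
      rw [map_sub, map_add, cc_n, zero_add]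

theorem sigma_a (n : ℕ) (i : ZMod (2 * n)) :
    sigma n (QuaternionGroup.a i) = DihedralGroup.r (cc n i) := rfl

theorem sigma_xa (n : ℕ) (i : ZMod (2 * n)) :
    sigma n (QuaternionGroup.xa i) = DihedralGroup.sr (cc n i) := rfl

theorem cc_surj (n : ℕ) [NeZero n] (k : ZMod n) : ∃ i : ZMod (2 * n), cc n i = k := by
  refine ⟨((k.val : ℕ) : ZMod (2 * n)), ?_⟩
  rw [map_natCast]
  exact ZMod.natCast_zmod_val k

theorem cc_eq_zero (n : ℕ) [NeZero n] (i : ZMod (2 * n)) (h : cc n i = 0) :
    i = 0 ∨ i = (n : ZMod (2 * n)) := by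
  have hn : 0 < n := Nat.pos_of_ne_zero (NeZero.ne n)
  have : NeZero (2 * n) := ⟨by omega⟩
  have hi : ((i.val : ℕ) : ZMod (2 * n)) = i := ZMod.natCast_zmod_val i
  have hlt : i.val < 2 * n := ZMod.val_lt i
  rw [← hi, map_natCast, ZMod.natCast_eq_zero_iff] at h
  obtain ⟨c, hc⟩ := h
  have hc2 : c < 2 := by
    by_contra hcc
    push Not at hcc
    have : n * 2 ≤ n * c := Nat.mul_le_mul_left n hcc
    omega
  interval_cases c
  · left
    rw [← hi, hc]
    simp
  · right
    rw [← hi, hc]
    simp

theorem mem_ker_iff (n : ℕ) [NeZero n] (x : QuaternionGroup n) :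
    x ∈ (sigma n).ker ↔ x = 1 ∨ x = QuaternionGroup.a (n : ZMod (2 * n)) := by
  rw [MonoidHom.mem_ker]
  constructor
  · intro h
    rcases x with i | i
    · rw [sigma_a, DihedralGroup.one_def] at h
      have h0 : cc n i = 0 := by
        injection h
      rcases cc_eq_zero n i h0 with h1 | h1
      · left
        rw [h1, QuaternionGroup.a_zero]
      · right
        rw [h1]
    · rw [sigma_xa, DihedralGroup.one_def] at h
      cases h
  · rintro (h | h)
    · rw [h, map_one]
    · rw [h, sigma_a, cc_n, DihedralGroup.r_zero]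

theorem a_n_ne_one (n : ℕ) [NeZero n] : QuaternionGroup.a (n : ZMod (2 * n)) ≠ (1 : QuaternionGroup n) := by
  have hn : 0 < n := Nat.pos_of_ne_zero (NeZero.ne n)
  rw [QuaternionGroup.one_def]
  intro h
  have h0 : (n : ZMod (2 * n)) = 0 := by injection h
  rw [ZMod.natCast_eq_zero_iff] at h0
  have := Nat.le_of_dvd hn h0
  omega


/-- For even `n ≥ 2` the dicyclic group of order `4 n` is a stem extension of the dihedral group of order `2 n` with kernel of order `2`: there is a surjective homomorphism `QuaternionGroup n →* DihedralGroup n` whose kernel is central, lies in the commutator subgroup and has two elements. Together with the order of the multiplier this exhibits the dicyclic group as a Schur covering group of the dihedral group. -/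
theorem result (n : ℕ) [NeZero n] (hn : Even n) : ∃ σ : QuaternionGroup n →* DihedralGroup n, Cfsg.IsStemExtension σ ∧ Nat.card σ.ker = 2 := by
  refine ⟨sigma n, ⟨?_, ?_, ?_⟩, ?_⟩
  · rintro (k | k)
    · obtain ⟨i, hi⟩ := cc_surj n k
      exact ⟨QuaternionGroup.a i, by rw [sigma_a, hi]⟩
    · obtain ⟨i, hi⟩ := cc_surj n k
      exact ⟨QuaternionGroup.xa i, by rw [sigma_xa, hi]⟩
  · intro x hx
    rw [mem_ker_iff] at hx
    rcases hx with rfl | rfl
    · exact one_mem _
    · rw [Subgroup.mem_center_iff]
      rintro (j | j)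
      · rw [QuaternionGroup.a_mul_a, QuaternionGroup.a_mul_a, add_comm]
      · rw [QuaternionGroup.a_mul_xa, QuaternionGroup.xa_mul_a]
        congr 1
        linear_combination two_n_zero n
  · intro x hx
    rw [mem_ker_iff] at hx
    rcases hx with rfl | rfl
    · exact one_mem _
    · obtain ⟨m, hm⟩ := hn
      have hcomm : ⁅(QuaternionGroup.xa 0 : QuaternionGroup n), QuaternionGroup.a (-(m : ZMod (2 * n)))⁆
          = QuaternionGroup.a (n : ZMod (2 * n)) := by
        rw [commutatorElement_def, inv_a', inv_xa', QuaternionGroup.xa_mul_a, QuaternionGroup.xa_mul_xa,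
          QuaternionGroup.a_mul_a]
        congr 1
        have hnm : (n : ZMod (2 * n)) = (m : ZMod (2 * n)) + (m : ZMod (2 * n)) := by
          rw [← Nat.cast_add, ← hm]
        linear_combination two_n_zero n - hnm
      rw [← hcomm, commutator_def]
      exact Subgroup.commutator_mem_commutator (Subgroup.mem_top _) (Subgroup.mem_top _)
  · rw [Nat.card_eq_two_iff' (1 : (sigma n).ker)]
    refine ⟨⟨QuaternionGroup.a (n : ZMod (2 * n)), (mem_ker_iff n _).mpr (Or.inr rfl)⟩, ?_, ?_⟩
    · intro h
      exact a_n_ne_one n (congrArg Subtype.val h)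
    · rintro ⟨y, hy⟩ hy1
      apply Subtype.ext
      rcases (mem_ker_iff n y).mp hy with h | h
      · exfalso
        apply hy1
        exact Subtype.ext h
      · exact h

end Cfsg.Agent.S3966
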