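import Cfsg.Statements.S4208
import Mathlib
import Cfsg.Agent.Lib.Helper7.ElemAbCount

set_option autoImplicit false
open Cfsg

namespace Cfsg.Agent.S4208

open Cfsg.Agent.Lib.Helper7

/-- The automorphism group acts freely on generating tuples. -/
theorem card_aut_dvd {P : Type*} [Group P] (r : ℕ) :
    Nat.card (MulAut P) ∣ Nat.card {y : Fin r → P // Subgroup.closure (Set.range y) = ⊤} := by
  classical
  letI : MulAction (MulAut P) {y : Fin r → P // Subgroup.closure (Set.range y) = ⊤} :=
    { smul := fun α y => ⟨fun i => α (y.1 i), by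
        have h1 : Set.range (fun i => α (y.1 i)) = (α.toMonoidHom) '' (Set.range y.1) := by
          rw [← Set.range_comp]; rfl
        rw [h1, ← MonoidHom.map_closure, y.2]
        exact Subgroup.map_top_of_surjective _ α.surjective⟩
      one_smul := fun y => Subtype.ext (funext fun i => rfl)
      mul_smul := fun α β y => Subtype.ext (funext fun i => rfl) }
  have hsm : ∀ (α : MulAut P) (y : {y : Fin r → P // Subgroup.closure (Set.range y) = ⊤})
      (i : Fin r), (α • y).1 i = α (y.1 i) := fun α y i => rfl
  have hfree : ∀ y : {y : Fin r → P // Subgroup.closure (Set.range y) = ⊤},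
      MulAction.stabilizer (MulAut P) y = ⊥ := by
    intro y
    rw [eq_bot_iff]
    intro α hα
    rw [MulAction.mem_stabilizer_iff] at hα
    rw [Subgroup.mem_bot]
    have h1 : ∀ i, α (y.1 i) = y.1 i := by
      intro i
      rw [← hsm, hα]
    have h3 : (α : P ≃* P).toMonoidHom = MonoidHom.id P := by
      apply MonoidHom.eq_of_eqOn_dense y.2
      rintro _ ⟨i, rfl⟩
      exact h1 i
    ext z
    exact DFunLike.congr_fun h3 z
  have e := MulAction.selfEquivOrbitsQuotientProd hfree
  rw [Nat.card_congr e, Nat.card_prod]
  exact dvd_mul_left _ _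

/-- Generating tuples of `P` versus generating tuples of `P / Φ(P)`. -/
theorem card_gen_eq {P : Type*} [Group P] [Finite P] (r : ℕ) :
    Nat.card {y : Fin r → P // Subgroup.closure (Set.range y) = ⊤} =
      Nat.card {g : Fin r → P ⧸ frattini P // Subgroup.closure (Set.range g) = ⊤} *
        Nat.card (frattini P) ^ r := by
  have hlift : ∀ (y : Fin r → P),
      Subgroup.closure (Set.range (fun i => (y i : P ⧸ frattini P))) = ⊤ →
      Subgroup.closure (Set.range y) = ⊤ := by
    intro y hy
    apply frattini_nongenerating
    have h1 : (Subgroup.closure (Set.range y)).map (QuotientGroup.mk' (frattini P)) = ⊤ := by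
      rw [MonoidHom.map_closure, ← Set.range_comp]
      exact hy
    have h2 := Subgroup.comap_map_eq (QuotientGroup.mk' (frattini P))
      (Subgroup.closure (Set.range y))
    rw [h1, Subgroup.comap_top, QuotientGroup.ker_mk'] at h2
    exact h2.symm
  have hdown : ∀ (y : Fin r → P), Subgroup.closure (Set.range y) = ⊤ →
      Subgroup.closure (Set.range (fun i => (y i : P ⧸ frattini P))) = ⊤ := by
    intro y hy
    have h1 : Set.range (fun i => (y i : P ⧸ frattini P)) =
        (QuotientGroup.mk' (frattini P)) '' (Set.range y) := by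
      rw [← Set.range_comp]; rfl
    rw [h1, ← MonoidHom.map_closure, hy]
    exact Subgroup.map_top_of_surjective _ (QuotientGroup.mk'_surjective _)
  have hout : ∀ q : P ⧸ frattini P, ((Quotient.out q : P) : P ⧸ frattini P) = q :=
    fun q => QuotientGroup.out_eq' q
  have hmk : ∀ (q : P ⧸ frattini P) (u : frattini P),
      ((Quotient.out q * (u : P) : P) : P ⧸ frattini P) = q := by
    intro q u
    rw [QuotientGroup.mk_mul, hout, (QuotientGroup.eq_one_iff (u : P)).mpr u.2, mul_one]
  have h1 : Nat.card (Fin r → frattini P) = Nat.card (frattini P) ^ r := by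
    rw [Nat.card_fun, Nat.card_fin]
  rw [← h1, ← Nat.card_prod]
  apply Nat.card_congr
  exact
    { toFun := fun y => (⟨fun i => (y.1 i : P ⧸ frattini P), hdown y.1 y.2⟩,
        fun i => ⟨(Quotient.out ((y.1 i : P) : P ⧸ frattini P))⁻¹ * y.1 i, by
          apply QuotientGroup.eq.mp
          exact hout _⟩)
      invFun := fun x => ⟨fun i => Quotient.out (x.1.1 i) * (x.2 i : P), by
        apply hlift
        have h2 : (fun i => ((Quotient.out (x.1.1 i) * (x.2 i : P) : P) : P ⧸ frattini P)) =
            x.1.1 := funext fun i => hmk _ _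
        rw [h2]; exact x.1.2⟩
      left_inv := fun y => Subtype.ext (funext fun i => by simp)
      right_inv := fun x => by
        apply Prod.ext
        · apply Subtype.ext
          funext i
          exact hmk _ _
        · funext i
          apply Subtype.ext
          show (Quotient.out ((Quotient.out (x.1.1 i) * (x.2 i : P) : P) : P ⧸ frattini P))⁻¹ *
            (Quotient.out (x.1.1 i) * (x.2 i : P)) = (x.2 i : P)
          rw [hmk, inv_mul_cancel_left] }

/-- Let `P` be a group of order `p^n` whose Frattini subgroup has index `p^r`. Then the order of the automorphism group of `P` divides `p^(r(n-r)) · (p^r - 1)(p^r - p) ⋯ (p^r - p^(r-1))`. -/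
theorem result {P : Type*} [Group P] [Finite P] {p n r : ℕ} [Fact p.Prime] (hP : Nat.card P = p ^ n) (hr : (frattini P).index = p ^ r) : Nat.card (MulAut P) ∣ p ^ (r * (n - r)) * ∏ i ∈ Finset.range r, (p ^ r - p ^ i) := by
  have hp : p.Prime := Fact.out
  have hPp : IsPGroup p P := IsPGroup.of_card hP
  have hcardQ : Nat.card (P ⧸ frattini P) = p ^ r := hr
  have hc : ∀ a b : P ⧸ frattini P, a * b = b * a := by
    intro a b
    induction a using QuotientGroup.induction_on with
    | H x =>
      induction b using QuotientGroup.induction_on with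
      | H y =>
        rw [← QuotientGroup.mk_mul, ← QuotientGroup.mk_mul]
        exact QuotientGroup.eq.mpr (comm_mem_frattini hPp x y)
  have he : ∀ a : P ⧸ frattini P, a ^ p = 1 := by
    intro a
    induction a using QuotientGroup.induction_on with
    | H x =>
      rw [← QuotientGroup.mk_pow]
      exact (QuotientGroup.eq_one_iff _).mpr (pow_mem_frattini hPp x)
  have h1 := card_aut_dvd (P := P) r
  rw [card_gen_eq, card_generating_tuples hc he hcardQ] at h1
  have h2 : Nat.card (frattini P) * p ^ r = p ^ n := by
    rw [← hr, ← hP]; exact Subgroup.card_mul_index _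
  have hrn : r ≤ n := by
    have h3 : p ^ r ∣ p ^ n := Dvd.intro_left _ h2
    exact (Nat.pow_dvd_pow_iff_le_right hp.one_lt).mp h3
  have h3 : Nat.card (frattini P) = p ^ (n - r) := by
    have h4 : p ^ n = p ^ (n - r) * p ^ r := by rw [← pow_add, Nat.sub_add_cancel hrn]
    rw [h4] at h2
    exact Nat.eq_of_mul_eq_mul_right (pow_pos hp.pos r) h2
  rw [h3, ← pow_mul, mul_comm (n - r) r, mul_comm] at h1
  exact h1

end Cfsg.Agent.S4208
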