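import Cfsg.Statements.S3969
import Mathlib
import Cfsg.Agent.S4208
import Cfsg.Agent.Lib.Helper7.ElemAbCount
-- import your own Cfsg.Agent.* helpers here

set_option autoImplicit false
open Cfsg

namespace Cfsg.Agent.S3969


open Cfsg.Agent.Lib.Helper7 in
/-- The Frattini rank of a `p`-group is at most its minimal number of generators. -/
theorem frattini_rank_le {P : Type*} [Group P] [Finite P] {p r : ℕ} [Fact p.Prime]
    (hPp : IsPGroup p P) (hr : (frattini P).index = p ^ r) : r ≤ Group.rank P := by
  classical
  have hp : p.Prime := Fact.out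
  have hcardQ : Nat.card (P ⧸ frattini P) = p ^ r := hr
  have hc : ∀ a b : P ⧸ frattini P, a * b = b * a := by
    intro a b
    induction a using QuotientGroup.induction_on with
    | H x =>
      induction b using QuotientGroup.induction_on with
      | H y =>
        rw [← QuotientGroup.mk_mul, ← QuotientGroup.mk_mul]
        exact QuotientGroup.eq.mpr (comm_mem_frattini hPp x y)
  have he : ∀ a : P ⧸ frattini P, a ^ p = 1 := by
    intro a
    induction a using QuotientGroup.induction_on with
    | H x =>
      rw [← QuotientGroup.mk_pow]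
      exact (QuotientGroup.eq_one_iff _).mpr (pow_mem_frattini hPp x)
  obtain ⟨S, hS, hcl⟩ := Group.rank_spec P
  let y : Fin S.card → P ⧸ frattini P :=
    fun i => QuotientGroup.mk' (frattini P) ((S.equivFin.symm i : S) : P)
  have hy : Subgroup.closure (Set.range y) = ⊤ := by
    have h1 : Set.range y = (QuotientGroup.mk' (frattini P)) '' (S : Set P) := by
      ext q; constructor
      · rintro ⟨i, rfl⟩; exact ⟨_, (S.equivFin.symm i).2, rfl⟩
      · rintro ⟨s, hs, rfl⟩
        refine ⟨S.equivFin ⟨s, hs⟩, ?_⟩
        simp [y]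
    rw [h1, ← MonoidHom.map_closure, hcl, ← MonoidHom.range_eq_map]
    exact MonoidHom.range_eq_top.mpr (QuotientGroup.mk'_surjective _)
  have h2 := card_closure_range_le hc he S.card y
  rw [hy, Subgroup.card_top, hcardQ] at h2
  rw [← hS]
  exact (Nat.pow_le_pow_iff_right hp.one_lt).mp h2

/-- The `p'`-part of `|GL_r(p)|`. -/
theorem dvd_prod_of_coprime (p r s d : ℕ) (hd : Nat.Coprime d p)
    (h : d ∣ p ^ s * ∏ i ∈ Finset.range r, (p ^ r - p ^ i)) :
    d ∣ ∏ i ∈ Finset.Icc 1 r, (p ^ i - 1) := by
  have h1 : ∏ i ∈ Finset.range r, (p ^ r - p ^ i) =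
      (∏ i ∈ Finset.range r, p ^ i) * ∏ i ∈ Finset.range r, (p ^ (r - i) - 1) := by
    rw [← Finset.prod_mul_distrib]
    apply Finset.prod_congr rfl
    intro i hi
    rw [Finset.mem_range] at hi
    rw [Nat.mul_sub, mul_one, ← pow_add]
    congr 2
    omega
  rw [h1, Finset.prod_pow_eq_pow_sum, ← mul_assoc, ← pow_add] at h
  have h2 : d ∣ ∏ i ∈ Finset.range r, (p ^ (r - i) - 1) :=
    (hd.pow_right _).dvd_of_dvd_mul_left h
  have h3 : ∏ i ∈ Finset.range r, (p ^ (r - i) - 1) = ∏ i ∈ Finset.Icc 1 r, (p ^ i - 1) := by
    refine Finset.prod_nbij' (fun i => r - i) (fun j => r - j) ?_ ?_ ?_ ?_ ?_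
    · intro i hi
      simp only [Finset.mem_range] at hi
      simp only [Finset.mem_Icc]
      omega
    · intro j hj
      simp only [Finset.mem_Icc] at hj
      simp only [Finset.mem_range]
      omega
    · intro i hi
      simp only [Finset.mem_range] at hi
      omega
    · intro j hj
      simp only [Finset.mem_Icc] at hj
      omega
    · intro i hi
      rfl
  rwa [h3] at h2

/-- Let `P` be an abelian Sylow `p`-subgroup of the finite group `G`, generated by `d` elements (`d` its minimal number of generators). If the order of `G` is coprime to `(p - 1)(p ^ 2 - 1) ⋯ (p ^ d - 1)`, then `G` has a normal `p`-complement. (The classical statement needs only the largest number of cyclic factors of `P` of equal order in place of `d`; the form here follows from it.) -/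
theorem result {G : Type*} [Group G] [Finite G] (p : ℕ) [Fact p.Prime] (P : Sylow p G) (hab : IsMulCommutative (P : Subgroup G)) (hcop : Nat.Coprime (Nat.card G) (∏ i ∈ Finset.Icc 1 (Group.rank (P : Subgroup G)), (p ^ i - 1))) : Cfsg.HasNormalPComplement p G := by
  classical
  have hp : p.Prime := Fact.out
  have hNC : Subgroup.normalizer ((P : Subgroup G) : Set G) ≤ Subgroup.centralizer (P : Set G) := by
    have hPN : (P : Subgroup G) ≤ Subgroup.normalizer ((P : Subgroup G) : Set G) :=
      Subgroup.le_normalizer
    haveI hnorm : ((P : Subgroup G).subgroupOf (Subgroup.normalizer ((P : Subgroup G) : Set G))).Normal :=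
      Subgroup.normal_in_normalizer
    let P' := (P : Subgroup G).subgroupOf (Subgroup.normalizer ((P : Subgroup G) : Set G))
    let e : P' ≃* (P : Subgroup G) := Subgroup.subgroupOfEquivOfLe hPN
    have hP'p : IsPGroup p P' := P.2.of_equiv e.symm
    let φ : Subgroup.normalizer ((P : Subgroup G) : Set G) →* MulAut P' := MulAut.conjNormal
    have hker : P' ≤ φ.ker := by
      intro q hq
      rw [MonoidHom.mem_ker]
      ext z
      simp only [φ, MulAut.conjNormal_apply, MulAut.one_apply]
      have hqP : ((q : Subgroup.normalizer ((P : Subgroup G) : Set G)) : G) ∈ (P : Subgroup G) :=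
        Subgroup.mem_subgroupOf.mp hq
      have hzP : (((z : P') : Subgroup.normalizer ((P : Subgroup G) : Set G)) : G) ∈ (P : Subgroup G) :=
        Subgroup.mem_subgroupOf.mp z.2
      have hcomm := mul_comm' (⟨_, hqP⟩ : (P : Subgroup G)) ⟨_, hzP⟩
      have hcomm' := congrArg Subtype.val hcomm
      simp only [Subgroup.coe_mul] at hcomm'
      simp only [Subgroup.coe_mul, Subgroup.coe_inv]
      rw [hcomm']
      group
    set d := Nat.card φ.range with hd
    have hd1 : d ∣ P'.index := by
      rw [hd, ← Subgroup.index_ker]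
      exact Subgroup.index_dvd_of_le hker
    have hd2 : d ∣ (P : Subgroup G).index := by
      refine hd1.trans ?_
      have := Subgroup.relIndex_mul_index hPN
      exact Dvd.intro _ this
    have hdp : Nat.Coprime d p := by
      rw [Nat.coprime_comm, hp.coprime_iff_not_dvd]
      intro h
      exact P.not_dvd_index (h.trans hd2)
    have hdG : d ∣ Nat.card G := hd2.trans (Subgroup.index_dvd_card _)
    obtain ⟨n, hn⟩ := (IsPGroup.iff_card.mp hP'p)
    have hfdvd : (frattini P').index ∣ p ^ n := by
      rw [← hn]; exact Subgroup.index_dvd_card _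
    obtain ⟨r, hrn, hr⟩ := (Nat.dvd_prime_pow hp).1 hfdvd
    have hA := Cfsg.Agent.S4208.result hn hr
    have hfin : Finite (MulAut P') := by
      apply Finite.of_injective (fun e : MulAut P' => (e : P' → P'))
      intro e f h
      exact DFunLike.coe_injective h
    have hd3 : d ∣ p ^ (r * (n - r)) * ∏ i ∈ Finset.range r, (p ^ r - p ^ i) :=
      (Subgroup.card_subgroup_dvd_card φ.range).trans hA
    have hd4 := dvd_prod_of_coprime p r _ d hdp hd3
    have hrank : r ≤ Group.rank (P : Subgroup G) := by
      rw [← Group.rank_congr e]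
      exact frattini_rank_le hP'p hr
    have hd5 : d ∣ ∏ i ∈ Finset.Icc 1 (Group.rank (P : Subgroup G)), (p ^ i - 1) :=
      hd4.trans (Finset.prod_dvd_prod_of_subset _ _ _ (Finset.Icc_subset_Icc_right hrank))
    have hd6 : d = 1 := Nat.eq_one_of_dvd_coprimes hcop hdG hd5
    have hbot : φ.range = ⊥ := by
      rw [← Subgroup.card_eq_one]; exact hd6
    intro g hg
    have hφg : φ ⟨g, hg⟩ = 1 := by
      have : φ ⟨g, hg⟩ ∈ φ.range := ⟨_, rfl⟩
      rw [hbot] at this
      exact Subgroup.mem_bot.mp this
    rw [Subgroup.mem_centralizer_iff]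
    intro q hq
    have hq' : (⟨q, hPN hq⟩ : Subgroup.normalizer ((P : Subgroup G) : Set G)) ∈ P' := by
      rw [Subgroup.mem_subgroupOf]; exact hq
    have h5 : (φ ⟨g, hg⟩) ⟨⟨q, hPN hq⟩, hq'⟩ = ⟨⟨q, hPN hq⟩, hq'⟩ := by
      rw [hφg]; rfl
    have h6 := congrArg (fun z : P' => ((z : Subgroup.normalizer ((P : Subgroup G) : Set G)) : G)) h5
    simp only [φ, MulAut.conjNormal_apply, Subgroup.coe_mul, Subgroup.coe_inv] at h6
    calc q * g = (g * q * g⁻¹) * g := by rw [h6]
      _ = g * q := by group
  exact ⟨P, (MonoidHom.transferSylow P hNC).ker, inferInstance,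
    MonoidHom.ker_transferSylow_isComplement' P hNC⟩

end Cfsg.Agent.S3969
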