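import Cfsg.Statements.S3970
import Mathlib
import Cfsg.Agent.S3969
-- import your own Cfsg.Agent.* helpers here

set_option autoImplicit false
open Cfsg

namespace Cfsg.Agent.S3970

universe u


theorem aux : ∀ (n : ℕ) (G : Type u) [Group G] [Finite G], Nat.card G = n →
    (∀ p : ℕ, p.Prime → p ∣ Nat.card G → (∃ q : ℕ, q.Prime ∧ q ∣ Nat.card G ∧ p < q) →
      ∀ P : Sylow p G, IsMulCommutative (P : Subgroup G) ∧ Group.rank (P : Subgroup G) ≤ 2) →
    ¬ 12 ∣ Nat.card G → Group.IsSolvable G := by
  intro n
  induction n using Nat.strong_induction_on with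
  | _ n ih =>
  intro G _ _ hn h h12
  classical
  by_cases h1 : Nat.card G = 1
  · haveI : Subsingleton G := (Nat.card_eq_one_iff_unique.mp h1).1
    infer_instance
  obtain ⟨p, hpdef⟩ : ∃ p, p = (Nat.card G).minFac := ⟨_, rfl⟩
  have hp : p.Prime := by rw [hpdef]; exact Nat.minFac_prime h1
  haveI : Fact p.Prime := ⟨hp⟩
  have hpG : p ∣ Nat.card G := by rw [hpdef]; exact Nat.minFac_dvd _
  by_cases hq : ∃ q : ℕ, q.Prime ∧ q ∣ Nat.card G ∧ p < q
  · obtain ⟨P⟩ : Nonempty (Sylow p G) := inferInstance
    obtain ⟨hab, hrank⟩ := h p hp hpG hq P
    have hcop : Nat.Coprime (Nat.card G)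
        (∏ i ∈ Finset.Icc 1 (Group.rank (P : Subgroup G)), (p ^ i - 1)) := by
      by_contra hnc
      obtain ⟨l, hl, hlG, hlprod⟩ := Nat.Prime.not_coprime_iff_dvd.mp hnc
      obtain ⟨i, hi, hli⟩ := (Prime.dvd_finsetProd_iff hl.prime _).mp hlprod
      rw [Finset.mem_Icc] at hi
      have hpl : p ≤ l := by rw [hpdef]; exact Nat.minFac_le_of_dvd hl.two_le hlG
      have hp2 := hp.two_le
      have hl1 : ¬ l ∣ p - 1 := by
        intro hd
        have := Nat.le_of_dvd (by omega) hd
        omega
      have hi2 : i = 1 ∨ i = 2 := by omega
      rcases hi2 with rfl | rfl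
      · rw [pow_one] at hli; exact hl1 hli
      · have hfac : p ^ 2 - 1 = (p - 1) * (p + 1) := by
          obtain ⟨m, hm⟩ : ∃ m, p = m + 1 := ⟨p - 1, by omega⟩
          rw [hm]
          simp only [Nat.add_sub_cancel]
          have : (m + 1) ^ 2 = m * (m + 1 + 1) + 1 := by ring
          rw [this]; simp
        rw [hfac] at hli
        rcases (Nat.Prime.dvd_mul hl).mp hli with hd | hd
        · exact hl1 hd
        · have hle := Nat.le_of_dvd (by omega) hd
          have hlp : l = p ∨ l = p + 1 := by omega
          rcases hlp with hlp | hlp
          · rw [hlp] at hd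
            have : p ∣ 1 := (Nat.dvd_add_right (dvd_refl p)).mp hd
            have := Nat.le_of_dvd (by norm_num) this
            omega
          · -- p and p + 1 both prime, so p = 2
            have hp2' : p = 2 := by
              rcases Nat.Prime.eq_two_or_odd hp with h2 | hodd
              · exact h2
              · have h2d : 2 ∣ l := by rw [hlp]; omega
                have := (Nat.prime_dvd_prime_iff_eq Nat.prime_two hl).mp h2d
                omega
            -- rank P = 2, so 4 ∣ |P|
            obtain ⟨k, hk⟩ := IsPGroup.iff_card.mp P.2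
            have hk2 : 2 ≤ k := by
              by_contra hk'
              push Not at hk'
              have hk01 : k = 0 ∨ k = 1 := by omega
              rcases hk01 with rfl | rfl
              · rw [pow_zero] at hk
                haveI : Subsingleton (P : Subgroup G) := (Nat.card_eq_one_iff_unique.mp hk).1
                have := Group.rank_eq_zero (G := (P : Subgroup G))
                omega
              · rw [pow_one] at hk
                haveI : Fact (Nat.card (P : Subgroup G)).Prime := ⟨by rw [hk]; exact hp⟩
                haveI : IsCyclic (P : Subgroup G) := isCyclic_of_prime_card rfl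
                obtain ⟨g, hg⟩ := IsCyclic.exists_generator (α := (P : Subgroup G))
                have hcl : Subgroup.closure ((({g} : Finset (P : Subgroup G)) : Set (P : Subgroup G))) = ⊤ := by
                  rw [Finset.coe_singleton, ← Subgroup.zpowers_eq_closure, eq_top_iff]
                  intro x _
                  exact hg x
                have := Group.rank_le hcl
                simp at this
                omega
            have h4 : 4 ∣ Nat.card G := by
              have h4P : 4 ∣ Nat.card (P : Subgroup G) := by
                rw [hk, hp2']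
                exact pow_dvd_pow 2 hk2
              exact h4P.trans (Subgroup.card_subgroup_dvd_card _)
            have h3 : 3 ∣ Nat.card G := by
              rw [hlp, hp2'] at hlG; exact hlG
            exact h12 (Nat.Coprime.mul_dvd_of_dvd_of_dvd (by decide : Nat.Coprime 4 3) h4 h3)
    obtain ⟨P', N, hNn, hNc⟩ := Cfsg.Agent.S3969.result p P hab hcop
    haveI := hNn
    have hcard := hNc.card_mul_card
    obtain ⟨k, hk⟩ := IsPGroup.iff_card.mp P'.2
    have hk0 : k ≠ 0 := by
      rintro rfl
      have := P'.dvd_card_of_dvd_card hpG
      rw [hk, pow_zero] at this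
      have := Nat.le_of_dvd (by norm_num) this
      have := hp.two_le
      omega
    have hPgt : 1 < Nat.card (P' : Subgroup G) := by
      rw [hk]; exact Nat.one_lt_pow hk0 hp.one_lt
    have hNpos : 0 < Nat.card N := Nat.card_pos
    have hlt : Nat.card N < n := by
      rw [← hn, ← hcard]; nlinarith
    have hpN : ¬ p ∣ Nat.card N := by
      rw [← hNc.index_eq_card]
      exact P'.not_dvd_index
    have hNsolv : Group.IsSolvable N := by
      apply ih (Nat.card N) hlt N rfl
      · intro p' hp' hp'N hq' Q
        haveI : Fact p'.Prime := ⟨hp'⟩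
        have hp'G : p' ∣ Nat.card G := hp'N.trans (Subgroup.card_subgroup_dvd_card N)
        obtain ⟨q, hq1, hq2, hq3⟩ := hq'
        have hne : p' ≠ p := fun h => hpN (h ▸ hp'N)
        have hcardQ : Nat.card ((Q : Subgroup N).map N.subtype) =
            p' ^ (Nat.card G).factorization p' := by
          rw [Subgroup.card_map_of_injective N.subtype_injective, Sylow.card_eq_multiplicity,
            ← hcard, hk, Nat.factorization_mul hNpos.ne' (pow_ne_zero _ hp.ne_zero)]
          congr 1
          simp [Nat.factorization_pow, Nat.factorization_eq_zero_of_not_dvd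
            (fun hd => hne ((Nat.prime_dvd_prime_iff_eq hp' hp).mp hd))]
        let Q' : Sylow p' G := Sylow.ofCard _ hcardQ
        obtain ⟨hab', hrank'⟩ := h p' hp' hp'G
          ⟨q, hq1, hq2.trans (Subgroup.card_subgroup_dvd_card N), hq3⟩ Q'
        let e : (Q : Subgroup N) ≃* ((Q : Subgroup N).map N.subtype) :=
          Subgroup.equivMapOfInjective _ _ N.subtype_injective
        constructor
        · refine ⟨⟨fun a b => ?_⟩⟩
          apply e.injective
          rw [map_mul, map_mul]
          exact @mul_comm' _ _ hab' (e a) (e b)
        · rw [Group.rank_congr e]; exact hrank'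
      · intro h12'; exact h12 (h12'.trans (Subgroup.card_subgroup_dvd_card N))
    have hQsolv : Group.IsSolvable (G ⧸ N) := by
      have hc : Nat.card (G ⧸ N) = p ^ k := by
        have h6 : Nat.card (G ⧸ N) = N.index := rfl
        rw [h6, ← hk]
        exact hNc.symm.index_eq_card
      have hpg : IsPGroup p (G ⧸ N) := IsPGroup.of_card hc
      haveI := hpg.isNilpotent
      infer_instance
    exact Group.isSolvable_of_ker_le_range N.subtype (QuotientGroup.mk' N) (by simp)
  · have hpow : Nat.card G = p ^ (Nat.card G).primeFactorsList.length := by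
      apply Nat.eq_prime_pow_of_unique_prime_dvd Nat.card_pos.ne'
      intro d hd hdG
      have hpd : p ≤ d := by rw [hpdef]; exact Nat.minFac_le_of_dvd hd.two_le hdG
      by_contra hne
      exact hq ⟨d, hd, hdG, lt_of_le_of_ne hpd (fun h => hne h.symm)⟩
    have hpg : IsPGroup p G := IsPGroup.of_card hpow
    haveI := hpg.isNilpotent
    infer_instance

/-- Let `G` be a finite group such that for every prime `p` dividing its order, other than the largest such prime, the Sylow `p`-subgroups are abelian and generated by at most two elements, and suppose `12` does not divide the order of `G`. Then `G` is solvable. In particular a group of cube-free order not divisible by `12` is solvable. -/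
theorem result {G : Type*} [Group G] [Finite G] (h : ∀ p : ℕ, p.Prime → p ∣ Nat.card G → (∃ q : ℕ, q.Prime ∧ q ∣ Nat.card G ∧ p < q) → ∀ P : Sylow p G, IsMulCommutative (P : Subgroup G) ∧ Group.rank (P : Subgroup G) ≤ 2) (h12 : ¬ 12 ∣ Nat.card G) : Group.IsSolvable G := by
  exact aux _ G rfl h h12

end Cfsg.Agent.S3970
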