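import Cfsg.Statements.S3971
import Mathlib
import Cfsg.Agent.Lib.Lead.PNilp
import Cfsg.Agent.S4208
import Cfsg.Agent.Lib.Helper7.ElemAbCount
import Cfsg.Agent.Lib.Helper6.SylowSub
-- import your own Cfsg.Agent.* helpers here

set_option autoImplicit false
open Cfsg

namespace Cfsg.Agent.S3971


/-- An automorphism of odd order prime to 3 of a 2-group with a cyclic subgroup of index at most 2 is trivial. -/
theorem aut_trivial {P : Type*} [Group P] [Finite P] (hP : IsPGroup 2 P) (c : P)
    (hidx : Nat.card P ≤ 2 * orderOf c) (α : MulAut P) (hodd : Odd (orderOf α))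
    (h3 : ¬ 3 ∣ orderOf α) : α = 1 := by
  haveI : Fact (Nat.Prime 2) := ⟨Nat.prime_two⟩
  obtain ⟨m, hm⟩ := (IsPGroup.iff_card.mp hP)
  have hfr : (c ^ 2) ∈ frattini P := Cfsg.Agent.Lib.Helper7.pow_mem_frattini hP c
  have hle : Subgroup.zpowers (c ^ 2) ≤ frattini P := by
    rw [Subgroup.zpowers_le]; exact hfr
  have h1 : orderOf (c ^ 2) ≤ Nat.card (frattini P) := by
    rw [← Nat.card_zpowers]
    exact Nat.card_le_card_of_injective _ (Subgroup.inclusion_injective hle)
  have h2 : orderOf c ≤ 2 * orderOf (c ^ 2) := by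
    apply Nat.le_of_dvd
    · have := orderOf_pos (c ^ 2); omega
    · apply orderOf_dvd_of_pow_eq_one
      rw [pow_mul]; exact pow_orderOf_eq_one _
  have h3' : (frattini P).index * Nat.card (frattini P) = Nat.card P := by
    rw [mul_comm]; exact Subgroup.card_mul_index _
  have hfpos : 0 < Nat.card (frattini P) := Nat.card_pos
  have hi4 : (frattini P).index ≤ 4 := by
    by_contra hcon
    push Not at hcon
    have : 5 * Nat.card (frattini P) ≤ (frattini P).index * Nat.card (frattini P) :=
      Nat.mul_le_mul_right _ hcon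
    omega
  have hdvd : (frattini P).index ∣ 2 ^ m := by
    rw [← hm]; exact Subgroup.index_dvd_card _
  obtain ⟨r, hrm, hr⟩ := (Nat.dvd_prime_pow Nat.prime_two).1 hdvd
  have hr2 : r ≤ 2 := by
    by_contra hcon
    push Not at hcon
    have : 2 ^ 3 ≤ 2 ^ r := Nat.pow_le_pow_right (by norm_num) hcon
    omega
  have hA := Cfsg.Agent.S4208.result (p := 2) hm hr
  have hA6 : Nat.card (MulAut P) ∣ 2 ^ (r * (m - r)) * 6 := by
    refine hA.trans (Nat.mul_dvd_mul_left _ ?_)
    interval_cases r
    · simp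
    · simp
    · decide
  have hfin : Finite (MulAut P) := by
    apply Finite.of_injective (fun e : MulAut P => (e : P → P))
    intro e f h
    exact DFunLike.coe_injective h
  have ho : orderOf α ∣ 2 ^ (r * (m - r)) * 6 := (orderOf_dvd_natCard α).trans hA6
  have hcop : Nat.Coprime (orderOf α) 2 := by
    rw [Nat.coprime_two_right]; exact hodd
  have ho6 : orderOf α ∣ 6 := (hcop.pow_right _).dvd_of_dvd_mul_left ho
  have ho3 : orderOf α ∣ 3 := by
    have : orderOf α ∣ 2 * 3 := ho6
    exact hcop.dvd_of_dvd_mul_left this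
  have ho1 : orderOf α = 1 := by
    rcases (Nat.dvd_prime Nat.prime_three).1 ho3 with h | h
    · exact h
    · exact absurd (h ▸ dvd_refl _) h3
  exact orderOf_eq_one_iff.mp ho1

/-- Let `G` be a finite group of order `2 ^ a * n` with `n` odd and not divisible by `3`, and suppose `G` has an element of order `2 ^ (a - 1)` (so a Sylow `2`-subgroup has a cyclic subgroup of index at most `2`). Then `G` has a normal subgroup of order `n`. -/
theorem result {G : Type*} [Group G] [Finite G] (a n : ℕ) (hG : Nat.card G = 2 ^ a * n) (hn : Odd n) (h3 : ¬ 3 ∣ n) (hx : ∃ x : G, orderOf x = 2 ^ (a - 1)) : ∃ N : Subgroup G, N.Normal ∧ Nat.card N = n := by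
  classical
  haveI : Fact (Nat.Prime 2) := ⟨Nat.prime_two⟩
  obtain ⟨x, hxo⟩ := hx
  have hXp : IsPGroup 2 (Subgroup.zpowers x) := by
    apply IsPGroup.of_card (n := a - 1)
    rw [Nat.card_zpowers, hxo]
  obtain ⟨P, hXP⟩ := hXp.exists_le_sylow
  have hnodd : Nat.Coprime 2 n := by
    rw [Nat.coprime_two_left]; exact hn
  have hPcard : Nat.card P = 2 ^ a := by
    rw [Sylow.card_eq_multiplicity, hG]
    congr 1
    have h2a : (2 ^ a * n).factorization 2 = a := by
      rw [Nat.factorization_mul (by positivity) (by rintro rfl; simp at hn)]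
      simp [Nat.factorization_eq_zero_of_not_dvd (fun h => by
        have := Nat.Coprime.eq_one_of_dvd hnodd h; omega), Nat.prime_two.factorization_self]
    exact h2a
  have hkey : ∀ Q : Subgroup G, Q ≤ (P : Subgroup G) → ∀ g ∈ Subgroup.normalizer (Q : Set G),
        Nat.Coprime (orderOf g) 2 → g ∈ Subgroup.centralizer (Q : Set G) := by
    intro Q hQP g hgN hgcop
    -- the cyclic subgroup
    have hXrel : (Subgroup.zpowers x).relIndex (P : Subgroup G) ≤ 2 := by
      have h1 := Cfsg.Agent.Lib.Helper6.card_mul_relIndex_of_le hXP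
      rw [Nat.card_zpowers, hxo] at h1
      have h2 : Nat.card (P : Subgroup G) = 2 ^ a := hPcard
      rw [h2] at h1
      have h3 : 2 ^ a ≤ 2 * 2 ^ (a - 1) := by
        rcases Nat.eq_zero_or_pos a with h | h
        · subst h; simp
        · have : a = (a - 1) + 1 := by omega
          rw [this, pow_succ]; simp; omega
      have hpos : 0 < 2 ^ (a - 1) := by positivity
      by_contra hcon
      push Not at hcon
      have : 2 ^ (a - 1) * 3 ≤ 2 ^ (a - 1) * (Subgroup.zpowers x).relIndex (P : Subgroup G) :=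
        Nat.mul_le_mul_left _ hcon
      omega
    have hXrelne : (Subgroup.zpowers x).relIndex (P : Subgroup G) ≠ 0 := by
      intro h0
      have h1 := Cfsg.Agent.Lib.Helper6.card_mul_relIndex_of_le hXP
      rw [h0, mul_zero] at h1
      have : 0 < Nat.card (P : Subgroup G) := Nat.card_pos
      omega
    have hrelQ : (Subgroup.zpowers x ⊓ Q).relIndex Q ≤ 2 := by
      rw [Subgroup.inf_relIndex_right]
      exact (Subgroup.relIndex_le_of_le_right hQP hXrelne).trans hXrel
    have hcardQ : Nat.card Q ≤ 2 * Nat.card (Subgroup.zpowers x ⊓ Q : Subgroup G) := by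
      have h1 := Cfsg.Agent.Lib.Helper6.card_mul_relIndex_of_le
        (inf_le_right : Subgroup.zpowers x ⊓ Q ≤ Q)
      rw [← h1, mul_comm]
      exact Nat.mul_le_mul_right _ hrelQ
    haveI : IsCyclic (Subgroup.zpowers x ⊓ Q : Subgroup G) :=
      Subgroup.isCyclic_of_le (inf_le_left : Subgroup.zpowers x ⊓ Q ≤ Subgroup.zpowers x)
    obtain ⟨c0, hc0⟩ := IsCyclic.exists_generator (α := (Subgroup.zpowers x ⊓ Q : Subgroup G))
    have hc0o : orderOf c0 = Nat.card (Subgroup.zpowers x ⊓ Q : Subgroup G) :=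
      orderOf_eq_card_of_forall_mem_zpowers hc0
    have hcQ : (c0 : G) ∈ Q := c0.2.2
    -- set up the automorphism
    have hQN : Q ≤ Subgroup.normalizer (Q : Set G) := Subgroup.le_normalizer
    haveI hnorm : (Q.subgroupOf (Subgroup.normalizer (Q : Set G))).Normal :=
      Subgroup.normal_in_normalizer
    let Q' := Q.subgroupOf (Subgroup.normalizer (Q : Set G))
    let e : Q' ≃* Q := Subgroup.subgroupOfEquivOfLe hQN
    have hQ'p : IsPGroup 2 Q' := by
      have hQp : IsPGroup 2 Q := P.2.to_le hQP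
      exact hQp.of_equiv e.symm
    let c' : Q' := e.symm ⟨(c0 : G), hcQ⟩
    have hc'o : orderOf c' = orderOf c0 := by
      rw [MulEquiv.orderOf_eq e.symm]
      rw [← Subgroup.orderOf_coe c0]
      exact Subgroup.orderOf_mk _ _
    let φ : Subgroup.normalizer (Q : Set G) →* MulAut Q' := MulAut.conjNormal
    have hα_dvd : orderOf (φ ⟨g, hgN⟩) ∣ orderOf g := by
      have := orderOf_map_dvd φ ⟨g, hgN⟩
      rwa [Subgroup.orderOf_mk] at this
    have hα1 : φ ⟨g, hgN⟩ = 1 := by
      apply aut_trivial hQ'p c'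
      · rw [hc'o, hc0o, Nat.card_congr e.toEquiv]; exact hcardQ
      · have : Odd (orderOf g) := by rwa [Nat.coprime_two_right] at hgcop
        exact this.of_dvd_nat hα_dvd
      · intro h3d
        have h3g : 3 ∣ orderOf g := h3d.trans hα_dvd
        have h3G : 3 ∣ 2 ^ a * n := hG ▸ h3g.trans (orderOf_dvd_natCard g)
        have hc32 : Nat.Coprime 3 (2 ^ a) := Nat.Coprime.pow_right _ (by decide)
        exact h3 (hc32.dvd_of_dvd_mul_left h3G)
    rw [Subgroup.mem_centralizer_iff]
    intro q hq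
    have hq' : (⟨q, hQN hq⟩ : Subgroup.normalizer (Q : Set G)) ∈ Q' := by
      rw [Subgroup.mem_subgroupOf]; exact hq
    have h5 : (φ ⟨g, hgN⟩) ⟨⟨q, hQN hq⟩, hq'⟩ = ⟨⟨q, hQN hq⟩, hq'⟩ := by
      rw [hα1]; rfl
    have h6 := congrArg (fun z : Q' => ((z : Subgroup.normalizer (Q : Set G)) : G)) h5
    simp only [φ, MulAut.conjNormal_apply, Subgroup.coe_mul, Subgroup.coe_inv] at h6
    -- h6 : g * q * g⁻¹ = q
    calc q * g = (g * q * g⁻¹) * g := by rw [h6]
      _ = g * q := by group
  obtain ⟨N, hNn, hNc⟩ := (Cfsg.Agent.Lib.Lead.frobenius_pnilpotent P).mpr hkey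
  refine ⟨N, hNn, ?_⟩
  have h1 := hNc.card_mul_card
  have h2 : Nat.card (P : Subgroup G) = 2 ^ a := hPcard
  rw [h2, hG, mul_comm] at h1
  exact Nat.eq_of_mul_eq_mul_left (by positivity) h1

end Cfsg.Agent.S3971
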