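import Cfsg.Statements.S3976
import Mathlib
import Cfsg.Agent.Lib.Helper6.Wielandt
import Cfsg.Agent.Lib.Helper6.Conj
-- import your own Cfsg.Agent.* helpers here

set_option autoImplicit false
open Cfsg

namespace Cfsg.Agent.S3976

/-- Let `p` be a prime and `G` a group of order `p ^ m`. For every `s ≤ m` the number of normal subgroups of `G` of order `p ^ s` is congruent to `1` modulo `p`. -/
theorem result {G : Type*} [Group G] [Finite G] (p m s : ℕ) (hp : p.Prime) (hG : Nat.card G = p ^ m) (hs : s ≤ m) : Nat.card {H : Subgroup G // H.Normal ∧ Nat.card H = p ^ s} ≡ 1 [MOD p] := by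
  classical
  haveI : Fact p.Prime := ⟨hp⟩
  have hPG : IsPGroup p G := IsPGroup.of_card hG
  let T := {H : Subgroup G // Nat.card H = p ^ s}
  letI inst : MulAction G T :=
    { smul := fun g H => ⟨H.1.map (MulAut.conj g).toMonoidHom, by
        rw [Cfsg.Agent.Lib.Helper6.card_map_conj]; exact H.2⟩
      one_smul := fun H => Subtype.ext (Cfsg.Agent.Lib.Helper6.map_conj_one H.1)
      mul_smul := fun g h H => Subtype.ext (Cfsg.Agent.Lib.Helper6.map_conj_mul H.1 g h) }
  have hsm : ∀ (g : G) (H : T), ((g • H : T) : Subgroup G) = H.1.map (MulAut.conj g).toMonoidHom :=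
    fun g H => rfl
  have h1 : Nat.card T ≡ 1 [MOD p] :=
    Cfsg.Agent.Lib.Helper6.wielandt_card_modEq p s (p ^ (m - s)) hp (pow_pos hp.pos _)
      (by rw [hG, ← pow_add]; congr 1; omega)
  have h2 := hPG.card_modEq_card_fixedPoints T
  have e : {H : Subgroup G // H.Normal ∧ Nat.card H = p ^ s} ≃ MulAction.fixedPoints G T :=
    { toFun := fun H => ⟨⟨H.1, H.2.2⟩, fun g => Subtype.ext (by
        rw [hsm]
        haveI := H.2.1
        ext y
        rw [Cfsg.Agent.Lib.Helper6.mem_map_conj]
        show g⁻¹ * y * g ∈ H.1 ↔ y ∈ H.1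
        rw [mul_assoc, H.2.1.mem_comm_iff, mul_assoc, mul_inv_cancel, mul_one])⟩
      invFun := fun t => ⟨t.1.1, ⟨⟨fun n hn g => by
        have h := congrArg Subtype.val (t.2 g)
        rw [hsm] at h
        rw [← h]
        exact Cfsg.Agent.Lib.Helper6.conj_mem_map_conj _ g hn⟩, t.1.2⟩⟩
      left_inv := fun H => rfl
      right_inv := fun t => rfl }
  rw [Nat.card_congr e]
  exact h2.symm.trans h1

end Cfsg.Agent.S3976
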