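import Cfsg.Statements.S3977
import Mathlib
import Cfsg.Agent.Lib.Lead.UniqueSub
import Cfsg.Agent.Lib.Helper6.OddOnTwo
-- import your own Cfsg.Agent.* helpers here

set_option autoImplicit false
open Cfsg

namespace Cfsg.Agent.S3977

/-- Let `p` be a prime and `G` a group of order `p ^ m` which has exactly one subgroup of order `p ^ s`, where `1 ≤ s < m`, and where `s ≥ 2` if `p = 2`. Then `G` is cyclic. (For `p = 2` and `s = 1` the generalized quaternion groups also occur; that case is the classical criterion for a unique involution.) -/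
theorem result {G : Type*} [Group G] [Finite G] (p m s : ℕ) (hp : p.Prime) (hG : Nat.card G = p ^ m) (hs : 1 ≤ s) (hsm : s < m) (h2 : p ≠ 2 ∨ 2 ≤ s) (huniq : ∀ H K : Subgroup G, Nat.card H = p ^ s → Nat.card K = p ^ s → H = K) : IsCyclic G := by
  classical
  haveI : Fact p.Prime := ⟨hp⟩
  have hPG : IsPGroup p G := IsPGroup.of_card hG
  have hcardtop : Nat.card (⊤ : Subgroup G) = p ^ m := by rw [Subgroup.card_top, hG]
  obtain ⟨H₀, hH₀⟩ := Sylow.exists_subgroup_card_pow_prime p
    (show p ^ s ∣ Nat.card G by rw [hG]; exact pow_dvd_pow p hsm.le)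
  have hle : ∀ (X : Subgroup G) (i : ℕ), Nat.card X = p ^ i → i ≤ s → X ≤ H₀ := by
    intro X i hX his
    obtain ⟨K, hXK, -, hK⟩ := Cfsg.Agent.Lib.Helper6.exists_le_card_pow ⊤ X le_top i s hX his
      (by rw [hcardtop]; exact pow_dvd_pow p hsm.le)
    rw [huniq H₀ K hH₀ hK]
    exact hXK
  obtain ⟨K₁, hHK, -, hK₁⟩ := Cfsg.Agent.Lib.Helper6.exists_le_card_pow ⊤ H₀ le_top s (s+1) hH₀
    (by omega) (by rw [hcardtop]; exact pow_dvd_pow p (by omega))
  have hlt : H₀ < K₁ := by
    apply lt_of_le_of_ne hHK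
    intro h
    rw [h, hK₁] at hH₀
    have := Nat.pow_lt_pow_right hp.one_lt (by omega : s < s + 1)
    omega
  obtain ⟨y, hyK, hyH⟩ := SetLike.exists_of_lt hlt
  have hyZ : Subgroup.zpowers y = K₁ := by
    have hle' : Subgroup.zpowers y ≤ K₁ := by
      rw [Subgroup.zpowers_le]; exact hyK
    obtain ⟨i, hi⟩ := IsPGroup.iff_card.mp (hPG.to_subgroup (Subgroup.zpowers y))
    apply Subgroup.eq_of_le_of_card_ge hle'
    rw [hK₁, hi]
    apply Nat.pow_le_pow_right hp.pos
    by_contra hlt'
    exact hyH (hle _ i hi (by omega) (Subgroup.mem_zpowers y))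
  have hKZ : H₀ ≤ Subgroup.zpowers y := by rw [hyZ]; exact hHK
  have hH₀cyc : IsCyclic ↥H₀ := by
    haveI : IsCyclic ↥(H₀.subgroupOf (Subgroup.zpowers y)) := inferInstance
    exact isCyclic_of_surjective (Subgroup.subgroupOfEquivOfLe hKZ).toMonoidHom
      (Subgroup.subgroupOfEquivOfLe hKZ).surjective
  have huniq' : ∀ H K : Subgroup G, Nat.card H = p → Nat.card K = p → H = K := by
    haveI : Fintype ↥H₀ := Fintype.ofFinite _
    have key : ∀ X : Subgroup G, Nat.card X = p →
        ∀ x : G, x ∈ X ↔ ∃ hx : x ∈ H₀, (⟨x, hx⟩ : ↥H₀) ^ p = 1 := by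
      intro X hX
      have hXH : X ≤ H₀ := hle X 1 (by rw [hX, pow_one]) hs
      let Sf : Finset ↥H₀ := Finset.univ.filter (fun c => c ^ p = 1)
      let Mf : Finset ↥H₀ := Finset.univ.filter (fun c => (c : G) ∈ X)
      have hsub : Mf ⊆ Sf := by
        intro c hc
        have hcM : (c : G) ∈ X := (Finset.mem_filter.mp hc).2
        have h1 : (⟨(c : G), hcM⟩ : ↥X) ^ p = 1 := by
          have := pow_card_eq_one' (G := ↥X) (x := ⟨(c : G), hcM⟩)
          rw [hX] at this
          exact this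
        have h2 : (c : G) ^ p = 1 := congrArg Subtype.val h1
        exact Finset.mem_filter.mpr ⟨Finset.mem_univ _, Subtype.ext h2⟩
      have hMfcard : Mf.card = p := by
        have h1 : Nat.card (X.subgroupOf H₀) = p := by
          rw [Nat.card_congr (Subgroup.subgroupOfEquivOfLe hXH).toEquiv, hX]
        rw [← h1, Nat.card_eq_fintype_card, Fintype.card_subtype]
        rfl
      have hSfcard : Sf.card ≤ p := IsCyclic.card_pow_eq_one_le hp.pos
      have heq : Mf = Sf := Finset.eq_of_subset_of_card_le hsub (by rw [hMfcard]; exact hSfcard)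
      intro x
      constructor
      · intro hx
        refine ⟨hXH hx, ?_⟩
        have : (⟨x, hXH hx⟩ : ↥H₀) ∈ Mf := Finset.mem_filter.mpr ⟨Finset.mem_univ _, hx⟩
        rw [heq] at this
        exact (Finset.mem_filter.mp this).2
      · rintro ⟨hx, hxp⟩
        have : (⟨x, hx⟩ : ↥H₀) ∈ Sf := Finset.mem_filter.mpr ⟨Finset.mem_univ _, hxp⟩
        rw [← heq] at this
        exact (Finset.mem_filter.mp this).2
    intro H K hH hK
    ext x
    rw [key H hH, key K hK]
  rcases Cfsg.Agent.Lib.Lead.unique_sub_cyclic_or_quat p hPG huniq' with hc | ⟨hp2, n, ⟨e⟩⟩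
  · exact hc
  · exfalso
    subst hp2
    have hs2 : 2 ≤ s := by
      rcases h2 with h | h
      · exact absurd rfl h
      · exact h
    haveI : NeZero (2 ^ n) := ⟨by positivity⟩
    have hmem : ∀ q : QuaternionGroup (2 ^ n), orderOf q = 4 → e.symm q ∈ H₀ := by
      intro q hq
      have h1 : Nat.card (Subgroup.zpowers (e.symm q)) = 2 ^ 2 := by
        rw [Nat.card_zpowers, MulEquiv.orderOf_eq, hq]
        norm_num
      exact hle _ 2 h1 hs2 (Subgroup.mem_zpowers _)
    have hcomm : ∀ a b : G, a ∈ H₀ → b ∈ H₀ → a * b = b * a := by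
      intro a b ha hb
      obtain ⟨i, rfl⟩ := Subgroup.mem_zpowers_iff.mp (hKZ ha)
      obtain ⟨j, rfl⟩ := Subgroup.mem_zpowers_iff.mp (hKZ hb)
      exact (Commute.zpow_zpow_self y i j).eq
    have h1 := hmem (QuaternionGroup.xa 0) (QuaternionGroup.orderOf_xa 0)
    have h2' := hmem (QuaternionGroup.xa 1) (QuaternionGroup.orderOf_xa 1)
    have h3 := hcomm _ _ h1 h2'
    rw [← map_mul, ← map_mul] at h3
    have h4 := e.symm.injective h3
    rw [QuaternionGroup.xa_mul_xa, QuaternionGroup.xa_mul_xa] at h4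
    have h5 := QuaternionGroup.a.inj h4
    have h6 : ((2 : ℕ) : ZMod (2 * 2 ^ n)) = 0 := by
      push_cast
      linear_combination h5
    have h7 : 2 * 2 ^ n ∣ 2 := (ZMod.natCast_eq_zero_iff 2 _).mp h6
    have h8 : 2 ^ n = 1 := by
      have := Nat.le_of_dvd (by norm_num) h7
      have : 0 < 2 ^ n := by positivity
      omega
    have h9 : Nat.card G = 4 := by
      rw [Nat.card_congr e.toEquiv, Nat.card_eq_fintype_card, QuaternionGroup.card, h8]
    rw [hG] at h9
    have h10 : m = 2 := Nat.pow_right_injective (le_refl 2) (h9.trans (by norm_num))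
    omega

end Cfsg.Agent.S3977
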