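import Cfsg.Statements.S3992
import Mathlib
import Cfsg.Agent.Lib.Helper6.CPGroups
-- import your own Cfsg.Agent.* helpers here

set_option autoImplicit false
open Cfsg

namespace Cfsg.Agent.S3992


open Cfsg.Agent.Lib.Helper6 Cfsg.Agent.Lib.Lead

/-- Let G be a finite non-solvable group in which every element has prime-power order, and let R be its largest solvable normal subgroup. Then R is a p-group for some prime p; G/R has a non-abelian simple normal subgroup contained in every nontrivial normal subgroup of G/R (its unique minimal normal subgroup); and the order of every solvable subgroup of G has at most two prime divisors. -/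
theorem result {G : Type*} [Group G] [Finite G] (hns : ¬ Group.IsSolvable G) (hpp : ∀ g : G, g ≠ 1 → IsPrimePow (orderOf g))
    (R : Subgroup G) [R.Normal] (hRs : Group.IsSolvable ↥R) (hRmax : ∀ N : Subgroup G, N.Normal → Group.IsSolvable ↥N → N ≤ R) :
    (∃ p : ℕ, p.Prime ∧ IsPGroup p ↥R) ∧
      (∃ M : Subgroup (G ⧸ R), M.Normal ∧ IsSimpleGroup ↥M ∧ ¬ IsMulCommutative ↥M ∧
        ∀ N : Subgroup (G ⧸ R), N.Normal → N ≠ ⊥ → M ≤ N) ∧
      ∀ H : Subgroup G, Group.IsSolvable ↥H → (Nat.card ↥H).primeFactors.card ≤ 2 := by
  classical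
  refine ⟨cp_radical_pgroup hns hpp R hRs, ?_, ?_⟩
  · -- the quotient
    have hppQ : ∀ y : G ⧸ R, y ≠ 1 → IsPrimePow (orderOf y) := by
      intro y hy
      obtain ⟨g, hg⟩ := exists_orderOf_of_quotient R y
      rw [← hg]
      apply hpp
      rintro rfl
      rw [orderOf_one] at hg
      exact hy (orderOf_eq_one_iff.1 hg.symm)
    have hnsQ : ∀ N : Subgroup (G ⧸ R), N.Normal → Group.IsSolvable N → N = ⊥ := by
      intro N hNn hNs
      set N' := N.comap (QuotientGroup.mk' R) with hN'
      have hN'n : N'.Normal := hNn.comap _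
      have hRN' : R ≤ N' := by
        intro x hx
        rw [hN', Subgroup.mem_comap, QuotientGroup.mk'_apply, (QuotientGroup.eq_one_iff x).2 hx]
        exact N.one_mem
      have hN's : Group.IsSolvable N' := by
        haveI := hRs
        haveI := hNs
        refine Group.isSolvable_of_ker_le_range (Subgroup.inclusion hRN')
          ((QuotientGroup.mk' R).subgroupComap N) ?_
        intro x hx
        rw [MonoidHom.mem_ker] at hx
        have h1 : (QuotientGroup.mk' R) (x : G) = 1 := congrArg Subtype.val hx
        rw [QuotientGroup.mk'_apply, QuotientGroup.eq_one_iff] at h1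
        exact ⟨⟨(x : G), h1⟩, Subtype.ext rfl⟩
      have hle := hRmax N' hN'n hN's
      rw [eq_bot_iff]
      intro y hy
      obtain ⟨g, rfl⟩ := QuotientGroup.mk_surjective y
      have hg : g ∈ N' := hy
      rw [Subgroup.mem_bot]
      exact (QuotientGroup.eq_one_iff g).2 (hle hg)
    haveI : Nontrivial (G ⧸ R) := by
      rw [← not_subsingleton_iff_nontrivial]
      intro hsub
      exact hns (isSolvable_of_normal R hRs inferInstance)
    exact cp_unique_minimal hppQ hnsQ
  · intro H hHs
    by_contra hcon
    push Not at hcon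
    obtain ⟨p, hp, q, hq, r, hr, hpq, hpr, hqr⟩ := Finset.two_lt_card.1 hcon
    rw [Nat.mem_primeFactors] at hp hq hr
    haveI := hHs
    obtain ⟨g, hg⟩ := three_primes hp.1 hq.1 hr.1 hpq hpr hqr hp.2.1 hq.2.1 hr.2.1
    have hg1 : ∀ a b : ℕ, a.Prime → b.Prime → a ≠ b → orderOf g = a * b → False := by
      intro a b ha hb hab hgo
      have h1 : (g : G) ≠ 1 := by
        intro h
        have : g = 1 := Subtype.ext h
        rw [this, orderOf_one] at hgo
        have := ha.two_le
        have := hb.two_le
        nlinarith
      have h2 := hpp (g : G) h1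
      rw [Subgroup.orderOf_coe, hgo] at h2
      exact not_isPrimePow_mul ha hb hab h2
    rcases hg with hg | hg | hg
    · exact hg1 p q hp.1 hq.1 hpq hg
    · exact hg1 p r hp.1 hr.1 hpr hg
    · exact hg1 q r hq.1 hr.1 hqr hg

end Cfsg.Agent.S3992
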