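import Cfsg.Statements.S3994
import Mathlib
import Cfsg.Agent.Lib.Helper6.Frobenius
-- import your own Cfsg.Agent.* helpers here

set_option autoImplicit false
open Cfsg

namespace Cfsg.Agent.S3994


theorem coprime_div_gcd_pow (N n : ℕ) (hN : 0 < N) (hn : 0 < n) :
    Nat.Coprime (N / Nat.gcd N (n ^ N)) n := by
  obtain ⟨s, hs⟩ : ∃ s, s = Nat.gcd N (n ^ N) := ⟨_, rfl⟩
  rw [← hs]
  have hsN : s ∣ N := hs ▸ Nat.gcd_dvd_left _ _
  have hs0 : s ≠ 0 := by
    rintro rfl
    rw [zero_dvd_iff] at hsN
    omega
  obtain ⟨t, ht⟩ := hsN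
  have ht0 : t ≠ 0 := by
    rintro rfl
    rw [mul_zero] at ht; omega
  rw [ht, Nat.mul_div_cancel_left _ (Nat.pos_of_ne_zero hs0)]
  rw [Nat.coprime_iff_gcd_eq_one]
  by_contra hne
  obtain ⟨r, hr, hrd⟩ := Nat.exists_prime_and_dvd hne
  have hrt : r ∣ t := hrd.trans (Nat.gcd_dvd_left _ _)
  have hrn : r ∣ n := hrd.trans (Nat.gcd_dvd_right _ _)
  have h1 : s.factorization r = min (N.factorization r) ((n ^ N).factorization r) := by
    rw [hs, Nat.factorization_gcd (by omega) (pow_ne_zero _ (by omega))]
    rfl
  have h2 : (n ^ N).factorization r = N * n.factorization r := by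
    rw [Nat.factorization_pow]; rfl
  have h3 : 0 < n.factorization r := hr.factorization_pos_of_dvd (by omega) hrn
  have h4 : N.factorization r < N := Nat.factorization_lt r (by omega)
  have h5 : N.factorization r = s.factorization r + t.factorization r := by
    rw [ht, Nat.factorization_mul hs0 ht0]; rfl
  have h6 : 0 < t.factorization r := hr.factorization_pos_of_dvd ht0 hrt
  have h7 : N ≤ N * n.factorization r := Nat.le_mul_of_pos_right N h3
  rw [h2] at h1
  have h8 : s.factorization r = N.factorization r := by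
    rw [h1]; exact min_eq_left (by omega)
  omega

/-- Let G be a finite group and n a positive integer. The number of elements of G whose order is divisible by n is either 0 or divisible by the largest divisor of the order of G that is coprime to n. -/
theorem result {G : Type*} [Group G] [Finite G] (n : ℕ) (hn : 0 < n) :
    Nat.card {g : G // n ∣ orderOf g} = 0 ∨
      (Nat.card G / Nat.gcd (Nat.card G) (n ^ Nat.card G)) ∣ Nat.card {g : G // n ∣ orderOf g} := by
  right
  obtain ⟨N, hNdef⟩ : ∃ N, N = Nat.card G := ⟨_, rfl⟩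
  rw [← hNdef]
  have hN : 0 < N := hNdef ▸ Nat.card_pos
  obtain ⟨s, hs⟩ : ∃ s, s = Nat.gcd N (n ^ N) := ⟨_, rfl⟩
  have hcop := coprime_div_gcd_pow N n hN hn
  rw [← hs] at hcop ⊢
  have hsN : s ∣ N := hs ▸ Nat.gcd_dvd_left _ _
  obtain ⟨t, ht⟩ := hsN
  have hs0 : 0 < s := by
    rcases Nat.eq_zero_or_pos s with h | h
    · rw [h, zero_mul] at ht; omega
    · exact h
  rw [ht, Nat.mul_div_cancel_left _ hs0] at hcop ⊢
  have hst : Nat.Coprime s t := by
    have h1 : s ∣ n ^ N := hs ▸ Nat.gcd_dvd_right _ _
    exact (Nat.Coprime.coprime_dvd_right h1 (Nat.Coprime.pow_right _ hcop)).symm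
  have htG : t ∣ Nat.card G := by rw [← hNdef, ht]; exact Dvd.intro_left _ rfl
  have e1 : Nat.card {g : G // n ∣ orderOf g} =
      Nat.card {x : G // x ^ (s * t) = 1 ∧ n ∣ orderOf x} := by
    apply Nat.card_congr
    apply Equiv.subtypeEquivRight
    intro x
    constructor
    · intro h
      refine ⟨?_, h⟩
      rw [← ht, hNdef]; exact pow_card_eq_one'
    · exact fun h => h.2
  rw [e1, Cfsg.Agent.Lib.Helper6.card_pow_eq_one_pairs s t hst (fun x => n ∣ orderOf x)
    (fun y => n ∣ orderOf y) ?_]
  · apply Cfsg.Agent.Lib.Helper6.dvd_card_pairs t htG (fun y => y ^ s = 1 ∧ n ∣ orderOf y)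
    · intro g y hy
      refine ⟨?_, ?_⟩
      · rw [conj_pow, hy.1]; group
      · have := orderOf_injective (MulAut.conj g).toMonoidHom (MulAut.conj g).injective y
        have e : (MulAut.conj g).toMonoidHom y = g * y * g⁻¹ := by simp [MulAut.conj_apply]
        rw [e] at this
        rw [this]; exact hy.2
    · intro y _
      obtain ⟨H, hH⟩ : ∃ H : Subgroup G, H = Subgroup.centralizer ({y} : Set G) := ⟨_, rfl⟩
      have hcong : Nat.card {z : G // Commute y z ∧ z ^ t = 1} = Nat.card {z : ↥H // z ^ t = 1} := by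
        apply Nat.card_congr
        refine
          { toFun := fun z => ⟨⟨z.1, by
              rw [hH, Subgroup.mem_centralizer_singleton_iff]; exact z.2.1.eq.symm⟩,
              Subtype.ext z.2.2⟩
            invFun := fun z => ⟨z.1.1, by
              have h' : (z.1 : G) ∈ Subgroup.centralizer ({y} : Set G) := by rw [← hH]; exact z.1.2
              rw [Subgroup.mem_centralizer_singleton_iff] at h'
              exact h'.symm, congrArg Subtype.val z.2⟩
            left_inv := fun z => rfl
            right_inv := fun z => rfl }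
      rw [hcong, ← hH]
      have h4 := Cfsg.Agent.Lib.Helper6.frobenius_dvd ↥H (Nat.gcd t (Nat.card ↥H))
        (Nat.gcd_dvd_right _ _)
      have h6 : Nat.card {w : ↥H // w ^ Nat.gcd t (Nat.card ↥H) = 1} =
          Nat.card {w : ↥H // w ^ t = 1} := by
        apply Nat.card_congr
        apply Equiv.subtypeEquivRight
        intro w
        constructor
        · intro h
          obtain ⟨c, hc⟩ := Nat.gcd_dvd_left t (Nat.card ↥H)
          rw [hc, pow_mul, h, one_pow]
        · intro h
          exact (pow_gcd_eq_one (a := w)).2 ⟨h, pow_card_eq_one'⟩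
      rw [← h6]
      exact h4
  · intro y z hy hz hc
    have hoz : orderOf z ∣ t := orderOf_dvd_of_pow_eq_one hz
    have hoy : orderOf y ∣ s := orderOf_dvd_of_pow_eq_one hy
    have hcop2 : (orderOf y).Coprime (orderOf z) :=
      Nat.Coprime.coprime_dvd_left hoy (Nat.Coprime.coprime_dvd_right hoz hst)
    rw [hc.orderOf_mul_eq_mul_orderOf_of_coprime hcop2]
    constructor
    · intro h
      have hcz : Nat.Coprime n (orderOf z) := (Nat.Coprime.coprime_dvd_left hoz hcop).symm
      exact hcz.dvd_of_dvd_mul_right h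
    · intro h
      exact h.trans (Dvd.intro _ rfl)

end Cfsg.Agent.S3994
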