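import Cfsg.Statements.S3997
import Mathlib

set_option autoImplicit false
open Cfsg

namespace Cfsg.Agent.S3997

/-- an order-preserving bijection between two groups of the same order type -/
theorem exists_order_preserving_equiv {G H : Type*} [Group G] [Finite G] [Group H] [Finite H]
    (hT : ∀ m : ℕ, Nat.card {g : G // orderOf g = m} = Nat.card {h : H // orderOf h = m}) :
    ∃ φ : G ≃ H, ∀ g, orderOf (φ g) = orderOf g := by
  have hequiv : ∀ m : ℕ, Nonempty ({g : G // orderOf g = m} ≃ {h : H // orderOf h = m}) :=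
    fun m => Finite.card_eq.mp (hT m)
  let e : ∀ m, {g : G // orderOf g = m} ≃ {h : H // orderOf h = m} := fun m => (hequiv m).some
  refine ⟨(Equiv.sigmaFiberEquiv (orderOf : G → ℕ)).symm.trans
    ((Equiv.sigmaCongrRight e).trans (Equiv.sigmaFiberEquiv (orderOf : H → ℕ))), ?_⟩
  intro g
  exact ((e (orderOf g)) ⟨g, rfl⟩).2

theorem sylow_set_eq_of_normal {G : Type*} [Group G] [Finite G] {p : ℕ} [Fact p.Prime]
    (P : Sylow p G) (hPn : (P : Subgroup G).Normal) :
    ((P : Subgroup G) : Set G) = {g : G | ∃ k : ℕ, orderOf g = p ^ k} := by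
  ext x
  constructor
  · intro hx
    obtain ⟨k, hk⟩ := P.isPGroup' ⟨x, hx⟩
    have hk' : x ^ p ^ k = 1 := by
      have := congrArg Subtype.val hk
      simpa using this
    obtain ⟨j, -, hj⟩ := (Nat.dvd_prime_pow (Fact.out : p.Prime)).1 (orderOf_dvd_of_pow_eq_one hk')
    exact ⟨j, hj⟩
  · rintro ⟨a, hxa⟩
    have hpg : IsPGroup p (Subgroup.zpowers x) :=
      IsPGroup.of_card (n := a) (by rw [Nat.card_zpowers, hxa])
    obtain ⟨Q, hQ⟩ := hpg.exists_le_sylow
    obtain ⟨g, rfl⟩ := MulAction.exists_smul_eq G P Q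
    rw [Sylow.smul_eq_of_normal] at hQ
    exact hQ (Subgroup.mem_zpowers x)

/-- Let G and H be finite groups with the same order type: for every m they have the same number of elements of order m. If G is nilpotent then so is H. -/
theorem result {G H : Type*} [Group G] [Finite G] [Group H] [Finite H] (hT : (∀ m : ℕ, Nat.card {g : G // orderOf g = m} = Nat.card {h : H // orderOf h = m})) (hG : Group.IsNilpotent G) :
    Group.IsNilpotent H := by
  obtain ⟨φ, hφ⟩ := exists_order_preserving_equiv hT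
  have hcard : Nat.card G = Nat.card H := Nat.card_congr φ
  have hGn := ((isNilpotent_of_finite_tfae (G := G)).out 0 3).mp hG
  apply ((isNilpotent_of_finite_tfae (G := H)).out 0 3).mpr
  intro p hp Q
  suffices h : ∀ Q : Sylow p H, ((Q : Subgroup H) : Set H) = {h : H | ∃ k : ℕ, orderOf h = p ^ k} by
    have hsub : Subsingleton (Sylow p H) :=
      ⟨fun Q₁ Q₂ => Sylow.ext (SetLike.coe_injective (by rw [h Q₁, h Q₂]))⟩
    exact Sylow.normal_of_subsingleton Q
  intro Q
  obtain ⟨P⟩ : Nonempty (Sylow p G) := inferInstance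
  have hPset := sylow_set_eq_of_normal P (hGn p hp P)
  have hsub : ((Q : Subgroup H) : Set H) ⊆ {h : H | ∃ k : ℕ, orderOf h = p ^ k} := by
    intro x hx
    obtain ⟨k, hk⟩ := Q.isPGroup' ⟨x, hx⟩
    have hk' : x ^ p ^ k = 1 := by
      have := congrArg Subtype.val hk
      simpa using this
    obtain ⟨j, -, hj⟩ := (Nat.dvd_prime_pow hp.out).1 (orderOf_dvd_of_pow_eq_one hk')
    exact ⟨j, hj⟩
  apply Set.eq_of_subset_of_ncard_le hsub _ (Set.toFinite _)
  have himg : {h : H | ∃ k : ℕ, orderOf h = p ^ k} = φ '' {g : G | ∃ k : ℕ, orderOf g = p ^ k} := by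
    ext y
    constructor
    · rintro ⟨k, hk⟩
      refine ⟨φ.symm y, ⟨k, ?_⟩, by simp⟩
      rw [← hφ, Equiv.apply_symm_apply, hk]
    · rintro ⟨g, ⟨k, hk⟩, rfl⟩
      exact ⟨k, by rw [hφ, hk]⟩
  rw [himg, Set.ncard_image_of_injective _ φ.injective, ← hPset]
  have h1 : ((P : Subgroup G) : Set G).ncard = Nat.card (P : Subgroup G) := (Nat.card_coe_set_eq _).symm
  have h2 : ((Q : Subgroup H) : Set H).ncard = Nat.card (Q : Subgroup H) := (Nat.card_coe_set_eq _).symm
  rw [h1, h2, Sylow.card_eq_multiplicity, Sylow.card_eq_multiplicity, hcard]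

end Cfsg.Agent.S3997
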