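import Cfsg.Statements.S4002
import Mathlib
import Cfsg.Agent.Lib.Helper6.ThreePrimes
-- import your own Cfsg.Agent.* helpers here

set_option autoImplicit false
open Cfsg

namespace Cfsg.Agent.S4002


theorem exists_three_primes (n : ℕ) (hn : 7 ≤ n) :
    ∃ p q r : ℕ, p.Prime ∧ q.Prime ∧ r.Prime ∧ p < q ∧ q < r ∧ r ≤ n ∧ n < p * q := by
  by_cases h1 : n ≤ 10
  · exact ⟨3, 5, 7, by norm_num, by norm_num, by norm_num, by norm_num, by norm_num, hn, by omega⟩
  by_cases h2 : n ≤ 34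
  · exact ⟨5, 7, 11, by norm_num, by norm_num, by norm_num, by norm_num, by norm_num, by omega,
      by omega⟩
  obtain ⟨r, hr, hr1, hr2⟩ := Nat.exists_prime_lt_and_le_two_mul (n / 2) (by omega)
  obtain ⟨q, hq, hq1, hq2⟩ := Nat.exists_prime_lt_and_le_two_mul (n / 4) (by omega)
  obtain ⟨p, hp, hp1, hp2⟩ := Nat.exists_prime_lt_and_le_two_mul (n / 8) (by omega)
  refine ⟨p, q, r, hp, hq, hr, by omega, by omega, by omega, ?_⟩
  have h8 : n + 1 ≤ 8 * p := by omega
  have h4 : n + 1 ≤ 4 * q := by omega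
  have h5 : (n + 1) * (n + 1) ≤ (8 * p) * (4 * q) := Nat.mul_le_mul h8 h4
  nlinarith

/-- If the set of element orders of a finite group G is {1, 2, …, n} with n ≥ 7, then G is not solvable. -/
theorem result {G : Type*} [Group G] [Finite G] (n : ℕ) (hn : 7 ≤ n) (h : Set.range (orderOf : G → ℕ) = {k : ℕ | 1 ≤ k ∧ k ≤ n}) : ¬ Group.IsSolvable G := by
  intro hs
  obtain ⟨p, q, r, hp, hq, hr, hpq, hqr, hrn, hlt⟩ := exists_three_primes n hn
  have hmem : ∀ k : ℕ, 1 ≤ k → k ≤ n → ∃ g : G, orderOf g = k := by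
    intro k hk1 hkn
    have : k ∈ Set.range (orderOf : G → ℕ) := by rw [h]; exact ⟨hk1, hkn⟩
    exact this
  have hdvd : ∀ k : ℕ, 1 ≤ k → k ≤ n → k ∣ Nat.card G := by
    intro k hk1 hkn
    obtain ⟨g, hg⟩ := hmem k hk1 hkn
    rw [← hg]; exact orderOf_dvd_natCard g
  have hle : ∀ g : G, orderOf g ≤ n := by
    intro g
    have : orderOf g ∈ Set.range (orderOf : G → ℕ) := ⟨g, rfl⟩
    rw [h] at this
    exact this.2
  obtain ⟨g, hg⟩ := Cfsg.Agent.Lib.Helper6.three_primes hp hq hr hpq.ne (hpq.trans hqr).ne hqr.ne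
    (hdvd p hp.one_le (by omega)) (hdvd q hq.one_le (by omega)) (hdvd r hr.one_le hrn)
  have h1 := hle g
  have h2 : p * q ≤ p * r := Nat.mul_le_mul_left p hqr.le
  have h3 : p * r ≤ q * r := Nat.mul_le_mul_right r hpq.le
  rcases hg with hg | hg | hg <;> omega

end Cfsg.Agent.S4002
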