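import Cfsg.Statements.S4005
import Mathlib
import Cfsg.Agent.Lib.Lead.CharBurnside
import Cfsg.Agent.Lib.Helper5.ElemAbNormal
-- import your own Cfsg.Agent.* helpers here

set_option autoImplicit false
open Cfsg

namespace Cfsg.Agent.S4005


theorem ord_le {G : Type*} [Group G]
    (h : Set.range (orderOf : G → ℕ) = {k : ℕ | 1 ≤ k ∧ k ≤ 3}) (g : G) :
    1 ≤ orderOf g ∧ orderOf g ≤ 3 := by
  have h1 : orderOf g ∈ Set.range (orderOf : G → ℕ) := ⟨g, rfl⟩
  rw [h] at h1
  exact h1

theorem no_six {G : Type*} [Group G]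
    (h : Set.range (orderOf : G → ℕ) = {k : ℕ | 1 ≤ k ∧ k ≤ 3}) (x w : G) (hc : Commute x w)
    (hx : orderOf x = 3) (hw : orderOf w = 2) : False := by
  have h1 := hc.orderOf_mul_eq_mul_orderOf_of_coprime (by rw [hx, hw]; decide)
  have h2 := (ord_le h (x * w)).2
  rw [h1, hx, hw] at h2
  omega

theorem prime_dvd {G : Type*} [Group G] [Finite G]
    (h : Set.range (orderOf : G → ℕ) = {k : ℕ | 1 ≤ k ∧ k ≤ 3}) (p : ℕ) (hp : p.Prime)
    (hd : p ∣ Nat.card G) : p = 2 ∨ p = 3 := by
  haveI := Fact.mk hp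
  obtain ⟨x, hx⟩ := exists_prime_orderOf_dvd_card' p hd
  have h1 := ord_le h x
  rw [hx] at h1
  have h2 := hp.two_le
  omega

theorem two_three (n : ℕ) (hn : n ≠ 0) (h : ∀ p : ℕ, p.Prime → p ∣ n → p = 2 ∨ p = 3) :
    ∃ a b, n = 2 ^ a * 3 ^ b := by
  refine ⟨n.factorization 2, n.factorization 3, ?_⟩
  conv_lhs => rw [← Nat.prod_factorization_pow_eq_self hn]
  rw [Finsupp.prod_of_support_subset (s := {2, 3})]
  · simp
  · intro p hp
    rw [Nat.support_factorization] at hp
    have h1 := h p (Nat.prime_of_mem_primeFactors hp) (Nat.dvd_of_mem_primeFactors hp)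
    simp only [Finset.mem_insert, Finset.mem_singleton]
    exact h1
  · intro i _
    simp

theorem sq_of_order_two {G : Type*} [Group G] (t : G) (ht : orderOf t = 2) : t * t = 1 := by
  rw [← pow_two, ← ht]
  exact pow_orderOf_eq_one t

theorem invol_inverts {G : Type*} [Group G]
    (h : Set.range (orderOf : G → ℕ) = {k : ℕ | 1 ≤ k ∧ k ≤ 3}) (V : Subgroup G) [hVn : V.Normal]
    (hVc : ∀ x ∈ V, ∀ y ∈ V, x * y = y * x) (hV3 : ∀ x ∈ V, x ^ 3 = 1) (t : G)
    (ht : orderOf t = 2) (v : G) (hv : v ∈ V) : t * v * t⁻¹ = v⁻¹ := by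
  have ht2 : t * t = 1 := sq_of_order_two t ht
  have htinv : t⁻¹ = t := inv_eq_of_mul_eq_one_right ht2
  have hcv : t * v * t⁻¹ ∈ V := hVn.conj_mem v hv t
  have hwV : v * (t * v * t⁻¹) ∈ V := V.mul_mem hv hcv
  have hcomm : Commute (v * (t * v * t⁻¹)) t := by
    show v * (t * v * t⁻¹) * t = t * (v * (t * v * t⁻¹))
    have e1 : v * (t * v * t⁻¹) * t = v * t * v := by group
    have e2 : t * (v * (t * v * t⁻¹)) = t * ((t * v * t⁻¹) * v) := by rw [hVc v hv _ hcv]
    have e3 : t * ((t * v * t⁻¹) * v) = (t * t) * v * t⁻¹ * v := by group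
    rw [e1, e2, e3, ht2, one_mul, htinv]
  by_cases hw : v * (t * v * t⁻¹) = 1
  · exact (eq_inv_of_mul_eq_one_right hw)
  · exfalso
    have h3 : orderOf (v * (t * v * t⁻¹)) = 3 :=
      orderOf_eq_prime (hV3 _ hwV) hw
    exact no_six h _ t hcomm h3 ht

theorem no_klein {G : Type*} [Group G]
    (h : Set.range (orderOf : G → ℕ) = {k : ℕ | 1 ≤ k ∧ k ≤ 3}) (V : Subgroup G) [hVn : V.Normal]
    (hVc : ∀ x ∈ V, ∀ y ∈ V, x * y = y * x) (hV3 : ∀ x ∈ V, x ^ 3 = 1) (hV : V ≠ ⊥) (s t : G)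
    (hs : orderOf s = 2) (ht : orderOf t = 2) (hst : orderOf (s * t) = 2) : False := by
  obtain ⟨v, hv1⟩ := (Subgroup.ne_bot_iff_exists_ne_one.mp hV)
  have hvV : (v : G) ∈ V := v.2
  have h1 := invol_inverts h V hVc hV3 (s * t) hst v hvV
  have h2 := invol_inverts h V hVc hV3 t ht v hvV
  have h3 := invol_inverts h V hVc hV3 s hs (v : G)⁻¹ (V.inv_mem hvV)
  have h4 : s * t * (v : G) * (s * t)⁻¹ = s * (t * v * t⁻¹) * s⁻¹ := by group
  rw [h4, h2, h3, inv_inv] at h1
  have h5 : (v : G) * v = 1 := by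
    nth_rewrite 1 [h1]
    exact inv_mul_cancel _
  have h6 : (v : G) ^ 3 = 1 := hV3 _ hvV
  have h7 : (v : G) = 1 := by
    have : (v : G) ^ 3 = v * v * v := by rw [pow_succ, pow_two]
    rw [this, h5, one_mul] at h6
    exact h6
  exact hv1 (Subtype.ext h7)

theorem norm3 {G : Type*} [Group G]
    (h : Set.range (orderOf : G → ℕ) = {k : ℕ | 1 ≤ k ∧ k ≤ 3}) (V : Subgroup G) [hVn : V.Normal]
    (hVc : ∀ x ∈ V, ∀ y ∈ V, x * y = y * x) (hV2 : ∀ x ∈ V, x ^ 2 = 1) (x : G)
    (hx : orderOf x = 3) (v : G) (hv : v ∈ V) :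
    v * (x * v * x⁻¹) * (x ^ 2 * v * (x ^ 2)⁻¹) = 1 := by
  have hx3 : x ^ 3 = 1 := by rw [← hx]; exact pow_orderOf_eq_one x
  have hc1 : x * v * x⁻¹ ∈ V := hVn.conj_mem v hv x
  have hc2 : x ^ 2 * v * (x ^ 2)⁻¹ ∈ V := hVn.conj_mem v hv (x ^ 2)
  have hwV : v * (x * v * x⁻¹) * (x ^ 2 * v * (x ^ 2)⁻¹) ∈ V := V.mul_mem (V.mul_mem hv hc1) hc2
  have hcomm : Commute x (v * (x * v * x⁻¹) * (x ^ 2 * v * (x ^ 2)⁻¹)) := by
    show x * (v * (x * v * x⁻¹) * (x ^ 2 * v * (x ^ 2)⁻¹)) =
      (v * (x * v * x⁻¹) * (x ^ 2 * v * (x ^ 2)⁻¹)) * x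
    have e1 : x * (v * (x * v * x⁻¹) * (x ^ 2 * v * (x ^ 2)⁻¹)) =
        ((x * v * x⁻¹) * (x ^ 2 * v * (x ^ 2)⁻¹) * (x ^ 3 * v * (x ^ 3)⁻¹)) * x := by group
    rw [e1, hx3, one_mul, inv_one, mul_one]
    congr 1
    rw [hVc _ (V.mul_mem hc1 hc2) v hv, ← mul_assoc]
  by_contra hw
  have h2 : orderOf (v * (x * v * x⁻¹) * (x ^ 2 * v * (x ^ 2)⁻¹)) = 2 :=
    orderOf_eq_prime (hV2 _ hwV) hw
  exact no_six h x _ hcomm hx h2

theorem comm_key {A : Type*} [CommGroup A] (a b c e f i j : A) (E2 : a * b * c = 1)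
    (E3 : a * e * j = 1) (E4 : a * f * i = 1) (E5 : b * e * i = 1) (E6 : c * f * j = 1) :
    a ^ 3 = 1 := by
  have h1 : a ^ 3 * ((b * e * i) * (c * f * j)) = (a * b * c) * (a * e * j) * (a * f * i) := by
    rw [pow_three]
    ac_rfl
  rw [E2, E3, E4, E5, E6] at h1
  simpa using h1

theorem no_c3c3 {G : Type*} [Group G]
    (h : Set.range (orderOf : G → ℕ) = {k : ℕ | 1 ≤ k ∧ k ≤ 3}) (V : Subgroup G) [hVn : V.Normal]
    (hVc : ∀ x ∈ V, ∀ y ∈ V, x * y = y * x) (hV2 : ∀ x ∈ V, x ^ 2 = 1) (X Y : G)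
    (hXY : Commute X Y) (hX : orderOf X = 3) (hY : orderOf Y = 3) (h1 : orderOf (X * Y) = 3)
    (h2 : orderOf (X * Y ^ 2) = 3) (v : G) (hv : v ∈ V) : v = 1 := by
  have hY3 : Y ^ 3 = 1 := by rw [← hY]; exact pow_orderOf_eq_one Y
  have E2 := norm3 h V hVc hV2 Y hY v hv
  have E3 := norm3 h V hVc hV2 (X * Y) h1 v hv
  have E4 := norm3 h V hVc hV2 (X * Y ^ 2) h2 v hv
  have m01 : Y * v * Y⁻¹ ∈ V := hVn.conj_mem v hv Y
  have m02 : Y ^ 2 * v * (Y ^ 2)⁻¹ ∈ V := hVn.conj_mem v hv _
  have m11 : X * Y * v * (X * Y)⁻¹ ∈ V := hVn.conj_mem v hv _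
  have m22 : (X * Y) ^ 2 * v * ((X * Y) ^ 2)⁻¹ ∈ V := hVn.conj_mem v hv _
  have m12 : X * Y ^ 2 * v * (X * Y ^ 2)⁻¹ ∈ V := hVn.conj_mem v hv _
  have m21 : (X * Y ^ 2) ^ 2 * v * ((X * Y ^ 2) ^ 2)⁻¹ ∈ V := hVn.conj_mem v hv _
  have E5 := norm3 h V hVc hV2 X hX _ m01
  have E6 := norm3 h V hVc hV2 X hX _ m02
  have k1 : (X * Y) ^ 2 = X ^ 2 * Y ^ 2 := hXY.mul_pow 2
  have k2 : (X * Y ^ 2) ^ 2 = X ^ 2 * Y := by
    rw [(hXY.pow_right 2).mul_pow 2]
    have : (Y ^ 2) ^ 2 = Y ^ 3 * Y := by group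
    rw [this, hY3, one_mul]
  have e5a : X * (Y * v * Y⁻¹) * X⁻¹ = X * Y * v * (X * Y)⁻¹ := by group
  have e5b : X ^ 2 * (Y * v * Y⁻¹) * (X ^ 2)⁻¹ = (X * Y ^ 2) ^ 2 * v * ((X * Y ^ 2) ^ 2)⁻¹ := by
    rw [k2]; group
  have e6a : X * (Y ^ 2 * v * (Y ^ 2)⁻¹) * X⁻¹ = X * Y ^ 2 * v * (X * Y ^ 2)⁻¹ := by group
  have e6b : X ^ 2 * (Y ^ 2 * v * (Y ^ 2)⁻¹) * (X ^ 2)⁻¹ = (X * Y) ^ 2 * v * ((X * Y) ^ 2)⁻¹ := by
    rw [k1]; group
  rw [e5a, e5b] at E5
  rw [e6a, e6b] at E6
  letI : CommGroup V :=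
    { (inferInstance : Group V) with mul_comm := fun a b => Subtype.ext (hVc a a.2 b b.2) }
  have key := comm_key (A := V) ⟨v, hv⟩ ⟨_, m01⟩ ⟨_, m02⟩ ⟨_, m11⟩ ⟨_, m12⟩ ⟨_, m21⟩ ⟨_, m22⟩
    (Subtype.ext E2) (Subtype.ext E3) (Subtype.ext E4) (Subtype.ext E5) (Subtype.ext E6)
  have key' : v ^ 3 = 1 := congrArg Subtype.val key
  have hv2 := hV2 v hv
  have : v ^ 3 = v ^ 2 * v := by group
  rw [this, hv2, one_mul] at key'
  exact key'

theorem invol_centralizes {G : Type*} [Group G]
    (h : Set.range (orderOf : G → ℕ) = {k : ℕ | 1 ≤ k ∧ k ≤ 3}) (V : Subgroup G) [hVn : V.Normal]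
    (hV2 : ∀ x ∈ V, x ^ 2 = 1) (g : G) (hg : g * g = 1) (v : G) (hv : v ∈ V) :
    g * v = v * g := by
  have hginv : g⁻¹ = g := inv_eq_of_mul_eq_one_right hg
  have hcv : g * v * g⁻¹ ∈ V := hVn.conj_mem v hv g
  have h1 : (g * v) ^ 2 ∈ V := by
    have : (g * v) ^ 2 = (g * v * g) * v := by rw [pow_two]; group
    rw [this]
    rw [hginv] at hcv
    exact V.mul_mem hcv hv
  have h2 : (g * v) ^ 4 = 1 := by
    have : (g * v) ^ 4 = ((g * v) ^ 2) ^ 2 := by group
    rw [this]
    exact hV2 _ h1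
  have h3 : orderOf (g * v) ∣ 4 := orderOf_dvd_of_pow_eq_one h2
  have h4 := ord_le h (g * v)
  have h5 : orderOf (g * v) ∣ 2 := by
    have h6 : orderOf (g * v) ≤ 3 := h4.2
    have h7 : 1 ≤ orderOf (g * v) := h4.1
    generalize orderOf (g * v) = n at h3 h6 h7
    interval_cases n
    · exact one_dvd _
    · exact dvd_refl _
    · exfalso; revert h3; decide
  have h6 : (g * v) ^ 2 = 1 := orderOf_dvd_iff_pow_eq_one.mp h5
  have h7 : (v : G) * v = 1 := by rw [← pow_two]; exact hV2 v hv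
  have hvinv : v⁻¹ = v := inv_eq_of_mul_eq_one_right h7
  have h8 : g * v * (g * v) = 1 := by rw [← pow_two]; exact h6
  have h9 : g * v = (g * v)⁻¹ := eq_inv_of_mul_eq_one_left h8
  rw [mul_inv_rev, hvinv, hginv] at h9
  exact h9

theorem card3 {Q : Type*} [Group Q] [Finite Q] (hQ : Nat.card Q = 3) (a b : Q) (ha : a ≠ 1)
    (hb : b ≠ 1) : b = a ∨ b = a⁻¹ := by
  by_contra hne
  push Not at hne
  haveI : Fintype Q := Fintype.ofFinite Q
  classical
  rw [Nat.card_eq_fintype_card] at hQ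
  have hcard : ({1, a, b} : Finset Q).card = 3 := by
    rw [Finset.card_insert_of_notMem, Finset.card_insert_of_notMem, Finset.card_singleton]
    · simp only [Finset.mem_singleton]
      exact fun hh => hne.1 hh.symm
    · simp only [Finset.mem_insert, Finset.mem_singleton]
      push Not
      exact ⟨fun hh => ha hh.symm, fun hh => hb hh.symm⟩
  have huniv : ({1, a, b} : Finset Q) = Finset.univ :=
    Finset.eq_univ_of_card _ (by rw [hcard, hQ])
  have hmem : a⁻¹ ∈ ({1, a, b} : Finset Q) := by rw [huniv]; exact Finset.mem_univ _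
  simp only [Finset.mem_insert, Finset.mem_singleton] at hmem
  rcases hmem with h1 | h1 | h1
  · exact ha (inv_eq_one.mp h1)
  · -- a⁻¹ = a, so a^2 = 1, but order of a divides 3
    have h2 : a ^ 2 = 1 := by rw [pow_two]; nth_rewrite 1 [← h1]; exact inv_mul_cancel a
    have h3 : a ^ 3 = 1 := by
      have := pow_card_eq_one (G := Q) (x := a)
      rw [hQ] at this
      exact this
    have : a ^ 3 = a ^ 2 * a := by group
    rw [this, h2, one_mul] at h3
    exact ha h3
  · exact hne.2 h1.symm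

/-- A finite group whose set of element orders is exactly {1, 2, 3} has either a normal elementary abelian 3-subgroup of index 2 or a normal elementary abelian 2-subgroup of index 3. -/
theorem result {G : Type*} [Group G] [Finite G] (h : Set.range (orderOf : G → ℕ) = {k : ℕ | 1 ≤ k ∧ k ≤ 3}) :
    (∃ N : Subgroup G, N.Normal ∧ Cfsg.IsElementaryAbelian 3 N ∧ N.index = 2) ∨
      (∃ N : Subgroup G, N.Normal ∧ Cfsg.IsElementaryAbelian 2 N ∧ N.index = 3) := by
  classical
  obtain ⟨t0, ht0⟩ : ∃ t : G, orderOf t = 2 := by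
    have : (2 : ℕ) ∈ Set.range (orderOf : G → ℕ) := by rw [h]; constructor <;> norm_num
    exact this
  obtain ⟨x0, hx0⟩ : ∃ x : G, orderOf x = 3 := by
    have : (3 : ℕ) ∈ Set.range (orderOf : G → ℕ) := by rw [h]; constructor <;> norm_num
    exact this
  have ht0ne : t0 ≠ 1 := by
    intro hh; rw [hh, orderOf_one] at ht0; omega
  have hx0ne : x0 ≠ 1 := by
    intro hh; rw [hh, orderOf_one] at hx0; omega
  have h2G : 2 ∣ Nat.card G := by rw [← ht0]; exact orderOf_dvd_natCard t0
  have h3G : 3 ∣ Nat.card G := by rw [← hx0]; exact orderOf_dvd_natCard x0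
  obtain ⟨a, b, hab⟩ := two_three (Nat.card G) Nat.card_pos.ne' (prime_dvd h)
  have hsolv : Group.IsSolvable G :=
    Cfsg.Agent.Lib.Lead.burnside_paqb (Nat.card G) G 2 3 a b Nat.prime_two Nat.prime_three rfl hab
  haveI : Nontrivial G := ⟨⟨t0, 1, ht0ne⟩⟩
  have htop : (⊤ : Subgroup G) ≠ ⊥ := top_ne_bot
  have hsolvtop : Group.IsSolvable (⊤ : Subgroup G) := inferInstance
  obtain ⟨V, p, hVn, hp, -, hV, hVc, hVp⟩ :=
    Cfsg.Agent.Lib.Helper5.exists_normal_exponent_prime_of_solvable (⊤ : Subgroup G) htop hsolvtop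
  obtain ⟨v0, hv0ne⟩ := (Subgroup.ne_bot_iff_exists_ne_one.mp hV)
  have hv0V : (v0 : G) ∈ V := v0.2
  have hv0ne' : (v0 : G) ≠ 1 := fun hh => hv0ne (Subtype.ext hh)
  haveI : Fact p.Prime := ⟨hp⟩
  have hp23 : p = 2 ∨ p = 3 := by
    have h1 : orderOf (v0 : G) = p := orderOf_eq_prime (hVp _ hv0V) hv0ne'
    have h2 := ord_le h (v0 : G)
    rw [h1] at h2
    have := hp.two_le
    omega
  haveI : Fact (Nat.Prime 2) := ⟨Nat.prime_two⟩
  haveI : Fact (Nat.Prime 3) := ⟨Nat.prime_three⟩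
  rcases hp23 with rfl | rfl
  · -- V is a 2-group
    right
    have hQel : ∀ (Q : Sylow 3 G) (x : G), x ∈ Q → x ≠ 1 → orderOf x = 3 := by
      intro Q x hx hx1
      obtain ⟨k, hk⟩ := Q.isPGroup' ⟨x, hx⟩
      have hk' : x ^ 3 ^ k = 1 := congrArg Subtype.val hk
      have h1 : orderOf x ∣ 3 ^ k := orderOf_dvd_of_pow_eq_one hk'
      obtain ⟨j, -, hj⟩ := (Nat.dvd_prime_pow Nat.prime_three).mp h1
      have h2 := ord_le h x
      rw [hj] at h2 ⊢
      have hj1 : j ≠ 0 := by
        rintro rfl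
        rw [pow_zero, orderOf_eq_one_iff] at hj
        exact hx1 hj
      have hj2 : j < 2 := by
        by_contra hcon
        have : 3 ^ 2 ≤ 3 ^ j := Nat.pow_le_pow_right (by norm_num) (by omega)
        omega
      have : j = 1 := by omega
      rw [this, pow_one]
    obtain ⟨Q⟩ : Nonempty (Sylow 3 G) := inferInstance
    have hQ3 : Nat.card Q = 3 := by
      have h3Q : 3 ∣ Nat.card Q := Q.dvd_card_of_dvd_card h3G
      by_contra hne
      have hlt : 3 < Nat.card Q := by
        have := Nat.le_of_dvd Nat.card_pos h3Q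
        omega
      haveI : Nontrivial Q := by
        rw [← Finite.one_lt_card_iff_nontrivial]; omega
      haveI := Q.isPGroup'.center_nontrivial
      obtain ⟨z, hz⟩ := exists_ne (1 : Subgroup.center Q)
      have hzne : (z : Q) ≠ 1 := fun hh => hz (Subtype.ext hh)
      have hzG : ((z : Q) : G) ≠ 1 := fun hh => hzne (Subtype.ext hh)
      have hzo : orderOf ((z : Q) : G) = 3 := hQel Q _ (z : Q).2 hzG
      have hzo' : orderOf (z : Q) = 3 := by rw [← Subgroup.orderOf_coe]; exact hzo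
      have hzp : Subgroup.zpowers (z : Q) ≠ ⊤ := by
        intro hh
        have h1 : Nat.card (Subgroup.zpowers (z : Q)) = 3 := by rw [Nat.card_zpowers, hzo']
        rw [hh, Subgroup.card_top] at h1
        omega
      obtain ⟨y, hy⟩ : ∃ y : Q, y ∉ Subgroup.zpowers (z : Q) := by
        by_contra hcon
        push Not at hcon
        exact hzp (eq_top_iff.mpr fun y _ => hcon y)
      have hcomm : Commute ((z : Q) : G) (y : G) := by
        have h1 : y * (z : Q) = (z : Q) * y := Subgroup.mem_center_iff.mp z.2 y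
        show ((z : Q) : G) * (y : G) = (y : G) * ((z : Q) : G)
        exact (congrArg Subtype.val h1).symm
      have hyne : (y : G) ≠ 1 := by
        intro hh
        apply hy
        have : y = 1 := Subtype.ext hh
        rw [this]; exact one_mem _
      have hyo : orderOf (y : G) = 3 := hQel Q _ y.2 hyne
      have hy3 : (y : G) ^ 3 = 1 := by
        have := pow_orderOf_eq_one (y : G)
        rwa [hyo] at this
      have hzy : ((z : Q) : G) * (y : G) ≠ 1 := by
        intro hh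
        apply hy
        have h1 : y = (z : Q)⁻¹ := by
          apply Subtype.ext
          rw [Subgroup.coe_inv]
          exact (eq_inv_of_mul_eq_one_right hh)
        rw [h1]
        exact inv_mem (Subgroup.mem_zpowers _)
      have hzy2 : ((z : Q) : G) * (y : G) ^ 2 ≠ 1 := by
        intro hh
        apply hy
        have h0 : (y : G) ^ 2 = (y : G)⁻¹ := by
          have : (y : G) ^ 2 * y = 1 := by rw [← hy3]; group
          exact eq_inv_of_mul_eq_one_left this
        rw [h0] at hh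
        have h1 : y = (z : Q) := by
          apply Subtype.ext
          exact (mul_inv_eq_one.mp hh).symm
        rw [h1]
        exact Subgroup.mem_zpowers _
      have o1 : orderOf (((z : Q) : G) * (y : G)) = 3 :=
        hQel Q _ (Q.mul_mem (z : Q).2 y.2) hzy
      have o2 : orderOf (((z : Q) : G) * (y : G) ^ 2) = 3 :=
        hQel Q _ (Q.mul_mem (z : Q).2 (Q.pow_mem y.2 2)) hzy2
      exact hv0ne' (no_c3c3 h V hVc hVp _ _ hcomm hzo hyo o1 o2 v0 hv0V)
    -- N(Q) ≤ C(Q)
    have hNC : Subgroup.normalizer ((Q : Subgroup G) : Set G) ≤ Subgroup.centralizer (Q : Set G) := by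
      intro g hg
      rw [Subgroup.mem_centralizer_iff]
      intro q hq
      by_contra hne
      have hq1 : q ≠ 1 := by
        rintro rfl
        exact hne (by rw [one_mul, mul_one])
      have hg1 : g ≠ 1 := by
        rintro rfl
        exact hne (by rw [one_mul, mul_one])
      have hcq : g * q * g⁻¹ ∈ (Q : Subgroup G) := (Subgroup.mem_normalizer_iff.mp hg q).mp hq
      have hcq1 : g * q * g⁻¹ ≠ 1 := by
        intro hh
        apply hq1
        have : q = g⁻¹ * (g * q * g⁻¹) * g := by group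
        rw [this, hh]; group
      have h1 := card3 hQ3 (⟨q, hq⟩ : Q) ⟨_, hcq⟩ (fun hh => hq1 (congrArg Subtype.val hh))
        (fun hh => hcq1 (congrArg Subtype.val hh))
      have hinv : g * q * g⁻¹ = q⁻¹ := by
        rcases h1 with h1 | h1
        · exfalso
          have h2 : g * q * g⁻¹ = q := congrArg Subtype.val h1
          apply hne
          have : g * q = (g * q * g⁻¹) * g := by group
          rw [this, h2]
        · exact congrArg Subtype.val h1
      have hqo : orderOf q = 3 := hQel Q q hq hq1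
      have hq3 : q ^ 3 = 1 := by rw [← hqo]; exact pow_orderOf_eq_one _
      have hgo : orderOf g = 2 := by
        have h2 := ord_le h g
        have h3 : orderOf g ≠ 1 := by rw [Ne, orderOf_eq_one_iff]; exact hg1
        have h4 : orderOf g ≠ 3 := by
          intro hh
          have hg3 : g ^ 3 = 1 := by rw [← hh]; exact pow_orderOf_eq_one _
          have h5 : g ^ 3 * q * (g ^ 3)⁻¹ = g * (g * (g * q * g⁻¹) * g⁻¹) * g⁻¹ := by
            rw [pow_succ, pow_two]; group
          rw [hinv, hg3, one_mul, inv_one, mul_one] at h5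
          have h6 : g * q⁻¹ * g⁻¹ = q := by
            have : g * q⁻¹ * g⁻¹ = (g * q * g⁻¹)⁻¹ := by group
            rw [this, hinv, inv_inv]
          rw [h6, hinv] at h5
          -- q = q⁻¹
          have h7 : q ^ 2 = 1 := by rw [pow_two]; nth_rewrite 1 [h5]; exact inv_mul_cancel q
          have : q ^ 3 = q ^ 2 * q := by group
          rw [this, h7, one_mul] at hq3
          exact hq1 hq3
        omega
      have hgg : g * g = 1 := sq_of_order_two g hgo
      have hginv : g⁻¹ = g := inv_eq_of_mul_eq_one_right hgg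
      have hgq : (g * q) * (g * q) = 1 := by
        have : (g * q) * (g * q) = (g * q * g) * q := by group
        rw [this]
        rw [hginv] at hinv
        rw [hinv, inv_mul_cancel]
      have c1 := invol_centralizes h V hVp g hgg v0 hv0V
      have c2 := invol_centralizes h V hVp (g * q) hgq v0 hv0V
      have c3 : Commute q (v0 : G) := by
        show q * (v0 : G) = v0 * q
        have e1 : q * (v0 : G) = g⁻¹ * (g * q * v0) := by group
        rw [e1, c2]
        have e2 : g⁻¹ * ((v0 : G) * (g * q)) = g⁻¹ * (v0 * g) * q := by group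
        rw [e2, ← c1]
        group
      have hv0o : orderOf (v0 : G) = 2 := orderOf_eq_prime (hVp _ hv0V) hv0ne'
      exact no_six h q v0 c3 hqo hv0o
    have hcompl := MonoidHom.ker_transferSylow_isComplement' Q hNC
    refine ⟨(MonoidHom.transferSylow Q hNC).ker, MonoidHom.normal_ker _, ?_, ?_⟩
    · have hcm := hcompl.card_mul_card
      rw [hQ3] at hcm
      have hN2 : ∀ n ∈ (MonoidHom.transferSylow Q hNC).ker, n ^ 2 = 1 := by
        intro n hn
        have h1 : orderOf n ∣ Nat.card (MonoidHom.transferSylow Q hNC).ker := by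
          have := orderOf_dvd_natCard (⟨n, hn⟩ : (MonoidHom.transferSylow Q hNC).ker)
          rwa [Subgroup.orderOf_mk] at this
        have h2 := ord_le h n
        have h3 : orderOf n ≠ 3 := by
          intro hh
          rw [hh] at h1
          obtain ⟨c, hc⟩ := h1
          have h9 : 3 ^ 2 ∣ Nat.card G := ⟨c, by rw [← hcm, hc]; ring⟩
          have := Q.pow_dvd_card_of_pow_dvd_card h9
          rw [hQ3] at this
          revert this; decide
        have h4 : orderOf n ∣ 2 := by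
          have h6 : orderOf n ≤ 3 := h2.2
          have h7 : 1 ≤ orderOf n := h2.1
          generalize orderOf n = m at h3 h6 h7
          interval_cases m
          · exact one_dvd _
          · exact dvd_refl _
          · exact absurd rfl h3
        exact orderOf_dvd_iff_pow_eq_one.mp h4
      refine ⟨⟨⟨fun a b => Subtype.ext ?_⟩⟩, hN2⟩
      have ha := hN2 a a.2
      have hb := hN2 b b.2
      have hab := hN2 _ (mul_mem a.2 b.2)
      have ha' : (a : G)⁻¹ = a := inv_eq_of_mul_eq_one_right (by rw [← pow_two]; exact ha)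
      have hb' : (b : G)⁻¹ = b := inv_eq_of_mul_eq_one_right (by rw [← pow_two]; exact hb)
      have h1 : (a : G) * b = ((a : G) * b)⁻¹ :=
        eq_inv_of_mul_eq_one_left (by rw [← pow_two]; exact hab)
      rw [mul_inv_rev, ha', hb'] at h1
      exact h1
    · rw [hcompl.symm.index_eq_card, hQ3]
  · -- V is a 3-group
    left
    have hPel : ∀ (P : Sylow 2 G) (x : G), x ∈ P → x ≠ 1 → orderOf x = 2 := by
      intro P x hx hx1
      obtain ⟨k, hk⟩ := P.isPGroup' ⟨x, hx⟩
      have hk' : x ^ 2 ^ k = 1 := congrArg Subtype.val hk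
      have h1 : orderOf x ∣ 2 ^ k := orderOf_dvd_of_pow_eq_one hk'
      obtain ⟨j, -, hj⟩ := (Nat.dvd_prime_pow Nat.prime_two).mp h1
      have h2 := ord_le h x
      rw [hj] at h2 ⊢
      have hj1 : j ≠ 0 := by
        rintro rfl
        rw [pow_zero, orderOf_eq_one_iff] at hj
        exact hx1 hj
      have hj2 : j < 2 := by
        by_contra hcon
        have : 2 ^ 2 ≤ 2 ^ j := Nat.pow_le_pow_right (by norm_num) (by omega)
        omega
      have : j = 1 := by omega
      rw [this, pow_one]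
    have hQel : ∀ (Q : Sylow 3 G) (x : G), x ∈ Q → x ^ 3 = 1 := by
      intro Q x hx
      obtain ⟨k, hk⟩ := Q.isPGroup' ⟨x, hx⟩
      have hk' : x ^ 3 ^ k = 1 := congrArg Subtype.val hk
      have h1 : orderOf x ∣ 3 ^ k := orderOf_dvd_of_pow_eq_one hk'
      obtain ⟨j, -, hj⟩ := (Nat.dvd_prime_pow Nat.prime_three).mp h1
      have h2 := ord_le h x
      rw [hj] at h2
      have hj2 : j < 2 := by
        by_contra hcon
        have : 3 ^ 2 ≤ 3 ^ j := Nat.pow_le_pow_right (by norm_num) (by omega)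
        omega
      have h3 : orderOf x ∣ 3 := by
        rw [hj]
        interval_cases j
        · exact one_dvd _
        · exact dvd_refl _
      exact orderOf_dvd_iff_pow_eq_one.mp h3
    obtain ⟨P⟩ : Nonempty (Sylow 2 G) := inferInstance
    have hP2 : Nat.card P = 2 := by
      have h2P : 2 ∣ Nat.card P := P.dvd_card_of_dvd_card h2G
      by_contra hne
      have hlt : 2 < Nat.card P := by
        have := Nat.le_of_dvd Nat.card_pos h2P
        omega
      haveI : Fintype P := Fintype.ofFinite P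
      rw [Nat.card_eq_fintype_card] at hlt
      obtain ⟨a, b, c, hab, hac, hbc⟩ := Fintype.two_lt_card_iff.mp hlt
      have hs1 : ((a⁻¹ * b : P) : G) ≠ 1 := by
        intro hh
        have : a⁻¹ * b = 1 := Subtype.ext hh
        exact hab (inv_mul_eq_one.mp this)
      have ht1 : ((a⁻¹ * c : P) : G) ≠ 1 := by
        intro hh
        have : a⁻¹ * c = 1 := Subtype.ext hh
        exact hac (inv_mul_eq_one.mp this)
      have hs := hPel P _ (a⁻¹ * b : P).2 hs1
      have ht := hPel P _ (a⁻¹ * c : P).2 ht1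
      have hst1 : ((a⁻¹ * b : P) : G) * ((a⁻¹ * c : P) : G) ≠ 1 := by
        intro hh
        have h1 : ((a⁻¹ * b : P) : G) = ((a⁻¹ * c : P) : G)⁻¹ := eq_inv_of_mul_eq_one_left hh
        rw [inv_eq_of_mul_eq_one_right (sq_of_order_two _ ht)] at h1
        have h2 : a⁻¹ * b = a⁻¹ * c := Subtype.ext h1
        exact hbc (mul_left_cancel h2)
      have hst := hPel P _ (P.mul_mem (a⁻¹ * b : P).2 (a⁻¹ * c : P).2) hst1
      exact no_klein h V hVc hVp hV _ _ hs ht hst
    obtain ⟨Q⟩ : Nonempty (Sylow 3 G) := inferInstance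
    have ht0Q : t0 ∉ (Q : Subgroup G) := by
      intro hh
      have h1 := hQel Q t0 hh
      have h2 : orderOf t0 ∣ 3 := orderOf_dvd_of_pow_eq_one h1
      rw [ht0] at h2
      revert h2; decide
    have hQi : (Q : Subgroup G).index = 2 := by
      have h1 : (Q : Subgroup G).index ∣ Nat.card G := Subgroup.index_dvd_card _
      have h2 : ¬ 3 ∣ (Q : Subgroup G).index := Q.not_dvd_index
      have h3 : (Q : Subgroup G).index ≠ 0 := Subgroup.FiniteIndex.index_ne_zero
      have h4 := Nat.eq_prime_pow_of_unique_prime_dvd (p := 2) h3 (by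
        intro d hd hdd
        rcases prime_dvd h d hd (hdd.trans h1) with h5 | h5
        · exact h5
        · exfalso; rw [h5] at hdd; exact h2 hdd)
      have h5 : 2 ^ (Q : Subgroup G).index.primeFactorsList.length ∣ Nat.card P := by
        apply P.pow_dvd_card_of_pow_dvd_card
        rw [← h4]; exact h1
      rw [hP2] at h5
      have h6 : (Q : Subgroup G).index ≠ 1 := by
        intro hh
        rw [Subgroup.index_eq_one] at hh
        apply ht0Q
        rw [hh]; exact Subgroup.mem_top _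
      have h7 := Nat.le_of_dvd (by norm_num) h5
      rw [← h4] at h7
      have h8 : 0 < (Q : Subgroup G).index := Nat.pos_of_ne_zero h3
      omega
    have hinv : ∀ q ∈ (Q : Subgroup G), t0 * q * t0⁻¹ = q⁻¹ := by
      intro q hq
      have ht2 : t0 * t0 = 1 := sq_of_order_two t0 ht0
      have htinv : t0⁻¹ = t0 := inv_eq_of_mul_eq_one_right ht2
      have h1 : t0 * q ∉ (Q : Subgroup G) := by
        intro hh
        apply ht0Q
        have : t0 = (t0 * q) * q⁻¹ := by group
        rw [this]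
        exact mul_mem hh (inv_mem hq)
      have h2 : (t0 * q) ^ 2 ∈ (Q : Subgroup G) := Subgroup.sq_mem_of_index_two hQi _
      have h3 := ord_le h (t0 * q)
      have h4 : orderOf (t0 * q) ≠ 1 := by
        rw [Ne, orderOf_eq_one_iff]
        intro hh
        apply h1; rw [hh]; exact one_mem _
      have h5 : orderOf (t0 * q) ≠ 3 := by
        intro hh
        have h6 : (t0 * q) ^ 3 = 1 := by rw [← hh]; exact pow_orderOf_eq_one _
        apply h1
        have h7 : t0 * q = (t0 * q) ^ 3 * ((t0 * q) ^ 2)⁻¹ := by group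
        rw [h7, h6, one_mul]
        exact inv_mem h2
      have h6 : orderOf (t0 * q) = 2 := by omega
      have h7 := sq_of_order_two _ h6
      have h8 : t0 * q * t0 = q⁻¹ := by
        have : t0 * q * t0 * q = 1 := by rw [← h7]; group
        exact eq_inv_of_mul_eq_one_left this
      rw [htinv]
      exact h8
    refine ⟨(Q : Subgroup G), Subgroup.normal_of_index_eq_two hQi, ⟨⟨⟨fun a b => Subtype.ext ?_⟩⟩,
      hQel Q⟩, hQi⟩
    have h1 := hinv _ (mul_mem a.2 b.2)
    have h2 := hinv _ a.2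
    have h3 := hinv _ b.2
    have h4 : t0 * ((a : G) * b) * t0⁻¹ = (t0 * a * t0⁻¹) * (t0 * b * t0⁻¹) := by group
    rw [h4, h2, h3, mul_inv_rev] at h1
    have h5 : ((a : G)⁻¹ * (b : G)⁻¹)⁻¹ = ((b : G)⁻¹ * (a : G)⁻¹)⁻¹ := by rw [h1]
    rw [mul_inv_rev, mul_inv_rev, inv_inv, inv_inv] at h5
    exact h5.symm

end Cfsg.Agent.S4005
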