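import Cfsg.Statements.S4200
import Mathlib
import Cfsg.Agent.Lib.Helper7.ClassCount

set_option autoImplicit false
open Cfsg

namespace Cfsg.Agent.S4200

open Cfsg.Agent.Lib.Helper7

theorem cardA {X : Type*} [Group X] (x : X) :
    Nat.card {b : X // Commute x b} = Nat.card (Subgroup.centralizer ({x} : Set X)) := by
  apply Nat.card_congr
  exact Equiv.subtypeEquivRight (fun b => by
    rw [Subgroup.mem_centralizer_singleton_iff, commute_iff_eq, eq_comm])

theorem cardB {X : Type*} [Group X] (Y : Subgroup X) (x : X) :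
    Nat.card {b : Y // Commute x (b : X)} = Nat.card (Subgroup.centralizer ({x} : Set X) ⊓ Y : Subgroup X) := by
  apply Nat.card_congr
  exact
    { toFun := fun b => ⟨(b.1 : X), Subgroup.mem_inf.mpr ⟨by
        rw [Subgroup.mem_centralizer_singleton_iff]; exact b.2.eq.symm, b.1.2⟩⟩
      invFun := fun c => ⟨⟨c.1, (Subgroup.mem_inf.mp c.2).2⟩, by
        have := (Subgroup.mem_inf.mp c.2).1
        rw [Subgroup.mem_centralizer_singleton_iff] at this
        exact this.symm⟩
      left_inv := fun b => rfl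
      right_inv := fun c => rfl }

theorem L1 {X : Type*} [Group X] [Finite X] (Y : Subgroup X) (x : X) :
    Nat.card {b : X // Commute x b} ≤ Y.index * Nat.card {b : Y // Commute x (b : X)} := by
  rw [cardA, cardB]
  exact card_le_index_mul_card_inf _ _

theorem L2 {X : Type*} [Group X] [Finite X] (Y : Subgroup X) (x : X)
    (h : Nat.card {b : X // Commute x b} = Y.index * Nat.card {b : Y // Commute x (b : X)}) (g : X) :
    ∃ c : X, Commute x c ∧ c⁻¹ * g ∈ Y := by
  rw [cardA, cardB] at h
  obtain ⟨c, hc, hcg⟩ := exists_mul_of_card_eq _ _ h g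
  rw [Subgroup.mem_centralizer_singleton_iff] at hc
  exact ⟨c, hc.symm, hcg⟩

/-- Let Y be a subgroup of the finite group X, of index m. Then the numbers of conjugacy classes satisfy k(Y) ≤ m·k(X) and k(X) ≤ m·k(Y), and the second inequality is strict unless Y is normal in X. -/
theorem result {X : Type*} [Group X] [Finite X] (Y : Subgroup X) : Nat.card (ConjClasses Y) ≤ Y.index * Nat.card (ConjClasses X) ∧ Nat.card (ConjClasses X) ≤ Y.index * Nat.card (ConjClasses Y) ∧ (¬ Y.Normal → Nat.card (ConjClasses X) < Y.index * Nat.card (ConjClasses Y)) := by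
  classical
  have : Fintype X := Fintype.ofFinite X
  have : Fintype Y := Fintype.ofFinite Y
  have hX := card_comm_eq_card_conjClasses_mul_card X
  have hY := card_comm_eq_card_conjClasses_mul_card Y
  have hidx : Nat.card Y * Y.index = Nat.card X := Subgroup.card_mul_index Y
  have hm : 0 < Y.index := Nat.pos_of_ne_zero Subgroup.index_ne_zero_of_finite
  have hYpos : 0 < Nat.card Y := Nat.card_pos
  -- sums
  have sX : Nat.card {p : X × X // Commute p.1 p.2} = ∑ x : X, Nat.card {b : X // Commute x b} :=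
    card_pairs_eq_sum _
  have sT1 : Nat.card {p : X × Y // Commute p.1 (p.2 : X)} = ∑ x : X, Nat.card {b : Y // Commute x (b : X)} :=
    card_pairs_eq_sum (fun (x : X) (b : Y) => Commute x (b : X))
  have sT2 : Nat.card {p : X × Y // Commute p.1 (p.2 : X)} = ∑ y : Y, Nat.card {b : X // Commute (y : X) b} := by
    rw [card_pairs_eq_sum' (fun (x : X) (b : Y) => Commute x (b : X))]
    apply Finset.sum_congr rfl
    intro y _
    apply Nat.card_congr
    exact Equiv.subtypeEquivRight (fun a => ⟨fun h => h.symm, fun h => h.symm⟩)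
  have sY : Nat.card {p : Y × Y // Commute p.1 p.2} = ∑ y : Y, Nat.card {b : Y // Commute (y : X) (b : X)} := by
    rw [card_pairs_eq_sum (fun (a b : Y) => Commute a b)]
    apply Finset.sum_congr rfl
    intro y _
    apply Nat.card_congr
    exact Equiv.subtypeEquivRight (fun b => by
      rw [commute_iff_eq, commute_iff_eq, ← Subgroup.coe_mul, ← Subgroup.coe_mul, Subtype.ext_iff])
  have ineq1 : Nat.card {p : X × X // Commute p.1 p.2} ≤ Y.index * Nat.card {p : X × Y // Commute p.1 (p.2 : X)} := by
    rw [sX, sT1, Finset.mul_sum]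
    exact Finset.sum_le_sum (fun x _ => L1 Y x)
  have ineq2 : Nat.card {p : X × Y // Commute p.1 (p.2 : X)} ≤ Y.index * Nat.card {p : Y × Y // Commute p.1 p.2} := by
    rw [sT2, sY, Finset.mul_sum]
    exact Finset.sum_le_sum (fun y _ => L1 Y (y : X))
  refine ⟨?_, ?_, ?_⟩
  · have hinj : Nat.card {p : Y × Y // Commute p.1 p.2} ≤ Nat.card {p : X × X // Commute p.1 p.2} := by
      apply Nat.card_le_card_of_injective
        (fun p : {p : Y × Y // Commute p.1 p.2} => (⟨((p.1.1 : X), (p.1.2 : X)), by
          have := p.2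
          rw [commute_iff_eq] at this ⊢
          rw [← Subgroup.coe_mul, ← Subgroup.coe_mul, this]⟩ : {p : X × X // Commute p.1 p.2}))
      intro p q hpq
      have h1 := congrArg (fun z : {p : X × X // Commute p.1 p.2} => z.1.1) hpq
      have h2 := congrArg (fun z : {p : X × X // Commute p.1 p.2} => z.1.2) hpq
      simp only at h1 h2
      exact Subtype.ext (Prod.ext (Subtype.ext h1) (Subtype.ext h2))
    rw [hX, hY, ← hidx] at hinj
    have h3 : Nat.card (ConjClasses Y) * Nat.card Y ≤ (Y.index * Nat.card (ConjClasses X)) * Nat.card Y := by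
      calc Nat.card (ConjClasses Y) * Nat.card Y ≤ Nat.card (ConjClasses X) * (Nat.card Y * Y.index) := hinj
        _ = (Y.index * Nat.card (ConjClasses X)) * Nat.card Y := by ring
    exact Nat.le_of_mul_le_mul_right h3 hYpos
  · have h1 : Nat.card {p : X × X // Commute p.1 p.2} ≤ Y.index * (Y.index * Nat.card {p : Y × Y // Commute p.1 p.2}) :=
      ineq1.trans (Nat.mul_le_mul_left _ ineq2)
    rw [hX, hY, ← hidx] at h1
    have h3 : Nat.card (ConjClasses X) * (Nat.card Y * Y.index) ≤ (Y.index * Nat.card (ConjClasses Y)) * (Nat.card Y * Y.index) := by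
      calc Nat.card (ConjClasses X) * (Nat.card Y * Y.index) ≤ Y.index * (Y.index * (Nat.card (ConjClasses Y) * Nat.card Y)) := h1
        _ = (Y.index * Nat.card (ConjClasses Y)) * (Nat.card Y * Y.index) := by ring
    exact Nat.le_of_mul_le_mul_right h3 (Nat.mul_pos hYpos hm)
  · intro hnormal
    have hex : ∃ y : Y, Nat.card {b : X // Commute (y : X) b} < Y.index * Nat.card {b : Y // Commute (y : X) (b : X)} := by
      by_contra hcon
      push Not at hcon
      apply hnormal
      constructor
      intro y hy g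
      have heq := le_antisymm (L1 Y y) (hcon ⟨y, hy⟩)
      obtain ⟨c, hc, hcg⟩ := L2 Y y heq g⁻¹
      have h1 : g = (c⁻¹ * g⁻¹)⁻¹ * c⁻¹ := by group
      have h2 : g * y * g⁻¹ = (c⁻¹ * g⁻¹)⁻¹ * y * (c⁻¹ * g⁻¹) := by
        have hc' : c⁻¹ * y * c = y := by
          rw [mul_assoc, hc.eq, inv_mul_cancel_left]
        calc g * y * g⁻¹ = (c⁻¹ * g⁻¹)⁻¹ * (c⁻¹ * y * c) * (c⁻¹ * g⁻¹) := by group
          _ = _ := by rw [hc']
      rw [h2]
      exact Y.mul_mem (Y.mul_mem (Y.inv_mem hcg) hy) hcg
    obtain ⟨y₀, hy₀⟩ := hex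
    have ineq2' : Nat.card {p : X × Y // Commute p.1 (p.2 : X)} < Y.index * Nat.card {p : Y × Y // Commute p.1 p.2} := by
      rw [sT2, sY, Finset.mul_sum]
      exact Finset.sum_lt_sum (fun y _ => L1 Y (y : X)) ⟨y₀, Finset.mem_univ _, hy₀⟩
    have h1 : Nat.card {p : X × X // Commute p.1 p.2} < Y.index * (Y.index * Nat.card {p : Y × Y // Commute p.1 p.2}) :=
      lt_of_le_of_lt ineq1 (Nat.mul_lt_mul_of_pos_left ineq2' hm)
    rw [hX, hY, ← hidx] at h1
    have h3 : Nat.card (ConjClasses X) * (Nat.card Y * Y.index) < (Y.index * Nat.card (ConjClasses Y)) * (Nat.card Y * Y.index) := by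
      calc Nat.card (ConjClasses X) * (Nat.card Y * Y.index) < Y.index * (Y.index * (Nat.card (ConjClasses Y) * Nat.card Y)) := h1
        _ = (Y.index * Nat.card (ConjClasses Y)) * (Nat.card Y * Y.index) := by ring
    exact Nat.lt_of_mul_lt_mul_right h3

end Cfsg.Agent.S4200
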