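import Cfsg.Statements.S4201
import Mathlib
import Cfsg.Agent.Lib.Helper7.ClassCount

set_option autoImplicit false
open Cfsg

namespace Cfsg.Agent.S4201

open Cfsg.Agent.Lib.Helper7

/-- `|C_X(x)| ≤ |C_{X/N}(xN)| * |C_N(x)|`. -/
theorem L3 {X : Type*} [Group X] [Finite X] (N : Subgroup X) [N.Normal] (x : X) :
    Nat.card {b : X // Commute x b} ≤
      Nat.card {r : X ⧸ N // Commute (x : X ⧸ N) r} * Nat.card {n : N // Commute x (n : X)} := by
  have hA : Nat.card {b : X // Commute x b} = Nat.card (Subgroup.centralizer ({x} : Set X)) := by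
    apply Nat.card_congr
    exact Equiv.subtypeEquivRight (fun b => by
      rw [Subgroup.mem_centralizer_singleton_iff, commute_iff_eq, eq_comm])
  rw [hA]
  let f : Subgroup.centralizer ({x} : Set X) →* X ⧸ N :=
    (QuotientGroup.mk' N).comp (Subgroup.centralizer ({x} : Set X)).subtype
  have h1 : Nat.card f.ker * Nat.card f.range = Nat.card (Subgroup.centralizer ({x} : Set X)) := by
    rw [← Subgroup.index_ker f]; exact Subgroup.card_mul_index f.ker
  have h2 : Nat.card f.range ≤ Nat.card {r : X ⧸ N // Commute (x : X ⧸ N) r} := by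
    apply Nat.card_le_card_of_injective (fun r : f.range => (⟨r.1, by
      obtain ⟨c, hc⟩ := r.2
      rw [← hc]
      have hcx := Subgroup.mem_centralizer_singleton_iff.mp c.2
      show Commute (x : X ⧸ N) (((c : X) : X ⧸ N))
      rw [commute_iff_eq, ← QuotientGroup.mk_mul, ← QuotientGroup.mk_mul, hcx]⟩ :
        {r : X ⧸ N // Commute (x : X ⧸ N) r}))
    intro a b hab
    have h5 := congrArg (fun z : {r : X ⧸ N // Commute (x : X ⧸ N) r} => (z : X ⧸ N)) hab
    exact Subtype.ext h5
  have h3 : Nat.card f.ker ≤ Nat.card {n : N // Commute x (n : X)} := by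
    apply Nat.card_le_card_of_injective (fun c : f.ker => (⟨⟨((c : Subgroup.centralizer ({x} : Set X)) : X), by
      have hc := c.2
      rw [MonoidHom.mem_ker] at hc
      exact (QuotientGroup.eq_one_iff _).mp hc⟩, by
      have hcx := Subgroup.mem_centralizer_singleton_iff.mp (c : Subgroup.centralizer ({x} : Set X)).2
      exact hcx.symm⟩ : {n : N // Commute x (n : X)}))
    intro a b hab
    have h4 := congrArg (fun z : {n : N // Commute x (n : X)} => ((z : N) : X)) hab
    exact Subtype.ext (Subtype.ext h4)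
  rw [← h1, mul_comm]
  exact Nat.mul_le_mul h2 h3

/-- The elements of a coset of `N` commuting with `n ∈ N` are at most `|C_N(n)|` many. -/
theorem L4a {X : Type*} [Group X] [Finite X] (N : Subgroup X) [N.Normal] (q : X ⧸ N) (n : N) :
    Nat.card {x : {x : X // (x : X ⧸ N) = q} // Commute (x : X) (n : X)} ≤
      Nat.card {m : N // Commute m n} := by
  rcases isEmpty_or_nonempty {x : {x : X // (x : X ⧸ N) = q} // Commute (x : X) (n : X)} with he | ⟨⟨⟨x₀, hx₀q⟩, hx₀⟩⟩
  · rw [Nat.card_of_isEmpty]; exact Nat.zero_le _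
  · apply Nat.card_le_card_of_injective
      (fun x : {x : {x : X // (x : X ⧸ N) = q} // Commute (x : X) (n : X)} =>
        (⟨⟨x₀⁻¹ * ((x : {x : X // (x : X ⧸ N) = q}) : X), by
          rw [← QuotientGroup.eq, hx₀q, (x : {x : X // (x : X ⧸ N) = q}).2]⟩, by
          have hx := x.2
          rw [commute_iff_eq, Subtype.ext_iff, Subgroup.coe_mul, Subgroup.coe_mul]
          show x₀⁻¹ * ((x : {x : X // (x : X ⧸ N) = q}) : X) * (n : X) = (n : X) * (x₀⁻¹ * ((x : {x : X // (x : X ⧸ N) = q}) : X))
          rw [mul_assoc, hx.eq, ← mul_assoc, ← mul_assoc]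
          congr 1
          have := hx₀.eq
          calc x₀⁻¹ * (n : X) = x₀⁻¹ * ((n : X) * x₀) * x₀⁻¹ := by group
            _ = x₀⁻¹ * (x₀ * (n : X)) * x₀⁻¹ := by rw [this]
            _ = (n : X) * x₀⁻¹ := by group⟩ : {m : N // Commute m n}))
    intro a b hab
    have h1 := congrArg (fun z : {m : N // Commute m n} => ((z : N) : X)) hab
    have h2 : ((a : {x : X // (x : X ⧸ N) = q}) : X) = ((b : {x : X // (x : X ⧸ N) = q}) : X) :=
      mul_left_cancel h1
    exact Subtype.ext (Subtype.ext h2)

theorem L4 {X : Type*} [Group X] [Finite X] (N : Subgroup X) [N.Normal] (q : X ⧸ N)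
    [Fintype {x : X // (x : X ⧸ N) = q}] :
    ∑ x : {x : X // (x : X ⧸ N) = q}, Nat.card {n : N // Commute (x : X) (n : X)} ≤
      Nat.card {p : N × N // Commute p.1 p.2} := by
  classical
  have : Fintype N := Fintype.ofFinite N
  rw [← card_pairs_eq_sum (fun (x : {x : X // (x : X ⧸ N) = q}) (n : N) => Commute (x : X) (n : X)),
    card_pairs_eq_sum' (fun (x : {x : X // (x : X ⧸ N) = q}) (n : N) => Commute (x : X) (n : X)),
    card_pairs_eq_sum' (fun (m n : N) => Commute m n)]
  exact Finset.sum_le_sum (fun n _ => L4a N q n)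

/-- If N is a normal subgroup of the finite group X then k(X) ≤ k(N)·k(X ⧸ N), where k denotes the number of conjugacy classes. -/
theorem result {X : Type*} [Group X] [Finite X] (N : Subgroup X) [N.Normal] : Nat.card (ConjClasses X) ≤ Nat.card (ConjClasses N) * Nat.card (ConjClasses (X ⧸ N)) := by
  classical
  have : Fintype X := Fintype.ofFinite X
  have : Fintype (X ⧸ N) := Fintype.ofFinite _
  have hX := card_comm_eq_card_conjClasses_mul_card X
  have hN := card_comm_eq_card_conjClasses_mul_card N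
  have hQ := card_comm_eq_card_conjClasses_mul_card (X ⧸ N)
  have hcard := Subgroup.card_eq_card_quotient_mul_card_subgroup N
  have sX : Nat.card {p : X × X // Commute p.1 p.2} = ∑ x : X, Nat.card {b : X // Commute x b} :=
    card_pairs_eq_sum _
  have sQ : Nat.card {p : (X ⧸ N) × (X ⧸ N) // Commute p.1 p.2} = ∑ q : X ⧸ N, Nat.card {r : X ⧸ N // Commute q r} :=
    card_pairs_eq_sum _
  have key : Nat.card {p : X × X // Commute p.1 p.2} ≤
      Nat.card {p : (X ⧸ N) × (X ⧸ N) // Commute p.1 p.2} * Nat.card {p : N × N // Commute p.1 p.2} := by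
    rw [sX, sQ, Finset.sum_mul]
    calc ∑ x : X, Nat.card {b : X // Commute x b}
        ≤ ∑ x : X, Nat.card {r : X ⧸ N // Commute (x : X ⧸ N) r} * Nat.card {n : N // Commute x (n : X)} :=
          Finset.sum_le_sum (fun x _ => L3 N x)
      _ = ∑ s : (Σ q : X ⧸ N, {x : X // (x : X ⧸ N) = q}),
            Nat.card {r : X ⧸ N // Commute ((s.2 : X) : X ⧸ N) r} * Nat.card {n : N // Commute (s.2 : X) (n : X)} := by
          symm
          exact Fintype.sum_equiv (Equiv.sigmaFiberEquiv (fun x : X => (x : X ⧸ N))) _ _ (fun s => rfl)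
      _ = ∑ q : X ⧸ N, ∑ x : {x : X // (x : X ⧸ N) = q},
            Nat.card {r : X ⧸ N // Commute ((x : X) : X ⧸ N) r} * Nat.card {n : N // Commute (x : X) (n : X)} :=
          Fintype.sum_sigma _
      _ = ∑ q : X ⧸ N, Nat.card {r : X ⧸ N // Commute q r} * ∑ x : {x : X // (x : X ⧸ N) = q},
            Nat.card {n : N // Commute (x : X) (n : X)} := by
          apply Finset.sum_congr rfl
          intro q _
          rw [Finset.mul_sum]
          apply Finset.sum_congr rfl
          intro x _
          rw [x.2]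
      _ ≤ ∑ q : X ⧸ N, Nat.card {r : X ⧸ N // Commute q r} * Nat.card {p : N × N // Commute p.1 p.2} :=
          Finset.sum_le_sum (fun q _ => Nat.mul_le_mul_left _ (L4 N q))
  rw [hX, hN, hQ, hcard] at key
  have h3 : Nat.card (ConjClasses X) * (Nat.card (X ⧸ N) * Nat.card N) ≤
      (Nat.card (ConjClasses N) * Nat.card (ConjClasses (X ⧸ N))) * (Nat.card (X ⧸ N) * Nat.card N) := by
    calc Nat.card (ConjClasses X) * (Nat.card (X ⧸ N) * Nat.card N)
        ≤ Nat.card (ConjClasses (X ⧸ N)) * Nat.card (X ⧸ N) * (Nat.card (ConjClasses N) * Nat.card N) := key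
      _ = _ := by ring
  exact Nat.le_of_mul_le_mul_right h3 (Nat.mul_pos Nat.card_pos Nat.card_pos)

end Cfsg.Agent.S4201
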