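import Cfsg.Statements.S4203
import Mathlib
import Cfsg.Agent.Lib.Helper7.SylowIndex
import Cfsg.Agent.Lib.Helper7.PermSolvable
import Cfsg.Agent.Lib.Lead.MaxIndex

set_option autoImplicit false
open Cfsg

namespace Cfsg.Agent.S4203

open Cfsg.Agent.Lib.Helper7

universe u

/-- Number theory: a prime or prime square `t ≡ 1 mod p` with the prime `≤ p` must be `4`. -/
theorem num_aux (p q t : ℕ) (hp : p.Prime) (hq : q.Prime) (hqp : q ≤ p)
    (ht : t = q ∨ t = q ^ 2) (hmod : t ≡ 1 [MOD p]) : t = 4 := by
  have hp2 : 2 ≤ p := hp.two_le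
  have hq2 : 2 ≤ q := hq.two_le
  have h1 : t % p = 1 := by
    rw [Nat.ModEq] at hmod
    rw [hmod, Nat.mod_eq_of_lt (by omega)]
  rcases ht with rfl | rfl
  · exfalso
    rcases Nat.lt_or_ge t p with h | h
    · rw [Nat.mod_eq_of_lt h] at h1; omega
    · have : t = p := le_antisymm hqp h
      rw [this, Nat.mod_self] at h1; omega
  · have hqlt : q < p := by
      rcases Nat.lt_or_ge q p with h | h
      · exact h
      · exfalso
        have : q = p := le_antisymm hqp h
        rw [this, sq, Nat.mul_mod_left] at h1; omega
    have hdvd : p ∣ q ^ 2 - 1 := by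
      have h2 : 1 ≤ q ^ 2 := Nat.one_le_pow _ _ (by omega)
      exact (Nat.modEq_iff_dvd' h2).mp hmod.symm
    have hfac : q ^ 2 - 1 = (q - 1) * (q + 1) := by
      zify [Nat.one_le_pow 2 q (by omega), (by omega : 1 ≤ q)]
      ring
    rw [hfac] at hdvd
    rcases (Nat.Prime.dvd_mul hp).mp hdvd with h | h
    · exfalso
      have := Nat.le_of_dvd (by omega) h
      omega
    · have h3 := Nat.le_of_dvd (by omega) h
      have h4 : p = q + 1 := by omega
      rcases Nat.even_or_odd q with he | ho
      · have hq2' := (Nat.Prime.even_iff hq).mp he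
        rw [hq2']
        norm_num
      · exfalso
        have h5 : 2 ∣ p := by
          rw [h4]
          obtain ⟨k, hk⟩ := ho
          exact ⟨k + 1, by omega⟩
        rcases (Nat.Prime.eq_one_or_self_of_dvd hp 2 h5) with h6 | h6 <;> omega

theorem aux : ∀ (n : ℕ) (G : Type u) [Group G] [Finite G], Nat.card G = n →
    (∀ M : Subgroup G, IsCoatom M → ∃ p : ℕ, p.Prime ∧ (M.index = p ∨ M.index = p ^ 2)) →
    Group.IsSolvable G := by
  intro n
  induction n using Nat.strong_induction_on with
  | _ n ih =>
  intro G _ _ hn h
  by_cases hG : (⊥ : Subgroup G) = ⊤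
  · apply Group.isSolvable_of_comm
    intro a b
    have ha : a ∈ (⊥ : Subgroup G) := by rw [hG]; exact Subgroup.mem_top a
    have hb : b ∈ (⊥ : Subgroup G) := by rw [hG]; exact Subgroup.mem_top b
    rw [Subgroup.mem_bot] at ha hb
    rw [ha, hb]
  obtain ⟨N, hNn, hNbot, hNmin⟩ := Cfsg.Agent.Lib.Lead.exists_minimal_normal hG
  haveI := hNn
  -- the quotient is solvable
  have hquot : Group.IsSolvable (G ⧸ N) := by
    have hcard : Nat.card (G ⧸ N) < n := by
      rw [← hn, Subgroup.card_eq_card_quotient_mul_card_subgroup N]
      have h1 : 1 < Nat.card N := (Subgroup.one_lt_card_iff_ne_bot N).mpr hNbot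
      have h2 : 0 < Nat.card (G ⧸ N) := Nat.card_pos
      nlinarith
    apply ih (Nat.card (G ⧸ N)) hcard (G ⧸ N) rfl
    intro M hM
    have hs := QuotientGroup.mk'_surjective N
    have h1 := h (M.comap (QuotientGroup.mk' N)) (Subgroup.isCoatom_comap_of_surjective hs hM)
    rw [Subgroup.index_comap_of_surjective _ hs] at h1
    exact h1
  -- the minimal normal subgroup is solvable
  have hNsolv : Group.IsSolvable N := by
    have hcardN : 1 < Nat.card N := (Subgroup.one_lt_card_iff_ne_bot N).mpr hNbot
    have hne : (Nat.card N).primeFactors.Nonempty := by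
      rw [Nat.nonempty_primeFactors]; exact hcardN
    set p := (Nat.card N).primeFactors.max' hne with hpdef
    have hpmem : p ∈ (Nat.card N).primeFactors := Finset.max'_mem _ hne
    have hp : p.Prime := Nat.prime_of_mem_primeFactors hpmem
    have hpdvd : p ∣ Nat.card N := Nat.dvd_of_mem_primeFactors hpmem
    have hpmax : ∀ q : ℕ, q.Prime → q ∣ Nat.card N → q ≤ p := by
      intro q hq hqd
      apply Finset.le_max'
      exact Nat.mem_primeFactors.mpr ⟨hq, hqd, Nat.card_pos.ne'⟩
    haveI : Fact p.Prime := ⟨hp⟩
    obtain Q : Sylow p N := default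
    have hfrat := Sylow.normalizer_sup_eq_top Q
    have hQN : (Q : Subgroup N).map N.subtype ≤ N := by
      rintro x ⟨y, -, rfl⟩
      exact y.2
    have hQcard : Nat.card ((Q : Subgroup N).map N.subtype) = Nat.card (Q : Subgroup N) :=
      (Nat.card_congr ((Q : Subgroup N).equivMapOfInjective N.subtype
        N.subtype_injective).toEquiv).symm
    have hQp : IsPGroup p ((Q : Subgroup N).map N.subtype) := Q.2.map N.subtype
    have hQne : (Q : Subgroup N).map N.subtype ≠ ⊥ := by
      intro hbot
      have h1 : Nat.card ((Q : Subgroup N).map N.subtype) = 1 := by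
        rw [hbot]; exact Subgroup.card_bot
      rw [hQcard, Q.card_eq_multiplicity] at h1
      have h2 : 1 ≤ (Nat.card N).factorization p :=
        (Nat.Prime.dvd_iff_one_le_factorization hp Nat.card_pos.ne').mp hpdvd
      have h3 : p ^ 1 ≤ p ^ (Nat.card N).factorization p := Nat.pow_le_pow_right hp.pos h2
      rw [pow_one] at h3
      have := hp.two_le
      omega
    by_cases hnorm : Subgroup.normalizer (((Q : Subgroup N).map N.subtype : Subgroup G) : Set G) = ⊤
    · have hQnormal : ((Q : Subgroup N).map N.subtype).Normal :=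
        Subgroup.normalizer_eq_top_iff.mp hnorm
      rcases hNmin _ hQnormal hQN with h1 | h1
      · exact absurd h1 hQne
      · have h2 : Nat.card N = p ^ (Nat.card N).factorization p := by
          rw [← Q.card_eq_multiplicity, ← hQcard, h1]
        exact Cfsg.Agent.Lib.Lead.isSolvable_of_card_prime_pow hp h2
    · obtain ⟨M, hMco, hMle⟩ := (eq_top_or_exists_le_coatom _).resolve_left hnorm
      have hMN : M ⊔ N = ⊤ := by
        rw [eq_top_iff, ← hfrat]
        exact sup_le_sup_right hMle N
      have hNM : ¬ N ≤ M := by
        intro hle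
        rw [sup_of_le_left hle] at hMN
        exact hMco.1 hMN
      -- index of M
      have hidx : M.index = M.relIndex N := by
        have h1 := relIndex_sup_eq_of_le_normalizer M N Subgroup.le_normalizer_of_normal
        rw [hMN, Subgroup.relIndex_top_right] at h1
        exact h1
      have hidx1 : M.index ≠ 1 := by
        rw [Ne, Subgroup.index_eq_one]; exact hMco.1
      -- Sylow counting
      have hQMN : (Q : Subgroup N).map N.subtype ≤ M ⊓ N :=
        le_inf (Subgroup.le_normalizer.trans hMle) hQN
      have hrelN : ¬ p ∣ ((Q : Subgroup N).map N.subtype).relIndex N := by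
        have h1 := card_inf_mul_relIndex ((Q : Subgroup N).map N.subtype) N
        rw [inf_of_le_left hQN, hQcard, Q.card_eq_multiplicity] at h1
        intro hdvd
        obtain ⟨v, hv⟩ : ∃ v, v = (Nat.card N).factorization p := ⟨_, rfl⟩
        rw [← hv] at h1
        have h2 : p ^ (v + 1) ∣ Nat.card N := by
          rw [pow_succ, ← h1]
          exact Nat.mul_dvd_mul_left _ hdvd
        rw [hv] at h2
        exact Nat.pow_succ_factorization_not_dvd Nat.card_pos.ne' hp h2
      have hrelMN : ¬ p ∣ ((Q : Subgroup N).map N.subtype).relIndex (M ⊓ N) := by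
        intro hdvd
        apply hrelN
        rw [← Subgroup.relIndex_mul_relIndex _ _ _ hQMN (inf_le_right : M ⊓ N ≤ N)]
        exact Dvd.dvd.mul_right hdvd _
      have c1 := card_sylow_subgroup_eq_relIndex p N _ hQN hQp hrelN
      have c2 := card_sylow_subgroup_eq_relIndex p (M ⊓ N) _ hQMN hQp hrelMN
      have m1 : Nat.card (Sylow p N) ≡ 1 [MOD p] := card_sylow_modEq_one p N
      have m2 : Nat.card (Sylow p (M ⊓ N : Subgroup G)) ≡ 1 [MOD p] :=
        card_sylow_modEq_one p _
      have hchain := Subgroup.relIndex_mul_relIndex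
        (H := Subgroup.normalizer (((Q : Subgroup N).map N.subtype : Subgroup G) : Set G) ⊓ N)
        (K := M ⊓ N) (L := N) (inf_le_inf_right N hMle) inf_le_right
      rw [Subgroup.inf_relIndex_right, Subgroup.inf_relIndex_right] at hchain
      have hstep : (Subgroup.normalizer (((Q : Subgroup N).map N.subtype : Subgroup G) : Set G)
          ⊓ N).relIndex (M ⊓ N) =
          (Subgroup.normalizer (((Q : Subgroup N).map N.subtype : Subgroup G) : Set G)).relIndex
            (M ⊓ N) := by
        rw [← Subgroup.inf_relIndex_right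
            (H := Subgroup.normalizer (((Q : Subgroup N).map N.subtype : Subgroup G) : Set G) ⊓ N),
          ← Subgroup.inf_relIndex_right
            (H := Subgroup.normalizer (((Q : Subgroup N).map N.subtype : Subgroup G) : Set G))]
        congr 1
        rw [inf_assoc]
        congr 1
        exact inf_of_le_right inf_le_right
      rw [hstep, ← c1, ← c2, ← hidx] at hchain
      have hmod : M.index ≡ 1 [MOD p] := by
        have h1 : Nat.card (Sylow p (M ⊓ N : Subgroup G)) * M.index ≡
            Nat.card (Sylow p (M ⊓ N : Subgroup G)) * 1 [MOD p] := by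
          rw [hchain, mul_one]
          exact m1.trans m2.symm
        have hcop : Nat.Coprime p (Nat.card (Sylow p (M ⊓ N : Subgroup G))) := by
          rw [Nat.Prime.coprime_iff_not_dvd hp]
          intro hd
          have h2 := (Nat.modEq_zero_iff_dvd.mpr hd).symm.trans m2
          rw [Nat.ModEq, Nat.zero_mod, Nat.mod_eq_of_lt hp.one_lt] at h2
          omega
        exact Nat.ModEq.cancel_left_of_coprime hcop h1
      obtain ⟨q, hq, hqidx⟩ := h M hMco
      have hqdvd : q ∣ Nat.card N := by
        have h1 : M.index ∣ Nat.card N := by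
          rw [hidx]; exact Subgroup.relIndex_dvd_card _ _
        rcases hqidx with h2 | h2
        · rw [h2] at h1; exact h1
        · rw [h2] at h1; exact (dvd_pow_self q (by norm_num)).trans h1
      have h4 : M.index = 4 := num_aux p q M.index hp hq (hpmax q hq hqdvd) hqidx hmod
      -- action on the four cosets
      haveI : Fintype (G ⧸ M) := Fintype.ofFinite _
      have hcard4 : Fintype.card (G ⧸ M) ≤ 4 := by
        rw [← Nat.card_eq_fintype_card]
        have : Nat.card (G ⧸ M) = M.index := rfl
        omega
      haveI := isSolvable_perm_of_card_le_four hcard4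
      have hker : N ⊓ (MulAction.toPermHom G (G ⧸ M)).ker = ⊥ := by
        have hnormal : (N ⊓ (MulAction.toPermHom G (G ⧸ M)).ker).Normal := inferInstance
        rcases hNmin _ hnormal inf_le_left with h1 | h1
        · exact h1
        · exfalso
          apply hNM
          have h2 : N ≤ (MulAction.toPermHom G (G ⧸ M)).ker := by
            rw [← h1]; exact inf_le_right
          rw [← Subgroup.normalCore_eq_ker] at h2
          exact h2.trans (Subgroup.normalCore_le M)
      apply Group.isSolvable_of_isSolvable_injective
        (f := (MulAction.toPermHom G (G ⧸ M)).comp N.subtype)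
      rw [← MonoidHom.ker_eq_bot_iff, eq_bot_iff]
      intro x hx
      rw [MonoidHom.mem_ker, MonoidHom.comp_apply] at hx
      have h5 : (x : G) ∈ N ⊓ (MulAction.toPermHom G (G ⧸ M)).ker := ⟨x.2, hx⟩
      rw [hker, Subgroup.mem_bot] at h5
      rw [Subgroup.mem_bot]
      exact Subtype.ext h5
  exact Cfsg.Agent.Lib.Lead.isSolvable_of_normal N hNsolv hquot

/-- A finite group in which every maximal subgroup has index a prime or the square of a prime is solvable. -/
theorem result {G : Type*} [Group G] [Finite G] (h : ∀ M : Subgroup G, IsCoatom M → ∃ p : ℕ, p.Prime ∧ (M.index = p ∨ M.index = p ^ 2)) : Group.IsSolvable G := by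
  exact aux _ G rfl h

end Cfsg.Agent.S4203
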