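import Cfsg.Statements.S4204
import Mathlib
import Cfsg.Agent.Lib.Helper7.Commutator

set_option autoImplicit false
open Cfsg

namespace Cfsg.Agent.S4204

open Cfsg.Agent.Lib.Helper7

/-- `⁅A ⊔ B, C⁆ ≤ N` for normal `N` follows from the two pieces. -/
theorem commutator_sup_le {G : Type*} [Group G] (N : Subgroup G) [N.Normal] (A B C : Subgroup G)
    (h1 : ⁅A, C⁆ ≤ N) (h2 : ⁅B, C⁆ ≤ N) : ⁅A ⊔ B, C⁆ ≤ N := by
  rw [← map_mk'_eq_bot_iff] at h1 h2 ⊢
  rw [Subgroup.map_commutator, Subgroup.commutator_eq_bot_iff_le_centralizer] at h1 h2 ⊢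
  rw [Subgroup.map_sup]
  exact sup_le h1 h2

theorem commutator_iSup_le {G : Type*} [Group G] (N : Subgroup G) [N.Normal] {ι : Sort*}
    (A : ι → Subgroup G) (C : Subgroup G) (h : ∀ i, ⁅A i, C⁆ ≤ N) : ⁅⨆ i, A i, C⁆ ≤ N := by
  rw [← map_mk'_eq_bot_iff, Subgroup.map_commutator, Subgroup.commutator_eq_bot_iff_le_centralizer,
    Subgroup.map_iSup]
  apply iSup_le
  intro i
  have := h i
  rw [← map_mk'_eq_bot_iff, Subgroup.map_commutator, Subgroup.commutator_eq_bot_iff_le_centralizer] at this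
  exact this

theorem lcs_normal {G : Type*} [Group G] (S : Subgroup G) [S.Normal] (n : ℕ) :
    (S.lowerCentralSeries n).Normal := by
  induction n with
  | zero => rw [Subgroup.lowerCentralSeries_zero]; infer_instance
  | succ n ih =>
    show (⁅S.lowerCentralSeries n, S⁆ : Subgroup G).Normal
    exact Subgroup.commutator_normal _ _

/-- `γ_i(S)` with `γ_0 = ⊤`, `γ_{i+1} = S.lowerCentralSeries i`. -/
def gam {G : Type*} [Group G] (S : Subgroup G) : ℕ → Subgroup G
  | 0 => ⊤
  | (i + 1) => S.lowerCentralSeries i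

theorem gam_normal {G : Type*} [Group G] (S : Subgroup G) [S.Normal] (i : ℕ) : (gam S i).Normal := by
  cases i with
  | zero => exact Subgroup.normal_top
  | succ i => exact lcs_normal S i

theorem gam_comm_self {G : Type*} [Group G] (S : Subgroup G) [S.Normal] (i : ℕ) :
    ⁅gam S i, S⁆ ≤ gam S (i + 1) := by
  cases i with
  | zero =>
    show ⁅(⊤ : Subgroup G), S⁆ ≤ S
    exact Subgroup.commutator_le_right _ _
  | succ i =>
    show ⁅S.lowerCentralSeries i, S⁆ ≤ ⁅S.lowerCentralSeries i, S⁆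
    exact le_rfl

theorem gam_comm_any {G : Type*} [Group G] (S : Subgroup G) [S.Normal] (i : ℕ) (X : Subgroup G) :
    ⁅gam S i, X⁆ ≤ gam S i := by
  have := gam_normal S i
  exact Subgroup.commutator_le_left _ _

theorem gam_eq_bot {G : Type*} [Group G] (S : Subgroup G) (c i : ℕ) (h : S.lowerCentralSeries c = ⊥)
    (hi : c + 1 ≤ i) : gam S i = ⊥ := by
  obtain ⟨k, rfl⟩ : ∃ k, i = k + 1 := ⟨i - 1, by omega⟩
  show S.lowerCentralSeries k = ⊥
  rw [eq_bot_iff, ← h]
  exact Subgroup.lowerCentralSeries_antitone S (by omega)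

theorem key {G : Type*} [Group G] (H K : Subgroup G) [H.Normal] [K.Normal] (n : ℕ) :
    (H ⊔ K).lowerCentralSeries n ≤
      ⨆ p : {p : ℕ × ℕ // p.1 + p.2 = n + 1}, gam H p.1.1 ⊓ gam K p.1.2 := by
  have hnH : ∀ i, (gam H i).Normal := gam_normal H
  have hnK : ∀ i, (gam K i).Normal := gam_normal K
  induction n with
  | zero =>
    show H ⊔ K ≤ _
    apply sup_le
    · refine le_iSup_of_le ⟨(1, 0), rfl⟩ ?_
      show H ≤ H ⊓ ⊤
      exact le_inf le_rfl le_top
    · refine le_iSup_of_le ⟨(0, 1), rfl⟩ ?_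
      show K ≤ ⊤ ⊓ K
      exact le_inf le_top le_rfl
  | succ n ih =>
    show ⁅(H ⊔ K).lowerCentralSeries n, H ⊔ K⁆ ≤ _
    refine (Subgroup.commutator_mono ih le_rfl).trans ?_
    have hN : (⨆ p : {p : ℕ × ℕ // p.1 + p.2 = n + 1 + 1}, gam H p.1.1 ⊓ gam K p.1.2).Normal :=
      Subgroup.iSup_normal _
    apply commutator_iSup_le
    rintro ⟨⟨i, j⟩, hij⟩
    simp only at hij
    show ⁅gam H i ⊓ gam K j, H ⊔ K⁆ ≤ _
    rw [Subgroup.commutator_comm]
    apply commutator_sup_le
    · rw [Subgroup.commutator_comm]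
      refine le_iSup_of_le ⟨(i + 1, j), by simp only; omega⟩ ?_
      apply le_inf
      · exact (Subgroup.commutator_mono inf_le_left le_rfl).trans (gam_comm_self H i)
      · exact (Subgroup.commutator_mono inf_le_right le_rfl).trans (gam_comm_any K j H)
    · rw [Subgroup.commutator_comm]
      refine le_iSup_of_le ⟨(i, j + 1), by simp only; omega⟩ ?_
      apply le_inf
      · exact (Subgroup.commutator_mono inf_le_left le_rfl).trans (gam_comm_any H i K)
      · exact (Subgroup.commutator_mono inf_le_right le_rfl).trans (gam_comm_self K j)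

/-- If `H` and `K` are normal subgroups of a finite group with `H` nilpotent of class at most `c` and `K` nilpotent of class at most `d` (the terms with index `c`, respectively `d`, of their lower central series are trivial, indices starting at `0`), then `HK` is nilpotent of class at most `c + d`. -/
theorem result {G : Type*} [Group G] [Finite G] (H K : Subgroup G) [H.Normal] [K.Normal] (c d : ℕ) (hH : H.lowerCentralSeries c = ⊥) (hK : K.lowerCentralSeries d = ⊥) : (H ⊔ K).lowerCentralSeries (c + d) = ⊥ := by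
  rw [eq_bot_iff]
  refine (key H K (c + d)).trans ?_
  apply iSup_le
  rintro ⟨⟨i, j⟩, hij⟩
  simp only at hij
  show gam H i ⊓ gam K j ≤ ⊥
  by_cases hi : c + 1 ≤ i
  · rw [gam_eq_bot H c i hH hi]; exact inf_le_left
  · rw [gam_eq_bot K d j hK (by omega)]; exact inf_le_right

end Cfsg.Agent.S4204
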