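import Cfsg.Statements.S4205
import Mathlib

set_option autoImplicit false
open Cfsg

namespace Cfsg.Agent.S4205

open scoped commutatorElement

theorem aux {G : Type*} [Group G] (H : Subgroup G) :
    ∀ i : ℕ, Subgroup.upperCentralSeries G i ≤ (fun K : Subgroup G => Subgroup.normalizer (K : Set G))^[i] H := by
  intro i
  induction i with
  | zero =>
    rw [Subgroup.upperCentralSeries_zero]
    exact bot_le
  | succ i ih =>
    rw [Function.iterate_succ_apply']
    intro x hx
    have hx' : x⁻¹ ∈ Subgroup.upperCentralSeries G (i + 1) := Subgroup.inv_mem _ hx
    rw [Subgroup.mem_upperCentralSeries_succ_iff] at hx hx'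
    rw [Subgroup.mem_normalizer_iff]
    intro h
    constructor
    · intro hh
      have h1 := ih (hx h)
      have h2 : x * h * x⁻¹ = ⁅x, h⁆ * h := by
        rw [commutatorElement_def]; group
      rw [h2]
      exact Subgroup.mul_mem _ h1 hh
    · intro hh
      have h1 := ih (hx' (x * h * x⁻¹))
      have h2 : h = ⁅x⁻¹, x * h * x⁻¹⁆ * (x * h * x⁻¹) := by
        rw [commutatorElement_def]; group
      rw [h2]
      exact Subgroup.mul_mem _ h1 hh

/-- In a finite group whose upper central series reaches the whole group at step `c` (nilpotent of class at most `c`), starting from any subgroup and taking normalizers `c` times reaches the whole group. -/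
theorem result {G : Type*} [Group G] [Finite G] (c : ℕ) (hG : Subgroup.upperCentralSeries G c = ⊤) (H : Subgroup G) : (fun K : Subgroup G => Subgroup.normalizer (K : Set G))^[c] H = ⊤ := by
  have := aux H c
  rw [hG] at this
  exact top_le_iff.mp this

end Cfsg.Agent.S4205
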