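import Cfsg.Statements.S4207
import Mathlib
import Cfsg.Agent.Lib.Helper7.PGroupGen

set_option autoImplicit false
open Cfsg

namespace Cfsg.Agent.S4207

open Cfsg.Agent.Lib.Helper7

/-- Automorphisms acting trivially modulo a normal subgroup `Φ` act freely on the lifts of a
tuple all of whose lifts generate. -/
theorem key {P : Type*} [Group P] [Finite P] (Φ : Subgroup P) [Φ.Normal] {r : ℕ} (x : Fin r → P)
    (hgen : ∀ y : Fin r → P, (∀ i, (x i)⁻¹ * y i ∈ Φ) → Subgroup.closure (Set.range y) = ⊤)
    (A : Subgroup (MulAut P)) (hA : ∀ α ∈ A, ∀ z : P, α z * z⁻¹ ∈ Φ) :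
    Nat.card A ∣ Nat.card Φ ^ r := by
  classical
  letI : MulAction A {y : Fin r → P // ∀ i, (x i)⁻¹ * y i ∈ Φ} :=
    { smul := fun α y => ⟨fun i => (α : MulAut P) (y.1 i), fun i => by
        have h1 := hA α α.2 (y.1 i)
        have h2 := y.2 i
        have h3 : (y.1 i)⁻¹ * ((α : MulAut P) (y.1 i)) ∈ Φ := by
          have h4 := ‹Φ.Normal›.conj_mem _ h1 (y.1 i)⁻¹
          have e : (y.1 i)⁻¹ * ((α : MulAut P) (y.1 i) * (y.1 i)⁻¹) * (y.1 i)⁻¹⁻¹ =
              (y.1 i)⁻¹ * ((α : MulAut P) (y.1 i)) := by group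
          rw [e] at h4; exact h4
        have e : (x i)⁻¹ * (α : MulAut P) (y.1 i) =
            ((x i)⁻¹ * y.1 i) * ((y.1 i)⁻¹ * (α : MulAut P) (y.1 i)) := by group
        rw [e]; exact Φ.mul_mem h2 h3⟩
      one_smul := fun y => Subtype.ext (funext fun i => rfl)
      mul_smul := fun α β y => Subtype.ext (funext fun i => rfl) }
  have hsm : ∀ (α : A) (y : {y : Fin r → P // ∀ i, (x i)⁻¹ * y i ∈ Φ}) (i : Fin r),
      (α • y).1 i = (α : MulAut P) (y.1 i) := fun α y i => rfl
  have hfree : ∀ y : {y : Fin r → P // ∀ i, (x i)⁻¹ * y i ∈ Φ},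
      MulAction.stabilizer A y = ⊥ := by
    intro y
    rw [eq_bot_iff]
    intro α hα
    rw [MulAction.mem_stabilizer_iff] at hα
    rw [Subgroup.mem_bot]
    apply Subtype.ext
    have h1 : ∀ i, (α : MulAut P) (y.1 i) = y.1 i := by
      intro i
      rw [← hsm, hα]
    have h2 := hgen y.1 y.2
    have h3 : ((α : MulAut P) : P ≃* P).toMonoidHom = MonoidHom.id P := by
      apply MonoidHom.eq_of_eqOn_dense h2
      rintro _ ⟨i, rfl⟩
      exact h1 i
    ext z
    exact DFunLike.congr_fun h3 z
  have e := MulAction.selfEquivOrbitsQuotientProd hfree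
  have hcardX : Nat.card {y : Fin r → P // ∀ i, (x i)⁻¹ * y i ∈ Φ} = Nat.card Φ ^ r := by
    have h1 : Nat.card (Fin r → Φ) = Nat.card Φ ^ r := by
      rw [Nat.card_fun, Nat.card_fin]
    rw [← h1]
    apply Nat.card_congr
    exact
      { toFun := fun y i => ⟨(x i)⁻¹ * y.1 i, y.2 i⟩
        invFun := fun u => ⟨fun i => x i * (u i : P), fun i => by
          rw [inv_mul_cancel_left]; exact (u i).2⟩
        left_inv := fun y => Subtype.ext (funext fun i => by simp)
        right_inv := fun u => funext fun i => Subtype.ext (by simp) }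
  rw [← hcardX, Nat.card_congr e, Nat.card_prod]
  exact dvd_mul_left _ _

/-- Let `P` be a group of order `p^n` whose Frattini subgroup has index `p^r`. Then any group of automorphisms of `P` each of which induces the identity on the Frattini quotient has order dividing `p^(r(n-r))`; in particular it is a `p`-group. -/
theorem result {P : Type*} [Group P] [Finite P] {p n r : ℕ} [Fact p.Prime] (hP : Nat.card P = p ^ n) (hr : (frattini P).index = p ^ r) (A : Subgroup (MulAut P)) (hA : ∀ α ∈ A, ∀ x : P, α x * x⁻¹ ∈ frattini P) : Nat.card A ∣ p ^ (r * (n - r)) := by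
  have hp : p.Prime := Fact.out
  have hcardQ : Nat.card (P ⧸ frattini P) = p ^ r := hr
  obtain ⟨g, hg⟩ := exists_generators_of_card_prime_pow p r (P ⧸ frattini P) hcardQ
  have hx : ∀ i, ((Quotient.out (g i) : P) : P ⧸ frattini P) = g i :=
    fun i => QuotientGroup.out_eq' (g i)
  have hgen : ∀ y : Fin r → P, (∀ i, (Quotient.out (g i))⁻¹ * y i ∈ frattini P) →
      Subgroup.closure (Set.range y) = ⊤ := by
    intro y hy
    apply frattini_nongenerating
    have h1 : (Subgroup.closure (Set.range y)).map (QuotientGroup.mk' (frattini P)) = ⊤ := by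
      rw [MonoidHom.map_closure, ← Set.range_comp]
      have h2 : (QuotientGroup.mk' (frattini P)) ∘ y = g := by
        funext i
        show ((y i : P) : P ⧸ frattini P) = g i
        rw [← hx i]
        exact (QuotientGroup.eq.mpr (hy i)).symm
      rw [h2]; exact hg
    have h2 := Subgroup.comap_map_eq (QuotientGroup.mk' (frattini P))
      (Subgroup.closure (Set.range y))
    rw [h1, Subgroup.comap_top, QuotientGroup.ker_mk'] at h2
    exact h2.symm
  have h1 := key (frattini P) (fun i => Quotient.out (g i)) hgen A hA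
  have h2 : Nat.card (frattini P) * p ^ r = p ^ n := by
    rw [← hr, ← hP]; exact Subgroup.card_mul_index _
  have hrn : r ≤ n := by
    have h3 : p ^ r ∣ p ^ n := Dvd.intro_left _ h2
    exact (Nat.pow_dvd_pow_iff_le_right hp.one_lt).mp h3
  have h3 : Nat.card (frattini P) = p ^ (n - r) := by
    have h4 : p ^ n = p ^ (n - r) * p ^ r := by rw [← pow_add, Nat.sub_add_cancel hrn]
    rw [h4] at h2
    exact Nat.eq_of_mul_eq_mul_right (pow_pos hp.pos r) h2
  rw [h3, ← pow_mul, mul_comm (n - r) r] at h1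
  exact h1

end Cfsg.Agent.S4207
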