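import Mathlib
import Cfsg.Statements.S4210
import Cfsg.Agent.Lib.Helper7.ElemAbCount

set_option autoImplicit false
open Cfsg

namespace Cfsg.Agent.S4210

open Cfsg.Agent.Lib.Helper7
open Subgroup

universe u

lemma map_powerClosure {G G' : Type*} [Group G] [Group G'] (p n : ℕ) (f : G →* G')
    (K : Subgroup G) : (powerClosure p n K).map f = powerClosure p n (K.map f) := by
  unfold powerClosure
  rw [MonoidHom.map_closure]
  congr 1
  ext y
  constructor
  · rintro ⟨_, ⟨x, hx, rfl⟩, rfl⟩
    exact ⟨f x, mem_map_of_mem f hx, map_pow f x _⟩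
  · rintro ⟨_, ⟨x, hx, rfl⟩, rfl⟩
    exact ⟨x ^ (p ^ n), ⟨x, hx, rfl⟩, map_pow f x _⟩

/-- subgroups of regular groups are regular -/
lemma regular_subgroup {G : Type*} [Group G] {p : ℕ} (hG : IsRegularPGroup p G)
    (M : Subgroup G) : IsRegularPGroup p ↥M := by
  refine ⟨hG.1.to_subgroup M, fun a b n => ?_⟩
  obtain ⟨c, hc, heq⟩ := hG.2 (a : G) (b : G) n
  have h1 : closure ({(a : G), (b : G)} : Set G) = (closure ({a, b} : Set ↥M)).map M.subtype := by
    rw [MonoidHom.map_closure, Set.image_pair]; rfl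
  rw [h1, ← map_commutator, ← map_powerClosure] at hc
  obtain ⟨c', hc', rfl⟩ := hc
  refine ⟨c', hc', ?_⟩
  apply Subtype.ext
  simpa using heq

lemma powerClosure_eq_one {G : Type*} [Group G] (p k : ℕ) (K : Subgroup G)
    (hK : ∀ x ∈ K, x ^ p ^ k = 1) (c : G) (hc : c ∈ powerClosure p k K) : c = 1 := by
  have h1 : powerClosure p k K ≤ ⊥ := by
    unfold powerClosure
    rw [closure_le]
    rintro y ⟨x, hx, rfl⟩
    rw [SetLike.mem_coe, mem_bot]
    exact hK x hx
  exact mem_bot.mp (h1 hc)

lemma commutator_le_of_gen_comm {H : Type*} [Group H] (N : Subgroup H) [N.Normal] (a b : H)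
    (htop : closure ({a, b} : Set H) = ⊤) (hab : a * b * a⁻¹ * b⁻¹ ∈ N) : commutator H ≤ N := by
  have hφab : (a : H ⧸ N) * (b : H ⧸ N) = (b : H ⧸ N) * (a : H ⧸ N) := by
    have h1 : ((a * b * a⁻¹ * b⁻¹ : H) : H ⧸ N) = 1 := (QuotientGroup.eq_one_iff _).mpr hab
    simp only [QuotientGroup.mk_mul, QuotientGroup.mk_inv] at h1
    calc (a : H ⧸ N) * (b : H ⧸ N)
        = ((a : H ⧸ N) * (b : H ⧸ N) * (a : H ⧸ N)⁻¹ * (b : H ⧸ N)⁻¹) * ((b : H ⧸ N) * (a : H ⧸ N)) := by
          group
      _ = (b : H ⧸ N) * (a : H ⧸ N) := by rw [h1, one_mul]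
  have key : ∀ t : H ⧸ N, (∀ s ∈ ({a, b} : Set H), (s : H ⧸ N) * t = t * (s : H ⧸ N)) →
      ∀ g : H, (g : H ⧸ N) * t = t * (g : H ⧸ N) := by
    intro t ht g
    have h1 : closure ({a, b} : Set H) ≤ (centralizer ({t} : Set (H ⧸ N))).comap
        (QuotientGroup.mk' N) := by
      rw [closure_le]
      intro s hs
      rw [SetLike.mem_coe, mem_comap, mem_centralizer_iff]
      intro y hy
      rw [Set.mem_singleton_iff] at hy
      subst hy
      exact (ht s hs).symm
    have h2 : g ∈ closure ({a, b} : Set H) := by rw [htop]; trivial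
    have h3 := h1 h2
    rw [mem_comap, mem_centralizer_iff] at h3
    exact (h3 t rfl).symm
  have ha : ∀ g : H, (g : H ⧸ N) * (a : H ⧸ N) = (a : H ⧸ N) * (g : H ⧸ N) := by
    apply key
    intro s hs
    rcases hs with rfl | rfl
    · rfl
    · exact hφab.symm
  have hb : ∀ g : H, (g : H ⧸ N) * (b : H ⧸ N) = (b : H ⧸ N) * (g : H ⧸ N) := by
    apply key
    intro s hs
    rcases hs with rfl | rfl
    · exact hφab
    · rfl
  have hall : ∀ g h : H, (g : H ⧸ N) * (h : H ⧸ N) = (h : H ⧸ N) * (g : H ⧸ N) := by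
    intro g h
    apply key
    intro s hs
    rcases hs with rfl | rfl
    · exact (ha h).symm
    · exact (hb h).symm
  rw [commutator_def, commutator_le]
  intro g _ h _
  rw [← QuotientGroup.eq_one_iff, commutatorElement_def]
  simp only [QuotientGroup.mk_mul, QuotientGroup.mk_inv]
  rw [hall g h]; group

theorem fwd_aux (p : ℕ) [Fact p.Prime] (n : ℕ) : ∀ (H : Type u) [Group H] [Finite H],
    Nat.card H ≤ n → IsRegularPGroup p H → ∀ (a b : H) (k : ℕ),
      a ^ p ^ k = b ^ p ^ k → (a⁻¹ * b) ^ p ^ k = 1 := by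
  induction n with
  | zero =>
    intro H _ _ hcard
    have := Nat.card_pos (α := H); omega
  | succ n ih =>
    intro H _ _ hcard hreg a b k hab
    by_cases hcomm : a * b = b * a
    · have hc : Commute a⁻¹ b := (Commute.inv_left (show Commute a b from hcomm))
      rw [hc.mul_pow, inv_pow, hab, inv_mul_cancel]
    by_cases htop : closure ({a, b} : Set H) = ⊤
    swap
    · have hlt : Nat.card (closure ({a, b} : Set H)) ≤ n := by
        have h1 := Subgroup.card_le_card_group (closure ({a, b} : Set H))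
        have h2 : Nat.card (closure ({a, b} : Set H)) ≠ Nat.card H :=
          fun h => htop ((Subgroup.card_eq_iff_eq_top _).mp h)
        omega
      have ha : a ∈ closure ({a, b} : Set H) := subset_closure (by simp)
      have hb : b ∈ closure ({a, b} : Set H) := subset_closure (by simp)
      have h3 := ih ↥(closure ({a, b} : Set H)) hlt (regular_subgroup hreg _) ⟨a, ha⟩ ⟨b, hb⟩ k
        (Subtype.ext (by simpa using hab))
      have h4 := congrArg Subtype.val h3
      simpa using h4
    · have hp : p.Prime := Fact.out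
      have hza : zpowers a ≠ ⊤ := by
        intro h
        have hb : b ∈ zpowers a := by rw [h]; trivial
        obtain ⟨i, rfl⟩ := mem_zpowers_iff.mp hb
        exact hcomm ((Commute.zpow_right (Commute.refl a) i).eq)
      obtain ⟨M, hM, hle⟩ := (eq_top_or_exists_le_coatom (zpowers a)).resolve_left hza
      obtain ⟨hMn, hMidx⟩ := index_coatom_of_pGroup hreg.1 M hM
      have haM : a ∈ M := hle (mem_zpowers a)
      have hMcard : Nat.card M ≤ n := by
        have h1 := Subgroup.card_le_card_group M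
        have h2 : Nat.card M ≠ Nat.card H :=
          fun h => hM.1 ((Subgroup.card_eq_iff_eq_top _).mp h)
        omega
      have hMih : ∀ x ∈ M, ∀ y ∈ M, x ^ p ^ k = y ^ p ^ k → (x⁻¹ * y) ^ p ^ k = 1 := by
        intro x hx y hy hxy
        have h3 := ih ↥M hMcard (regular_subgroup hreg M) ⟨x, hx⟩ ⟨y, hy⟩ k
          (Subtype.ext (by simpa using hxy))
        have h4 := congrArg Subtype.val h3
        simpa using h4
      have hzc : ∀ g : H, g * a ^ p ^ k = a ^ p ^ k * g := by
        intro g
        have h1 : closure ({a, b} : Set H) ≤ centralizer ({a ^ p ^ k} : Set H) := by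
          rw [closure_le]
          intro s hs
          rw [SetLike.mem_coe, mem_centralizer_iff]
          intro y hy
          rw [Set.mem_singleton_iff] at hy
          subst hy
          rcases hs with rfl | rfl
          · exact ((Commute.pow_left (Commute.refl s) _)).eq
          · rw [hab]; exact ((Commute.pow_left (Commute.refl s) _)).eq
        have h2 : g ∈ closure ({a, b} : Set H) := by rw [htop]; trivial
        have h3 := h1 h2
        rw [mem_centralizer_iff] at h3
        exact (h3 _ rfl).symm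
      let Ω : Subgroup H :=
        { carrier := {y | y ∈ M ∧ y ^ p ^ k = 1}
          mul_mem' := by
            rintro x y ⟨hx, hx1⟩ ⟨hy, hy1⟩
            refine ⟨M.mul_mem hx hy, ?_⟩
            have := hMih x⁻¹ (M.inv_mem hx) y hy (by rw [inv_pow, hx1, hy1, inv_one])
            rwa [inv_inv] at this
          one_mem' := ⟨M.one_mem, one_pow _⟩
          inv_mem' := by
            rintro x ⟨hx, hx1⟩
            exact ⟨M.inv_mem hx, by rw [inv_pow, hx1, inv_one]⟩ }
      have hΩmem : ∀ y, y ∈ Ω ↔ y ∈ M ∧ y ^ p ^ k = 1 := fun y => Iff.rfl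
      haveI hΩn : Ω.Normal := by
        constructor
        intro y hy g
        rw [hΩmem] at hy ⊢
        exact ⟨hMn.conj_mem y hy.1 g, by rw [conj_pow, hy.2, mul_one, mul_inv_cancel]⟩
      have hxΩ : a⁻¹ * (b * a * b⁻¹) ∈ Ω := by
        rw [hΩmem]
        have h1 : b * a * b⁻¹ ∈ M := hMn.conj_mem a haM b
        refine ⟨M.mul_mem (M.inv_mem haM) h1, ?_⟩
        apply hMih a haM _ h1
        rw [conj_pow, hzc b, mul_assoc, mul_inv_cancel, mul_one]
      have hcommΩ : commutator H ≤ Ω := by
        apply commutator_le_of_gen_comm Ω a⁻¹ b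
        · rw [eq_top_iff, ← htop, closure_le]
          intro s hs
          rcases hs with rfl | rfl
          · have : s⁻¹ ∈ closure ({s⁻¹, b} : Set H) := subset_closure (by simp)
            simpa using (closure ({s⁻¹, b} : Set H)).inv_mem this
          · exact subset_closure (by simp)
        · have : a⁻¹ * b * a⁻¹⁻¹ * b⁻¹ = a⁻¹ * (b * a * b⁻¹) := by group
          rw [this]; exact hxΩ
      obtain ⟨c, hc, heq⟩ := hreg.2 a⁻¹ b k
      have hc1 : c = 1 := by
        apply powerClosure_eq_one p k _ _ c hc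
        intro x hx
        have h1 : ⁅closure ({a⁻¹, b} : Set H), closure ({a⁻¹, b} : Set H)⁆ ≤ commutator H := by
          rw [commutator_def]; exact commutator_mono le_top le_top
        exact ((hΩmem x).mp (hcommΩ (h1 hx))).2
      rw [heq, hc1, mul_one, inv_pow, hab, inv_mul_cancel]

theorem fwd {G : Type*} [Group G] [Finite G] {p : ℕ} [Fact p.Prime] (hG : IsRegularPGroup p G)
    (a b : G) (k : ℕ) (h : a ^ p ^ k = b ^ p ^ k) : (a⁻¹ * b) ^ p ^ k = 1 :=
  fwd_aux p (Nat.card G) G le_rfl hG a b k h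

/-- `Ω_k(G)` for a regular `p`-group -/
def omega {G : Type*} [Group G] [Finite G] {p : ℕ} [Fact p.Prime] (hG : IsRegularPGroup p G)
    (k : ℕ) : Subgroup G :=
  { carrier := {x | x ^ p ^ k = 1}
    mul_mem' := by
      intro x y hx hy
      rw [Set.mem_ofPred_eq] at hx hy ⊢
      have := fwd hG x⁻¹ y k (by rw [inv_pow, hx, hy, inv_one])
      rwa [inv_inv] at this
    one_mem' := one_pow _
    inv_mem' := by
      intro x hx
      rw [Set.mem_ofPred_eq] at hx ⊢
      rw [inv_pow, hx, inv_one] }

lemma mem_omega {G : Type*} [Group G] [Finite G] {p : ℕ} [Fact p.Prime]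
    (hG : IsRegularPGroup p G) (k : ℕ) (x : G) : x ∈ omega hG k ↔ x ^ p ^ k = 1 := Iff.rfl

instance omega_normal {G : Type*} [Group G] [Finite G] {p : ℕ} [Fact p.Prime]
    (hG : IsRegularPGroup p G) (k : ℕ) : (omega hG k).Normal := by
  constructor
  intro y hy g
  rw [mem_omega] at hy ⊢
  rw [conj_pow, hy, mul_one, mul_inv_cancel]

theorem bwd {G : Type*} [Group G] [Finite G] {p : ℕ} [Fact p.Prime] (hG : IsRegularPGroup p G)
    (a b : G) (k : ℕ) (h : (a * b⁻¹) ^ p ^ k = 1) : a ^ p ^ k = b ^ p ^ k := by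
  obtain ⟨d, hd, heq⟩ := hG.2 (a * b⁻¹) b k
  have ha : a * b⁻¹ * b = a := by group
  rw [ha] at heq
  have hd1 : d = 1 := by
    apply powerClosure_eq_one p k _ _ d hd
    intro x hx
    have hK : ⁅closure ({a * b⁻¹, b} : Set G), closure ({a * b⁻¹, b} : Set G)⁆ ≤ omega hG k := by
      rw [commutator_le]
      intro g₁ hg₁ g₂ hg₂
      have himg : ∀ g ∈ closure ({a * b⁻¹, b} : Set G),
          ((g : G) : G ⧸ omega hG k) ∈ zpowers ((b : G) : G ⧸ omega hG k) := by
        intro g hg
        have h1 : closure ({a * b⁻¹, b} : Set G) ≤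
            (zpowers ((b : G) : G ⧸ omega hG k)).comap (QuotientGroup.mk' (omega hG k)) := by
          rw [closure_le]
          intro s hs
          rw [SetLike.mem_coe, mem_comap]
          rcases hs with rfl | rfl
          · have : ((a * b⁻¹ : G) : G ⧸ omega hG k) = 1 := (QuotientGroup.eq_one_iff _).mpr h
            show ((a * b⁻¹ : G) : G ⧸ omega hG k) ∈ _
            rw [this]; exact one_mem _
          · exact mem_zpowers _
        exact h1 hg
      obtain ⟨i, hi⟩ := mem_zpowers_iff.mp (himg g₁ hg₁)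
      obtain ⟨j, hj⟩ := mem_zpowers_iff.mp (himg g₂ hg₂)
      rw [← QuotientGroup.eq_one_iff, commutatorElement_def]
      simp only [QuotientGroup.mk_mul, QuotientGroup.mk_inv]
      rw [← hi, ← hj, ← zpow_add, add_comm, zpow_add]; group
    exact (mem_omega hG k x).mp (hK hx)
  rw [heq, hd1, mul_one, h, one_mul]

/-- In a regular `p`-group, for all elements `a`, `b` and every power `q = p^k`: `a^q = b^q` if and only if `(ab⁻¹)^q = 1`. -/
theorem result {G : Type*} [Group G] [Finite G] {p : ℕ} [Fact p.Prime] (hG : Cfsg.IsRegularPGroup p G) (a b : G) (k : ℕ) : a ^ p ^ k = b ^ p ^ k ↔ (a * b⁻¹) ^ p ^ k = 1 := by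
  constructor
  · intro h
    have := fwd hG a⁻¹ b⁻¹ k (by rw [inv_pow, inv_pow, h])
    rwa [inv_inv] at this
  · exact bwd hG a b k

end Cfsg.Agent.S4210
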