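import Mathlib
import Cfsg.Statements.S4214
import Cfsg.Agent.Lib.Lead.Hall
import Cfsg.Agent.Lib.Lead.Hall2
import Cfsg.Agent.Lib.Helper1.HallSys
import Cfsg.Agent.Lib.Helper1.HallSys2
import Cfsg.Agent.Lib.Helper1.MinNormal
import Cfsg.Agent.Lib.Helper7.SylowIndex

set_option autoImplicit false
universe u
open Cfsg

namespace Cfsg.Agent.S4214

open Subgroup
open scoped Pointwise
open Cfsg.Agent.Lib.Helper7

/-- an allowed factor -/
def Fac (G : Type u) [Group G] (m x : ℕ) : Prop :=
  (∃ q e : ℕ, q.Prime ∧ x = q ^ e) ∧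
  (∃ K L : Subgroup G, K.Normal ∧ L.Normal ∧ K < L ∧
    (∀ M : Subgroup G, M.Normal → K ≤ M → M ≤ L → M = K ∨ M = L) ∧ x ∣ K.relIndex L) ∧
  (∃ q : ℕ, q.Prime ∧ q ∣ m ∧ x ≡ 1 [MOD q])

/-- products of allowed factors -/
def Good (G : Type u) [Group G] (m r : ℕ) : Prop :=
  ∃ l : List ℕ, l.prod = r ∧ ∀ x ∈ l, Fac G m x

theorem good_one (G : Type u) [Group G] (m : ℕ) : Good G m 1 := ⟨[], rfl, by simp⟩

theorem good_mul {G : Type u} [Group G] {m a b : ℕ} (ha : Good G m a) (hb : Good G m b) :
    Good G m (a * b) := by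
  obtain ⟨l₁, h1, h1'⟩ := ha
  obtain ⟨l₂, h2, h2'⟩ := hb
  refine ⟨l₁ ++ l₂, by rw [List.prod_append, h1, h2], ?_⟩
  intro x hx
  rcases List.mem_append.mp hx with h | h
  · exact h1' x h
  · exact h2' x h

theorem fac_of_quotient {G : Type u} [Group G] (N : Subgroup G) [N.Normal] (m' m x : ℕ)
    (hm : m' ∣ m) (h : Fac (G ⧸ N) m' x) : Fac G m x := by
  obtain ⟨hpp, ⟨K, L, hK, hL, hKL, hmin, hdvd⟩, ⟨q, hq, hqm, hx⟩⟩ := h
  have hs := QuotientGroup.mk'_surjective N
  refine ⟨hpp, ⟨K.comap (QuotientGroup.mk' N), L.comap (QuotientGroup.mk' N), hK.comap _,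
    hL.comap _, (Subgroup.comap_lt_comap_of_surjective hs).mpr hKL, ?_, ?_⟩,
    ⟨q, hq, hqm.trans hm, hx⟩⟩
  · intro M hM hKM hML
    have hker : (QuotientGroup.mk' N).ker ≤ M :=
      le_trans (Subgroup.ker_le_comap _ K) hKM
    have h1 : K ≤ M.map (QuotientGroup.mk' N) := by
      rw [← Subgroup.map_comap_eq_self_of_surjective hs K]
      exact Subgroup.map_mono hKM
    have h2 : M.map (QuotientGroup.mk' N) ≤ L := Subgroup.map_le_iff_le_comap.mpr hML
    rcases hmin _ (hM.map _ hs) h1 h2 with h3 | h3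
    · left; rw [← h3, Subgroup.comap_map_eq_self hker]
    · right; rw [← h3, Subgroup.comap_map_eq_self hker]
  · rw [Subgroup.relIndex_comap, Subgroup.map_comap_eq_self_of_surjective hs]
    exact hdvd

theorem good_of_quotient {G : Type u} [Group G] (N : Subgroup G) [N.Normal] (m' m r : ℕ)
    (hm : m' ∣ m) (h : Good (G ⧸ N) m' r) : Good G m r := by
  obtain ⟨l, h1, h2⟩ := h
  exact ⟨l, h1, fun x hx => fac_of_quotient N m' m x hm (h2 x hx)⟩

/-- counting a conjugacy class of subgroups -/
theorem card_eq_index_normalizer {G : Type u} [Group G] [Finite G] (m : ℕ) (H : Subgroup G)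
    (hH : Nat.card H = m)
    (hconj : ∀ K : Subgroup G, Nat.card K = m → ∃ g : G, MulAut.conj g • H = K) :
    Nat.card {K : Subgroup G // Nat.card K = m} = (normalizer (H : Set G)).index := by
  letI : MulAction G (Subgroup G) := MulAction.compHom (Subgroup G) (MulAut.conj : G →* MulAut G)
  have hsmul : ∀ (g : G) (K : Subgroup G), g • K = MulAut.conj g • K := fun _ _ => rfl
  have hstab : MulAction.stabilizer G H = normalizer (H : Set G) := by
    ext g
    rw [MulAction.mem_stabilizer_iff, hsmul]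
    constructor
    · intro h; exact Cfsg.Agent.Lib.Helper1.mem_normalizer_of_conj_smul_eq h
    · intro h; exact Cfsg.Agent.Lib.Helper1.conj_smul_eq_self_of_mem_normalizer h
  rw [← hstab, MulAction.index_stabilizer, ← _root_.Nat.card_coe_set_eq]
  apply Nat.card_congr
  apply Equiv.subtypeEquivRight
  intro K
  rw [MulAction.mem_orbit_iff]
  constructor
  · intro hK; obtain ⟨g, hg⟩ := hconj K hK; exact ⟨g, hg⟩
  · rintro ⟨g, rfl⟩; rw [hsmul, Cfsg.Agent.Lib.Helper1.card_conj_smul, hH]

/-- Case A: a normal subgroup contained in every subgroup of order `m`. -/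
theorem card_eq_quotient {G : Type u} [Group G] [Finite G] (N : Subgroup G) [N.Normal] (m : ℕ)
    (hNm : Nat.card N ∣ m) (hle : ∀ H : Subgroup G, Nat.card H = m → N ≤ H) :
    Nat.card {H : Subgroup G // Nat.card H = m} =
      Nat.card {K : Subgroup (G ⧸ N) // Nat.card K = m / Nat.card N} := by
  have hs := QuotientGroup.mk'_surjective N
  have hpos : 0 < Nat.card N := Nat.card_pos
  apply Nat.card_congr
  refine ⟨fun H => ⟨H.1.map (QuotientGroup.mk' N), ?_⟩,
    fun K => ⟨K.1.comap (QuotientGroup.mk' N), ?_⟩, ?_, ?_⟩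
  · have h1 := Cfsg.Agent.Lib.Lead.card_comap_mk' N (H.1.map (QuotientGroup.mk' N))
    have hker : (QuotientGroup.mk' N).ker ≤ H.1 := by
      rw [QuotientGroup.ker_mk']; exact hle H.1 H.2
    rw [Subgroup.comap_map_eq_self hker, H.2] at h1
    exact (Nat.div_eq_of_eq_mul_left hpos h1).symm
  · rw [Cfsg.Agent.Lib.Lead.card_comap_mk', K.2]
    exact Nat.div_mul_cancel hNm
  · intro H
    apply Subtype.ext
    have hker : (QuotientGroup.mk' N).ker ≤ H.1 := by
      rw [QuotientGroup.ker_mk']; exact hle H.1 H.2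
    exact Subgroup.comap_map_eq_self hker
  · intro K
    apply Subtype.ext
    exact Subgroup.map_comap_eq_self_of_surjective hs K.1

theorem card_hall_index {T : Type u} [Group T] [Finite T] (m n : ℕ)
    (hT : Nat.card T = m * n) (H : Subgroup T) (hH : Nat.card H = m) : H.index = n := by
  have := Subgroup.card_mul_index H
  rw [hH, hT] at this
  have hm0 : 0 < m := by rw [← hH]; exact Nat.card_pos
  exact Nat.eq_of_mul_eq_mul_left hm0 this

theorem count_dvd {T : Type u} [Group T] [Finite T] [Group.IsSolvable T] (m n : ℕ)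
    (hT : Nat.card T = m * n) (hmn : m.Coprime n) :
    Nat.card {K : Subgroup T // Nat.card K = m} ∣ n := by
  obtain ⟨H, hH⟩ := Cfsg.Agent.Lib.Lead.hall_exists (Nat.card T) T m n rfl hT hmn
  rw [card_eq_index_normalizer m H hH (fun K hK =>
    Cfsg.Agent.Lib.Lead.hall_conj (Nat.card T) T m n rfl hT hmn H K hH hK)]
  have h1 : (normalizer (H : Set T)).index ∣ H.index := Subgroup.index_dvd_of_le le_normalizer
  rwa [card_hall_index m n hT H hH] at h1

theorem card_sup_hall {G : Type u} [Group G] [Finite G] (H N : Subgroup G) [N.Normal]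
    (hcop : (Nat.card H).Coprime (Nat.card N)) :
    Nat.card (H ⊔ N : Subgroup G) = Nat.card H * Nat.card N := by
  have hinf : H ⊓ N = ⊥ := (Subgroup.disjoint_of_coprime_natCard hcop).eq_bot
  have c3 := card_inf_mul_relIndex H (H ⊔ N)
  rw [inf_of_le_left le_sup_left,
    relIndex_sup_eq_of_le_normalizer H N Subgroup.le_normalizer_of_normal] at c3
  have c4 := card_inf_mul_relIndex H N
  rw [hinf, Subgroup.card_bot, one_mul] at c4
  rw [← c3, c4]

/-- Frattini for Hall subgroups -/
theorem normalizer_hall_sup {G : Type u} [Group G] [Finite G] [Group.IsSolvable G] (H N : Subgroup G)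
    [hN : N.Normal] (hcop : (Nat.card H).Coprime (Nat.card N)) :
    normalizer (((H ⊔ N : Subgroup G)) : Set G) = normalizer (H : Set G) ⊔ N := by
  have hrel : (Nat.card H).Coprime (H.relIndex (H ⊔ N)) := by
    rw [relIndex_sup_eq_of_le_normalizer H N Subgroup.le_normalizer_of_normal]
    exact Nat.Coprime.coprime_dvd_right (Subgroup.relIndex_dvd_card H N) hcop
  apply le_antisymm
  · intro g hg
    have hPL : H ≤ H ⊔ N := le_sup_left
    have hP2 : MulAut.conj g • H ≤ H ⊔ N := by
      intro y hy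
      rw [mem_conj_smul] at hy
      have h1 := (Subgroup.mem_normalizer_iff.mp hg (g⁻¹ * y * g)).mp (hPL hy)
      have e : g * (g⁻¹ * y * g) * g⁻¹ = y := by group
      rw [e] at h1; exact h1
    obtain ⟨t, ht, hconj⟩ := Cfsg.Agent.Lib.Helper1.hall_conj_in (H ⊔ N) H (MulAut.conj g • H)
      hPL hP2 (Cfsg.Agent.Lib.Helper1.card_conj_smul g H).symm hrel
    have hn : t⁻¹ * g ∈ normalizer (H : Set G) := by
      apply Cfsg.Agent.Lib.Helper1.mem_normalizer_of_conj_smul_eq
      rw [Cfsg.Agent.Lib.Helper1.conj_mul_smul, ← hconj,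
        ← Cfsg.Agent.Lib.Helper1.conj_mul_smul, inv_mul_cancel, map_one, one_smul]
    have e : g = t * (t⁻¹ * g) := by group
    rw [e]
    have h2 : H ⊔ N ≤ normalizer (H : Set G) ⊔ N :=
      sup_le (le_normalizer.trans le_sup_left) le_sup_right
    exact Subgroup.mul_mem _ (h2 ht) (Subgroup.mem_sup_left hn)
  · apply sup_le
    · have claim : ∀ n ∈ normalizer (H : Set G), ∀ y ∈ H ⊔ N, n * y * n⁻¹ ∈ H ⊔ N := by
        intro n hn y hy
        obtain ⟨a, ha, b, hb, rfl⟩ := Subgroup.mem_sup_of_normal_right.mp hy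
        have e : n * (a * b) * n⁻¹ = (n * a * n⁻¹) * (n * b * n⁻¹) := by group
        rw [e]
        exact Subgroup.mul_mem_sup ((Subgroup.mem_normalizer_iff.mp hn a).mp ha)
          (hN.conj_mem b hb n)
      intro n hn
      rw [Subgroup.mem_normalizer_iff]
      intro y
      constructor
      · exact claim n hn y
      · intro hy
        have h1 := claim n⁻¹ (Subgroup.inv_mem _ hn) _ hy
        have e : n⁻¹ * (n * y * n⁻¹) * n⁻¹⁻¹ = y := by group
        rw [e] at h1; exact h1
    · exact le_sup_right.trans le_normalizer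

/-- Case B2: the product formula. -/
theorem card_eq_mul {G : Type u} [Group G] [Finite G] [Group.IsSolvable G] (N : Subgroup G) [N.Normal]
    (m n : ℕ) (hG : Nat.card G = m * n) (hmn : m.Coprime n) (hNn : Nat.card N ∣ n)
    (H : Subgroup G) (hH : Nat.card H = m) :
    Nat.card {K : Subgroup G // Nat.card K = m} =
      Nat.card {K : Subgroup (G ⧸ N) // Nat.card K = m} *
        Nat.card {K : Subgroup ↥(H ⊔ N) // Nat.card K = m} := by
  have hs := QuotientGroup.mk'_surjective N
  have hmN : m.Coprime (Nat.card N) := Nat.Coprime.coprime_dvd_right hNn hmn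
  have hcop : (Nat.card H).Coprime (Nat.card N) := by rw [hH]; exact hmN
  have h1 : Nat.card {K : Subgroup G // Nat.card K = m} = (normalizer (H : Set G)).index :=
    card_eq_index_normalizer m H hH (fun K hK =>
      Cfsg.Agent.Lib.Lead.hall_conj (Nat.card G) G m n rfl hG hmn H K hH hK)
  have hcardsup : Nat.card (H ⊔ N : Subgroup G) = m * Nat.card N := by
    rw [card_sup_hall H N hcop, hH]
  obtain ⟨n', rfl⟩ := hNn
  have hcardQ : Nat.card (G ⧸ N) = m * n' := by
    have h4 := Subgroup.card_eq_card_quotient_mul_card_subgroup N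
    rw [hG] at h4
    have hpos : 0 < Nat.card N := Nat.card_pos
    apply Nat.eq_of_mul_eq_mul_right hpos
    rw [← h4]; ring
  have hmn' : m.Coprime n' := Nat.Coprime.coprime_dvd_right (dvd_mul_left n' _) hmn
  have hcardmap : Nat.card (H.map (QuotientGroup.mk' N)) = m := by
    have h5 := Cfsg.Agent.Lib.Lead.card_comap_mk' N (H.map (QuotientGroup.mk' N))
    rw [Subgroup.comap_map_eq, QuotientGroup.ker_mk', hcardsup] at h5
    exact (Nat.eq_of_mul_eq_mul_right Nat.card_pos h5).symm
  have h2 : Nat.card {K : Subgroup (G ⧸ N) // Nat.card K = m} =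
      (normalizer ((H ⊔ N : Subgroup G) : Set G)).index := by
    rw [card_eq_index_normalizer m (H.map (QuotientGroup.mk' N)) hcardmap
      (fun K hK => Cfsg.Agent.Lib.Lead.hall_conj (Nat.card (G ⧸ N)) (G ⧸ N) m n' rfl hcardQ hmn'
        _ K hcardmap hK),
      ← Subgroup.index_comap_of_surjective _ hs, Subgroup.comap_normalizer_eq_of_surjective _ hs,
      Subgroup.comap_map_eq, QuotientGroup.ker_mk']
  have hHle : H ≤ H ⊔ N := le_sup_left
  have hcardsub : Nat.card (H.subgroupOf (H ⊔ N)) = m := by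
    rw [← hH]; exact Nat.card_congr (Subgroup.subgroupOfEquivOfLe hHle).toEquiv
  have h3 : Nat.card {K : Subgroup ↥(H ⊔ N) // Nat.card K = m} =
      (normalizer (H : Set G)).relIndex (H ⊔ N) := by
    rw [card_eq_index_normalizer m (H.subgroupOf (H ⊔ N)) hcardsub
      (fun K hK => Cfsg.Agent.Lib.Lead.hall_conj (Nat.card ↥(H ⊔ N)) ↥(H ⊔ N) m (Nat.card N) rfl
        hcardsup hmN _ K hcardsub hK),
      ← Subgroup.subgroupOf_normalizer_eq hHle]
    rfl
  have hnle : normalizer (H : Set G) ≤ normalizer (((H ⊔ N : Subgroup G)) : Set G) := by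
    rw [normalizer_hall_sup H N hcop]; exact le_sup_left
  have h3' : (normalizer (H : Set G)).relIndex (H ⊔ N) =
      (normalizer (H : Set G)).relIndex (normalizer (H : Set G) ⊔ N) := by
    rw [← relIndex_sup_eq_of_le_normalizer _ (H ⊔ N) hnle, ← sup_assoc,
      sup_eq_left.mpr (le_normalizer : H ≤ normalizer (H : Set G))]
  rw [h1, h2, h3, h3', normalizer_hall_sup H N hcop, mul_comm]
  exact (Subgroup.relIndex_mul_index (le_sup_left : normalizer (H : Set G) ≤
      normalizer (H : Set G) ⊔ N)).symm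

theorem normal_of_sup_eq_top {G : Type u} [Group G] (H N D : Subgroup G) (hHN : H ⊔ N = ⊤)
    (h1 : ∀ k ∈ H, ∀ x ∈ D, k * x * k⁻¹ ∈ D) (h2 : ∀ k ∈ N, ∀ x ∈ D, k * x * k⁻¹ ∈ D) :
    D.Normal := by
  have h3 : H ⊔ N ≤ normalizer (D : Set G) :=
    sup_le (Cfsg.Agent.Lib.Lead.le_normalizer_of_conj_mem H D h1)
      (Cfsg.Agent.Lib.Lead.le_normalizer_of_conj_mem N D h2)
  rw [hHN] at h3
  exact Subgroup.normalizer_eq_top_iff.mp (top_le_iff.mp h3)

/-- Case B1: `G = H N` with `N` a minimal normal subgroup. -/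
theorem caseB1 {G : Type u} [Group G] [Finite G] [Group.IsSolvable G] (N : Subgroup G)
    [hNn : N.Normal] (m n : ℕ) (hG : Nat.card G = m * n) (hmn : m.Coprime n)
    (hNne : N ≠ ⊥) (hNmin : ∀ K : Subgroup G, K.Normal → K ≤ N → K = ⊥ ∨ K = N)
    (hNcomm : ∀ x ∈ N, ∀ y ∈ N, x * y = y * x)
    (q : ℕ) (hq : q.Prime) (hNq : IsPGroup q N)
    (hB : ∀ M : Subgroup G, M.Normal → M ≠ ⊥ → ¬ Nat.card M ∣ m)
    (H : Subgroup G) (hH : Nat.card H = m) (hHN : H ⊔ N = ⊤) :
    Good G m (Nat.card {K : Subgroup G // Nat.card K = m}) := by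
  rw [card_eq_index_normalizer m H hH (fun K hK =>
    Cfsg.Agent.Lib.Lead.hall_conj (Nat.card G) G m n rfl hG hmn H K hH hK)]
  have hNconj : ∀ k ∈ N, ∀ x ∈ N, k * x * k⁻¹ = x := by
    intro k hk x hx
    rw [hNcomm k hk x hx]; group
  have hDn : (N ⊓ normalizer (H : Set G)).Normal := by
    apply normal_of_sup_eq_top H N _ hHN
    · intro k hk x hx
      obtain ⟨hx1, hx2⟩ := Subgroup.mem_inf.mp hx
      refine Subgroup.mem_inf.mpr ⟨hNn.conj_mem x hx1 k, ?_⟩
      exact Subgroup.mul_mem _ (Subgroup.mul_mem _ (le_normalizer hk) hx2)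
        (Subgroup.inv_mem _ (le_normalizer hk))
    · intro k hk x hx
      rw [hNconj k hk x (Subgroup.mem_inf.mp hx).1]; exact hx
  rcases hNmin _ hDn inf_le_left with hD | hD
  · -- the normalizer of `H` has index `|N|`
    have hAN : normalizer (H : Set G) ⊔ N = ⊤ := by
      apply top_le_iff.mp
      rw [← hHN]
      exact sup_le_sup_right le_normalizer N
    have hidx : (normalizer (H : Set G)).index = Nat.card N := by
      rw [← Subgroup.relIndex_top_right, ← hAN,
        relIndex_sup_eq_of_le_normalizer _ N Subgroup.le_normalizer_of_normal]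
      have c := card_inf_mul_relIndex (normalizer (H : Set G)) N
      rw [inf_comm, hD, Subgroup.card_bot, one_mul] at c
      exact c
    rw [hidx]
    have hHne : H ≠ ⊥ := by
      rintro rfl
      apply hNne
      rw [← hD]
      have : normalizer (((⊥ : Subgroup G)) : Set G) = ⊤ := Subgroup.normalizer_eq_top _
      rw [this, inf_top_eq]
    haveI : Nontrivial ↥H := (Subgroup.nontrivial_iff_ne_bot H).mpr hHne
    obtain ⟨M₀, hM₀n, -, hM₀ne, hM₀min⟩ :=
      Cfsg.Agent.Lib.Helper1.exists_minimal_normal_le (⊤ : Subgroup ↥H) inferInstance top_ne_bot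
    haveI := hM₀n
    obtain ⟨q', hq', hM₀q, -⟩ := Cfsg.Agent.Lib.Helper1.minNormal_isPGroup M₀ hM₀ne hM₀min
    haveI : Fact q'.Prime := ⟨hq'⟩
    obtain ⟨M, hMdef⟩ : ∃ M : Subgroup G, M = M₀.map H.subtype := ⟨_, rfl⟩
    have hMq : IsPGroup q' M := by rw [hMdef]; exact hM₀q.map _
    have hMne : M ≠ ⊥ := by
      rw [hMdef]
      intro h
      exact hM₀ne ((Subgroup.map_eq_bot_iff_of_injective _ H.subtype_injective).mp h)
    have hMH : M ≤ H := by rw [hMdef]; exact Subgroup.map_subtype_le _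
    have hHM : ∀ k ∈ H, ∀ x ∈ M, k * x * k⁻¹ ∈ M := by
      intro k hk x hx
      rw [hMdef] at hx ⊢
      obtain ⟨x₀, hx₀, rfl⟩ := Subgroup.mem_map.mp hx
      exact Subgroup.mem_map.mpr ⟨⟨k, hk⟩ * x₀ * ⟨k, hk⟩⁻¹, hM₀n.conj_mem x₀ hx₀ ⟨k, hk⟩, rfl⟩
    have hq'm : q' ∣ m := by
      obtain ⟨j, hj⟩ := IsPGroup.iff_card.mp hMq
      have hj0 : j ≠ 0 := by
        rintro rfl
        rw [pow_zero] at hj
        exact hMne (Subgroup.eq_bot_of_card_eq M hj)
      have h1 : q' ∣ Nat.card M := by rw [hj]; exact dvd_pow_self q' hj0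
      have h2 : Nat.card M ∣ Nat.card H := Subgroup.card_dvd_of_le hMH
      rw [hH] at h2
      exact h1.trans h2
    have hCn : (N ⊓ centralizer (M : Set G)).Normal := by
      apply normal_of_sup_eq_top H N _ hHN
      · intro k hk x hx
        obtain ⟨hx1, hx2⟩ := Subgroup.mem_inf.mp hx
        refine Subgroup.mem_inf.mpr ⟨hNn.conj_mem x hx1 k, ?_⟩
        rw [Subgroup.mem_centralizer_iff] at hx2 ⊢
        intro y hy
        have h1 := hHM k⁻¹ (H.inv_mem hk) y hy
        rw [inv_inv] at h1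
        have h2 := hx2 _ h1
        calc y * (k * x * k⁻¹) = k * ((k⁻¹ * y * k) * x) * k⁻¹ := by group
          _ = k * (x * (k⁻¹ * y * k)) * k⁻¹ := by rw [h2]
          _ = k * x * k⁻¹ * y := by group
      · intro k hk x hx
        rw [hNconj k hk x (Subgroup.mem_inf.mp hx).1]; exact hx
    have hC : N ⊓ centralizer (M : Set G) = ⊥ := by
      rcases hNmin _ hCn inf_le_left with hC | hC
      · exact hC
      · exfalso
        have hNC : N ≤ centralizer (M : Set G) := by rw [← hC]; exact inf_le_right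
        have hMn : M.Normal := by
          apply normal_of_sup_eq_top H N _ hHN hHM
          intro k hk x hx
          have h1 := Subgroup.mem_centralizer_iff.mp (hNC hk) x hx
          have e : k * x * k⁻¹ = x := by rw [← h1]; group
          rw [e]; exact hx
        apply hB M hMn hMne
        rw [← hH]; exact Subgroup.card_dvd_of_le hMH
    have hMN : M ≤ normalizer (N : Set G) :=
      le_of_le_of_eq le_top (normalizer_eq_top (H := N)).symm
    letI : MulAction ↥M ↥N := MulAction.compHom ↥N (Subgroup.inclusion hMN)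
    have hmod := hMq.card_modEq_card_fixedPoints ↥N
    have hfix : Nat.card (MulAction.fixedPoints ↥M ↥N) = 1 := by
      rw [Nat.card_eq_one_iff_unique]
      constructor
      · constructor
        have key : ∀ z : MulAction.fixedPoints ↥M ↥N, ((z.1 : ↥N) : G) = 1 := by
          intro z
          have hz : ((z.1 : ↥N) : G) ∈ N ⊓ centralizer (M : Set G) := by
            refine Subgroup.mem_inf.mpr ⟨z.1.2, ?_⟩
            rw [Subgroup.mem_centralizer_iff]
            intro u hu
            have h1 := z.2 ⟨u, hu⟩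
            have h2 : u * (z.1 : G) * u⁻¹ = (z.1 : G) := congrArg Subtype.val h1
            calc u * (z.1 : G) = (u * (z.1 : G) * u⁻¹) * u := by group
              _ = (z.1 : G) * u := by rw [h2]
          rw [hC] at hz
          exact Subgroup.mem_bot.mp hz
        intro x y
        apply Subtype.ext; apply Subtype.ext
        rw [key x, key y]
      · refine ⟨⟨1, ?_⟩⟩
        rw [MulAction.mem_fixedPoints]
        intro u
        apply Subtype.ext
        show (u : G) * ((1 : ↥N) : G) * (u : G)⁻¹ = ((1 : ↥N) : G)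
        simp
    rw [hfix] at hmod
    refine ⟨[Nat.card N], by simp, ?_⟩
    intro x hx
    rw [List.mem_singleton] at hx
    subst hx
    haveI : Fact q.Prime := ⟨hq⟩
    obtain ⟨e, he⟩ := IsPGroup.iff_card.mp hNq
    refine ⟨⟨q, e, hq, he⟩, ⟨⊥, N, inferInstance, hNn, bot_lt_iff_ne_bot.mpr hNne,
      fun M' hM' _ hM'N => hNmin M' hM' hM'N, ?_⟩, ⟨q', hq', hq'm, hmod⟩⟩
    rw [Subgroup.relIndex_bot_left]
  · have hNle : N ≤ normalizer (H : Set G) := by rw [← hD]; exact inf_le_right
    have h1 : normalizer (H : Set G) = ⊤ := by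
      apply top_le_iff.mp
      rw [← hHN]
      exact sup_le le_normalizer hNle
    rw [h1, Subgroup.index_top]
    exact good_one G m

theorem count_one {G : Type u} [Group G] : Nat.card {K : Subgroup G // Nat.card K = 1} = 1 := by
  rw [Nat.card_eq_one_iff_unique]
  constructor
  · constructor
    intro x y
    apply Subtype.ext
    rw [Subgroup.eq_bot_of_card_eq x.1 x.2, Subgroup.eq_bot_of_card_eq y.1 y.2]
  · exact ⟨⟨⊥, Subgroup.card_bot⟩⟩

theorem main : ∀ (c : ℕ) (G : Type u) [Group G] [Finite G] [Group.IsSolvable G] (m n : ℕ),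
    Nat.card G = c → Nat.card G = m * n → m.Coprime n →
    Good G m (Nat.card {H : Subgroup G // Nat.card H = m}) := by
  intro c
  induction c using Nat.strong_induction_on with
  | _ c ih =>
  intro G _ _ _ m n hc hG hmn
  by_cases hm1 : m = 1
  · rw [hm1, count_one]; exact good_one G 1
  have hquot : ∀ (N : Subgroup G) [N.Normal], N ≠ ⊥ → Nat.card (G ⧸ N) < c := by
    intro N _ hN1
    rw [← hc, ← Subgroup.card_mul_index N]
    have h1 : 1 < Nat.card N := N.one_lt_card_iff_ne_bot.mpr hN1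
    have h2 : 0 < N.index := Nat.pos_of_ne_zero Subgroup.index_ne_zero_of_finite
    show N.index < Nat.card N * N.index
    nlinarith
  by_cases hA : ∃ N : Subgroup G, N.Normal ∧ N ≠ ⊥ ∧ Nat.card N ∣ m
  · obtain ⟨N, hNn, hNne, hNm⟩ := hA
    haveI := hNn
    have hle : ∀ H : Subgroup G, Nat.card H = m → N ≤ H := by
      intro H hH
      have h1 : H.relIndex N ∣ Nat.card N := Subgroup.relIndex_dvd_card H N
      have h2 : H.relIndex N ∣ n := by
        rw [← relIndex_sup_eq_of_le_normalizer H N Subgroup.le_normalizer_of_normal]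
        have h3 : H.relIndex (H ⊔ N) ∣ H.index := Subgroup.relIndex_dvd_index_of_le le_sup_left
        rwa [card_hall_index m n hG H hH] at h3
      have h5 : H.relIndex N = 1 := Nat.eq_one_of_dvd_coprimes hmn (h1.trans hNm) h2
      exact Subgroup.relIndex_eq_one.mp h5
    rw [card_eq_quotient N m hNm hle]
    apply good_of_quotient N (m / Nat.card N) m _ (Nat.div_dvd_of_dvd hNm)
    apply ih (Nat.card (G ⧸ N)) (hquot N hNne) (G ⧸ N) (m / Nat.card N) n rfl
    · have h4 := Subgroup.card_eq_card_quotient_mul_card_subgroup N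
      rw [hG] at h4
      have hpos : 0 < Nat.card N := Nat.card_pos
      apply Nat.eq_of_mul_eq_mul_right hpos
      rw [← h4]
      calc m * n = (m / Nat.card N * Nat.card N) * n := by rw [Nat.div_mul_cancel hNm]
        _ = m / Nat.card N * n * Nat.card N := by ring
    · exact Nat.Coprime.coprime_dvd_left (Nat.div_dvd_of_dvd hNm) hmn
  · push Not at hA
    haveI : Nontrivial G := by
      rw [← Finite.one_lt_card_iff_nontrivial, hG]
      by_contra hlt
      have h0 : m * n ≠ 0 := by rw [← hG]; exact Nat.card_pos.ne'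
      have h1 : m * n = 1 := by omega
      exact hm1 (Nat.eq_one_of_mul_eq_one_right h1)
    obtain ⟨N, hNn, -, hNne, hNmin⟩ :=
      Cfsg.Agent.Lib.Helper1.exists_minimal_normal_le (⊤ : Subgroup G) inferInstance top_ne_bot
    haveI := hNn
    have hNcomm := Cfsg.Agent.Lib.Helper1.minNormal_comm N hNne hNmin
    obtain ⟨q, hq, hNq, -⟩ := Cfsg.Agent.Lib.Helper1.minNormal_isPGroup N hNne hNmin
    haveI : Fact q.Prime := ⟨hq⟩
    obtain ⟨e, he⟩ := IsPGroup.iff_card.mp hNq
    have hNG : Nat.card N ∣ m * n := by rw [← hG]; exact Subgroup.card_subgroup_dvd_card N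
    have hqm : ¬ q ∣ m := by
      intro hqm
      apply hA N hNn hNne
      have hqn : Nat.Coprime q n := Nat.Coprime.coprime_dvd_left hqm hmn
      have : (Nat.card N).Coprime n := by rw [he]; exact Nat.Coprime.pow_left e hqn
      exact this.dvd_of_dvd_mul_right hNG
    have hNdvd : Nat.card N ∣ n := by
      have : (Nat.card N).Coprime m := by
        rw [he]; exact Nat.Coprime.pow_left e ((Nat.Prime.coprime_iff_not_dvd hq).mpr hqm)
      exact this.dvd_of_dvd_mul_left hNG
    obtain ⟨H, hH⟩ := Cfsg.Agent.Lib.Lead.hall_exists (Nat.card G) G m n rfl hG hmn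
    by_cases hHN : H ⊔ N = ⊤
    · exact caseB1 N m n hG hmn hNne hNmin hNcomm q hq hNq hA H hH hHN
    · rw [card_eq_mul N m n hG hmn hNdvd H hH]
      have hmN : m.Coprime (Nat.card N) := Nat.Coprime.coprime_dvd_right hNdvd hmn
      apply good_mul
      · apply good_of_quotient N m m _ dvd_rfl
        obtain ⟨n', hn'⟩ := hNdvd
        apply ih (Nat.card (G ⧸ N)) (hquot N hNne) (G ⧸ N) m n' rfl
        · have h4 := Subgroup.card_eq_card_quotient_mul_card_subgroup N
          rw [hG, hn'] at h4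
          have hpos : 0 < Nat.card N := Nat.card_pos
          apply Nat.eq_of_mul_eq_mul_right hpos
          rw [← h4]; ring
        · exact Nat.Coprime.coprime_dvd_right (Dvd.intro_left _ hn'.symm) hmn
      · have hcardT : Nat.card ↥(H ⊔ N) = m * Nat.card N := by
          rw [card_sup_hall H N (by rw [hH]; exact hmN), hH]
        have hlt : Nat.card ↥(H ⊔ N) < c := by
          rw [← hc]
          exact lt_of_not_ge (fun h => hHN (Subgroup.eq_top_of_le_card _ h))
        obtain ⟨l, hl1, hl2⟩ := ih (Nat.card ↥(H ⊔ N)) hlt ↥(H ⊔ N) m (Nat.card N) rfl hcardT hmN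
        refine ⟨l, hl1, fun x hx => ?_⟩
        obtain ⟨hpp, -, hcong⟩ := hl2 x hx
        refine ⟨hpp, ⟨⊥, N, inferInstance, hNn, bot_lt_iff_ne_bot.mpr hNne,
          fun M' hM' _ hM'N => hNmin M' hM' hM'N, ?_⟩, hcong⟩
        rw [Subgroup.relIndex_bot_left]
        have h1 : x ∣ l.prod := List.dvd_prod hx
        rw [hl1] at h1
        exact h1.trans (count_dvd m (Nat.card N) hcardT hmN)

theorem result {G : Type*} [Group G] [Finite G] [Group.IsSolvable G] (m n : ℕ) (hG : Nat.card G = m * n) (hmn : Nat.Coprime m n) : ∃ (k : ℕ) (f : Fin k → ℕ), Nat.card {H : Subgroup G // Nat.card H = m} = ∏ i, f i ∧ ∀ i, (∃ q e : ℕ, q.Prime ∧ f i = q ^ e) ∧ (∃ K L : Subgroup G, K.Normal ∧ L.Normal ∧ K < L ∧ (∀ M : Subgroup G, M.Normal → K ≤ M → M ≤ L → M = K ∨ M = L) ∧ f i ∣ K.relIndex L) ∧ (∃ q : ℕ, q.Prime ∧ q ∣ m ∧ f i ≡ 1 [MOD q]) := by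
  obtain ⟨l, h1, h2⟩ := main (Nat.card G) G m n rfl hG hmn
  refine ⟨l.length, fun i => l[i.1], ?_, fun i => h2 _ (List.getElem_mem _)⟩
  rw [Fin.prod_univ_getElem, h1]

end Cfsg.Agent.S4214
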