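import Cfsg.Statements.S4217
import Mathlib
import Cfsg.Agent.Lib.Lead.SylowAux2
import Cfsg.Agent.Lib.Lead.Gaschutz2

set_option autoImplicit false
open Cfsg Cfsg.Agent.Lib.Lead

namespace Cfsg.Agent.S4217

open scoped Pointwise commutatorElement

/-- Let `A` be an abelian normal subgroup of the finite group `G`. Then `A` has a complement in `G` if and only if, for every prime `p` dividing the index of `A`, there are a Sylow `p`-subgroup `S` of `G/A` and a subgroup `K` of `G` with `K ∩ A = 1` and `KA` equal to the preimage of `S` (that is, `A` has a complement in the preimage of a Sylow `p`-subgroup of `G/A`). -/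
theorem result {G : Type*} [Group G] [Finite G] (A : Subgroup G) [A.Normal] (hA : IsMulCommutative A) : (∃ K : Subgroup G, K.IsComplement' A) ↔ ∀ p : ℕ, p.Prime → p ∣ A.index → ∃ (S : Sylow p (G ⧸ A)) (K : Subgroup G), K ⊓ A = ⊥ ∧ K ⊔ A = (S : Subgroup (G ⧸ A)).comap (QuotientGroup.mk' A) := by
  haveI := hA
  constructor
  · rintro ⟨K, hK⟩ p hp hpd
    haveI : Fact p.Prime := ⟨hp⟩
    obtain ⟨P⟩ : Nonempty (Sylow p K) := inferInstance
    have hdisj : K ⊓ A = ⊥ := hK.disjoint.eq_bot
    obtain ⟨π, hπ⟩ : ∃ π : G →* G ⧸ A, π = QuotientGroup.mk' A := ⟨_, rfl⟩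
    have hker : π.ker = A := by rw [hπ]; exact QuotientGroup.ker_mk' A
    have hinj : Function.Injective (π.comp K.subtype) := by
      rw [← MonoidHom.ker_eq_bot_iff, eq_bot_iff]
      intro x hx
      rw [MonoidHom.mem_ker, MonoidHom.comp_apply] at hx
      have hxA : (x : G) ∈ A := by rw [← hker]; exact MonoidHom.mem_ker.2 hx
      have hx2 : (x : G) ∈ K ⊓ A := Subgroup.mem_inf.2 ⟨x.2, hxA⟩
      rw [hdisj, Subgroup.mem_bot] at hx2
      rw [Subgroup.mem_bot]; exact Subtype.ext hx2
    have hcardK : Nat.card K = Nat.card (G ⧸ A) := by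
      have h1 := hK.card_mul_card
      have h2 := Subgroup.card_eq_card_quotient_mul_card_subgroup A
      rw [h2] at h1
      exact Nat.eq_of_mul_eq_mul_right Nat.card_pos h1
    obtain ⟨K', hK'⟩ : ∃ K' : Subgroup G, K' = (P : Subgroup K).map K.subtype := ⟨_, rfl⟩
    have hcard : Nat.card (K'.map π) = p ^ (Nat.card (G ⧸ A)).factorization p := by
      rw [hK', Subgroup.map_map, Subgroup.card_map_of_injective hinj, ← hcardK]
      exact P.card_eq_multiplicity
    refine ⟨Sylow.ofCard (K'.map π) hcard, K', ?_, ?_⟩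
    · rw [eq_bot_iff, ← hdisj]
      refine inf_le_inf_right A ?_
      rw [hK']; intro x hx
      obtain ⟨y, _, rfl⟩ := Subgroup.mem_map.1 hx
      exact y.2
    · rw [Sylow.coe_ofCard, ← hπ, Subgroup.comap_map_eq, hker]
  · intro h
    obtain ⟨X, hX⟩ := complement_of_sylow_local A (by
      intro p hp hpd
      haveI : Fact p.Prime := ⟨hp⟩
      obtain ⟨S, K, hKA, hsup⟩ := h p hp hpd
      refine ⟨A ⊔ K, K, hKA, rfl, ?_⟩
      rw [sup_comm, hsup, Subgroup.index_comap_of_surjective _ (QuotientGroup.mk'_surjective A)]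
      exact S.not_dvd_index)
    exact ⟨X, hX.symm⟩

end Cfsg.Agent.S4217
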