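import Cfsg.Statements.S4219
import Mathlib
import Cfsg.Agent.Lib.Helper7.SylowConj

set_option autoImplicit false
open Cfsg

namespace Cfsg.Agent.S4219

open Cfsg.Agent.Lib.Helper7

/-- Let a finite group `G` act `t`-fold transitively on a finite set, let `H` be the stabilizer of `t` distinct points and `P` a Sylow `p`-subgroup of `H`. Then the normalizer of `P` in `G` is `t`-fold transitive on the fixed points of `P`: any `t` distinct fixed points of `P` can be carried to any other `t` distinct fixed points of `P` by an element normalizing `P`. -/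
theorem result {G : Type*} [Group G] [Finite G] {α : Type*} [Fintype α] [MulAction G α] {t : ℕ} (hG : MulAction.IsMultiplyPretransitive G α t) (x : Fin t ↪ α) {p : ℕ} [Fact p.Prime] (P : Sylow p (MulAction.stabilizer G x)) (a b : Fin t ↪ α) (ha : ∀ i, a i ∈ MulAction.fixedPoints ((P : Subgroup (MulAction.stabilizer G x)).map (MulAction.stabilizer G x).subtype) α) (hb : ∀ i, b i ∈ MulAction.fixedPoints ((P : Subgroup (MulAction.stabilizer G x)).map (MulAction.stabilizer G x).subtype) α) : ∃ g ∈ Subgroup.normalizer ((((P : Subgroup (MulAction.stabilizer G x)).map (MulAction.stabilizer G x).subtype) : Subgroup G) : Set G), g • a = b := by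
  have hpt : MulAction.IsPretransitive G (Fin t ↪ α) := hG
  set Q : Subgroup G := (P : Subgroup (MulAction.stabilizer G x)).map (MulAction.stabilizer G x).subtype with hQdef
  have hQcard : Nat.card Q = p ^ (Nat.card (MulAction.stabilizer G x)).factorization p := by
    rw [← P.card_eq_multiplicity]
    exact Nat.card_congr ((P : Subgroup (MulAction.stabilizer G x)).equivMapOfInjective _
      (Subgroup.subtype_injective _)).symm.toEquiv
  have hstab : ∀ c : Fin t ↪ α, (∀ i, c i ∈ MulAction.fixedPoints Q α) → Q ≤ MulAction.stabilizer G c := by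
    intro c hc q hq
    rw [MulAction.mem_stabilizer_iff]
    ext i
    rw [Function.Embedding.smul_apply]
    exact hc i ⟨q, hq⟩
  have hcard : ∀ c : Fin t ↪ α, Nat.card (MulAction.stabilizer G c) = Nat.card (MulAction.stabilizer G x) := by
    intro c
    obtain ⟨g, hg⟩ := hpt.exists_smul_eq x c
    exact (Nat.card_congr (MulAction.stabilizerEquivStabilizer hg.symm).toEquiv).symm
  obtain ⟨g₀, hg₀⟩ := hpt.exists_smul_eq a b
  -- the conjugate of Q by g₀
  have hQ'le : Q.map (MulAut.conj g₀).toMonoidHom ≤ MulAction.stabilizer G b := by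
    rintro _ ⟨q, hq, rfl⟩
    have hqa : q • a = a := MulAction.mem_stabilizer_iff.mp (hstab a ha hq)
    rw [MulAction.mem_stabilizer_iff, ← hg₀]
    show (g₀ * q * g₀⁻¹) • g₀ • a = g₀ • a
    rw [smul_smul, inv_mul_cancel_right, mul_smul, hqa]
  have hQ'card : Nat.card (Q.map (MulAut.conj g₀).toMonoidHom) = p ^ (Nat.card (MulAction.stabilizer G b)).factorization p := by
    rw [hcard b, ← hQcard]
    exact Nat.card_congr (Q.equivMapOfInjective _ (MulAut.conj g₀).injective).symm.toEquiv
  have hQcard' : Nat.card Q = p ^ (Nat.card (MulAction.stabilizer G b)).factorization p := by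
    rw [hcard b, hQcard]
  obtain ⟨h, hh, hconj⟩ := exists_conj_of_card_eq (MulAction.stabilizer G b) _ Q hQ'le (hstab b hb) hQ'card hQcard'
  refine ⟨h * g₀, ?_, ?_⟩
  · rw [Subgroup.mem_normalizer_iff'']
    intro y
    rw [hconj y]
    constructor
    · rintro ⟨q, hq, hqe⟩
      have : (h * g₀)⁻¹ * y * (h * g₀) = q := by
        have h1 : (MulAut.conj g₀).toMonoidHom q = g₀ * q * g₀⁻¹ := rfl
        rw [h1] at hqe
        have h2 : (h * g₀)⁻¹ * y * (h * g₀) = g₀⁻¹ * (h⁻¹ * y * h) * g₀ := by group
        rw [h2, ← hqe]; group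
      rw [this]; exact hq
    · intro hy
      refine ⟨(h * g₀)⁻¹ * y * (h * g₀), hy, ?_⟩
      show g₀ * ((h * g₀)⁻¹ * y * (h * g₀)) * g₀⁻¹ = h⁻¹ * y * h
      group
  · rw [mul_smul, hg₀]
    exact MulAction.mem_stabilizer_iff.mp hh

end Cfsg.Agent.S4219
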