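import Cfsg.Statements.S4222
import Mathlib

set_option autoImplicit false
open Cfsg

namespace Cfsg.Agent.S4222

open scoped Pointwise

/-- If a normal subgroup `N` of a finite group is complete (its centre is trivial and every automorphism of `N` is inner), then the group is the internal direct product of `N` and the centralizer of `N`: the centralizer is a complement to `N`. -/
theorem result {T : Type*} [Group T] [Finite T] (N : Subgroup T) [N.Normal] (hz : Subgroup.center ↥N = ⊥) (ha : Function.Surjective (MulAut.conj : ↥N →* MulAut ↥N)) : (Subgroup.centralizer (N : Set T)).IsComplement' N := by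
  apply Subgroup.isComplement'_of_disjoint_and_mul_eq_univ
  · rw [Subgroup.disjoint_def]
    intro x hxC hxN
    have h1 : (⟨x, hxN⟩ : N) ∈ Subgroup.center ↥N := by
      rw [Subgroup.mem_center_iff]
      rintro ⟨g, hg⟩
      apply Subtype.ext
      rw [Subgroup.mem_centralizer_iff] at hxC
      exact hxC g hg
    rw [hz, Subgroup.mem_bot] at h1
    exact congrArg Subtype.val h1
  · rw [Set.eq_univ_iff_forall]
    intro t
    obtain ⟨n, hn⟩ := ha (MulAut.conjNormal t)
    have key : ∀ h : N, (n : T) * h * (n : T)⁻¹ = t * h * t⁻¹ := by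
      intro h
      have h1 := congrArg (fun f : MulAut ↥N => ((f h : N) : T)) hn
      simpa [MulAut.conj_apply, MulAut.conjNormal_apply] using h1
    refine Set.mem_mul.mpr ⟨t * (n : T)⁻¹, ?_, (n : T), n.2, by group⟩
    rw [SetLike.mem_coe, Subgroup.mem_centralizer_iff]
    intro h hh
    have h2 := key (⟨(n : T)⁻¹ * h * n, N.mul_mem (N.mul_mem (N.inv_mem n.2) hh) n.2⟩ : N)
    simp only at h2
    have h3 : t * (↑n)⁻¹ * h = (t * ((n : T)⁻¹ * h * n) * t⁻¹) * (t * (n : T)⁻¹) := by group
    rw [h3, ← h2]
    group

end Cfsg.Agent.S4222
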