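import Cfsg.Statements.S4223
import Mathlib

set_option autoImplicit false
open Cfsg

universe u v

namespace Cfsg.Agent.S4223

/-- Fitting's lemma for a normal endomorphism of a finite indecomposable group -/
theorem fitting {H : Type*} [Group H] [Finite H]
    (hind : ∀ K L : Subgroup H, K.Normal → L.Normal → K ⊓ L = ⊥ → K ⊔ L = ⊤ → K = ⊥ ∨ L = ⊥)
    (θ : Monoid.End H) (hθ : ∀ h x : H, θ (h * x * h⁻¹) = h * θ x * h⁻¹) :
    Function.Injective θ ∨ ∃ N : ℕ, ∀ x, (θ ^ N) x = 1 := by
  have hpow : ∀ (k : ℕ) (h x : H), (θ ^ k) (h * x * h⁻¹) = h * (θ ^ k) x * h⁻¹ := by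
    intro k
    induction k with
    | zero => intro h x; rfl
    | succ k ih =>
      intro h x
      rw [pow_succ, Monoid.End.coe_mul, Function.comp_apply, Function.comp_apply, hθ, ih]
  have hadd : ∀ (a b : ℕ) (x : H), (θ ^ (a + b)) x = (θ ^ a) ((θ ^ b) x) := by
    intro a b x
    rw [pow_add, Monoid.End.coe_mul, Function.comp_apply]
  obtain ⟨m, ⟨k₀, hk₀⟩, hmin⟩ := wellFounded_lt.has_min
    (Set.range (fun k : ℕ => MonoidHom.range (θ ^ (k + 1) : H →* H))) ⟨_, ⟨0, rfl⟩⟩
  obtain ⟨N, hN⟩ : ∃ N, N = k₀ + 1 := ⟨_, rfl⟩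
  have hmN : m = MonoidHom.range (θ ^ N : H →* H) := by rw [hN]; exact hk₀.symm
  have h2N : MonoidHom.range (θ ^ (N + N) : H →* H) = MonoidHom.range (θ ^ N : H →* H) := by
    have hle : MonoidHom.range (θ ^ (N + N) : H →* H) ≤ MonoidHom.range (θ ^ N : H →* H) := by
      rintro _ ⟨y, rfl⟩
      exact ⟨(θ ^ N) y, (hadd N N y).symm⟩
    by_contra hne
    apply hmin (MonoidHom.range (θ ^ (N + N) : H →* H)) ⟨k₀ + N, by
      show MonoidHom.range (θ ^ (k₀ + N + 1) : H →* H) = _
      rw [hN]; congr 2; omega⟩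
    rw [hmN]
    exact lt_of_le_of_ne hle hne
  have hsurj : ∀ z ∈ MonoidHom.range (θ ^ N : H →* H),
      ∃ w ∈ MonoidHom.range (θ ^ N : H →* H), (θ ^ N) w = z := by
    intro z hz
    rw [← h2N] at hz
    obtain ⟨y, rfl⟩ := hz
    exact ⟨(θ ^ N) y, ⟨y, rfl⟩, (hadd N N y).symm⟩
  have hinj : ∀ z ∈ MonoidHom.range (θ ^ N : H →* H), (θ ^ N) z = 1 → z = 1 := by
    intro z hz hz1
    let f : MonoidHom.range (θ ^ N : H →* H) → MonoidHom.range (θ ^ N : H →* H) :=
      fun w => ⟨(θ ^ N) w.1, ⟨w.1, rfl⟩⟩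
    have hfs : Function.Surjective f := by
      rintro ⟨z', hz'⟩
      obtain ⟨w, hw, hwz⟩ := hsurj z' hz'
      exact ⟨⟨w, hw⟩, Subtype.ext hwz⟩
    have hfi := Finite.injective_iff_surjective.2 hfs
    have h1 : f ⟨z, hz⟩ = f ⟨1, Subgroup.one_mem _⟩ := by
      apply Subtype.ext
      show (θ ^ N) z = (θ ^ N) 1
      rw [hz1, map_one]
    exact congrArg Subtype.val (hfi h1)
  have hrn : (MonoidHom.range (θ ^ N : H →* H)).Normal := by
    refine ⟨fun z hz g => ?_⟩
    obtain ⟨y, rfl⟩ := hz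
    exact ⟨g * y * g⁻¹, hpow N g y⟩
  have hkn : (MonoidHom.ker (θ ^ N : H →* H)).Normal := MonoidHom.normal_ker _
  have hinf : MonoidHom.ker (θ ^ N : H →* H) ⊓ MonoidHom.range (θ ^ N : H →* H) = ⊥ := by
    rw [eq_bot_iff]
    intro z hz
    obtain ⟨hzk, hzr⟩ := Subgroup.mem_inf.1 hz
    rw [Subgroup.mem_bot]
    exact hinj z hzr (MonoidHom.mem_ker.1 hzk)
  have hsup : MonoidHom.ker (θ ^ N : H →* H) ⊔ MonoidHom.range (θ ^ N : H →* H) = ⊤ := by
    refine eq_top_iff.2 fun x _ => ?_
    obtain ⟨w, hw, hwx⟩ := hsurj ((θ ^ N) x) ⟨x, rfl⟩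
    have h1 : x * w⁻¹ ∈ MonoidHom.ker (θ ^ N : H →* H) := by
      show (θ ^ N) (x * w⁻¹) = 1
      rw [map_mul, map_inv, hwx, mul_inv_cancel]
    have h2 : x = (x * w⁻¹) * w := by group
    rw [h2]
    exact Subgroup.mul_mem_sup h1 hw
  rcases hind _ _ hkn hrn hinf hsup with h | h
  · left
    have hinjθ : Function.Injective (θ : H →* H) := by
      rw [injective_iff_map_eq_one]
      intro x hx
      have h1 : x ∈ MonoidHom.ker (θ ^ N : H →* H) := by
        show (θ ^ N) x = 1
        rw [hN, pow_succ, Monoid.End.coe_mul, Function.comp_apply]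
        have : θ x = 1 := hx
        rw [this, map_one]
      rw [h] at h1
      exact Subgroup.mem_bot.1 h1
    exact hinjθ
  · right
    refine ⟨N, fun x => ?_⟩
    have h1 : (θ ^ N) x ∈ MonoidHom.range (θ ^ N : H →* H) := ⟨x, rfl⟩
    rw [h] at h1
    exact Subgroup.mem_bot.1 h1

open Classical in
/-- truncation endomorphism of a product -/
noncomputable def eps {κ : Type*} {B : κ → Type*} [∀ j, Group (B j)] (P : κ → Prop) :
    (∀ j, B j) →* (∀ j, B j) where
  toFun g := fun j => if P j then g j else 1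
  map_one' := by funext j; simp
  map_mul' := by intro a b; funext j; by_cases h : P j <;> simp [h]

open Classical in
theorem eps_pos {κ : Type*} {B : κ → Type*} [∀ j, Group (B j)] (P : κ → Prop)
    (g : ∀ j, B j) (j : κ) (h : P j) : eps P g j = g j := by
  show (if P j then g j else 1) = g j
  rw [if_pos h]

open Classical in
theorem eps_neg {κ : Type*} {B : κ → Type*} [∀ j, Group (B j)] (P : κ → Prop)
    (g : ∀ j, B j) (j : κ) (h : ¬ P j) : eps P g j = 1 := by
  show (if P j then g j else 1) = 1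
  rw [if_neg h]

theorem eps_conj {κ : Type*} {B : κ → Type*} [∀ j, Group (B j)] (P : κ → Prop)
    (g y : ∀ j, B j) : eps P (g * y * g⁻¹) = g * eps P y * g⁻¹ := by
  funext j
  rw [Pi.mul_apply, Pi.mul_apply, Pi.inv_apply]
  by_cases h : P j
  · rw [eps_pos P _ j h, eps_pos P _ j h, Pi.mul_apply, Pi.mul_apply, Pi.inv_apply]
  · rw [eps_neg P _ j h, eps_neg P _ j h, mul_one, mul_inv_cancel]

theorem kl {H X κ : Type*} {B : κ → Type*} [Group H] [Finite H] [Nontrivial H] [Group X] [Finite X]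
    [Finite κ] [∀ j, Group (B j)] [∀ j, Finite (B j)]
    (hH : ∀ K L : Subgroup H, K.Normal → L.Normal → K ⊓ L = ⊥ → K ⊔ L = ⊤ → K = ⊥ ∨ L = ⊥)
    (hB : ∀ j, ∀ K L : Subgroup (B j), K.Normal → L.Normal → K ⊓ L = ⊥ → K ⊔ L = ⊤ →
      K = ⊥ ∨ L = ⊥)
    (e : H × X ≃* ∀ j, B j) :
    ∃ j₀, Nonempty (H ≃* B j₀) ∧ Nonempty (X ≃* ∀ j : {j // j ≠ j₀}, B j.1) := by
  classical
  haveI : Fintype κ := Fintype.ofFinite κ
  let ι : H →* (∀ j, B j) := e.toMonoidHom.comp (MonoidHom.inl H X)
  let π : (∀ j, B j) →* H := (MonoidHom.fst H X).comp e.symm.toMonoidHom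
  have hι : ∀ h, ι h = e (h, 1) := fun h => rfl
  have hπ : ∀ g, π g = (e.symm g).1 := fun g => rfl
  have hπι : ∀ h, π (ι h) = h := by
    intro h; rw [hι, hπ, MulEquiv.symm_apply_apply]
  have hconj : ∀ (g : ∀ j, B j) (h : H), g * ι h * g⁻¹ = ι (π g * h * (π g)⁻¹) := by
    intro g h
    apply e.symm.injective
    rw [hι, hι, map_mul, map_mul, map_inv, MulEquiv.symm_apply_apply, MulEquiv.symm_apply_apply,
      hπ]
    refine Prod.ext ?_ ?_
    · simp
    · simp
  let θ : (κ → Prop) → (H →* H) := fun P => π.comp ((eps P).comp ι)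
  have hθ : ∀ (P : κ → Prop) (x : H), θ P x = π (eps P (ι x)) := fun P x => rfl
  have hθn : ∀ (P : κ → Prop) (h x : H), θ P (h * x * h⁻¹) = h * θ P x * h⁻¹ := by
    intro P h x
    have h1 : ι (h * x * h⁻¹) = ι h * ι x * (ι h)⁻¹ := by rw [map_mul, map_mul, map_inv]
    rw [hθ, hθ, h1, eps_conj, map_mul, map_mul, map_inv, hπι]
  have key : ∃ j₀, Function.Injective (θ (fun j => j = j₀)) := by
    by_contra hno
    replace hno : ∀ j₀, ¬ Function.Injective (θ (fun j => j = j₀)) := fun j₀ h => hno ⟨j₀, h⟩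
    have hS : ∀ S : Finset κ, Function.Injective (θ (fun j => j ∉ S)) := by
      intro S
      induction S using Finset.induction_on with
      | empty =>
        intro x y hxy
        have h1 : ∀ z, θ (fun j => j ∉ (∅ : Finset κ)) z = z := by
          intro z
          rw [hθ]
          have : eps (fun j => j ∉ (∅ : Finset κ)) (ι z) = ι z := by
            funext j
            exact eps_pos _ _ _ (Finset.notMem_empty j)
          rw [this, hπι]
        rw [h1, h1] at hxy
        exact hxy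
      | insert a S ha ih =>
        have hbij : Function.Bijective (θ (fun j => j ∉ S)) :=
          ⟨ih, Finite.injective_iff_surjective.1 ih⟩
        let α : H ≃* H := MulEquiv.ofBijective (θ (fun j => j ∉ S)) hbij
        have hα : ∀ x, α x = θ (fun j => j ∉ S) x := fun x => rfl
        have hαn : ∀ h z : H, α.symm (h * z * h⁻¹) = h * α.symm z * h⁻¹ := by
          intro h z
          apply α.injective
          rw [MulEquiv.apply_symm_apply, hα, hθn, ← hα, MulEquiv.apply_symm_apply]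
        let ψ : Monoid.End H := α.symm.toMonoidHom.comp (θ (fun j => j = a))
        have hψ : ∀ x, ψ x = α.symm (θ (fun j => j = a) x) := fun x => rfl
        have hψn : ∀ h x : H, ψ (h * x * h⁻¹) = h * ψ x * h⁻¹ := by
          intro h x
          rw [hψ, hψ, hθn, hαn]
        have hsplit : ∀ x, θ (fun j => j ∉ S) x =
            θ (fun j => j = a) x * θ (fun j => j ∉ insert a S) x := by
          intro x
          rw [hθ, hθ, hθ, ← map_mul]
          congr 1
          funext j
          rw [Pi.mul_apply]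
          by_cases hja : j = a
          · have h1 : j ∉ S := by rw [hja]; exact ha
            have h2 : ¬ (j ∉ insert a S) := by simp [hja]
            rw [eps_pos (fun j => j ∉ S) _ j h1, eps_pos (fun j => j = a) _ j hja,
              eps_neg (fun j => j ∉ insert a S) _ j h2, mul_one]
          · have hjS : j ∉ insert a S ↔ j ∉ S := by simp [hja]
            rw [eps_neg (fun j => j = a) _ j hja, one_mul]
            by_cases hj : j ∈ S
            · rw [eps_neg (fun j => j ∉ S) _ j (not_not.2 hj),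
                eps_neg (fun j => j ∉ insert a S) _ j (fun h => (hjS.1 h) hj)]
            · rw [eps_pos (fun j => j ∉ S) _ j hj,
                eps_pos (fun j => j ∉ insert a S) _ j (hjS.2 hj)]
        rcases fitting hH ψ hψn with hinj | ⟨N, hN⟩
        · exfalso
          apply hno a
          intro x y hxy
          apply hinj
          rw [hψ, hψ, hxy]
        · intro x y hxy
          have hone : ∀ x, θ (fun j => j ∉ insert a S) x = 1 → x = 1 := by
            intro x hx
            have h0 : θ (fun j => j = a) x = α x := by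
              rw [hα, hsplit x, hx, mul_one]
            have h1 : ψ x = x := by rw [hψ, h0, MulEquiv.symm_apply_apply]
            have h2 : ∀ k : ℕ, (ψ ^ k) x = x := by
              intro k
              induction k with
              | zero => rfl
              | succ k ih => rw [pow_succ, Monoid.End.coe_mul, Function.comp_apply, h1, ih]
            calc x = (ψ ^ N) x := (h2 N).symm
              _ = 1 := hN x
          have h3 : x * y⁻¹ = 1 := by
            apply hone
            rw [map_mul, map_inv, hxy, mul_inv_cancel]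
          exact mul_inv_eq_one.1 h3
    have h1 := hS Finset.univ
    obtain ⟨x, hx⟩ := exists_ne (1 : H)
    apply hx
    apply h1
    rw [map_one, hθ]
    have : eps (fun j => j ∉ (Finset.univ : Finset κ)) (ι x) = 1 := by
      funext j
      exact eps_neg _ _ _ (not_not.2 (Finset.mem_univ j))
    rw [this, map_one]
  obtain ⟨j₀, hj₀⟩ := key
  refine ⟨j₀, ?_⟩
  have hbij₀ : Function.Bijective (θ (fun j => j = j₀)) :=
    ⟨hj₀, Finite.injective_iff_surjective.1 hj₀⟩
  let a : H →* B j₀ := (Pi.evalMonoidHom B j₀).comp ι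
  let b : B j₀ →* H := π.comp (MonoidHom.mulSingle B j₀)
  have ha : ∀ h, a h = ι h j₀ := fun h => rfl
  have hb : ∀ k, b k = π (Pi.mulSingle j₀ k) := fun k => rfl
  have hba : ∀ h, b (a h) = θ (fun j => j = j₀) h := by
    intro h
    rw [hb, ha, hθ]
    congr 1
    funext j
    by_cases hj : j = j₀
    · rw [eps_pos (fun j => j = j₀) _ j hj, hj, Pi.mulSingle_eq_same]
    · rw [Pi.mulSingle_eq_of_ne hj, eps_neg (fun j => j = j₀) _ j hj]
  have hrn : a.range.Normal := by
    refine ⟨fun z hz k => ?_⟩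
    obtain ⟨h, rfl⟩ := hz
    refine ⟨b k * h * (b k)⁻¹, ?_⟩
    rw [ha, hb, ← hconj, ha, Pi.mul_apply, Pi.mul_apply, Pi.inv_apply, Pi.mulSingle_eq_same]
  have hinf : a.range ⊓ b.ker = ⊥ := by
    rw [eq_bot_iff]
    intro z hz
    obtain ⟨⟨h, rfl⟩, hzk⟩ := Subgroup.mem_inf.1 hz
    rw [Subgroup.mem_bot]
    have h1 : b (a h) = 1 := MonoidHom.mem_ker.1 hzk
    rw [hba] at h1
    have h2 : h = 1 := hj₀ (by rw [h1, map_one])
    rw [h2, map_one]
  have hsup : a.range ⊔ b.ker = ⊤ := by
    refine eq_top_iff.2 fun k _ => ?_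
    obtain ⟨h, hh⟩ := hbij₀.2 (b k)
    have h1 : (a h)⁻¹ * k ∈ b.ker := by
      rw [MonoidHom.mem_ker, map_mul, map_inv, hba, hh, inv_mul_cancel]
    have h2 : k = a h * ((a h)⁻¹ * k) := by group
    rw [h2]
    exact Subgroup.mul_mem_sup ⟨h, rfl⟩ h1
  have hbker : b.ker = ⊥ := by
    rcases hB j₀ _ _ hrn (MonoidHom.normal_ker b) hinf hsup with h | h
    · exfalso
      obtain ⟨x, hx⟩ := exists_ne (1 : H)
      apply hx
      apply hj₀
      rw [map_one, ← hba]
      have h3 : a x ∈ a.range := ⟨x, rfl⟩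
      rw [h, Subgroup.mem_bot] at h3
      rw [h3, map_one]
    · exact h
  have hbinj : Function.Injective b := (MonoidHom.ker_eq_bot_iff b).1 hbker
  have hainj : Function.Injective a := by
    intro x y hxy
    apply hj₀
    rw [← hba, ← hba, hxy]
  have hasurj : Function.Surjective a := by
    intro k
    obtain ⟨h, hh⟩ := hbij₀.2 (b k)
    refine ⟨h, hbinj ?_⟩
    rw [hba, hh]
  refine ⟨⟨MulEquiv.ofBijective a ⟨hainj, hasurj⟩⟩, ?_⟩
  let c : X →* (∀ j : {j // j ≠ j₀}, B j.1) :=
    MonoidHom.pi (fun j : {j // j ≠ j₀} =>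
      (Pi.evalMonoidHom B j.1).comp (e.toMonoidHom.comp (MonoidHom.inr H X)))
  have hc : ∀ x (j : {j // j ≠ j₀}), c x j = e (1, x) j.1 := fun x j => rfl
  have hcinj : Function.Injective c := by
    rw [injective_iff_map_eq_one]
    intro x hx
    have h1 : e (1, x) = Pi.mulSingle j₀ (e (1, x) j₀) := by
      funext j
      by_cases hj : j = j₀
      · rw [hj, Pi.mulSingle_eq_same]
      · rw [Pi.mulSingle_eq_of_ne hj]
        have h5 := congrFun hx ⟨j, hj⟩
        rw [hc] at h5
        exact h5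
    have h2 : b (e (1, x) j₀) = 1 := by
      rw [hb, ← h1, hπ, MulEquiv.symm_apply_apply]
    have h3 : e (1, x) j₀ = 1 := hbinj (by rw [h2, map_one])
    rw [h3, Pi.mulSingle_one] at h1
    have h4 : ((1 : H), x) = 1 := e.injective (by rw [h1, map_one])
    exact (Prod.ext_iff.1 h4).2
  have hcard : Nat.card X = Nat.card (∀ j : {j // j ≠ j₀}, B j.1) := by
    have h1 : Nat.card (H × X) = Nat.card (B j₀ × (∀ j : {j // j ≠ j₀}, B j.1)) :=
      Nat.card_congr (e.toEquiv.trans (Equiv.piSplitAt j₀ B))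
    rw [Nat.card_prod, Nat.card_prod] at h1
    have h2 : Nat.card H = Nat.card (B j₀) :=
      Nat.card_congr (MulEquiv.ofBijective a ⟨hainj, hasurj⟩).toEquiv
    rw [h2] at h1
    exact Nat.eq_of_mul_eq_mul_left Nat.card_pos h1
  exact ⟨MulEquiv.ofBijective c ((Nat.bijective_iff_injective_and_card c).2 ⟨hcinj, hcard⟩)⟩

theorem gks : ∀ (N : ℕ) (ι κ : Type) [Finite ι] [Finite κ] (A : ι → Type u) (B : κ → Type v)
    [∀ i, Group (A i)] [∀ j, Group (B j)] [∀ i, Finite (A i)] [∀ j, Finite (B j)],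
    Nat.card ι = N →
    (∀ i, Nontrivial (A i) ∧ ∀ H K : Subgroup (A i), H.Normal → K.Normal → H ⊓ K = ⊥ →
      H ⊔ K = ⊤ → H = ⊥ ∨ K = ⊥) →
    (∀ j, Nontrivial (B j) ∧ ∀ H K : Subgroup (B j), H.Normal → K.Normal → H ⊓ K = ⊥ →
      H ⊔ K = ⊤ → H = ⊥ ∨ K = ⊥) →
    ((∀ i, A i) ≃* (∀ j, B j)) → ∃ σ : ι ≃ κ, ∀ i, Nonempty (A i ≃* B (σ i)) := by
  intro N
  induction N with
  | zero =>
    intro ι κ _ _ A B _ _ _ _ hcard hA hB e
    haveI : IsEmpty ι := by
      rcases Nat.card_eq_zero.1 hcard with h | h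
      · exact h
      · exact absurd ‹Finite ι› (not_finite_iff_infinite.2 h)
    haveI : IsEmpty κ := by
      by_contra hne
      rw [not_isEmpty_iff] at hne
      obtain ⟨j⟩ := hne
      haveI := (hB j).1
      obtain ⟨b, hb⟩ := exists_ne (1 : B j)
      classical
      have h1 : e.symm (Pi.mulSingle j b) = 1 := Subsingleton.elim _ _
      have h2 : (Pi.mulSingle j b : ∀ j, B j) = 1 := by
        apply e.symm.injective; rw [h1, map_one]
      apply hb
      have h3 := congrFun h2 j
      rwa [Pi.mulSingle_eq_same] at h3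
    exact ⟨Equiv.equivOfIsEmpty ι κ, fun i => isEmptyElim i⟩
  | succ N ih =>
    intro ι κ _ _ A B _ _ _ _ hcard hA hB e
    classical
    haveI : Nonempty ι := by
      have : 0 < Nat.card ι := by omega
      exact (Nat.card_pos_iff.1 this).1
    obtain ⟨i₀⟩ := ‹Nonempty ι›
    let sp : (∀ i, A i) ≃* A i₀ × (∀ i : {i // i ≠ i₀}, A i.1) :=
      { Equiv.piSplitAt i₀ A with map_mul' := fun f g => rfl }
    haveI := (hA i₀).1
    obtain ⟨j₀, ⟨f₀⟩, ⟨f₁⟩⟩ := kl (hA i₀).2 (fun j => (hB j).2) (sp.symm.trans e)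
    have hc' : Nat.card {i // i ≠ i₀} = N := by
      have h1 := Nat.card_congr (Equiv.optionSubtypeNe i₀)
      rw [Finite.card_option] at h1
      omega
    obtain ⟨σ', hσ'⟩ := ih {i // i ≠ i₀} {j // j ≠ j₀} (fun i => A i.1) (fun j => B j.1) hc'
      (fun i => hA i.1) (fun j => hB j.1) f₁
    let σ : ι ≃ κ := (Equiv.optionSubtypeNe i₀).symm.trans
      ((Equiv.optionCongr σ').trans (Equiv.optionSubtypeNe j₀))
    refine ⟨σ, fun i => ?_⟩
    by_cases hi : i = i₀
    · have hσ : σ i = j₀ := by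
        show (Equiv.optionSubtypeNe j₀) ((Equiv.optionCongr σ')
          ((Equiv.optionSubtypeNe i₀).symm i)) = j₀
        rw [hi, Equiv.optionSubtypeNe_symm_self]
        simp
      rw [hσ, hi]
      exact ⟨f₀⟩
    · have hσ : σ i = (σ' ⟨i, hi⟩).1 := by
        show (Equiv.optionSubtypeNe j₀) ((Equiv.optionCongr σ')
          ((Equiv.optionSubtypeNe i₀).symm i)) = _
        rw [Equiv.optionSubtypeNe_symm_of_ne hi]
        simp
      rw [hσ]
      exact hσ' ⟨i, hi⟩

/-- If a finite group is isomorphic both to a direct product of `m` directly indecomposable nontrivial groups and to a direct product of `n` such groups (a group is directly indecomposable when it is not the internal direct product of two nontrivial normal subgroups), then `m = n` and the factors are isomorphic in pairs after a suitable matching. -/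
theorem result {m n : ℕ} {A : Fin m → Type*} {B : Fin n → Type*} [∀ i, Group (A i)] [∀ j, Group (B j)] [∀ i, Finite (A i)] [∀ j, Finite (B j)] (hA : ∀ i, Nontrivial (A i) ∧ ∀ H K : Subgroup (A i), H.Normal → K.Normal → H ⊓ K = ⊥ → H ⊔ K = ⊤ → H = ⊥ ∨ K = ⊥) (hB : ∀ j, Nontrivial (B j) ∧ ∀ H K : Subgroup (B j), H.Normal → K.Normal → H ⊓ K = ⊥ → H ⊔ K = ⊤ → H = ⊥ ∨ K = ⊥) (e : ((i : Fin m) → A i) ≃* ((j : Fin n) → B j)) : ∃ σ : Fin m ≃ Fin n, ∀ i, Nonempty (A i ≃* B (σ i)) := by
  exact gks m (Fin m) (Fin n) A B (Nat.card_fin m) hA hB e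

end Cfsg.Agent.S4223
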