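import Cfsg.Statements.S4275
import Mathlib

set_option autoImplicit false
open Cfsg

namespace Cfsg.Agent.S4275

/-- Let G be a transitive group of permutations of a finite set Ω, let o ∈ Ω, and let α be an automorphism of G. Then α is induced by conjugation by a permutation of Ω normalizing G if and only if the image under α of the stabilizer of o fixes some point of Ω. -/
theorem result {Ω : Type*} [Fintype Ω] (G : Subgroup (Equiv.Perm Ω)) (htr : MulAction.IsPretransitive G Ω) (o : Ω) (α : G ≃* G) : (∃ σ : Equiv.Perm Ω, σ ∈ Subgroup.normalizer (G : Set (Equiv.Perm Ω)) ∧ ∀ g : G, ((α g : G) : Equiv.Perm Ω) = σ * (g : Equiv.Perm Ω) * σ⁻¹) ↔ ∃ ω : Ω, ∀ g ∈ (MulAction.stabilizer G o).map α.toMonoidHom, g • ω = ω := by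
  classical
  have hsmul : ∀ (g : G) (x : Ω), g • x = (g : Equiv.Perm Ω) x := fun g x => rfl
  constructor
  · rintro ⟨σ, -, hσ⟩
    refine ⟨σ o, ?_⟩
    intro g hg
    obtain ⟨g₀, hg₀, rfl⟩ := Subgroup.mem_map.mp hg
    rw [MulAction.mem_stabilizer_iff, hsmul] at hg₀
    rw [hsmul]
    show ((α g₀ : G) : Equiv.Perm Ω) (σ o) = σ o
    rw [hσ g₀]
    simp [hg₀]
  · rintro ⟨ω, hω⟩
    have hfinG : Finite G := inferInstance
    -- cardinalities of stabilizers
    have hcard : Nat.card (MulAction.stabilizer G o) = Nat.card (MulAction.stabilizer G ω) := by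
      have h1 := MulAction.index_stabilizer_of_transitive G o
      have h2 := MulAction.index_stabilizer_of_transitive G ω
      have h3 := Subgroup.card_mul_index (MulAction.stabilizer G o)
      have h4 := Subgroup.card_mul_index (MulAction.stabilizer G ω)
      rw [h1] at h3
      rw [h2] at h4
      have hpos : 0 < Nat.card Ω := Nat.card_pos_iff.mpr ⟨⟨o⟩, inferInstance⟩
      exact Nat.eq_of_mul_eq_mul_right hpos (h3.trans h4.symm)
    have hle : (MulAction.stabilizer G o).map α.toMonoidHom ≤ MulAction.stabilizer G ω := by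
      intro g hg
      rw [MulAction.mem_stabilizer_iff]
      exact hω g hg
    have hcard2 : Nat.card ((MulAction.stabilizer G o).map α.toMonoidHom) = Nat.card (MulAction.stabilizer G o) := by
      apply Subgroup.card_map_of_injective
      exact α.injective
    have heq : (MulAction.stabilizer G o).map α.toMonoidHom = MulAction.stabilizer G ω := by
      apply Subgroup.eq_of_le_of_card_ge hle
      rw [hcard2, hcard]
    have hiff : ∀ g : G, g • o = o ↔ α g • ω = ω := by
      intro g
      constructor
      · intro h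
        exact hω _ (Subgroup.mem_map_of_mem _ (MulAction.mem_stabilizer_iff.mpr h))
      · intro h
        have h1 : α g ∈ (MulAction.stabilizer G o).map α.toMonoidHom := by
          rw [heq]; exact MulAction.mem_stabilizer_iff.mpr h
        obtain ⟨g', hg', e⟩ := Subgroup.mem_map.mp h1
        have : g' = g := α.injective e
        rw [← this]
        exact MulAction.mem_stabilizer_iff.mp hg'
    have hex : ∀ x : Ω, ∃ g : G, g • o = x := fun x => MulAction.exists_smul_eq G o x
    choose c hc using hex
    let f : Ω → Ω := fun x => α (c x) • ω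
    have hf : ∀ g : G, f (g • o) = α g • ω := by
      intro g
      have h1 : (g⁻¹ * c (g • o)) • o = o := by
        rw [mul_smul, hc, inv_smul_smul]
      have h2 := (hiff _).mp h1
      rw [map_mul, map_inv, mul_smul, inv_smul_eq_iff] at h2
      exact h2
    have hinj : Function.Injective f := by
      intro x y hxy
      have h1 : α ((c y)⁻¹ * c x) • ω = ω := by
        rw [map_mul, map_inv, mul_smul, inv_smul_eq_iff]
        exact hxy
      have h2 := (hiff _).mpr h1
      rw [mul_smul, inv_smul_eq_iff, hc, hc] at h2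
      exact h2
    have hbij : Function.Bijective f := ⟨hinj, Finite.injective_iff_surjective.mp hinj⟩
    let σ : Equiv.Perm Ω := Equiv.ofBijective f hbij
    have hσ : ∀ x, σ x = f x := fun x => rfl
    have hconj : ∀ g : G, ((α g : G) : Equiv.Perm Ω) = σ * (g : Equiv.Perm Ω) * σ⁻¹ := by
      intro g
      rw [eq_mul_inv_iff_mul_eq]
      ext x
      rw [Equiv.Perm.mul_apply, Equiv.Perm.mul_apply, hσ, hσ]
      obtain ⟨h, rfl⟩ := MulAction.exists_smul_eq G o x
      rw [← hsmul g, ← mul_smul, hf, hf, map_mul, mul_smul]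
      rfl
    refine ⟨σ, ?_, hconj⟩
    rw [Subgroup.mem_normalizer_iff]
    intro n
    constructor
    · intro hn
      have := hconj ⟨n, hn⟩
      have h2 : σ * n * σ⁻¹ = ((α ⟨n, hn⟩ : G) : Equiv.Perm Ω) := this.symm
      rw [h2]
      exact (α ⟨n, hn⟩).2
    · intro hn
      obtain ⟨g, hg⟩ := α.surjective ⟨_, hn⟩
      have h1 := hconj g
      rw [hg] at h1
      have h2 : n = (g : Equiv.Perm Ω) := by
        have h3 : σ * n * σ⁻¹ = σ * (g : Equiv.Perm Ω) * σ⁻¹ := h1
        exact mul_left_cancel (mul_right_cancel h3)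
      rw [h2]
      exact g.2

end Cfsg.Agent.S4275
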