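import Cfsg.Statements.S4283
import Mathlib
import Cfsg.Agent.Lib.Helper7.Basic
import Cfsg.Agent.Lib.Helper7.Jordan
import Cfsg.Agent.Lib.Helper7.MapConj

set_option autoImplicit false
open Cfsg

namespace Cfsg.Agent.S4283

open Cfsg.Agent.Lib.Helper7
open scoped Pointwise

section Frob

variable {Q : Type*} [Group Q] (Hb Kb : Subgroup Q)

/-- (F2) In a Frobenius group, an element conjugating a nontrivial element of a conjugate of the
complement into that conjugate lies in the conjugate. -/
theorem F2 (hF : Cfsg.IsFrobeniusComplement Hb) (a x g : Q) (hx : a⁻¹ * x * a ∈ Hb) (hx1 : x ≠ 1)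
    (hg : a⁻¹ * (g * x * g⁻¹) * a ∈ Hb) : a⁻¹ * g * a ∈ Hb := by
  by_contra ht
  have h1 := hF.2.2 (a⁻¹ * g * a) ht
  have h2 : a⁻¹ * (g * x * g⁻¹) * a ∈ Hb ⊓ (MulAut.conj (a⁻¹ * g * a) • Hb) := by
    refine ⟨hg, ?_⟩
    apply (mem_conj_smul _ _ _).mpr
    have : (a⁻¹ * g * a)⁻¹ * (a⁻¹ * (g * x * g⁻¹) * a) * (a⁻¹ * g * a) = a⁻¹ * x * a := by group
    rw [this]
    exact hx
  rw [h1, Subgroup.mem_bot] at h2
  apply hx1
  have h3 : x = g⁻¹ * (a * (a⁻¹ * (g * x * g⁻¹) * a) * a⁻¹) * g := by group
  rw [h3, h2]
  group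

/-- (F3) -/
theorem F3 (hk : Cfsg.frobeniusKernel Hb = (Kb : Set Q)) (x : Q) (hx : x ∉ Kb) :
    ∃ a, a⁻¹ * x * a ∈ Hb := by
  have h1 : x ∉ Cfsg.frobeniusKernel Hb := by rw [hk]; exact hx
  simp only [Cfsg.frobeniusKernel, Set.mem_ofPred_eq, not_or, not_forall, not_not] at h1
  obtain ⟨a, ha⟩ := h1.2
  exact ⟨a, (mem_conj_smul a x Hb).mp ha⟩

/-- (F4) -/
theorem F4 (hk : Cfsg.frobeniusKernel Hb = (Kb : Set Q)) (x a : Q) (hx : x ∈ Kb)
    (hxa : a⁻¹ * x * a ∈ Hb) : x = 1 := by
  have h1 : x ∈ Cfsg.frobeniusKernel Hb := by rw [hk]; exact hx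
  simp only [Cfsg.frobeniusKernel, Set.mem_ofPred_eq] at h1
  rcases h1 with h1 | h1
  · exact h1
  · exact absurd ((mem_conj_smul a x Hb).mpr hxa) (h1 a)

/-- (F1) -/
theorem F1 (hF : Cfsg.IsFrobeniusComplement Hb) (hk : Cfsg.frobeniusKernel Hb = (Kb : Set Q))
    (x g : Q) (hx : x ∈ Kb) (hx1 : x ≠ 1) (hg : g * x = x * g) : g ∈ Kb := by
  by_contra hgK
  obtain ⟨a, ha⟩ := F3 Hb Kb hk g hgK
  have hg1 : g ≠ 1 := by
    rintro rfl
    exact hgK Kb.one_mem
  have h1 : a⁻¹ * (x * g * x⁻¹) * a ∈ Hb := by
    have : x * g * x⁻¹ = g := by rw [← hg]; group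
    rw [this]; exact ha
  have h2 := F2 Hb hF a g x ha hg1 h1
  exact hx1 (F4 Hb Kb hk x a hx h2)

end Frob

/-- Let G be a finite group with centre Z and let K, H be abelian subgroups of G containing Z such that G/Z is a Frobenius group with complement H/Z and kernel K/Z. Then the conjugacy class sizes of G are exactly 1, [G : K] and [G : H], and these two indices are coprime. (This is the converse half of the characterization of finite groups whose conjugacy class sizes are exactly 1, m and n with m and n coprime.) -/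
theorem result {G : Type*} [Group G] [Finite G] (K H : Subgroup G) (hZK : Subgroup.center G ≤ K) (hZH : Subgroup.center G ≤ H) (hK : IsMulCommutative K) (hH : IsMulCommutative H) (hFrob : Cfsg.IsFrobeniusComplement (H.map (QuotientGroup.mk' (Subgroup.center G)))) (hker : Cfsg.frobeniusKernel (H.map (QuotientGroup.mk' (Subgroup.center G))) = (K.map (QuotientGroup.mk' (Subgroup.center G)) : Set (G ⧸ Subgroup.center G))) : Set.range (fun x : G => (Subgroup.centralizer ({x} : Set G)).index) = ({1, K.index, H.index} : Set ℕ) ∧ K.index.Coprime H.index := by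
  -- lifting lemmas
  have liftK : ∀ g : G, (QuotientGroup.mk' (Subgroup.center G)) g ∈ K.map (QuotientGroup.mk' (Subgroup.center G)) → g ∈ K := by
    intro g hg
    obtain ⟨k, hk, e⟩ := Subgroup.mem_map.mp hg
    have h1 : k⁻¹ * g ∈ Subgroup.center G := QuotientGroup.eq.mp e
    have h2 := K.mul_mem hk (hZK h1)
    rwa [mul_inv_cancel_left] at h2
  have liftH : ∀ g : G, (QuotientGroup.mk' (Subgroup.center G)) g ∈ H.map (QuotientGroup.mk' (Subgroup.center G)) → g ∈ H := by
    intro g hg
    obtain ⟨k, hk, e⟩ := Subgroup.mem_map.mp hg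
    have h1 : k⁻¹ * g ∈ Subgroup.center G := QuotientGroup.eq.mp e
    have h2 := H.mul_mem hk (hZH h1)
    rwa [mul_inv_cancel_left] at h2
  have hKcomm : ∀ a ∈ K, ∀ b ∈ K, a * b = b * a := by
    intro a ha b hb
    have := hK.is_comm.comm ⟨a, ha⟩ ⟨b, hb⟩
    exact congrArg Subtype.val this
  have hHcomm : ∀ a ∈ H, ∀ b ∈ H, a * b = b * a := by
    intro a ha b hb
    have := hH.is_comm.comm ⟨a, ha⟩ ⟨b, hb⟩
    exact congrArg Subtype.val this
  have mk_ne_one : ∀ x : G, x ∉ Subgroup.center G → (QuotientGroup.mk' (Subgroup.center G)) x ≠ 1 := by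
    intro x hx h
    exact hx ((QuotientGroup.eq_one_iff x).mp h)
  -- centralizers
  have cent1 : ∀ x : G, x ∈ Subgroup.center G → (Subgroup.centralizer ({x} : Set G)).index = 1 := by
    intro x hx
    rw [Subgroup.index_eq_one, eq_top_iff]
    intro g _
    rw [Subgroup.mem_centralizer_singleton_iff]
    exact Subgroup.mem_center_iff.mp hx g
  have cent2 : ∀ x : G, x ∉ Subgroup.center G → x ∈ K → Subgroup.centralizer ({x} : Set G) = K := by
    intro x hxZ hxK
    apply le_antisymm
    · intro g hg
      rw [Subgroup.mem_centralizer_singleton_iff] at hg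
      apply liftK
      apply F1 _ _ hFrob hker ((QuotientGroup.mk' (Subgroup.center G)) x) _ (Subgroup.mem_map_of_mem _ hxK)
        (mk_ne_one x hxZ)
      rw [← map_mul, ← map_mul, hg]
    · intro g hg
      rw [Subgroup.mem_centralizer_singleton_iff]
      exact hKcomm g hg x hxK
  have cent3 : ∀ x : G, x ∉ K → ∃ a : G, Subgroup.centralizer ({x} : Set G) = H.map (MulAut.conj a).toMonoidHom := by
    intro x hxK
    have hxK' : (QuotientGroup.mk' (Subgroup.center G)) x ∉ K.map (QuotientGroup.mk' (Subgroup.center G)) :=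
      fun h => hxK (liftK x h)
    have hx1 : (QuotientGroup.mk' (Subgroup.center G)) x ≠ 1 := by
      intro h
      apply hxK'
      rw [h]
      exact Subgroup.one_mem _
    obtain ⟨abar, ha⟩ := F3 _ _ hker _ hxK'
    obtain ⟨a, rfl⟩ := QuotientGroup.mk'_surjective _ abar
    refine ⟨a, ?_⟩
    have hxa : a⁻¹ * x * a ∈ H := by
      apply liftH
      rw [map_mul, map_mul, map_inv]
      exact ha
    apply le_antisymm
    · intro g hg
      rw [Subgroup.mem_centralizer_singleton_iff] at hg
      rw [mem_map_conj]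
      apply liftH
      have h1 := F2 _ hFrob ((QuotientGroup.mk' (Subgroup.center G)) a) ((QuotientGroup.mk' (Subgroup.center G)) x)
        ((QuotientGroup.mk' (Subgroup.center G)) g) ha hx1 (by
          have : g * x * g⁻¹ = x := by rw [hg]; group
          have e : (QuotientGroup.mk' (Subgroup.center G)) g * (QuotientGroup.mk' (Subgroup.center G)) x *
              ((QuotientGroup.mk' (Subgroup.center G)) g)⁻¹ = (QuotientGroup.mk' (Subgroup.center G)) x := by
            rw [← map_mul, ← map_inv, ← map_mul, this]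
          rw [e]
          exact ha)
      rw [map_mul, map_mul, map_inv]
      exact h1
    · intro g hg
      rw [mem_map_conj] at hg
      rw [Subgroup.mem_centralizer_singleton_iff]
      have h1 := hHcomm _ hg _ hxa
      calc g * x = a * ((a⁻¹ * g * a) * (a⁻¹ * x * a)) * a⁻¹ := by group
        _ = a * ((a⁻¹ * x * a) * (a⁻¹ * g * a)) * a⁻¹ := by rw [h1]
        _ = x * g := by group
  have idx3 : ∀ a : G, (H.map (MulAut.conj a).toMonoidHom).index = H.index := by
    intro a
    exact Subgroup.index_map_equiv H (MulAut.conj a)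
  constructor
  · ext n
    simp only [Set.mem_range, Set.mem_insert_iff, Set.mem_singleton_iff]
    constructor
    · rintro ⟨x, rfl⟩
      by_cases hxZ : x ∈ Subgroup.center G
      · exact Or.inl (cent1 x hxZ)
      · by_cases hxK : x ∈ K
        · right; left
          rw [cent2 x hxZ hxK]
        · right; right
          obtain ⟨a, ha⟩ := cent3 x hxK
          rw [ha, idx3]
    · rintro (rfl | rfl | rfl)
      · exact ⟨1, cent1 1 (Subgroup.one_mem _)⟩
      · obtain ⟨xbar, hxbar⟩ := exists_not_mem_conj _ hFrob.2.1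
        obtain ⟨x, rfl⟩ := QuotientGroup.mk'_surjective _ xbar
        have h1 : (QuotientGroup.mk' (Subgroup.center G)) x ∈ Cfsg.frobeniusKernel (H.map (QuotientGroup.mk' (Subgroup.center G))) := by
          simp only [Cfsg.frobeniusKernel, Set.mem_ofPred_eq]
          right
          intro g hg
          exact hxbar g ((mem_conj_smul _ _ _).mp hg)
        rw [hker] at h1
        have hxK : x ∈ K := liftK x h1
        have hxZ : x ∉ Subgroup.center G := by
          intro h
          have h2 : (QuotientGroup.mk' (Subgroup.center G)) x = 1 := (QuotientGroup.eq_one_iff x).mpr h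
          have h3 := hxbar 1
          rw [h2] at h3
          apply h3
          simp
        exact ⟨x, by rw [cent2 x hxZ hxK]⟩
      · have h1 := hFrob.1
        have h2 : ∃ hbar ∈ H.map (QuotientGroup.mk' (Subgroup.center G)), hbar ≠ 1 := by
          by_contra hcon
          push Not at hcon
          apply h1
          rw [eq_bot_iff]
          intro y hy
          rw [Subgroup.mem_bot]
          exact hcon y hy
        obtain ⟨hbar, hhbar, hne⟩ := h2
        obtain ⟨h, hh, rfl⟩ := Subgroup.mem_map.mp hhbar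
        have hhK : h ∉ K := by
          intro hK'
          apply hne
          apply F4 _ _ hker _ 1 (Subgroup.mem_map_of_mem _ hK')
          simpa using hhbar
        obtain ⟨a, ha⟩ := cent3 h hhK
        exact ⟨h, by rw [ha, idx3]⟩
  · -- coprimality
    have hKi : (K.map (QuotientGroup.mk' (Subgroup.center G))).index = K.index :=
      Subgroup.index_map_eq K (QuotientGroup.mk'_surjective _) (by rw [QuotientGroup.ker_mk']; exact hZK)
    have hHi : (H.map (QuotientGroup.mk' (Subgroup.center G))).index = H.index :=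
      Subgroup.index_map_eq H (QuotientGroup.mk'_surjective _) (by rw [QuotientGroup.ker_mk']; exact hZH)
    rw [← hKi, ← hHi]
    by_contra hnc
    obtain ⟨q, hq, hqK, hqH⟩ := Nat.Prime.not_coprime_iff_dvd.mp hnc
    haveI := Fact.mk hq
    obtain ⟨P⟩ : Nonempty (Sylow q (G ⧸ Subgroup.center G)) := inferInstance
    have hqG : q ∣ Nat.card (G ⧸ Subgroup.center G) := dvd_trans hqK (Subgroup.index_dvd_card _)
    have hP1 : 1 < Nat.card (P : Subgroup (G ⧸ Subgroup.center G)) := by
      rw [Sylow.card_eq_multiplicity]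
      apply Nat.one_lt_pow _ hq.one_lt
      intro h0
      rcases (Nat.factorization_eq_zero_iff _ _).mp h0 with h | h | h
      · exact h hq
      · exact h hqG
      · exact Nat.card_pos.ne' h
    haveI : Nontrivial (P : Subgroup (G ⧸ Subgroup.center G)) := Finite.one_lt_card_iff_nontrivial.mp hP1
    haveI := P.isPGroup'.center_nontrivial
    obtain ⟨⟨z, hz⟩, hz1⟩ := exists_ne (1 : Subgroup.center (P : Subgroup (G ⧸ Subgroup.center G)))
    have hz1' : (z : G ⧸ Subgroup.center G) ≠ 1 := by
      intro h
      apply hz1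
      apply Subtype.ext
      apply Subtype.ext
      exact h
    have hcomm : ∀ y ∈ (P : Subgroup (G ⧸ Subgroup.center G)), y * (z : G ⧸ Subgroup.center G) = (z : G ⧸ Subgroup.center G) * y := by
      intro y hy
      have := Subgroup.mem_center_iff.mp hz ⟨y, hy⟩
      exact congrArg Subtype.val this
    by_cases hzK : (z : G ⧸ Subgroup.center G) ∈ K.map (QuotientGroup.mk' (Subgroup.center G))
    · have hle : (P : Subgroup (G ⧸ Subgroup.center G)) ≤ K.map (QuotientGroup.mk' (Subgroup.center G)) := by
        intro y hy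
        exact F1 _ _ hFrob hker _ y hzK hz1' (hcomm y hy)
      exact P.not_dvd_index (dvd_trans hqK (Subgroup.index_dvd_of_le hle))
    · obtain ⟨a, ha⟩ := F3 _ _ hker _ hzK
      have hle : (P : Subgroup (G ⧸ Subgroup.center G)) ≤
          (H.map (QuotientGroup.mk' (Subgroup.center G))).map (MulAut.conj a).toMonoidHom := by
        intro y hy
        rw [mem_map_conj]
        apply F2 _ hFrob a _ y ha hz1'
        have : y * (z : G ⧸ Subgroup.center G) * y⁻¹ = (z : G ⧸ Subgroup.center G) := by
          rw [hcomm y hy]; group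
        rw [this]
        exact ha
      have hidx : ((H.map (QuotientGroup.mk' (Subgroup.center G))).map (MulAut.conj a).toMonoidHom).index =
          (H.map (QuotientGroup.mk' (Subgroup.center G))).index :=
        Subgroup.index_map_equiv _ (MulAut.conj a)
      apply P.not_dvd_index
      refine dvd_trans ?_ (Subgroup.index_dvd_of_le hle)
      rw [hidx]
      exact hqH

end Cfsg.Agent.S4283
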