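import Mathlib
import Cfsg.Statements.S4293
import Cfsg.Agent.Lib.Helper7.FrobTransport

set_option autoImplicit false
open Cfsg

namespace Cfsg.Agent.S4293

open Cfsg.Agent.Lib.Helper7

section
variable {D : Type*} [DivisionRing D] (H : Subgroup Dˣ)

/-- the inclusion of `H` into `D` -/
def incl : H →* D := (Units.coeHom D).comp H.subtype

lemma incl_apply (h : H) : incl H h = ((h : Dˣ) : D) := rfl

lemma incl_injective : Function.Injective (incl H) := by
  intro a b hab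
  apply Subtype.ext
  exact Units.ext hab

/-- the ring `ℤ[H]` -/
def ringA : Subalgebra ℤ D := Algebra.adjoin ℤ (Set.range (incl H))

/-- `H → ℤ[H]` -/
def toA : H →* ↥(ringA H) :=
  (incl H).codRestrict (ringA H) (fun h => Algebra.subset_adjoin ⟨h, rfl⟩)

lemma toA_coe (h : H) : ((toA H h : ↥(ringA H)) : D) = incl H h := rfl

lemma ringA_toSubmodule :
    Subalgebra.toSubmodule (ringA H) = Submodule.span ℤ (Set.range (incl H)) := by
  rw [ringA, Algebra.adjoin_eq_span]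
  congr 1
  have : Set.range (incl H) = ((MonoidHom.mrange (incl H) : Submonoid D) : Set D) := by
    ext x; simp
  rw [this, Submonoid.closure_eq]

lemma ringA_fg [Finite H] : (Subalgebra.toSubmodule (ringA H)).FG := by
  rw [ringA_toSubmodule]
  exact Submodule.fg_span (Set.finite_range _)

end

section
variable {D : Type*} [DivisionRing D] (H : Subgroup Dˣ)

/-- the left ideal `ℓ ℤ[H]` -/
def idealL (ℓ : ℕ) : Ideal ↥(ringA H) := Ideal.span {((ℓ : ℕ) : ↥(ringA H))}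

lemma mem_idealL (ℓ : ℕ) (a : ↥(ringA H)) :
    a ∈ idealL H ℓ ↔ ∃ t : ↥(ringA H), t * (ℓ : ↥(ringA H)) = a := by
  rw [idealL, Ideal.mem_span_singleton']

lemma idealL_ne_top [Finite H] (ℓ : ℕ) (hℓ : ℓ.Prime)
    (P1 : ∀ r : ℤ, (r : D) = 0 → (ℓ : ℤ) ∣ r) : idealL H ℓ ≠ ⊤ := by
  intro htop
  have h1 : (1 : ↥(ringA H)) ∈ idealL H ℓ := by rw [htop]; trivial
  obtain ⟨s, hs⟩ := (mem_idealL H ℓ 1).mp h1
  have hsD : (s : D) * (ℓ : D) = 1 := by
    have := congrArg (Subtype.val) hs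
    simpa using this
  have hle : Subalgebra.toSubmodule (ringA H) ≤
      (Ideal.span {(ℓ : ℤ)}) • Subalgebra.toSubmodule (ringA H) := by
    intro x hx
    have hxs : x * (s : D) ∈ Subalgebra.toSubmodule (ringA H) := (ringA H).mul_mem hx s.2
    have h2 := Submodule.smul_mem_smul (Ideal.mem_span_singleton_self (ℓ : ℤ)) hxs
    have h3 : (ℓ : ℤ) • (x * (s : D)) = x := by
      rw [zsmul_eq_mul, Int.cast_natCast, (Nat.cast_commute ℓ (x * (s : D))).eq, mul_assoc, hsD,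
        mul_one]
    rw [h3] at h2
    exact h2
  obtain ⟨r, hr1, hr2⟩ := Submodule.exists_sub_one_mem_and_smul_eq_zero_of_fg_of_le_smul
    (Ideal.span {(ℓ : ℤ)}) (Subalgebra.toSubmodule (ringA H)) (ringA_fg H) hle
  have h4 := hr2 1 (ringA H).one_mem
  rw [zsmul_eq_mul, mul_one] at h4
  have h5 := P1 r h4
  rw [Ideal.mem_span_singleton] at hr1
  have h6 : (ℓ : ℤ) ∣ 1 := by
    have := dvd_sub h5 hr1
    simpa using this
  have h7 : (ℓ : ℤ) = 1 := Int.eq_one_of_dvd_one (by positivity) h6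
  have h8 : ℓ = 1 := by exact_mod_cast h7
  exact hℓ.one_lt.ne' h8

end

section
variable {D : Type*} [DivisionRing D] (H : Subgroup Dˣ)

lemma fpf [Finite H] (ℓ : ℕ) (hℓ : ℓ.Prime) (P2 : (ℓ : D) = 0 ∨ Nat.card H < ℓ)
    (h : H) (hh : h ≠ 1) (a : ↥(ringA H))
    (ha : toA H h * a - a ∈ idealL H ℓ) : a ∈ idealL H ℓ := by
  obtain ⟨s, hs⟩ := (mem_idealL H ℓ _).mp ha
  obtain ⟨y, hy⟩ : ∃ y : ↥(ringA H), y = toA H h := ⟨_, rfl⟩
  rw [← hy] at hs
  have hy1 : y - 1 ≠ 0 := by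
    intro h0
    apply hh
    have h1 : y = 1 := sub_eq_zero.mp h0
    have h2 : incl H h = 1 := by
      have := congrArg Subtype.val h1
      rw [hy, toA_coe] at this
      simpa using this
    exact incl_injective H (h2.trans (map_one _).symm)
  rcases P2 with hP | hP
  · have hℓ0 : ((ℓ : ℕ) : ↥(ringA H)) = 0 := by
      apply Subtype.ext
      simpa using hP
    rw [hℓ0, mul_zero] at hs
    have h1 : (y - 1) * a = 0 := by rw [sub_mul, one_mul]; exact hs.symm
    rcases mul_eq_zero.mp h1 with h2 | h2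
    · exact absurd h2 hy1
    · rw [h2]; exact (idealL H ℓ).zero_mem
  · obtain ⟨k, hk⟩ : ∃ k : ℕ, k = orderOf h := ⟨_, rfl⟩
    have hkpos : 0 < k := hk ▸ orderOf_pos h
    have hkle : k ≤ Nat.card H := hk ▸ Nat.le_of_dvd Nat.card_pos (orderOf_dvd_natCard h)
    have hcop : Nat.Coprime k ℓ :=
      (Nat.Coprime.symm ((Nat.Prime.coprime_iff_not_dvd hℓ).mpr
        (Nat.not_dvd_of_pos_of_lt hkpos (by omega))))
    have hyk : y ^ k = 1 := by
      rw [hy, ← map_pow, hk, pow_orderOf_eq_one, map_one]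
    have hsum0 : ∑ i ∈ Finset.range k, y ^ i = 0 := by
      have h1 : (y - 1) * ∑ i ∈ Finset.range k, y ^ i = 0 := by
        rw [mul_geom_sum, hyk, sub_self]
      rcases mul_eq_zero.mp h1 with h2 | h2
      · exact absurd h2 hy1
      · exact h2
    obtain ⟨w, hw⟩ : ∃ w : ↥(ringA H), w = ∑ i ∈ Finset.range k, -(∑ j ∈ Finset.range i, y ^ j) :=
      ⟨_, rfl⟩
    have hk_eq : (k : ↥(ringA H)) = w * (y - 1) := by
      rw [hw, Finset.sum_mul]
      have h1 : ∀ i ∈ Finset.range k,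
          -(∑ j ∈ Finset.range i, y ^ j) * (y - 1) = 1 - y ^ i := by
        intro i _
        rw [neg_mul, geom_sum_mul, neg_sub]
      rw [Finset.sum_congr rfl h1, Finset.sum_sub_distrib, hsum0, sub_zero]
      simp
    have hka : (k : ↥(ringA H)) * a = (w * s) * (ℓ : ↥(ringA H)) := by
      rw [hk_eq, mul_assoc w s, hs, mul_assoc, sub_mul, one_mul]
    have hbez : (k : ℤ) * Nat.gcdA k ℓ + (ℓ : ℤ) * Nat.gcdB k ℓ = 1 := by
      have := Nat.gcd_eq_gcd_ab k ℓ
      rw [hcop.gcd_eq_one] at this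
      exact_mod_cast this.symm
    have h1 : (k : ↥(ringA H)) * (Nat.gcdA k ℓ : ↥(ringA H)) +
        (ℓ : ↥(ringA H)) * (Nat.gcdB k ℓ : ↥(ringA H)) = 1 := by
      exact_mod_cast congrArg (Int.cast : ℤ → ↥(ringA H)) hbez
    rw [mem_idealL]
    refine ⟨(Nat.gcdA k ℓ : ↥(ringA H)) * (w * s) + (Nat.gcdB k ℓ : ↥(ringA H)) * a, ?_⟩
    calc ((Nat.gcdA k ℓ : ↥(ringA H)) * (w * s) + (Nat.gcdB k ℓ : ↥(ringA H)) * a)
          * (ℓ : ↥(ringA H))
        = (Nat.gcdA k ℓ : ↥(ringA H)) * ((w * s) * (ℓ : ↥(ringA H)))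
          + (Nat.gcdB k ℓ : ↥(ringA H)) * (a * (ℓ : ↥(ringA H))) := by
          simp only [add_mul, mul_assoc]
      _ = (Nat.gcdA k ℓ : ↥(ringA H)) * ((k : ↥(ringA H)) * a)
          + (Nat.gcdB k ℓ : ↥(ringA H)) * ((ℓ : ↥(ringA H)) * a) := by
          rw [← hka, (Nat.cast_commute ℓ a).eq]
      _ = ((k : ↥(ringA H)) * (Nat.gcdA k ℓ : ↥(ringA H)) +
          (ℓ : ↥(ringA H)) * (Nat.gcdB k ℓ : ↥(ringA H))) * a := by
          rw [add_mul, ← mul_assoc, ← mul_assoc,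
            (Nat.cast_commute k (Nat.gcdA k ℓ : ↥(ringA H))).eq,
            (Nat.cast_commute ℓ (Nat.gcdB k ℓ : ↥(ringA H))).eq]
      _ = a := by rw [h1, one_mul]

lemma mem_closure_of_mem_ringA (x : D) (hx : x ∈ ringA H) :
    x ∈ AddSubgroup.closure (Set.range (incl H)) := by
  have h1 : x ∈ Subalgebra.toSubmodule (ringA H) := hx
  rw [ringA_toSubmodule] at h1
  have h2 := Submodule.span_int_eq_addSubgroupClosure (Set.range (incl H))
  rw [← h2]; exact h1

lemma finite_quot [Finite H] (ℓ : ℕ) (hℓ : ℓ.Prime) : Finite (↥(ringA H) ⧸ idealL H ℓ) := by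
  haveI : AddGroup.FG ↥(AddSubgroup.closure (Set.range (incl H))) := AddGroup.closure_finite_fg _
  have hle : ∀ x : ↥(AddSubgroup.closure (Set.range (incl H))), (x : D) ∈ ringA H := by
    intro x
    have : AddSubgroup.closure (Set.range (incl H)) ≤ (ringA H).toSubring.toAddSubgroup := by
      rw [AddSubgroup.closure_le]; rintro _ ⟨h, rfl⟩; exact Algebra.subset_adjoin ⟨h, rfl⟩
    exact this x.2
  let g : ↥(AddSubgroup.closure (Set.range (incl H))) →+ (↥(ringA H) ⧸ idealL H ℓ) :=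
    (idealL H ℓ).mkQ.toAddMonoidHom.comp
      ((AddSubgroup.closure (Set.range (incl H))).subtype.codRestrict (ringA H) hle)
  have hg : Function.Surjective g := by
    intro v
    obtain ⟨a, rfl⟩ := Submodule.mkQ_surjective _ v
    exact ⟨⟨a.1, mem_closure_of_mem_ringA H a.1 a.2⟩, rfl⟩
  haveI : AddGroup.FG (↥(ringA H) ⧸ idealL H ℓ) := AddGroup.fg_of_surjective hg
  apply AddCommGroup.finite_of_fg_isAddTorsion
  intro v
  rw [isOfFinAddOrder_iff_nsmul_eq_zero]
  refine ⟨ℓ, hℓ.pos, ?_⟩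
  obtain ⟨a, rfl⟩ := Submodule.mkQ_surjective _ v
  rw [← map_nsmul, Submodule.mkQ_apply, Submodule.Quotient.mk_eq_zero, mem_idealL]
  exact ⟨a, by rw [nsmul_eq_mul, (Nat.cast_commute ℓ a).eq]⟩

end

/-- A nontrivial finite subgroup of the multiplicative group of a division ring occurs as a Frobenius complement of some finite Frobenius group. -/
theorem result {D : Type*} [DivisionRing D] (H : Subgroup Dˣ) [Finite H] (hH : H ≠ ⊥) :
    ∃ (L : Type) (_ : Group L) (_ : Finite L) (C : Subgroup L), Cfsg.IsFrobeniusComplement C ∧ Nonempty (H ≃* C) := by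
  classical
  haveI : Nontrivial ↥H := (Subgroup.nontrivial_iff_ne_bot H).mpr hH
  obtain ⟨ℓ, hℓ, P1, P2⟩ : ∃ ℓ : ℕ, ℓ.Prime ∧ (∀ r : ℤ, (r : D) = 0 → (ℓ : ℤ) ∣ r) ∧
      ((ℓ : D) = 0 ∨ Nat.card H < ℓ) := by
    obtain ⟨p, hp⟩ := CharP.exists D
    rcases CharP.char_is_prime_or_zero D p with hpp | rfl
    · refine ⟨p, hpp, ?_, Or.inl (CharP.cast_eq_zero D p)⟩
      intro r hr
      exact (CharP.intCast_eq_zero_iff D p r).mp hr
    · obtain ⟨ℓ, hℓ1, hℓ2⟩ := Nat.exists_infinite_primes (Nat.card H + 1)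
      refine ⟨ℓ, hℓ2, ?_, Or.inr (by omega)⟩
      intro r hr
      have := (CharP.intCast_eq_zero_iff D 0 r).mp hr
      simp at this
      rw [this]; exact dvd_zero _
  haveI := finite_quot H ℓ hℓ
  haveI : Nontrivial (↥(ringA H) ⧸ idealL H ℓ) :=
    Submodule.Quotient.nontrivial_iff.mpr (idealL_ne_top H ℓ hℓ P1)
  letI : DistribMulAction H (↥(ringA H) ⧸ idealL H ℓ) := DistribMulAction.compHom _ (toA H)
  apply exists_frobenius_of_free_action' (H := H) (V := ↥(ringA H) ⧸ idealL H ℓ)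
  intro h hh v hv
  obtain ⟨a, rfl⟩ := Submodule.mkQ_surjective _ v
  have hv' : (idealL H ℓ).mkQ (toA H h * a) = (idealL H ℓ).mkQ a := hv
  rw [Submodule.mkQ_apply, Submodule.mkQ_apply, Submodule.Quotient.eq] at hv'
  rw [Submodule.mkQ_apply, Submodule.Quotient.mk_eq_zero]
  exact fpf H ℓ hℓ P2 h hh a hv'

end Cfsg.Agent.S4293
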