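import Cfsg.Statements.S4297
import Mathlib
import Cfsg.Agent.Lib.Helper7.FrobSemidirect

set_option autoImplicit false
open Cfsg

namespace Cfsg.Agent.S4297

open Cfsg.Agent.Lib.Helper7

/-- The two-dimensional action of the dicyclic group given by a character `c` of `ZMod (2n)`. -/
def act {n : ℕ} {F : Type} [Field F] (c : ZMod (2 * n) → F) : QuaternionGroup n → F × F → F × F
  | QuaternionGroup.a i, v => (c i * v.1, c (-i) * v.2)
  | QuaternionGroup.xa i, v => (-(c (-i) * v.2), c i * v.1)

theorem main (n : ℕ) (hn : 2 ≤ n) (F : Type) [Field F] [Finite F] (h2 : (2 : F) ≠ 0)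
    (c : ZMod (2 * n) → F) (c0 : c 0 = 1) (cadd : ∀ i j, c (i + j) = c i * c j)
    (cn : c (n : ZMod (2 * n)) = -1) (cinj : ∀ i, c i = 1 → i = 0) :
    ∃ (L : Type) (_ : Group L) (_ : Finite L) (H : Subgroup L),
      Cfsg.IsFrobeniusComplement H ∧ Nonempty (H ≃* QuaternionGroup n) := by
  have cneg : ∀ i, c i * c (-i) = 1 := by
    intro i
    rw [← cadd, add_neg_cancel, c0]
  have cnn : c (-(n : ZMod (2 * n))) = -1 := by
    have h1 := cneg (n : ZMod (2 * n))
    rw [cn] at h1
    linear_combination (-1 : F) * h1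
  letI : DistribMulAction (QuaternionGroup n) (F × F) :=
    { smul := act c
      one_smul := by
        rintro ⟨x, y⟩
        show act c (QuaternionGroup.a 0) (x, y) = (x, y)
        simp [act, c0]
      mul_smul := by
        rintro (i | i) (j | j) ⟨x, y⟩
        · show act c (QuaternionGroup.a (i + j)) (x, y) =
            act c (QuaternionGroup.a i) (act c (QuaternionGroup.a j) (x, y))
          simp only [act]
          rw [neg_add, cadd, cadd]
          ext <;> simp <;> ring
        · show act c (QuaternionGroup.xa (j - i)) (x, y) =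
            act c (QuaternionGroup.a i) (act c (QuaternionGroup.xa j) (x, y))
          simp only [act]
          have e1 : c (-(j - i)) = c i * c (-j) := by rw [neg_sub, sub_eq_add_neg, cadd]
          have e2 : c (j - i) = c j * c (-i) := by rw [sub_eq_add_neg, cadd]
          rw [e1, e2]
          ext <;> simp <;> ring
        · show act c (QuaternionGroup.xa (i + j)) (x, y) =
            act c (QuaternionGroup.xa i) (act c (QuaternionGroup.a j) (x, y))
          simp only [act]
          rw [neg_add, cadd, cadd]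
          ext <;> simp <;> ring
        · show act c (QuaternionGroup.a ((n : ZMod (2 * n)) + j - i)) (x, y) =
            act c (QuaternionGroup.xa i) (act c (QuaternionGroup.xa j) (x, y))
          simp only [act]
          have e1 : c ((n : ZMod (2 * n)) + j - i) = -(c j * c (-i)) := by
            rw [sub_eq_add_neg, cadd, cadd, cn]; ring
          have e2 : c (-((n : ZMod (2 * n)) + j - i)) = -(c (-j) * c i) := by
            have e3 : -((n : ZMod (2 * n)) + j - i) = -(n : ZMod (2 * n)) + (-j) + i := by ring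
            rw [e3, cadd, cadd, cnn]; ring
          rw [e1, e2]
          ext <;> simp <;> ring
      smul_zero := by
        rintro (i | i)
        · show act c (QuaternionGroup.a i) (0, 0) = (0, 0)
          simp [act]
        · show act c (QuaternionGroup.xa i) (0, 0) = (0, 0)
          simp [act]
      smul_add := by
        rintro (i | i) ⟨x, y⟩ ⟨x', y'⟩
        · show act c (QuaternionGroup.a i) (x + x', y + y') =
            act c (QuaternionGroup.a i) (x, y) + act c (QuaternionGroup.a i) (x', y')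
          simp only [act]
          ext <;> simp <;> ring
        · show act c (QuaternionGroup.xa i) (x + x', y + y') =
            act c (QuaternionGroup.xa i) (x, y) + act c (QuaternionGroup.xa i) (x', y')
          simp only [act]
          ext <;> simp <;> ring }
  have hsm : ∀ (q : QuaternionGroup n) (v : F × F), q • v = act c q v := fun _ _ => rfl
  haveI : Fact (1 < 2 * n) := ⟨by omega⟩
  haveI : NeZero n := ⟨by omega⟩
  haveI hnt : Nontrivial (QuaternionGroup n) := by
    refine ⟨⟨QuaternionGroup.a 1, QuaternionGroup.a 0, ?_⟩⟩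
    intro h
    have h1 : (1 : ZMod (2 * n)) = 0 := QuaternionGroup.a.inj h
    exact one_ne_zero h1
  haveI : Finite (QuaternionGroup n) := inferInstance
  apply exists_frobenius_of_free_action (QuaternionGroup n) (F × F)
  rintro (i | i) hq ⟨x, y⟩ hv
  · have hi : i ≠ 0 := fun h => hq (by rw [h]; rfl)
    rw [hsm] at hv
    simp only [act, Prod.mk.injEq] at hv
    obtain ⟨h1, h2'⟩ := hv
    have hx : x = 0 := by
      have h3 : (c i - 1) * x = 0 := by linear_combination h1
      rcases mul_eq_zero.mp h3 with h | h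
      · exact absurd (cinj i (sub_eq_zero.mp h)) hi
      · exact h
    have hy : y = 0 := by
      have h3 : (c (-i) - 1) * y = 0 := by linear_combination h2'
      rcases mul_eq_zero.mp h3 with h | h
      · exact absurd (neg_eq_zero.mp (cinj (-i) (sub_eq_zero.mp h))) hi
      · exact h
    rw [hx, hy]; rfl
  · rw [hsm] at hv
    simp only [act, Prod.mk.injEq] at hv
    obtain ⟨h1, h2'⟩ := hv
    have hx : x = 0 := by
      have h3 : (2 : F) * x = 0 := by
        have h4 := cneg i
        linear_combination (-1 : F) * h1 + c (-i) * h2' - x * h4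
      rcases mul_eq_zero.mp h3 with h | h
      · exact absurd h h2
      · exact h
    have hy : y = 0 := by rw [← h2', hx, mul_zero]
    rw [hx, hy]; rfl

/-- For every n ≥ 2 the dicyclic group of order 4n (generated by an element a of order 2n and an element x with x² = aⁿ and x a x⁻¹ = a⁻¹) occurs as a Frobenius complement of some finite Frobenius group. -/
theorem result (n : ℕ) (hn : 2 ≤ n) :
    ∃ (L : Type) (_ : Group L) (_ : Finite L) (H : Subgroup L), Cfsg.IsFrobeniusComplement H ∧ Nonempty (H ≃* QuaternionGroup n) := by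
  have h2n : 2 * n ≠ 0 := by omega
  obtain ⟨p, hp, hpgt, hmod⟩ := Nat.exists_prime_gt_modEq_one (k := 2 * n) 2 h2n
  haveI : Fact p.Prime := ⟨hp⟩
  have hdvd : 2 * n ∣ p - 1 := (Nat.modEq_iff_dvd' hp.one_le).mp hmod.symm
  have hcardU : Nat.card (ZMod p)ˣ = p - 1 := by
    rw [Nat.card_eq_fintype_card, ZMod.card_units_eq_totient, Nat.totient_prime hp]
  obtain ⟨ζ₀, hζ₀⟩ := IsCyclic.exists_ofOrder_eq_natCard (α := (ZMod p)ˣ)
  rw [hcardU] at hζ₀
  have hp1 : p - 1 ≠ 0 := by omega
  obtain ⟨d, hd⟩ := hdvd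
  have hd0 : d ≠ 0 := by
    rintro rfl
    rw [mul_zero] at hd
    exact hp1 hd
  have hζ : orderOf (ζ₀ ^ d) = 2 * n := by
    rw [orderOf_pow_of_dvd hd0 (by rw [hζ₀, hd]; exact dvd_mul_left _ _), hζ₀, hd]
    exact Nat.mul_div_cancel _ (Nat.pos_of_ne_zero hd0)
  have hζk : (ζ₀ ^ d) ^ (2 * n) = 1 := by rw [← hζ]; exact pow_orderOf_eq_one _
  haveI : NeZero (2 * n) := ⟨h2n⟩
  have h2 : (2 : ZMod p) ≠ 0 := by
    intro h
    have h1 : ((2 : ℕ) : ZMod p) = 0 := by exact_mod_cast h
    rw [ZMod.natCast_eq_zero_iff] at h1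
    have := Nat.le_of_dvd (by norm_num) h1
    omega
  apply main n hn (ZMod p) h2 (fun i => (((ζ₀ ^ d) ^ i.val : (ZMod p)ˣ) : ZMod p))
  · simp
  · intro i j
    show ((((ζ₀ ^ d) ^ (i + j).val : (ZMod p)ˣ)) : ZMod p) =
      (((ζ₀ ^ d) ^ i.val : (ZMod p)ˣ) : ZMod p) * (((ζ₀ ^ d) ^ j.val : (ZMod p)ˣ) : ZMod p)
    rw [← Units.val_mul, ← pow_add, ZMod.val_add, ← pow_eq_pow_mod _ hζk]
  · show ((((ζ₀ ^ d) ^ ((n : ℕ) : ZMod (2 * n)).val : (ZMod p)ˣ)) : ZMod p) = -1
    rw [ZMod.val_cast_of_lt (by omega)]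
    have hsq : ((((ζ₀ ^ d) ^ n : (ZMod p)ˣ)) : ZMod p) * ((((ζ₀ ^ d) ^ n : (ZMod p)ˣ)) : ZMod p) = 1 := by
      rw [← Units.val_mul, ← pow_add, ← two_mul, hζk, Units.val_one]
    have hne : ((((ζ₀ ^ d) ^ n : (ZMod p)ˣ)) : ZMod p) ≠ 1 := by
      intro h
      have h1 : (ζ₀ ^ d) ^ n = 1 := Units.ext (by rw [h, Units.val_one])
      have h3 := orderOf_dvd_of_pow_eq_one h1
      rw [hζ] at h3
      have := Nat.le_of_dvd (by omega) h3
      omega
    have h4 : (((((ζ₀ ^ d) ^ n : (ZMod p)ˣ)) : ZMod p) - 1) * (((((ζ₀ ^ d) ^ n : (ZMod p)ˣ)) : ZMod p) + 1) = 0 := by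
      linear_combination hsq
    rcases mul_eq_zero.mp h4 with h | h
    · exact absurd (sub_eq_zero.mp h) hne
    · exact eq_neg_of_add_eq_zero_left h
  · intro i hi
    have h1 : (ζ₀ ^ d) ^ i.val = 1 := Units.ext (by rw [Units.val_one]; exact hi)
    have h3 := orderOf_dvd_of_pow_eq_one h1
    rw [hζ] at h3
    have h4 : i.val < 2 * n := ZMod.val_lt i
    have h5 : i.val = 0 := Nat.eq_zero_of_dvd_of_lt h3 h4
    exact (ZMod.val_eq_zero i).mp h5

end Cfsg.Agent.S4297
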