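import Cfsg.Statements.S4298
import Mathlib
import Cfsg.Agent.Lib.Helper7.FrobSemidirect

set_option autoImplicit false
open Cfsg

namespace Cfsg.Agent.S4298

open Cfsg.Agent.Lib.Helper7

/-- Lookup table of a faithful representation of SL(2,3) in SL(2,5). -/
def tbl : ℕ → ℕ → ℕ → ℕ → Matrix (Fin 2) (Fin 2) (ZMod 5)
  | 0, 1, 2, 0 => !![0, 4; 1, 0]
  | 0, 1, 2, 1 => !![2, 4; 3, 4]
  | 0, 1, 2, 2 => !![3, 2; 1, 1]
  | 0, 2, 1, 0 => !![0, 1; 4, 0]
  | 0, 2, 1, 1 => !![2, 3; 4, 4]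
  | 0, 2, 1, 2 => !![3, 1; 2, 1]
  | 1, 0, 0, 1 => !![1, 0; 0, 1]
  | 1, 0, 1, 1 => !![1, 2; 1, 3]
  | 1, 0, 2, 1 => !![3, 3; 4, 1]
  | 1, 1, 0, 1 => !![1, 1; 2, 3]
  | 1, 1, 1, 2 => !![0, 2; 2, 0]
  | 1, 1, 2, 0 => !![4, 2; 1, 2]
  | 1, 2, 0, 1 => !![3, 4; 3, 1]
  | 1, 2, 1, 0 => !![4, 1; 2, 2]
  | 1, 2, 2, 2 => !![3, 0; 0, 2]
  | 2, 0, 0, 2 => !![4, 0; 0, 4]
  | 2, 0, 1, 2 => !![2, 2; 1, 4]
  | 2, 0, 2, 2 => !![4, 3; 4, 2]
  | 2, 1, 0, 2 => !![2, 1; 2, 4]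
  | 2, 1, 1, 1 => !![2, 0; 0, 3]
  | 2, 1, 2, 0 => !![1, 4; 3, 3]
  | 2, 2, 0, 2 => !![4, 4; 3, 2]
  | 2, 2, 1, 0 => !![1, 3; 4, 3]
  | 2, 2, 2, 1 => !![0, 3; 3, 0]
  | _, _, _, _ => !![1, 0; 0, 1]

def tb (a b c d : ZMod 3) : Matrix (Fin 2) (Fin 2) (ZMod 5) := tbl a.val b.val c.val d.val

set_option maxRecDepth 1000000 in
theorem tb_mul : ∀ a b c d e f g h : ZMod 3, a * d - b * c = 1 → e * h - f * g = 1 →
    tb (a * e + b * g) (a * f + b * h) (c * e + d * g) (c * f + d * h) =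
      tb a b c d * tb e f g h := by
  decide +kernel

set_option maxRecDepth 1000000 in
theorem tb_free : ∀ a b c d : ZMod 3, a * d - b * c = 1 → ¬ (a = 1 ∧ b = 0 ∧ c = 0 ∧ d = 1) →
    ∀ x y : ZMod 5, (tb a b c d).mulVec ![x, y] = ![x, y] → x = 0 ∧ y = 0 := by
  decide +kernel

theorem tb_one : tb 1 0 0 1 = 1 := by
  decide +kernel

/-- The representation. -/
def M (A : Matrix.SpecialLinearGroup (Fin 2) (ZMod 3)) : Matrix (Fin 2) (Fin 2) (ZMod 5) :=
  tb (A 0 0) (A 0 1) (A 1 0) (A 1 1)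

theorem det_eq (A : Matrix.SpecialLinearGroup (Fin 2) (ZMod 3)) :
    A 0 0 * A 1 1 - A 0 1 * A 1 0 = 1 := by
  have h := A.det_coe
  rw [Matrix.det_fin_two] at h
  exact h

theorem M_mul (A B : Matrix.SpecialLinearGroup (Fin 2) (ZMod 3)) : M (A * B) = M A * M B := by
  unfold M
  rw [← tb_mul _ _ _ _ _ _ _ _ (det_eq A) (det_eq B)]
  simp [Matrix.SpecialLinearGroup.coe_mul, Matrix.mul_apply, Fin.sum_univ_two]

theorem M_one : M 1 = 1 := by
  unfold M
  rw [← tb_one]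
  simp

theorem M_free (A : Matrix.SpecialLinearGroup (Fin 2) (ZMod 3)) (hA : A ≠ 1)
    (v : Fin 2 → ZMod 5) (hv : (M A).mulVec v = v) : v = 0 := by
  have hv2 : v = ![v 0, v 1] := by
    ext i; fin_cases i <;> rfl
  have key := tb_free (A 0 0) (A 0 1) (A 1 0) (A 1 1) (det_eq A) (by
    rintro ⟨h1, h2, h3, h4⟩
    apply hA
    ext i j
    fin_cases i <;> fin_cases j <;> simp [h1, h2, h3, h4]) (v 0) (v 1) (by
      rw [← hv2]; exact hv)
  rw [hv2, key.1, key.2]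
  ext i; fin_cases i <;> rfl

/-- The group SL(2,3) of order 24 (the binary tetrahedral group) occurs as a Frobenius complement of some finite Frobenius group. -/
theorem result :
    ∃ (L : Type) (_ : Group L) (_ : Finite L) (H : Subgroup L), Cfsg.IsFrobeniusComplement H ∧ Nonempty (H ≃* Matrix.SpecialLinearGroup (Fin 2) (ZMod 3)) := by
  letI : DistribMulAction (Matrix.SpecialLinearGroup (Fin 2) (ZMod 3)) (Fin 2 → ZMod 5) :=
    { smul := fun A v => (M A).mulVec v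
      one_smul := by
        intro v
        show (M 1).mulVec v = v
        rw [M_one, Matrix.one_mulVec]
      mul_smul := by
        intro A B v
        show (M (A * B)).mulVec v = (M A).mulVec ((M B).mulVec v)
        rw [M_mul, Matrix.mulVec_mulVec]
      smul_zero := by
        intro A
        show (M A).mulVec 0 = 0
        rw [Matrix.mulVec_zero]
      smul_add := by
        intro A v w
        show (M A).mulVec (v + w) = (M A).mulVec v + (M A).mulVec w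
        rw [Matrix.mulVec_add] }
  haveI : Finite (Matrix.SpecialLinearGroup (Fin 2) (ZMod 3)) :=
    Finite.of_injective (fun A => (A : Matrix (Fin 2) (Fin 2) (ZMod 3))) Subtype.coe_injective
  haveI : Nontrivial (Matrix.SpecialLinearGroup (Fin 2) (ZMod 3)) := by
    refine ⟨⟨1, ⟨!![1, 1; 0, 1], by decide⟩, ?_⟩⟩
    intro h
    have h1 := congrArg (fun A : Matrix.SpecialLinearGroup (Fin 2) (ZMod 3) => A 0 1) h
    simp at h1
  haveI : Fact (1 < 5) := ⟨by norm_num⟩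
  haveI : Nontrivial (Fin 2 → ZMod 5) := Function.nontrivial
  apply exists_frobenius_of_free_action (Matrix.SpecialLinearGroup (Fin 2) (ZMod 3)) (Fin 2 → ZMod 5)
  intro A hA v hv
  exact M_free A hA v hv

end Cfsg.Agent.S4298
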