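import Cfsg.Statements.S4299
import Mathlib
import Cfsg.Agent.Lib.Helper7.Basic

set_option autoImplicit false
open Cfsg

namespace Cfsg.Agent.S4299

open Cfsg.Agent.Lib.Helper7
open scoped Pointwise

/-- Multiplication by a unit as an automorphism of `Multiplicative (ZMod p)`. -/
def unitAut (p : ℕ) : (ZMod p)ˣ →* MulAut (Multiplicative (ZMod p)) where
  toFun w :=
    { toFun := fun z => Multiplicative.ofAdd ((w : ZMod p) * Multiplicative.toAdd z)
      invFun := fun z => Multiplicative.ofAdd (((w⁻¹ : (ZMod p)ˣ) : ZMod p) * Multiplicative.toAdd z)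
      left_inv := fun z => by simp
      right_inv := fun z => by simp
      map_mul' := fun a b => by simp [mul_add] }
  map_one' := by ext z; simp
  map_mul' := fun a b => by ext z; simp [mul_assoc]

theorem unitAut_apply (p : ℕ) (w : (ZMod p)ˣ) (z : Multiplicative (ZMod p)) :
    unitAut p w z = Multiplicative.ofAdd ((w : ZMod p) * Multiplicative.toAdd z) := rfl

/-- Every nontrivial finite cyclic group occurs as a Frobenius complement of some finite Frobenius group. -/
theorem result {C : Type*} [Group C] [Finite C] [IsCyclic C] [Nontrivial C] :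
    ∃ (L : Type) (_ : Group L) (_ : Finite L) (H : Subgroup L), Cfsg.IsFrobeniusComplement H ∧ Nonempty (C ≃* H) := by
  have hn : Nat.card C ≠ 0 := Nat.card_pos.ne'
  have hn2 : 2 ≤ Nat.card C := Finite.one_lt_card
  obtain ⟨p, hp, -, hmod⟩ := Nat.exists_prime_gt_modEq_one (k := Nat.card C) 0 hn
  have : Fact p.Prime := ⟨hp⟩
  have hdvd : Nat.card C ∣ p - 1 := (Nat.modEq_iff_dvd' hp.one_le).mp hmod.symm
  have hcardU : Nat.card (ZMod p)ˣ = p - 1 := by
    rw [Nat.card_eq_fintype_card, ZMod.card_units_eq_totient, Nat.totient_prime hp]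
  obtain ⟨ζ, hζ⟩ := IsCyclic.exists_ofOrder_eq_natCard (α := (ZMod p)ˣ)
  rw [hcardU] at hζ
  have hp1 : p - 1 ≠ 0 := by have := hp.two_le; omega
  obtain ⟨d, hd⟩ := hdvd
  have hd0 : d ≠ 0 := by
    rintro rfl
    rw [mul_zero] at hd
    exact hp1 hd
  have hu : orderOf (ζ ^ d) = Nat.card C := by
    rw [orderOf_pow_of_dvd hd0 (by rw [hζ, hd]; exact dvd_mul_left _ _), hζ, hd]
    exact Nat.mul_div_cancel _ (Nat.pos_of_ne_zero hd0)
  have hUcard : Nat.card (Subgroup.zpowers (ζ ^ d)) = Nat.card C := by
    rw [Nat.card_zpowers, hu]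
  have hfin : Finite (Multiplicative (ZMod p) ⋊[(unitAut p).comp (Subgroup.zpowers (ζ ^ d)).subtype] (Subgroup.zpowers (ζ ^ d))) :=
    Finite.of_equiv _ SemidirectProduct.equivProd.symm
  refine ⟨Multiplicative (ZMod p) ⋊[(unitAut p).comp (Subgroup.zpowers (ζ ^ d)).subtype] (Subgroup.zpowers (ζ ^ d)),
    inferInstance, hfin, (SemidirectProduct.inr : Subgroup.zpowers (ζ ^ d) →* _).range, ?_, ?_⟩
  · have hmem : ∀ y : Multiplicative (ZMod p) ⋊[(unitAut p).comp (Subgroup.zpowers (ζ ^ d)).subtype] (Subgroup.zpowers (ζ ^ d)),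
        y ∈ (SemidirectProduct.inr : Subgroup.zpowers (ζ ^ d) →* _).range ↔ y.left = 1 := by
      intro y
      constructor
      · rintro ⟨w, rfl⟩; rfl
      · intro h
        refine ⟨y.right, ?_⟩
        ext
        · rw [h]; rfl
        · rfl
    refine ⟨?_, ?_, ?_⟩
    · intro hbot
      have h1 : (SemidirectProduct.inr ⟨ζ ^ d, Subgroup.mem_zpowers _⟩ :
          Multiplicative (ZMod p) ⋊[(unitAut p).comp (Subgroup.zpowers (ζ ^ d)).subtype] (Subgroup.zpowers (ζ ^ d)))
          ∈ (SemidirectProduct.inr : Subgroup.zpowers (ζ ^ d) →* _).range := ⟨_, rfl⟩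
      rw [hbot, Subgroup.mem_bot] at h1
      have h2 := congrArg SemidirectProduct.right h1
      simp only [SemidirectProduct.right_inr, SemidirectProduct.one_right] at h2
      have h3 : ζ ^ d = 1 := congrArg Subtype.val h2
      rw [h3, orderOf_one] at hu
      omega
    · intro htop
      have h1 : (SemidirectProduct.inl (Multiplicative.ofAdd (1 : ZMod p)) :
          Multiplicative (ZMod p) ⋊[(unitAut p).comp (Subgroup.zpowers (ζ ^ d)).subtype] (Subgroup.zpowers (ζ ^ d)))
          ∈ (SemidirectProduct.inr : Subgroup.zpowers (ζ ^ d) →* _).range := by rw [htop]; trivial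
      rw [hmem, SemidirectProduct.left_inl] at h1
      have h2 : (1 : ZMod p) = 0 := by
        have := congrArg Multiplicative.toAdd h1
        simpa using this
      exact one_ne_zero h2
    · intro g hg
      rw [eq_bot_iff]
      intro y hy
      rw [Subgroup.mem_inf, mem_conj_smul, hmem, hmem] at hy
      rw [hmem] at hg
      obtain ⟨hy1, hy2⟩ := hy
      rw [Subgroup.mem_bot]
      have hg' : Multiplicative.toAdd g.left ≠ 0 := by
        intro h0
        apply hg
        have : g.left = Multiplicative.ofAdd (Multiplicative.toAdd g.left) := rfl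
        rw [this, h0]; rfl
      have hcomp : Multiplicative.toAdd (g⁻¹ * y * g).left =
          ((g.right⁻¹ : Subgroup.zpowers (ζ ^ d)) : (ZMod p)ˣ) * (((y.right : (ZMod p)ˣ) : ZMod p) - 1) * Multiplicative.toAdd g.left := by
        simp only [SemidirectProduct.mul_left, SemidirectProduct.inv_left, SemidirectProduct.mul_right,
          SemidirectProduct.inv_right, hy1, MonoidHom.comp_apply, Subgroup.coe_subtype, unitAut_apply,
          toAdd_mul, toAdd_ofAdd, toAdd_inv, toAdd_one, Subgroup.coe_mul, Units.val_mul, mul_zero, add_zero]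
        ring
      rw [hy2] at hcomp
      simp only [toAdd_one] at hcomp
      have h3 : ((y.right : (ZMod p)ˣ) : ZMod p) - 1 = 0 := by
        rcases mul_eq_zero.mp hcomp.symm with h | h
        · rcases mul_eq_zero.mp h with h' | h'
          · exact absurd h' (Units.ne_zero _)
          · exact h'
        · exact absurd h hg'
      have h4 : y.right = 1 := by
        apply Subtype.ext
        apply Units.ext
        rw [sub_eq_zero] at h3
        simpa using h3
      ext
      · rw [hy1]; rfl
      · rw [h4]; rfl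
  · have e1 : C ≃* Subgroup.zpowers (ζ ^ d) := mulEquivOfCyclicCardEq hUcard.symm
    exact ⟨e1.trans (MonoidHom.ofInjective SemidirectProduct.inr_injective)⟩

end Cfsg.Agent.S4299
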