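import Cfsg.Statements.S4300
import Mathlib

set_option autoImplicit false
open Cfsg

namespace Cfsg.Agent.S4300

/-- Let G act faithfully and primitively on a set X, and suppose the stabilizer of some point is a simple group. Then either G is simple, or G has a normal subgroup, neither trivial nor the whole group, that acts regularly on X (transitively with trivial point stabilizers). -/
theorem result {G : Type*} [Group G] {X : Type*} [MulAction G X] [FaithfulSMul G X]
    (hprim : MulAction.IsPreprimitive G X) (x : X) (hsimple : IsSimpleGroup (MulAction.stabilizer G x)) :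
    IsSimpleGroup G ∨ ∃ N : Subgroup G, N.Normal ∧ N ≠ ⊥ ∧ N ≠ ⊤ ∧
      MulAction.IsPretransitive N X ∧ ∀ y : X, MulAction.stabilizer N y = ⊥ := by
  have hnt : Nontrivial G := by
    obtain ⟨a, b, hab⟩ := hsimple.toNontrivial
    exact ⟨⟨(a : G), (b : G), fun h => hab (Subtype.ext h)⟩⟩
  by_cases h : ∀ N : Subgroup G, N.Normal → N = ⊥ ∨ N = ⊤
  · left
    exact ⟨h⟩
  · right
    push Not at h
    obtain ⟨N, hN, hbot, htop⟩ := h
    have htrans : MulAction.IsPretransitive N X := by
      apply MulAction.IsQuasiPreprimitive.isPretransitive_of_normal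
      intro hfix
      apply hbot
      rw [eq_bot_iff]
      intro n hn
      rw [Subgroup.mem_bot]
      apply FaithfulSMul.eq_of_smul_eq_smul (α := X)
      intro y
      have hy : y ∈ MulAction.fixedPoints N X := by rw [hfix]; trivial
      rw [one_smul]
      exact hy ⟨n, hn⟩
    refine ⟨N, hN, hbot, htop, htrans, ?_⟩
    -- N ∩ G_x is normal in G_x
    have hnorm : (N.subgroupOf (MulAction.stabilizer G x)).Normal := inferInstance
    have hx : MulAction.stabilizer N x = ⊥ := by
      rcases hsimple.eq_bot_or_eq_top_of_normal _ hnorm with h0 | h0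
      · rw [eq_bot_iff]
        intro n hn
        rw [MulAction.mem_stabilizer_iff] at hn
        have h1 : (⟨(n : G), hn⟩ : MulAction.stabilizer G x) ∈ N.subgroupOf (MulAction.stabilizer G x) := by
          rw [Subgroup.mem_subgroupOf]; exact n.2
        rw [h0, Subgroup.mem_bot] at h1
        rw [Subgroup.mem_bot]
        apply Subtype.ext
        have := congrArg Subtype.val h1
        simpa using this
      · exfalso
        apply htop
        rw [eq_top_iff]
        intro g _
        obtain ⟨n, hn⟩ := htrans.exists_smul_eq x (g • x)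
        have h1 : (n : G)⁻¹ * g ∈ MulAction.stabilizer G x := by
          rw [MulAction.mem_stabilizer_iff, mul_smul, ← hn]
          show (n : G)⁻¹ • ((n : G) • x) = x
          rw [inv_smul_smul]
        have h2 : (⟨(n : G)⁻¹ * g, h1⟩ : MulAction.stabilizer G x) ∈ N.subgroupOf (MulAction.stabilizer G x) := by
          rw [h0]; trivial
        rw [Subgroup.mem_subgroupOf] at h2
        have h3 : (n : G) * ((n : G)⁻¹ * g) ∈ N := N.mul_mem n.2 h2
        simpa using h3
    intro y
    obtain ⟨g, rfl⟩ := hprim.toIsPretransitive.exists_smul_eq x y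
    rw [eq_bot_iff]
    intro n hn
    rw [MulAction.mem_stabilizer_iff] at hn
    have hn' : (n : G) • g • x = g • x := hn
    have h1 : g⁻¹ * (n : G) * g ∈ N := by
      have := hN.conj_mem (n : G) n.2 g⁻¹
      simpa using this
    have h2 : (⟨g⁻¹ * (n : G) * g, h1⟩ : N) ∈ MulAction.stabilizer N x := by
      rw [MulAction.mem_stabilizer_iff]
      show (g⁻¹ * (n : G) * g) • x = x
      rw [mul_smul, mul_smul, hn', inv_smul_smul]
    rw [hx, Subgroup.mem_bot] at h2
    rw [Subgroup.mem_bot]
    apply Subtype.ext
    have h3 := congrArg Subtype.val h2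
    simp only [Subgroup.coe_one] at h3
    show (n : G) = 1
    have : (n : G) = g * (g⁻¹ * (n : G) * g) * g⁻¹ := by group
    rw [this, h3]; simp

end Cfsg.Agent.S4300
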