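import Cfsg.Statements.S4301
import Mathlib
-- import your own Cfsg.Agent.* helpers here

set_option autoImplicit false
open Cfsg

namespace Cfsg.Agent.S4301

theorem perm1 {X : Type*} (p q : X) : ∃ π : Equiv.Perm X, π p = q := by
  classical exact ⟨Equiv.swap p q, Equiv.swap_apply_left p q⟩

theorem perm2 {X : Type*} (p1 p2 q1 q2 : X) (hp : p1 ≠ p2) (hq : q1 ≠ q2) :
    ∃ π : Equiv.Perm X, π p1 = q1 ∧ π p2 = q2 := by
  classical
  refine ⟨Equiv.swap (Equiv.swap p1 q1 p2) q2 * Equiv.swap p1 q1, ?_, ?_⟩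
  · rw [Equiv.Perm.mul_apply, Equiv.swap_apply_left]
    apply Equiv.swap_apply_of_ne_of_ne
    · intro h
      apply hp
      have : Equiv.swap p1 q1 p1 = Equiv.swap p1 q1 p2 := by
        rw [Equiv.swap_apply_left]; exact h
      exact (Equiv.swap p1 q1).injective this
    · exact hq
  · rw [Equiv.Perm.mul_apply, Equiv.swap_apply_left]

theorem struct {X : Type*} (G : Subgroup (Equiv.Perm (Option X))) (hfix : ∀ f ∈ G, f none = none)
    (k : ℕ) (hk : 2 ≤ k) (hkX : Nonempty (Fin k ↪ X))
    (htrans : ∀ a b : Fin k ↪ X, ∃ f ∈ G, ∀ i, f (some (a i)) = some (b i))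
    (h g : Equiv.Perm (Option X)) (hg : g ∈ G) (x y : X)
    (h1 : h none = some x) (h2 : h (some x) = none) (h3 : h (some y) = some y)
    (h4 : g (some x) = some y) (h5 : g (some y) = some x)
    (h6 : (g * h) ^ 3 ∈ G) (h7 : h ^ 2 ∈ G)
    (h8 : ∀ f ∈ G, f (some x) = some x → h * f * h ∈ G ∧ (h * f * h) (some x) = some x) :
    ∀ f ∈ Subgroup.closure ((G : Set (Equiv.Perm (Option X))) ∪ {h}),
      f ∈ G ∨ ∃ a ∈ G, ∃ b ∈ G, f = a * h * b := by
  classical
  obtain ⟨e0⟩ := hkX
  have hxy : x ≠ y := by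
    rintro rfl
    rw [h2] at h3
    exact Option.some_ne_none x h3.symm
  have h2t : ∀ z : X, z ≠ x → ∃ u ∈ G, u (some x) = some x ∧ u (some y) = some z := by
    intro z hz
    have hne : e0 ⟨0, by omega⟩ ≠ e0 ⟨1, by omega⟩ := fun hh => by
      have := e0.injective hh
      simp [Fin.ext_iff] at this
    obtain ⟨π, hπ1, hπ2⟩ := perm2 (e0 ⟨0, by omega⟩) (e0 ⟨1, by omega⟩) x y hne hxy
    obtain ⟨π', hπ'1, hπ'2⟩ := perm2 (e0 ⟨0, by omega⟩) (e0 ⟨1, by omega⟩) x z hne (Ne.symm hz)
    obtain ⟨u, hu, hu'⟩ := htrans (e0.trans π.toEmbedding) (e0.trans π'.toEmbedding)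
    refine ⟨u, hu, ?_, ?_⟩
    · have := hu' ⟨0, by omega⟩
      simpa [hπ1, hπ'1] using this
    · have := hu' ⟨1, by omega⟩
      simpa [hπ2, hπ'2] using this
  have hsG : (h ^ 2)⁻¹ ∈ G := G.inv_mem h7
  have hinv : h⁻¹ = h * (h ^ 2)⁻¹ := by group
  have H1 : ∀ c ∈ G, h * c * h ∈ G ∨ ∃ a ∈ G, ∃ b ∈ G, h * c * h = a * h * b := by
    intro c hc
    by_cases hcx : c (some x) = some x
    · exact Or.inl (h8 c hc hcx).1
    · right
      have hcn : c (some x) ≠ none := by
        intro hh
        have := hfix c hc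
        rw [← this] at hh
        exact Option.some_ne_none x (c.injective hh)
      obtain ⟨z, hz⟩ := Option.ne_none_iff_exists'.mp hcn
      have hzx : z ≠ x := by
        rintro rfl
        exact hcx hz
      obtain ⟨u, hu, hux, huy⟩ := h2t z hzx
      have hvG : (u * g)⁻¹ * c ∈ G := G.mul_mem (G.inv_mem (G.mul_mem hu hg)) hc
      have hvx : ((u * g)⁻¹ * c) (some x) = some x := by
        rw [Equiv.Perm.mul_apply, hz, Equiv.Perm.inv_eq_iff_eq, Equiv.Perm.mul_apply, h4, huy]
      have hu8 := (h8 u hu hux).1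
      have hv8 := (h8 _ hvG hvx).1
      refine ⟨(h * u * h) * ((h ^ 2)⁻¹ * (g⁻¹ * (g * h) ^ 3 * (h ^ 2)⁻¹)), ?_,
        (g⁻¹ * (h ^ 2)⁻¹) * (h * ((u * g)⁻¹ * c) * h), ?_, ?_⟩
      · exact G.mul_mem hu8 (G.mul_mem hsG (G.mul_mem (G.mul_mem (G.inv_mem hg) h6) hsG))
      · exact G.mul_mem (G.mul_mem (G.inv_mem hg) hsG) hv8
      · rw [show (g * h) ^ 3 = g * h * (g * h) * (g * h) by rw [pow_succ, pow_succ, pow_one]]
        group
  intro f hf
  induction hf using Subgroup.closure_induction with
  | mem f hf =>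
    rcases hf with hf | hf
    · exact Or.inl hf
    · rw [Set.mem_singleton_iff] at hf
      subst hf
      exact Or.inr ⟨1, G.one_mem, 1, G.one_mem, by rw [one_mul, mul_one]⟩
  | one => exact Or.inl G.one_mem
  | mul f f' _ _ ihf ihf' =>
    rcases ihf with hf | ⟨a, ha, b, hb, rfl⟩
    · rcases ihf' with hf' | ⟨a', ha', b', hb', rfl⟩
      · exact Or.inl (G.mul_mem hf hf')
      · exact Or.inr ⟨f * a', G.mul_mem hf ha', b', hb', by simp only [mul_assoc]⟩
    · rcases ihf' with hf' | ⟨a', ha', b', hb', rfl⟩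
      · exact Or.inr ⟨a, ha, b * f', G.mul_mem hb hf', by simp only [mul_assoc]⟩
      · have hre : a * h * b * (a' * h * b') = a * (h * (b * a') * h) * b' := by
          simp only [mul_assoc]
        rcases H1 (b * a') (G.mul_mem hb ha') with hG | ⟨a'', ha'', b'', hb'', hEq⟩
        · left
          rw [hre]
          exact G.mul_mem (G.mul_mem ha hG) hb'
        · right
          refine ⟨a * a'', G.mul_mem ha ha'', b'' * b', G.mul_mem hb'' hb', ?_⟩
          rw [hre, hEq]
          simp only [mul_assoc]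
  | inv f _ ihf =>
    rcases ihf with hf | ⟨a, ha, b, hb, rfl⟩
    · exact Or.inl (G.inv_mem hf)
    · right
      refine ⟨b⁻¹, G.inv_mem hb, (h ^ 2)⁻¹ * a⁻¹, G.mul_mem hsG (G.inv_mem ha), ?_⟩
      group

/-- One-point extension of a multiply transitive group. Let X be a set and G a group of permutations of Option X (the set X with one extra point ∗ = none) all of whose elements fix ∗, such that G is k-transitive on the points of X for some k ≥ 2, X having at least k points. Suppose a permutation h of Option X and an element g of G satisfy: h interchanges ∗ with a point x of X and fixes a point y of X; g interchanges x and y; (g h)³ and h² lie in G; and for every f in G fixing x, the product h f h lies in G and fixes x. Then an element of the group generated by G and h fixes ∗ exactly when it lies in G, and that group acts (k+1)-transitively on Option X. -/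
theorem result {X : Type*} (G : Subgroup (Equiv.Perm (Option X))) (hfix : ∀ f ∈ G, f none = none)
    (k : ℕ) (hk : 2 ≤ k) (hkX : Nonempty (Fin k ↪ X))
    (htrans : ∀ a b : Fin k ↪ X, ∃ f ∈ G, ∀ i, f (some (a i)) = some (b i))
    (h g : Equiv.Perm (Option X)) (hg : g ∈ G) (x y : X)
    (h1 : h none = some x) (h2 : h (some x) = none) (h3 : h (some y) = some y)
    (h4 : g (some x) = some y) (h5 : g (some y) = some x)
    (h6 : (g * h) ^ 3 ∈ G) (h7 : h ^ 2 ∈ G)
    (h8 : ∀ f ∈ G, f (some x) = some x → h * f * h ∈ G ∧ (h * f * h) (some x) = some x) :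
    (∀ f ∈ Subgroup.closure ((G : Set (Equiv.Perm (Option X))) ∪ {h}), f none = none ↔ f ∈ G) ∧
      MulAction.IsMultiplyPretransitive (Subgroup.closure ((G : Set (Equiv.Perm (Option X))) ∪ {h})) (Option X) (k + 1) := by
  classical
  have L := struct G hfix k hk hkX htrans h g hg x y h1 h2 h3 h4 h5 h6 h7 h8
  have hGK : G ≤ Subgroup.closure ((G : Set (Equiv.Perm (Option X))) ∪ {h}) :=
    fun f hf => Subgroup.subset_closure (Or.inl hf)
  have hhK : h ∈ Subgroup.closure ((G : Set (Equiv.Perm (Option X))) ∪ {h}) :=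
    Subgroup.subset_closure (Or.inr rfl)
  refine ⟨?_, ?_⟩
  · intro f hf
    constructor
    · intro hfn
      rcases L f hf with hG | ⟨a, ha, b, hb, rfl⟩
      · exact hG
      · exfalso
        rw [Equiv.Perm.mul_apply, Equiv.Perm.mul_apply, hfix b hb, h1] at hfn
        have := hfix a ha
        rw [← this] at hfn
        exact Option.some_ne_none x (a.injective hfn)
    · exact hfix f
  · rw [MulAction.isMultiplyPretransitive_iff]
    obtain ⟨e0⟩ := hkX
    have htr1 : ∀ z : X, ∃ u ∈ G, u (some z) = some x := by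
      intro z
      obtain ⟨π, hπ⟩ := perm1 (e0 ⟨0, by omega⟩) z
      obtain ⟨π', hπ'⟩ := perm1 (e0 ⟨0, by omega⟩) x
      obtain ⟨u, hu, hu'⟩ := htrans (e0.trans π.toEmbedding) (e0.trans π'.toEmbedding)
      refine ⟨u, hu, ?_⟩
      have := hu' ⟨0, by omega⟩
      simpa [hπ, hπ'] using this
    have htoNone : ∀ p : Option X,
        ∃ f ∈ Subgroup.closure ((G : Set (Equiv.Perm (Option X))) ∪ {h}), f p = none := by
      intro p
      cases p with
      | none => exact ⟨1, Subgroup.one_mem _, rfl⟩
      | some z =>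
        obtain ⟨u, hu, huz⟩ := htr1 z
        exact ⟨h * u, Subgroup.mul_mem _ hhK (hGK hu), by rw [Equiv.Perm.mul_apply, huz, h2]⟩
    have hnorm : ∀ x' y' : Fin (k + 1) ↪ Option X, x' 0 = none → y' 0 = none →
        ∃ f ∈ G, ∀ i, f (x' i) = y' i := by
      intro x' y' hx0 hy0
      have hxs : ∀ i : Fin k, (x' i.succ).isSome := by
        intro i
        rw [Option.isSome_iff_ne_none]
        intro hh
        have := x'.injective (hh.trans hx0.symm)
        exact Fin.succ_ne_zero i this
      have hys : ∀ i : Fin k, (y' i.succ).isSome := by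
        intro i
        rw [Option.isSome_iff_ne_none]
        intro hh
        have := y'.injective (hh.trans hy0.symm)
        exact Fin.succ_ne_zero i this
      let a : Fin k ↪ X := ⟨fun i => (x' i.succ).get (hxs i), by
        intro i j hij
        have h' := congrArg some hij
        simp only [Option.some_get] at h'
        exact Fin.succ_injective _ (x'.injective h')⟩
      let b : Fin k ↪ X := ⟨fun i => (y' i.succ).get (hys i), by
        intro i j hij
        have h' := congrArg some hij
        simp only [Option.some_get] at h'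
        exact Fin.succ_injective _ (y'.injective h')⟩
      obtain ⟨f, hf, hf'⟩ := htrans a b
      refine ⟨f, hf, ?_⟩
      intro i
      refine Fin.cases ?_ ?_ i
      · rw [hx0, hy0]
        exact hfix f hf
      · intro j
        have := hf' j
        rw [← Option.some_get (hxs j), ← Option.some_get (hys j)]
        exact this
    intro x' y'
    obtain ⟨f1, hf1, hf1'⟩ := htoNone (x' 0)
    obtain ⟨f2, hf2, hf2'⟩ := htoNone (y' 0)
    obtain ⟨f, hf, hf'⟩ := hnorm (x'.trans f1.toEmbedding) (y'.trans f2.toEmbedding) hf1' hf2'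
    refine ⟨⟨f2⁻¹ * f * f1, Subgroup.mul_mem _ (Subgroup.mul_mem _ (Subgroup.inv_mem _ hf2)
      (hGK hf)) hf1⟩, ?_⟩
    refine DFunLike.ext _ _ (fun i => ?_)
    show (f2⁻¹ * f * f1) (x' i) = y' i
    have := hf' i
    rw [Equiv.Perm.mul_apply, Equiv.Perm.mul_apply, Equiv.Perm.inv_eq_iff_eq]
    exact this

end Cfsg.Agent.S4301
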