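import Mathlib
import Cfsg.Statements.S4303
import Cfsg.Agent.Lib.Helper7.SylowIndex
import Cfsg.Agent.Lib.Lead.Glauberman3
import Cfsg.Agent.Lib.Lead.SZ

set_option autoImplicit false
universe u
open Cfsg

namespace Cfsg.Agent.S4303

open Subgroup
open Cfsg.Agent.Lib.Helper7

/-- products of allowed numbers -/
def Good.{v} (p : ℕ) (n : ℕ) : Prop :=
  ∃ l : List ℕ, l.prod = n ∧
    ∀ m ∈ l, (IsPrimePow m ∧ m % p = 1) ∨
      ∃ (S : Type v) (_ : Group S) (_ : Finite S), IsSimpleGroup S ∧ m = Nat.card (Sylow p S)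

theorem good_one (p : ℕ) : Good.{u} p 1 := ⟨[], rfl, by simp⟩

theorem good_mul (p : ℕ) {a b : ℕ} (ha : Good.{u} p a) (hb : Good.{u} p b) : Good.{u} p (a * b) := by
  obtain ⟨l₁, h1, h1'⟩ := ha
  obtain ⟨l₂, h2, h2'⟩ := hb
  refine ⟨l₁ ++ l₂, by rw [List.prod_append, h1, h2], ?_⟩
  intro m hm
  rcases List.mem_append.mp hm with h | h
  · exact h1' m h
  · exact h2' m h

theorem good_simple (p : ℕ) (S : Type u) [Group S] [Finite S] (hS : IsSimpleGroup S) :
    Good.{u} p (Nat.card (Sylow p S)) := by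
  refine ⟨[Nat.card (Sylow p S)], by simp, ?_⟩
  intro m hm
  rw [List.mem_singleton] at hm
  exact Or.inr ⟨S, inferInstance, inferInstance, hS, hm⟩

theorem good_of_primePowers (p : ℕ) (r : ℕ) (hr : r ≠ 0)
    (h : ∀ q ∈ r.primeFactors, q ^ r.factorization q % p = 1) : Good.{u} p r := by
  refine ⟨r.primeFactors.toList.map (fun q => q ^ r.factorization q), ?_, ?_⟩
  · rw [Finset.prod_map_toList]
    have := Nat.prod_factorization_pow_eq_self hr
    rw [Finsupp.prod, Nat.support_factorization] at this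
    exact this
  · intro m hm
    rw [List.mem_map] at hm
    obtain ⟨q, hq, rfl⟩ := hm
    rw [Finset.mem_toList] at hq
    left
    refine ⟨?_, h q hq⟩
    have hqp := Nat.prime_of_mem_primeFactors hq
    exact (hqp.isPrimePow).pow
      (hqp.factorization_pos_of_dvd hr (Nat.dvd_of_mem_primeFactors hq)).ne'

/-- base case: a normal `p'`-subgroup -/
theorem base {G : Type u} [Group G] [Finite G] (p : ℕ) [Fact p.Prime] (K : Subgroup G)
    [hKn : K.Normal] (hK : (Nat.card K).Coprime p) (P : Sylow p G) :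
    Good.{u} p ((normalizer ((P : Subgroup G) : Set G)).relIndex K) := by
  have hp : p.Prime := Fact.out
  obtain ⟨N, hNdef⟩ : ∃ N, N = normalizer ((P : Subgroup G) : Set G) := ⟨_, rfl⟩
  rw [← hNdef]
  obtain ⟨C, hCdef⟩ : ∃ C, C = N ⊓ K := ⟨_, rfl⟩
  have hCK : C ≤ K := by rw [hCdef]; exact inf_le_right
  have hcard : Nat.card C * N.relIndex K = Nat.card K := by
    rw [hCdef]; exact card_inf_mul_relIndex N K
  have hr0 : N.relIndex K ≠ 0 := by
    intro h0
    rw [h0, mul_zero] at hcard
    exact Nat.card_pos.ne' hcard.symm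
  have hPK : ∀ x, x ∈ (P : Subgroup G) → x ∈ K → x = 1 := by
    intro x hxP hxK
    have h1 : orderOf x ∣ Nat.card (P : Subgroup G) := Subgroup.orderOf_dvd_natCard _ hxP
    have h2 : orderOf x ∣ Nat.card K := Subgroup.orderOf_dvd_natCard _ hxK
    obtain ⟨k, hk⟩ := IsPGroup.iff_card.mp P.2
    rw [hk] at h1
    have h3 : (p ^ k).Coprime (Nat.card K) := Nat.Coprime.pow_left k hK.symm
    exact orderOf_eq_one_iff.mp (Nat.eq_one_of_dvd_coprimes h3 h1 h2)
  have hCcent : ∀ x ∈ C, ∀ u ∈ (P : Subgroup G), u * x = x * u := by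
    intro x hx u hu
    rw [hCdef] at hx
    obtain ⟨hxN, hxK⟩ := Subgroup.mem_inf.mp hx
    rw [hNdef] at hxN
    have h1 : x * u * x⁻¹ * u⁻¹ ∈ (P : Subgroup G) :=
      (P : Subgroup G).mul_mem ((mem_normalizer_iff.mp hxN u).mp hu) ((P : Subgroup G).inv_mem hu)
    have h2 : x * u * x⁻¹ * u⁻¹ ∈ K := by
      have e : x * u * x⁻¹ * u⁻¹ = x * (u * x⁻¹ * u⁻¹) := by group
      rw [e]; exact K.mul_mem hxK (hKn.conj_mem _ (K.inv_mem hxK) u)
    have h3 := hPK _ h1 h2
    calc u * x = (x * u * x⁻¹ * u⁻¹)⁻¹ * (x * u) := by group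
      _ = x * u := by rw [h3]; group
  have hclaim : ∀ q ∈ (N.relIndex K).primeFactors,
      q ^ (N.relIndex K).factorization q % p = 1 := by
    intro q hq
    have hqp : q.Prime := Nat.prime_of_mem_primeFactors hq
    haveI : Fact q.Prime := ⟨hqp⟩
    have hqK : q ∣ Nat.card K := (Nat.dvd_of_mem_primeFactors hq).trans (Dvd.intro_left _ hcard)
    have hqne : q ≠ p := by
      rintro rfl
      exact (Nat.Prime.coprime_iff_not_dvd hp).mp hK.symm hqK
    obtain ⟨D⟩ : Nonempty (Sylow q ↥C) := inferInstance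
    obtain ⟨D', hD'⟩ : ∃ D' : Subgroup G, D' = (D : Subgroup ↥C).map C.subtype := ⟨_, rfl⟩
    have hD'C : D' ≤ C := by rw [hD']; exact map_subtype_le _
    have hD'card : Nat.card D' = q ^ (Nat.card C).factorization q := by
      rw [hD', ← Nat.card_congr ((D : Subgroup ↥C).equivMapOfInjective C.subtype
        C.subtype_injective).toEquiv, D.card_eq_multiplicity]
    have hD'q : IsPGroup q D' := IsPGroup.of_card hD'card
    have hPD' : (P : Subgroup G) ≤ normalizer (D' : Set G) := by
      refine le_trans ?_ (centralizer_le_normalizer _)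
      intro u hu
      rw [mem_centralizer_iff]
      intro x hx
      exact (hCcent x (hD'C hx) u hu).symm
    have hPnK : (P : Subgroup G) ≤ normalizer (K : Set G) :=
      le_of_le_of_eq le_top (normalizer_eq_top (H := K)).symm
    have hcop : (Nat.card (P : Subgroup G)).Coprime (Nat.card K) := by
      obtain ⟨k, hk⟩ := IsPGroup.iff_card.mp P.2
      rw [hk]; exact Nat.Coprime.pow_left k hK.symm
    have hsolv : Group.IsSolvable ↥(P : Subgroup G) := by
      haveI : Group.IsNilpotent ↥(P : Subgroup G) := P.2.isNilpotent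
      infer_instance
    obtain ⟨Q, hDQ, hPQ⟩ := Cfsg.Agent.Lib.Lead.coprime_invariant_pSubgroup_le_sylow
      (P : Subgroup G) K hPnK hcop (Or.inl hsolv) q _ D' rfl (hD'C.trans hCK) hD'q hPD'
    obtain ⟨Q', hQ'⟩ : ∃ Q' : Subgroup G, Q' = (Q : Subgroup ↥K).map K.subtype := ⟨_, rfl⟩
    rw [← hQ'] at hDQ hPQ
    have hQ'K : Q' ≤ K := by rw [hQ']; exact map_subtype_le _
    have hQ'card : Nat.card Q' = q ^ (Nat.card K).factorization q := by
      rw [hQ', ← Nat.card_congr ((Q : Subgroup ↥K).equivMapOfInjective K.subtype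
        K.subtype_injective).toEquiv, Q.card_eq_multiplicity]
    have hFcard : Nat.card (Q' ⊓ C : Subgroup G) = q ^ (Nat.card C).factorization q := by
      apply Nat.dvd_antisymm
      · have hFq : IsPGroup q ↥(Q' ⊓ C : Subgroup G) :=
          (IsPGroup.of_card hQ'card).to_le inf_le_left
        obtain ⟨j, hj⟩ := IsPGroup.iff_card.mp hFq
        rw [hj]
        have h1 : q ^ j ∣ Nat.card C := by rw [← hj]; exact Subgroup.card_dvd_of_le inf_le_right
        exact pow_dvd_pow q ((hqp.pow_dvd_iff_le_factorization Nat.card_pos.ne').mp h1)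
      · rw [← hD'card]; exact Subgroup.card_dvd_of_le (le_inf hDQ hD'C)
    letI : MulAction ↥(P : Subgroup G) ↥Q' := MulAction.compHom ↥Q' (Subgroup.inclusion hPQ)
    have hmod := P.2.card_modEq_card_fixedPoints ↥Q'
    have hfix : Nat.card (MulAction.fixedPoints ↥(P : Subgroup G) ↥Q') =
        Nat.card (Q' ⊓ C : Subgroup G) := by
      apply Nat.card_congr
      refine ⟨fun x => ⟨(x.1 : G), Subgroup.mem_inf.mpr ⟨x.1.2, ?_⟩⟩,
        fun y => ⟨⟨(y : G), (Subgroup.mem_inf.mp y.2).1⟩, ?_⟩, ?_, ?_⟩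
      · rw [hCdef]
        refine Subgroup.mem_inf.mpr ⟨?_, hQ'K x.1.2⟩
        rw [hNdef]
        apply centralizer_le_normalizer
        rw [mem_centralizer_iff]
        intro u hu
        have h1 := x.2 ⟨u, hu⟩
        have h2 : u * (x.1 : G) * u⁻¹ = (x.1 : G) := congrArg Subtype.val h1
        calc u * (x.1 : G) = (u * (x.1 : G) * u⁻¹) * u := by group
          _ = (x.1 : G) * u := by rw [h2]
      · rw [MulAction.mem_fixedPoints]
        intro u
        apply Subtype.ext
        show (u : G) * (y : G) * (u : G)⁻¹ = (y : G)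
        have := hCcent (y : G) (Subgroup.mem_inf.mp y.2).2 u u.2
        rw [this]; group
      · intro x; rfl
      · intro y; rfl
    rw [hfix, hQ'card, hFcard] at hmod
    have hfac : (Nat.card K).factorization q =
        (Nat.card C).factorization q + (N.relIndex K).factorization q := by
      rw [← hcard, Nat.factorization_mul Nat.card_pos.ne' hr0]; rfl
    rw [hfac, pow_add] at hmod
    have hcopq : Nat.gcd p (q ^ (Nat.card C).factorization q) = 1 :=
      Nat.Coprime.pow_right _ ((Nat.coprime_primes hp hqp).mpr (Ne.symm hqne))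
    have h1 : q ^ (Nat.card C).factorization q * q ^ (N.relIndex K).factorization q ≡
        q ^ (Nat.card C).factorization q * 1 [MOD p] := by rw [mul_one]; exact hmod
    have h2 := Nat.ModEq.cancel_left_of_coprime hcopq h1
    rw [Nat.ModEq] at h2
    rw [h2, Nat.mod_eq_of_lt hp.one_lt]
  exact good_of_primePowers p _ hr0 hclaim

theorem relIndex_eq_card_sylow {G : Type u} [Group G] [Finite G] (p : ℕ) [Fact p.Prime]
    (P : Sylow p G) (M : Subgroup G) (hPM : (P : Subgroup G) ≤ normalizer (M : Set G)) :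
    Nat.card (Sylow p ↥(M ⊔ (P : Subgroup G))) =
      (normalizer ((P : Subgroup G) : Set G)).relIndex M := by
  have hidx : ¬ p ∣ (P : Subgroup G).relIndex (M ⊔ (P : Subgroup G)) :=
    fun h => P.not_dvd_index (h.trans (relIndex_dvd_index_of_le le_sup_right))
  rw [card_sylow_subgroup_eq_relIndex p (M ⊔ (P : Subgroup G)) (P : Subgroup G) le_sup_right P.2
    hidx]
  obtain ⟨N, hN⟩ : ∃ N, N = normalizer ((P : Subgroup G) : Set G) := ⟨_, rfl⟩
  rw [← hN]
  obtain ⟨A, hA⟩ : ∃ A, A = N ⊓ (M ⊔ (P : Subgroup G)) := ⟨_, rfl⟩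
  have hAle : A ≤ M ⊔ (P : Subgroup G) := by rw [hA]; exact inf_le_right
  have hPA : (P : Subgroup G) ≤ A := by rw [hA, hN]; exact le_inf le_normalizer le_sup_right
  have hAM : A ⊔ M = M ⊔ (P : Subgroup G) := by
    apply le_antisymm
    · exact sup_le hAle le_sup_left
    · exact sup_le le_sup_right (hPA.trans le_sup_left)
  have hAn : A ≤ normalizer (M : Set G) := hAle.trans (sup_le le_normalizer hPM)
  have e1 : N.relIndex (M ⊔ (P : Subgroup G)) = A.relIndex (M ⊔ (P : Subgroup G)) := by
    rw [hA, inf_relIndex_right]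
  have e2 : A.relIndex (A ⊔ M) = A.relIndex M := relIndex_sup_eq_of_le_normalizer A M hAn
  have e3 : A.relIndex M = N.relIndex M := by
    rw [← inf_relIndex_right (H := A), ← inf_relIndex_right (H := N), hA]
    congr 1
    rw [inf_assoc, inf_eq_right.mpr (le_sup_left : M ≤ M ⊔ (P : Subgroup G))]
  rw [e1, ← hAM, e2, e3]

theorem card_lt_of_ne_top {G : Type u} [Group G] [Finite G] (X : Subgroup G) (hX : X ≠ ⊤) :
    Nat.card X < Nat.card G := by
  by_contra h
  exact hX (Subgroup.eq_top_of_le_card X (not_lt.mp h))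

theorem main (p : ℕ) [Fact p.Prime] : ∀ (n : ℕ) (G : Type u) [Group G] [Finite G],
    Nat.card G = n → Good.{u} p (Nat.card (Sylow p G)) := by
  intro n
  induction n using Nat.strong_induction_on with
  | _ n ih =>
  intro G _ _ hn
  have hp : p.Prime := Fact.out
  by_cases hsimple : IsSimpleGroup G
  · exact good_simple p G hsimple
  by_cases htriv : Subsingleton G
  · obtain ⟨Q⟩ : Nonempty (Sylow p G) := inferInstance
    have h1 : Nat.card (Sylow p G) ∣ 1 := by
      have := (Q.card_dvd_index).trans (Subgroup.index_dvd_card _)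
      rwa [Nat.card_of_subsingleton (1 : G)] at this
    rw [Nat.dvd_one.mp h1]
    exact good_one p
  have hex : ∃ K : Subgroup G, K.Normal ∧ K ≠ ⊥ ∧ K ≠ ⊤ := by
    by_contra hcon
    apply hsimple
    haveI : Nontrivial G := not_subsingleton_iff_nontrivial.mp htriv
    refine ⟨fun K hK => ?_⟩
    by_contra h
    rw [not_or] at h
    exact hcon ⟨K, hK, h.1, h.2⟩
  have hne : ({K : Subgroup G | K.Normal ∧ K ≠ ⊥}).Nonempty := by
    obtain ⟨K, h1, h2, _⟩ := hex
    exact ⟨K, h1, h2⟩
  obtain ⟨K, ⟨hKn, hK1⟩, hKmin⟩ := Set.exists_min_image _ (fun K : Subgroup G => Nat.card K)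
    (Set.toFinite _) hne
  have hKtop : K ≠ ⊤ := by
    obtain ⟨K', h1, h2, h3⟩ := hex
    intro h
    have h4 : Nat.card K ≤ Nat.card K' := hKmin K' ⟨h1, h2⟩
    rw [h, Subgroup.card_top] at h4
    exact h3 (Subgroup.eq_top_of_le_card K' h4)
  haveI := hKn
  obtain ⟨P⟩ : Nonempty (Sylow p G) := inferInstance
  rw [card_sylow_eq_quotient_mul P K]
  apply good_mul
  · apply ih (Nat.card (G ⧸ K)) _ (G ⧸ K) rfl
    rw [← hn, ← Subgroup.card_mul_index K]
    have h1 : 1 < Nat.card K := K.one_lt_card_iff_ne_bot.mpr hK1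
    have h2 : 0 < K.index := Nat.pos_of_ne_zero Subgroup.index_ne_zero_of_finite
    show K.index < Nat.card K * K.index
    nlinarith
  · by_cases hpK : (Nat.card K).Coprime p
    · exact base p K hpK P
    · obtain ⟨P₀, hP₀⟩ : ∃ P₀, P₀ = (P : Subgroup G) ⊓ K := ⟨_, rfl⟩
      have hP₀K : P₀ ≤ K := by rw [hP₀]; exact inf_le_right
      have hP₀P : P₀ ≤ (P : Subgroup G) := by rw [hP₀]; exact inf_le_left
      have hrelP : ¬ p ∣ (P : Subgroup G).relIndex K := by
        intro h
        have e : (P : Subgroup G).relIndex ((P : Subgroup G) ⊔ K) = (P : Subgroup G).relIndex K :=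
          relIndex_sup_eq_of_le_normalizer _ K
            (le_of_le_of_eq le_top (normalizer_eq_top (H := K)).symm)
        rw [← e] at h
        exact P.not_dvd_index (h.trans (relIndex_dvd_index_of_le le_sup_left))
      have hP₀1 : P₀ ≠ ⊥ := by
        intro h
        apply hpK
        have h1 := card_inf_mul_relIndex (P : Subgroup G) K
        rw [← hP₀, h, Subgroup.card_bot, one_mul] at h1
        rw [← h1]
        exact ((Nat.Prime.coprime_iff_not_dvd hp).mpr hrelP).symm
      have hP₀idx : ¬ p ∣ P₀.relIndex K := by rw [hP₀, inf_relIndex_right]; exact hrelP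
      have hnK : Nat.card (Sylow p ↥K) = (normalizer (P₀ : Set G)).relIndex K :=
        card_sylow_subgroup_eq_relIndex p K P₀ hP₀K (P.2.to_le hP₀P) hP₀idx
      have hNN : normalizer ((P : Subgroup G) : Set G) ≤ normalizer (P₀ : Set G) := by
        apply Cfsg.Agent.Lib.Lead.le_normalizer_of_conj_mem
        intro x hx y hy
        rw [hP₀] at hy ⊢
        exact Subgroup.mem_inf.mpr ⟨(mem_normalizer_iff.mp hx y).mp (Subgroup.mem_inf.mp hy).1,
          hKn.conj_mem y (Subgroup.mem_inf.mp hy).2 x⟩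
      obtain ⟨M, hM⟩ : ∃ M, M = normalizer (P₀ : Set G) ⊓ K := ⟨_, rfl⟩
      have hMK : M ≤ K := by rw [hM]; exact inf_le_right
      have hMN : M ≤ normalizer (P₀ : Set G) := by rw [hM]; exact inf_le_left
      obtain ⟨N, hN⟩ : ∃ N, N = normalizer ((P : Subgroup G) : Set G) := ⟨_, rfl⟩
      rw [← hN] at hNN ⊢
      have hsplit : N.relIndex K = N.relIndex M * Nat.card (Sylow p ↥K) := by
        rw [hnK]
        have h1 : N ⊓ K ≤ M := by rw [hM]; exact inf_le_inf_right K hNN
        have h3 := Subgroup.relIndex_mul_relIndex (N ⊓ K) M K h1 hMK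
        have e1 : (N ⊓ K).relIndex K = N.relIndex K := inf_relIndex_right _ _
        have e2 : M.relIndex K = (normalizer (P₀ : Set G)).relIndex K := by
          rw [hM]; exact inf_relIndex_right _ _
        have e3 : (N ⊓ K).relIndex M = N.relIndex M := by
          have : N ⊓ K = N ⊓ M := by
            rw [hM, ← inf_assoc, inf_eq_left.mpr hNN]
          rw [this]; exact inf_relIndex_right _ _
        rw [e1, e2, e3] at h3
        exact h3.symm
      rw [hsplit]
      apply good_mul
      · have hPM : (P : Subgroup G) ≤ normalizer (M : Set G) := by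
          apply Cfsg.Agent.Lib.Lead.le_normalizer_of_conj_mem
          intro u hu x hx
          rw [hM] at hx ⊢
          have huN : u ∈ normalizer (P₀ : Set G) := hNN (hN ▸ le_normalizer hu)
          exact Subgroup.mem_inf.mpr
            ⟨Subgroup.mul_mem _ (Subgroup.mul_mem _ huN (Subgroup.mem_inf.mp hx).1)
              (Subgroup.inv_mem _ huN), hKn.conj_mem x (Subgroup.mem_inf.mp hx).2 u⟩
        by_cases htop : M ⊔ (P : Subgroup G) = ⊤
        · have hP₀n : P₀.Normal := by
            rw [← normalizer_eq_top_iff, eq_top_iff, ← htop]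
            exact sup_le hMN ((hN ▸ le_normalizer : (P : Subgroup G) ≤ N).trans hNN)
          have hKP₀ : Nat.card K ≤ Nat.card P₀ := hKmin P₀ ⟨hP₀n, hP₀1⟩
          have hP₀eq : P₀ = K := Subgroup.eq_of_le_of_card_ge hP₀K hKP₀
          have hMle : M ≤ N := by
            have h3 : K ≤ (P : Subgroup G) := by rw [← hP₀eq]; exact hP₀P
            exact hMK.trans (h3.trans (hN ▸ le_normalizer))
          rw [relIndex_eq_one.mpr hMle]
          exact good_one p
        · rw [hN, ← relIndex_eq_card_sylow p P M hPM]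
          apply ih (Nat.card ↥(M ⊔ (P : Subgroup G))) _ ↥(M ⊔ (P : Subgroup G)) rfl
          rw [← hn]
          exact card_lt_of_ne_top _ htop
      · apply ih (Nat.card ↥K) _ ↥K rfl
        rw [← hn]
        exact card_lt_of_ne_top _ hKtop

theorem result {G : Type u} [Group G] [Finite G]
    (p : ℕ) [Fact p.Prime] :
    ∃ l : List ℕ, l.prod = Nat.card (Sylow p G) ∧
      ∀ m ∈ l, (IsPrimePow m ∧ m % p = 1) ∨
        ∃ (S : Type u) (_ : Group S) (_ : Finite S), IsSimpleGroup S ∧ m = Nat.card (Sylow p S) := by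
  exact main p (Nat.card G) G rfl

end Cfsg.Agent.S4303
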