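import Mathlib
import Cfsg.Statements.S4314

set_option autoImplicit false
open Cfsg

namespace Cfsg.Agent.S4314

open Subgroup

section
variable {G : Type*} [Group G]

lemma mem_cent_iff {x g : G} : g ∈ centralizer ({x} : Set G) ↔ x * g = g * x := by
  rw [mem_centralizer_iff]; simp

lemma caseA [Finite G]
    (h : ∀ x : G, (centralizer ({x} : Set G)).index = 1 ∨
      ((centralizer ({x} : Set G)).index).Prime)
    (hall : ∀ x : G, (centralizer ({x} : Set G)).Normal) :
    Subgroup.upperCentralSeries G 2 = ⊤ := by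
  rw [eq_top_iff]
  intro a _
  rw [show (2 : ℕ) = 1 + 1 from rfl, Subgroup.mem_upperCentralSeries_succ_iff]
  intro b
  rw [Subgroup.upperCentralSeries_one, mem_center_iff]
  intro w
  have key : a * b * a⁻¹ * b⁻¹ ∈ centralizer ({w} : Set G) := by
    haveI := hall w
    rcases h w with h1 | h1
    · rw [index_eq_one] at h1; rw [h1]; trivial
    · haveI : Fact (centralizer ({w} : Set G)).index.Prime := ⟨h1⟩
      haveI : IsCyclic (G ⧸ centralizer ({w} : Set G)) :=
        isCyclic_of_prime_card (p := (centralizer ({w} : Set G)).index) rfl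
      rw [← QuotientGroup.eq_one_iff]
      simp only [QuotientGroup.mk_mul, QuotientGroup.mk_inv]
      have hc := (IsCyclic.isMulCommutative (α := G ⧸ centralizer ({w} : Set G))).is_comm.comm
        (a : G ⧸ centralizer ({w} : Set G)) (b : G ⧸ centralizer ({w} : Set G))
      rw [hc]; group
  rw [mem_cent_iff] at key
  exact key

lemma card_map_mk' (K L : Subgroup G) [K.Normal] :
    Nat.card (L.map (QuotientGroup.mk' K)) = K.relIndex L := by
  have h := relIndex_comap (⊥ : Subgroup (G ⧸ K)) (QuotientGroup.mk' K) L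
  rw [MonoidHom.comap_bot, QuotientGroup.ker_mk', relIndex_bot_left] at h
  exact h.symm

/-- the center of a noncommutative group of order `pq` is trivial -/
lemma center_eq_bot_of_card_pq {Q : Type*} [Group Q] [Finite Q] {p q : ℕ} (hp : p.Prime)
    (hq : q.Prime) (hc : Nat.card Q = p * q) (hnc : ¬ ∀ a b : Q, a * b = b * a) :
    center Q = ⊥ := by
  by_contra hZ
  apply hnc
  have hmul : (center Q).index * Nat.card (center Q) = p * q := by
    rw [← hc]; exact (center Q).index_mul_card
  have he1 : Nat.card (center Q) ≠ 1 := fun h => hZ (card_eq_one.mp h)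
  have hd : (center Q).index = 1 ∨ (center Q).index.Prime := by
    by_cases hpe : p ∣ Nat.card (center Q)
    · obtain ⟨e', he'⟩ := hpe
      rw [he'] at hmul
      have h1 : (center Q).index * e' = q := by
        have : p * ((center Q).index * e') = p * q := by rw [← hmul]; ring
        exact Nat.eq_of_mul_eq_mul_left hp.pos this
      have h2 : (center Q).index ∣ q := ⟨e', h1.symm⟩
      rcases (Nat.dvd_prime hq).mp h2 with h3 | h3
      · left; exact h3
      · right; rw [h3]; exact hq
    · have h1 : p ∣ (center Q).index := by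
        have : p ∣ (center Q).index * Nat.card (center Q) := by rw [hmul]; exact dvd_mul_right p q
        rcases (Nat.Prime.dvd_mul hp).mp this with h | h
        · exact h
        · exact absurd h hpe
      obtain ⟨d', hd'⟩ := h1
      rw [hd'] at hmul
      have h2 : d' * Nat.card (center Q) = q := by
        have : p * (d' * Nat.card (center Q)) = p * q := by rw [← hmul]; ring
        exact Nat.eq_of_mul_eq_mul_left hp.pos this
      have h3 : Nat.card (center Q) ∣ q := ⟨d', by rw [← h2]; ring⟩
      rcases (Nat.dvd_prime hq).mp h3 with h4 | h4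
      · exact absurd h4 he1
      · rw [h4] at h2
        have h5 : d' = 1 := by
          have : d' * q = 1 * q := by rw [h2, one_mul]
          exact Nat.eq_of_mul_eq_mul_right hq.pos this
        right; rw [hd', h5, mul_one]; exact hp
  haveI : IsCyclic (Q ⧸ center Q) := by
    rcases hd with h | h
    · haveI : Subsingleton (Q ⧸ center Q) := by
        rw [← Finite.card_le_one_iff_subsingleton]
        exact le_of_eq h
      exact isCyclic_of_subsingleton
    · haveI : Fact (center Q).index.Prime := ⟨h⟩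
      exact isCyclic_of_prime_card (p := (center Q).index) rfl
  intro a b
  exact (MonoidHom.isMulCommutative_of_isCyclic_of_ker_le_center (QuotientGroup.mk' (center Q))
    (by rw [QuotientGroup.ker_mk'])).is_comm.comm a b

end

/-- Let `G` be a finite group every conjugacy class of which has size 1 or a prime. Then either `G` is nilpotent of class at most 2, or `G/Z(G)` is a non-abelian group of order `pq` for distinct primes `p, q` (a Frobenius group of order `pq`). -/
theorem result {G : Type*} [Group G] [Finite G]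
    (h : ∀ x : G, (Subgroup.centralizer ({x} : Set G)).index = 1 ∨ ((Subgroup.centralizer ({x} : Set G)).index).Prime) :
    Subgroup.upperCentralSeries G 2 = ⊤ ∨
      ∃ p q : ℕ, p.Prime ∧ q.Prime ∧ p ≠ q ∧ Nat.card (G ⧸ Subgroup.center G) = p * q ∧ ¬ IsMulCommutative (G ⧸ Subgroup.center G) := by
  classical
  by_cases hall : ∀ x : G, (centralizer ({x} : Set G)).Normal
  · left; exact caseA h hall
  right
  obtain ⟨x, hMn⟩ := not_forall.mp hall
  obtain ⟨M, hM⟩ : ∃ M : Subgroup G, M = centralizer ({x} : Set G) := ⟨_, rfl⟩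
  rw [← hM] at hMn
  obtain ⟨p, hp, hMp⟩ : ∃ p : ℕ, p.Prime ∧ M.index = p := by
    rcases h x with h1 | h1
    · exfalso; apply hMn; rw [← hM] at h1; rw [index_eq_one] at h1; rw [h1]; infer_instance
    · exact ⟨_, hM ▸ h1, rfl⟩
  haveI : Fact p.Prime := ⟨hp⟩
  obtain ⟨K, hK⟩ : ∃ K : Subgroup G, K = M.normalCore := ⟨_, rfl⟩
  haveI hKn : K.Normal := hK ▸ M.normalCore_normal
  have hKM : K ≤ M := hK ▸ M.normalCore_le
  have hKdvd : K.index ∣ p.factorial := by
    rw [hK, ← hMp, normalCore_eq_ker, index_ker, index_eq_card, ← Nat.card_perm]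
    exact card_subgroup_dvd_card (MulAction.toPermHom G (G ⧸ M)).range
  have hKidx : K.relIndex M * p = K.index := by rw [← hMp]; exact relIndex_mul_index hKM
  have hpp : ¬ p * p ∣ K.index := by
    intro hdiv
    have h1 : p * p ∣ p.factorial := hdiv.trans hKdvd
    have h2 : p.factorial = p * (p - 1).factorial := (Nat.mul_factorial_pred hp.ne_zero).symm
    rw [h2] at h1
    have h3 : p ∣ (p - 1).factorial := Nat.dvd_of_mul_dvd_mul_left hp.pos h1
    have := (Nat.Prime.dvd_factorial hp).mp h3
    have := hp.pos; omega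
  have hpm : ¬ p ∣ K.relIndex M := by
    rintro ⟨t, ht⟩
    apply hpp; rw [← hKidx, ht]; exact ⟨t, by ring⟩
  have hQcard : Nat.card (G ⧸ K) = K.index := rfl
  obtain ⟨c, hc⟩ := exists_prime_orderOf_dvd_card' (G := G ⧸ K) p
    (by rw [hQcard, ← hKidx]; exact dvd_mul_left _ _)
  obtain ⟨u, hu⟩ := QuotientGroup.mk_surjective c
  -- transitivity
  have hT : ∀ g : G, ∃ i : ℤ, ∃ m ∈ M, g = u ^ i * m := by
    have hcompl : IsComplement' (zpowers c) (M.map (QuotientGroup.mk' K)) := by
      apply isComplement'_of_coprime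
      · rw [Nat.card_zpowers, hc, card_map_mk', hQcard, ← hKidx, mul_comm]
      · rw [Nat.card_zpowers, hc, card_map_mk']
        exact (Nat.Prime.coprime_iff_not_dvd hp).mpr hpm
    intro g
    obtain ⟨⟨⟨a, ha⟩, ⟨b, hb⟩⟩, hab⟩ := hcompl.2 (g : G ⧸ K)
    obtain ⟨i, hi⟩ := mem_zpowers_iff.mp ha
    obtain ⟨m, hm, hmb⟩ := mem_map.mp hb
    simp only at hab
    have h1 : ((u ^ i * m : G) : G ⧸ K) = (g : G ⧸ K) := by
      rw [QuotientGroup.mk_mul, QuotientGroup.mk_zpow, hu, hi, ← hab, ← hmb]; rfl
    have h2 : (u ^ i * m)⁻¹ * g ∈ K := QuotientGroup.eq.mp h1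
    exact ⟨i, m * ((u ^ i * m)⁻¹ * g), M.mul_mem hm (hKM h2), by group⟩
  have hCuM : ∀ w : G, u * w = w * u → w ∈ M → w ∈ K := by
    intro w hwu hwM
    rw [hK]
    intro g
    obtain ⟨i, m, hm, hg⟩ := hT g⁻¹
    have hg' : g = m⁻¹ * u ^ (-i) := by
      have : g = (g⁻¹)⁻¹ := (inv_inv g).symm
      rw [this, hg]; group
    have hcomm : u ^ (-i) * w = w * u ^ (-i) :=
      ((Commute.zpow_left (show Commute u w from hwu) (-i))).eq
    have : g * w * g⁻¹ = m⁻¹ * w * m := by
      rw [hg']
      calc m⁻¹ * u ^ (-i) * w * (m⁻¹ * u ^ (-i))⁻¹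
          = m⁻¹ * (u ^ (-i) * w) * (u ^ (-i))⁻¹ * m := by group
        _ = m⁻¹ * (w * u ^ (-i)) * (u ^ (-i))⁻¹ * m := by rw [hcomm]
        _ = m⁻¹ * w * m := by group
    rw [this]
    exact M.mul_mem (M.mul_mem (M.inv_mem hm) hwM) hm
  obtain ⟨L, hL⟩ : ∃ L : Subgroup G, L = centralizer ({u} : Set G) ⊔ K := ⟨_, rfl⟩
  have hKL : K ≤ L := hL ▸ le_sup_right
  have hCL : centralizer ({u} : Set G) ≤ L := hL ▸ le_sup_left
  have huL : u ∈ L := hCL (mem_cent_iff.mpr rfl)
  have hLM : L ⊓ M = K := by
    apply le_antisymm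
    · rintro g ⟨hgL, hgM⟩
      rw [hL] at hgL
      obtain ⟨c', hc', k, hk, rfl⟩ := mem_sup_of_normal_right.mp hgL
      have hc'M : c' ∈ M := by
        have := M.mul_mem hgM (M.inv_mem (hKM hk)); simpa using this
      exact K.mul_mem (hCuM c' (mem_cent_iff.mp hc') hc'M) hk
    · exact le_inf hKL hKM
  have hKLrel : K.relIndex L = M.relIndex L := by
    rw [← hLM, inf_relIndex_left]
  have hrel_le : K.relIndex L ≤ p := by
    rw [hKLrel, ← hMp, ← relIndex_top_right M]
    exact relIndex_le_of_le_right le_top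
      (by rw [relIndex_top_right]; exact index_ne_zero_of_finite)
  have hp_dvd : p ∣ K.relIndex L := by
    rw [← card_map_mk', ← hc]
    have hcL : c ∈ L.map (QuotientGroup.mk' K) := ⟨u, huL, hu⟩
    exact Subgroup.orderOf_dvd_natCard _ hcL
  have hrel_pos : 0 < K.relIndex L := Nat.pos_of_ne_zero (fun h0 => by
    have h1 := relIndex_mul_index hKL
    rw [h0, zero_mul] at h1
    exact (index_ne_zero_of_finite (H := K)) h1.symm)
  have hrel : K.relIndex L = p := le_antisymm hrel_le (Nat.le_of_dvd hrel_pos hp_dvd)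
  have hKL_idx : p * L.index = K.index := by rw [← hrel]; exact relIndex_mul_index hKL
  have hLdvd : L.index ∣ (centralizer ({u} : Set G)).index := index_dvd_of_le hCL
  have hL1 : L.index ≠ 1 := by
    intro h1
    rw [h1, mul_one] at hKL_idx
    have h2 : K.relIndex M = 1 := by
      have : K.relIndex M * p = 1 * p := by rw [hKidx, ← hKL_idx, one_mul]
      exact Nat.eq_of_mul_eq_mul_right hp.pos this
    have h3 : M = K := le_antisymm (relIndex_eq_one.mp h2) hKM
    apply hMn; rw [h3]; exact hKn
  obtain ⟨q, hq, hLq⟩ : ∃ q : ℕ, q.Prime ∧ L.index = q := by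
    rcases h u with h1 | h1
    · rw [h1] at hLdvd; exact absurd (Nat.dvd_one.mp hLdvd) hL1
    · rcases (Nat.dvd_prime h1).mp hLdvd with h2 | h2
      · exact absurd h2 hL1
      · exact ⟨_, h1, h2⟩
  rw [hLq] at hKL_idx
  have hpq : p ≠ q := by
    rintro rfl
    exact hpp ⟨1, by rw [← hKL_idx]; ring⟩
  have hQpq : Nat.card (G ⧸ K) = p * q := hKL_idx.symm
  have hnc : ¬ ∀ a b : G ⧸ K, a * b = b * a := by
    intro hcomm
    apply hMn
    constructor
    intro m hm g
    have h1 : ((g * m * g⁻¹ : G) : G ⧸ K) = (m : G ⧸ K) := by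
      simp only [QuotientGroup.mk_mul, QuotientGroup.mk_inv]
      rw [hcomm (g : G ⧸ K) (m : G ⧸ K)]; group
    have h2 : m⁻¹ * (g * m * g⁻¹) ∈ K := QuotientGroup.eq.mp h1.symm
    have := M.mul_mem hm (hKM h2)
    simpa using this
  have hZQ := center_eq_bot_of_card_pq hp hq hQpq hnc
  have hC : ∀ v : G, v ∉ K → ∀ k ∈ K, v * k = k * v := by
    intro v hv k hk
    obtain ⟨S, hS⟩ : ∃ S : Subgroup G, S = centralizer ({v} : Set G) ⊔ K := ⟨_, rfl⟩
    have hCS : centralizer ({v} : Set G) ≤ S := hS ▸ le_sup_left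
    have hKS : K ≤ S := hS ▸ le_sup_right
    by_cases hStop : S = ⊤
    · exfalso
      apply hv
      have hvc : (v : G ⧸ K) ∈ center (G ⧸ K) := by
        rw [mem_center_iff]
        intro gq
        obtain ⟨g, rfl⟩ := QuotientGroup.mk_surjective gq
        have hg : g ∈ S := by rw [hStop]; trivial
        rw [hS] at hg
        obtain ⟨c', hc', k', hk', rfl⟩ := mem_sup_of_normal_right.mp hg
        have : ((c' * k' : G) : G ⧸ K) = (c' : G ⧸ K) := by
          rw [QuotientGroup.mk_mul, (QuotientGroup.eq_one_iff k').mpr hk', mul_one]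
        rw [this, ← QuotientGroup.mk_mul, ← QuotientGroup.mk_mul, mem_cent_iff.mp hc']
      rw [hZQ, mem_bot] at hvc
      exact (QuotientGroup.eq_one_iff v).mp hvc
    · have hSidx : S.index ≠ 1 := fun h1 => hStop (index_eq_one.mp h1)
      have h1 := relIndex_mul_index hCS
      have hk' : k ∈ centralizer ({v} : Set G) := by
        rcases h v with h2 | h2
        · rw [index_eq_one] at h2; rw [h2]; trivial
        · have h3 : S.index ∣ (centralizer ({v} : Set G)).index := index_dvd_of_le hCS
          rcases (Nat.dvd_prime h2).mp h3 with h4 | h4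
          · exact absurd h4 hSidx
          · rw [h4] at h1
            have h5 : (centralizer ({v} : Set G)).relIndex S = 1 := by
              have : (centralizer ({v} : Set G)).relIndex S * (centralizer ({v} : Set G)).index
                  = 1 * (centralizer ({v} : Set G)).index := by rw [h1, one_mul]
              exact Nat.eq_of_mul_eq_mul_right h2.pos this
            exact relIndex_eq_one.mp h5 (hKS hk)
      exact mem_cent_iff.mp hk'
  obtain ⟨g₁, hg₁⟩ : ∃ g₁ : G, g₁ ∉ K := by
    by_contra hno
    have : K = ⊤ := eq_top_iff.mpr (fun g _ => by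
      by_contra hg; exact hno ⟨g, hg⟩)
    have h1 : K.index = 1 := by rw [this, index_top]
    rw [← hKL_idx] at h1
    have := hp.one_lt; have := hq.pos
    nlinarith
  have hKZ : K = center G := by
    apply le_antisymm
    · intro k hk
      rw [mem_center_iff]
      intro g
      by_cases hg : g ∈ K
      · have hgg : g₁ * g ∉ K := fun hh => hg₁ (by
          have := K.mul_mem hh (K.inv_mem hg); simpa using this)
        have e1 := hC g₁ hg₁ k hk
        have e2 := hC (g₁ * g) hgg k hk
        calc g * k = g₁⁻¹ * (g₁ * g * k) := by group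
          _ = g₁⁻¹ * (k * (g₁ * g)) := by rw [e2]
          _ = g₁⁻¹ * (k * g₁) * g := by group
          _ = g₁⁻¹ * (g₁ * k) * g := by rw [e1]
          _ = k * g := by group
      · exact hC g hg k hk
    · rw [hK, normal_le_normalCore, hM]
      exact center_le_centralizer _
  subst hKZ
  exact ⟨p, q, hp, hq, hpq, hQpq, fun hcm => hnc (fun a b => hcm.is_comm.comm a b)⟩

end Cfsg.Agent.S4314
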