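import Cfsg.Statements.S4421
import Mathlib

set_option autoImplicit false
open Cfsg

namespace Cfsg.Agent.S4421

theorem mem_map_conj {G : Type*} [Group G] (K : Subgroup G) (g y : G) :
    y ∈ K.map (MulAut.conj g).toMonoidHom ↔ g⁻¹ * y * g ∈ K := by
  rw [Subgroup.mem_map]
  constructor
  · rintro ⟨k, hk, rfl⟩
    have : g⁻¹ * ((MulAut.conj g).toMonoidHom k) * g = k := by
      simp only [MulEquiv.toMonoidHom_eq_coe, MonoidHom.coe_coe, MulAut.conj_apply]
      group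
    rw [this]; exact hk
  · intro h
    refine ⟨g⁻¹ * y * g, h, ?_⟩
    simp only [MulEquiv.toMonoidHom_eq_coe, MonoidHom.coe_coe, MulAut.conj_apply]
    group

/-- A factorization of a normalizer from two-step control of fusion. -/
theorem result {G : Type*} [Group G] [Finite G] (A S H : Subgroup G)
    (hAS : A ≤ S) (hSH : S ≤ H)
    (h1 : ∀ g : G, A.map (MulAut.conj g).toMonoidHom ≤ S → ∃ s ∈ S, A.map (MulAut.conj g).toMonoidHom = A.map (MulAut.conj s).toMonoidHom)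
    (h2 : ∀ g : G, S.map (MulAut.conj g).toMonoidHom ≤ H → ∃ y ∈ H, S.map (MulAut.conj g).toMonoidHom = S.map (MulAut.conj y).toMonoidHom)
    (h3 : ∀ x ∈ Subgroup.normalizer (A : Set G), S.map (MulAut.conj x).toMonoidHom ≤ H) :
    ∀ x ∈ Subgroup.normalizer (A : Set G), ∃ y ∈ H ⊓ Subgroup.normalizer (A : Set G),
      ∃ z ∈ Subgroup.normalizer (S : Set G) ⊓ Subgroup.normalizer (A : Set G), x = y * z := by
  intro x hx
  obtain ⟨y, hyH, hy⟩ := h2 x (h3 x hx)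
  have hy' : ∀ u : G, x⁻¹ * u * x ∈ S ↔ y⁻¹ * u * y ∈ S := by
    intro u
    rw [← mem_map_conj, ← mem_map_conj, hy]
  have hxA := hx
  rw [Subgroup.mem_normalizer_iff] at hxA
  -- w = y⁻¹ x normalizes S
  have hw : y⁻¹ * x ∈ Subgroup.normalizer (S : Set G) := by
    rw [Subgroup.mem_normalizer_iff]
    intro h
    have e1 : x⁻¹ * (x * h * x⁻¹) * x = h := by group
    have e2 : y⁻¹ * (x * h * x⁻¹) * y = y⁻¹ * x * h * (y⁻¹ * x)⁻¹ := by group
    have := hy' (x * h * x⁻¹)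
    rw [e1, e2] at this
    exact this
  have hwS := hw
  rw [Subgroup.mem_normalizer_iff] at hwS
  have hA2 : A.map (MulAut.conj y⁻¹).toMonoidHom ≤ S := by
    intro u hu
    rw [mem_map_conj, inv_inv] at hu
    -- y u y⁻¹ ∈ A; let a' = x⁻¹ (y u y⁻¹) x ∈ A
    have ha' : x⁻¹ * (y * u * y⁻¹) * x ∈ A := by
      have := (hxA (x⁻¹ * (y * u * y⁻¹) * x)).2
      apply this
      have e : x * (x⁻¹ * (y * u * y⁻¹) * x) * x⁻¹ = y * u * y⁻¹ := by group
      rw [e]; exact hu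
    have h4 := (hwS _).1 (hAS ha')
    have e : y⁻¹ * x * (x⁻¹ * (y * u * y⁻¹) * x) * (y⁻¹ * x)⁻¹ = u := by group
    rw [e] at h4
    exact h4
  obtain ⟨s, hsS, hs⟩ := h1 y⁻¹ hA2
  have hs' : ∀ u : G, y * u * y⁻¹ ∈ A ↔ s⁻¹ * u * s ∈ A := by
    intro u
    have := mem_map_conj A y⁻¹ u
    rw [inv_inv] at this
    rw [← this, ← mem_map_conj, hs]
  have hysA : y * s ∈ Subgroup.normalizer (A : Set G) := by
    rw [Subgroup.mem_normalizer_iff]
    intro h
    have := hs' (s * h * s⁻¹)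
    have e1 : s⁻¹ * (s * h * s⁻¹) * s = h := by group
    have e2 : y * (s * h * s⁻¹) * y⁻¹ = y * s * h * (y * s)⁻¹ := by group
    rw [e1, e2] at this
    exact this.symm
  refine ⟨y * s, Subgroup.mem_inf.mpr ⟨H.mul_mem hyH (hSH hsS), hysA⟩, s⁻¹ * (y⁻¹ * x), ?_, by group⟩
  refine Subgroup.mem_inf.mpr ⟨?_, ?_⟩
  · exact Subgroup.mul_mem _ (Subgroup.inv_mem _ (Subgroup.le_normalizer hsS)) hw
  · have e : s⁻¹ * (y⁻¹ * x) = (y * s)⁻¹ * x := by group
    rw [e]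
    exact Subgroup.mul_mem _ (Subgroup.inv_mem _ hysA) hx

end Cfsg.Agent.S4421
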