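import Cfsg.Statements.S4422
import Mathlib

set_option autoImplicit false
open Cfsg

namespace Cfsg.Agent.S4422

theorem modEq_one_of_primes (e : ℕ) : ∀ m : ℕ, (∀ p : ℕ, p.Prime → p ∣ m → p ≡ 1 [MOD e]) → m ≠ 0 → m ≡ 1 [MOD e] := by
  intro m
  induction m using Nat.recOnMul with
  | zero => intro _ h; exact absurd rfl h
  | one => intro _ _; rfl
  | prime p hp => intro h _; exact h p hp dvd_rfl
  | mul a b iha ihb =>
    intro h hab
    have ha : a ≠ 0 := fun h0 => hab (by rw [h0, zero_mul])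
    have hb : b ≠ 0 := fun h0 => hab (by rw [h0, mul_zero])
    have h1 := iha (fun p hp hpa => h p hp (dvd_mul_of_dvd_left hpa b)) ha
    have h2 := ihb (fun p hp hpb => h p hp (dvd_mul_of_dvd_right hpb a)) hb
    simpa using h1.mul h2

/-- Primitive divisors of `q^e - 1` are congruent to 1 modulo `e`. -/
theorem result (q e m : ℕ) (hq : 2 ≤ q) (he : 1 ≤ e)
    (hm : m ∣ q ^ e - 1) (hcop : ∀ i : ℕ, 1 ≤ i → i < e → Nat.Coprime m (q ^ i - 1)) :
    m % e = 1 % e := by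
  have hqe : 2 ≤ q ^ e := by
    calc 2 ≤ q := hq
      _ = q ^ 1 := (pow_one q).symm
      _ ≤ q ^ e := Nat.pow_le_pow_right (by omega) he
  have hm0 : m ≠ 0 := by
    rintro rfl
    rw [zero_dvd_iff] at hm
    omega
  apply modEq_one_of_primes e m _ hm0
  intro p hp hpm
  haveI : Fact p.Prime := ⟨hp⟩
  have hpow : ∀ i : ℕ, 1 ≤ i → (p ∣ q ^ i - 1 ↔ (q : ZMod p) ^ i = 1) := by
    intro i hi
    have h1 : 1 ≤ q ^ i := Nat.one_le_pow _ _ (by omega)
    rw [← ZMod.natCast_eq_zero_iff, Nat.cast_sub h1, Nat.cast_pow, Nat.cast_one, sub_eq_zero]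
  have hqe1 : (q : ZMod p) ^ e = 1 := (hpow e he).1 (hpm.trans hm)
  have hd : orderOf (q : ZMod p) ∣ e := orderOf_dvd_of_pow_eq_one hqe1
  have hq0 : (q : ZMod p) ≠ 0 := by
    intro h0
    rw [h0, zero_pow (by omega)] at hqe1
    exact zero_ne_one hqe1
  have hdpos : 1 ≤ orderOf (q : ZMod p) := by
    have : 0 < orderOf (q : ZMod p) := Nat.pos_of_dvd_of_pos hd (by omega)
    omega
  have hde : orderOf (q : ZMod p) = e := by
    by_contra hne
    have hlt : orderOf (q : ZMod p) < e := lt_of_le_of_ne (Nat.le_of_dvd (by omega) hd) hne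
    have h1 := hcop _ hdpos hlt
    have h2 : p ∣ q ^ orderOf (q : ZMod p) - 1 := (hpow _ hdpos).2 (pow_orderOf_eq_one _)
    have h3 : p ∣ 1 := by
      have := Nat.dvd_gcd hpm h2
      rwa [Nat.Coprime.gcd_eq_one h1] at this
    exact hp.one_lt.ne' (Nat.dvd_one.mp h3)
  have h4 : orderOf (q : ZMod p) ∣ p - 1 := orderOf_dvd_of_pow_eq_one (ZMod.pow_card_sub_one_eq_one hq0)
  rw [hde] at h4
  have h5 : 1 ≤ p := hp.one_lt.le
  exact ((Nat.modEq_iff_dvd' h5).2 h4).symm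

end Cfsg.Agent.S4422
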