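import Cfsg.Statements.S4424
import Mathlib
import Cfsg.Agent.Lib.Helper7.WBO2
import Cfsg.Agent.S4425
-- import your own Cfsg.Agent.* helpers here

set_option autoImplicit false
open Cfsg
open Cfsg.Agent.Lib.Helper7 Cfsg.Agent.Lib.Lead
open scoped ComplexConjugate

namespace Cfsg.Agent.S4424

/-- Let χ be an irreducible character of the finite group G lying in the p-block B (relative to a maximal ideal M of the algebraic integers containing p), and let p^a be the p-part of the order of G. Then the class function that equals p^a · χ on the p-regular elements and vanishes on the p-singular elements is an integer combination of the irreducible characters in B: there are integers a_ψ, zero for ψ outside B, with that function equal to Σ a_ψ ψ. -/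
theorem result {G : Type*} [Group G] [Finite G] (p : ℕ) [Fact p.Prime] (M : Ideal Cfsg.AlgInt) (hM : Cfsg.IsPModular p M) (B : Set (Cfsg.IrrCharacter G)) (hB : Cfsg.IsPBlock M B) (χ : Cfsg.IrrCharacter G) (hχ : χ ∈ B) : ∃ a : Cfsg.IrrCharacter G → ℤ, (∀ ψ, ψ ∉ B → a ψ = 0) ∧ (fun x : G => if p ∣ orderOf x then (0 : ℂ) else ((p ^ (Nat.card G).factorization p : ℕ) : ℂ) * (χ : G → ℂ) x) = fun x => ∑ᶠ ψ : Cfsg.IrrCharacter G, (a ψ : ℂ) * (ψ : G → ℂ) x := by
  classical
  haveI : Fintype G := Fintype.ofFinite _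
  haveI : Fintype (Cfsg.IrrCharacter G) := Fintype.ofFinite _
  have hp : p.Prime := Fact.out
  obtain ⟨a, ha⟩ : ∃ a : ℕ, a = (Nat.card G).factorization p := ⟨_, rfl⟩
  rw [← ha]
  obtain ⟨b₀, hb₀⟩ : ∃ b₀ : ℕ, b₀ = (Cfsg.charDegree (χ : G → ℂ)).factorization p := ⟨_, rfl⟩
  have hgen0 := (Cfsg.Agent.S4425.result p χ).1
  rw [← ha, ← hb₀] at hgen0
  obtain ⟨θ, hθ⟩ : ∃ θ : G → ℂ, θ = fun x : G => if p ∣ orderOf x then (0 : ℂ) else
      ((p ^ a : ℕ) : ℂ) * (χ : G → ℂ) x := ⟨_, rfl⟩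
  have hgen : Cfsg.IsGeneralizedCharacter G θ := by
    have h1 := isGenChar_zsmul_lead ((p ^ (a - (a - b₀)) : ℕ) : ℤ) hgen0
    have e : θ = (((p ^ (a - (a - b₀)) : ℕ) : ℤ) : ℂ) • (fun x : G => if p ∣ orderOf x then (0 : ℂ)
        else ((p ^ (a - b₀) : ℕ) : ℂ) * (χ : G → ℂ) x) := by
      rw [hθ]
      funext x
      rw [Pi.smul_apply]
      by_cases hx : p ∣ orderOf x
      · rw [if_pos hx, if_pos hx, smul_zero]
      · rw [if_neg hx, if_neg hx, smul_eq_mul, ← mul_assoc]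
        congr 1
        have h2 : a - (a - b₀) + (a - b₀) = a := Nat.sub_add_cancel (Nat.sub_le a b₀)
        have h3 : p ^ a = p ^ (a - (a - b₀)) * p ^ (a - b₀) := by rw [← pow_add, h2]
        rw [h3]
        push_cast
        ring
    rw [e]
    exact h1
  have hθ2 : ∀ x : G, θ x = ((p ^ a : ℕ) : ℂ) * Cfsg.pRegularPart p (χ : G → ℂ) x := by
    intro x
    rw [hθ]
    show (if p ∣ orderOf x then (0 : ℂ) else ((p ^ a : ℕ) : ℂ) * (χ : G → ℂ) x) =
      ((p ^ a : ℕ) : ℂ) * (if Cfsg.IsPRegular p x then (χ : G → ℂ) x else 0)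
    by_cases hx : p ∣ orderOf x
    · rw [if_pos hx, if_neg (fun h : Cfsg.IsPRegular p x => h hx), mul_zero]
    · rw [if_neg hx, if_pos (show Cfsg.IsPRegular p x from hx)]
  have hint : ∀ φ : Cfsg.IrrCharacter G, ∃ n : ℤ, Cfsg.classInner θ (φ : G → ℂ) = n := by
    intro φ
    obtain ⟨χ₁, χ₂, h1, h2, h3⟩ := hgen
    obtain ⟨n₁, hn₁⟩ := classInner_char_char_nat h1 (isCharacter_of_isIrrCharacter φ.2)
    obtain ⟨n₂, hn₂⟩ := classInner_char_char_nat h2 (isCharacter_of_isIrrCharacter φ.2)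
    refine ⟨(n₁ : ℤ) - n₂, ?_⟩
    push_cast
    rw [← hn₁, ← hn₂, h3]
    unfold Cfsg.classInner
    rw [← mul_sub, ← Finset.sum_sub_distrib]
    congr 1
    apply Finset.sum_congr rfl
    intro g _
    rw [Pi.sub_apply, sub_mul]
  choose n hn using hint
  refine ⟨fun φ => if φ ∈ B then n φ else 0, fun ψ hψ => if_neg hψ, ?_⟩
  rw [← hθ]
  funext x
  rw [finsum_eq_sum_of_fintype, hθ2, ← preg_expand_h7 p M hM B hB χ hχ x, Finset.mul_sum]
  apply Finset.sum_congr rfl
  intro φ _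
  beta_reduce
  by_cases hφ : φ ∈ B
  · rw [if_pos hφ, if_pos hφ, ← hn φ, ← mul_assoc]
    congr 1
    unfold Cfsg.classInner
    rw [mul_left_comm, Finset.mul_sum]
    congr 1
    apply Finset.sum_congr rfl
    intro g _
    rw [hθ2, mul_assoc]
  · rw [if_neg hφ, if_neg hφ]
    simp


end Cfsg.Agent.S4424
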