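import Cfsg.Statements.S4426
import Mathlib
import Cfsg.Agent.Lib.Helper7.Heights
-- import your own Cfsg.Agent.* helpers here

set_option autoImplicit false
open Cfsg
open Cfsg.Agent.Lib.Helper7 Cfsg.Agent.Lib.Lead
open scoped ComplexConjugate

namespace Cfsg.Agent.S4426

/-- Let χ be an irreducible character in the p-block B of the finite group G (relative to a maximal ideal M of the algebraic integers containing p), let p^a be the p-part of the order of G, and let χ̃ be the class function equal to p^a · χ on p-regular elements and zero elsewhere. For ξ ∈ B the inner product [χ̃, ξ] is an integer. The following are equivalent: (a) χ has height zero in B; (b) for some ξ ∈ B the integer [χ̃, ξ] is nonzero and the exact power of p dividing it equals the exact power of p dividing ξ(1); (c) the same holds for every ξ ∈ B. -/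
theorem result {G : Type*} [Group G] [Fintype G] (p : ℕ) [Fact p.Prime] (M : Ideal Cfsg.AlgInt) (hM : Cfsg.IsPModular p M) (B : Set (Cfsg.IrrCharacter G)) (hB : Cfsg.IsPBlock M B) (χ : Cfsg.IrrCharacter G) (hχ : χ ∈ B) : (Cfsg.blockHeight p B (χ : G → ℂ) = 0 ↔ ∃ ξ ∈ B, ∃ n : ℤ, Cfsg.classInner (fun x : G => if p ∣ orderOf x then (0 : ℂ) else ((p ^ (Nat.card G).factorization p : ℕ) : ℂ) * (χ : G → ℂ) x) (ξ : G → ℂ) = (n : ℂ) ∧ n ≠ 0 ∧ padicValInt p n = (Cfsg.charDegree (ξ : G → ℂ)).factorization p) ∧ (Cfsg.blockHeight p B (χ : G → ℂ) = 0 ↔ ∀ ξ ∈ B, ∃ n : ℤ, Cfsg.classInner (fun x : G => if p ∣ orderOf x then (0 : ℂ) else ((p ^ (Nat.card G).factorization p : ℕ) : ℂ) * (χ : G → ℂ) x) (ξ : G → ℂ) = (n : ℂ) ∧ n ≠ 0 ∧ padicValInt p n = (Cfsg.charDegree (ξ : G → ℂ)).factorization p) := by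
  classical
  haveI : Fintype (Cfsg.IrrCharacter G) := Fintype.ofFinite _
  haveI : Fintype (ConjClasses G) := Fintype.ofFinite _
  have hMprime : M.IsPrime := hM.2.1.isPrime
  obtain ⟨χ₀, hχ₀B, hχ₀inf, hmin⟩ := exists_min_h7 p M hMprime B hB
  have hΘ : ∀ ξ : Cfsg.IrrCharacter G, Cfsg.classInner (fun x : G => if p ∣ orderOf x then (0 : ℂ)
      else ((p ^ (Nat.card G).factorization p : ℕ) : ℂ) * (χ : G → ℂ) x) (ξ : G → ℂ) =
      (nn7 p χ ξ : ℂ) := by
    intro ξ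
    rw [nn7_spec p χ ξ]
    have e : ∀ g : G, (fun x : G => if p ∣ orderOf x then (0 : ℂ)
        else ((p ^ (Nat.card G).factorization p : ℕ) : ℂ) * (χ : G → ℂ) x) g *
        conj ((ξ : G → ℂ) g) = ((p ^ (Nat.card G).factorization p : ℕ) : ℂ) *
        (tw7 p (χ : G → ℂ) g * conj ((ξ : G → ℂ) g)) := by
      intro g
      show (if p ∣ orderOf g then (0 : ℂ)
        else ((p ^ (Nat.card G).factorization p : ℕ) : ℂ) * (χ : G → ℂ) g) *
        conj ((ξ : G → ℂ) g) = ((p ^ (Nat.card G).factorization p : ℕ) : ℂ) *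
        (tw7 p (χ : G → ℂ) g * conj ((ξ : G → ℂ) g))
      rw [tw7_apply]
      by_cases hg : p ∣ orderOf g
      · rw [if_pos hg, if_pos hg]; ring
      · rw [if_neg hg, if_neg hg]; ring
    show (Nat.card G : ℂ)⁻¹ * ∑ g : G, (fun x : G => if p ∣ orderOf x then (0 : ℂ)
        else ((p ^ (Nat.card G).factorization p : ℕ) : ℂ) * (χ : G → ℂ) x) g *
        conj ((ξ : G → ℂ) g) = ((p ^ (Nat.card G).factorization p : ℕ) : ℂ) *
        ((Nat.card G : ℂ)⁻¹ * ∑ g : G, tw7 p (χ : G → ℂ) g * conj ((ξ : G → ℂ) g))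
    rw [Finset.sum_congr rfl (fun g _ => e g), ← Finset.mul_sum]
    ring
  have hheight : Cfsg.blockHeight p B (χ : G → ℂ) = 0 ↔
      (Cfsg.charDegree (χ : G → ℂ)).factorization p =
        (Cfsg.charDegree (χ₀ : G → ℂ)).factorization p := by
    unfold Cfsg.blockHeight
    rw [← hχ₀inf]
    have := hmin χ hχ
    omega
  have main : ∀ (cond : Cfsg.IrrCharacter G → Prop), (∀ ξ ∈ B, cond ξ ↔
      (nn7 p χ ξ ≠ 0 ∧ padicValInt p (nn7 p χ ξ) =
        (Cfsg.charDegree (ξ : G → ℂ)).factorization p)) →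
      ((Cfsg.blockHeight p B (χ : G → ℂ) = 0 ↔ ∃ ξ ∈ B, cond ξ) ∧
       (Cfsg.blockHeight p B (χ : G → ℂ) = 0 ↔ ∀ ξ ∈ B, cond ξ)) := by
    intro cond hcond
    have h1 : Cfsg.blockHeight p B (χ : G → ℂ) = 0 → ∀ ξ ∈ B, cond ξ := by
      intro h0 ξ hξ
      have hmin' : ∀ φ ∈ B, (Cfsg.charDegree (χ : G → ℂ)).factorization p ≤
          (Cfsg.charDegree (φ : G → ℂ)).factorization p := by
        intro φ hφ; rw [hheight.1 h0]; exact hmin φ hφ
      exact (hcond ξ hξ).2 (nn7_of_min p M hM B hB χ hχ hmin' ξ hξ)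
    have h2 : (∃ ξ ∈ B, cond ξ) → Cfsg.blockHeight p B (χ : G → ℂ) = 0 := by
      rintro ⟨ξ, hξ, hc⟩
      obtain ⟨hn0, hnv⟩ := (hcond ξ hξ).1 hc
      by_contra hne
      have hne' : (Cfsg.charDegree (χ : G → ℂ)).factorization p ≠
          (Cfsg.charDegree (χ₀ : G → ℂ)).factorization p := fun h => hne (hheight.2 h)
      have h3 := nn7_of_not_min p M hM B hB χ χ₀ hχ hχ₀B hmin hne' ξ hξ
      rw [padicValInt_dvd_iff] at h3
      rcases h3 with h3 | h3
      · exact hn0 h3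
      · omega
    exact ⟨⟨fun h => ⟨χ, hχ, h1 h χ hχ⟩, h2⟩, ⟨h1, fun h => h2 ⟨χ, hχ, h χ hχ⟩⟩⟩
  refine main _ ?_
  intro ξ hξ
  constructor
  · rintro ⟨n, hn, hn0, hnv⟩
    rw [hΘ ξ] at hn
    have hnn : nn7 p χ ξ = n := by exact_mod_cast hn
    rw [hnn]; exact ⟨hn0, hnv⟩
  · rintro ⟨h2, h3⟩
    exact ⟨nn7 p χ ξ, hΘ ξ, h2, h3⟩


end Cfsg.Agent.S4426
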