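import Cfsg.Statements.S4433
import Mathlib
import Cfsg.Agent.Lib.Lead.SylowAux2
import Cfsg.Agent.Lib.Lead.BlockDefect

set_option autoImplicit false
open Cfsg Cfsg.Agent.Lib.Lead

namespace Cfsg.Agent.S4433

open scoped Pointwise commutatorElement

/-- Let N be a normal subgroup of the finite group G and write Ḡ = G/N; fix a maximal ideal M of the algebraic integers containing p. Let B̄ be a block of Ḡ contained in the block B of G, in the sense that the inflation of every member of B̄ lies in B, and let D̄ be a defect group of B̄. Then B has a defect group P whose image in Ḡ contains D̄. -/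
theorem result {G : Type*} [Group G] [Finite G] (p : ℕ) [Fact p.Prime] (M : Ideal Cfsg.AlgInt) (hM : Cfsg.IsPModular p M) (N : Subgroup G) [N.Normal] (Bbar : Set (Cfsg.IrrCharacter (G ⧸ N))) (hBbar : Cfsg.IsPBlock M Bbar) (B : Set (Cfsg.IrrCharacter G)) (hB : Cfsg.IsPBlock M B) (hsub : ∀ χ ∈ Bbar, ∀ ψ : Cfsg.IrrCharacter G, (ψ : G → ℂ) = (χ : G ⧸ N → ℂ) ∘ QuotientGroup.mk → ψ ∈ B) (Dbar : Subgroup (G ⧸ N)) (hDbar : Cfsg.IsDefectGroup p M Bbar Dbar) : ∃ P : Subgroup G, Cfsg.IsDefectGroup p M B P ∧ Dbar ≤ P.map (QuotientGroup.mk' N) := by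
  classical
  haveI : Fintype G := Fintype.ofFinite G
  haveI : Fintype (G ⧸ N) := Fintype.ofFinite _
  obtain ⟨hp, hMmax, hpM⟩ := hM
  have hMprime : M.IsPrime := hMmax.isPrime
  have hMtop : M ≠ ⊤ := hMprime.ne_top
  have hsurj : Function.Surjective (QuotientGroup.mk' N) := QuotientGroup.mk'_surjective N
  obtain ⟨χb, rfl⟩ := hBbar
  obtain ⟨χ₀, rfl⟩ := hB
  have hχbB : χb ∈ Cfsg.blockOf M (χb : G ⧸ N → ℂ) :=
    sameBlock_refl_lead hMtop (χb : G ⧸ N → ℂ)
  obtain ⟨ψ₀, hψ₀⟩ : ∃ ψ₀ : Cfsg.IrrCharacter G,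
      (ψ₀ : G → ℂ) = (χb : G ⧸ N → ℂ) ∘ QuotientGroup.mk :=
    ⟨⟨(χb : G ⧸ N → ℂ) ∘ (QuotientGroup.mk' N),
      isIrrCharacter_comp_surj (QuotientGroup.mk' N) hsurj χb.2⟩, rfl⟩
  have hψ₀B : ψ₀ ∈ Cfsg.blockOf M (χ₀ : G → ℂ) := hsub χb hχbB ψ₀ hψ₀
  obtain ⟨z, hz, P₀, rfl⟩ := hDbar
  obtain ⟨hzR, hzI, hzω⟩ := hz
  have hA : ∀ g : G, Cfsg.IsDefectClass M (Cfsg.blockOf M (χ₀ : G → ℂ)) g →
      ¬ p ∣ (Subgroup.centralizer ({g} : Set G)).relIndex
        ((Subgroup.centralizer ({QuotientGroup.mk' N g} : Set (G ⧸ N))).comap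
          (QuotientGroup.mk' N)) ∧
      ¬ Cfsg.MemLocalIdeal M
        (Cfsg.centralChar (χb : G ⧸ N → ℂ) (QuotientGroup.mk' N g)) := by
    intro g hg
    obtain ⟨-, -, h3⟩ := hg
    have hω := h3 ψ₀ hψ₀B
    have hle : Subgroup.centralizer ({g} : Set G) ≤
        (Subgroup.centralizer ({QuotientGroup.mk' N g} : Set (G ⧸ N))).comap
          (QuotientGroup.mk' N) := by
      intro c hc
      rw [Subgroup.mem_comap, Subgroup.mem_centralizer_iff]
      intro a ha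
      rw [Set.mem_singleton_iff.mp ha]
      have h1 := Subgroup.mem_centralizer_iff.mp hc g (Set.mem_singleton g)
      rw [← map_mul, ← map_mul, h1]
    have hidx := Subgroup.relIndex_mul_index hle
    rw [Subgroup.index_comap_of_surjective _ hsurj] at hidx
    have e : Cfsg.centralChar (ψ₀ : G → ℂ) g =
        (((Subgroup.centralizer ({g} : Set G)).relIndex
          ((Subgroup.centralizer ({QuotientGroup.mk' N g} : Set (G ⧸ N))).comap
            (QuotientGroup.mk' N)) : ℕ) : ℂ) *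
          Cfsg.centralChar (χb : G ⧸ N → ℂ) (QuotientGroup.mk' N g) := by
      unfold Cfsg.centralChar
      rw [← hidx, hψ₀, Nat.cast_mul]
      have h1' : ((χb : G ⧸ N → ℂ) ∘ QuotientGroup.mk) (1 : G) = (χb : G ⧸ N → ℂ) 1 := rfl
      have hg' : ((χb : G ⧸ N → ℂ) ∘ QuotientGroup.mk) g =
          (χb : G ⧸ N → ℂ) (QuotientGroup.mk' N g) := rfl
      rw [h1', hg']
      ring
    constructor
    · intro hdvd
      obtain ⟨m, hm⟩ := hdvd
      apply hω
      rw [e, hm]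
      have hint := isIntegral_centralChar_lead χb (QuotientGroup.mk' N g)
      have h5 := memLocalIdeal_smul_lead ((m : Cfsg.AlgInt) * ⟨_, hint⟩)
        (memLocalIdeal_of_mem_lead hMtop (p : Cfsg.AlgInt) hpM)
      have e2 : (((p * m : ℕ)) : ℂ) *
          Cfsg.centralChar (χb : G ⧸ N → ℂ) (QuotientGroup.mk' N g) =
          (((m : Cfsg.AlgInt) * ⟨_, hint⟩ : Cfsg.AlgInt) : ℂ) * ((p : Cfsg.AlgInt) : ℂ) := by
        show ((p * m : ℕ) : ℂ) * Cfsg.centralChar (χb : G ⧸ N → ℂ) (QuotientGroup.mk' N g) =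
          ((m : ℂ) * Cfsg.centralChar (χb : G ⧸ N → ℂ) (QuotientGroup.mk' N g)) * (p : ℂ)
        rw [Nat.cast_mul]
        ring
      rw [e2]
      exact h5
    · intro h0
      apply hω
      rw [e]
      exact memLocalIdeal_smul_lead (((Subgroup.centralizer ({g} : Set G)).relIndex
          ((Subgroup.centralizer ({QuotientGroup.mk' N g} : Set (G ⧸ N))).comap
            (QuotientGroup.mk' N)) : ℕ) : Cfsg.AlgInt) h0
  obtain ⟨g, hg⟩ := exists_defectClass_lead p hp M hMprime hpM χ₀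
  have hPD : IsPGroup p ((P₀ : Subgroup (Subgroup.centralizer ({z} : Set (G ⧸ N)))).map
      (Subgroup.centralizer ({z} : Set (G ⧸ N))).subtype) := P₀.isPGroup'.map _
  have hPz : ∀ d ∈ (P₀ : Subgroup (Subgroup.centralizer ({z} : Set (G ⧸ N)))).map
      (Subgroup.centralizer ({z} : Set (G ⧸ N))).subtype, d * z = z * d := by
    intro d hd
    obtain ⟨c, -, rfl⟩ := Subgroup.mem_map.mp hd
    exact (Subgroup.mem_centralizer_iff.mp c.2 z (Set.mem_singleton z)).symm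
  obtain ⟨xb, hxb, hxfix⟩ := minmax_key_lead p hp M hMprime hpM χb (QuotientGroup.mk' N g) z
    (hA g hg).2 hzI _ hPD hPz
  obtain ⟨cb, hcb⟩ := isConj_iff.mp hxb
  obtain ⟨c, rfl⟩ := hsurj cb
  obtain ⟨gp, hgp⟩ : ∃ gp : G, gp = c⁻¹ * g * c⁻¹⁻¹ := ⟨_, rfl⟩
  have hg' : Cfsg.IsDefectClass M (Cfsg.blockOf M (χ₀ : G → ℂ)) gp := by
    rw [hgp]
    exact isDefectClass_conj_lead hg c⁻¹
  have hπg' : QuotientGroup.mk' N gp = xb := by
    rw [hgp]
    simp only [map_mul, map_inv]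
    rw [← hcb]
    group
  have hDle : ∀ d ∈ (P₀ : Subgroup (Subgroup.centralizer ({z} : Set (G ⧸ N)))).map
      (Subgroup.centralizer ({z} : Set (G ⧸ N))).subtype,
      d ∈ Subgroup.centralizer ({QuotientGroup.mk' N gp} : Set (G ⧸ N)) := by
    intro d hd
    rw [Subgroup.mem_centralizer_iff]
    intro a ha
    rw [Set.mem_singleton_iff.mp ha, hπg']
    have h2 := hxfix d hd
    calc xb * d = d * xb * d⁻¹ * d := by rw [h2]
      _ = d * xb := by group
  obtain ⟨Db, hDb⟩ : ∃ Db : Subgroup (G ⧸ N),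
      Db = (P₀ : Subgroup (Subgroup.centralizer ({z} : Set (G ⧸ N)))).map
        (Subgroup.centralizer ({z} : Set (G ⧸ N))).subtype := ⟨_, rfl⟩
  rw [← hDb] at hPD hDle ⊢
  have he : (Db.comap (QuotientGroup.mk' N)).map (QuotientGroup.mk' N) = Db :=
    Subgroup.map_comap_eq_self_of_surjective hsurj Db
  have hpg : IsPGroup p ((Db.comap (QuotientGroup.mk' N)).map (QuotientGroup.mk' N)) := by
    rw [he]
    exact hPD
  obtain ⟨S'⟩ : Nonempty (Sylow p (Db.comap (QuotientGroup.mk' N))) := inferInstance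
  have hf := (QuotientGroup.mk' N).subgroupMap_surjective (Db.comap (QuotientGroup.mk' N))
  obtain ⟨Q, hQdef⟩ : ∃ Q : Sylow p ((Db.comap (QuotientGroup.mk' N)).map (QuotientGroup.mk' N)),
      (Q : Subgroup ((Db.comap (QuotientGroup.mk' N)).map (QuotientGroup.mk' N))) =
        (S' : Subgroup (Db.comap (QuotientGroup.mk' N))).map
          ((QuotientGroup.mk' N).subgroupMap (Db.comap (QuotientGroup.mk' N))) :=
    ⟨S'.mapSurjective hf, rfl⟩
  have hQtop : (Q : Subgroup ((Db.comap (QuotientGroup.mk' N)).map (QuotientGroup.mk' N))) = ⊤ :=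
    (Q.is_maximal' (hpg.to_subgroup ⊤) le_top).symm
  obtain ⟨SG, hSGdef⟩ : ∃ SG : Subgroup G,
      SG = (S' : Subgroup (Db.comap (QuotientGroup.mk' N))).map
        (Db.comap (QuotientGroup.mk' N)).subtype := ⟨_, rfl⟩
  have hSG : IsPGroup p SG := by
    rw [hSGdef]
    exact S'.isPGroup'.map _
  have hSGle : SG ≤ Db.comap (QuotientGroup.mk' N) := by
    intro s hs
    rw [hSGdef] at hs
    obtain ⟨s', -, rfl⟩ := Subgroup.mem_map.mp hs
    exact s'.2
  have hlift : ∀ d ∈ Db, ∃ s ∈ SG, QuotientGroup.mk' N s = d := by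
    intro d hd
    have hd' : d ∈ (Db.comap (QuotientGroup.mk' N)).map (QuotientGroup.mk' N) := by
      rw [he]
      exact hd
    have hmem : (⟨d, hd'⟩ : ((Db.comap (QuotientGroup.mk' N)).map (QuotientGroup.mk' N))) ∈
        (Q : Subgroup ((Db.comap (QuotientGroup.mk' N)).map (QuotientGroup.mk' N))) := by
      rw [hQtop]
      exact Subgroup.mem_top _
    rw [hQdef] at hmem
    obtain ⟨s, hs, hfs⟩ := Subgroup.mem_map.mp hmem
    refine ⟨(s : G), ?_, ?_⟩
    · rw [hSGdef]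
      exact Subgroup.mem_map.mpr ⟨s, hs, rfl⟩
    · exact congrArg Subtype.val hfs
  obtain ⟨Cs, hCs⟩ : ∃ Cs : Subgroup G,
      Cs = (Subgroup.centralizer ({QuotientGroup.mk' N gp} : Set (G ⧸ N))).comap
        (QuotientGroup.mk' N) := ⟨_, rfl⟩
  have hDstarle : Db.comap (QuotientGroup.mk' N) ≤ Cs := by
    intro d hd
    rw [hCs, Subgroup.mem_comap]
    exact hDle _ (Subgroup.mem_comap.mp hd)
  have hidx : ¬ p ∣ ((Subgroup.centralizer ({gp} : Set G)).subgroupOf Cs).index := by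
    rw [hCs]
    exact (hA gp hg').1
  obtain ⟨Q'⟩ : Nonempty (Sylow p ((Subgroup.centralizer ({gp} : Set G)).subgroupOf Cs)) :=
    inferInstance
  obtain ⟨S₁, hS₁⟩ := sylow_map_of_index_lead _ hidx Q'
  have hR : IsPGroup p (SG.subgroupOf Cs) :=
    hSG.comap_of_injective _ (Subgroup.subtype_injective _)
  obtain ⟨cc, hcc⟩ := sylow_conj_mem S₁ _ hR
  have h6 : ∀ s ∈ SG, (cc : G) * s * (cc : G)⁻¹ ∈ Subgroup.centralizer ({gp} : Set G) := by
    intro s hs
    have hs' : s ∈ Cs := hDstarle (hSGle hs)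
    have hq : (⟨s, hs'⟩ : Cs) ∈ SG.subgroupOf Cs := by
      rw [Subgroup.mem_subgroupOf]
      exact hs
    have h7 : cc * ⟨s, hs'⟩ * cc⁻¹ ∈ (S₁ : Subgroup Cs) := hcc _ hq
    rw [hS₁] at h7
    obtain ⟨h', -, hh'⟩ := Subgroup.mem_map.mp h7
    have h8 : ((cc * ⟨s, hs'⟩ * cc⁻¹ : Cs) : G) ∈ Subgroup.centralizer ({gp} : Set G) := by
      rw [← hh']
      exact Subgroup.mem_subgroupOf.mp h'.2
    exact h8
  obtain ⟨g2, hg2⟩ : ∃ g2 : G, g2 = (cc : G)⁻¹ * gp * (cc : G)⁻¹⁻¹ := ⟨_, rfl⟩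
  have hg2def : Cfsg.IsDefectClass M (Cfsg.blockOf M (χ₀ : G → ℂ)) g2 := by
    rw [hg2]
    exact isDefectClass_conj_lead hg' _
  have hSGcent : SG ≤ Subgroup.centralizer ({g2} : Set G) := by
    intro s hs
    rw [Subgroup.mem_centralizer_iff]
    intro a ha
    rw [Set.mem_singleton_iff.mp ha, hg2]
    have h9 := Subgroup.mem_centralizer_iff.mp (h6 s hs) gp (Set.mem_singleton gp)
    calc (cc : G)⁻¹ * gp * (cc : G)⁻¹⁻¹ * s =
          (cc : G)⁻¹ * (gp * ((cc : G) * s * (cc : G)⁻¹)) * (cc : G) := by group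
      _ = (cc : G)⁻¹ * (((cc : G) * s * (cc : G)⁻¹) * gp) * (cc : G) := by rw [h9]
      _ = s * ((cc : G)⁻¹ * gp * (cc : G)⁻¹⁻¹) := by group
  have hR2 : IsPGroup p (SG.subgroupOf (Subgroup.centralizer ({g2} : Set G))) :=
    hSG.comap_of_injective _ (Subgroup.subtype_injective _)
  obtain ⟨P2, hP2⟩ := hR2.exists_le_sylow
  have hE : Cfsg.IsDefectGroup p M (Cfsg.blockOf M (χ₀ : G → ℂ))
      ((P2 : Subgroup (Subgroup.centralizer ({g2} : Set G))).map
        (Subgroup.centralizer ({g2} : Set G)).subtype) := by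
    unfold Cfsg.IsDefectGroup
    exact ⟨g2, hg2def, P2, rfl⟩
  refine ⟨_, hE, ?_⟩
  intro d hd
  obtain ⟨s, hs, hπs⟩ := hlift d hd
  have hs2 : s ∈ Subgroup.centralizer ({g2} : Set G) := hSGcent hs
  have hq2 : (⟨s, hs2⟩ : Subgroup.centralizer ({g2} : Set G)) ∈
      SG.subgroupOf (Subgroup.centralizer ({g2} : Set G)) := by
    rw [Subgroup.mem_subgroupOf]
    exact hs
  exact Subgroup.mem_map.mpr ⟨s, Subgroup.mem_map.mpr ⟨⟨s, hs2⟩, hP2 hq2, rfl⟩, hπs⟩

end Cfsg.Agent.S4433
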