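import Cfsg.Statements.S4446
import Mathlib
import Cfsg.Agent.Lib.Helper7.GlaubCyc2
-- import your own Cfsg.Agent.* helpers here

set_option autoImplicit false
open Cfsg

namespace Cfsg.Agent.S4446

/-- Let the finite group Γ be generated by a normal subgroup G and a cyclic subgroup S of coprime orders, C = G ⊓ C(S), and let χ be an S-invariant irreducible character of G with canonical extension χ̂ to Γ (the extension whose determinantal order is coprime to the order of S). Then there are exactly one irreducible character β of C and one sign ε such that χ̂(c s) = ε β(c) for every c ∈ C and every generator s of S; this β is a constituent of the restriction of χ to C; distinct S-invariant χ give distinct β; and every irreducible character of C arises in this way. -/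
theorem result {Γ : Type*} [Group Γ] [Fintype Γ] (G S : Subgroup Γ) [Fintype G] (hnorm : ∀ s ∈ S, ∀ g ∈ G, s * g * s⁻¹ ∈ G) (hcop : (Nat.card G).Coprime (Nat.card S)) (htop : G ⊔ S = ⊤) (hcyc : IsCyclic S) (C : Subgroup Γ) [Fintype C] (hC : C = G ⊓ Subgroup.centralizer (S : Set Γ)) (hCG : C ≤ G) : (∀ (χ : Cfsg.IrrCharacter G) (χh : Cfsg.IrrCharacter Γ), (∀ s ∈ S, ∀ g g' : G, (g' : Γ) = s * g * s⁻¹ → (χ : G → ℂ) g' = (χ : G → ℂ) g) → (∀ g : G, (χh : Γ → ℂ) g = (χ : G → ℂ) g) → (Cfsg.detOrder (χh : Γ → ℂ)).Coprime (Nat.card S) → (∃! βε : Cfsg.IrrCharacter C × ℤ, (βε.2 = 1 ∨ βε.2 = -1) ∧ ∀ c : C, ∀ s : Γ, Subgroup.zpowers s = S → (χh : Γ → ℂ) ((c : Γ) * s) = (βε.2 : ℂ) * (βε.1 : C → ℂ) c) ∧ ∀ β : Cfsg.IrrCharacter C, ∀ ε : ℤ, (ε = 1 ∨ ε = -1) → (∀ c : C, ∀ s : Γ, Subgroup.zpowers s = S → (χh : Γ → ℂ) ((c : Γ) * s) = (ε : ℂ) * (β : C → ℂ) c)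 → Cfsg.classInner (fun c : C => (χ : G → ℂ) ⟨c, hCG c.2⟩) (β : C → ℂ) ≠ 0) ∧ (∀ (χ χ' : Cfsg.IrrCharacter G) (χh χh' : Cfsg.IrrCharacter Γ), (∀ s ∈ S, ∀ g g' : G, (g' : Γ) = s * g * s⁻¹ → (χ : G → ℂ) g' = (χ : G → ℂ) g) → (∀ s ∈ S, ∀ g g' : G, (g' : Γ) = s * g * s⁻¹ → (χ' : G → ℂ) g' = (χ' : G → ℂ) g) → (∀ g : G, (χh : Γ → ℂ) g = (χ : G → ℂ) g) → (∀ g : G, (χh' : Γ → ℂ) g = (χ' : G → ℂ) g) → (Cfsg.detOrder (χh : Γ → ℂ)).Coprime (Nat.card S) → (Cfsg.detOrder (χh' : Γ → ℂ)).Coprime (Nat.card S) → ∀ β : Cfsg.IrrCharacter C, ∀ ε ε' : ℤ, (ε = 1 ∨ ε = -1) → (ε' = 1 ∨ ε' = -1) → (∀ c : C, ∀ s : Γ, Subgroup.zpowers s = S → (χh : Γ → ℂ) ((c : Γ) * s) = (ε : ℂ) * (β : C → ℂ) c) → (∀ c : C, ∀ s : Γ, Subgroup.zpowers s = S → (χh' : Γ → ℂ) ((c : Γ) * s) = (ε' : ℂ) * (β : C → ℂ) c) → χ = χ') ∧ (∀ β : Cfsg.IrrCharacter C, ∃ (χ : Cfsg.IrrCharacter G) (χh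 : Cfsg.IrrCharacter Γ) (ε : ℤ), (∀ s ∈ S, ∀ g g' : G, (g' : Γ) = s * g * s⁻¹ → (χ : G → ℂ) g' = (χ : G → ℂ) g) ∧ (∀ g : G, (χh : Γ → ℂ) g = (χ : G → ℂ) g) ∧ (Cfsg.detOrder (χh : Γ → ℂ)).Coprime (Nat.card S) ∧ (ε = 1 ∨ ε = -1) ∧ ∀ c : C, ∀ s : Γ, Subgroup.zpowers s = S → (χh : Γ → ℂ) ((c : Γ) * s) = (ε : ℂ) * (β : C → ℂ) c) := by
  classical
  obtain ⟨hGn, hidx, hgen⟩ := Cfsg.Agent.Lib.Helper7.gc_setup G S hnorm hcop htop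
  haveI := hGn
  obtain ⟨g₀, hg₀⟩ := hcyc.exists_generator
  have hs₀ : Subgroup.zpowers (g₀ : Γ) = S := by
    ext x
    constructor
    · intro hx
      obtain ⟨k, hk⟩ := Subgroup.mem_zpowers_iff.1 hx
      rw [← hk]
      exact S.zpow_mem g₀.2 k
    · intro hx
      obtain ⟨k, hk⟩ := Subgroup.mem_zpowers_iff.1 (hg₀ ⟨x, hx⟩)
      rw [Subgroup.mem_zpowers_iff]
      refine ⟨k, ?_⟩
      have h1 := congrArg Subtype.val hk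
      simpa using h1
  haveI hsolv : IsSolvable S := by
    apply isSolvable_of_comm
    intro a b
    obtain ⟨i, hi⟩ := Subgroup.mem_zpowers_iff.1 (hg₀ a)
    obtain ⟨j, hj⟩ := Subgroup.mem_zpowers_iff.1 (hg₀ b)
    rw [← hi, ← hj, ← zpow_add, ← zpow_add, add_comm]
  -- uniqueness of the canonical extension
  have hU : ∀ (χ : Cfsg.IrrCharacter G) (χh : Cfsg.IrrCharacter Γ),
      (∀ s ∈ S, ∀ g g' : G, (g' : Γ) = s * g * s⁻¹ → (χ : G → ℂ) g' = (χ : G → ℂ) g) →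
      (∀ g : G, (χh : Γ → ℂ) g = (χ : G → ℂ) g) →
      (Cfsg.detOrder (χh : Γ → ℂ)).Coprime (Nat.card S) →
      ∀ Ψ' : Γ → ℂ, Cfsg.IsIrrCharacter Γ Ψ' → (∀ g : G, Ψ' g = (χ : G → ℂ) g) →
        (Cfsg.detOrder Ψ').Coprime (Nat.card S) → Ψ' = (χh : Γ → ℂ) := by
    intro χ χh hinv hext hdet Ψ' hΨ' hext' hdet'
    obtain ⟨Ψ, -, -, -, huniq⟩ :=
      Cfsg.Agent.Lib.Helper7.gc_canon G S hidx hcop htop χ.1 χ.2 hinv
    rw [huniq Ψ' hΨ' hext' hdet', huniq χh.1 χh.2 hext hdet]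
  have hmain : ∀ (χ : Cfsg.IrrCharacter G) (χh : Cfsg.IrrCharacter Γ),
      (∀ s ∈ S, ∀ g g' : G, (g' : Γ) = s * g * s⁻¹ → (χ : G → ℂ) g' = (χ : G → ℂ) g) →
      (∀ g : G, (χh : Γ → ℂ) g = (χ : G → ℂ) g) →
      (Cfsg.detOrder (χh : Γ → ℂ)).Coprime (Nat.card S) →
      ∃ (β : Cfsg.IrrCharacter C) (ε : ℤ), (ε = 1 ∨ ε = -1) ∧
        (∀ c : C, ∀ s : Γ, Subgroup.zpowers s = S →
          (χh : Γ → ℂ) ((c : Γ) * s) = (ε : ℂ) * (β : C → ℂ) c) ∧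
        Cfsg.classInner (fun c : C => (χ : G → ℂ) ⟨c, hCG c.2⟩) (β : C → ℂ) ≠ 0 := by
    intro χ χh hinv hext hdet
    exact Cfsg.Agent.Lib.Helper7.gc_main G S hnorm hcop htop C hC hCG (g₀ : Γ) hs₀ χ.1 χ.2
      χh.1 χh.2 hext hdet (hU χ χh hinv hext hdet)
  have hinj : ∀ (χ χ' : Cfsg.IrrCharacter G) (χh χh' : Cfsg.IrrCharacter Γ),
      (∀ g : G, (χh : Γ → ℂ) g = (χ : G → ℂ) g) →
      (∀ g : G, (χh' : Γ → ℂ) g = (χ' : G → ℂ) g) →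
      ∀ β : Cfsg.IrrCharacter C, ∀ ε ε' : ℤ, (ε = 1 ∨ ε = -1) → (ε' = 1 ∨ ε' = -1) →
      (∀ c : C, ∀ s : Γ, Subgroup.zpowers s = S →
        (χh : Γ → ℂ) ((c : Γ) * s) = (ε : ℂ) * (β : C → ℂ) c) →
      (∀ c : C, ∀ s : Γ, Subgroup.zpowers s = S →
        (χh' : Γ → ℂ) ((c : Γ) * s) = (ε' : ℂ) * (β : C → ℂ) c) → χ = χ' := by
    intro χ χ' χh χh' hext hext' β ε ε' hε hε' hrel hrel'
    apply Subtype.ext
    exact Cfsg.Agent.Lib.Helper7.gc_inj G S hnorm hcop htop C hC (g₀ : Γ) hs₀ χ.1 χ'.1 χh.1 χh'.1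
      χh.2 χh'.2 hext hext' β.1 β.2 ε ε' hε hε' (fun c => hrel c _ hs₀) (fun c => hrel' c _ hs₀)
  refine ⟨?_, ?_, ?_⟩
  · intro χ χh hinv hext hdet
    obtain ⟨β, ε, hε, hrel, hne⟩ := hmain χ χh hinv hext hdet
    have huniq : ∀ (β' : Cfsg.IrrCharacter C) (ε' : ℤ), (ε' = 1 ∨ ε' = -1) →
        (∀ c : C, ∀ s : Γ, Subgroup.zpowers s = S →
          (χh : Γ → ℂ) ((c : Γ) * s) = (ε' : ℂ) * (β' : C → ℂ) c) → β' = β ∧ ε' = ε := by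
      intro β' ε' hε' hrel'
      exact Cfsg.Agent.Lib.Helper7.gc_pair_unique β' β ε' ε hε' hε
        (fun c => by rw [← hrel' c _ hs₀, hrel c _ hs₀])
    refine ⟨⟨(β, ε), ⟨hε, hrel⟩, ?_⟩, ?_⟩
    · rintro ⟨β', ε'⟩ ⟨hε', hrel'⟩
      obtain ⟨h1, h2⟩ := huniq β' ε' hε' hrel'
      exact Prod.ext h1 h2
    · intro β' ε' hε' hrel'
      obtain ⟨h1, h2⟩ := huniq β' ε' hε' hrel'
      rw [h1]
      exact hne
  · intro χ χ' χh χh' hinv hinv' hext hext' hdet hdet' β ε ε' hε hε' hrel hrel'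
    exact hinj χ χ' χh χh' hext hext' β ε ε' hε hε' hrel hrel'
  · -- surjectivity by counting
    have hex : ∀ x : {χ : Cfsg.IrrCharacter G // Cfsg.Agent.Lib.Helper7.ChInv G S χ.1},
        ∃ (χh : Cfsg.IrrCharacter Γ) (β : Cfsg.IrrCharacter C) (ε : ℤ),
          (∀ g : G, (χh : Γ → ℂ) g = (x.1 : G → ℂ) g) ∧
          (Cfsg.detOrder (χh : Γ → ℂ)).Coprime (Nat.card S) ∧ (ε = 1 ∨ ε = -1) ∧
          ∀ c : C, ∀ s : Γ, Subgroup.zpowers s = S →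
            (χh : Γ → ℂ) ((c : Γ) * s) = (ε : ℂ) * (β : C → ℂ) c := by
      intro x
      obtain ⟨Ψ, hΨ, hext, hdet, -⟩ :=
        Cfsg.Agent.Lib.Helper7.gc_canon G S hidx hcop htop x.1.1 x.1.2 x.2
      obtain ⟨β, ε, hε, hrel, -⟩ := hmain x.1 ⟨Ψ, hΨ⟩ x.2 hext hdet
      exact ⟨⟨Ψ, hΨ⟩, β, ε, hext, hdet, hε, hrel⟩
    choose Ψf βf εf hf1 hf2 hf3 hf4 using hex
    have hβinj : Function.Injective βf := by
      intro x y hxy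
      apply Subtype.ext
      exact hinj x.1 y.1 (Ψf x) (Ψf y) (hf1 x) (hf1 y) (βf x) (εf x) (εf y) (hf3 x) (hf3 y)
        (hf4 x) (by rw [hxy]; exact hf4 y)
    have hcount := Cfsg.Agent.Lib.Helper7.solv_count_irr S (Nat.card G) G rfl hnorm hcop C hC
    haveI : Finite (Cfsg.IrrCharacter C) := inferInstance
    have hbij := hβinj.bijective_of_nat_card_le (le_of_eq hcount.symm)
    intro β
    obtain ⟨x, hx⟩ := hbij.2 β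
    refine ⟨x.1, Ψf x, εf x, x.2, hf1 x, hf2 x, hf3 x, ?_⟩
    rw [← hx]
    exact hf4 x

end Cfsg.Agent.S4446
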