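import Cfsg.Statements.S4451
import Mathlib
import Cfsg.Agent.Lib.Helper7.GlaubFpf
-- import your own Cfsg.Agent.* helpers here

set_option autoImplicit false
open Cfsg

namespace Cfsg.Agent.S4451

/-- Let the finite group Γ be generated by a normal subgroup G and a cyclic subgroup S of coprime orders such that every non-identity element of S has the same centraliser C = G ⊓ C(S) in G. Let χ be an S-invariant irreducible character of G, χ̂ its canonical extension to Γ (determinantal order coprime to the order of S), and β the irreducible character of C with χ̂(c s) = ε₀ β(c) for c ∈ C and generators s of S (ε₀ = ±1). Then there are a sign ε = ±1, which may differ from ε₀, and a linear character μ of S with μ² = 1, such that: (a) χ̂(c x) = ε β(c) μ(x) for all c ∈ C and all x ∈ S other than 1; (b) the restriction of χ to C equals |S|·ϑ + ε β for some character ϑ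 of C or ϑ = 0; (c) |S| divides χ(1) − ε β(1). -/
theorem result {Γ : Type*} [Group Γ] [Fintype Γ] (G S : Subgroup Γ) [Fintype G] (hnorm : ∀ s ∈ S, ∀ g ∈ G, s * g * s⁻¹ ∈ G) (hcop : (Nat.card G).Coprime (Nat.card S)) (htop : G ⊔ S = ⊤) (hcyc : IsCyclic S) (C : Subgroup Γ) [Fintype C] (hC : C = G ⊓ Subgroup.centralizer (S : Set Γ)) (hCG : C ≤ G) (hfpf : ∀ x ∈ S, x ≠ 1 → G ⊓ Subgroup.centralizer ({x} : Set Γ) = C) (χ : Cfsg.IrrCharacter G) (hinv : (∀ s ∈ S, ∀ g g' : G, (g' : Γ) = s * g * s⁻¹ → (χ : G → ℂ) g' = (χ : G → ℂ) g)) (χh : Cfsg.IrrCharacter Γ) (hext : (∀ g : G, (χh : Γ → ℂ) g = (χ : G → ℂ) g)) (hdet : (Cfsg.detOrder (χh : Γ → ℂ)).Coprime (Nat.card S)) (β : Cfsg.IrrCharacter C) (ε₀ : ℤ) (hε₀ : ε₀ = 1 ∨ ε₀ = -1) (hβ : ∀ c : C, ∀ s : Γ, Subgroup.zpowers s = S → (χh : Γ → ℂ) ((c : Γ) * s) = (ε₀ : ℂ) * (β : C → ℂ) c) : ∃ ε : ℤ, (ε = 1 ∨ ε = -1) ∧ (∃ μ : S →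 ℂ, Cfsg.IsCharacter S μ ∧ μ 1 = 1 ∧ (∀ x : S, μ x * μ x = 1) ∧ ∀ c : C, ∀ x : S, x ≠ 1 → (χh : Γ → ℂ) ((c : Γ) * x) = (ε : ℂ) * (β : C → ℂ) c * μ x) ∧ (∃ ϑ : C → ℂ, Cfsg.IsCharacter C ϑ ∧ (fun c : C => (χ : G → ℂ) ⟨c, hCG c.2⟩) = fun c => (Nat.card S : ℂ) * ϑ c + (ε : ℂ) * (β : C → ℂ) c) ∧ (Nat.card S : ℤ) ∣ (Cfsg.charDegree (χ : G → ℂ) : ℤ) - ε * (Cfsg.charDegree (β : C → ℂ) : ℤ) := by
  classical
  obtain ⟨g₀, hg₀⟩ := hcyc.exists_generator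
  have hs₀ : Subgroup.zpowers (g₀ : Γ) = S := by
    ext x
    constructor
    · intro hx
      obtain ⟨k, hk⟩ := Subgroup.mem_zpowers_iff.1 hx
      rw [← hk]
      exact S.zpow_mem g₀.2 k
    · intro hx
      obtain ⟨k, hk⟩ := Subgroup.mem_zpowers_iff.1 (hg₀ ⟨x, hx⟩)
      rw [Subgroup.mem_zpowers_iff]
      refine ⟨k, ?_⟩
      have h1 := congrArg Subtype.val hk
      simpa using h1
  obtain ⟨ε, hε, lam, k₀, hsq, hrel, ϑ, hϑ, hϑeq⟩ :=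
    Cfsg.Agent.Lib.Helper7.gc_fpf G S hnorm hcop htop C hC hCG hfpf (g₀ : Γ) hs₀ χ.1 χ.2
      χh.1 χh.2 hext β ε₀ hε₀ (fun c => hβ c _ hs₀)
  refine ⟨ε, hε, ⟨fun x : S => ((lam (x : Γ) : ℂˣ) : ℂ) ^ k₀, ?_, ?_, ?_, ?_⟩,
    ⟨ϑ, hϑ, hϑeq⟩, ?_⟩
  · have h1 : Cfsg.IsCharacter Γ (fun x => ((lam x : ℂˣ) : ℂ) ^ k₀) := by
      have h := Cfsg.Agent.Lib.Lead.isCharacter_of_isIrrCharacter
        (Cfsg.Agent.Lib.Helper7.gp_twist_irr lam k₀ (Cfsg.Agent.Lib.Lead.isIrrCharacter_one Γ))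
      have h2 : (fun x => ((lam x : ℂˣ) : ℂ) ^ k₀ * (1 : ℂ)) =
          fun x => ((lam x : ℂˣ) : ℂ) ^ k₀ := by
        funext x; rw [mul_one]
      rw [h2] at h; exact h
    exact Cfsg.Agent.Lib.Lead.isCharacter_comp S.subtype h1
  · show ((lam ((1 : S) : Γ) : ℂˣ) : ℂ) ^ k₀ = 1
    rw [Subgroup.coe_one, map_one, Units.val_one, one_pow]
  · intro x
    exact hsq x x.2
  · intro c x hx1
    exact hrel c x x.2 (fun h => hx1 (Subtype.ext h))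
  · obtain ⟨d, ρ, hρ⟩ := hϑ
    have hϑ1 : ϑ 1 = (d : ℂ) := by
      rw [← hρ, Representation.char_one]; simp
    have h1 := congrFun hϑeq 1
    have hχ1 := (Cfsg.Agent.Lib.Lead.charDegree_irr χ.2).1
    have hβ1 := (Cfsg.Agent.Lib.Lead.charDegree_irr β.2).1
    have h2 : (χ : G → ℂ) 1 = (Nat.card S : ℂ) * ϑ 1 + (ε : ℂ) * (β : C → ℂ) 1 := h1
    rw [hχ1, hβ1, hϑ1] at h2
    refine ⟨d, ?_⟩
    have h3 : (((Cfsg.charDegree (χ : G → ℂ) : ℤ) - ε * (Cfsg.charDegree (β : C → ℂ) : ℤ) : ℤ) : ℂ)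
        = (((Nat.card S : ℤ) * (d : ℤ) : ℤ) : ℂ) := by
      push_cast
      rw [h2]; ring
    exact_mod_cast h3

end Cfsg.Agent.S4451
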