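import Cfsg.Statements.S4455
import Mathlib
import Cfsg.Agent.Lib.Helper7.CharCount

set_option autoImplicit false
open Cfsg

universe u

namespace Cfsg.Agent.S4455

open Cfsg.Agent.Lib.Lead Cfsg.Agent.Lib.Helper7

theorem aux {G : Type u} [Group G] [Finite G] (p : ℕ) (hp : p.Prime)
    (K : Subgroup G) [hKn : K.Normal] (r : ℕ) (hr : K.index = p ^ r) (P : Sylow p G)
    (hKP : K ⊔ (P : Subgroup G) = ⊤) (m : ℕ) (hm : m.Coprime p)
    (hGm : ∀ c : ℕ, c ∣ Nat.card G → c.Coprime p → c ∣ m)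
    (hdetK : ∀ θ : K → ℂ, Cfsg.IsCharacter K θ → ∀ x : K, Cfsg.detChar θ x ^ m = 1) :
    (Nat.card K : ℤ) ≡ (∑ᶠ χ ∈ {χ : Cfsg.IrrCharacter G | ¬ p ∣ Cfsg.charDegree (χ : G → ℂ) ∧
      ¬ p ∣ Cfsg.detOrder (χ : G → ℂ)}, (Cfsg.charDegree (χ : G → ℂ) : ℤ) ^ 2) [ZMOD p] := by
  classical
  haveI : Fact p.Prime := ⟨hp⟩
  obtain ⟨s, hs, hcount⟩ := count_lemma p hp K P hKP
  have hdet1 : ∀ χ : G → ℂ, Cfsg.IsIrrCharacter G χ → ¬ p ∣ Cfsg.detOrder χ →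
      ∀ g, Cfsg.detChar χ g ^ m = 1 := by
    intro χ hχ ho g
    have hχc := isCharacter_of_isIrrCharacter hχ
    have h1 : Cfsg.detChar χ ^ Cfsg.detOrder χ = 1 := pow_orderOf_eq_one _
    have h2 : Cfsg.detChar χ g ^ Cfsg.detOrder χ = 1 := by
      have h0 := congrFun h1 g
      simpa using h0
    have h3 : Cfsg.detChar χ g ^ Nat.card G = 1 := by
      rw [← detChar_pow hχc, pow_card_eq_one', detChar_one hχc]
    have h4 : Cfsg.detChar χ g ^ Nat.gcd (Cfsg.detOrder χ) (Nat.card G) = 1 :=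
      pow_gcd_eq_one.2 ⟨h2, h3⟩
    have h5 : Nat.gcd (Cfsg.detOrder χ) (Nat.card G) ∣ m := by
      apply hGm _ (Nat.gcd_dvd_right _ _)
      have h6 : (Cfsg.detOrder χ).Coprime p := ((Nat.Prime.coprime_iff_not_dvd hp).2 ho).symm
      exact Nat.Coprime.coprime_dvd_left (Nat.gcd_dvd_left _ _) h6
    obtain ⟨c, hc⟩ := h5
    rw [hc, pow_mul, h4, one_pow]
  have hdet2 : ∀ χ : G → ℂ, (∀ g, Cfsg.detChar χ g ^ m = 1) → ¬ p ∣ Cfsg.detOrder χ := by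
    intro χ h hdvd
    have h1 : Cfsg.detChar χ ^ m = 1 := by
      funext g
      simpa using h g
    have h2 : Cfsg.detOrder χ ∣ m := orderOf_dvd_of_pow_eq_one h1
    exact hp.one_lt.ne' (Nat.Coprime.eq_one_of_dvd hm.symm (dvd_trans hdvd h2))
  have hres : ∀ χ : Cfsg.IrrCharacter G, ¬ p ∣ Cfsg.charDegree (χ : G → ℂ) →
      Cfsg.IsIrrCharacter K (fun x : K => (χ : G → ℂ) x) :=
    fun χ hχ => restrict_irr_ppow_index p hp r G K hr χ χ.2 hχ
  let e : Cfsg.IrrCharacter G → Cfsg.IrrCharacter K := fun χ =>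
    if h : Cfsg.IsIrrCharacter K (fun x : K => (χ : G → ℂ) x) then ⟨_, h⟩
    else ⟨fun _ => 1, isIrrCharacter_one K⟩
  have he : ∀ χ : Cfsg.IrrCharacter G, ¬ p ∣ Cfsg.charDegree (χ : G → ℂ) →
      ((e χ : Cfsg.IrrCharacter K) : K → ℂ) = fun x : K => (χ : G → ℂ) x := by
    intro χ hχ
    have h1 : e χ = ⟨_, hres χ hχ⟩ := dif_pos (hres χ hχ)
    rw [h1]
  have hdege : ∀ χ : Cfsg.IrrCharacter G, ¬ p ∣ Cfsg.charDegree (χ : G → ℂ) →
      Cfsg.charDegree ((e χ : Cfsg.IrrCharacter K) : K → ℂ) =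
        Cfsg.charDegree (χ : G → ℂ) := by
    intro χ hχ
    rw [he χ hχ]; rfl
  obtain ⟨t, ht⟩ : ∃ t : Finset (Cfsg.IrrCharacter K), t = s.filter
      (fun θ : Cfsg.IrrCharacter K => ¬ p ∣ Cfsg.charDegree (θ : K → ℂ)) := ⟨_, rfl⟩
  have hmemt : ∀ θ : Cfsg.IrrCharacter K, θ ∈ t ↔
      θ ∈ s ∧ ¬ p ∣ Cfsg.charDegree (θ : K → ℂ) := by
    intro θ; rw [ht, Finset.mem_filter]
  have hbij : Set.BijOn e {χ : Cfsg.IrrCharacter G | ¬ p ∣ Cfsg.charDegree (χ : G → ℂ) ∧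
      ¬ p ∣ Cfsg.detOrder (χ : G → ℂ)} (t : Set (Cfsg.IrrCharacter K)) := by
    refine ⟨?_, ?_, ?_⟩
    · intro χ hχ
      obtain ⟨hχ1, hχ2⟩ := hχ
      rw [Finset.mem_coe, hmemt]
      refine ⟨(hs _).2 (fun g x => ?_), by rw [hdege χ hχ1]; exact hχ1⟩
      rw [he χ hχ1]
      have hcl := isClassFunction_of_isCharacter (isCharacter_of_isIrrCharacter χ.2)
      exact hcl (x : G) g
    · intro χ₁ h1 χ₂ h2 heq
      obtain ⟨h11, h12⟩ := h1
      obtain ⟨h21, h22⟩ := h2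
      have hfun : (fun x : K => (χ₁ : G → ℂ) x) = fun x : K => (χ₂ : G → ℂ) x := by
        rw [← he χ₁ h11, ← he χ₂ h21, heq]
      have hθinv : ∀ (g : G) (x : K), (fun x : K => (χ₁ : G → ℂ) x)
          ⟨g * x * g⁻¹, hKn.conj_mem (x : G) x.2 g⟩ = (fun x : K => (χ₁ : G → ℂ) x) x := by
        intro g x
        exact isClassFunction_of_isCharacter (isCharacter_of_isIrrCharacter χ₁.2) (x : G) g
      obtain ⟨χ, -, huniq⟩ := canon_ext p hp m hm r G K hr (fun x : K => (χ₁ : G → ℂ) x)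
        (hres χ₁ h11) hθinv h11 (hdetK _ (isCharacter_of_isIrrCharacter (hres χ₁ h11)))
      have e1 := huniq (χ₁ : G → ℂ) χ₁.2 (fun x => rfl) (hdet1 _ χ₁.2 h12)
      have e2 := huniq (χ₂ : G → ℂ) χ₂.2 (fun x => (congrFun hfun x).symm) (hdet1 _ χ₂.2 h22)
      exact Subtype.ext (e1.trans e2.symm)
    · intro θ hθ
      rw [Finset.mem_coe, hmemt] at hθ
      obtain ⟨hθs, hθp⟩ := hθ
      obtain ⟨χ, ⟨hχ, hχK, hχdet⟩, -⟩ := canon_ext p hp m hm r G K hr (θ : K → ℂ) θ.2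
        ((hs θ).1 hθs) hθp (hdetK _ (isCharacter_of_isIrrCharacter θ.2))
      have hdeq : Cfsg.charDegree χ = Cfsg.charDegree (θ : K → ℂ) := by
        unfold Cfsg.charDegree
        have h1 : χ 1 = (θ : K → ℂ) 1 := hχK 1
        rw [h1]
      have hχp : ¬ p ∣ Cfsg.charDegree χ := by rw [hdeq]; exact hθp
      refine ⟨⟨χ, hχ⟩, ⟨hχp, hdet2 χ hχdet⟩, ?_⟩
      apply Subtype.ext
      rw [he ⟨χ, hχ⟩ hχp]
      funext x
      exact hχK x
  have hsum : (∑ᶠ χ ∈ {χ : Cfsg.IrrCharacter G | ¬ p ∣ Cfsg.charDegree (χ : G → ℂ) ∧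
      ¬ p ∣ Cfsg.detOrder (χ : G → ℂ)}, (Cfsg.charDegree (χ : G → ℂ) : ℤ) ^ 2) =
      ∑ θ ∈ t, (Cfsg.charDegree (θ : K → ℂ) : ℤ) ^ 2 := by
    rw [← finsum_mem_coe_finset]
    exact finsum_mem_eq_of_bijOn e hbij (fun χ hχ => by rw [hdege χ hχ.1])
  rw [hsum]
  have hNat : Nat.card K ≡ ∑ θ ∈ t, Cfsg.charDegree (θ : K → ℂ) ^ 2 [MOD p] := by
    refine hcount.trans ?_
    rw [← ZMod.natCast_eq_natCast_iff, Nat.cast_sum, Nat.cast_sum, ht, Finset.sum_filter]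
    apply Finset.sum_congr rfl
    intro θ _
    by_cases hd : p ∣ Cfsg.charDegree (θ : K → ℂ)
    · rw [if_neg (not_not.2 hd), Nat.cast_pow, (ZMod.natCast_eq_zero_iff _ _).2 hd]
      simp
    · rw [if_pos hd]
  have hInt := Int.natCast_modEq_iff.2 hNat
  have hcast : ((∑ θ ∈ t, Cfsg.charDegree (θ : K → ℂ) ^ 2 : ℕ) : ℤ) =
      ∑ θ ∈ t, (Cfsg.charDegree (θ : K → ℂ) : ℤ) ^ 2 := by
    rw [Nat.cast_sum]
    apply Finset.sum_congr rfl
    intro θ _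
    rw [Nat.cast_pow]
  rw [hcast] at hInt
  exact hInt

/-- Fix a prime p and a finite group G. Let s be the sum of χ(1)² over the irreducible characters χ of G whose degree is not divisible by p and whose determinantal order o(χ) is not divisible by p. Then the order of O^p(G), the subgroup generated by the elements of order prime to p, is congruent to s modulo p. -/
theorem result {G : Type*} [Group G] [Finite G] (p : ℕ) (hp : p.Prime) : (Nat.card (Cfsg.pResidual p G) : ℤ) ≡ (∑ᶠ χ ∈ {χ : Cfsg.IrrCharacter G | ¬ p ∣ Cfsg.charDegree (χ : G → ℂ) ∧ ¬ p ∣ Cfsg.detOrder (χ : G → ℂ)}, (Cfsg.charDegree (χ : G → ℂ) : ℤ) ^ 2) [ZMOD p] := by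
  classical
  haveI : Fact p.Prime := ⟨hp⟩
  haveI hKn : (Cfsg.pResidual p G).Normal := pResidual_normal p
  obtain ⟨r, hr⟩ : ∃ r, (Cfsg.pResidual p G).index = p ^ r := by
    obtain ⟨n, hn⟩ := (IsPGroup.iff_card (p := p)).mp (isPGroup_quotient_pResidual (G := G) p)
    exact ⟨n, hn⟩
  obtain ⟨P⟩ := (inferInstance : Nonempty (Sylow p G))
  have hKP : Cfsg.pResidual p G ⊔ (P : Subgroup G) = ⊤ := by
    rw [sup_comm]; exact sylow_sup_pResidual P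
  have hm : (ordCompl[p] (Nat.card G)).Coprime p :=
    (Nat.coprime_ordCompl hp Nat.card_pos.ne').symm
  have hGm : ∀ c : ℕ, c ∣ Nat.card G → c.Coprime p → c ∣ ordCompl[p] (Nat.card G) := by
    intro c hc hcp
    rw [← Nat.ordProj_mul_ordCompl_eq_self (Nat.card G) p] at hc
    exact Nat.Coprime.dvd_of_dvd_mul_left (Nat.Coprime.pow_right _ hcp) hc
  exact aux p hp (Cfsg.pResidual p G) r hr P hKP (ordCompl[p] (Nat.card G)) hm hGm
    (fun θ hθ x => det_pow_pResidual p hθ x)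

end Cfsg.Agent.S4455
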