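import Cfsg.Statements.S4487
import Mathlib
import Cfsg.Agent.Lib.Helper7.OneBlock
import Cfsg.Agent.Lib.Helper4.PCore
-- import your own Cfsg.Agent.* helpers here

set_option autoImplicit false
open Cfsg
open Cfsg.Agent.Lib.Lead
open Cfsg.Agent.Lib.Helper7

namespace Cfsg.Agent.S4487

/-- Let G be a finite group and p a prime such that G has no non-trivial normal subgroup of order prime to p and C_G(O_p(G)) ≤ O_p(G). Then G has a single p-block: any two irreducible characters lie in the same block relative to every maximal ideal M of the algebraic integers containing p. -/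
theorem result {G : Type*} [Group G] [Finite G] (p : ℕ) [Fact p.Prime] (M : Ideal Cfsg.AlgInt) (hM : Cfsg.IsPModular p M) (hcore : Cfsg.pPrimeCore p G = ⊥) (hconstr : Subgroup.centralizer ((Cfsg.pCore p G) : Set G) ≤ Cfsg.pCore p G) (χ ψ : Cfsg.IrrCharacter G) : Cfsg.SameBlock M (χ : G → ℂ) (ψ : G → ℂ) := by
  classical
  haveI : Fintype G := Fintype.ofFinite G
  haveI : (Cfsg.pCore p G).Normal := Cfsg.Agent.Lib.Helper4.pCore_normal p G
  have hQ : IsPGroup p (Cfsg.pCore p G) := Cfsg.Agent.Lib.Helper4.pCore_isPGroup p G
  have hMprime : M.IsPrime := hM.2.1.isPrime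
  have h1 := principal_of_constrained p M hM (Cfsg.pCore p G) hQ hconstr χ
  have h2 := principal_of_constrained p M hM (Cfsg.pCore p G) hQ hconstr ψ
  exact sameBlock_trans_lead hMprime (sameBlock_symm_lead h1) h2


end Cfsg.Agent.S4487
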