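import Cfsg.Statements.S4490
import Mathlib
import Cfsg.Agent.Lib.Helper7.RealBlock
-- import your own Cfsg.Agent.* helpers here

set_option autoImplicit false
open Cfsg
open Cfsg.Agent.Lib.Helper7 Cfsg.Agent.Lib.Lead
open scoped ComplexConjugate

namespace Cfsg.Agent.S4490

/-- Let G be a finite group and M a maximal ideal of the algebraic integers containing 2. Every 2-block B of G whose defect groups are the Sylow 2-subgroups of G (a block of full defect) and which is not the principal block is different from its complex-conjugate block, the block formed by the complex conjugates of the members of B. -/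
theorem result {G : Type*} [Group G] [Finite G] (M : Ideal Cfsg.AlgInt) (hM : Cfsg.IsPModular 2 M) (B : Set (Cfsg.IrrCharacter G)) (hB : Cfsg.IsPBlock M B) (P : Sylow 2 G) (hfull : Cfsg.IsDefectGroup 2 M B (P : Subgroup G)) (hnp : B ≠ Cfsg.principalBlock M G) : {ψ : Cfsg.IrrCharacter G | ∃ χ ∈ B, (ψ : G → ℂ) = fun g => (starRingEnd ℂ) ((χ : G → ℂ) g)} ≠ B := by
  classical
  haveI : Fintype G := Fintype.ofFinite _
  haveI : Fintype (Cfsg.IrrCharacter G) := Fintype.ofFinite _
  haveI : Fintype (ConjClasses G) := Fintype.ofFinite _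
  haveI hp2 : Fact (Nat.Prime 2) := ⟨Nat.prime_two⟩
  intro heq
  apply hnp
  have hst : ∀ χ ∈ B, ∃ χ' ∈ B, (χ : G → ℂ) = fun g => conj ((χ' : G → ℂ) g) := by
    intro χ hχ
    rw [← heq] at hχ
    exact hχ
  have hinvχ : ∀ (χ : Cfsg.IrrCharacter G) (g : G),
      conj ((χ : G → ℂ) g) = (χ : G → ℂ) g⁻¹ := by
    intro χ g
    obtain ⟨n, ρ, hρ, hρφ⟩ := χ.2
    rw [← hρφ, char_inv ρ g]
  have hdef : Cfsg.blockDefect 2 B = (Nat.card G).factorization 2 := by
    obtain ⟨g₀, hg₀, Q, hPQ⟩ := hfull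
    have h1 := defectClass_ord_h7 2 M hM B hB g₀ hg₀
    have h2 : Nat.card (P : Subgroup G) = Nat.card Q := by
      rw [hPQ]; exact Subgroup.card_map_of_injective (Subgroup.subtype_injective _)
    have hP2 := Sylow.card_eq_multiplicity P
    have hQ2 := Sylow.card_eq_multiplicity Q
    rw [hP2, hQ2] at h2
    have h3 := Nat.pow_right_injective (le_refl 2) h2
    rw [← h1]; exact h3.symm
  apply principal_of_sym_h7 M hM B hB hdef
  · intro g hodd
    choose! σ hσB hσ using hst
    have hmaps : Set.MapsTo σ B B := fun χ hχ => hσB χ hχ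
    have hinj : Set.InjOn σ B := by
      intro χ₁ h₁ χ₂ h₂ heq'
      apply Subtype.ext
      rw [hσ χ₁ h₁, hσ χ₂ h₂, heq']
    have hbij : Set.BijOn σ B B := ((Set.toFinite B).injOn_iff_bijOn_of_mapsTo hmaps).1 hinj
    unfold Cfsg.blockCoeff
    congr 1
    apply finsum_mem_eq_of_bijOn σ hbij
    intro χ hχ
    have h1 : ∀ x : G, (χ : G → ℂ) x = conj ((σ χ : G → ℂ) x) := fun x => congrFun (hσ χ hχ) x
    have h2 : ∀ x : G, (σ χ : G → ℂ) x = conj ((χ : G → ℂ) x) := by
      intro x; rw [h1 x, Complex.conj_conj]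
    rw [h2 1, h2 g, Complex.conj_conj, hinvχ χ 1, inv_one, hinvχ χ g⁻¹, inv_inv]
  · intro χ hχ
    obtain ⟨χ', hχ'B, hχ'⟩ := hst χ hχ
    refine ⟨χ', hχ'B, fun g _ => ?_⟩
    have h1 : (χ : G → ℂ) g⁻¹ = conj ((χ' : G → ℂ) g⁻¹) := congrFun hχ' g⁻¹
    rw [h1, hinvχ χ' g⁻¹, inv_inv]


end Cfsg.Agent.S4490
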