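import Cfsg.Statements.S4494
import Mathlib
import Cfsg.Agent.Lib.Helper7.Heights
-- import your own Cfsg.Agent.* helpers here

set_option autoImplicit false
open Cfsg
open Cfsg.Agent.Lib.Helper7 Cfsg.Agent.Lib.Lead
open scoped ComplexConjugate

namespace Cfsg.Agent.S4494

/-- The Brauer–Feit bound. Let B be a p-block of the finite group G (relative to a maximal ideal M of the algebraic integers containing p) and let d be its defect. Then the number k(B) of irreducible characters in B satisfies k(B) ≤ p^(2d)/4 + 1, stated here as 4·k(B) ≤ p^(2d) + 4. -/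
theorem result {G : Type*} [Group G] [Finite G] (p : ℕ) [Fact p.Prime] (M : Ideal Cfsg.AlgInt) (hM : Cfsg.IsPModular p M) (B : Set (Cfsg.IrrCharacter G)) (hB : Cfsg.IsPBlock M B) : 4 * Nat.card B ≤ p ^ (2 * Cfsg.blockDefect p B) + 4 := by
  classical
  haveI : Fintype G := Fintype.ofFinite _
  haveI : Fintype (Cfsg.IrrCharacter G) := Fintype.ofFinite _
  haveI : Fintype (ConjClasses G) := Fintype.ofFinite _
  have hp : p.Prime := Fact.out
  have hMprime : M.IsPrime := hM.2.1.isPrime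
  obtain ⟨χ, hχB, hχinf, hmin⟩ := exists_min_h7 p M hMprime B hB
  obtain ⟨a, ha⟩ : ∃ a : ℕ, a = (Nat.card G).factorization p := ⟨_, rfl⟩
  obtain ⟨m, hm⟩ : ∃ m : ℕ, m = (Cfsg.charDegree (χ : G → ℂ)).factorization p := ⟨_, rfl⟩
  have hma : m ≤ a := by rw [hm, ha]; exact val_le_h7 p χ
  have hd : Cfsg.blockDefect p B + m = a := by
    unfold Cfsg.blockDefect
    rw [← hχinf, ← hm, ← ha]; omega
  have hcount := nn7_count p M hM B hB χ hχB (fun _ => ((p : ℤ) ^ m) ^ 2) (by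
    intro φ hφ hne
    have h1 := (nn7_of_min p M hM B hB χ hχB hmin φ hφ).1
    have h2 := nn7_dvd p χ φ
    rw [← hm] at h2
    exact sq_ge_of_dvd_h7 _ h1 _ h2)
  have hsplit := sum_split_h7 B χ hχB (fun _ => ((p : ℤ) ^ m) ^ 2)
  have hk : ∑ φ : Cfsg.IrrCharacter G, (if φ ∈ B then ((p : ℤ) ^ m) ^ 2 else 0) =
      (Nat.card B : ℤ) * ((p : ℤ) ^ m) ^ 2 := by
    rw [← Finset.sum_filter, Finset.sum_const, nsmul_eq_mul, card_block_h7 B]
  rw [hk] at hsplit
  rw [← ha] at hcount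
  have hW : ((p : ℤ) ^ a) ^ 2 = ((p : ℤ) ^ m) ^ 2 * (p : ℤ) ^ (2 * Cfsg.blockDefect p B) := by
    rw [← hd]; ring
  have hWpos : 0 < ((p : ℤ) ^ m) ^ 2 := by
    have : (0 : ℤ) < (p : ℤ) := by exact_mod_cast hp.pos
    positivity
  have hfin : 4 * (Nat.card B : ℤ) ≤ (p : ℤ) ^ (2 * Cfsg.blockDefect p B) + 4 := by
    by_contra hc
    push_neg at hc
    nlinarith [mul_pos hWpos (sub_pos.2 hc)]
  exact_mod_cast hfin


end Cfsg.Agent.S4494
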