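import Mathlib
import Cfsg.Agent.Lib.Helper7.SelfCent

set_option autoImplicit false

namespace Cfsg.Agent.S4495

open Cfsg.Agent.Lib.Helper7

/-- Let the finite group G contain an element x of prime order p with C_G(x) = ⟨x⟩, and let t be the number of conjugacy classes of elements of order p. If t ≠ p − 1 then the commutator subgroup has index at most (p − 1)/t; if t = p − 1 it has index exactly p. -/
theorem result {G : Type*} [Group G] [Finite G] (p : ℕ) (hp : p.Prime) (x : G) (hx : orderOf x = p) (hC : Subgroup.centralizer ({x} : Set G) = Subgroup.zpowers x) (t : ℕ) (ht : Nat.card {C : ConjClasses G // ∃ g ∈ C.carrier, orderOf g = p} = t) : (t ≠ p - 1 → (commutator G).index * t ≤ p - 1) ∧ (t = p - 1 → (commutator G).index = p) := by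
  classical
  haveI := Fact.mk hp
  obtain ⟨P, hP⟩ := selfCent_sylow hp x hx hC
  have hcount := selfCent_count hp x hx hC
  rw [ht] at hcount
  set N : Subgroup G := Subgroup.normalizer ((Subgroup.zpowers x : Subgroup G) : Set G) with hN
  have hcard : Nat.card (Subgroup.zpowers x) = p := by rw [Nat.card_zpowers, hx]
  have hp1 : 1 ≤ p - 1 := by have := hp.two_le; omega
  have hx1 : x ≠ 1 := by
    intro h; rw [h, orderOf_one] at hx; exact hp.one_lt.ne' hx.symm
  have hcomm : ∀ a ∈ Subgroup.zpowers x, ∀ b ∈ Subgroup.zpowers x, a * b = b * a := by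
    intro a ha b hb
    obtain ⟨i, rfl⟩ := Subgroup.mem_zpowers_iff.mp ha
    obtain ⟨j, rfl⟩ := Subgroup.mem_zpowers_iff.mp hb
    exact (zpow_mul_comm x i j)
  constructor
  · intro hne
    have he1 : (Subgroup.zpowers x).relIndex N ≠ 1 := by
      intro h; rw [h, mul_one] at hcount; exact hne hcount
    have hNP : ¬ N ≤ Subgroup.zpowers x := fun h => he1 (Subgroup.relIndex_eq_one.mpr h)
    obtain ⟨n, hnN, hnP⟩ := SetLike.not_le_iff_exists.mp hNP
    have hc : n * x * n⁻¹ * x⁻¹ ∈ Subgroup.zpowers x :=
      mul_mem ((Subgroup.mem_normalizer_iff.mp hnN x).mp (Subgroup.mem_zpowers x))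
        (inv_mem (Subgroup.mem_zpowers x))
    have hc1 : n * x * n⁻¹ * x⁻¹ ≠ 1 := by
      intro h
      apply hnP
      rw [← hC, Subgroup.mem_centralizer_iff]
      intro g hg
      rw [Set.mem_singleton_iff.mp hg]
      have h2 : n * x * n⁻¹ = x := by rw [← mul_inv_eq_one]; exact h
      calc x * n = n * x * n⁻¹ * n := by rw [h2]
        _ = n * x := by group
    have hcG : n * x * n⁻¹ * x⁻¹ ∈ commutator G := by
      rw [commutator_def]
      exact Subgroup.commutator_mem_commutator (Subgroup.mem_top n) (Subgroup.mem_top x)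
    have hxG : x ∈ commutator G := by
      obtain ⟨k, hk⟩ := Subgroup.mem_zpowers_iff.mp
        (mem_zpowers_of_mem_zpowers_prime hp hx hc hc1)
      rw [← hk]; exact zpow_mem hcG k
    have hPG : (P : Subgroup G) ≤ commutator G := by rw [hP, Subgroup.zpowers_le]; exact hxG
    have hfr0 := Sylow.normalizer_sup_eq_top' P hPG
    have hfr : N ⊔ commutator G = ⊤ := by rw [hN, ← hP]; exact hfr0
    have h1 : (commutator G).index = (commutator G).relIndex N := by
      rw [← Subgroup.relIndex_top_right, ← hfr, Subgroup.relIndex_sup_right]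
    have h2 : (commutator G).relIndex N ∣ (Subgroup.zpowers x).relIndex N :=
      Subgroup.relIndex_dvd_of_le_left N (by rw [← hP]; exact hPG)
    have he0 : (Subgroup.zpowers x).relIndex N ≠ 0 := by
      intro h; rw [h, mul_zero] at hcount; omega
    have h3 := Nat.le_of_dvd (Nat.pos_of_ne_zero he0) h2
    calc (commutator G).index * t ≤ (Subgroup.zpowers x).relIndex N * t := by
          rw [h1]; exact Nat.mul_le_mul_right t h3
      _ = p - 1 := by rw [mul_comm]; exact hcount
  · intro hteq
    have he1 : (Subgroup.zpowers x).relIndex N = 1 := by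
      rw [hteq] at hcount
      exact Nat.eq_of_mul_eq_mul_left (by omega : 0 < p - 1) (by rw [hcount, mul_one])
    have hNP : N ≤ Subgroup.zpowers x := Subgroup.relIndex_eq_one.mp he1
    have hPc : Subgroup.normalizer ((P : Subgroup G) : Set G) ≤
        Subgroup.centralizer ((P : Subgroup G) : Set G) := by
      intro n hn
      rw [hP] at hn
      have hn' := hNP hn
      rw [Subgroup.mem_centralizer_iff]
      intro g hg
      have hg' : g ∈ (P : Subgroup G) := hg
      rw [hP] at hg'
      exact hcomm g hg' n hn'
    have hcompl := MonoidHom.ker_transferSylow_isComplement' P hPc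
    set K := (MonoidHom.transferSylow P hPc).ker with hK
    have hidx : K.index = p := by
      rw [hcompl.symm.index_eq_card]
      show Nat.card (P : Subgroup G) = p
      rw [hP]; exact hcard
    have hGK : commutator G ≤ K := by
      rw [commutator_def, Subgroup.commutator_le]
      intro a _ b _
      rw [hK, MonoidHom.mem_ker, map_commutatorElement, commutatorElement_eq_one_iff_mul_comm]
      apply Subtype.ext
      exact hcomm _ (hP ▸ (MonoidHom.transferSylow P hPc a).2) _
        (hP ▸ (MonoidHom.transferSylow P hPc b).2)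
    have hKG : K ≤ commutator G := by
      have hdisj : ∀ g, g ∈ K → g ∈ Subgroup.zpowers x → g = 1 := by
        intro g hgK hgP
        have := hcompl.disjoint
        exact Subgroup.disjoint_def.mp this hgK (by rw [hP]; exact hgP)
      haveI hKn : K.Normal := MonoidHom.normal_ker _
      let ψ : K → K := fun k => ⟨(k : G) * x * (k : G)⁻¹ * x⁻¹, by
        have : (k : G) * x * (k : G)⁻¹ * x⁻¹ = (k : G) * (x * (k : G)⁻¹ * x⁻¹) := by group
        rw [this]
        exact mul_mem k.2 (hKn.conj_mem _ (inv_mem k.2) x)⟩
      have hψ : Function.Injective ψ := by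
        intro k k' h
        have h1 : (k : G) * x * (k : G)⁻¹ * x⁻¹ = (k' : G) * x * (k' : G)⁻¹ * x⁻¹ :=
          congrArg Subtype.val h
        have h2 : ((k' : G)⁻¹ * (k : G)) * x = x * ((k' : G)⁻¹ * (k : G)) := by
          have h3 : (k : G) * x * (k : G)⁻¹ = (k' : G) * x * (k' : G)⁻¹ := mul_right_cancel h1
          calc ((k' : G)⁻¹ * (k : G)) * x = (k' : G)⁻¹ * ((k : G) * x * (k : G)⁻¹) * (k : G) := by
                group
            _ = (k' : G)⁻¹ * ((k' : G) * x * (k' : G)⁻¹) * (k : G) := by rw [h3]
            _ = x * ((k' : G)⁻¹ * (k : G)) := by group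
        have h4 := selfCent_mem hp hx hC (Subgroup.mem_zpowers x) hx1 h2
        have h5 := hdisj _ (mul_mem (inv_mem k'.2) k.2) h4
        apply Subtype.ext
        exact (inv_mul_eq_one.mp h5).symm
      have hψs : Function.Surjective ψ := Finite.surjective_of_injective hψ
      intro k hk
      obtain ⟨k', hk'⟩ := hψs ⟨k, hk⟩
      have h6 : (k' : G) * x * (k' : G)⁻¹ * x⁻¹ = k := congrArg Subtype.val hk'
      rw [← h6, commutator_def]
      exact Subgroup.commutator_mem_commutator (Subgroup.mem_top _) (Subgroup.mem_top x)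
    rw [le_antisymm hGK hKG]; exact hidx

end Cfsg.Agent.S4495
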