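import Cfsg.Statements.S4498
import Mathlib
import Cfsg.Agent.Lib.Helper7.WBO3
-- import your own Cfsg.Agent.* helpers here

set_option autoImplicit false
open Cfsg
open Cfsg.Agent.Lib.Helper7 Cfsg.Agent.Lib.Lead
open scoped ComplexConjugate

namespace Cfsg.Agent.S4498

/-- Let p and q be distinct primes dividing the order of the finite group G, and suppose G has no element of order p·q. Fix maximal ideals M_p over p and M_q over q of the algebraic integers. Then the principal p-block and the principal q-block of G have a non-principal irreducible character in common. -/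
theorem result {G : Type*} [Group G] [Finite G] (p q : ℕ) [Fact p.Prime] [Fact q.Prime] (hpq : p ≠ q) (hp : p ∣ Nat.card G) (hq : q ∣ Nat.card G) (hno : ∀ g : G, orderOf g ≠ p * q) (Mp Mq : Ideal Cfsg.AlgInt) (hMp : Cfsg.IsPModular p Mp) (hMq : Cfsg.IsPModular q Mq) : ∃ χ : Cfsg.IrrCharacter G, (χ : G → ℂ) ≠ (fun _ => 1) ∧ χ ∈ Cfsg.principalBlock Mp G ∧ χ ∈ Cfsg.principalBlock Mq G := by
  classical
  haveI : Fintype G := Fintype.ofFinite _
  haveI : Fintype (Cfsg.IrrCharacter G) := Fintype.ofFinite _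
  obtain ⟨x, hx⟩ := exists_prime_orderOf_dvd_card' p hp
  obtain ⟨y, hy⟩ := exists_prime_orderOf_dvd_card' q hq
  obtain ⟨one, hone⟩ : ∃ one : Cfsg.IrrCharacter G, (one : G → ℂ) = fun _ => 1 :=
    ⟨⟨fun _ => 1, isIrrCharacter_one G⟩, rfl⟩
  have hBp : Cfsg.IsPBlock Mp (Cfsg.principalBlock Mp G) := ⟨one, by rw [hone]; rfl⟩
  have hBq : Cfsg.IsPBlock Mq (Cfsg.principalBlock Mq G) := ⟨one, by rw [hone]; rfl⟩
  have key := two_prime_vanish_h7 p q hpq Mp Mq hMp hMq hno _ _ hBp hBq x y
    (by rw [hx]) (by rw [hy])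
  by_contra hcon
  push_neg at hcon
  have hone_p : one ∈ Cfsg.principalBlock Mp G := by
    show Cfsg.SameBlock Mp (fun _ => 1) (one : G → ℂ)
    rw [hone]
    exact sameBlock_refl_lead hMp.2.1.isPrime.ne_top _
  have hone_q : one ∈ Cfsg.principalBlock Mq G := by
    show Cfsg.SameBlock Mq (fun _ => 1) (one : G → ℂ)
    rw [hone]
    exact sameBlock_refl_lead hMq.2.1.isPrime.ne_top _
  have e : ∀ ψ ∈ (Finset.univ : Finset (Cfsg.IrrCharacter G)),
      (if ψ ∈ Cfsg.principalBlock Mq G then
        (if ψ ∈ Cfsg.principalBlock Mp G then (ψ : G → ℂ) x * (ψ : G → ℂ) y else 0) else 0) =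
      if ψ = one then 1 else 0 := by
    intro ψ _
    by_cases h : ψ = one
    · rw [h, if_pos hone_q, if_pos hone_p, if_pos rfl, hone, one_mul]
    · rw [if_neg h]
      by_cases h1 : ψ ∈ Cfsg.principalBlock Mq G
      · rw [if_pos h1]
        by_cases h2 : ψ ∈ Cfsg.principalBlock Mp G
        · exfalso
          have h3 : (ψ : G → ℂ) ≠ fun _ => 1 := by
            intro h'
            apply h
            apply Subtype.ext
            rw [h', hone]
          exact hcon ψ h3 h2 h1
        · rw [if_neg h2]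
      · rw [if_neg h1]
  rw [Finset.sum_congr rfl e, Finset.sum_ite_eq' Finset.univ one, if_pos (Finset.mem_univ _)] at key
  exact one_ne_zero key


end Cfsg.Agent.S4498
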