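import Cfsg.Statements.S4499
import Mathlib
import Cfsg.Agent.Lib.Helper7.WBO3
import Cfsg.Agent.S4425
-- import your own Cfsg.Agent.* helpers here

set_option autoImplicit false
open Cfsg
open Cfsg.Agent.Lib.Helper7 Cfsg.Agent.Lib.Lead
open scoped ComplexConjugate

namespace Cfsg.Agent.S4499

/-- Let G be a finite group whose order has p-part p^a (a ≥ 1), and fix a maximal ideal M of the algebraic integers containing p. If the degree of one irreducible character of a p-block B is divisible by p^(a−1), then the degree of every irreducible character in B is divisible by p^(a−1) (so B has defect at most 1). -/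
theorem result {G : Type*} [Group G] [Finite G] (p : ℕ) [Fact p.Prime] (M : Ideal Cfsg.AlgInt) (hM : Cfsg.IsPModular p M) (hpa : p ∣ Nat.card G) (B : Set (Cfsg.IrrCharacter G)) (hB : Cfsg.IsPBlock M B) (χ : Cfsg.IrrCharacter G) (hχ : χ ∈ B) (hdiv : p ^ ((Nat.card G).factorization p - 1) ∣ Cfsg.charDegree (χ : G → ℂ)) (ψ : Cfsg.IrrCharacter G) (hψ : ψ ∈ B) : p ^ ((Nat.card G).factorization p - 1) ∣ Cfsg.charDegree (ψ : G → ℂ) := by
  classical
  haveI : Fintype G := Fintype.ofFinite _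
  haveI : Fintype (Cfsg.IrrCharacter G) := Fintype.ofFinite _
  haveI : Fintype (ConjClasses G) := Fintype.ofFinite _
  have hp : p.Prime := Fact.out
  have hMprime : M.IsPrime := hM.2.1.isPrime
  have hMtop : M ≠ ⊤ := hMprime.ne_top
  have hpM : (p : Cfsg.AlgInt) ∈ M := hM.2.2
  have hG0 : (Nat.card G : ℂ) ≠ 0 := by exact_mod_cast Nat.card_pos.ne'
  obtain ⟨a, ha⟩ : ∃ a : ℕ, a = (Nat.card G).factorization p := ⟨_, rfl⟩
  rw [← ha] at hdiv ⊢
  have ha1 : 1 ≤ a := by
    rw [ha]; exact (hp.dvd_iff_one_le_factorization Nat.card_pos.ne').1 hpa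
  obtain ⟨hχ1, hχ0⟩ := charDegree_irr χ.2
  obtain ⟨hψ1, hψ0⟩ := charDegree_irr ψ.2
  obtain ⟨b₀, hb₀⟩ : ∃ b₀ : ℕ, b₀ = (Cfsg.charDegree (χ : G → ℂ)).factorization p := ⟨_, rfl⟩
  have hb₀ge : a - 1 ≤ b₀ := by
    rw [hb₀]; exact (hp.pow_dvd_iff_le_factorization hχ0).1 hdiv
  obtain ⟨χ₀, hB'⟩ := hB
  have hsame : Cfsg.SameBlock M (χ : G → ℂ) (ψ : G → ℂ) := by
    rw [hB'] at hχ hψ
    exact sameBlock_trans_lead hMprime (sameBlock_symm_lead hχ) hψ
  by_cases hcase : a ≤ b₀
  · have hdvd : p ^ (Nat.card G).factorization p ∣ Cfsg.charDegree (χ : G → ℂ) := by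
      rw [← ha, hp.pow_dvd_iff_le_factorization hχ0, ← hb₀]; exact hcase
    have h1 := singleton_of_defect_zero_h7 p M hM χ ψ hdvd hsame
    rw [h1]; exact hdiv
  · have hab : a - b₀ = 1 := by omega
    have hgen0 := (Cfsg.Agent.S4425.result p χ).1
    rw [← ha, ← hb₀, hab, pow_one] at hgen0
    obtain ⟨f, hf⟩ : ∃ f : G → ℂ, f = fun x : G => if p ∣ orderOf x then (0 : ℂ)
        else (χ : G → ℂ) x := ⟨_, rfl⟩
    have hfx : ∀ x : G, f x = if p ∣ orderOf x then (0 : ℂ) else (χ : G → ℂ) x := by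
      intro x; rw [hf]
    have hclχ := isClassFunction_of_irr χ.2
    have hfcl : ∀ g h : G, f (h * g * h⁻¹) = f g := by
      intro g h
      rw [hfx, hfx]
      have h1 : orderOf (h * g * h⁻¹) = orderOf g := MulEquiv.orderOf_eq (MulAut.conj h) g
      rw [h1, hclχ g h]
    have hfR : ∀ x : G, Cfsg.MemLocalRing M (f x) := by
      intro x
      rw [hfx]
      split_ifs
      · exact memLocalRing_zero_lead hMtop
      · exact memLocalRing_isIntegral_lead hMtop
          (isIntegral_isCharacter (isCharacter_of_isIrrCharacter χ.2) x)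
    -- integrality of p [f, φ]
    have hint : ∀ φ : Cfsg.IrrCharacter G, ∃ n : ℤ,
        (p : ℂ) * Cfsg.classInner f (φ : G → ℂ) = n := by
      intro φ
      obtain ⟨χ₁, χ₂, h1, h2, h3⟩ := hgen0
      obtain ⟨n₁, hn₁⟩ := classInner_char_char_nat h1 (isCharacter_of_isIrrCharacter φ.2)
      obtain ⟨n₂, hn₂⟩ := classInner_char_char_nat h2 (isCharacter_of_isIrrCharacter φ.2)
      refine ⟨(n₁ : ℤ) - n₂, ?_⟩
      push_cast
      rw [← hn₁, ← hn₂]
      have e : Cfsg.classInner χ₁ (φ : G → ℂ) - Cfsg.classInner χ₂ (φ : G → ℂ) =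
          Cfsg.classInner (χ₁ - χ₂) (φ : G → ℂ) := by
        unfold Cfsg.classInner
        rw [← mul_sub, ← Finset.sum_sub_distrib]
        congr 1
        apply Finset.sum_congr rfl
        intro g _
        rw [Pi.sub_apply, sub_mul]
      rw [e, ← h3]
      unfold Cfsg.classInner
      rw [mul_left_comm, Finset.mul_sum]
      congr 1
      apply Finset.sum_congr rfl
      intro g _
      show (p : ℂ) * (f g * conj ((φ : G → ℂ) g)) = (if p ∣ orderOf g then (0 : ℂ)
        else ((p : ℕ) : ℂ) * (χ : G → ℂ) g) * conj ((φ : G → ℂ) g)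
      rw [hfx]
      by_cases hg : p ∣ orderOf g
      · rw [if_pos hg, if_pos hg]; ring
      · rw [if_neg hg, if_neg hg]; ring
    -- the sums S
    obtain ⟨S, hS⟩ : ∃ S : Cfsg.IrrCharacter G → ℂ, S = fun φ : Cfsg.IrrCharacter G => ∑ c : ConjClasses G,
        f (Quotient.out c)⁻¹ * Cfsg.centralChar (φ : G → ℂ) (Quotient.out c) := ⟨_, rfl⟩
    have hinv : ∀ (φ : Cfsg.IrrCharacter G) (g : G), conj ((φ : G → ℂ) g) = (φ : G → ℂ) g⁻¹ := by
      intro φ g
      obtain ⟨n, ρ, hρ, hρφ⟩ := φ.2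
      rw [← hρφ, char_inv ρ g]
    have hS1 : ∀ φ : Cfsg.IrrCharacter G, (Nat.card G : ℂ) * Cfsg.classInner f (φ : G → ℂ) =
        (φ : G → ℂ) 1 * S φ := by
      intro φ
      obtain ⟨hφ1, hφ0⟩ := charDegree_irr φ.2
      have hφ0' : (Cfsg.charDegree (φ : G → ℂ) : ℂ) ≠ 0 := by exact_mod_cast hφ0
      have hclφ := isClassFunction_of_irr φ.2
      unfold Cfsg.classInner
      rw [← mul_assoc, mul_inv_cancel₀ hG0, one_mul]
      have e1 : ∑ g : G, f g * conj ((φ : G → ℂ) g) = ∑ g : G, f g⁻¹ * (φ : G → ℂ) g := by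
        rw [← Equiv.sum_comp (Equiv.inv G) (fun g => f g⁻¹ * (φ : G → ℂ) g)]
        apply Finset.sum_congr rfl
        intro g _
        show f g * conj ((φ : G → ℂ) g) = f g⁻¹⁻¹ * (φ : G → ℂ) g⁻¹
        rw [inv_inv, hinv]
      rw [e1, sum_classFun_regroup_lead (fun g => f g⁻¹ * (φ : G → ℂ) g) (fun g h => by
        show f (h * g * h⁻¹)⁻¹ * (φ : G → ℂ) (h * g * h⁻¹) = f g⁻¹ * (φ : G → ℂ) g
        have e2 : (h * g * h⁻¹)⁻¹ = h * g⁻¹ * h⁻¹ := by group
        rw [e2, hfcl, hclφ g h]), hS, Finset.mul_sum]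
      apply Finset.sum_congr rfl
      intro c _
      unfold Cfsg.centralChar
      rw [hφ1]
      field_simp
    have hSR : ∀ φ : Cfsg.IrrCharacter G, Cfsg.MemLocalRing M (S φ) := by
      intro φ
      rw [hS]
      apply memLocalRing_sum_lead hMprime
      intro c _
      exact memLocalRing_mul_lead hMprime (hfR _)
        (memLocalRing_isIntegral_lead hMtop (isIntegral_centralChar_lead φ _))
    have hSdiff : Cfsg.MemLocalIdeal M (S ψ - S χ) := by
      rw [hS]
      show Cfsg.MemLocalIdeal M (∑ c : ConjClasses G,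
        f (Quotient.out c)⁻¹ * Cfsg.centralChar (ψ : G → ℂ) (Quotient.out c) -
        ∑ c : ConjClasses G,
        f (Quotient.out c)⁻¹ * Cfsg.centralChar (χ : G → ℂ) (Quotient.out c))
      rw [← Finset.sum_sub_distrib]
      apply memLocalIdeal_sum_lead hMprime
      intro c _
      rw [← mul_sub]
      apply memLocalIdeal_mul_ring_lead hMprime (hfR _)
      have h1 := memLocalIdeal_neg_lead (hsame (Quotient.out c))
      rw [neg_sub] at h1
      exact h1
    -- the integer n_χ
    obtain ⟨n, hn⟩ := hint χ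
    obtain ⟨r, hr⟩ : ∃ r : ℝ, r = (Nat.card G : ℝ)⁻¹ * ∑ x : G,
        (if p ∣ orderOf x then 0 else Complex.normSq ((χ : G → ℂ) x)) := ⟨_, rfl⟩
    have hfr : Cfsg.classInner f (χ : G → ℂ) = (r : ℂ) := by
      unfold Cfsg.classInner
      rw [hr]
      push_cast
      congr 1
      apply Finset.sum_congr rfl
      intro x _
      rw [hfx]
      by_cases hx : p ∣ orderOf x
      · simp [hx]
      · simp [hx, Complex.mul_conj]
    have hGpos : (0 : ℝ) < (Nat.card G : ℝ) := by exact_mod_cast Nat.card_pos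
    have hr0 : 0 < r := by
      rw [hr]
      apply mul_pos (inv_pos.2 hGpos)
      apply Finset.sum_pos'
      · intro x _
        split_ifs
        · exact le_refl _
        · exact Complex.normSq_nonneg _
      · refine ⟨1, Finset.mem_univ _, ?_⟩
        rw [if_neg (by rw [orderOf_one, Nat.dvd_one]; exact hp.one_lt.ne')]
        apply Complex.normSq_pos.2
        rw [hχ1]
        exact_mod_cast hχ0
    have hr1 : r < 1 := by
      have hall : (Nat.card G : ℝ)⁻¹ * ∑ x : G, Complex.normSq ((χ : G → ℂ) x) = 1 := by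
        have h1 := classInner_irr' χ χ
        rw [if_pos rfl] at h1
        unfold Cfsg.classInner at h1
        have h2 : ((Nat.card G : ℝ)⁻¹ * ∑ x : G, Complex.normSq ((χ : G → ℂ) x) : ℝ) =
            ((1 : ℝ) : ℂ) := by
          push_cast
          rw [← h1]
          congr 1
          apply Finset.sum_congr rfl
          intro x _
          rw [Complex.mul_conj]
        exact_mod_cast h2
      rw [← hall, hr]
      apply mul_lt_mul_of_pos_left _ (inv_pos.2 hGpos)
      apply Finset.sum_lt_sum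
      · intro x _
        split_ifs
        · exact Complex.normSq_nonneg _
        · exact le_refl _
      · by_contra hcon
        push_neg at hcon
        apply hcase
        have hvan : ∀ g : G, p ∣ orderOf g → (χ : G → ℂ) g = 0 := by
          intro g hg
          have h1 := hcon g (Finset.mem_univ _)
          rw [if_pos hg] at h1
          exact Complex.normSq_eq_zero.1 (le_antisymm h1 (Complex.normSq_nonneg _))
        have h2 := vanish_dvd_h7 p χ hvan
        rw [← ha, hp.pow_dvd_iff_le_factorization hχ0, ← hb₀] at h2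
        exact h2
    have hnr : (n : ℝ) = (p : ℝ) * r := by
      rw [hfr] at hn
      exact_mod_cast hn.symm
    have hppos : (0 : ℝ) < (p : ℝ) := by exact_mod_cast hp.pos
    have hn0 : 0 < n := by
      have : (0 : ℝ) < (n : ℝ) := by rw [hnr]; exact mul_pos hppos hr0
      exact_mod_cast this
    have hnp : n < p := by
      have : (n : ℝ) < (p : ℝ) := by
        rw [hnr]
        calc (p : ℝ) * r < (p : ℝ) * 1 := mul_lt_mul_of_pos_left hr1 hppos
          _ = p := mul_one _
      exact_mod_cast this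
    obtain ⟨k, hk⟩ : ∃ k : ℕ, (k : ℤ) = n := ⟨n.toNat, Int.toNat_of_nonneg hn0.le⟩
    have hk0 : 0 < k := by
      have : (0 : ℤ) < (k : ℤ) := by rw [hk]; exact hn0
      exact_mod_cast this
    have hkp : k < p := by
      have : (k : ℤ) < (p : ℤ) := by rw [hk]; exact hnp
      exact_mod_cast this
    have hkcop : Nat.Coprime k p := by
      apply Nat.Coprime.symm
      rw [hp.coprime_iff_not_dvd]
      intro h
      exact absurd (Nat.le_of_dvd hk0 h) (not_le.2 hkp)
    -- the group order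
    have hdvdG : p ^ a ∣ Nat.card G := by rw [ha]; exact Nat.ordProj_dvd _ _
    obtain ⟨t, ht⟩ := hdvdG
    have hpa0 : p ^ a ≠ 0 := (pow_pos hp.pos _).ne'
    have ht' : t = Nat.card G / p ^ a :=
      (Nat.div_eq_of_eq_mul_right (Nat.pos_of_ne_zero hpa0) ht).symm
    have htcop : Nat.Coprime t p := by
      rw [ht', ha]
      exact (Nat.coprime_ordCompl hp Nat.card_pos.ne').symm
    obtain ⟨s, hs⟩ := hdiv
    have hpa1 : p ^ a = p * p ^ (a - 1) := by
      rw [← pow_succ']
      congr 1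
      omega
    -- S χ is a unit
    have hSχ : ¬ Cfsg.MemLocalIdeal M (S χ) := by
      intro hmem
      have h1 := hS1 χ
      rw [hχ1] at h1
      -- t * k = s * S χ
      have hp0 : (p : ℂ) ≠ 0 := by exact_mod_cast hp.ne_zero
      have hp1 : ((p : ℂ) ^ (a - 1)) ≠ 0 := pow_ne_zero _ hp0
      have hGc : (Nat.card G : ℂ) = (p : ℂ) * (p : ℂ) ^ (a - 1) * (t : ℂ) := by
        rw [ht, hpa1]; push_cast; ring
      have hdc : (Cfsg.charDegree (χ : G → ℂ) : ℂ) = (p : ℂ) ^ (a - 1) * (s : ℂ) := by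
        rw [hs]; push_cast; ring
      have hkc : (k : ℂ) = (n : ℂ) := by exact_mod_cast congrArg (Int.cast : ℤ → ℂ) hk
      rw [hGc, hdc] at h1
      have h2 : ((t * k : ℕ) : ℂ) = (s : ℂ) * S χ := by
        have h4 : (p : ℂ) ^ (a - 1) * ((t : ℂ) * (k : ℂ)) =
            (p : ℂ) ^ (a - 1) * ((s : ℂ) * S χ) := by
          rw [hkc, ← hn]; linear_combination h1
        push_cast
        exact mul_left_cancel₀ hp1 h4
      have h5 : Cfsg.MemLocalIdeal M (((t * k : ℕ) : Cfsg.AlgInt) : ℂ) := by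
        have h6 := memLocalIdeal_mul_ring_lead hMprime
          (memLocalRing_of_mem_lead hMtop (s : Cfsg.AlgInt)) hmem
        have e3 : ((s : Cfsg.AlgInt) : ℂ) = (s : ℂ) := by push_cast; rfl
        have e4 : (((t * k : ℕ) : Cfsg.AlgInt) : ℂ) = ((t * k : ℕ) : ℂ) := by push_cast; rfl
        rw [e3, ← h2] at h6
        rw [e4]
        exact h6
      exact natCast_not_mem_lead hMtop p (t * k) (Nat.Coprime.mul_left htcop hkcop) hpM
        (mem_of_memLocalIdeal_lead hMprime _ h5)
    have hSψ : ¬ Cfsg.MemLocalIdeal M (S ψ) := by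
      intro hmem
      apply hSχ
      have h1 := memLocalIdeal_sub_lead hMprime hmem hSdiff
      rw [sub_sub_cancel] at h1
      exact h1
    -- conclusion
    by_contra hnot
    apply hSψ
    obtain ⟨v, hv⟩ : ∃ v : ℕ, v = (Cfsg.charDegree (ψ : G → ℂ)).factorization p := ⟨_, rfl⟩
    have hvlt : v < a - 1 := by
      by_contra hge
      push_neg at hge
      apply hnot
      rw [hp.pow_dvd_iff_le_factorization hψ0, ← hv]
      exact hge
    obtain ⟨s', hs'⟩ : ∃ s' : ℕ, s' = Cfsg.charDegree (ψ : G → ℂ) / p ^ v := ⟨_, rfl⟩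
    have hψdeg : Cfsg.charDegree (ψ : G → ℂ) = p ^ v * s' := by
      rw [hs', hv]
      exact (Nat.ordProj_mul_ordCompl_eq_self _ p).symm
    have hs'cop : Nat.Coprime s' p := by
      rw [hs', hv]
      exact (Nat.coprime_ordCompl hp hψ0).symm
    obtain ⟨nψ, hnψ⟩ := hint ψ
    have h1 := hS1 ψ
    rw [hψ1] at h1
    -- s' * S ψ = p * (p^(a - v - 2) * t * nψ)
    have hp0 : (p : ℂ) ≠ 0 := by exact_mod_cast hp.ne_zero
    have hexp : a = (v + 1) + 1 + (a - v - 2) := by omega
    have hGc' : (Nat.card G : ℂ) =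
        (p : ℂ) ^ v * ((p : ℂ) * (p : ℂ) * (p : ℂ) ^ (a - v - 2) * (t : ℂ)) := by
      rw [ht]
      push_cast
      have h5 : (p : ℂ) ^ a = (p : ℂ) ^ v * (p : ℂ) * (p : ℂ) * (p : ℂ) ^ (a - v - 2) := by
        conv_lhs => rw [hexp]
        rw [pow_add, pow_add, pow_add, pow_one]
      rw [h5]; ring
    have hdc' : (Cfsg.charDegree (ψ : G → ℂ) : ℂ) = (p : ℂ) ^ v * (s' : ℂ) := by
      rw [hψdeg]; push_cast; ring
    rw [hGc', hdc'] at h1
    have h2 : (s' : ℂ) * S ψ = (p : ℂ) * ((p : ℂ) ^ (a - v - 2) * (t : ℂ) * (nψ : ℂ)) := by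
      have h4 : (p : ℂ) ^ v * ((s' : ℂ) * S ψ) =
          (p : ℂ) ^ v * ((p : ℂ) * ((p : ℂ) ^ (a - v - 2) * (t : ℂ) * (nψ : ℂ))) := by
        rw [← hnψ]; linear_combination (-1 : ℂ) * h1
      exact mul_left_cancel₀ (pow_ne_zero v hp0) h4
    have h6 : Cfsg.MemLocalIdeal M ((s' : ℂ) * S ψ) := by
      rw [h2]
      have h7 : ((p : Cfsg.AlgInt) * ((p : Cfsg.AlgInt) ^ (a - v - 2) * (t : Cfsg.AlgInt) *
          (nψ : Cfsg.AlgInt))) ∈ M := M.mul_mem_right _ hpM
      have h8 := memLocalIdeal_of_mem_lead hMtop _ h7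
      have e5 : (((p : Cfsg.AlgInt) * ((p : Cfsg.AlgInt) ^ (a - v - 2) * (t : Cfsg.AlgInt) *
          (nψ : Cfsg.AlgInt)) : Cfsg.AlgInt) : ℂ) =
          (p : ℂ) * ((p : ℂ) ^ (a - v - 2) * (t : ℂ) * (nψ : ℂ)) := by
        push_cast; rfl
      rw [e5] at h8
      exact h8
    have hs'M : (s' : Cfsg.AlgInt) ∉ M := natCast_not_mem_lead hMtop p s' hs'cop hpM
    have h9 := memLocalIdeal_mul_ring_lead hMprime (memLocalRing_inv_lead hs'M) h6
    have e6 : (((s' : Cfsg.AlgInt) : ℂ))⁻¹ * ((s' : ℂ) * S ψ) = S ψ := by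
      have e7 : ((s' : Cfsg.AlgInt) : ℂ) = (s' : ℂ) := by push_cast; rfl
      have hs'0 : (s' : ℂ) ≠ 0 := by
        intro h0
        have : s' = 0 := by exact_mod_cast h0
        rw [this, mul_zero] at hψdeg
        exact hψ0 hψdeg
      rw [e7]
      field_simp
    rw [e6] at h9
    exact h9


end Cfsg.Agent.S4499
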