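import Cfsg.Statements.S4505
import Mathlib
import Cfsg.Agent.Lib.Helper7.DefectOrd
import Cfsg.Agent.Lib.Lead.BlockDefCount
-- import your own Cfsg.Agent.* helpers here

set_option autoImplicit false
open Cfsg
open Cfsg.Agent.Lib.Helper7 Cfsg.Agent.Lib.Lead
open scoped ComplexConjugate

namespace Cfsg.Agent.S4505

/-- Let G be a finite group, p a prime and M a maximal ideal of the algebraic integers containing p. For every σ, the number of p-blocks of defect exactly σ is at most the number of conjugacy classes of p-regular elements whose centralizer has order divisible by p^σ but not by p^(σ+1). -/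
theorem result {G : Type*} [Group G] [Finite G] (p : ℕ) [Fact p.Prime] (M : Ideal Cfsg.AlgInt) (hM : Cfsg.IsPModular p M) (σ : ℕ) : Nat.card {B : Set (Cfsg.IrrCharacter G) // Cfsg.IsPBlock M B ∧ Cfsg.blockDefect p B = σ} ≤ Nat.card {C : ConjClasses G // ∃ g : G, ConjClasses.mk g = C ∧ ¬ p ∣ orderOf g ∧ (Nat.card (Subgroup.centralizer ({g} : Set G))).factorization p = σ} := by
  classical
  haveI : Fintype G := Fintype.ofFinite G
  haveI : Fintype (ConjClasses G) := Fintype.ofFinite _
  haveI : Fintype (Cfsg.IrrCharacter G) := Fintype.ofFinite _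
  haveI : Fintype {B : Set (Cfsg.IrrCharacter G) //
      Cfsg.IsPBlock M B ∧ Cfsg.blockDefect p B = σ} := Fintype.ofFinite _
  have hp : p.Prime := Fact.out
  have hMprime : M.IsPrime := hM.2.1.isPrime
  have hMtop : M ≠ ⊤ := hMprime.ne_top
  have hpM : (p : Cfsg.AlgInt) ∈ M := hM.2.2
  choose χ hχ using fun i : {B : Set (Cfsg.IrrCharacter G) //
      Cfsg.IsPBlock M B ∧ Cfsg.blockDefect p B = σ} => i.2.1
  have hdef : ∀ i : {B : Set (Cfsg.IrrCharacter G) //
      Cfsg.IsPBlock M B ∧ Cfsg.blockDefect p B = σ},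
      Cfsg.blockDefect p (Cfsg.blockOf M (χ i : G → ℂ)) = σ := by
    intro i
    rw [← hχ i]
    exact i.2.2
  have hident : ∀ i i' : {B : Set (Cfsg.IrrCharacter G) //
      Cfsg.IsPBlock M B ∧ Cfsg.blockDefect p B = σ},
      ∑ c : ConjClasses G, Cfsg.blockCoeff i.1 (Quotient.out c) *
        Cfsg.centralChar (χ i' : G → ℂ) (Quotient.out c) =
      if χ i' ∈ i.1 then 1 else 0 :=
    fun i i' => blockCoeff_class_sum_h7 i.1 (χ i')
  have hbad : ∀ (i i' : {B : Set (Cfsg.IrrCharacter G) //
      Cfsg.IsPBlock M B ∧ Cfsg.blockDefect p B = σ}) (c : ConjClasses G),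
      ¬ (∃ g : G, ConjClasses.mk g = c ∧ ¬ p ∣ orderOf g ∧
        (Nat.card (Subgroup.centralizer ({g} : Set G))).factorization p = σ) →
      Cfsg.MemLocalIdeal M (Cfsg.blockCoeff i.1 (Quotient.out c) *
        Cfsg.centralChar (χ i' : G → ℂ) (Quotient.out c)) := by
    intro i i' c hc
    by_contra h
    rw [hχ i] at h
    obtain ⟨hreg, hle, hge⟩ := term_unit_h7 p M hM (χ i) (χ i') (Quotient.out c) h
    rw [hdef i] at hle
    rw [hdef i'] at hge
    exact hc ⟨Quotient.out c, Quotient.out_eq c, hreg, le_antisymm hle hge⟩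
  have hoff : ∀ i i' : {B : Set (Cfsg.IrrCharacter G) //
      Cfsg.IsPBlock M B ∧ Cfsg.blockDefect p B = σ}, i ≠ i' →
      Cfsg.MemLocalIdeal M (∑ c : ConjClasses G, Cfsg.blockCoeff i.1 (Quotient.out c) *
        Cfsg.centralChar (χ i' : G → ℂ) (Quotient.out c)) := by
    intro i i' hii'
    have hnot : χ i' ∉ i.1 := by
      intro h
      apply hii'
      apply Subtype.ext
      rw [hχ i] at h
      have hS : Cfsg.SameBlock M (χ i : G → ℂ) (χ i' : G → ℂ) := h
      rw [hχ i, hχ i']
      ext φ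
      constructor
      · intro h1
        have h1' : Cfsg.SameBlock M (χ i : G → ℂ) (φ : G → ℂ) := h1
        exact sameBlock_trans_lead hMprime (sameBlock_symm_lead hS) h1'
      · intro h1
        have h1' : Cfsg.SameBlock M (χ i' : G → ℂ) (φ : G → ℂ) := h1
        exact sameBlock_trans_lead hMprime hS h1'
    rw [hident i i', if_neg hnot]
    exact memLocalIdeal_zero_lead hMtop
  have hdiag : ∀ i : {B : Set (Cfsg.IrrCharacter G) //
      Cfsg.IsPBlock M B ∧ Cfsg.blockDefect p B = σ},
      Cfsg.MemLocalIdeal M (∑ c : ConjClasses G, Cfsg.blockCoeff i.1 (Quotient.out c) *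
        Cfsg.centralChar (χ i : G → ℂ) (Quotient.out c) - 1) := by
    intro i
    have hmem : χ i ∈ i.1 := by
      rw [hχ i]
      exact sameBlock_refl_lead hMtop _
    rw [hident i i, if_pos hmem, sub_self]
    exact memLocalIdeal_zero_lead hMtop
  have key := card_subtype_le_of_local_dual_lead hMprime
    (fun C : ConjClasses G => ∃ g : G, ConjClasses.mk g = C ∧ ¬ p ∣ orderOf g ∧
      (Nat.card (Subgroup.centralizer ({g} : Set G))).factorization p = σ)
    (fun (i : {B : Set (Cfsg.IrrCharacter G) //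
      Cfsg.IsPBlock M B ∧ Cfsg.blockDefect p B = σ}) (c : ConjClasses G) =>
        Cfsg.blockCoeff i.1 (Quotient.out c))
    (fun (c : ConjClasses G) (i' : {B : Set (Cfsg.IrrCharacter G) //
      Cfsg.IsPBlock M B ∧ Cfsg.blockDefect p B = σ}) =>
        Cfsg.centralChar (χ i' : G → ℂ) (Quotient.out c))
    hbad hoff hdiag
  rw [← Nat.card_eq_fintype_card, ← Nat.card_eq_fintype_card] at key
  exact key


end Cfsg.Agent.S4505
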