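import Cfsg.Statements.S4510
import Mathlib
import Cfsg.Agent.Lib.Helper7.DefectOrd
-- import your own Cfsg.Agent.* helpers here

set_option autoImplicit false
open Cfsg
open Cfsg.Agent.Lib.Helper7 Cfsg.Agent.Lib.Lead
open scoped ComplexConjugate

namespace Cfsg.Agent.S4510

/-- Let G be a finite group, p a prime, M a maximal ideal of the algebraic integers containing p, and call the defect of a conjugacy class the exponent of p in the order of the centralizer of its elements. Two irreducible characters lying in p-blocks of defect exactly d lie in the same block if and only if their central characters (class size times χ(x)/χ(1)) agree modulo the local ideal at M at every p-regular element x whose class has defect exactly d. -/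
theorem result {G : Type*} [Group G] [Finite G] (p : ℕ) [Fact p.Prime] (M : Ideal Cfsg.AlgInt) (hM : Cfsg.IsPModular p M) (d : ℕ) (χ ψ : Cfsg.IrrCharacter G) (hχ : Cfsg.blockDefect p (Cfsg.blockOf M (χ : G → ℂ)) = d) (hψ : Cfsg.blockDefect p (Cfsg.blockOf M (ψ : G → ℂ)) = d) : Cfsg.SameBlock M (χ : G → ℂ) (ψ : G → ℂ) ↔ ∀ x : G, ¬ p ∣ orderOf x → (Nat.card (Subgroup.centralizer ({x} : Set G))).factorization p = d → Cfsg.MemLocalIdeal M (Cfsg.centralChar (χ : G → ℂ) x - Cfsg.centralChar (ψ : G → ℂ) x) := by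
  classical
  haveI : Fintype G := Fintype.ofFinite _
  haveI : Fintype (Cfsg.IrrCharacter G) := Fintype.ofFinite _
  haveI : Fintype (ConjClasses G) := Fintype.ofFinite _
  have hp : p.Prime := Fact.out
  have hMprime : M.IsPrime := hM.2.1.isPrime
  have hMtop : M ≠ ⊤ := hMprime.ne_top
  have hpM : (p : Cfsg.AlgInt) ∈ M := hM.2.2
  constructor
  · intro h x _ _; exact h x
  · intro h
    by_contra hnot
    have hψB : ψ ∉ Cfsg.blockOf M (χ : G → ℂ) := hnot
    have hχB : χ ∈ Cfsg.blockOf M (χ : G → ℂ) := sameBlock_refl_lead hMtop _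
    have h1 := blockCoeff_class_sum_h7 (Cfsg.blockOf M (χ : G → ℂ)) χ
    have h2 := blockCoeff_class_sum_h7 (Cfsg.blockOf M (χ : G → ℂ)) ψ
    rw [if_pos hχB] at h1
    rw [if_neg hψB] at h2
    apply not_memLocalIdeal_one_h7 hMprime
    have h3 : (1 : ℂ) = ∑ c : ConjClasses G,
        Cfsg.blockCoeff (Cfsg.blockOf M (χ : G → ℂ)) (Quotient.out c) *
        (Cfsg.centralChar (χ : G → ℂ) (Quotient.out c) -
          Cfsg.centralChar (ψ : G → ℂ) (Quotient.out c)) := by
      rw [Finset.sum_congr rfl (fun c _ => mul_sub _ _ _), Finset.sum_sub_distrib, h1, h2,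
        sub_zero]
    rw [h3]
    apply memLocalIdeal_sum_lead hMprime
    intro c _
    obtain ⟨x, hx⟩ : ∃ x : G, x = Quotient.out c := ⟨_, rfl⟩
    rw [← hx]
    have hAR := osima_lead p hp M hMprime hpM χ x
    by_cases hc1 : Cfsg.MemLocalIdeal M (Cfsg.blockCoeff (Cfsg.blockOf M (χ : G → ℂ)) x *
        Cfsg.centralChar (χ : G → ℂ) x)
    · by_cases hc2 : Cfsg.MemLocalIdeal M (Cfsg.blockCoeff (Cfsg.blockOf M (χ : G → ℂ)) x *
          Cfsg.centralChar (ψ : G → ℂ) x)
      · rw [mul_sub]; exact memLocalIdeal_sub_lead hMprime hc1 hc2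
      · obtain ⟨hreg, hle, hge⟩ := term_unit_h7 p M hM χ ψ x hc2
        rw [hχ] at hle
        rw [hψ] at hge
        exact memLocalIdeal_mul_ring_lead hMprime hAR (h x hreg (le_antisymm hle hge))
    · obtain ⟨hreg, hle, hge⟩ := term_unit_h7 p M hM χ χ x hc1
      rw [hχ] at hle hge
      exact memLocalIdeal_mul_ring_lead hMprime hAR (h x hreg (le_antisymm hle hge))


end Cfsg.Agent.S4510
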