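import Cfsg.Statements.S4636
import Mathlib
import Cfsg.Agent.Lib.Helper7.Basic

set_option autoImplicit false
open Cfsg

namespace Cfsg.Agent.S4636

open scoped Pointwise
open Cfsg.Agent.Lib.Helper7

/-- Let P be a nontrivial cyclic p-subgroup of the finite group G and Z its subgroup of order p. For every x outside N_G(Z), P meets its conjugate xPx⁻¹ trivially; consequently N_G(Q) ≤ N_G(Z) for every nontrivial subgroup Q of P. -/
theorem result {G : Type*} [Group G] [Finite G] (p : ℕ) [Fact p.Prime] (P : Subgroup G) (hP : IsPGroup p P) (hP1 : P ≠ ⊥) (hcyc : IsCyclic P) (Z : Subgroup G) (hZ : Z ≤ P) (hZcard : Nat.card Z = p) : (∀ x : G, x ∉ Subgroup.normalizer (Z : Set G) → P ⊓ MulAut.conj x • P = ⊥) ∧ ∀ Q : Subgroup G, Q ≤ P → Q ≠ ⊥ → Subgroup.normalizer (Q : Set G) ≤ Subgroup.normalizer (Z : Set G) := by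
  have hp : p.Prime := Fact.out
  have keyZ : ∀ y : G, y ∈ P → y ^ p = 1 → y ∈ Z := by
    intro y hyP hy
    exact mem_of_pow_card_eq_one' P Z hZ y hyP (by rw [hZcard]; exact hy)
  have part1 : ∀ x : G, x ∉ Subgroup.normalizer (Z : Set G) → P ⊓ MulAut.conj x • P = ⊥ := by
    intro x hx
    by_contra hne
    apply hx
    have hR : IsPGroup p (P ⊓ MulAut.conj x • P : Subgroup G) := hP.to_le inf_le_left
    obtain ⟨n, hn⟩ := IsPGroup.iff_card.mp hR
    have hn0 : n ≠ 0 := by
      rintro rfl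
      rw [pow_zero, Subgroup.card_eq_one] at hn
      exact hne hn
    have hdvd : p ∣ Nat.card (P ⊓ MulAut.conj x • P : Subgroup G) := by
      rw [hn]; exact dvd_pow_self p hn0
    obtain ⟨⟨z, hzR⟩, hz⟩ := exists_prime_orderOf_dvd_card' p hdvd
    rw [Subgroup.orderOf_mk] at hz
    have hzp : z ^ p = 1 := by rw [← hz]; exact pow_orderOf_eq_one z
    have hz1 : z ≠ 1 := by
      rintro rfl
      rw [orderOf_one] at hz
      exact hp.one_lt.ne hz
    obtain ⟨hzP, hzxP⟩ := Subgroup.mem_inf.mp hzR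
    rw [mem_conj_smul] at hzxP
    have hzZ : z ∈ Z := keyZ z hzP hzp
    have hzxZ : x⁻¹ * z * x ∈ Z := by
      apply keyZ _ hzxP
      have : (x⁻¹ * z * x) ^ p = x⁻¹ * z ^ p * x := by
        have := conj_pow (a := x⁻¹) (b := z) (i := p)
        simpa using this
      rw [this, hzp]; group
    -- Z is generated by z
    haveI : Fact (Nat.card Z).Prime := ⟨by rw [hZcard]; exact hp⟩
    have hgen : Subgroup.zpowers (⟨z, hzZ⟩ : Z) = ⊤ := by
      apply zpowers_eq_top_of_prime_card (p := Nat.card Z) rfl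
      intro h
      apply hz1
      exact congrArg Subtype.val h
    have hxinv : x⁻¹ ∈ Subgroup.normalizer (Z : Set G) := by
      apply Subgroup.mem_normalizer_fintype
      intro n hn
      have hmem : (⟨n, hn⟩ : Z) ∈ Subgroup.zpowers (⟨z, hzZ⟩ : Z) := by rw [hgen]; trivial
      obtain ⟨k, hk⟩ := Subgroup.mem_zpowers_iff.mp hmem
      have hk' : z ^ k = n := by
        have := congrArg Subtype.val hk
        simpa using this
      rw [← hk', inv_inv]
      have : x⁻¹ * z ^ k * x = (x⁻¹ * z * x) ^ k := by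
        have := conj_zpow (a := x⁻¹) (b := z) (i := k)
        simpa using this.symm
      rw [this]
      exact Z.zpow_mem hzxZ k
    have := (Subgroup.normalizer (Z : Set G)).inv_mem hxinv
    simpa using this
  refine ⟨part1, ?_⟩
  intro Q hQP hQ1 g hg
  by_contra hn
  have h1 := part1 g hn
  apply hQ1
  rw [eq_bot_iff]
  intro q hq
  rw [Subgroup.mem_normalizer_iff] at hg
  have h2 : g * q * g⁻¹ ∈ (P ⊓ MulAut.conj g • P : Subgroup G) := by
    refine Subgroup.mem_inf.mpr ⟨hQP ((hg q).1 hq), conj_mem_conj_smul g q P (hQP hq)⟩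
  rw [h1, Subgroup.mem_bot] at h2
  rw [Subgroup.mem_bot]
  have : q = g⁻¹ * (g * q * g⁻¹) * g := by group
  rw [this, h2]; group

end Cfsg.Agent.S4636
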