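import Cfsg.Statements.S4652
import Mathlib
import Cfsg.Agent.Lib.Lead.BlockDefect
import Cfsg.Agent.Lib.Lead.BlockAux
import Cfsg.Agent.Lib.Lead.BlockOsima2
import Cfsg.Agent.Lib.Lead.BrauerR2
import Cfsg.Agent.Lib.Lead.CharBurnside
-- import your own Cfsg.Agent.* helpers here

set_option autoImplicit false
open Cfsg
open Cfsg.Agent.Lib.Lead

namespace Cfsg.Agent.S4652

/-- Fix a prime p and a maximal ideal M of the algebraic integers containing p. The defect groups of the principal p-block of a finite group G are exactly the Sylow p-subgroups of G: a subgroup D is a defect group of the principal block if and only if D is a Sylow p-subgroup. -/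
theorem result {G : Type*} [Group G] [Fintype G] (p : ℕ) [Fact p.Prime] (M : Ideal Cfsg.AlgInt) (hM : Cfsg.IsPModular p M) (D : Subgroup G) : Cfsg.IsDefectGroup p M (Cfsg.principalBlock M G) D ↔ ∃ S : Sylow p G, (S : Subgroup G) = D := by
  classical
  obtain ⟨hp, hMmax, hpM⟩ := hM
  have hMprime : M.IsPrime := hMmax.isPrime
  have hMtop : M ≠ ⊤ := hMprime.ne_top
  obtain ⟨χ₀, hχ₀⟩ : ∃ χ₀ : Cfsg.IrrCharacter G, (χ₀ : G → ℂ) = fun _ => 1 :=
    ⟨⟨fun _ => 1, isIrrCharacter_one G⟩, rfl⟩
  have hB : Cfsg.principalBlock M G = Cfsg.blockOf M (χ₀ : G → ℂ) := by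
    unfold Cfsg.principalBlock
    rw [hχ₀]
  have hχ₀B : χ₀ ∈ Cfsg.principalBlock M G := by
    rw [hB]
    exact sameBlock_refl_lead hMtop (χ₀ : G → ℂ)
  -- a defect class of the principal block has centralizer of index prime to p
  have key : ∀ g : G, Cfsg.IsDefectClass M (Cfsg.principalBlock M G) g →
      ¬ p ∣ (Subgroup.centralizer ({g} : Set G)).index := by
    intro g hg hpi
    obtain ⟨-, -, h3⟩ := hg
    apply h3 χ₀ hχ₀B
    unfold Cfsg.centralChar
    rw [hχ₀]
    obtain ⟨k, hk⟩ := hpi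
    rw [hk]
    have h1 : Cfsg.MemLocalIdeal M (((p : Cfsg.AlgInt) * (k : Cfsg.AlgInt) : Cfsg.AlgInt) : ℂ) :=
      memLocalIdeal_of_mem_lead hMtop _ (M.mul_mem_right _ hpM)
    convert h1 using 1
    push_cast
    ring
  constructor
  · rintro ⟨g, hg, Q, rfl⟩
    exact sylow_map_of_index_lead _ (key g hg) Q
  · rintro ⟨S, rfl⟩
    obtain ⟨g, hg⟩ := exists_defectClass_lead p hp M hMprime hpM χ₀
    rw [← hB] at hg
    have hidx := key g hg
    obtain ⟨Q⟩ : Nonempty (Sylow p (Subgroup.centralizer ({g} : Set G))) := inferInstance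
    obtain ⟨S', hS'⟩ := sylow_map_of_index_lead (Subgroup.centralizer ({g} : Set G)) hidx Q
    obtain ⟨x, hx⟩ := MulAction.exists_smul_eq G S' S
    have hg' := isDefectClass_conj_lead hg x
    refine ⟨x * g * x⁻¹, hg', ?_⟩
    have hle : (S : Subgroup G) ≤ Subgroup.centralizer ({x * g * x⁻¹} : Set G) := by
      intro y hy
      rw [← hx, Sylow.coe_subgroup_smul, Subgroup.mem_pointwise_smul_iff_inv_smul_mem] at hy
      rw [hS'] at hy
      obtain ⟨c, hc, hcy⟩ := hy
      have hcg : (c : G) ∈ Subgroup.centralizer ({g} : Set G) := c.2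
      rw [Subgroup.mem_centralizer_singleton_iff] at hcg
      have hcy' : (c : G) = x⁻¹ * y * x := by
        have : (c : G) = (MulAut.conj x)⁻¹ • y := hcy
        rw [this, MulAut.smul_def]
        simp [MulAut.conj_inv_apply]
      rw [hcy'] at hcg
      rw [Subgroup.mem_centralizer_singleton_iff]
      have e1 : x * g * x⁻¹ * y = x * (g * (x⁻¹ * y * x)) * x⁻¹ := by group
      have e2 : y * (x * g * x⁻¹) = x * ((x⁻¹ * y * x) * g) * x⁻¹ := by group
      rw [e1, e2, hcg]
    have hpg : IsPGroup p ((S : Subgroup G).subgroupOf (Subgroup.centralizer ({x * g * x⁻¹} : Set G))) := by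
      have := S.isPGroup'
      exact this.comap_subtype
    have hnd : ¬ p ∣ ((S : Subgroup G).subgroupOf (Subgroup.centralizer ({x * g * x⁻¹} : Set G))).index := by
      intro h
      have h1 : (S : Subgroup G).relIndex (Subgroup.centralizer ({x * g * x⁻¹} : Set G)) ∣ (S : Subgroup G).index :=
        Dvd.intro _ (Subgroup.relIndex_mul_index hle)
      exact S.not_dvd_index (h.trans h1)
    refine ⟨hpg.toSylow hnd, ?_⟩
    show (S : Subgroup G) = ((S : Subgroup G).subgroupOf (Subgroup.centralizer ({x * g * x⁻¹} : Set G))).map (Subgroup.centralizer ({x * g * x⁻¹} : Set G)).subtype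
    rw [Subgroup.subgroupOf_map_subtype, inf_of_le_left hle]


end Cfsg.Agent.S4652
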