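import Cfsg.Statements.S4657
import Mathlib
import Cfsg.Agent.S0919
import Cfsg.Agent.S4663
import Cfsg.Agent.Lib.Helper7.DefectOrd
import Cfsg.Agent.Lib.Lead.BlockMinMax
import Cfsg.Agent.Lib.Lead.BlockCover2
import Cfsg.Agent.Lib.Lead.BlockOsima2
import Cfsg.Agent.Lib.Lead.BlockAux2
-- import your own Cfsg.Agent.* helpers here

set_option autoImplicit false
open Cfsg
open Cfsg.Agent.Lib.Helper7 Cfsg.Agent.Lib.Lead
open scoped ComplexConjugate

namespace Cfsg.Agent.S4657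

/-- Fix a prime p and a maximal ideal M of the algebraic integers containing p. Every Brauer pair (P, e) of the finite group G is a Brauer pair of exactly one p-block B of G. -/
theorem result {G : Type*} [Group G] [Fintype G] (p : ℕ) [Fact p.Prime] (M : Ideal Cfsg.AlgInt) (hM : Cfsg.IsPModular p M) (P : Subgroup G) (e : Set (Cfsg.IrrCharacter (Subgroup.centralizer (P : Set G)))) (hPe : Cfsg.IsBrauerPair p M P e) : ∃! B : Set (Cfsg.IrrCharacter G), Cfsg.IsBrauerPairOf p M B P e := by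
  classical
  have hp : p.Prime := hM.1
  have hMprime : M.IsPrime := hM.2.1.isPrime
  have hMtop : M ≠ ⊤ := hMprime.ne_top
  have hpM : (p : Cfsg.AlgInt) ∈ M := hM.2.2
  haveI : Fintype (Subgroup.centralizer (P : Set G)) := Fintype.ofFinite _
  haveI : Fintype (Cfsg.IrrCharacter G) := Fintype.ofFinite _
  obtain ⟨hP, he⟩ := hPe
  have he' := he
  obtain ⟨ξ₀, rfl⟩ := he'
  have hξ1 : (ξ₀ : (Subgroup.centralizer (P : Set G)) → ℂ) 1 ≠ 0 := by
    obtain ⟨d, hd0, hd⟩ := irr_one ξ₀.2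
    rw [hd]
    exact_mod_cast hd0
  have hacl : ∀ B : Set (Cfsg.IrrCharacter G), Cfsg.IsClassFunction G (Cfsg.blockCoeff B) :=
    fun B g h => blockCoeff_classFun_lead B g h
  have haR : ∀ χ : Cfsg.IrrCharacter G, ∀ g,
      Cfsg.MemLocalRing M (Cfsg.blockCoeff (Cfsg.blockOf M (χ : G → ℂ)) g) :=
    fun χ g => osima_lead p hp M hMprime hpM χ g
  have haT : ∀ (B : Set (Cfsg.IrrCharacter G)) (η : Cfsg.IrrCharacter G),
      ∑ g : G, Cfsg.blockCoeff B g * (η : G → ℂ) g = if η ∈ B then (η : G → ℂ) 1 else 0 :=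
    fun B η => blockCoeff_sum_lead B η
  have hbo : ∀ (B : Set (Cfsg.IrrCharacter G)) (ξ' : Cfsg.IrrCharacter (Subgroup.centralizer (P : Set G))),
      Cfsg.brauerOmega P (Cfsg.blockCoeff B) (ξ' : (Subgroup.centralizer (P : Set G)) → ℂ) =
      ∑ m : (Subgroup.centralizer (P : Set G)), Cfsg.blockCoeff B (m : G) * ((ξ' : (Subgroup.centralizer (P : Set G)) → ℂ) m / (ξ' : (Subgroup.centralizer (P : Set G)) → ℂ) 1) := by
    intro B ξ'
    unfold Cfsg.brauerOmega
    rw [finsum_eq_sum_of_fintype]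
    apply Finset.sum_congr rfl
    intro x _
    rw [mul_div_assoc]
  have hsame : ∀ (B : Set (Cfsg.IrrCharacter G)),
      (∀ g, Cfsg.MemLocalRing M (Cfsg.blockCoeff B g)) → ∀ ξ ξ' : Cfsg.IrrCharacter (Subgroup.centralizer (P : Set G)),
      Cfsg.SameBlock M (ξ : (Subgroup.centralizer (P : Set G)) → ℂ) (ξ' : (Subgroup.centralizer (P : Set G)) → ℂ) →
      Cfsg.MemLocalIdeal M
        ((∑ m : (Subgroup.centralizer (P : Set G)), Cfsg.blockCoeff B (m : G) * ((ξ : (Subgroup.centralizer (P : Set G)) → ℂ) m / (ξ : (Subgroup.centralizer (P : Set G)) → ℂ) 1)) -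
          ∑ m : (Subgroup.centralizer (P : Set G)), Cfsg.blockCoeff B (m : G) * ((ξ' : (Subgroup.centralizer (P : Set G)) → ℂ) m / (ξ' : (Subgroup.centralizer (P : Set G)) → ℂ) 1)) := by
    intro B hBR ξ ξ' hs
    haveI : Fintype (ConjClasses (Subgroup.centralizer (P : Set G))) := Fintype.ofFinite _
    have hfcl : ∀ x y : (Subgroup.centralizer (P : Set G)), (fun m : (Subgroup.centralizer (P : Set G)) => Cfsg.blockCoeff B (m : G)) (y * x * y⁻¹) =
        (fun m : (Subgroup.centralizer (P : Set G)) => Cfsg.blockCoeff B (m : G)) x := fun x y => hacl B (x : G) (y : G)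
    have h1 : ∑ m : (Subgroup.centralizer (P : Set G)), Cfsg.blockCoeff B (m : G) * ((ξ : (Subgroup.centralizer (P : Set G)) → ℂ) m / (ξ : (Subgroup.centralizer (P : Set G)) → ℂ) 1) =
        ∑ c : ConjClasses (Subgroup.centralizer (P : Set G)), Cfsg.blockCoeff B ((Quotient.out c : (Subgroup.centralizer (P : Set G))) : G) *
          Cfsg.centralChar (ξ : (Subgroup.centralizer (P : Set G)) → ℂ) (Quotient.out c) :=
      S0919.om_regroup_aux (ξ : (Subgroup.centralizer (P : Set G)) → ℂ) (isClassFunction_of_irr ξ.2)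
        (fun m : (Subgroup.centralizer (P : Set G)) => Cfsg.blockCoeff B (m : G)) hfcl
    have h2 : ∑ m : (Subgroup.centralizer (P : Set G)), Cfsg.blockCoeff B (m : G) * ((ξ' : (Subgroup.centralizer (P : Set G)) → ℂ) m / (ξ' : (Subgroup.centralizer (P : Set G)) → ℂ) 1) =
        ∑ c : ConjClasses (Subgroup.centralizer (P : Set G)), Cfsg.blockCoeff B ((Quotient.out c : (Subgroup.centralizer (P : Set G))) : G) *
          Cfsg.centralChar (ξ' : (Subgroup.centralizer (P : Set G)) → ℂ) (Quotient.out c) :=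
      S0919.om_regroup_aux (ξ' : (Subgroup.centralizer (P : Set G)) → ℂ) (isClassFunction_of_irr ξ'.2)
        (fun m : (Subgroup.centralizer (P : Set G)) => Cfsg.blockCoeff B (m : G)) hfcl
    rw [h1, h2, ← Finset.sum_sub_distrib]
    apply memLocalIdeal_sum_lead hMprime
    intro c _
    have h4 := memLocalIdeal_mul_ring_lead hMprime (hBR ((Quotient.out c : (Subgroup.centralizer (P : Set G))) : G))
      (hs (Quotient.out c))
    rw [mul_sub] at h4
    exact h4
  have hex : ∃ χ : Cfsg.IrrCharacter G, Cfsg.MemLocalIdeal M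
      ((∑ m : (Subgroup.centralizer (P : Set G)), Cfsg.blockCoeff (Cfsg.blockOf M (χ : G → ℂ)) (m : G) *
        ((ξ₀ : (Subgroup.centralizer (P : Set G)) → ℂ) m / (ξ₀ : (Subgroup.centralizer (P : Set G)) → ℂ) 1)) - 1) := by
    obtain ⟨y, hy⟩ : ∃ y : Cfsg.IrrCharacter G → G → ℂ, ∀ χ g, y χ g =
        (if g = 1 then 1 else 0) - Cfsg.blockCoeff (Cfsg.blockOf M (χ : G → ℂ)) g :=
      ⟨_, fun _ _ => rfl⟩
    have hycl : ∀ χ, Cfsg.IsClassFunction G (y χ) := by
      intro χ g h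
      rw [hy, hy, hacl _ g h, if_congr (conj_eq_one_iff (a := h) (b := g)) rfl rfl]
    have hyR : ∀ χ g, Cfsg.MemLocalRing M (y χ g) := by
      intro χ g
      rw [hy]
      refine memLocalRing_sub_lead hMprime ?_ (haR χ g)
      split_ifs
      · exact memLocalRing_one_lead hMtop
      · exact memLocalRing_zero_lead hMtop
    have hya : ∀ (χ η : Cfsg.IrrCharacter G), ∑ g : G, y χ g * (η : G → ℂ) g =
        (1 - (if η ∈ Cfsg.blockOf M (χ : G → ℂ) then 1 else 0)) * (η : G → ℂ) 1 := by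
      intro χ η
      have e : ∀ g : G, y χ g * (η : G → ℂ) g = (if g = 1 then (η : G → ℂ) g else 0) -
          Cfsg.blockCoeff (Cfsg.blockOf M (χ : G → ℂ)) g * (η : G → ℂ) g := by
        intro g
        rw [hy, sub_mul, ite_mul, one_mul, zero_mul]
      rw [Finset.sum_congr rfl (fun g _ => e g), Finset.sum_sub_distrib, Finset.sum_ite_eq',
        if_pos (Finset.mem_univ _), haT]
      by_cases h : η ∈ Cfsg.blockOf M (χ : G → ℂ)
      · rw [if_pos h, if_pos h]
        ring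
      · rw [if_neg h, if_neg h]
        ring
    have hLam : ∀ χ : Cfsg.IrrCharacter G,
        ∑ m : (Subgroup.centralizer (P : Set G)), y χ (m : G) * ((ξ₀ : (Subgroup.centralizer (P : Set G)) → ℂ) m / (ξ₀ : (Subgroup.centralizer (P : Set G)) → ℂ) 1) =
        1 - ∑ m : (Subgroup.centralizer (P : Set G)), Cfsg.blockCoeff (Cfsg.blockOf M (χ : G → ℂ)) (m : G) *
          ((ξ₀ : (Subgroup.centralizer (P : Set G)) → ℂ) m / (ξ₀ : (Subgroup.centralizer (P : Set G)) → ℂ) 1) := by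
      intro χ
      have e : ∀ m : (Subgroup.centralizer (P : Set G)), y χ (m : G) * ((ξ₀ : (Subgroup.centralizer (P : Set G)) → ℂ) m / (ξ₀ : (Subgroup.centralizer (P : Set G)) → ℂ) 1) =
          (if m = 1 then (1 : ℂ) else 0) -
            Cfsg.blockCoeff (Cfsg.blockOf M (χ : G → ℂ)) (m : G) *
              ((ξ₀ : (Subgroup.centralizer (P : Set G)) → ℂ) m / (ξ₀ : (Subgroup.centralizer (P : Set G)) → ℂ) 1) := by
        intro m
        rw [hy, sub_mul]
        congr 1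
        by_cases h : m = 1
        · have h' : (m : G) = 1 := by rw [h]; rfl
          rw [if_pos h, if_pos h', one_mul, h, div_self hξ1]
        · have h' : ¬ (m : G) = 1 := fun h'' => h (Subtype.ext h'')
          rw [if_neg h, if_neg h', zero_mul]
      rw [Finset.sum_congr rfl (fun m _ => e m), Finset.sum_sub_distrib, Finset.sum_ite_eq',
        if_pos (Finset.mem_univ _)]
    obtain ⟨c, hc, hcR, hcT, hcL⟩ := S4663.genC_aux p M hM P hP ξ₀ y
      (fun χ η => 1 - (if η ∈ Cfsg.blockOf M (χ : G → ℂ) then 1 else 0)) hycl hyR hya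
      Finset.univ
    have hz : ∀ φ : Cfsg.IrrCharacter G, (∏ χ : Cfsg.IrrCharacter G,
        (1 - (if φ ∈ Cfsg.blockOf M (χ : G → ℂ) then (1 : ℂ) else 0))) = 0 := by
      intro φ
      have hmem : φ ∈ Cfsg.blockOf M (φ : G → ℂ) := sameBlock_refl_lead hMtop _
      rw [Finset.prod_eq_zero_iff]
      exact ⟨φ, Finset.mem_univ φ, by rw [if_pos hmem, sub_self]⟩
    have hc0 : ∀ g, c g = 0 := by
      intro g
      have h := specT_unique_lead c hc (fun η => ∏ χ : Cfsg.IrrCharacter G,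
        (1 - (if η ∈ Cfsg.blockOf M (χ : G → ℂ) then (1 : ℂ) else 0))) hcT g
      rw [h]
      simp only [hz, zero_mul, Finset.sum_const_zero, mul_zero]
    have hL0 : ∑ m : (Subgroup.centralizer (P : Set G)), c (m : G) * ((ξ₀ : (Subgroup.centralizer (P : Set G)) → ℂ) m / (ξ₀ : (Subgroup.centralizer (P : Set G)) → ℂ) 1) = 0 :=
      Finset.sum_eq_zero (fun m _ => by rw [hc0, zero_mul])
    rw [hL0, zero_sub] at hcL
    have h1 := memLocalIdeal_neg_lead hcL
    rw [neg_neg] at h1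
    obtain ⟨χ, -, hχ⟩ := S0919.prime_aux hMprime Finset.univ
      (fun χ : Cfsg.IrrCharacter G =>
        ∑ m : (Subgroup.centralizer (P : Set G)), y χ (m : G) * ((ξ₀ : (Subgroup.centralizer (P : Set G)) → ℂ) m / (ξ₀ : (Subgroup.centralizer (P : Set G)) → ℂ) 1))
      (fun χ _ => S0919.om_R_aux hMprime ξ₀ (fun m : (Subgroup.centralizer (P : Set G)) => y χ (m : G))
        (fun x z => hycl χ (x : G) (z : G)) (fun m => hyR χ _)) h1
    have hχ' : Cfsg.MemLocalIdeal M
        (∑ m : (Subgroup.centralizer (P : Set G)), y χ (m : G) * ((ξ₀ : (Subgroup.centralizer (P : Set G)) → ℂ) m / (ξ₀ : (Subgroup.centralizer (P : Set G)) → ℂ) 1)) := hχ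
    rw [hLam χ] at hχ'
    refine ⟨χ, ?_⟩
    have h2 := memLocalIdeal_neg_lead hχ'
    rw [neg_sub] at h2
    exact h2
  obtain ⟨χ, hχ⟩ := hex
  refine ⟨Cfsg.blockOf M (χ : G → ℂ), ⟨⟨hP, he⟩, ⟨χ, rfl⟩, ?_⟩, ?_⟩
  · intro ξ hξ
    rw [hbo]
    have h1 := hsame _ (haR χ) ξ ξ₀ (sameBlock_symm_lead hξ)
    have h2 := memLocalIdeal_add_lead hMprime h1 hχ
    convert h2 using 1
    ring
  · intro B' hB'
    obtain ⟨-, ⟨χ', rfl⟩, hcond'⟩ := hB'
    by_contra hne
    have hξ₀mem : ξ₀ ∈ Cfsg.blockOf M (ξ₀ : (Subgroup.centralizer (P : Set G)) → ℂ) := sameBlock_refl_lead hMtop _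
    have hL' := hcond' ξ₀ hξ₀mem
    rw [hbo] at hL'
    have hdisj : ∀ η : Cfsg.IrrCharacter G, ¬ (η ∈ Cfsg.blockOf M (χ' : G → ℂ) ∧
        η ∈ Cfsg.blockOf M (χ : G → ℂ)) := by
      intro η hη
      apply hne
      have e1 := blockOf_eq_h7 M hMprime _ ⟨χ', rfl⟩ η hη.1
      have e2 := blockOf_eq_h7 M hMprime _ ⟨χ, rfl⟩ η hη.2
      rw [e1, ← e2]
    have hconv0 : ∀ g : G, ∑ x : G, Cfsg.blockCoeff (Cfsg.blockOf M (χ : G → ℂ)) x *
        Cfsg.blockCoeff (Cfsg.blockOf M (χ' : G → ℂ)) (x⁻¹ * g) = 0 := by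
      intro g
      have hT : ∀ η : Cfsg.IrrCharacter G,
          ∑ g : G, (∑ x : G, Cfsg.blockCoeff (Cfsg.blockOf M (χ : G → ℂ)) x *
            Cfsg.blockCoeff (Cfsg.blockOf M (χ' : G → ℂ)) (x⁻¹ * g)) * (η : G → ℂ) g =
          (fun _ : Cfsg.IrrCharacter G => (0 : ℂ)) η * (η : G → ℂ) 1 := by
        intro η
        rw [conv_transform_lead (Cfsg.blockCoeff (Cfsg.blockOf M (χ : G → ℂ)))
          (Cfsg.blockCoeff (Cfsg.blockOf M (χ' : G → ℂ))) (hacl _) (η : G → ℂ) η.2, haT, haT]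
        by_cases h1 : η ∈ Cfsg.blockOf M (χ : G → ℂ)
        · have h2 : η ∉ Cfsg.blockOf M (χ' : G → ℂ) := fun h2 => hdisj η ⟨h2, h1⟩
          rw [if_neg h2]
          simp
        · rw [if_neg h1]
          simp
      have h : ∑ x : G, Cfsg.blockCoeff (Cfsg.blockOf M (χ : G → ℂ)) x *
          Cfsg.blockCoeff (Cfsg.blockOf M (χ' : G → ℂ)) (x⁻¹ * g) = (Nat.card G : ℂ)⁻¹ *
          ∑ φ : Cfsg.IrrCharacter G, (fun _ : Cfsg.IrrCharacter G => (0 : ℂ)) φ *
            ((φ : G → ℂ) 1 * conj ((φ : G → ℂ) g)) :=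
        specT_unique_lead (fun g => ∑ x : G, Cfsg.blockCoeff (Cfsg.blockOf M (χ : G → ℂ)) x *
          Cfsg.blockCoeff (Cfsg.blockOf M (χ' : G → ℂ)) (x⁻¹ * g))
          (conv_classFun_lead _ _ (hacl _) (hacl _)) (fun _ => 0) hT g
      rw [h]
      simp
    have hLc : ∑ m : (Subgroup.centralizer (P : Set G)), (∑ x : G, Cfsg.blockCoeff (Cfsg.blockOf M (χ : G → ℂ)) x *
        Cfsg.blockCoeff (Cfsg.blockOf M (χ' : G → ℂ)) (x⁻¹ * (m : G))) *
        ((ξ₀ : (Subgroup.centralizer (P : Set G)) → ℂ) m / (ξ₀ : (Subgroup.centralizer (P : Set G)) → ℂ) 1) = 0 :=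
      Finset.sum_eq_zero (fun m _ => by rw [hconv0, zero_mul])
    have hm := S4663.multC_aux p M hM P hP ξ₀ (Cfsg.blockCoeff (Cfsg.blockOf M (χ : G → ℂ)))
      (Cfsg.blockCoeff (Cfsg.blockOf M (χ' : G → ℂ))) (hacl _) (hacl _) (haR χ) (haR χ')
    rw [hLc, zero_sub] at hm
    have hR' : Cfsg.MemLocalRing M (∑ m : (Subgroup.centralizer (P : Set G)),
        Cfsg.blockCoeff (Cfsg.blockOf M (χ' : G → ℂ)) (m : G) *
          ((ξ₀ : (Subgroup.centralizer (P : Set G)) → ℂ) m / (ξ₀ : (Subgroup.centralizer (P : Set G)) → ℂ) 1)) :=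
      S0919.om_R_aux hMprime ξ₀
        (fun m : (Subgroup.centralizer (P : Set G)) => Cfsg.blockCoeff (Cfsg.blockOf M (χ' : G → ℂ)) (m : G))
        (fun x z => hacl _ (x : G) (z : G)) (fun m => haR χ' _)
    have h5 := memLocalIdeal_mul_ring_lead hMprime hR' hχ
    have h6 := memLocalIdeal_add_lead hMprime (memLocalIdeal_add_lead hMprime hm h5) hL'
    have h7 : Cfsg.MemLocalIdeal M (1 : ℂ) := by
      have h8 := memLocalIdeal_neg_lead h6
      convert h8 using 1
      ring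
    have h1 : ((1 : Cfsg.AlgInt) : ℂ) = 1 := rfl
    rw [← h1] at h7
    exact hMtop ((Ideal.eq_top_iff_one M).mpr (mem_of_memLocalIdeal_lead hMprime 1 h7))


end Cfsg.Agent.S4657
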