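import Cfsg.Statements.S4664
import Mathlib
import Cfsg.Agent.Lib.Lead.SylowAux2
import Cfsg.Agent.Lib.Lead.BlockOsima
import Cfsg.Agent.Lib.Lead.BlockOsimaSupp
import Cfsg.Agent.Lib.Lead.BlockKer
import Cfsg.Agent.Lib.Lead.BlockAux2
import Cfsg.Agent.Lib.Lead.CharBasic
import Cfsg.Agent.Lib.Lead.CharZeros
import Cfsg.Agent.Lib.Lead.CharOrtho
import Cfsg.Agent.Lib.Lead.CharRing

set_option autoImplicit false
open Cfsg Cfsg.Agent.Lib.Lead

namespace Cfsg.Agent.S4664

open scoped Pointwise commutatorElement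

/-- Fix a prime p and a maximal ideal M of the algebraic integers containing p, and let B be a p-block of the finite group G. Let m be the p'-part of the order of G and η = exp(2πi/m). Then every coefficient of the idempotent of B lies in the cyclotomic field ℚ(η). -/
theorem result {G : Type*} [Group G] [Fintype G] (p : ℕ) [Fact p.Prime] (M : Ideal Cfsg.AlgInt) (hM : Cfsg.IsPModular p M) (B : Set (Cfsg.IrrCharacter G)) (hB : Cfsg.IsPBlock M B) (g : G) : Cfsg.blockCoeff B g ∈ IntermediateField.adjoin ℚ ({Complex.exp (2 * Real.pi * Complex.I / ((Nat.card G / p ^ (Nat.card G).factorization p : ℕ) : ℂ))} : Set ℂ) := by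
  classical
  haveI : Fintype (Cfsg.IrrCharacter G) := Fintype.ofFinite _
  obtain ⟨hp, hMmax, hpM⟩ := hM
  have hMprime : M.IsPrime := hMmax.isPrime
  have hMtop : M ≠ ⊤ := hMprime.ne_top
  obtain ⟨χ₀, rfl⟩ := hB
  have hG0 : Nat.card G ≠ 0 := Nat.card_pos.ne'
  obtain ⟨m, hm⟩ : ∃ m : ℕ, m = Nat.card G / p ^ (Nat.card G).factorization p := ⟨_, rfl⟩
  rw [← hm]
  have hm0 : m ≠ 0 := by
    rw [hm]
    exact (Nat.ordCompl_pos p hG0).ne'
  have hGm : p ^ (Nat.card G).factorization p * m = Nat.card G := by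
    rw [hm]
    exact Nat.ordProj_mul_ordCompl_eq_self (Nat.card G) p
  haveI : NeZero m := ⟨hm0⟩
  have hη : IsPrimitiveRoot (Complex.exp (2 * Real.pi * Complex.I / (m : ℂ))) m :=
    Complex.isPrimitiveRoot_exp m hm0
  have hηK : Complex.exp (2 * Real.pi * Complex.I / (m : ℂ)) ∈
      IntermediateField.adjoin ℚ ({Complex.exp (2 * Real.pi * Complex.I / (m : ℂ))} : Set ℂ) :=
    IntermediateField.mem_adjoin_simple_self ℚ _
  obtain ⟨K, hK⟩ : ∃ K : IntermediateField ℚ ℂ, K = IntermediateField.adjoin ℚ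
      ({Complex.exp (2 * Real.pi * Complex.I / (m : ℂ))} : Set ℂ) := ⟨_, rfl⟩
  rw [← hK] at hηK ⊢
  have hroot : ∀ μ : ℂ, μ ^ m = 1 → μ ∈ K := by
    intro μ hμ
    obtain ⟨i, -, hi⟩ := hη.eq_pow_of_pow_eq_one hμ
    rw [← hi]
    exact pow_mem hηK i
  have hval : ∀ (φ : Cfsg.IrrCharacter G) (h : G), ¬ p ∣ orderOf h →
      (φ : G → ℂ) h ∈ K := by
    intro φ h hh
    have hdiv : orderOf h ∣ m := by
      have h1 : orderOf h ∣ p ^ (Nat.card G).factorization p * m := by
        rw [hGm]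
        exact orderOf_dvd_natCard h
      have hcop : Nat.Coprime (orderOf h) (p ^ (Nat.card G).factorization p) :=
        Nat.Coprime.pow_right _ ((Nat.Prime.coprime_iff_not_dvd hp).mpr hh).symm
      exact hcop.dvd_of_dvd_mul_left h1
    obtain ⟨t, ht⟩ := hdiv
    obtain ⟨n, ρ, hρ, hρφ⟩ := φ.2
    obtain ⟨b, μ, h1, h2⟩ := exists_eigenbasis ρ h
    have htr : (φ : G → ℂ) h = ∑ i, μ i := by
      rw [← hρφ]
      exact trace_eq_sum_of_eigenbasis b (ρ h) μ h1
    rw [htr]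
    refine sum_mem (fun i _ => hroot (μ i) ?_)
    rw [ht, pow_mul, h2 i, one_pow]
  by_cases hsingg : p ∣ orderOf g
  · have hcl : Cfsg.IsClassFunction G (Cfsg.blockCoeff (Cfsg.blockOf M (χ₀ : G → ℂ))) :=
      fun g h => blockCoeff_classFun_lead _ g h
    have hcR : ∀ x : G, Cfsg.MemLocalRing M
        (Cfsg.blockCoeff (Cfsg.blockOf M (χ₀ : G → ℂ)) x) :=
      fun x => osima_lead p hp M hMprime hpM χ₀ x
    have hidem : ∀ x : G, ∑ y : G, Cfsg.blockCoeff (Cfsg.blockOf M (χ₀ : G → ℂ)) y *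
        Cfsg.blockCoeff (Cfsg.blockOf M (χ₀ : G → ℂ)) (y⁻¹ * x) =
        Cfsg.blockCoeff (Cfsg.blockOf M (χ₀ : G → ℂ)) x :=
      fun x => (blockCoeff_conv_lead _ x).symm
    rw [idem_psingular_lead p hp hMprime hpM _ hcl hcR hidem g hsingg]
    exact zero_mem K
  · rw [blockCoeff_eq_sum_lead (Cfsg.blockOf M (χ₀ : G → ℂ)) g]
    refine mul_mem (inv_mem (natCast_mem K _)) (sum_mem (fun φ _ => ?_))
    by_cases hφ : φ ∈ Cfsg.blockOf M (χ₀ : G → ℂ)
    · rw [if_pos hφ]
      obtain ⟨hd1, -⟩ := charDegree_irr φ.2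
      have hφc := isCharacter_of_isIrrCharacter φ.2
      have h1 : (φ : G → ℂ) 1 ∈ K := by
        rw [hd1]
        exact natCast_mem K _
      have h2 : (starRingEnd ℂ) ((φ : G → ℂ) g) ∈ K := by
        rw [← isCharacter_inv hφc g]
        apply hval
        rw [orderOf_inv]
        exact hsingg
      exact mul_mem h1 h2
    · rw [if_neg hφ]
      exact zero_mem K

end Cfsg.Agent.S4664
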