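import Cfsg.Statements.S4665
import Mathlib
import Cfsg.Agent.Lib.Lead.CharInd3
import Cfsg.Agent.Lib.Lead.CharRing
-- import your own Cfsg.Agent.* helpers here

set_option autoImplicit false
open Cfsg
open Cfsg.Agent.Lib.Lead

namespace Cfsg.Agent.S4665

/-- Fix a prime p, a maximal ideal M of the algebraic integers containing p, and a p-block B of the finite group G, and let p^a be the p-part of the order of G. Let χ be an integer combination of the irreducible characters in B. If the function that agrees with χ on p-regular elements and vanishes on p-singular elements is again an integer combination of the irreducible characters in B, then p^a divides χ(1). -/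
theorem result {G : Type*} [Group G] [Fintype G] (p : ℕ) [Fact p.Prime] (M : Ideal Cfsg.AlgInt) (hM : Cfsg.IsPModular p M) (B : Set (Cfsg.IrrCharacter G)) (hB : Cfsg.IsPBlock M B) (χ : G → ℂ) (hχ : (∃ n : Cfsg.IrrCharacter G → ℤ, ∀ g : G, χ g = ∑ᶠ ψ ∈ B, (n ψ : ℂ) * (ψ : G → ℂ) g)) (h0 : (∃ n : Cfsg.IrrCharacter G → ℤ, ∀ g : G, Cfsg.pRegularPart p χ g = ∑ᶠ ψ ∈ B, (n ψ : ℂ) * (ψ : G → ℂ) g)) : ∃ k : ℤ, χ 1 = (p ^ (Nat.card G).factorization p : ℂ) * k := by
  classical
  haveI : Fintype (Cfsg.IrrCharacter G) := Fintype.ofFinite _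
  obtain ⟨n, hn⟩ := h0
  have hp : p.Prime := Fact.out
  obtain ⟨P0⟩ : Nonempty (Sylow p G) := inferInstance
  have hcard0 : Nat.card P0 = p ^ (Nat.card G).factorization p := Sylow.card_eq_multiplicity P0
  have hpg0 : IsPGroup p P0 := P0.isPGroup'
  obtain ⟨P, hP⟩ : ∃ P : Subgroup G, P = (P0 : Subgroup G) := ⟨_, rfl⟩
  have hcard : Nat.card P = p ^ (Nat.card G).factorization p := by rw [hP]; exact hcard0
  have hpg : IsPGroup p P := by rw [hP]; exact hpg0
  clear hP hcard0 hpg0 P0
  -- sum over P of the p-regular part is χ 1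
  have h1 : ∑ x : P, Cfsg.pRegularPart p χ (x : G) = χ 1 := by
    rw [Finset.sum_eq_single (1 : P)]
    · show (if Cfsg.IsPRegular p ((1 : P) : G) then χ ((1 : P) : G) else 0) = χ 1
      rw [if_pos]
      · rfl
      · show ¬ p ∣ orderOf ((1 : P) : G)
        simp only [OneMemClass.coe_one, orderOf_one, Nat.dvd_one]
        exact hp.one_lt.ne'
    · intro x _ hx
      show (if Cfsg.IsPRegular p (x : G) then χ (x : G) else 0) = 0
      rw [if_neg]
      intro hreg
      apply hreg
      obtain ⟨k, hk⟩ := hpg x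
      have hord : orderOf x ∣ p ^ k := orderOf_dvd_of_pow_eq_one hk
      obtain ⟨j, hj, hj2⟩ := (Nat.dvd_prime_pow hp).1 hord
      have hox : orderOf (x : G) = orderOf x := Subgroup.orderOf_coe x
      rw [hox, hj2]
      rcases Nat.eq_zero_or_pos j with h | h
      · exfalso
        apply hx
        rw [h, pow_zero, orderOf_eq_one_iff] at hj2
        exact hj2
      · exact dvd_pow_self p h.ne'
    · intro h; exact absurd (Finset.mem_univ _) h
  -- each ψ sums over P to |P| * integer
  have h2 : ∀ ψ : Cfsg.IrrCharacter G, ∃ m : ℕ, ∑ x : P, (ψ : G → ℂ) (x : G) = (Nat.card P : ℂ) * m := by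
    intro ψ
    have hψ : Cfsg.IsCharacter G (ψ : G → ℂ) := isCharacter_of_isIrrCharacter ψ.2
    obtain ⟨m, hm⟩ := classInner_char_char_nat (isCharacter_restrict P hψ)
      (isCharacter_one (G := P))
    refine ⟨m, ?_⟩
    rw [← hm]
    unfold Cfsg.classInner
    have hne : (Nat.card P : ℂ) ≠ 0 := by
      rw [hcard]; exact_mod_cast (pow_pos hp.pos _).ne'
    rw [← mul_assoc, mul_inv_cancel₀ hne, one_mul]
    apply Finset.sum_congr rfl
    intro x _
    simp
  choose m hm using h2
  refine ⟨∑ ψ : Cfsg.IrrCharacter G, if ψ ∈ B then n ψ * m ψ else 0, ?_⟩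
  rw [← h1]
  have h3 : ∀ x : P, Cfsg.pRegularPart p χ (x : G) = ∑ ψ : Cfsg.IrrCharacter G, if ψ ∈ B then (n ψ : ℂ) * (ψ : G → ℂ) (x : G) else 0 := by
    intro x
    rw [hn, finsum_mem_def, finsum_eq_sum_of_fintype]
    apply Finset.sum_congr rfl
    intro ψ _
    by_cases hψ : ψ ∈ B
    · rw [Set.indicator_of_mem hψ, if_pos hψ]
    · rw [Set.indicator_of_notMem hψ, if_neg hψ]
  simp_rw [h3]
  rw [Finset.sum_comm]
  push_cast
  rw [Finset.mul_sum]
  apply Finset.sum_congr rfl
  intro ψ _
  by_cases hψ : ψ ∈ B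
  · rw [if_pos hψ]
    simp only [if_pos hψ]
    rw [← Finset.mul_sum, hm ψ, hcard]
    push_cast
    ring
  · simp [hψ]


end Cfsg.Agent.S4665
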