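import Cfsg.Statements.S4666
import Mathlib
import Cfsg.Agent.Lib.Helper7.WBO2
import Cfsg.Agent.S4425
-- import your own Cfsg.Agent.* helpers here

set_option autoImplicit false
open Cfsg
open Cfsg.Agent.Lib.Helper7 Cfsg.Agent.Lib.Lead
open scoped ComplexConjugate

namespace Cfsg.Agent.S4666

/-- Fix a prime p and a maximal ideal M of the algebraic integers containing p, and a p-block B of the finite group G of defect d. For every integer combination χ of the irreducible characters in B, p^d times the function that agrees with χ on p-regular elements and vanishes elsewhere is again an integer combination of the irreducible characters in B. -/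
theorem result {G : Type*} [Group G] [Fintype G] (p : ℕ) [Fact p.Prime] (M : Ideal Cfsg.AlgInt) (hM : Cfsg.IsPModular p M) (B : Set (Cfsg.IrrCharacter G)) (hB : Cfsg.IsPBlock M B) (χ : G → ℂ) (hχ : (∃ n : Cfsg.IrrCharacter G → ℤ, ∀ g : G, χ g = ∑ᶠ ψ ∈ B, (n ψ : ℂ) * (ψ : G → ℂ) g)) : (∃ n : Cfsg.IrrCharacter G → ℤ, ∀ g : G, (p ^ Cfsg.blockDefect p B : ℂ) * Cfsg.pRegularPart p χ g = ∑ᶠ ψ ∈ B, (n ψ : ℂ) * (ψ : G → ℂ) g) := by
  classical
  haveI : Fintype (Cfsg.IrrCharacter G) := Fintype.ofFinite _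
  have hp : p.Prime := Fact.out
  obtain ⟨n, hn⟩ := hχ
  obtain ⟨a, ha⟩ : ∃ a : ℕ, a = (Nat.card G).factorization p := ⟨_, rfl⟩
  obtain ⟨S, hS⟩ : ∃ S : Set ℕ, S = (fun χ : Cfsg.IrrCharacter G =>
      (Cfsg.charDegree (χ : G → ℂ)).factorization p) '' B := ⟨_, rfl⟩
  obtain ⟨d, hd⟩ : ∃ d : ℕ, d = Cfsg.blockDefect p B := ⟨_, rfl⟩
  have hdef : d = a - sInf S := by
    rw [hd]; unfold Cfsg.blockDefect; rw [ha, hS]
  rw [← hd]
  have hfin : ∀ (F : Cfsg.IrrCharacter G → ℂ), ∑ᶠ ψ ∈ B, F ψ =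
      ∑ ψ : Cfsg.IrrCharacter G, if ψ ∈ B then F ψ else 0 := by
    intro F
    rw [finsum_mem_def, finsum_eq_sum_of_fintype]
    apply Finset.sum_congr rfl
    intro ψ _
    by_cases hψ : ψ ∈ B
    · rw [Set.indicator_of_mem hψ, if_pos hψ]
    · rw [Set.indicator_of_notMem hψ, if_neg hψ]
  have hpr : ∀ (h : G → ℂ) (x : G), Cfsg.pRegularPart p h x =
      if p ∣ orderOf x then 0 else h x := by
    intro h x
    show (if Cfsg.IsPRegular p x then h x else 0) = _
    by_cases hx : p ∣ orderOf x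
    · rw [if_neg (fun h' : Cfsg.IsPRegular p x => h' hx), if_pos hx]
    · rw [if_pos (show Cfsg.IsPRegular p x from hx), if_neg hx]
  -- generalized characters
  have hgen : ∀ ψ ∈ B, Cfsg.IsGeneralizedCharacter G
      (fun x : G => ((p ^ d : ℕ) : ℂ) * Cfsg.pRegularPart p (ψ : G → ℂ) x) := by
    intro ψ hψ
    obtain ⟨b₀, hb₀⟩ : ∃ b₀ : ℕ, b₀ = (Cfsg.charDegree (ψ : G → ℂ)).factorization p := ⟨_, rfl⟩
    have hgen0 := (Cfsg.Agent.S4425.result p ψ).1
    rw [← ha, ← hb₀] at hgen0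
    have hle : a - b₀ ≤ d := by
      rw [hdef]
      apply Nat.sub_le_sub_left
      apply Nat.sInf_le
      rw [hS]
      exact ⟨ψ, hψ, hb₀.symm⟩
    have h1 := isGenChar_zsmul_lead ((p ^ (d - (a - b₀)) : ℕ) : ℤ) hgen0
    have e : (fun x : G => ((p ^ d : ℕ) : ℂ) * Cfsg.pRegularPart p (ψ : G → ℂ) x) =
        (((p ^ (d - (a - b₀)) : ℕ) : ℤ) : ℂ) • (fun x : G => if p ∣ orderOf x then (0 : ℂ)
        else ((p ^ (a - b₀) : ℕ) : ℂ) * (ψ : G → ℂ) x) := by
      funext x
      rw [Pi.smul_apply, hpr]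
      by_cases hx : p ∣ orderOf x
      · rw [if_pos hx, if_pos hx, smul_zero, mul_zero]
      · rw [if_neg hx, if_neg hx, smul_eq_mul, ← mul_assoc]
        congr 1
        have h2 : d - (a - b₀) + (a - b₀) = d := Nat.sub_add_cancel hle
        have h3 : p ^ d = p ^ (d - (a - b₀)) * p ^ (a - b₀) := by rw [← pow_add, h2]
        rw [h3]
        push_cast
        ring
    rw [e]
    exact h1
  have hint : ∀ ψ φ : Cfsg.IrrCharacter G, ∃ m : ℤ, ψ ∈ B →
      ((p ^ d : ℕ) : ℂ) * Cfsg.classInner (Cfsg.pRegularPart p (ψ : G → ℂ)) (φ : G → ℂ) = m := by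
    intro ψ φ
    by_cases hψ : ψ ∈ B
    · obtain ⟨χ₁, χ₂, h1, h2, h3⟩ := hgen ψ hψ
      obtain ⟨n₁, hn₁⟩ := classInner_char_char_nat h1 (isCharacter_of_isIrrCharacter φ.2)
      obtain ⟨n₂, hn₂⟩ := classInner_char_char_nat h2 (isCharacter_of_isIrrCharacter φ.2)
      refine ⟨(n₁ : ℤ) - n₂, fun _ => ?_⟩
      push_cast
      rw [← hn₁, ← hn₂]
      have e : Cfsg.classInner χ₁ (φ : G → ℂ) - Cfsg.classInner χ₂ (φ : G → ℂ) =
          Cfsg.classInner (χ₁ - χ₂) (φ : G → ℂ) := by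
        unfold Cfsg.classInner
        rw [← mul_sub, ← Finset.sum_sub_distrib]
        congr 1
        apply Finset.sum_congr rfl
        intro g _
        rw [Pi.sub_apply, sub_mul]
      rw [e, ← h3]
      unfold Cfsg.classInner
      rw [mul_left_comm, Finset.mul_sum]
      congr 1
      apply Finset.sum_congr rfl
      intro g _
      push_cast
      ring
    · exact ⟨0, fun h => absurd h hψ⟩
  choose m hm using hint
  refine ⟨fun φ => ∑ ψ : Cfsg.IrrCharacter G, if ψ ∈ B then n ψ * m ψ φ else 0, ?_⟩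
  intro g
  -- the p-regular part of χ
  have h1 : Cfsg.pRegularPart p χ g = ∑ ψ : Cfsg.IrrCharacter G,
      if ψ ∈ B then (n ψ : ℂ) * Cfsg.pRegularPart p (ψ : G → ℂ) g else 0 := by
    rw [hpr]
    by_cases hg : p ∣ orderOf g
    · rw [if_pos hg]
      symm
      apply Finset.sum_eq_zero
      intro ψ _
      rw [hpr, if_pos hg, mul_zero]
      simp
    · rw [if_neg hg, hn g, hfin]
      apply Finset.sum_congr rfl
      intro ψ _
      rw [hpr, if_neg hg]
  have h2 : ∀ ψ ∈ B, (p ^ d : ℂ) * Cfsg.pRegularPart p (ψ : G → ℂ) g =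
      ∑ φ : Cfsg.IrrCharacter G, if φ ∈ B then (m ψ φ : ℂ) * (φ : G → ℂ) g else 0 := by
    intro ψ hψ
    rw [← preg_expand_h7 p M hM B hB ψ hψ g, Finset.mul_sum]
    apply Finset.sum_congr rfl
    intro φ _
    by_cases hφ : φ ∈ B
    · rw [if_pos hφ, if_pos hφ, ← hm ψ φ hψ]
      push_cast
      ring
    · rw [if_neg hφ, if_neg hφ, mul_zero]
  rw [h1, hfin, Finset.mul_sum]
  have h3 : ∀ ψ ∈ (Finset.univ : Finset (Cfsg.IrrCharacter G)),
      (p ^ d : ℂ) * (if ψ ∈ B then (n ψ : ℂ) * Cfsg.pRegularPart p (ψ : G → ℂ) g else 0) =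
      ∑ φ : Cfsg.IrrCharacter G, if φ ∈ B then
        ((if ψ ∈ B then n ψ * m ψ φ else 0 : ℤ) : ℂ) * (φ : G → ℂ) g else 0 := by
    intro ψ _
    by_cases hψ : ψ ∈ B
    · rw [if_pos hψ, mul_left_comm, h2 ψ hψ, Finset.mul_sum]
      apply Finset.sum_congr rfl
      intro φ _
      by_cases hφ : φ ∈ B
      · rw [if_pos hφ, if_pos hφ, if_pos hψ]
        push_cast
        ring
      · rw [if_neg hφ, if_neg hφ, mul_zero]
    · rw [if_neg hψ, mul_zero]
      symm
      apply Finset.sum_eq_zero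
      intro φ _
      rw [if_neg hψ]
      simp
  rw [Finset.sum_congr rfl h3, Finset.sum_comm]
  apply Finset.sum_congr rfl
  intro φ _
  by_cases hφ : φ ∈ B
  · simp only [if_pos hφ]
    rw [← Finset.sum_mul]
    congr 1
    push_cast
    rfl
  · simp only [if_neg hφ]
    simp


end Cfsg.Agent.S4666
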