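import Cfsg.Statements.S4667
import Mathlib
import Cfsg.Agent.Lib.Helper7.WBO2
-- import your own Cfsg.Agent.* helpers here

set_option autoImplicit false
open Cfsg
open Cfsg.Agent.Lib.Helper7 Cfsg.Agent.Lib.Lead
open scoped ComplexConjugate

namespace Cfsg.Agent.S4667

/-- Fix a prime p and a maximal ideal M of the algebraic integers containing p, and a p-block B of the finite group G. The p-regular rank of B (the number of irreducible Brauer characters in B) times the order of G equals the sum over the p-regular elements x of G of Σ_{χ ∈ B} χ(x) χ(x⁻¹) (written with the restriction of χ to p-regular elements, which vanishes at p-singular x). -/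
theorem result {G : Type*} [Group G] [Fintype G] (p : ℕ) [Fact p.Prime] (M : Ideal Cfsg.AlgInt) (hM : Cfsg.IsPModular p M) (B : Set (Cfsg.IrrCharacter G)) (hB : Cfsg.IsPBlock M B) : (Nat.card G : ℂ) * (Cfsg.blockRank p B : ℂ) = ∑ x : G, ∑ᶠ χ ∈ B, Cfsg.pRegularPart p (χ : G → ℂ) x * (χ : G → ℂ) x⁻¹ := by
  classical
  haveI : Fintype (Cfsg.IrrCharacter G) := Fintype.ofFinite _
  have hG0 : (Nat.card G : ℂ) ≠ 0 := by exact_mod_cast Nat.card_pos.ne'
  obtain ⟨f, hf⟩ : ∃ f : Cfsg.IrrCharacter G → (G → ℂ),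
      f = fun χ : Cfsg.IrrCharacter G => Cfsg.pRegularPart p (χ : G → ℂ) := ⟨_, rfl⟩
  obtain ⟨W, hW⟩ : ∃ W : Submodule ℂ (G → ℂ), W = Submodule.span ℂ (f '' B) := ⟨_, rfl⟩
  have hf0 : ∀ (χ : Cfsg.IrrCharacter G) (x : G), p ∣ orderOf x → f χ x = 0 := by
    intro χ x hx
    rw [hf]
    show (if Cfsg.IsPRegular p x then (χ : G → ℂ) x else 0) = 0
    rw [if_neg (fun h => h hx)]
  have hf1 : ∀ (χ : Cfsg.IrrCharacter G) (x : G), ¬ p ∣ orderOf x → f χ x = (χ : G → ℂ) x := by
    intro χ x hx
    rw [hf]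
    show (if Cfsg.IsPRegular p x then (χ : G → ℂ) x else 0) = _
    rw [if_pos (show Cfsg.IsPRegular p x from hx)]
  obtain ⟨ℓ, hℓ⟩ : ∃ ℓ : Cfsg.IrrCharacter G → ((G → ℂ) →ₗ[ℂ] ℂ),
      ∀ χ h, ℓ χ h = Cfsg.classInner h (χ : G → ℂ) := by
    refine ⟨fun χ => (Nat.card G : ℂ)⁻¹ • ∑ g : G, conj ((χ : G → ℂ) g) • LinearMap.proj g, ?_⟩
    intro χ h
    unfold Cfsg.classInner
    rw [LinearMap.smul_apply, LinearMap.sum_apply, smul_eq_mul]
    congr 1
    apply Finset.sum_congr rfl
    intro g _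
    rw [LinearMap.smul_apply, LinearMap.proj_apply, smul_eq_mul, mul_comm]
  obtain ⟨T, hT⟩ : ∃ T : (G → ℂ) →ₗ[ℂ] (G → ℂ), ∀ h, T h =
      ∑ χ : Cfsg.IrrCharacter G, if χ ∈ B then ℓ χ h • f χ else 0 := by
    refine ⟨∑ χ : Cfsg.IrrCharacter G, if χ ∈ B then (ℓ χ).smulRight (f χ) else 0, ?_⟩
    intro h
    rw [LinearMap.sum_apply]
    apply Finset.sum_congr rfl
    intro χ _
    split_ifs
    · rfl
    · rfl
  have hproj : LinearMap.IsProj W T := by
    constructor
    · intro h
      rw [hT, hW]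
      apply Submodule.sum_mem
      intro χ _
      split_ifs with hχ
      · exact Submodule.smul_mem _ _ (Submodule.subset_span ⟨χ, hχ, rfl⟩)
      · exact Submodule.zero_mem _
    · intro h hh
      rw [hW] at hh
      induction hh using Submodule.span_induction with
      | mem v hv =>
        obtain ⟨ψ, hψ, rfl⟩ := hv
        rw [hT]
        funext y
        rw [Finset.sum_apply]
        by_cases hy : p ∣ orderOf y
        · rw [hf0 ψ y hy]
          apply Finset.sum_eq_zero
          intro χ _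
          split_ifs
          · rw [Pi.smul_apply, hf0 χ y hy, smul_zero]
          · rfl
        · have h1 := preg_expand_h7 p M hM B hB ψ hψ y
          have h2 : Cfsg.pRegularPart p (ψ : G → ℂ) = f ψ := by rw [hf]
          rw [h2] at h1
          rw [← h1]
          apply Finset.sum_congr rfl
          intro χ _
          split_ifs
          · rw [Pi.smul_apply, hf1 χ y hy, smul_eq_mul, hℓ]
          · rfl
      | zero => exact map_zero T
      | add u v _ _ hu hv => rw [map_add, hu, hv]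
      | smul c v _ hv => rw [map_smul, hv]
  have htr : LinearMap.trace ℂ (G → ℂ) T = (Module.finrank ℂ W : ℂ) := hproj.trace
  have htr2 : LinearMap.trace ℂ (G → ℂ) T = ∑ x : G, T (Pi.single x 1) x := by
    rw [LinearMap.trace_eq_matrix_trace ℂ (Pi.basisFun ℂ G) T, Matrix.trace]
    apply Finset.sum_congr rfl
    intro x _
    rw [Matrix.diag_apply, LinearMap.toMatrix_apply, Pi.basisFun_apply, Pi.basisFun_repr]
  have hrank : Cfsg.blockRank p B = Module.finrank ℂ W := by
    unfold Cfsg.blockRank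
    rw [hW, hf]
  have hinv : ∀ (φ : Cfsg.IrrCharacter G) (g : G), conj ((φ : G → ℂ) g) = (φ : G → ℂ) g⁻¹ := by
    intro φ g
    obtain ⟨n, ρ, hρ, hρφ⟩ := φ.2
    rw [← hρφ, char_inv ρ g]
  rw [hrank, ← htr, htr2, Finset.mul_sum]
  apply Finset.sum_congr rfl
  intro x _
  rw [hT, Finset.sum_apply, finsum_mem_def, finsum_eq_sum_of_fintype, Finset.mul_sum]
  apply Finset.sum_congr rfl
  intro χ _
  by_cases hχ : χ ∈ B
  · rw [Set.indicator_of_mem hχ, if_pos hχ, Pi.smul_apply, smul_eq_mul, hℓ]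
    unfold Cfsg.classInner
    rw [Finset.sum_eq_single x]
    · rw [Pi.single_eq_same, one_mul, hinv, ← mul_assoc, ← mul_assoc, mul_inv_cancel₀ hG0, one_mul,
        mul_comm]
      rw [hf]
    · intro g _ hg
      rw [Pi.single_eq_of_ne hg, zero_mul]
    · intro h; exact absurd (Finset.mem_univ _) h
  · rw [Set.indicator_of_notMem hχ, if_neg hχ]
    simp


end Cfsg.Agent.S4667
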