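import Cfsg.Statements.S4676
import Mathlib
import Cfsg.Agent.Lib.Helper7.Heights
-- import your own Cfsg.Agent.* helpers here

set_option autoImplicit false
open Cfsg
open Cfsg.Agent.Lib.Helper7 Cfsg.Agent.Lib.Lead
open scoped ComplexConjugate

namespace Cfsg.Agent.S4676

/-- Fix a prime p and a maximal ideal M of the algebraic integers containing p. Let B be a p-block of the finite group G with defect group P. For χ in B, let the height of χ be the exponent of p in the degree of χ minus the least such exponent over the members of B. Then the sum over χ in B of p raised to twice the height of χ is at most the integer part of (order of P)²/4, plus 1; in particular B has at most that many irreducible characters. -/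
theorem result {G : Type*} [Group G] [Fintype G] (p : ℕ) [Fact p.Prime] (M : Ideal Cfsg.AlgInt) (hM : Cfsg.IsPModular p M) (B : Set (Cfsg.IrrCharacter G)) (hB : Cfsg.IsPBlock M B) (P : Subgroup G) (hP : Cfsg.IsDefectGroup p M B P) : ∑ᶠ χ ∈ B, p ^ (2 * Cfsg.blockHeight p B (χ : G → ℂ)) ≤ Nat.card P ^ 2 / 4 + 1 := by
  classical
  haveI : Fintype (Cfsg.IrrCharacter G) := Fintype.ofFinite _
  haveI : Fintype (ConjClasses G) := Fintype.ofFinite _
  have hp : p.Prime := Fact.out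
  have hMprime : M.IsPrime := hM.2.1.isPrime
  have hMtop : M ≠ ⊤ := hMprime.ne_top
  have hpM : (p : Cfsg.AlgInt) ∈ M := hM.2.2
  obtain ⟨χ₀, hχ₀B, hχ₀inf, hmin⟩ := exists_min_h7 p M hMprime B hB
  obtain ⟨a, ha⟩ : ∃ a : ℕ, a = (Nat.card G).factorization p := ⟨_, rfl⟩
  obtain ⟨m, hm⟩ : ∃ m : ℕ, m = (Cfsg.charDegree (χ₀ : G → ℂ)).factorization p := ⟨_, rfl⟩
  have hma : m ≤ a := by rw [hm, ha]; exact val_le_h7 p χ₀
  rw [← hm] at hmin
  have hheight : ∀ ψ : Cfsg.IrrCharacter G, Cfsg.blockHeight p B (ψ : G → ℂ) =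
      (Cfsg.charDegree (ψ : G → ℂ)).factorization p - m := by
    intro ψ
    unfold Cfsg.blockHeight
    rw [← hχ₀inf, ← hm]
  obtain ⟨hχ₀1, hχ₀0⟩ := charDegree_irr χ₀.2
  have hp0 : (p : ℂ) ≠ 0 := by exact_mod_cast hp.ne_zero
  have hpz : (0 : ℤ) < (p : ℤ) := by exact_mod_cast hp.pos
  -- the defect group
  obtain ⟨g, hg, Q, hPQ⟩ := hP
  have hω := hg.2.2 χ₀ hχ₀B
  obtain ⟨idx, hidx⟩ : ∃ idx : ℕ, idx = (Subgroup.centralizer ({g} : Set G)).index := ⟨_, rfl⟩
  have hidx0 : idx ≠ 0 := by rw [hidx]; exact Subgroup.index_ne_zero_of_finite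
  have hvidx : idx.factorization p ≤ m := by
    by_contra hcon
    push_neg at hcon
    apply hω
    have h1 : p ^ (m + 1) ∣ idx := (hp.pow_dvd_iff_le_factorization hidx0).2 hcon
    obtain ⟨j, hj⟩ := h1
    obtain ⟨s, hs⟩ : ∃ s : ℕ, s = Cfsg.charDegree (χ₀ : G → ℂ) / p ^ m := ⟨_, rfl⟩
    have hDs : Cfsg.charDegree (χ₀ : G → ℂ) = p ^ m * s := by
      rw [hs, hm]; exact (Nat.ordProj_mul_ordCompl_eq_self _ p).symm
    have hscop : Nat.Coprime s p := by
      rw [hs, hm]; exact (Nat.coprime_ordCompl hp hχ₀0).symm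
    have hsM : (s : Cfsg.AlgInt) ∉ M := natCast_not_mem_lead hMtop p s hscop hpM
    have hs0 : (s : ℂ) ≠ 0 := by
      intro h0
      have : s = 0 := by exact_mod_cast h0
      rw [this, mul_zero] at hDs
      exact hχ₀0 hDs
    have e : Cfsg.centralChar (χ₀ : G → ℂ) g = ((s : Cfsg.AlgInt) : ℂ)⁻¹ *
        (((j : ℂ) * (χ₀ : G → ℂ) g) * (p : ℂ)) := by
      unfold Cfsg.centralChar
      rw [← hidx, hχ₀1, hDs, hj, algInt_natCast_h7]
      push_cast
      first | (field_simp; ring) | field_simp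
    rw [e]
    apply memLocalIdeal_mul_ring_lead hMprime (memLocalRing_inv_lead hsM)
    apply memLocalIdeal_mul_ring_lead hMprime _ (memLocalIdeal_p_h7 p M hM)
    have hjR := memLocalRing_int_h7 M hMtop (j : ℤ)
    rw [Int.cast_natCast] at hjR
    exact memLocalRing_mul_lead hMprime hjR (memLocalRing_isIntegral_lead hMtop
      (isIntegral_isCharacter (isCharacter_of_isIrrCharacter χ₀.2) g))
  have hcardP : p ^ (a - m) ≤ Nat.card P := by
    have h1 : Nat.card P = Nat.card Q := by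
      rw [hPQ]; exact Subgroup.card_map_of_injective (Subgroup.subtype_injective _)
    rw [h1, Sylow.card_eq_multiplicity]
    apply Nat.pow_le_pow_right hp.pos
    have h2 := Subgroup.index_mul_card (Subgroup.centralizer ({g} : Set G))
    rw [← hidx] at h2
    have hC0 : Nat.card (Subgroup.centralizer ({g} : Set G)) ≠ 0 := Nat.card_pos.ne'
    have h3 : a = idx.factorization p +
        (Nat.card (Subgroup.centralizer ({g} : Set G))).factorization p := by
      rw [ha, ← h2, Nat.factorization_mul hidx0 hC0]; rfl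
    omega
  -- the count
  have hcount := nn7_count p M hM B hB χ₀ hχ₀B
    (fun φ => ((p : ℤ) ^ (Cfsg.charDegree (φ : G → ℂ)).factorization p) ^ 2)
    (by
      intro φ hφ hne
      obtain ⟨h1, h2⟩ := nn7_of_min p M hM B hB χ₀ hχ₀B (by rw [← hm]; exact hmin) φ hφ
      have h3 : (p : ℤ) ^ (Cfsg.charDegree (φ : G → ℂ)).factorization p ∣ nn7 p χ₀ φ := by
        rw [padicValInt_dvd_iff]; right; rw [h2]
      exact sq_ge_of_dvd_h7 _ h1 _ h3)
  rw [← ha] at hcount
  have hsplit := sum_split_h7 B χ₀ hχ₀B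
    (fun φ => (p : ℤ) ^ (2 * Cfsg.blockHeight p B (φ : G → ℂ)))
  have hh0 : Cfsg.blockHeight p B (χ₀ : G → ℂ) = 0 := by rw [hheight, ← hm]; omega
  rw [hh0, mul_zero, pow_zero] at hsplit
  have hconv : ∑ φ : Cfsg.IrrCharacter G, (if φ ∈ B ∧ φ ≠ χ₀ then
        ((p : ℤ) ^ (Cfsg.charDegree (φ : G → ℂ)).factorization p) ^ 2 else 0) =
      ((p : ℤ) ^ m) ^ 2 * ∑ φ : Cfsg.IrrCharacter G, (if φ ∈ B ∧ φ ≠ χ₀ then
        (p : ℤ) ^ (2 * Cfsg.blockHeight p B (φ : G → ℂ)) else 0) := by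
    rw [Finset.mul_sum]
    apply Finset.sum_congr rfl
    intro φ _
    by_cases h : φ ∈ B ∧ φ ≠ χ₀
    · rw [if_pos h, if_pos h, hheight φ]
      have h1 := hmin φ h.1
      have e : (Cfsg.charDegree (φ : G → ℂ)).factorization p =
          m + ((Cfsg.charDegree (φ : G → ℂ)).factorization p - m) := by omega
      conv_lhs => rw [e]
      ring
    · rw [if_neg h, if_neg h, mul_zero]
  obtain ⟨T, hT⟩ : ∃ T : ℤ, T = ∑ φ : Cfsg.IrrCharacter G, (if φ ∈ B ∧ φ ≠ χ₀ then
        (p : ℤ) ^ (2 * Cfsg.blockHeight p B (φ : G → ℂ)) else 0) := ⟨_, rfl⟩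
  rw [hconv, ← hT] at hcount
  rw [← hT] at hsplit
  have hE : ((p : ℤ) ^ a) ^ 2 = ((p : ℤ) ^ m) ^ 2 * ((p : ℤ) ^ (a - m)) ^ 2 := by
    have e : a = m + (a - m) := by omega
    conv_lhs => rw [e]
    ring
  have h4T : 4 * T ≤ ((p : ℤ) ^ (a - m)) ^ 2 := by
    have hpos : 0 < ((p : ℤ) ^ m) ^ 2 := by positivity
    rw [hE] at hcount
    by_contra hc
    push_neg at hc
    nlinarith [mul_pos hpos (sub_pos.2 hc)]
  have hPz : ((p : ℤ) ^ (a - m)) ^ 2 ≤ ((Nat.card P : ℤ)) ^ 2 := by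
    have h1 : ((p ^ (a - m) : ℕ) : ℤ) ≤ (Nat.card P : ℤ) := by exact_mod_cast hcardP
    rw [Nat.cast_pow] at h1
    exact pow_le_pow_left₀ (by positivity) h1 2
  have hfin : ∑ᶠ χ ∈ B, p ^ (2 * Cfsg.blockHeight p B (χ : G → ℂ)) =
      ∑ φ : Cfsg.IrrCharacter G, if φ ∈ B then
        p ^ (2 * Cfsg.blockHeight p B (φ : G → ℂ)) else 0 := by
    rw [finsum_mem_eq_finite_toFinset_sum _ (Set.toFinite B)]
    have hset : (Set.toFinite B).toFinset = Finset.univ.filter (· ∈ B) := by ext x; simp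
    rw [hset, Finset.sum_filter]
  rw [hfin]
  obtain ⟨s, hs⟩ : ∃ s : ℕ, s = ∑ φ : Cfsg.IrrCharacter G, if φ ∈ B then
        p ^ (2 * Cfsg.blockHeight p B (φ : G → ℂ)) else 0 := ⟨_, rfl⟩
  have hsz : (s : ℤ) = 1 + T := by
    rw [← hsplit, hs]; push_cast; try rfl
  rw [← hs]
  obtain ⟨x2, hx2⟩ : ∃ x2 : ℕ, x2 = Nat.card P ^ 2 := ⟨_, rfl⟩
  rw [← hx2]
  have hz : 4 * ((s : ℤ) - 1) ≤ (x2 : ℤ) := by
    rw [hsz, hx2]; push_cast; linarith
  omega


end Cfsg.Agent.S4676
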