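import Cfsg.Statements.S4710
import Mathlib
import Cfsg.Agent.Lib.Helper7.Heights
-- import your own Cfsg.Agent.* helpers here

set_option autoImplicit false
open Cfsg
open Cfsg.Agent.Lib.Helper7 Cfsg.Agent.Lib.Lead
open scoped ComplexConjugate

namespace Cfsg.Agent.S4710

theorem sum_ite_card_aux {ι : Type*} [Fintype ι] (P : ι → Prop) [DecidablePred P] (W : ℤ) :
    ∑ φ : ι, (if P φ then W else 0) = ((Finset.univ.filter P).card : ℤ) * W := by
  rw [← Finset.sum_filter, Finset.sum_const, nsmul_eq_mul]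

/-- Let p be a prime, M a maximal ideal of the algebraic integers containing p, and B a p-block of defect d of the finite group G containing k irreducible characters. If B contains a character of positive height then 2k ≤ p^(2d − 2); and every character in B has height 0 when d ≤ 1 and height at most d − 2 when d ≥ 2. -/
theorem result {G : Type*} [Group G] [Finite G] (p : ℕ) [Fact p.Prime] (M : Ideal Cfsg.AlgInt) (hM : Cfsg.IsPModular p M) (B : Set (Cfsg.IrrCharacter G)) (hB : Cfsg.IsPBlock M B) (d : ℕ) (hd : Cfsg.blockDefect p B = d) : ((∃ χ ∈ B, 0 < Cfsg.blockHeight p B (χ : G → ℂ)) → 2 * Nat.card B ≤ p ^ (2 * d - 2)) ∧ ∀ χ ∈ B, (d ≤ 1 → Cfsg.blockHeight p B (χ : G → ℂ) = 0) ∧ (2 ≤ d → Cfsg.blockHeight p B (χ : G → ℂ) ≤ d - 2) := by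
  classical
  haveI : Fintype G := Fintype.ofFinite _
  haveI : Fintype (Cfsg.IrrCharacter G) := Fintype.ofFinite _
  haveI : Fintype (ConjClasses G) := Fintype.ofFinite _
  have hp : p.Prime := Fact.out
  have hMprime : M.IsPrime := hM.2.1.isPrime
  obtain ⟨χ₀, hχ₀B, hχ₀inf, hmin⟩ := exists_min_h7 p M hMprime B hB
  obtain ⟨a, ha⟩ : ∃ a : ℕ, a = (Nat.card G).factorization p := ⟨_, rfl⟩
  obtain ⟨m, hm⟩ : ∃ m : ℕ, m = (Cfsg.charDegree (χ₀ : G → ℂ)).factorization p := ⟨_, rfl⟩
  have hma : m ≤ a := by rw [hm, ha]; exact val_le_h7 p χ₀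
  have hdm : d + m = a := by
    unfold Cfsg.blockDefect at hd
    rw [← hχ₀inf, ← hm, ← ha] at hd; omega
  rw [← hm] at hmin
  have hheight : ∀ ψ : Cfsg.IrrCharacter G, Cfsg.blockHeight p B (ψ : G → ℂ) =
      (Cfsg.charDegree (ψ : G → ℂ)).factorization p - m := by
    intro ψ
    unfold Cfsg.blockHeight
    rw [← hχ₀inf, ← hm]
  have hkey : ∀ ψ ∈ B, (Cfsg.charDegree (ψ : G → ℂ)).factorization p ≠ m →
      (Cfsg.charDegree (ψ : G → ℂ)).factorization p + 2 ≤ a := by
    intro ψ hψ hne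
    obtain ⟨hψ1, hψ0⟩ := charDegree_irr ψ.2
    have h1 := nn7_of_not_min p M hM B hB ψ χ₀ hψ hχ₀B (by rw [← hm]; exact hmin)
      (by rw [← hm]; exact hne) ψ hψ
    obtain ⟨h0, hle, heq⟩ := nn7_self p ψ
    rw [← ha] at hle heq
    obtain ⟨b, hb⟩ : ∃ b : ℕ, b = (Cfsg.charDegree (ψ : G → ℂ)).factorization p := ⟨_, rfl⟩
    rw [← hb] at h1 ⊢
    have h2 : (p : ℤ) ^ (b + 1) ≤ (p : ℤ) ^ a := le_trans (Int.le_of_dvd h0 h1) hle
    have h3 : b + 1 ≤ a := by
      have h2' : p ^ (b + 1) ≤ p ^ a := by exact_mod_cast h2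
      exact (Nat.pow_le_pow_iff_right hp.one_lt).1 h2'
    by_contra hcon
    have h4 : b + 1 = a := by omega
    rw [h4] at h1
    have h5 : nn7 p ψ ψ = (p : ℤ) ^ a := le_antisymm hle (Int.le_of_dvd h0 h1)
    have h6 := heq h5
    have h7 : a ≤ b := by
      rw [hb]; exact (hp.pow_dvd_iff_le_factorization hψ0).1 h6
    omega
  constructor
  · rintro ⟨ψ, hψ, hpos⟩
    rw [hheight ψ] at hpos
    obtain ⟨b, hb⟩ : ∃ b : ℕ, b = (Cfsg.charDegree (ψ : G → ℂ)).factorization p := ⟨_, rfl⟩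
    rw [← hb] at hpos
    have hbm : b ≠ m := by omega
    have hb2 : b + 2 ≤ a := by
      have := hkey ψ hψ (by rw [← hb]; exact hbm)
      rw [← hb] at this; exact this
    have hp0 : (0 : ℤ) < (p : ℤ) := by exact_mod_cast hp.pos
    -- count A: base ψ
    have hcountA := nn7_count p M hM B hB ψ hψ
      (fun φ => if (Cfsg.charDegree (φ : G → ℂ)).factorization p = m then ((p : ℤ) ^ b) ^ 2 else 0)
      (by
        intro φ hφ hne
        by_cases hv : (Cfsg.charDegree (φ : G → ℂ)).factorization p = m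
        · rw [if_pos hv]
          have hminφ : ∀ ξ ∈ B, (Cfsg.charDegree (φ : G → ℂ)).factorization p ≤
              (Cfsg.charDegree (ξ : G → ℂ)).factorization p := by
            intro ξ hξ; rw [hv]; exact hmin ξ hξ
          have h1 := (nn7_of_min p M hM B hB φ hφ hminφ ψ hψ).1
          rw [nn7_symm p φ ψ] at h1
          have h2 := nn7_dvd p ψ φ
          rw [← hb] at h2
          exact sq_ge_of_dvd_h7 _ h1 _ h2
        · rw [if_neg hv]; exact sq_nonneg _)
    have hsumA : ∑ φ : Cfsg.IrrCharacter G, (if φ ∈ B ∧ φ ≠ ψ then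
        (if (Cfsg.charDegree (φ : G → ℂ)).factorization p = m then ((p : ℤ) ^ b) ^ 2 else 0)
        else 0) = ((Finset.univ.filter (fun φ : Cfsg.IrrCharacter G => φ ∈ B ∧
          (Cfsg.charDegree (φ : G → ℂ)).factorization p = m)).card : ℤ) * ((p : ℤ) ^ b) ^ 2 := by
      rw [← sum_ite_card_aux]
      apply Finset.sum_congr rfl
      intro φ _
      by_cases h1 : φ ∈ B ∧ (Cfsg.charDegree (φ : G → ℂ)).factorization p = m
      · have h2 : φ ≠ ψ := by
          rintro rfl
          exact hbm (hb.trans h1.2)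
        rw [if_pos ⟨h1.1, h2⟩, if_pos h1.2, if_pos h1]
      · rw [if_neg h1]
        by_cases h3 : φ ∈ B ∧ φ ≠ ψ
        · rw [if_pos h3, if_neg (fun h => h1 ⟨h3.1, h⟩)]
        · rw [if_neg h3]
    rw [hsumA, ← ha] at hcountA
    -- count B: base χ₀
    have hcountB := nn7_count p M hM B hB χ₀ hχ₀B
      (fun φ => if (Cfsg.charDegree (φ : G → ℂ)).factorization p = m then 0
        else ((p : ℤ) ^ (m + 1)) ^ 2)
      (by
        intro φ hφ hne
        by_cases hv : (Cfsg.charDegree (φ : G → ℂ)).factorization p = m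
        · rw [if_pos hv]; exact sq_nonneg _
        · rw [if_neg hv]
          obtain ⟨h1, h2⟩ := nn7_of_min p M hM B hB χ₀ hχ₀B (by rw [← hm]; exact hmin) φ hφ
          have h3 : (p : ℤ) ^ (m + 1) ∣ nn7 p χ₀ φ := by
            rw [padicValInt_dvd_iff]
            right
            rw [h2]
            have := hmin φ hφ
            omega
          exact sq_ge_of_dvd_h7 _ h1 _ h3)
    have hsumB : ∑ φ : Cfsg.IrrCharacter G, (if φ ∈ B ∧ φ ≠ χ₀ then
        (if (Cfsg.charDegree (φ : G → ℂ)).factorization p = m then 0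
          else ((p : ℤ) ^ (m + 1)) ^ 2)
        else 0) = ((Finset.univ.filter (fun φ : Cfsg.IrrCharacter G => φ ∈ B ∧
          ¬ (Cfsg.charDegree (φ : G → ℂ)).factorization p = m)).card : ℤ) *
          ((p : ℤ) ^ (m + 1)) ^ 2 := by
      rw [← sum_ite_card_aux]
      apply Finset.sum_congr rfl
      intro φ _
      by_cases h1 : φ ∈ B ∧ ¬ (Cfsg.charDegree (φ : G → ℂ)).factorization p = m
      · have h2 : φ ≠ χ₀ := by
          rintro rfl
          exact h1.2 hm.symm
        rw [if_pos ⟨h1.1, h2⟩, if_neg h1.2, if_pos h1]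
      · rw [if_neg h1]
        by_cases h3 : φ ∈ B ∧ φ ≠ χ₀
        · have h4 : (Cfsg.charDegree (φ : G → ℂ)).factorization p = m := by
            by_contra h; exact h1 ⟨h3.1, h⟩
          rw [if_pos h3, if_pos h4]
        · rw [if_neg h3]
    rw [hsumB, ← ha] at hcountB
    have hcard : Nat.card B = (Finset.univ.filter (fun φ : Cfsg.IrrCharacter G => φ ∈ B ∧
          (Cfsg.charDegree (φ : G → ℂ)).factorization p = m)).card +
        (Finset.univ.filter (fun φ : Cfsg.IrrCharacter G => φ ∈ B ∧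
          ¬ (Cfsg.charDegree (φ : G → ℂ)).factorization p = m)).card := by
      rw [card_block_h7 B, ← Finset.card_filter_add_card_filter_not
        (fun φ : Cfsg.IrrCharacter G => (Cfsg.charDegree (φ : G → ℂ)).factorization p = m),
        Finset.filter_filter, Finset.filter_filter]
    obtain ⟨K₀, hK₀⟩ : ∃ K₀ : ℕ, K₀ = (Finset.univ.filter (fun φ : Cfsg.IrrCharacter G => φ ∈ B ∧
          (Cfsg.charDegree (φ : G → ℂ)).factorization p = m)).card := ⟨_, rfl⟩
    obtain ⟨K₁, hK₁⟩ : ∃ K₁ : ℕ, K₁ = (Finset.univ.filter (fun φ : Cfsg.IrrCharacter G => φ ∈ B ∧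
          ¬ (Cfsg.charDegree (φ : G → ℂ)).factorization p = m)).card := ⟨_, rfl⟩
    rw [← hK₀, ← hK₁] at hcard
    rw [← hK₀] at hcountA
    rw [← hK₁] at hcountB
    have hE1 : ((p : ℤ) ^ a) ^ 2 = ((p : ℤ) ^ (m + 1)) ^ 2 * (p : ℤ) ^ (2 * d - 2) := by
      have e : a = (m + 1) + (d - 1) := by omega
      have e2 : 2 * d - 2 = 2 * (d - 1) := by omega
      rw [e, e2]; ring
    have hE2 : ((p : ℤ) ^ a) ^ 2 = ((p : ℤ) ^ b) ^ 2 * (p : ℤ) ^ (2 * (a - b)) := by
      have e : a = b + (a - b) := by omega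
      conv_lhs => rw [e]
      ring
    have hE3 : (p : ℤ) ^ (2 * (a - b)) ≤ (p : ℤ) ^ (2 * d - 2) :=
      pow_le_pow_right₀ (by exact_mod_cast hp.one_lt.le) (by omega)
    have h4K₁ : 4 * (K₁ : ℤ) ≤ (p : ℤ) ^ (2 * d - 2) := by
      have hpos : 0 < ((p : ℤ) ^ (m + 1)) ^ 2 := by positivity
      rw [hE1] at hcountB
      by_contra hc
      push_neg at hc
      nlinarith [mul_pos hpos (sub_pos.2 hc)]
    have h4K₀ : 4 * (K₀ : ℤ) ≤ (p : ℤ) ^ (2 * d - 2) := by
      have hpos : 0 < ((p : ℤ) ^ b) ^ 2 := by positivity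
      rw [hE2] at hcountA
      refine le_trans ?_ hE3
      by_contra hc
      push_neg at hc
      nlinarith [mul_pos hpos (sub_pos.2 hc)]
    have hfin : 2 * (Nat.card B : ℤ) ≤ (p : ℤ) ^ (2 * d - 2) := by
      rw [hcard]; push_cast; linarith
    exact_mod_cast hfin
  · intro χ hχ
    rw [hheight χ]
    by_cases hv : (Cfsg.charDegree (χ : G → ℂ)).factorization p = m
    · rw [hv]
      constructor
      · intro _; omega
      · intro _; omega
    · have h1 := hkey χ hχ hv
      have h2 := hmin χ hχ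
      constructor
      · intro _; omega
      · intro _; omega


end Cfsg.Agent.S4710
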