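import Cfsg.Statements.S4725
import Mathlib
import Cfsg.Agent.S4430
-- import your own Cfsg.Agent.* helpers here

set_option autoImplicit false
open Cfsg
open Cfsg.Agent.Lib.Helper7 Cfsg.Agent.Lib.Lead
open scoped ComplexConjugate

namespace Cfsg.Agent.S4725

/-- Let p be a prime, M a maximal ideal of the algebraic integers containing p, H a subgroup of the finite group G, and b a p-block of H inducing the p-block B of G, with b and B of the same defect. Then for every height-zero ζ ∈ b there is a height-zero χ ∈ B whose multiplicity in the character induced from ζ is not divisible by p. -/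
theorem result {G : Type*} [Group G] [Fintype G] (p : ℕ) [Fact p.Prime] (M : Ideal Cfsg.AlgInt) (hM : Cfsg.IsPModular p M) (H : Subgroup G) (b : Set (Cfsg.IrrCharacter ↥H)) (B : Set (Cfsg.IrrCharacter G)) (hind : Cfsg.IsInducedBlock M H b B) (hdef : Cfsg.blockDefect p b = Cfsg.blockDefect p B) (ζ : Cfsg.IrrCharacter ↥H) (hζ : ζ ∈ b) (hζ0 : Cfsg.blockHeight p b (ζ : ↥H → ℂ) = 0) : ∃ χ ∈ B, Cfsg.blockHeight p B (χ : G → ℂ) = 0 ∧ ∃ a : ℕ, Cfsg.classInner (Cfsg.indFun H (ζ : ↥H → ℂ)) (χ : G → ℂ) = (a : ℂ) ∧ ¬ p ∣ a := by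
  classical
  haveI : Fintype H := Fintype.ofFinite _
  haveI : Fintype (Cfsg.IrrCharacter G) := Fintype.ofFinite _
  have hp : p.Prime := Fact.out
  have hMprime : M.IsPrime := hM.2.1.isPrime
  have hb : Cfsg.IsPBlock M b := hind.1
  have hB : Cfsg.IsPBlock M B := hind.2.1
  obtain ⟨hζ1, hζ0'⟩ := charDegree_irr ζ.2
  obtain ⟨n, hexp, hn⟩ := isCharacter_expansion
    (isCharacter_indFun H (ζ : H → ℂ) (isCharacter_of_isIrrCharacter ζ.2))
  obtain ⟨N, hN, hN0, hNv⟩ := (Cfsg.Agent.S4430.result p M hM H b B hind ζ hζ).1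
  have hnat : Cfsg.blockPart B (Cfsg.indFun H (ζ : H → ℂ)) 1 =
      ((∑ χ : Cfsg.IrrCharacter G,
        if χ ∈ B then n χ * Cfsg.charDegree (χ : G → ℂ) else 0 : ℕ) : ℂ) := by
    rw [Cfsg.Agent.S4430.blockPart_eq_aux B (Cfsg.indFun H (ζ : H → ℂ)) 1, Nat.cast_sum]
    apply Finset.sum_congr rfl
    intro χ _
    by_cases h : χ ∈ B
    · rw [if_pos h, if_pos h, hn χ, (charDegree_irr χ.2).1, Nat.cast_mul]
    · rw [if_neg h, if_neg h, Nat.cast_zero]
  have hNeq : N = ∑ χ : Cfsg.IrrCharacter G,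
      if χ ∈ B then n χ * Cfsg.charDegree (χ : G → ℂ) else 0 := by
    exact_mod_cast (hN.symm.trans hnat)
  have hD : Cfsg.charDegree (Cfsg.indFun H (ζ : H → ℂ)) =
      H.index * Cfsg.charDegree (ζ : H → ℂ) := by
    have h1 : Cfsg.indFun H (ζ : H → ℂ) 1 =
        ((H.index * Cfsg.charDegree (ζ : H → ℂ) : ℕ) : ℂ) := by
      rw [indFun_one, hζ1, Nat.cast_mul]
    show ⌊(Cfsg.indFun H (ζ : H → ℂ) 1).re⌋₊ = _
    rw [h1, Complex.natCast_re, Nat.floor_natCast]
  obtain ⟨χ₁, hχ₁B, hχ₁inf, hminB⟩ := exists_min_h7 p M hMprime B hB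
  obtain ⟨ζ₁, hζ₁b, hζ₁inf, hminb⟩ := exists_min_h7 p M hMprime b hb
  unfold Cfsg.blockHeight at hζ0
  unfold Cfsg.blockDefect at hdef
  rw [← hζ₁inf] at hζ0
  rw [← hζ₁inf, ← hχ₁inf] at hdef
  have h2 := hminb ζ hζ
  have h3 := val_le_h7 p ζ₁
  have h4 := val_le_h7 p χ₁
  have hI0 : H.index ≠ 0 := Subgroup.index_ne_zero_of_finite
  have h5 : (Nat.card G).factorization p =
      (H.index).factorization p + (Nat.card H).factorization p := by
    rw [← Subgroup.index_mul_card H, Nat.factorization_mul hI0 Nat.card_pos.ne']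
    rfl
  have h6 : (H.index * Cfsg.charDegree (ζ : H → ℂ)).factorization p =
      H.index.factorization p + (Cfsg.charDegree (ζ : H → ℂ)).factorization p := by
    rw [Nat.factorization_mul hI0 hζ0']
    rfl
  have hNv' : N.factorization p = (Cfsg.charDegree (χ₁ : G → ℂ)).factorization p := by
    rw [hNv, hD, h6]
    omega
  by_contra hcon
  push_neg at hcon
  have hdiv : p ^ ((Cfsg.charDegree (χ₁ : G → ℂ)).factorization p + 1) ∣ N := by
    rw [hNeq]
    apply Finset.dvd_sum
    intro χ _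
    by_cases h : χ ∈ B
    · rw [if_pos h]
      have hχv := hminB χ h
      by_cases hh : Cfsg.blockHeight p B (χ : G → ℂ) = 0
      · have hpa := hcon χ h hh (n χ) (hn χ)
        have h7 : p ^ ((Cfsg.charDegree (χ₁ : G → ℂ)).factorization p) ∣
            Cfsg.charDegree (χ : G → ℂ) :=
          (hp.pow_dvd_iff_le_factorization (charDegree_irr χ.2).2).2 hχv
        rw [pow_succ']
        exact mul_dvd_mul hpa h7
      · unfold Cfsg.blockHeight at hh
        rw [← hχ₁inf] at hh
        have h7 : p ^ ((Cfsg.charDegree (χ₁ : G → ℂ)).factorization p + 1) ∣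
            Cfsg.charDegree (χ : G → ℂ) :=
          (hp.pow_dvd_iff_le_factorization (charDegree_irr χ.2).2).2 (by omega)
        exact Dvd.dvd.mul_left h7 _
    · rw [if_neg h]; exact dvd_zero _
  have h8 := (hp.pow_dvd_iff_le_factorization hN0).1 hdiv
  omega


end Cfsg.Agent.S4725
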