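import Cfsg.Statements.S4729
import Mathlib
import Cfsg.Agent.Lib.Lead.BlockDefect
import Cfsg.Agent.Lib.Lead.BlockAux
import Cfsg.Agent.Lib.Lead.BrauerR2
import Cfsg.Agent.Lib.Lead.CharBasic
import Cfsg.Agent.Lib.Lead.CharInt
import Cfsg.Agent.Lib.Lead.CharZeros
-- import your own Cfsg.Agent.* helpers here

set_option autoImplicit false
open Cfsg
open Cfsg.Agent.Lib.Lead

namespace Cfsg.Agent.S4729

/-- Let p be a prime, M a maximal ideal of the algebraic integers containing p, G a finite perfect group and P a Sylow p-subgroup. If the principal p-block of G contains a faithful irreducible character of degree less than 2p, then the centralizer of P is a p-group. -/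
theorem result {G : Type*} [Group G] [Finite G] (p : ℕ) [Fact p.Prime] (M : Ideal Cfsg.AlgInt) (hM : Cfsg.IsPModular p M) (hperf : commutator G = ⊤) (P : Sylow p G) (χ : Cfsg.IrrCharacter G) (hχ : χ ∈ Cfsg.principalBlock M G) (hfaith : ∀ g : G, (χ : G → ℂ) g = (χ : G → ℂ) 1 → g = 1) (hdeg : Cfsg.charDegree (χ : G → ℂ) < 2 * p) : IsPGroup p ↥(Subgroup.centralizer ((P : Subgroup G) : Set G)) := by
  classical
  haveI : Fintype G := Fintype.ofFinite G
  obtain ⟨hp, hMmax, hpM⟩ := hM
  have hMprime : M.IsPrime := hMmax.isPrime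
  have hMtop : M ≠ ⊤ := hMprime.ne_top
  obtain ⟨n, ρ, hρ, hρχ⟩ := χ.2
  haveI := hρ
  have hfr : Module.finrank ℂ (Fin n → ℂ) = n := Module.finrank_fin_fun ℂ
  have hχ1 : (χ : G → ℂ) 1 = (n : ℂ) := by
    rw [← hρχ, Representation.char_one, hfr]
  have hn2 : n < 2 * p := by
    have h1 := (charDegree_irr χ.2).1
    rw [hχ1] at h1
    have h2 : n = Cfsg.charDegree (χ : G → ℂ) := by exact_mod_cast h1
    rw [h2]; exact hdeg
  have hn0 : n ≠ 0 := by
    have h1 := (charDegree_irr χ.2)
    rw [hχ1] at h1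
    have h2 : n = Cfsg.charDegree (χ : G → ℂ) := by exact_mod_cast h1.1
    rw [h2]; exact h1.2
  have hnc : (n : ℂ) ≠ 0 := by exact_mod_cast hn0
  have hSB : Cfsg.SameBlock M (fun _ : G => (1 : ℂ)) (χ : G → ℂ) := hχ
  -- determinant is trivial
  have hdet : ∀ g : G, LinearMap.det (ρ g) = 1 := by
    intro g
    obtain ⟨f, hf⟩ : ∃ f : G →* ℂˣ, ∀ g : G, (f g : ℂ) = LinearMap.det (ρ g) :=
      ⟨(((LinearMap.det (M := (Fin n → ℂ)) (A := ℂ)).comp ρ)).toHomUnits, fun g => rfl⟩
    have h1 : g ∈ f.ker := by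
      apply Abelianization.commutator_subset_ker f
      rw [hperf]; exact Subgroup.mem_top g
    rw [← hf g, MonoidHom.mem_ker.1 h1]
    rfl
  -- key: p'-elements of C_G(P) are trivial
  have key : ∀ x : G, x ∈ Subgroup.centralizer ((P : Subgroup G) : Set G) → ¬ p ∣ orderOf x → x = 1 := by
    intro x hx hxp
    obtain ⟨b, μ, hb, hμ⟩ := exists_eigenbasis ρ x
    obtain ⟨m, hm⟩ : ∃ m : ℕ, m = orderOf x := ⟨_, rfl⟩
    rw [← hm] at hμ hxp
    have hm0 : m ≠ 0 := by rw [hm]; exact (orderOf_pos x).ne'
    have hcardI : (Finset.univ : Finset (Fin (Module.finrank ℂ (Fin n → ℂ)))).card = n := by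
      rw [Finset.card_univ, Fintype.card_fin, hfr]
    have hpowb : ∀ (j : ℕ) (i : Fin (Module.finrank ℂ (Fin n → ℂ))), ρ (x ^ j) (b i) = (μ i ^ j) • b i := by
      intro j i
      induction j with
      | zero => simp
      | succ j ih =>
        rw [pow_succ, map_mul, Module.End.mul_apply, hb i, map_smul, ih, smul_smul, pow_succ]
        rw [mul_comm]
    have hpow : ∀ j : ℕ, (χ : G → ℂ) (x ^ j) = ∑ i, μ i ^ j := by
      intro j
      rw [← hρχ]
      exact trace_eq_sum_of_eigenbasis b (ρ (x ^ j)) (fun i => μ i ^ j) (hpowb j)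
    have hloc : ∀ j : ℕ, Cfsg.MemLocalIdeal M ((n : ℂ) - (χ : G → ℂ) (x ^ j)) := by
      intro j
      have hxj : x ^ j ∈ Subgroup.centralizer ((P : Subgroup G) : Set G) := Subgroup.pow_mem _ hx j
      have hle : (P : Subgroup G) ≤ Subgroup.centralizer ({x ^ j} : Set G) := by
        intro y hy
        rw [Subgroup.mem_centralizer_singleton_iff]
        have := Subgroup.mem_centralizer_iff.1 hxj y hy
        exact this
      have hdv : (Subgroup.centralizer ({x ^ j} : Set G)).index ∣ (P : Subgroup G).index :=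
        Subgroup.index_dvd_of_le hle
      have hcop : Nat.Coprime (Subgroup.centralizer ({x ^ j} : Set G)).index p := by
        rw [Nat.coprime_comm, Nat.Prime.coprime_iff_not_dvd hp]
        intro h
        exact P.not_dvd_index (h.trans hdv)
      have hiM : (((Subgroup.centralizer ({x ^ j} : Set G)).index : ℕ) : Cfsg.AlgInt) ∉ M :=
        natCast_not_mem_lead hMtop p _ hcop hpM
      have hi0 : (((Subgroup.centralizer ({x ^ j} : Set G)).index : ℕ) : ℂ) ≠ 0 := by
        have := coe_ne_zero_of_not_mem_lead hiM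
        simpa using this
      have h1 := hSB (x ^ j)
      unfold Cfsg.centralChar at h1
      rw [hχ1] at h1
      have h3 := memLocalIdeal_div_mul_lead hMprime (n : Cfsg.AlgInt) _ hiM h1
      convert h3 using 1
      push_cast
      field_simp
    -- multiplicities of nontrivial eigenvalues are divisible by p
    have hdiv : ∀ ζ : ℂ, ζ ^ m = 1 → ζ ≠ 1 →
        p ∣ (Finset.univ.filter (fun i => μ i = ζ)).card := by
      intro ζ hζ hζ1
      have hζ0 : ζ ≠ 0 := by
        intro h; rw [h, zero_pow hm0] at hζ; exact zero_ne_one hζ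
      have hξm : (ζ⁻¹) ^ m = 1 := by rw [inv_pow, hζ, inv_one]
      have hξ1 : ζ⁻¹ ≠ 1 := by
        intro h; apply hζ1; rw [← inv_inv ζ, h, inv_one]
      have hξint : IsIntegral ℤ (ζ⁻¹) := by
        apply IsIntegral.of_pow (Nat.pos_of_ne_zero hm0)
        rw [hξm]; exact isIntegral_one
      have hgeom : ∀ ω : ℂ, ω ^ m = 1 → ω ≠ 1 → ∑ j ∈ Finset.range m, ω ^ j = 0 := by
        intro ω hω hω1
        have h1 := geom_sum_mul ω m
        rw [hω, sub_self] at h1
        rcases mul_eq_zero.1 h1 with h | h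
        · exact h
        · exact absurd (sub_eq_zero.1 h) hω1
      have hinner : ∀ i, ∑ j ∈ Finset.range m, (ζ⁻¹) ^ j * μ i ^ j = if μ i = ζ then (m : ℂ) else 0 := by
        intro i
        by_cases h : μ i = ζ
        · rw [if_pos h, h]
          have : ∀ j ∈ Finset.range m, (ζ⁻¹) ^ j * ζ ^ j = 1 := by
            intro j _
            rw [← mul_pow, inv_mul_cancel₀ hζ0, one_pow]
          rw [Finset.sum_congr rfl this]
          simp
        · rw [if_neg h]
          have h2 : ∀ j ∈ Finset.range m, (ζ⁻¹) ^ j * μ i ^ j = (ζ⁻¹ * μ i) ^ j := by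
            intro j _; rw [mul_pow]
          rw [Finset.sum_congr rfl h2]
          apply hgeom
          · rw [mul_pow, hξm, hμ i, one_mul]
          · intro h3
            apply h
            have h4 : ζ * (ζ⁻¹ * μ i) = ζ * 1 := by rw [h3]
            rw [← mul_assoc, mul_inv_cancel₀ hζ0, one_mul, mul_one] at h4
            exact h4
      have hsum1 : ∑ j ∈ Finset.range m, (ζ⁻¹) ^ j * (χ : G → ℂ) (x ^ j) =
          (m : ℂ) * ((Finset.univ.filter (fun i => μ i = ζ)).card : ℂ) := by
        have h1 : ∀ j ∈ Finset.range m, (ζ⁻¹) ^ j * (χ : G → ℂ) (x ^ j) = ∑ i, (ζ⁻¹) ^ j * μ i ^ j := by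
          intro j _; rw [hpow j, Finset.mul_sum]
        rw [Finset.sum_congr rfl h1, Finset.sum_comm, Finset.sum_congr rfl (fun i _ => hinner i),
          ← Finset.sum_filter, Finset.sum_const, nsmul_eq_mul, mul_comm]
      have hsum2 : ∑ j ∈ Finset.range m, (ζ⁻¹) ^ j * (n : ℂ) = 0 := by
        rw [← Finset.sum_mul, hgeom _ hξm hξ1, zero_mul]
      have hmem : Cfsg.MemLocalIdeal M (∑ j ∈ Finset.range m, (ζ⁻¹) ^ j * ((n : ℂ) - (χ : G → ℂ) (x ^ j))) := by
        apply memLocalIdeal_sum_lead hMprime
        intro j _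
        exact memLocalIdeal_smul_lead (⟨(ζ⁻¹) ^ j, hξint.pow j⟩ : Cfsg.AlgInt) (hloc j)
      have heq : ∑ j ∈ Finset.range m, (ζ⁻¹) ^ j * ((n : ℂ) - (χ : G → ℂ) (x ^ j)) =
          - ((((m * (Finset.univ.filter (fun i => μ i = ζ)).card : ℕ) : Cfsg.AlgInt)) : ℂ) := by
        have h1 : ∀ j ∈ Finset.range m, (ζ⁻¹) ^ j * ((n : ℂ) - (χ : G → ℂ) (x ^ j)) =
            (ζ⁻¹) ^ j * (n : ℂ) - (ζ⁻¹) ^ j * (χ : G → ℂ) (x ^ j) := by
          intro j _; ring
        rw [Finset.sum_congr rfl h1, Finset.sum_sub_distrib, hsum1, hsum2]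
        push_cast
        ring
      rw [heq] at hmem
      have hmem2 := memLocalIdeal_neg_lead hmem
      rw [neg_neg] at hmem2
      have hmem3 := mem_of_memLocalIdeal_lead hMprime _ hmem2
      by_contra hnd
      have hcop : Nat.Coprime (m * (Finset.univ.filter (fun i => μ i = ζ)).card) p := by
        rw [Nat.coprime_comm, Nat.Prime.coprime_iff_not_dvd hp]
        intro h
        rcases (Nat.Prime.dvd_mul hp).1 h with h' | h'
        · exact hxp h'
        · exact hnd h'
      exact natCast_not_mem_lead hMtop p _ hcop hpM hmem3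
    -- conclude
    by_cases hall : ∀ i, μ i = 1
    · apply hfaith
      have h1 := hpow 1
      rw [pow_one] at h1
      rw [h1, hχ1]
      have h2 : ∀ i ∈ (Finset.univ : Finset (Fin (Module.finrank ℂ (Fin n → ℂ)))), μ i ^ 1 = 1 := by
        intro i _; rw [pow_one, hall i]
      rw [Finset.sum_congr rfl h2, Finset.sum_const, hcardI]
      simp
    · exfalso
      rw [not_forall] at hall
      obtain ⟨i₀, hi₀⟩ := hall
      have hc0 := hdiv (μ i₀) (hμ i₀) hi₀
      have hc0pos : 0 < (Finset.univ.filter (fun i => μ i = μ i₀)).card :=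
        Finset.card_pos.2 ⟨i₀, by simp⟩
      have hc0p : p ≤ (Finset.univ.filter (fun i => μ i = μ i₀)).card := Nat.le_of_dvd hc0pos hc0
      have hc0n : (Finset.univ.filter (fun i => μ i = μ i₀)).card ≤ n := by
        exact le_trans (Finset.card_le_card (Finset.filter_subset _ _)) (le_of_eq hcardI)
      have honly : ∀ i, μ i = μ i₀ ∨ μ i = 1 := by
        intro i
        by_contra hcon
        rw [not_or] at hcon
        have hc1 := hdiv (μ i) (hμ i) hcon.2
        have hc1pos : 0 < (Finset.univ.filter (fun k => μ k = μ i)).card :=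
          Finset.card_pos.2 ⟨i, by simp⟩
        have hc1p : p ≤ (Finset.univ.filter (fun k => μ k = μ i)).card := Nat.le_of_dvd hc1pos hc1
        have hdisj : Disjoint (Finset.univ.filter (fun k => μ k = μ i₀)) (Finset.univ.filter (fun k => μ k = μ i)) := by
          rw [Finset.disjoint_left]
          intro k hk1 hk2
          rw [Finset.mem_filter] at hk1 hk2
          exact hcon.1 (hk2.2.symm.trans hk1.2)
        have hun : ((Finset.univ.filter (fun k => μ k = μ i₀)) ∪ (Finset.univ.filter (fun k => μ k = μ i))).card ≤ n := by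
          exact le_trans (Finset.card_le_card (Finset.subset_univ _)) (le_of_eq hcardI)
        rw [Finset.card_union_of_disjoint hdisj] at hun
        omega
      -- determinant
      have hdetx : LinearMap.det (ρ x) = ∏ i, μ i := by
        rw [← LinearMap.det_toMatrix b (ρ x)]
        have hmat : LinearMap.toMatrix b b (ρ x) = Matrix.diagonal μ := by
          ext i j
          rw [LinearMap.toMatrix_apply, hb j, map_smul, Module.Basis.repr_self, Matrix.diagonal_apply]
          by_cases hij : i = j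
          · subst hij; simp
          · rw [if_neg hij]
            simp [Finsupp.single_apply, Ne.symm hij]
        rw [hmat, Matrix.det_diagonal]
      have hprod : ∏ i, μ i = μ i₀ ^ (Finset.univ.filter (fun i => μ i = μ i₀)).card := by
        have h1 : ∀ i ∈ (Finset.univ : Finset (Fin (Module.finrank ℂ (Fin n → ℂ)))), μ i = if μ i = μ i₀ then μ i₀ else 1 := by
          intro i _
          by_cases h : μ i = μ i₀
          · rw [if_pos h, h]
          · rw [if_neg h]; exact (honly i).resolve_left h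
        rw [Finset.prod_congr rfl h1, Finset.prod_ite, Finset.prod_const, Finset.prod_const_one, mul_one]
      have h1 : μ i₀ ^ (Finset.univ.filter (fun i => μ i = μ i₀)).card = 1 := by
        rw [← hprod, ← hdetx]; exact hdet x
      obtain ⟨t, ht⟩ := hc0
      have ht1 : t = 1 := by
        rcases Nat.lt_or_ge t 2 with h | h
        · rcases Nat.eq_zero_or_pos t with h0 | h0
          · rw [h0, mul_zero] at ht; omega
          · omega
        · have : p * 2 ≤ p * t := Nat.mul_le_mul_left p h
          omega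
      rw [ht, ht1, mul_one] at h1
      have ho1 : orderOf (μ i₀) ∣ p := orderOf_dvd_of_pow_eq_one h1
      have ho2 : orderOf (μ i₀) ∣ m := orderOf_dvd_of_pow_eq_one (hμ i₀)
      have ho3 : orderOf (μ i₀) = 1 := by
        rcases (Nat.dvd_prime hp).1 ho1 with h | h
        · exact h
        · exfalso; rw [h] at ho2; exact hxp ho2
      exact hi₀ (orderOf_eq_one_iff.1 ho3)
  -- conclusion
  intro c
  obtain ⟨k, hk⟩ : ∃ k : ℕ, k = (orderOf (c : G)).factorization p := ⟨_, rfl⟩
  refine ⟨k, ?_⟩
  have ho0 : orderOf (c : G) ≠ 0 := (orderOf_pos (c : G)).ne'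
  have h1 : ((c : G)) ^ (p ^ k) = 1 := by
    apply key
    · exact Subgroup.pow_mem _ c.2 _
    · rw [orderOf_pow' (c : G) (pow_pos hp.pos k).ne']
      have hg : Nat.gcd (orderOf (c : G)) (p ^ k) = p ^ k := by
        apply Nat.gcd_eq_right
        rw [hk]; exact Nat.ordProj_dvd _ _
      rw [hg, hk]
      exact Nat.not_dvd_ordCompl hp ho0
  apply Subtype.ext
  rw [Subgroup.coe_pow, h1]
  rfl


end Cfsg.Agent.S4729
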