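import Cfsg.Statements.S4730
import Mathlib
import Cfsg.Agent.Lib.Lead.BlockDefect
import Cfsg.Agent.Lib.Lead.BlockAux
import Cfsg.Agent.Lib.Lead.BrauerR2
import Cfsg.Agent.Lib.Lead.CharBasic
import Cfsg.Agent.Lib.Lead.CharInt
import Cfsg.Agent.Lib.Lead.CharGalois
import Cfsg.Agent.Lib.Lead.CharZeros
import Cfsg.Agent.Lib.Lead.CharInd3
import Cfsg.Agent.Lib.Lead.CharRing
import Cfsg.Agent.Lib.Lead.CharOrtho
-- import your own Cfsg.Agent.* helpers here

set_option autoImplicit false
open Cfsg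
open Cfsg.Agent.Lib.Lead

namespace Cfsg.Agent.S4730

/-- Let p be a prime, M a maximal ideal of the algebraic integers containing p, and G a finite group with trivial centre, Sylow p-subgroup P of order p^a and centre Z(P) of order p^b. If χ is a faithful irreducible character of G whose degree is a power of p, then the p-block of χ has defect at most a − b; in particular, if P is abelian then χ lies in a block of defect zero. -/
theorem result {G : Type*} [Group G] [Finite G] (p : ℕ) [Fact p.Prime] (M : Ideal Cfsg.AlgInt) (hM : Cfsg.IsPModular p M) (hZ : Subgroup.center G = ⊥) (P : Sylow p G) (a b : ℕ) (ha : Nat.card P = p ^ a) (hb : Nat.card (Subgroup.center ↥(P : Subgroup G)) = p ^ b) (χ : Cfsg.IrrCharacter G) (hfaith : ∀ g : G, (χ : G → ℂ) g = (χ : G → ℂ) 1 → g = 1) (n : ℕ) (hdeg : Cfsg.charDegree (χ : G → ℂ) = p ^ n) : Cfsg.blockDefect p (Cfsg.blockOf M (χ : G → ℂ)) ≤ a - b ∧ (IsMulCommutative ↥(P : Subgroup G) → Cfsg.blockDefect p (Cfsg.blockOf M (χ : G → ℂ)) = 0) := by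
  classical
  haveI : Fintype G := Fintype.ofFinite G
  obtain ⟨hp, hMmax, hpM⟩ := hM
  have hMprime : M.IsPrime := hMmax.isPrime
  have hMtop : M ≠ ⊤ := hMprime.ne_top
  -- the subgroup Z(P) of G
  obtain ⟨Zs, hZs⟩ : ∃ Zs : Subgroup G, Zs = (Subgroup.center ↥(P : Subgroup G)).map (P : Subgroup G).subtype := ⟨_, rfl⟩
  have hZcard : Nat.card Zs = p ^ b := by
    rw [hZs, Subgroup.card_map_of_injective (Subgroup.subtype_injective _)]
    exact hb
  have hZmem : ∀ z : G, z ∈ Zs → ∀ y ∈ (P : Subgroup G), y * z = z * y := by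
    intro z hz y hy
    rw [hZs] at hz
    obtain ⟨c, hc, rfl⟩ := hz
    have h1 := Subgroup.mem_center_iff.1 hc ⟨y, hy⟩
    exact congrArg Subtype.val h1
  -- χ vanishes on Z(P) \ 1
  have hvan : ∀ z : G, z ∈ Zs → z ≠ 1 → (χ : G → ℂ) z = 0 := by
    intro z hz hz1
    obtain ⟨n0, ρ, hρ, hρχ⟩ := χ.2
    haveI := hρ
    have hχ1 : (χ : G → ℂ) 1 = (n0 : ℂ) := by
      rw [← hρχ, Representation.char_one, Module.finrank_fin_fun]
    have hn0 : n0 = p ^ n := by
      have h1 := (charDegree_irr χ.2).1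
      rw [hdeg, hχ1] at h1
      exact_mod_cast h1
    have hle : (P : Subgroup G) ≤ Subgroup.centralizer ({z} : Set G) := by
      intro y hy
      rw [Subgroup.mem_centralizer_singleton_iff]
      exact hZmem z hz y hy
    have hdv : (Subgroup.centralizer ({z} : Set G)).index ∣ (P : Subgroup G).index :=
      Subgroup.index_dvd_of_le hle
    have hcop : Nat.Coprime (Module.finrank ℂ (Fin n0 → ℂ)) (Subgroup.centralizer ({z} : Set G)).index := by
      rw [Module.finrank_fin_fun, hn0]
      apply Nat.Coprime.pow_left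
      rw [Nat.Prime.coprime_iff_not_dvd hp]
      intro h
      exact P.not_dvd_index (h.trans hdv)
    rcases char_zero_or_norm_of_coprime ρ z hcop with h | h
    · rw [← hρχ]; exact h
    · exfalso
      obtain ⟨ω, hω⟩ := (norm_char_eq_iff ρ z).mp h
      have hω' : ρ z = ω • (1 : Module.End ℂ (Fin n0 → ℂ)) := hω
      apply hz1
      have hzc : z ∈ Subgroup.center G := by
        rw [Subgroup.mem_center_iff]
        intro g
        have hcx : ρ (g * z) = ρ (z * g) := by
          rw [map_mul, map_mul, hω', smul_mul_assoc, mul_smul_comm, one_mul, mul_one]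
        have h1 : ρ ((g * z) * (z * g)⁻¹) = 1 := by
          rw [map_mul, hcx, ← map_mul, mul_inv_cancel, map_one]
        have h2 : ρ.character ((g * z) * (z * g)⁻¹) = (Module.finrank ℂ (Fin n0 → ℂ) : ℂ) :=
          (char_eq_finrank_iff ρ _).2 h1
        rw [hρχ, Module.finrank_fin_fun, ← hχ1] at h2
        have h3 := hfaith _ h2
        exact mul_inv_eq_one.1 h3
      rw [hZ] at hzc
      exact Subgroup.mem_bot.1 hzc
  -- every ψ in the block has degree divisible by p^b
  have key : ∀ ψ : Cfsg.IrrCharacter G, ψ ∈ Cfsg.blockOf M (χ : G → ℂ) →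
      b ≤ (Cfsg.charDegree (ψ : G → ℂ)).factorization p := by
    intro ψ hψ
    have hSB : Cfsg.SameBlock M (χ : G → ℂ) (ψ : G → ℂ) := hψ
    obtain ⟨hψ1, hm0⟩ := charDegree_irr ψ.2
    obtain ⟨m0, hm0def⟩ : ∃ m0 : ℕ, m0 = Cfsg.charDegree (ψ : G → ℂ) := ⟨_, rfl⟩
    rw [← hm0def] at hψ1 hm0 ⊢
    have hm0c : (m0 : ℂ) ≠ 0 := by exact_mod_cast hm0
    -- ψ z / ψ 1 in the local ideal for z ∈ Zs, z ≠ 1
    have hloc : ∀ z : Zs, z ≠ 1 → Cfsg.MemLocalIdeal M ((ψ : G → ℂ) (z : G) / (m0 : ℂ)) := by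
      intro z hz1
      have hz1' : (z : G) ≠ 1 := fun h => hz1 (Subtype.ext h)
      have h1 := hSB (z : G)
      unfold Cfsg.centralChar at h1
      rw [hvan (z : G) z.2 hz1', mul_zero, zero_div, zero_sub, hψ1] at h1
      have h2 := memLocalIdeal_neg_lead h1
      rw [neg_neg] at h2
      have hle : (P : Subgroup G) ≤ Subgroup.centralizer ({(z : G)} : Set G) := by
        intro y hy
        rw [Subgroup.mem_centralizer_singleton_iff]
        exact hZmem (z : G) z.2 y hy
      have hdv : (Subgroup.centralizer ({(z : G)} : Set G)).index ∣ (P : Subgroup G).index :=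
        Subgroup.index_dvd_of_le hle
      have hcop : Nat.Coprime (Subgroup.centralizer ({(z : G)} : Set G)).index p := by
        rw [Nat.coprime_comm, Nat.Prime.coprime_iff_not_dvd hp]
        intro h
        exact P.not_dvd_index (h.trans hdv)
      have hiM : (((Subgroup.centralizer ({(z : G)} : Set G)).index : ℕ) : Cfsg.AlgInt) ∉ M :=
        natCast_not_mem_lead hMtop p _ hcop hpM
      have h3 := memLocalIdeal_div_mul_lead hMprime 1 _ hiM h2
      have hi0 : (((Subgroup.centralizer ({(z : G)} : Set G)).index : ℕ) : ℂ) ≠ 0 := by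
        have := coe_ne_zero_of_not_mem_lead hiM
        simpa using this
      convert h3 using 1
      push_cast
      field_simp
    -- the sum over Zs
    have hψc : Cfsg.IsCharacter G (ψ : G → ℂ) := isCharacter_of_isIrrCharacter ψ.2
    obtain ⟨k, hk⟩ := classInner_char_char_nat (isCharacter_restrict Zs hψc)
      (isCharacter_one (G := Zs))
    have hsum : ∑ z : Zs, (ψ : G → ℂ) (z : G) = (p ^ b : ℂ) * k := by
      rw [← hk]
      unfold Cfsg.classInner
      have hne : (Nat.card Zs : ℂ) ≠ 0 := by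
        rw [hZcard]; exact_mod_cast (pow_pos hp.pos _).ne'
      have hc : (p ^ b : ℂ) = (Nat.card Zs : ℂ) := by rw [hZcard]; push_cast; rfl
      rw [hc, ← mul_assoc, mul_inv_cancel₀ hne, one_mul]
      apply Finset.sum_congr rfl
      intro x _
      simp
    have hloc2 : Cfsg.MemLocalIdeal M ((p ^ b : ℂ) * k / (m0 : ℂ) - 1) := by
      have h1 : (p ^ b : ℂ) * k / (m0 : ℂ) - 1 =
          ∑ z ∈ Finset.univ.erase (1 : Zs), (ψ : G → ℂ) (z : G) / (m0 : ℂ) := by
        rw [← hsum, Finset.sum_div, ← Finset.add_sum_erase Finset.univ _ (Finset.mem_univ (1 : Zs))]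
        have h11 : (ψ : G → ℂ) ((1 : Zs) : G) / (m0 : ℂ) = 1 := by
          rw [OneMemClass.coe_one, hψ1]
          exact div_self hm0c
        rw [h11]; ring
      rw [h1]
      apply memLocalIdeal_sum_lead hMprime
      intro z hz
      exact hloc z (Finset.ne_of_mem_erase hz)
    by_contra hlt
    rw [not_le] at hlt
    -- m0 = p^e * u
    obtain ⟨e, he⟩ : ∃ e : ℕ, e = m0.factorization p := ⟨_, rfl⟩
    rw [← he] at hlt
    have hdvd : p ^ e ∣ m0 := by rw [he]; exact Nat.ordProj_dvd _ _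
    obtain ⟨u, hu⟩ := hdvd
    have hup : Nat.Coprime u p := by
      have h1 : Nat.Coprime p (m0 / p ^ m0.factorization p) := Nat.coprime_ordCompl hp hm0
      have h2 : m0 / p ^ m0.factorization p = u := by
        rw [← he, hu]
        exact Nat.mul_div_cancel_left u (pow_pos hp.pos e)
      rw [h2] at h1
      exact h1.symm
    have huM : (u : Cfsg.AlgInt) ∉ M := natCast_not_mem_lead hMtop p u hup hpM
    have hu0 : (u : ℂ) ≠ 0 := by
      have := coe_ne_zero_of_not_mem_lead huM
      simpa using this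
    obtain ⟨d, hd⟩ : ∃ d : ℕ, b = e + 1 + d := ⟨b - (e + 1), by omega⟩
    have hnum : Cfsg.MemLocalIdeal M ((((p : Cfsg.AlgInt) * ((p ^ d * k : ℕ) : Cfsg.AlgInt) : Cfsg.AlgInt)) : ℂ) :=
      memLocalIdeal_of_mem_lead hMtop _ (M.mul_mem_right _ hpM)
    have h4 := memLocalIdeal_div_mul_lead hMprime 1 (u : Cfsg.AlgInt) huM hnum
    have hpc : (p : ℂ) ≠ 0 := by exact_mod_cast hp.ne_zero
    have h5 : Cfsg.MemLocalIdeal M ((p ^ b : ℂ) * k / (m0 : ℂ)) := by
      convert h4 using 1
      rw [hu, hd]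
      push_cast
      field_simp
      ring
    have h6 := memLocalIdeal_sub_lead hMprime h5 hloc2
    have h7 : (p ^ b : ℂ) * k / (m0 : ℂ) - ((p ^ b : ℂ) * k / (m0 : ℂ) - 1) = ((1 : Cfsg.AlgInt) : ℂ) := by
      push_cast; ring
    rw [h7] at h6
    have h8 := mem_of_memLocalIdeal_lead hMprime 1 h6
    exact hMtop ((Ideal.eq_top_iff_one M).mpr h8)
  have hfa : (Nat.card G).factorization p = a := by
    have h1 := Sylow.card_eq_multiplicity P
    rw [ha] at h1
    exact (Nat.pow_right_injective hp.two_le h1).symm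
  have hχB : χ ∈ Cfsg.blockOf M (χ : G → ℂ) := sameBlock_refl_lead hMtop (χ : G → ℂ)
  have hmain : Cfsg.blockDefect p (Cfsg.blockOf M (χ : G → ℂ)) ≤ a - b := by
    unfold Cfsg.blockDefect
    rw [hfa]
    apply Nat.sub_le_sub_left
    apply le_csInf
    · exact ⟨_, χ, hχB, rfl⟩
    · rintro x ⟨ψ, hψ, rfl⟩
      exact key ψ hψ
  refine ⟨hmain, ?_⟩
  intro hab
  have htop : Subgroup.center ↥(P : Subgroup G) = ⊤ := by
    rw [Subgroup.eq_top_iff']
    intro z
    rw [Subgroup.mem_center_iff]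
    intro g
    exact mul_comm' g z
  have hab' : a = b := by
    rw [htop, Subgroup.card_top, ha] at hb
    exact Nat.pow_right_injective hp.two_le hb
  rw [hab', Nat.sub_self] at hmain
  exact Nat.le_zero.1 hmain


end Cfsg.Agent.S4730
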