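import Cfsg.Statements.S4731
import Mathlib
import Cfsg.Agent.Lib.Helper7.WBO3
-- import your own Cfsg.Agent.* helpers here

set_option autoImplicit false
open Cfsg
open Cfsg.Agent.Lib.Helper7 Cfsg.Agent.Lib.Lead
open scoped ComplexConjugate

namespace Cfsg.Agent.S4731

/-- Let p ≠ q be primes, M_p and M_q maximal ideals of the algebraic integers containing p and q respectively, and G a finite group with no element of order pq; let q^b be the q-part of the order of G. For a p-block B_p (relative to M_p), a q-block B_q (relative to M_q) and a p-singular element y, the sum of χ(1)χ(y) over the irreducible characters χ lying in both B_p and B_q is q^b times an algebraic integer. -/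
theorem result {G : Type*} [Group G] [Finite G] (p q : ℕ) [Fact p.Prime] [Fact q.Prime] (hpq : p ≠ q) (Mp Mq : Ideal Cfsg.AlgInt) (hMp : Cfsg.IsPModular p Mp) (hMq : Cfsg.IsPModular q Mq) (hno : ∀ g : G, orderOf g ≠ p * q) (b : ℕ) (hb : (Nat.card G).factorization q = b) (Bp : Set (Cfsg.IrrCharacter G)) (hBp : Cfsg.IsPBlock Mp Bp) (Bq : Set (Cfsg.IrrCharacter G)) (hBq : Cfsg.IsPBlock Mq Bq) (y : G) (hy : p ∣ orderOf y) : ∃ ω : Cfsg.AlgInt, ∑ᶠ χ ∈ Bp ∩ Bq, (Cfsg.charDegree (χ : G → ℂ) : ℂ) * (χ : G → ℂ) y = (q : ℂ) ^ b * (ω : ℂ) := by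
  classical
  haveI : Fintype G := Fintype.ofFinite _
  haveI : Fintype (Cfsg.IrrCharacter G) := Fintype.ofFinite _
  have hq : q.Prime := Fact.out
  obtain ⟨Q0⟩ : Nonempty (Sylow q G) := inferInstance
  have hcard0 : Nat.card Q0 = q ^ (Nat.card G).factorization q := Sylow.card_eq_multiplicity Q0
  have hpg0 : IsPGroup q Q0 := Q0.isPGroup'
  obtain ⟨Q, hQ⟩ : ∃ Q : Subgroup G, Q = (Q0 : Subgroup G) := ⟨_, rfl⟩
  have hcard : Nat.card Q = q ^ b := by rw [hQ, ← hb]; exact hcard0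
  have hpg : IsPGroup q Q := by rw [hQ]; exact hpg0
  clear hQ hcard0 hpg0 Q0
  obtain ⟨θ, hθ⟩ : ∃ θ : G → ℂ, θ = fun g => ∑ ψ : Cfsg.IrrCharacter G,
      if ψ ∈ Bq then (if ψ ∈ Bp then (ψ : G → ℂ) y * (ψ : G → ℂ) g else 0) else 0 := ⟨_, rfl⟩
  have hθ0 : ∀ g : G, q ∣ orderOf g → θ g = 0 := by
    intro g hg
    rw [hθ]
    exact two_prime_vanish_h7 p q hpq Mp Mq hMp hMq hno Bp Bq hBp hBq y g hy hg
  have h1 : ∑ u : Q, θ (u : G) = θ 1 := by
    rw [Finset.sum_eq_single (1 : Q)]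
    · rfl
    · intro u _ hu
      apply hθ0
      obtain ⟨k, hk⟩ := hpg u
      have hord : orderOf u ∣ q ^ k := orderOf_dvd_of_pow_eq_one hk
      obtain ⟨j, hj, hj2⟩ := (Nat.dvd_prime_pow hq).1 hord
      have hox : orderOf (u : G) = orderOf u := Subgroup.orderOf_coe u
      rw [hox, hj2]
      rcases Nat.eq_zero_or_pos j with h | h
      · exfalso
        apply hu
        rw [h, pow_zero, orderOf_eq_one_iff] at hj2
        exact hj2
      · exact dvd_pow_self q h.ne'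
    · intro h; exact absurd (Finset.mem_univ _) h
  have h2 : ∀ ψ : Cfsg.IrrCharacter G, ∃ m : ℕ,
      ∑ u : Q, (ψ : G → ℂ) (u : G) = (Nat.card Q : ℂ) * m := by
    intro ψ
    have hψ : Cfsg.IsCharacter G (ψ : G → ℂ) := isCharacter_of_isIrrCharacter ψ.2
    obtain ⟨m, hm⟩ := classInner_char_char_nat (isCharacter_restrict Q hψ)
      (isCharacter_one (G := Q))
    refine ⟨m, ?_⟩
    rw [← hm]
    unfold Cfsg.classInner
    have hne : (Nat.card Q : ℂ) ≠ 0 := by
      rw [hcard]; exact_mod_cast (pow_pos hq.pos _).ne'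
    rw [← mul_assoc, mul_inv_cancel₀ hne, one_mul]
    apply Finset.sum_congr rfl
    intro u _
    simp
  choose m hm using h2
  have hint : ∀ ψ : Cfsg.IrrCharacter G, IsIntegral ℤ ((ψ : G → ℂ) y) :=
    fun ψ => isIntegral_isCharacter (isCharacter_of_isIrrCharacter ψ.2) y
  have hωint : IsIntegral ℤ (∑ ψ : Cfsg.IrrCharacter G,
      if ψ ∈ Bq then (if ψ ∈ Bp then (ψ : G → ℂ) y * (m ψ : ℂ) else 0) else 0) := by
    apply IsIntegral.sum
    intro ψ _
    split_ifs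
    · exact IsIntegral.mul (hint ψ) (isIntegral_natCast _)
    · exact isIntegral_zero
    · exact isIntegral_zero
  refine ⟨⟨_, hωint⟩, ?_⟩
  have hL : ∑ᶠ χ ∈ Bp ∩ Bq, (Cfsg.charDegree (χ : G → ℂ) : ℂ) * (χ : G → ℂ) y = θ 1 := by
    rw [finsum_mem_def, finsum_eq_sum_of_fintype, hθ]
    apply Finset.sum_congr rfl
    intro ψ _
    obtain ⟨hψ1, _⟩ := charDegree_irr ψ.2
    by_cases h1 : ψ ∈ Bq
    · by_cases h2 : ψ ∈ Bp
      · rw [Set.indicator_of_mem (show ψ ∈ Bp ∩ Bq from ⟨h2, h1⟩), if_pos h1, if_pos h2, ← hψ1,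
          mul_comm]
      · rw [Set.indicator_of_notMem (fun h : ψ ∈ Bp ∩ Bq => h2 h.1), if_pos h1, if_neg h2]
    · rw [Set.indicator_of_notMem (fun h : ψ ∈ Bp ∩ Bq => h1 h.2), if_neg h1]
  rw [hL, ← h1, hθ]
  show ∑ u : Q, ∑ ψ : Cfsg.IrrCharacter G,
      (if ψ ∈ Bq then (if ψ ∈ Bp then (ψ : G → ℂ) y * (ψ : G → ℂ) (u : G) else 0) else 0) =
    (q : ℂ) ^ b * ∑ ψ : Cfsg.IrrCharacter G,
      if ψ ∈ Bq then (if ψ ∈ Bp then (ψ : G → ℂ) y * (m ψ : ℂ) else 0) else 0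
  rw [Finset.sum_comm, Finset.mul_sum]
  apply Finset.sum_congr rfl
  intro ψ _
  by_cases h1 : ψ ∈ Bq
  · by_cases h2 : ψ ∈ Bp
    · simp only [if_pos h1, if_pos h2]
      rw [← Finset.mul_sum, hm ψ, hcard]
      push_cast
      ring
    · simp only [if_pos h1, if_neg h2]
      simp
  · simp only [if_neg h1]
    simp


end Cfsg.Agent.S4731
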