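import Cfsg.Statements.S4733
import Mathlib
import Cfsg.Agent.Lib.Helper7.WBO2
-- import your own Cfsg.Agent.* helpers here

set_option autoImplicit false
open Cfsg
open Cfsg.Agent.Lib.Helper7 Cfsg.Agent.Lib.Lead

namespace Cfsg.Agent.S4733

/-- Let p be a prime, M a maximal ideal of the algebraic integers containing p, and B a p-block of the finite group G with k irreducible characters and p-regular rank l (the number of irreducible Brauer characters). Then l ≤ k, and the following are equivalent: B has defect 0; k = l = 1; k = l. -/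
theorem result {G : Type*} [Group G] [Finite G] (p : ℕ) [Fact p.Prime] (M : Ideal Cfsg.AlgInt) (hM : Cfsg.IsPModular p M) (B : Set (Cfsg.IrrCharacter G)) (hB : Cfsg.IsPBlock M B) : Cfsg.blockRank p B ≤ Nat.card B ∧ (Cfsg.blockDefect p B = 0 ↔ (Nat.card B = 1 ∧ Cfsg.blockRank p B = 1)) ∧ (Cfsg.blockDefect p B = 0 ↔ Nat.card B = Cfsg.blockRank p B) := by
  classical
  haveI : Fintype G := Fintype.ofFinite _
  haveI : Fintype (Cfsg.IrrCharacter G) := Fintype.ofFinite _
  have hp : p.Prime := Fact.out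
  have hMprime : M.IsPrime := hM.2.1.isPrime
  obtain ⟨a, ha⟩ : ∃ a : ℕ, a = (Nat.card G).factorization p := ⟨_, rfl⟩
  obtain ⟨f, hf⟩ : ∃ f : Cfsg.IrrCharacter G → (G → ℂ),
      f = fun χ : Cfsg.IrrCharacter G => Cfsg.pRegularPart p (χ : G → ℂ) := ⟨_, rfl⟩
  obtain ⟨b, hb⟩ : ∃ b : B → (G → ℂ), b = fun χ => f χ.1 := ⟨_, rfl⟩
  have hrank : Cfsg.blockRank p B = (Set.range b).finrank ℂ := by
    unfold Cfsg.blockRank
    have e : Set.range b = f '' B := by rw [hb, Set.image_eq_range]
    rw [e, hf]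
    rfl
  have hcardB : Nat.card B = Fintype.card B := Nat.card_eq_fintype_card
  have h1 : Cfsg.blockRank p B ≤ Nat.card B := by
    rw [hrank, hcardB]
    exact finrank_range_le_card b
  obtain ⟨χ₀, hB'⟩ := hB
  have hχ₀B : χ₀ ∈ B := by rw [hB']; exact sameBlock_refl_lead hMprime.ne_top _
  obtain ⟨S, hS⟩ : ∃ S : Set ℕ, S = (fun χ : Cfsg.IrrCharacter G =>
      (Cfsg.charDegree (χ : G → ℂ)).factorization p) '' B := ⟨_, rfl⟩
  have hSne : S.Nonempty := by rw [hS]; exact ⟨_, χ₀, hχ₀B, rfl⟩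
  have hdef : Cfsg.blockDefect p B = a - sInf S := by
    unfold Cfsg.blockDefect; rw [ha, hS]
  have hreg1 : ∀ χ : Cfsg.IrrCharacter G, Cfsg.pRegularPart p (χ : G → ℂ) 1 = (χ : G → ℂ) 1 := by
    intro χ
    show (if Cfsg.IsPRegular p (1 : G) then (χ : G → ℂ) 1 else 0) = _
    rw [if_pos]
    show ¬ p ∣ orderOf (1 : G)
    rw [orderOf_one, Nat.dvd_one]; exact hp.one_lt.ne'
  have hAB : Cfsg.blockDefect p B = 0 → Nat.card B = 1 ∧ Cfsg.blockRank p B = 1 := by
    intro h0
    rw [hdef] at h0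
    have hle : a ≤ sInf S := Nat.sub_eq_zero_iff_le.1 h0
    have hmem : sInf S ∈ S := Nat.sInf_mem hSne
    rw [hS] at hmem
    obtain ⟨χ, hχB, hχv⟩ := hmem
    obtain ⟨hχ1, hχ0⟩ := charDegree_irr χ.2
    have hχv' : (Cfsg.charDegree (χ : G → ℂ)).factorization p = sInf S := by
      rw [hS]; exact hχv
    have hdvd : p ^ (Nat.card G).factorization p ∣ Cfsg.charDegree (χ : G → ℂ) := by
      rw [← ha, hp.pow_dvd_iff_le_factorization hχ0, hχv']
      exact hle
    have hBsing : ∀ ψ ∈ B, ψ = χ := by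
      intro ψ hψ
      apply singleton_of_defect_zero_h7 p M hM χ ψ hdvd
      rw [hB'] at hψ hχB
      exact sameBlock_trans_lead hMprime (sameBlock_symm_lead hχB) hψ
    have hBeq : B = {χ} := by
      ext ψ; constructor
      · intro hψ; exact hBsing ψ hψ
      · intro hψ; rw [Set.mem_singleton_iff] at hψ; rw [hψ]; exact hχB
    constructor
    · rw [hBeq]; simp
    · unfold Cfsg.blockRank
      rw [hBeq, Set.image_singleton]
      apply finrank_span_singleton
      intro hz
      have h1' := congrFun hz 1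
      rw [hreg1, hχ1, Pi.zero_apply] at h1'
      exact hχ0 (by exact_mod_cast h1')
  have hE : Nat.card B = Cfsg.blockRank p B → Cfsg.blockDefect p B = 0 := by
    intro hcr
    have hli : LinearIndependent ℂ b := by
      rw [linearIndependent_iff_card_eq_finrank_span, ← hcardB, hcr, hrank]
    have hvan : ∀ ψ ∈ B, ∀ y : G, p ∣ orderOf y → (ψ : G → ℂ) y = 0 := by
      intro ψ hψ y hy
      have hsum : ∑ χ : B, (χ.1 : G → ℂ) y • b χ = 0 := by
        funext x
        rw [Finset.sum_apply]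
        by_cases hx : p ∣ orderOf x
        · apply Finset.sum_eq_zero
          intro χ _
          rw [hb, hf]
          show (χ.1 : G → ℂ) y • (if Cfsg.IsPRegular p x then (χ.1 : G → ℂ) x else 0) = 0
          rw [if_neg (fun h => h hx), smul_zero]
        · have hw := wbo_h7 p M hM B ⟨χ₀, hB'⟩ x y hx hy
          rw [← Finset.sum_filter] at hw
          rw [Finset.sum_subtype (Finset.univ.filter (· ∈ B)) (fun χ => ⟨fun h => (Finset.mem_filter.1 h).2, fun h => Finset.mem_filter.2 ⟨Finset.mem_univ _, h⟩⟩)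
            (fun χ => (χ : G → ℂ) x * (χ : G → ℂ) y)] at hw
          rw [Pi.zero_apply, ← hw]
          refine Fintype.sum_equiv (Equiv.refl _) _ _ ?_
          intro χ
          rw [hb, hf]
          show (χ.1 : G → ℂ) y • (if Cfsg.IsPRegular p x then (χ.1 : G → ℂ) x else 0) = _
          rw [if_pos (show Cfsg.IsPRegular p x from hx), smul_eq_mul, mul_comm]
          rfl
      exact Fintype.linearIndependent_iff.1 hli (fun χ => (χ.1 : G → ℂ) y) hsum ⟨ψ, hψ⟩
    rw [hdef]
    apply Nat.sub_eq_zero_of_le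
    apply le_csInf hSne
    intro n hn
    rw [hS] at hn
    obtain ⟨ψ, hψB, rfl⟩ := hn
    have hdvd := vanish_dvd_h7 p ψ (hvan ψ hψB)
    obtain ⟨hψ1, hψ0⟩ := charDegree_irr ψ.2
    rw [ha]
    exact (hp.pow_dvd_iff_le_factorization hψ0).1 hdvd
  exact ⟨h1, ⟨hAB, fun h => hE (by rw [h.1, h.2])⟩,
    ⟨fun h => by obtain ⟨h2, h3⟩ := hAB h; rw [h2, h3], hE⟩⟩


end Cfsg.Agent.S4733
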