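import Cfsg.Statements.S4736
import Mathlib
import Cfsg.Agent.Lib.Helper7.Fong
import Cfsg.Agent.Lib.Lead.CharMichler2
import Cfsg.Agent.Lib.Lead.CharZeros
-- import your own Cfsg.Agent.* helpers here

set_option autoImplicit false
open Cfsg
open Cfsg.Agent.Lib.Lead
open Cfsg.Agent.Lib.Helper7

namespace Cfsg.Agent.S4736

/-- Let p be a prime, M a maximal ideal of the algebraic integers containing p, and G a finite p-solvable group with Sylow p-subgroup P. Then P is abelian if and only if every irreducible character in the principal p-block of G has height zero. -/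
theorem result {G : Type*} [Group G] [Finite G] (p : ℕ) [Fact p.Prime] (M : Ideal Cfsg.AlgInt) (hM : Cfsg.IsPModular p M) (hsolv : Cfsg.IsPSolvable p G) (P : Sylow p G) : IsMulCommutative P ↔ ∀ χ ∈ Cfsg.principalBlock M G, Cfsg.blockHeight p (Cfsg.principalBlock M G) (χ : G → ℂ) = 0 := by
  classical
  have hp : p.Prime := Fact.out
  haveI : Fintype G := Fintype.ofFinite G
  have hMtop : M ≠ ⊤ := hM.2.1.isPrime.ne_top
  haveI hNn : (Cfsg.pPrimeCore p G).Normal := Cfsg.Agent.Lib.Helper3.pPrimeCore_normal p G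
  have hcop := Cfsg.Agent.Lib.Helper3.pPrimeCore_coprime hp G
  have hps : Cfsg.IsPSolvable p (G ⧸ Cfsg.pPrimeCore p G) :=
    Cfsg.Agent.S4218.isPSolvable_quotient _ hsolv
  have hO : Cfsg.pPrimeCore p (G ⧸ Cfsg.pPrimeCore p G) = ⊥ :=
    Cfsg.Agent.Lib.Helper2.pPrimeCore_quotient_eq_bot p G
  have hC := Cfsg.Agent.S4218.hh123 hps hO
  have hsurj := QuotientGroup.mk'_surjective (Cfsg.pPrimeCore p G)
  -- the image Sylow subgroup
  have hidx : ¬ p ∣ ((P : Subgroup G).map (QuotientGroup.mk' (Cfsg.pPrimeCore p G))).index := by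
    intro h
    exact P.not_dvd_index (h.trans (Subgroup.index_map_dvd _ hsurj))
  obtain ⟨Pb, hPb⟩ : ∃ Pb : Sylow p (G ⧸ Cfsg.pPrimeCore p G),
      (Pb : Subgroup (G ⧸ Cfsg.pPrimeCore p G)) = (P : Subgroup G).map (QuotientGroup.mk' (Cfsg.pPrimeCore p G)) :=
    ⟨(P.isPGroup'.map (QuotientGroup.mk' (Cfsg.pPrimeCore p G))).toSylow hidx, rfl⟩
  -- trivial intersection
  have hint : ∀ x : G, x ∈ (P : Subgroup G) → x ∈ Cfsg.pPrimeCore p G → x = 1 := by
    intro x hxP hxN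
    obtain ⟨k, hk⟩ := P.isPGroup' ⟨x, hxP⟩
    have hk' : x ^ p ^ k = 1 := congrArg Subtype.val hk
    have h1 : orderOf x ∣ p ^ k := orderOf_dvd_of_pow_eq_one hk'
    have h2 : orderOf x ∣ Nat.card (Cfsg.pPrimeCore p G) := by
      have := orderOf_dvd_natCard (⟨x, hxN⟩ : Cfsg.pPrimeCore p G)
      rwa [Subgroup.orderOf_mk] at this
    have h3 : Nat.Coprime (p ^ k) (Nat.card (Cfsg.pPrimeCore p G)) :=
      Nat.Coprime.pow_left k hcop.symm
    have h4 : orderOf x = 1 := Nat.eq_one_of_dvd_coprimes h3 h1 h2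
    exact orderOf_eq_one_iff.1 h4
  -- step C
  have stepC : IsMulCommutative P ↔
      ((Pb : Subgroup (G ⧸ Cfsg.pPrimeCore p G)).Normal ∧ IsMulCommutative Pb) := by
    constructor
    · intro hc
      have hcomm : ∀ a ∈ (Pb : Subgroup (G ⧸ Cfsg.pPrimeCore p G)), ∀ b ∈ (Pb : Subgroup (G ⧸ Cfsg.pPrimeCore p G)), a * b = b * a := by
        intro a ha b hb
        rw [hPb] at ha hb
        obtain ⟨x, hx, rfl⟩ := ha
        obtain ⟨y, hy, rfl⟩ := hb
        have h1 := congrArg Subtype.val (hc.is_comm.comm ⟨x, hx⟩ ⟨y, hy⟩)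
        have h1' : x * y = y * x := h1
        rw [← map_mul, ← map_mul, h1']
      have hle : Cfsg.pCore p (G ⧸ Cfsg.pPrimeCore p G) ≤ (Pb : Subgroup (G ⧸ Cfsg.pPrimeCore p G)) :=
        Cfsg.Agent.Lib.Helper4.pCore_le_sylow Pb
      have hle2 : (Pb : Subgroup (G ⧸ Cfsg.pPrimeCore p G)) ≤ Cfsg.pCore p (G ⧸ Cfsg.pPrimeCore p G) := by
        intro a ha
        apply hC
        rw [Subgroup.mem_centralizer_iff]
        intro q hq
        exact hcomm q (hle hq) a ha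
      have heq : (Pb : Subgroup (G ⧸ Cfsg.pPrimeCore p G)) = Cfsg.pCore p (G ⧸ Cfsg.pPrimeCore p G) :=
        le_antisymm hle2 hle
      refine ⟨?_, ⟨⟨fun a b => Subtype.ext (hcomm a.1 a.2 b.1 b.2)⟩⟩⟩
      rw [heq]
      exact Cfsg.Agent.Lib.Helper4.pCore_normal p _
    · rintro ⟨-, hc⟩
      refine ⟨⟨fun a b => Subtype.ext ?_⟩⟩
      show (a : G) * (b : G) = (b : G) * (a : G)
      have ha : QuotientGroup.mk' (Cfsg.pPrimeCore p G) (a : G) ∈ (Pb : Subgroup (G ⧸ Cfsg.pPrimeCore p G)) := by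
        rw [hPb]; exact ⟨a.1, a.2, rfl⟩
      have hb : QuotientGroup.mk' (Cfsg.pPrimeCore p G) (b : G) ∈ (Pb : Subgroup (G ⧸ Cfsg.pPrimeCore p G)) := by
        rw [hPb]; exact ⟨b.1, b.2, rfl⟩
      have h1 := congrArg Subtype.val (hc.is_comm.comm ⟨_, ha⟩ ⟨_, hb⟩)
      have h1' : QuotientGroup.mk' (Cfsg.pPrimeCore p G) (a : G) * QuotientGroup.mk' (Cfsg.pPrimeCore p G) (b : G) =
          QuotientGroup.mk' (Cfsg.pPrimeCore p G) (b : G) * QuotientGroup.mk' (Cfsg.pPrimeCore p G) (a : G) := h1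
      rw [← map_mul, ← map_mul] at h1'
      have h2 : ((b : G) * (a : G))⁻¹ * ((a : G) * (b : G)) ∈ Cfsg.pPrimeCore p G := by
        have := QuotientGroup.eq.1 h1'.symm
        exact this
      have h3 : ((b : G) * (a : G))⁻¹ * ((a : G) * (b : G)) ∈ (P : Subgroup G) :=
        (P : Subgroup G).mul_mem ((P : Subgroup G).inv_mem ((P : Subgroup G).mul_mem b.2 a.2))
          ((P : Subgroup G).mul_mem a.2 b.2)
      have h4 := hint _ h3 h2
      exact (inv_mul_eq_one.1 h4).symm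
  -- step A
  have stepA : (∀ χ ∈ Cfsg.principalBlock M G, ¬ p ∣ Cfsg.charDegree (χ : G → ℂ)) ↔
      (∀ φ : Cfsg.IrrCharacter (G ⧸ Cfsg.pPrimeCore p G), ¬ p ∣ Cfsg.charDegree (φ : G ⧸ Cfsg.pPrimeCore p G → ℂ)) := by
    constructor
    · intro h φ
      have hmem : inflIrr (QuotientGroup.mk' (Cfsg.pPrimeCore p G)) hsurj φ ∈ Cfsg.principalBlock M G := by
        apply fong_mem p M hM hsolv
        intro n hn
        show (φ : G ⧸ Cfsg.pPrimeCore p G → ℂ) (QuotientGroup.mk' (Cfsg.pPrimeCore p G) n) =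
          (φ : G ⧸ Cfsg.pPrimeCore p G → ℂ) (QuotientGroup.mk' (Cfsg.pPrimeCore p G) 1)
        have e : QuotientGroup.mk' (Cfsg.pPrimeCore p G) n = QuotientGroup.mk' (Cfsg.pPrimeCore p G) 1 := by
          rw [map_one]
          exact (QuotientGroup.eq_one_iff n).2 hn
        rw [e]
      have h1 := h _ hmem
      have e : Cfsg.charDegree ((inflIrr (QuotientGroup.mk' (Cfsg.pPrimeCore p G)) hsurj φ :
          Cfsg.IrrCharacter G) : G → ℂ) = Cfsg.charDegree (φ : G ⧸ Cfsg.pPrimeCore p G → ℂ) := by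
        unfold Cfsg.charDegree
        show ⌊((φ : G ⧸ Cfsg.pPrimeCore p G → ℂ) (QuotientGroup.mk' (Cfsg.pPrimeCore p G) 1)).re⌋₊ = _
        rw [map_one]
      rwa [e] at h1
    · intro h χ hχ
      have hker := fong_ker p M hM χ hχ
      obtain ⟨φ, hφ, hχφ⟩ := Cfsg.Agent.Lib.Helper8.irr_deflate (Cfsg.pPrimeCore p G) χ.2 hker
      have h1 := h ⟨φ, hφ⟩
      have e : Cfsg.charDegree (χ : G → ℂ) = Cfsg.charDegree φ := by
        unfold Cfsg.charDegree
        rw [hχφ]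
        show ⌊(φ (QuotientGroup.mk' (Cfsg.pPrimeCore p G) 1)).re⌋₊ = _
        rw [map_one]
      rw [e]; exact h1
  -- step B
  have hone : ∃ χ₀ : Cfsg.IrrCharacter G, (χ₀ : G → ℂ) = fun _ => 1 :=
    ⟨⟨fun _ => 1, isIrrCharacter_one G⟩, rfl⟩
  obtain ⟨χ₀, hχ₀⟩ := hone
  have hχ₀B : χ₀ ∈ Cfsg.principalBlock M G := by
    show Cfsg.SameBlock M (fun _ : G => (1 : ℂ)) (χ₀ : G → ℂ)
    rw [hχ₀]
    exact sameBlock_refl_lead hMtop _
  have hInf : sInf ((fun ψ : Cfsg.IrrCharacter G => (Cfsg.charDegree (ψ : G → ℂ)).factorization p) ''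
      (Cfsg.principalBlock M G)) = 0 := by
    have hmem : (0 : ℕ) ∈ ((fun ψ : Cfsg.IrrCharacter G => (Cfsg.charDegree (ψ : G → ℂ)).factorization p) ''
        (Cfsg.principalBlock M G)) := by
      refine ⟨χ₀, hχ₀B, ?_⟩
      show (Cfsg.charDegree (χ₀ : G → ℂ)).factorization p = 0
      have : Cfsg.charDegree (χ₀ : G → ℂ) = 1 := by
        unfold Cfsg.charDegree
        rw [hχ₀]
        simp
      rw [this]; simp
    exact Nat.le_zero.1 (Nat.sInf_le hmem)
  have stepB : (∀ χ ∈ Cfsg.principalBlock M G, Cfsg.blockHeight p (Cfsg.principalBlock M G) (χ : G → ℂ) = 0) ↔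
      (∀ χ ∈ Cfsg.principalBlock M G, ¬ p ∣ Cfsg.charDegree (χ : G → ℂ)) := by
    have hiff : ∀ χ : Cfsg.IrrCharacter G,
        Cfsg.blockHeight p (Cfsg.principalBlock M G) (χ : G → ℂ) = 0 ↔ ¬ p ∣ Cfsg.charDegree (χ : G → ℂ) := by
      intro χ
      unfold Cfsg.blockHeight
      rw [hInf, Nat.sub_zero]
      have hd0 := (charDegree_irr χ.2).2
      constructor
      · intro h hdvd
        have := Nat.Prime.factorization_pos_of_dvd hp hd0 hdvd
        omega
      · intro h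
        exact Nat.factorization_eq_zero_of_not_dvd h
    constructor
    · intro h χ hχ; exact (hiff χ).1 (h χ hχ)
    · intro h χ hχ; exact (hiff χ).2 (h χ hχ)
  rw [stepC, michler_psolvable_iff p hps Pb, ← stepA, ← stepB]


end Cfsg.Agent.S4736
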