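import Cfsg.Statements.S5057
import Mathlib

set_option autoImplicit false
open Cfsg

namespace Cfsg.Agent.S5057

open Equiv in
theorem a6_order : ∀ x : Perm (Fin 6), Perm.sign x = 1 →
    x = 1 ∨ x ^ 2 = 1 ∨ x ^ 3 = 1 ∨ x ^ 4 = 1 ∨ x ^ 5 = 1 := by decide +kernel

open Equiv in
theorem a6_conj : ∀ x : Perm (Fin 6), Perm.sign x = 1 → x ^ 2 = 1 → x ≠ 1 →
    ∃ g : Perm (Fin 6), Perm.sign g = 1 ∧ x = g * (swap 0 1 * swap 2 3) * g⁻¹ := by decide +kernel

theorem closure_normal_of_conj {G : Type*} [Group G] {D : Set G}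
    (h : ∀ d ∈ D, ∀ g : G, g * d * g⁻¹ ∈ D) : (Subgroup.closure D).Normal := by
  constructor
  intro n hn g
  induction hn using Subgroup.closure_induction with
  | mem x hx => exact Subgroup.subset_closure (h x hx g)
  | one => simp
  | mul x y _ _ hx hy =>
    have e : g * (x * y) * g⁻¹ = (g * x * g⁻¹) * (g * y * g⁻¹) := by group
    rw [e]
    exact mul_mem hx hy
  | inv x _ hx =>
    have e : g * x⁻¹ * g⁻¹ = (g * x * g⁻¹)⁻¹ := by group
    rw [e]
    exact inv_mem hx

theorem a6_order_le (x : ↥(alternatingGroup (Fin 6))) : 0 < orderOf x ∧ orderOf x ≤ 5 := by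
  refine ⟨orderOf_pos x, ?_⟩
  have hs : Equiv.Perm.sign (x : Equiv.Perm (Fin 6)) = 1 := Equiv.Perm.mem_alternatingGroup.1 x.2
  rw [← Subgroup.orderOf_coe]
  rcases a6_order _ hs with h | h | h | h | h
  · rw [h, orderOf_one]; norm_num
  · exact (Nat.le_of_dvd (by norm_num) (orderOf_dvd_of_pow_eq_one h)).trans (by norm_num)
  · exact (Nat.le_of_dvd (by norm_num) (orderOf_dvd_of_pow_eq_one h)).trans (by norm_num)
  · exact (Nat.le_of_dvd (by norm_num) (orderOf_dvd_of_pow_eq_one h)).trans (by norm_num)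
  · exact (Nat.le_of_dvd (by norm_num) (orderOf_dvd_of_pow_eq_one h)).trans (by norm_num)

/-- the base involution `(0 1)(2 3)` -/
def a6_inv : ↥(alternatingGroup (Fin 6)) :=
  ⟨Equiv.swap 0 1 * Equiv.swap 2 3, Equiv.Perm.mem_alternatingGroup.2 (by decide)⟩

theorem a6_inv_order : orderOf a6_inv = 2 := by
  rw [← Subgroup.orderOf_coe]
  have : Fact (Nat.Prime 2) := ⟨Nat.prime_two⟩
  exact orderOf_eq_prime (by decide) (by decide)

theorem a6_conj' (a : ↥(alternatingGroup (Fin 6))) (ha : orderOf a = 2) :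
    ∃ g : ↥(alternatingGroup (Fin 6)), a = g * a6_inv * g⁻¹ := by
  have hs : Equiv.Perm.sign (a : Equiv.Perm (Fin 6)) = 1 := Equiv.Perm.mem_alternatingGroup.1 a.2
  have h2 : (a : Equiv.Perm (Fin 6)) ^ 2 = 1 := by
    have := pow_orderOf_eq_one (a : Equiv.Perm (Fin 6))
    rwa [Subgroup.orderOf_coe, ha] at this
  have h1 : (a : Equiv.Perm (Fin 6)) ≠ 1 := by
    intro hh
    have : orderOf (a : Equiv.Perm (Fin 6)) = 1 := by rw [hh, orderOf_one]
    rw [Subgroup.orderOf_coe, ha] at this
    norm_num at this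
  obtain ⟨g, hg, hx⟩ := a6_conj _ hs h2 h1
  refine ⟨⟨g, Equiv.Perm.mem_alternatingGroup.2 hg⟩, ?_⟩
  apply Subtype.ext
  exact hx

/-- The involutions of the alternating group of degree 6 form a class of root involutions (a single conjugacy class of involutions generating the group, any two of which commute, have product of odd order, or have product of order 4 whose square is again an involution of the class), and the product of any two of them has order at most 5. -/
theorem result :
    Cfsg.IsRootInvolutionClass {g : ↥(alternatingGroup (Fin 6)) | orderOf g = 2} ∧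
    ∀ d ∈ {g : ↥(alternatingGroup (Fin 6)) | orderOf g = 2}, ∀ e ∈ {g : ↥(alternatingGroup (Fin 6)) | orderOf g = 2},
      orderOf (d * e) ≤ 5 := by
  have hconj : ∀ d ∈ {g : ↥(alternatingGroup (Fin 6)) | orderOf g = 2},
      ∀ g : ↥(alternatingGroup (Fin 6)), g * d * g⁻¹ ∈ {g : ↥(alternatingGroup (Fin 6)) | orderOf g = 2} := by
    intro d hd g
    have h1 := MulEquiv.orderOf_eq (MulAut.conj g) d
    rw [MulAut.conj_apply] at h1
    show orderOf (g * d * g⁻¹) = 2
    rw [h1]
    exact hd
  have hsq : ∀ d ∈ {g : ↥(alternatingGroup (Fin 6)) | orderOf g = 2}, d * d = 1 := by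
    intro d hd
    have := pow_orderOf_eq_one d
    have hd' : orderOf d = 2 := hd
    rwa [hd', pow_two] at this
  refine ⟨⟨⟨fun d hd => hd, ?_, hconj, ?_⟩, ⟨a6_inv, a6_inv_order⟩, ?_⟩, ?_⟩
  · -- generation
    have hN := closure_normal_of_conj hconj
    have : IsSimpleGroup ↥(alternatingGroup (Fin 6)) := alternatingGroup.isSimpleGroup (by simp)
    rcases hN.eq_bot_or_eq_top with h | h
    · exfalso
      have h1 : a6_inv ∈ Subgroup.closure {g : ↥(alternatingGroup (Fin 6)) | orderOf g = 2} :=
        Subgroup.subset_closure a6_inv_order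
      rw [h, Subgroup.mem_bot] at h1
      have h2 := a6_inv_order
      rw [h1, orderOf_one] at h2
      norm_num at h2
    · exact h
  · -- pairs
    intro a ha b hb
    obtain ⟨hpos, hle⟩ := a6_order_le (a * b)
    obtain ⟨n, hn⟩ : ∃ n, orderOf (a * b) = n := ⟨_, rfl⟩
    rw [hn] at hpos hle
    interval_cases n
    · right; left
      rw [hn]; decide
    · left
      have h1 : (a * b) ^ 2 = 1 := by rw [← hn]; exact pow_orderOf_eq_one _
      have haa := hsq a ha
      have hbb := hsq b hb
      rw [pow_two] at h1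
      have hab : a * b = (a * b)⁻¹ := eq_inv_of_mul_eq_one_left h1
      rw [mul_inv_rev, inv_eq_of_mul_eq_one_left haa, inv_eq_of_mul_eq_one_left hbb] at hab
      exact hab
    · right; left
      rw [hn]; decide
    · right; right
      refine ⟨hn, ?_⟩
      show orderOf ((a * b) ^ 2) = 2
      rw [orderOf_pow' _ (by norm_num), hn]
      rfl
    · right; left
      rw [hn]; decide
  · -- one class
    intro a ha b hb
    obtain ⟨g, hg⟩ := a6_conj' a ha
    obtain ⟨h, hh⟩ := a6_conj' b hb
    refine ⟨h * g⁻¹, ?_⟩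
    rw [hh, hg]
    group
  · intro d _ e _
    exact (a6_order_le (d * e)).2

end Cfsg.Agent.S5057
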