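import Cfsg.Statements.S5078
import Mathlib
import Cfsg.Agent.Lib.Helper8.Fusion

set_option autoImplicit false
open Cfsg

namespace Cfsg.Agent.S5078

/-- In any fusion system over a finite subgroup S, a receptive subgroup is fully centralized. -/
theorem result {Ω : Type*} [Group Ω] {S : Subgroup Ω} [Finite S] (F : Cfsg.FusionSystem S) (P : Subgroup Ω) (hP : F.IsReceptive P) : F.IsFullyCentralized P := by
  classical
  obtain ⟨hPS, hrec⟩ := hP
  refine ⟨hPS, ?_⟩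
  intro Q hconj
  obtain ⟨φ, hφ, hQ⟩ := hconj
  subst hQ
  obtain ⟨ψ₀, hψ₀, hinv, hrange⟩ := Cfsg.Agent.Lib.Helper8.fs_exists_inv F hφ
  obtain ⟨ψ, hψ, hext⟩ := hrec φ.range ψ₀ hψ₀ hrange
  have hQS : φ.range ≤ S := Cfsg.Agent.Lib.Helper8.fs_range_le F hφ
  -- Q ≤ N
  have hQN : φ.range ≤ FusionSystem.extender S φ.range ψ₀ := by
    intro g hg
    apply Subgroup.subset_closure
    refine ⟨hQS hg, Subgroup.le_normalizer hg, ψ₀ ⟨g, hg⟩,
      Cfsg.Agent.Lib.Helper8.fs_map_mem F hψ₀ _, ?_⟩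
    intro x hx
    have : (⟨g * (x : Ω) * g⁻¹, hx⟩ : φ.range) = ⟨g, hg⟩ * x * ⟨g, hg⟩⁻¹ := rfl
    rw [this, map_mul, map_mul, map_inv]
  have hCN : FusionSystem.centralizerIn S φ.range ≤ FusionSystem.extender S φ.range ψ₀ := by
    intro c hc
    apply Subgroup.subset_closure
    have hc' := Cfsg.Agent.Lib.Helper8.mem_centralizerIn.1 hc
    refine ⟨hc'.1, Subgroup.centralizer_le_normalizer _ hc.2, 1, S.one_mem, ?_⟩
    intro x hx
    have : (⟨c * (x : Ω) * c⁻¹, hx⟩ : φ.range) = x := by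
      apply Subtype.ext
      show c * (x : Ω) * c⁻¹ = x
      rw [← hc'.2 x x.2, mul_inv_cancel_right]
    rw [this]
    simp
  have hfin : Finite (FusionSystem.centralizerIn S P) :=
    Cfsg.Agent.Lib.Helper8.finite_of_le_fs (Cfsg.Agent.Lib.Helper8.centralizerIn_le S P)
  have hmem : ∀ c : FusionSystem.centralizerIn S φ.range,
      ψ ⟨c.1, hCN c.2⟩ ∈ FusionSystem.centralizerIn S P := by
    intro c
    rw [Cfsg.Agent.Lib.Helper8.mem_centralizerIn]
    refine ⟨Cfsg.Agent.Lib.Helper8.fs_map_mem F hψ _, ?_⟩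
    intro z hz
    have hc' := Cfsg.Agent.Lib.Helper8.mem_centralizerIn.1 c.2
    have hφz : φ ⟨z, hz⟩ ∈ φ.range := ⟨_, rfl⟩
    have h1 : ψ ⟨φ ⟨z, hz⟩, hQN hφz⟩ = z := by
      rw [hext _ hφz (hQN hφz)]
      exact hinv ⟨z, hz⟩
    have h2 : (⟨φ ⟨z, hz⟩, hQN hφz⟩ : FusionSystem.extender S φ.range ψ₀) * ⟨c.1, hCN c.2⟩
        = ⟨c.1, hCN c.2⟩ * ⟨φ ⟨z, hz⟩, hQN hφz⟩ := by
      apply Subtype.ext
      exact hc'.2 _ hφz
    have h3 := congrArg ψ h2
    rw [map_mul, map_mul, h1] at h3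
    exact h3
  let f : FusionSystem.centralizerIn S φ.range → FusionSystem.centralizerIn S P :=
    fun c => ⟨ψ ⟨c.1, hCN c.2⟩, hmem c⟩
  have hf : Function.Injective f := by
    intro a b hab
    have h1 : ψ ⟨a.1, hCN a.2⟩ = ψ ⟨b.1, hCN b.2⟩ := congrArg Subtype.val hab
    have h2 := F.injective_of_mem hψ h1
    apply Subtype.ext
    exact congrArg (fun t : FusionSystem.extender S φ.range ψ₀ => (t : Ω)) h2
  exact Nat.card_le_card_of_injective f hf

end Cfsg.Agent.S5078
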