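import Cfsg.Statements.S5100
import Mathlib
import Cfsg.Agent.Lib.Helper8.GroupFusion

set_option autoImplicit false
open Cfsg

namespace Cfsg.Agent.S5100

/-- In the fusion system of a finite group G on a Sylow p-subgroup S, a subgroup P ≤ S is fully normalized if and only if N_S(P) is a Sylow p-subgroup of N_G(P). -/
theorem result {G : Type*} [Group G] [Finite G] (p : ℕ) [Fact p.Prime] (S : Sylow p G) (P : Subgroup G) (hP : P ≤ S) : (Cfsg.groupFusionSystem (S : Subgroup G)).IsFullyNormalized P ↔ ∃ R : Sylow p ↥(Subgroup.normalizer (P : Set G)), (R : Subgroup ↥(Subgroup.normalizer (P : Set G))) = (Cfsg.FusionSystem.normalizerIn (S : Subgroup G) P).subgroupOf (Subgroup.normalizer (P : Set G)) := by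
  classical
  constructor
  · rintro ⟨-, hfn⟩
    have key := Cfsg.Agent.Lib.Helper8.sylow_of_card_le S (Subgroup.normalizer (P : Set G)) P ?_ ?_
    · exact key
    · intro g hg
      have hc := hfn _ ((Cfsg.Agent.Lib.Helper8.gfs_isConj_iff hP).2 ⟨hg, g, rfl⟩)
      unfold FusionSystem.normalizerIn at hc
      rw [Cfsg.Agent.Lib.Helper8.normalizer_conjSub] at hc
      exact hc
    · intro T' hT' hpT'
      exact IsPGroup.to_sup_of_normal_left' (S.isPGroup'.to_le hP) hpT' hT'
  · intro h
    refine ⟨hP, ?_⟩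
    intro Q hQ
    obtain ⟨hQS, g, rfl⟩ := (Cfsg.Agent.Lib.Helper8.gfs_isConj_iff hP).1 hQ
    have key := Cfsg.Agent.Lib.Helper8.card_le_of_sylow S (Subgroup.normalizer (P : Set G)) h g
    unfold FusionSystem.normalizerIn
    rw [Cfsg.Agent.Lib.Helper8.normalizer_conjSub]
    exact key

end Cfsg.Agent.S5100
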