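import Cfsg.Statements.S5102
import Mathlib
import Cfsg.Agent.Lib.Helper8.Fusion3

set_option autoImplicit false
open Cfsg

namespace Cfsg.Agent.S5102

/-- A normal p-subgroup of a finite group G is normal in the fusion system of G on a Sylow p-subgroup. -/
theorem result {G : Type*} [Group G] [Finite G] (p : ℕ) [Fact p.Prime] (S : Sylow p G) (R : Subgroup G) [R.Normal] (hR : IsPGroup p R) : (Cfsg.groupFusionSystem (S : Subgroup G)).IsNormal R := by
  classical
  have hRS : R ≤ (S : Subgroup G) := hR.le_sylow_of_normal S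
  have hnorm : ∀ (g x : G), x ∈ R → g * x * g⁻¹ ∈ R := fun g x hx => ‹R.Normal›.conj_mem x hx g
  refine ⟨hRS, ?_⟩
  rintro P φ ⟨hPS, hφS, g, hg⟩
  have hval : ∀ x : (P ⊔ R : Subgroup G), conjHom (P ⊔ R) g x ∈ (S : Subgroup G) := by
    apply Cfsg.Agent.Lib.Helper8.sup_map_mem
    · intro x
      show g * (x : G) * g⁻¹ ∈ _
      rw [← hg]
      exact hφS x
    · intro x
      exact hRS (hnorm g x.1 x.2)
  refine ⟨conjHom (P ⊔ R) g, ⟨sup_le hPS hRS, hval, g, fun x => rfl⟩, ?_, ?_⟩
  · intro x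
    exact (hg x).symm
  · rw [Cfsg.Agent.Lib.Helper8.map_subgroupOf_sup_eq_iff]
    constructor
    · intro q
      exact hnorm g q.1 q.2
    · intro y hy
      refine ⟨⟨g⁻¹ * y * g, ?_⟩, ?_⟩
      · have := hnorm g⁻¹ y hy
        rwa [inv_inv] at this
      · show g * (g⁻¹ * y * g) * g⁻¹ = y
        simp [mul_assoc]

end Cfsg.Agent.S5102
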