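import Cfsg.Statements.S5112
import Mathlib
import Cfsg.Agent.Lib.Helper8.FusionMisc
import Cfsg.Agent.Lib.Helper8.QuaternionAut

set_option autoImplicit false
open Cfsg

namespace Cfsg.Agent.S5112

theorem autGroup_top_of_aut_pgroup {Ω : Type*} [Group Ω] {S : Subgroup Ω} [Finite S]
    (F : Cfsg.FusionSystem S) (p : ℕ) [Fact p.Prime] (hF : F.IsSaturated p)
    (hA : IsPGroup p (MulAut S)) : F.autGroup S = Cfsg.Inn S := by
  classical
  obtain ⟨Q, ⟨φ, hφ, hφr⟩, ⟨-, R, hR⟩, -⟩ := hF S le_rfl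
  have hQS : Q ≤ S := hφr ▸ Cfsg.Agent.Lib.Helper8.fs_range_le F hφ
  have hcard : Nat.card S ≤ Nat.card Q := by
    rw [← hφr]
    exact le_of_eq (Nat.card_congr (MonoidHom.ofInjective (F.injective_of_mem hφ)).toEquiv)
  have hQ : Q = S := Subgroup.eq_of_le_of_card_ge hQS hcard
  subst hQ
  have hAp : IsPGroup p (F.autGroup Q) := hA.to_subgroup _
  have htop : (⊤ : Subgroup (F.autGroup Q)) = R := R.is_maximal' (hAp.to_subgroup ⊤) le_top
  rw [hR] at htop
  have h1 : F.autGroup Q ≤ Cfsg.autInducedBy Q Q := Subgroup.subgroupOf_eq_top.1 htop.symm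
  apply le_antisymm
  · intro α hα
    obtain ⟨g, hg, hgx⟩ := (Cfsg.Agent.Lib.Helper8.mem_autInducedBy_iff Q Q α).1 (h1 hα)
    refine ⟨⟨g, hg⟩, ?_⟩
    ext x
    exact (hgx x).symm
  · exact Cfsg.Agent.Lib.Helper8.inn_le_autGroup F le_rfl

/-- If S is a dihedral or generalized quaternion 2-group of order at least 16, then in every saturated fusion system over S (at the prime 2) the automorphism group Aut_F(S) consists of the inner automorphisms of S. -/
theorem result {Ω : Type*} [Group Ω] {S : Subgroup Ω} [Finite S] (n : ℕ) (hn : 4 ≤ n) (hshape : Nonempty (S ≃* DihedralGroup (2 ^ (n - 1))) ∨ Nonempty (S ≃* QuaternionGroup (2 ^ (n - 2)))) (F : Cfsg.FusionSystem S) (hF : F.IsSaturated 2) : F.autGroup S = Cfsg.Inn S := by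
  apply autGroup_top_of_aut_pgroup F 2 hF
  rcases hshape with ⟨⟨e⟩⟩ | ⟨⟨e⟩⟩
  · exact (Cfsg.Agent.Lib.Helper8.dihedral_aut_isPGroup (n - 1) (by omega)).of_equiv
      (MulAut.congr e).symm
  · exact (Cfsg.Agent.Lib.Helper8.quaternion_aut_isPGroup (n - 2) (by omega)).of_equiv
      (MulAut.congr e).symm

end Cfsg.Agent.S5112
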