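import Cfsg.Statements.S5345
import Mathlib

set_option autoImplicit false
open Cfsg

namespace Cfsg.Agent.S5345

/-- Let D be a conjugation-invariant generating set of 3-transpositions of a finite group G and T a Sylow 2-subgroup of G. Then the members of D lying in T generate an abelian subgroup, and their number is the width of D (the largest number of pairwise commuting members of D). -/
theorem result {G : Type*} [Group G] [Finite G] {D : Set G} (hD : Cfsg.IsThreeTranspositionGroup D) (T : Sylow 2 G) : IsMulCommutative (Subgroup.closure {d : G | d ∈ D ∧ d ∈ T}) ∧ {d : G | d ∈ D ∧ d ∈ T}.ncard = Cfsg.commutingWidth D := by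
  obtain ⟨⟨hord, h3⟩, hconj, -⟩ := hD
  have sq : ∀ d ∈ D, d * d = 1 := by
    intro d hd
    have := pow_orderOf_eq_one d; rw [hord d hd] at this; rwa [pow_two] at this
  have comm_of_sq : ∀ x y : G, x * x = 1 → y * y = 1 → (x * y) * (x * y) = 1 → Commute x y := by
    intro x y hx hy hxy
    have h1 : (x * y)⁻¹ = x * y := inv_eq_of_mul_eq_one_right hxy
    have hxi : x⁻¹ = x := inv_eq_of_mul_eq_one_right hx
    have hyi : y⁻¹ = y := inv_eq_of_mul_eq_one_right hy
    rw [mul_inv_rev, hxi, hyi] at h1
    exact h1.symm
  -- members of D in the Sylow 2-subgroup commute pairwise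
  have hT : ∀ a ∈ {d : G | d ∈ D ∧ d ∈ T}, ∀ b ∈ {d : G | d ∈ D ∧ d ∈ T}, Commute a b := by
    rintro a ⟨haD, haT⟩ b ⟨hbD, hbT⟩
    apply comm_of_sq a b (sq a haD) (sq b hbD)
    have hab : a * b ∈ (T : Subgroup G) := (T : Subgroup G).mul_mem haT hbT
    obtain ⟨k, hk⟩ := T.isPGroup' ⟨a * b, hab⟩
    have hk' : (a * b) ^ (2 ^ k) = 1 := by
      have := congrArg Subtype.val hk; simpa using this
    rcases h3 a haD b hbD with h | h
    · rwa [pow_two] at h
    · have hdvd : orderOf (a * b) ∣ 2 ^ k := orderOf_dvd_of_pow_eq_one hk'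
      have hcop : Nat.gcd (2 ^ k) 3 = 1 := by
        apply Nat.Coprime.pow_left
        decide
      have h5 := Nat.dvd_gcd hdvd (orderOf_dvd_of_pow_eq_one h)
      rw [hcop] at h5
      have h6 : a * b = 1 := orderOf_eq_one_iff.mp (Nat.dvd_one.mp h5)
      rw [h6, one_mul]
  refine ⟨Subgroup.isMulCommutative_closure (fun x hx y hy => (hT x hx y hy).eq), ?_⟩
  unfold Cfsg.commutingWidth
  symm
  apply IsGreatest.csSup_eq
  constructor
  · exact ⟨{d : G | d ∈ D ∧ d ∈ T}, fun x hx => hx.1, Set.toFinite _, hT, rfl⟩
  · rintro n ⟨E, hED, -, hEc, rfl⟩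
    -- the closure of E is a 2-group
    have hcomm : IsMulCommutative (Subgroup.closure E) :=
      Subgroup.isMulCommutative_closure (fun x hx y hy => (hEc x hx y hy).eq)
    have hsq : ∀ x ∈ Subgroup.closure E, x * x = 1 := by
      intro x hx
      induction hx using Subgroup.closure_induction with
      | mem x hx => exact sq x (hED hx)
      | one => simp
      | mul x y hx hy ihx ihy =>
        have hxy : x * y = y * x := by
          have := hcomm.is_comm.comm (⟨x, hx⟩ : Subgroup.closure E) ⟨y, hy⟩
          simpa using congrArg Subtype.val this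
        calc x * y * (x * y) = x * (y * x) * y := by simp only [mul_assoc]
          _ = x * (x * y) * y := by rw [hxy]
          _ = (x * x) * (y * y) := by simp only [mul_assoc]
          _ = 1 := by rw [ihx, ihy, one_mul]
      | inv x hx ihx =>
        rw [← mul_inv_rev, ihx, inv_one]
    have hP : IsPGroup 2 (Subgroup.closure E) := by
      intro g
      refine ⟨1, ?_⟩
      apply Subtype.ext
      have := hsq g.1 g.2
      simpa [pow_two] using this
    obtain ⟨Q, hQ⟩ := hP.exists_le_sylow
    obtain ⟨g, hg⟩ := MulAction.exists_smul_eq G Q T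
    apply Set.ncard_le_ncard_of_injOn (fun e => g * e * g⁻¹)
    · intro e he
      refine ⟨hconj g e (hED he), ?_⟩
      have h1 : e ∈ (Q : Subgroup G) := hQ (Subgroup.subset_closure he)
      have h2 := Subgroup.smul_mem_pointwise_smul e (MulAut.conj g) (Q : Subgroup G) h1
      rw [← Sylow.coe_subgroup_smul, hg] at h2
      exact h2
    · intro x _ y _ hxy
      simpa using hxy

end Cfsg.Agent.S5345
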