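import Cfsg.Statements.S5363
import Mathlib

set_option autoImplicit false
open Cfsg

namespace Cfsg.Agent.S5363

/-- Let D be a conjugation-invariant set of involutions of a finite group G. Then every product of two members of D has odd order or order 2 if and only if, for every a in D and every b in D different from a and commuting with a, the members of D commuting with a b are exactly those commuting with both a and b. -/
theorem result {G : Type*} [Group G] [Finite G] {D : Set G} (hinv : ∀ d ∈ D, orderOf d = 2) (hconj : ∀ g : G, ∀ d ∈ D, g * d * g⁻¹ ∈ D) : (∀ a ∈ D, ∀ b ∈ D, Odd (orderOf (a * b)) ∨ orderOf (a * b) = 2) ↔ ∀ a ∈ D, ∀ b ∈ D, b ≠ a → Commute a b → {y : G | y ∈ D ∧ Commute (a * b) y} = {y : G | y ∈ D ∧ Commute a y} ∩ {y : G | y ∈ D ∧ Commute b y} := by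
  have sq : ∀ d ∈ D, d * d = 1 := by
    intro d hd
    have := pow_orderOf_eq_one d; rw [hinv d hd] at this; rwa [pow_two] at this
  have comm_of_sq : ∀ x y : G, x * x = 1 → y * y = 1 → (x * y) * (x * y) = 1 → Commute x y := by
    intro x y hx hy hxy
    have h1 : (x * y)⁻¹ = x * y := inv_eq_of_mul_eq_one_right hxy
    have hxi : x⁻¹ = x := inv_eq_of_mul_eq_one_right hx
    have hyi : y⁻¹ = y := inv_eq_of_mul_eq_one_right hy
    rw [mul_inv_rev, hxi, hyi] at h1
    exact h1.symm
  constructor
  · intro H a ha b hb hne hab
    have ha2 := sq a ha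
    have hb2 := sq b hb
    have hainv : a⁻¹ = a := inv_eq_of_mul_eq_one_right ha2
    ext y
    constructor
    · rintro ⟨hy, hyz⟩
      have hy2 := sq y hy
      have hz2 : (a * b) * (a * b) = 1 := by
        calc a * b * (a * b) = a * (b * a) * b := by simp only [mul_assoc]
          _ = a * (a * b) * b := by rw [hab.eq]
          _ = (a * a) * (b * b) := by simp only [mul_assoc]
          _ = 1 := by rw [ha2, hb2, one_mul]
      have hz1 : a * b ≠ 1 := by
        intro h
        have : b = a := by rw [← hainv]; exact (inv_eq_of_mul_eq_one_right h).symm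
        exact hne this
      haveI : Fact (Nat.Prime 2) := ⟨Nat.prime_two⟩
      have hoz : orderOf (a * b) = 2 := orderOf_eq_prime (by rw [pow_two]; exact hz2) hz1
      have hya : Commute y a := by
        have hcomm : Commute (y * a) (a * b) :=
          Commute.mul_left hyz.symm ((Commute.refl a).mul_right hab)
        have hyb : y * b = (y * a) * (a * b) := by
          simp only [mul_assoc]; rw [← mul_assoc a a b, ha2, one_mul]
        rcases H y hy a ha with ho | h2
        · have hcop : Nat.Coprime (orderOf (y * a)) (orderOf (a * b)) := by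
            rw [hoz]; exact Nat.coprime_two_right.mpr ho
          have hmul := hcomm.orderOf_mul_eq_mul_orderOf_of_coprime hcop
          rw [← hyb, hoz] at hmul
          have h1 : orderOf (y * a) = 1 := by
            rcases H y hy b hb with ho' | h2'
            · rw [hmul] at ho'
              exact absurd ho' (by simp)
            · rw [hmul] at h2'; omega
          have h3 : y * a = 1 := orderOf_eq_one_iff.mp h1
          have h4 : y = a := by
            have := inv_eq_of_mul_eq_one_left h3
            rw [hainv] at this; exact this.symm
          rw [h4]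
        · have : (y * a) * (y * a) = 1 := by
            have := pow_orderOf_eq_one (y * a); rw [h2] at this; rwa [pow_two] at this
          exact comm_of_sq y a hy2 ha2 this
      refine ⟨⟨hy, hya.symm⟩, hy, ?_⟩
      have h5 : Commute y (a⁻¹ * (a * b)) := Commute.mul_right (Commute.inv_right hya) hyz.symm
      have h6 : a⁻¹ * (a * b) = b := by group
      rw [h6] at h5
      exact h5.symm
    · rintro ⟨⟨hy, hya⟩, -, hyb⟩
      exact ⟨hy, Commute.mul_left hya hyb⟩
  · intro H2 a ha b hb
    have ha2 := sq a ha
    have hb2 := sq b hb
    have hainv : a⁻¹ = a := inv_eq_of_mul_eq_one_right ha2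
    have hbinv : b⁻¹ = b := inv_eq_of_mul_eq_one_right hb2
    have hr : ∀ r : G, r = a * b → Odd (orderOf r) ∨ orderOf r = 2 := by
      intro r hr
      have hn : 0 < orderOf r := orderOf_pos r
      rcases Nat.even_or_odd (orderOf r) with he | ho
      · right
        obtain ⟨k, hk⟩ := he
        have har' : a * r = b := by rw [hr, ← mul_assoc, ha2, one_mul]
        have hrinv : r⁻¹ = b * a := by rw [hr, mul_inv_rev, hainv, hbinv]
        have har2 : a * r = r⁻¹ * a := by rw [har', hrinv, mul_assoc, ha2, mul_one]
        have hbr2 : b * r = r⁻¹ * b := by rw [hrinv, hr, mul_assoc]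
        have hkey : ∀ j : ℕ, a * r ^ j ∈ D ∧ a * r ^ (j + 1) ∈ D := by
          intro j
          induction j with
          | zero => exact ⟨by simpa using ha, by simpa [har'] using hb⟩
          | succ j ih =>
            refine ⟨ih.2, ?_⟩
            have : a * r ^ (j + 1 + 1) = r⁻¹ * (a * r ^ j) * r⁻¹⁻¹ := by
              calc a * r ^ (j + 1 + 1) = a * (r * r ^ j * r) := by rw [pow_succ, pow_succ']
                _ = (a * r) * r ^ j * r := by simp only [mul_assoc]
                _ = (r⁻¹ * a) * r ^ j * r := by rw [har2]
                _ = r⁻¹ * (a * r ^ j) * r⁻¹⁻¹ := by rw [inv_inv]; simp only [mul_assoc]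
            rw [this]; exact hconj _ _ ih.1
        have hc : a * r ^ k ∈ D := (hkey k).1
        have hzz : r ^ k * r ^ k = 1 := by rw [← pow_add, ← hk, pow_orderOf_eq_one]
        have hz1 : r ^ k ≠ 1 := pow_ne_one_of_lt_orderOf (by omega) (by omega)
        have hzinv : (r ^ k)⁻¹ = r ^ k := inv_eq_of_mul_eq_one_right hzz
        have haz : a * r ^ k = r ^ k * a := by
          have hsc : SemiconjBy a r r⁻¹ := har2
          have := (hsc.pow_right k).eq
          rw [inv_pow, hzinv] at this; exact this
        have hbz : b * r ^ k = r ^ k * b := by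
          have hsc : SemiconjBy b r r⁻¹ := hbr2
          have := (hsc.pow_right k).eq
          rw [inv_pow, hzinv] at this; exact this
        have hca : a * r ^ k ≠ a := fun h => hz1 (by simpa using h)
        have hac : Commute a (a * r ^ k) := by
          show a * (a * r ^ k) = (a * r ^ k) * a
          rw [mul_assoc, ← haz]
        have hb_mem : b ∈ {y : G | y ∈ D ∧ Commute (a * (a * r ^ k)) y} :=
          ⟨hb, by rw [← mul_assoc, ha2, one_mul]; exact hbz.symm⟩
        rw [H2 a ha _ hc hca hac] at hb_mem
        have hab : Commute a b := hb_mem.1.2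
        have hr2 : r ^ 2 = 1 := by
          rw [pow_two, hr]
          calc a * b * (a * b) = a * (b * a) * b := by simp only [mul_assoc]
            _ = a * (a * b) * b := by rw [hab.eq]
            _ = (a * a) * (b * b) := by simp only [mul_assoc]
            _ = 1 := by rw [ha2, hb2, one_mul]
        have hdvd : orderOf r ∣ 2 := orderOf_dvd_of_pow_eq_one hr2
        have hle := Nat.le_of_dvd (by norm_num) hdvd
        omega
      · left; exact ho
    exact hr (a * b) rfl

end Cfsg.Agent.S5363
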