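import Cfsg.Statements.S5364
import Mathlib

set_option autoImplicit false
open Cfsg

namespace Cfsg.Agent.S5364

/-- Let D be a conjugation-invariant set of involutions of a finite group G and t an involution in the centre of G such that d t does not lie in D for any d in D. If the images of the members of D in G modulo the subgroup generated by t satisfy the 3-transposition order conditions (each has order 2 and any two have product of order at most 3), then so do the members of D. -/
theorem result {G : Type*} [Group G] [Finite G] {D : Set G} (hinv : ∀ d ∈ D, orderOf d = 2) (hconj : ∀ g : G, ∀ d ∈ D, g * d * g⁻¹ ∈ D) (t : G) (ht : orderOf t = 2) (htZ : t ∈ Subgroup.center G) (hDt : ∀ d ∈ D, d * t ∉ D) [(Subgroup.zpowers t).Normal] (himg : Cfsg.IsThreeTranspositionSet ((QuotientGroup.mk : G → G ⧸ Subgroup.zpowers t) '' D)) : Cfsg.IsThreeTranspositionSet D := by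
  refine ⟨hinv, fun d hd e he => ?_⟩
  have hd2 : d * d = 1 := by
    have := pow_orderOf_eq_one d; rw [hinv d hd] at this; rwa [pow_two] at this
  have he2 : e * e = 1 := by
    have := pow_orderOf_eq_one e; rw [hinv e he] at this; rwa [pow_two] at this
  have hdinv : d⁻¹ = d := inv_eq_of_mul_eq_one_right hd2
  have heinv : e⁻¹ = e := inv_eq_of_mul_eq_one_right he2
  have hee : ∀ x : G, e * (e * x) = x := fun x => by rw [← mul_assoc, he2, one_mul]
  have hdd : ∀ x : G, d * (d * x) = x := fun x => by rw [← mul_assoc, hd2, one_mul]
  have hzp : ∀ x ∈ Subgroup.zpowers t, x = 1 ∨ x = t := by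
    intro x hx
    obtain ⟨k, rfl⟩ := Subgroup.mem_zpowers_iff.mp hx
    have h1 : t ^ (k % (2:ℤ)) = t ^ k := by
      have := zpow_mod_orderOf t k; rw [ht] at this; exact_mod_cast this
    rcases Int.emod_two_eq_zero_or_one k with h | h
    · left; rw [← h1, h]; simp
    · right; rw [← h1, h]; simp
  have hcent : ∀ x : G, x * t = t * x := fun x => (Subgroup.mem_center_iff.mp htZ x)
  have hq := himg.2 (QuotientGroup.mk d) ⟨d, hd, rfl⟩ (QuotientGroup.mk e) ⟨e, he, rfl⟩
  rcases hq with hq | hq
  · left
    have hmem : (d * e) ^ 2 ∈ Subgroup.zpowers t := by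
      rw [← QuotientGroup.eq_one_iff]; simpa using hq
    rcases hzp _ hmem with h | h
    · exact h
    · exfalso
      have h2 : d * (e * d * e) = t := by rw [← h, pow_two]; simp only [mul_assoc]
      have h3 : e * d * e⁻¹ = d * t := by
        rw [heinv, ← h2]; simp only [mul_assoc, hdd]
      exact hDt d hd (h3 ▸ hconj e d hd)
  · right
    have hmem : (d * e) ^ 3 ∈ Subgroup.zpowers t := by
      rw [← QuotientGroup.eq_one_iff]; simpa using hq
    rcases hzp _ hmem with h | h
    · exact h
    · exfalso
      have h2 : (d * e * d) * (e * d * e) = t := by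
        rw [← h, pow_succ, pow_two]; simp only [mul_assoc]
      have hx2 : (e * d * e) * (e * d * e) = 1 := by
        simp only [mul_assoc, hee, hdd, he2]
      have h3 : d * e * d⁻¹ = (e * d * e⁻¹) * t := by
        calc d * e * d⁻¹ = d * e * d := by rw [hdinv]
          _ = (d * e * d) * ((e * d * e) * (e * d * e)) := by rw [hx2, mul_one]
          _ = ((d * e * d) * (e * d * e)) * (e * d * e) := (mul_assoc _ _ _).symm
          _ = t * (e * d * e) := by rw [h2]
          _ = (e * d * e) * t := (hcent _).symm
          _ = (e * d * e⁻¹) * t := by rw [heinv]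
      exact hDt (e * d * e⁻¹) (hconj e d hd) (h3 ▸ hconj d e he)

end Cfsg.Agent.S5364
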