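import Cfsg.Statements.S5394
import Mathlib
import Cfsg.Agent.Lib.Helper9.M24Inv

set_option autoImplicit false
open Cfsg

namespace Cfsg.Agent.S5394

open Cfsg.Agent.Lib.Helper9
open Cfsg
open scoped Pointwise

/-- The automorphism group of the length-24 code built from the squares modulo 23 has exactly two conjugacy classes of involutions: an involution either fixes exactly the eight points of an octad or has no fixed points, both kinds occur, and any two involutions of the same kind are conjugate in the group. -/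
theorem result : (∀ g ∈ Cfsg.M24, orderOf g = 2 → (Finset.univ.filter fun p => g p = p) ∈ Cfsg.octads ∨ ∀ p, g p ≠ p) ∧ (∃ g ∈ Cfsg.M24, orderOf g = 2 ∧ (Finset.univ.filter fun p => g p = p) ∈ Cfsg.octads) ∧ (∃ g ∈ Cfsg.M24, orderOf g = 2 ∧ ∀ p, g p ≠ p) ∧ ∀ g ∈ Cfsg.M24, ∀ h ∈ Cfsg.M24, orderOf g = 2 → orderOf h = 2 → ((∀ p, g p ≠ p) ↔ (∀ p, h p ≠ p)) → ∃ k ∈ Cfsg.M24, k * g * k⁻¹ = h := by
  have hA : permL repA ∈ M24 := permL_mem_M24 repA_M24
  have hB : permL repB ∈ M24 := permL_mem_M24 repB_M24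
  have typeA : ∀ g k : Equiv.Perm GolayPt, k ∈ M24 → k * g * k⁻¹ = permL repA →
      (Finset.univ.filter fun p => g p = p) ∈ octads := by
    intro g k hk he
    have e : g = k⁻¹ * permL repA * k⁻¹⁻¹ := by rw [← he]; group
    rw [e, fix_conj, repA_fix]
    exact smul_mem_octads (M24.inv_mem hk) mset_o0_mem
  have typeB : ∀ g k : Equiv.Perm GolayPt, k * g * k⁻¹ = permL repB → ∀ p, g p ≠ p := by
    intro g k he p hp
    apply repB_fpf (k p)
    rw [← he]
    simp [hp]
  have nonfpf : ∀ g : Equiv.Perm GolayPt, (Finset.univ.filter fun p => g p = p) ∈ octads →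
      ¬ ∀ p, g p ≠ p := by
    intro g ho hall
    have hc : (Finset.univ.filter fun p => g p = p).card = 8 := ho.2
    have : (Finset.univ.filter fun p => g p = p) = ∅ := by
      rw [Finset.filter_eq_empty_iff]
      intro p _
      exact hall p
    rw [this] at hc
    simp at hc
  have conj : ∀ (g h k k' r : Equiv.Perm GolayPt), k ∈ M24 → k' ∈ M24 → k * g * k⁻¹ = r →
      k' * h * k'⁻¹ = r → ∃ c ∈ M24, c * g * c⁻¹ = h := by
    intro g h k k' r hk hk' he he'
    refine ⟨k'⁻¹ * k, M24.mul_mem (M24.inv_mem hk') hk, ?_⟩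
    calc k'⁻¹ * k * g * (k'⁻¹ * k)⁻¹ = k'⁻¹ * (k * g * k⁻¹) * k' := by group
      _ = k'⁻¹ * (k' * h * k'⁻¹) * k' := by rw [he, he']
      _ = h := by group
  refine ⟨?_, ⟨permL repA, hA, orderOf_repA, by rw [repA_fix]; exact mset_o0_mem⟩,
    ⟨permL repB, hB, orderOf_repB, repB_fpf⟩, ?_⟩
  · intro g hg h2
    obtain ⟨k, hk, he | he⟩ := inv_class g hg h2
    · exact Or.inl (typeA g k hk he)
    · exact Or.inr (typeB g k he)
  · intro g hg h hh og oh hiff
    obtain ⟨k, hk, he | he⟩ := inv_class g hg og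
    · obtain ⟨k', hk', he' | he'⟩ := inv_class h hh oh
      · exact conj g h k k' _ hk hk' he he'
      · exact absurd (hiff.mpr (typeB h k' he')) (nonfpf g (typeA g k hk he))
    · obtain ⟨k', hk', he' | he'⟩ := inv_class h hh oh
      · exact absurd (hiff.mp (typeB g k he)) (nonfpf h (typeA h k' hk' he'))
      · exact conj g h k k' _ hk hk' he he'

end Cfsg.Agent.S5394
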