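import Cfsg.Statements.S5395
import Mathlib

set_option autoImplicit false
open Cfsg

namespace Cfsg.Agent.S5395

open Classical in
/-- The sign map: `1` on the identity, `-1` elsewhere. -/
noncomputable def sg {E : Type*} [Group E] (c : E) : ℂˣ := if c = 1 then 1 else -1

theorem card_hom {E : Type*} [Group E] [Finite E] :
    Nat.card (E →* ℂˣ) = (commutator E).index := by
  haveI : NeZero (Monoid.exponent (Abelianization E)) := ⟨Monoid.exponent_ne_zero_of_finite⟩
  rw [Nat.card_congr (Abelianization.lift (G := E) (A := ℂˣ))]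
  rw [CommGroup.card_monoidHom_of_hasEnoughRootsOfUnity (Abelianization E) ℂ]
  rfl

/-- For a finite extraspecial 2-group E, an automorphism of E that induces the identity on E modulo its centre is inner (so these automorphisms form exactly the inner automorphism group, an elementary abelian 2-group of order |E|/2). -/
theorem result {E : Type*} [Group E] [Finite E] (hE : Cfsg.IsExtraspecial 2 E) (φ : E ≃* E) (hφ : ∀ x : E, φ x * x⁻¹ ∈ Subgroup.center E) : ∃ g : E, ∀ x : E, φ x = g * x * g⁻¹ := by
  classical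
  obtain ⟨⟨_, _, hcomm⟩, hZ2⟩ := hE
  have two : ∀ c c' : E, c ∈ Subgroup.center E → c' ∈ Subgroup.center E → c ≠ 1 → c' ≠ 1 →
      c = c' := by
    intro c c' hc hc' h1 h1'
    let e := Finite.equivFinOfCardEq hZ2
    have key : ∀ a b b' : Fin 2, a ≠ b → a ≠ b' → b = b' := by decide
    have h := key (e 1) (e ⟨c, hc⟩) (e ⟨c', hc'⟩)
      (fun h => h1 (by have h2 := e.injective h; exact (congrArg Subtype.val h2).symm))
      (fun h => h1' (by have h2 := e.injective h; exact (congrArg Subtype.val h2).symm))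
    exact congrArg Subtype.val (e.injective h)
  have sq : ∀ c : E, c ∈ Subgroup.center E → c * c = 1 := by
    intro c hc
    by_contra h
    by_cases h1 : c = 1
    · exact h (by rw [h1, one_mul])
    · have h2 := two (c * c) c (mul_mem hc hc) hc h h1
      exact h1 (by simpa using h2)
  have sg_mul : ∀ c c' : E, c ∈ Subgroup.center E → c' ∈ Subgroup.center E →
      sg (c * c') = sg c * sg c' := by
    intro c c' hc hc'
    by_cases h1 : c = 1
    · subst h1; simp [sg]
    · by_cases h1' : c' = 1
      · subst h1'; simp [sg]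
      · have h2 := two c c' hc hc' h1 h1'
        subst h2
        simp [sg, sq c hc, h1]
  have hne : (-1 : ℂˣ) ≠ 1 := by
    intro h
    have h2 := congrArg Units.val h
    norm_num at h2
  have sg_inj : ∀ c c' : E, c ∈ Subgroup.center E → c' ∈ Subgroup.center E → sg c = sg c' →
      c = c' := by
    intro c c' hc hc' h
    by_cases h1 : c = 1
    · by_cases h1' : c' = 1
      · rw [h1, h1']
      · exfalso
        simp only [sg, h1, h1', if_true, if_false] at h
        exact hne h.symm
    · by_cases h1' : c' = 1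
      · exfalso
        simp only [sg, h1, h1', if_true, if_false] at h
        exact hne h
      · exact two c c' hc hc' h1 h1'
  have mu_mul : ∀ (ψ : E ≃* E), (∀ x, ψ x * x⁻¹ ∈ Subgroup.center E) → ∀ x y,
      sg (ψ (x * y) * (x * y)⁻¹) = sg (ψ x * x⁻¹) * sg (ψ y * y⁻¹) := by
    intro ψ hψ x y
    rw [← sg_mul _ _ (hψ x) (hψ y)]
    congr 1
    have hc := Subgroup.mem_center_iff.mp (hψ y) x⁻¹
    rw [map_mul, mul_inv_rev]
    calc ψ x * ψ y * (y⁻¹ * x⁻¹) = ψ x * ((ψ y * y⁻¹) * x⁻¹) := by group
      _ = ψ x * (x⁻¹ * (ψ y * y⁻¹)) := by rw [hc]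
      _ = ψ x * x⁻¹ * (ψ y * y⁻¹) := by group
  let mu : (ψ : E ≃* E) → (∀ x, ψ x * x⁻¹ ∈ Subgroup.center E) → (E →* ℂˣ) :=
    fun ψ hψ => MonoidHom.mk' (fun x => sg (ψ x * x⁻¹)) (mu_mul ψ hψ)
  have hinner : ∀ g x : E, (MulAut.conj g) x * x⁻¹ ∈ Subgroup.center E := by
    intro g x
    rw [← hcomm, MulAut.conj_apply]
    have h1 : g * x * g⁻¹ * x⁻¹ ∈ commutator E :=
      Subgroup.commutator_mem_commutator (Subgroup.mem_top g) (Subgroup.mem_top x)
    exact h1
  let F : E → (E →* ℂˣ) := fun g => mu (MulAut.conj g) (hinner g)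
  have hF : ∀ g h : E, F g = F h ↔ g⁻¹ * h ∈ Subgroup.center E := by
    intro g h
    constructor
    · intro hFgh
      rw [Subgroup.mem_center_iff]
      intro x
      have h1 : sg ((MulAut.conj g) x * x⁻¹) = sg ((MulAut.conj h) x * x⁻¹) :=
        DFunLike.congr_fun hFgh x
      have h2 := sg_inj _ _ (hinner g x) (hinner h x) h1
      simp only [MulAut.conj_apply] at h2
      have h3 : g * x * g⁻¹ = h * x * h⁻¹ := mul_right_cancel h2
      calc x * (g⁻¹ * h) = g⁻¹ * (g * x * g⁻¹) * h := by group
        _ = g⁻¹ * (h * x * h⁻¹) * h := by rw [h3]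
        _ = g⁻¹ * h * x := by group
    · intro hc
      apply MonoidHom.ext
      intro x
      show sg ((MulAut.conj g) x * x⁻¹) = sg ((MulAut.conj h) x * x⁻¹)
      congr 1
      simp only [MulAut.conj_apply]
      have h1 := Subgroup.mem_center_iff.mp hc x
      have h3 : g * x * g⁻¹ = h * x * h⁻¹ := by
        calc g * x * g⁻¹ = g * (x * (g⁻¹ * h)) * h⁻¹ := by group
          _ = g * (g⁻¹ * h * x) * h⁻¹ := by rw [h1]
          _ = h * x * h⁻¹ := by group
      rw [h3]
  let Fq : E ⧸ Subgroup.center E → (E →* ℂˣ) :=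
    Quotient.lift F (fun a b hab => (hF a b).mpr (QuotientGroup.leftRel_apply.mp hab))
  have hFq_inj : Function.Injective Fq := by
    intro p q
    induction p using QuotientGroup.induction_on with
    | H a =>
      induction q using QuotientGroup.induction_on with
      | H b =>
        intro h
        exact QuotientGroup.eq.mpr ((hF a b).mp h)
  have hcard : Nat.card (E →* ℂˣ) = Nat.card (E ⧸ Subgroup.center E) := by
    rw [card_hom, hcomm]
    rfl
  haveI : Finite (E →* ℂˣ) :=
    Nat.finite_of_card_ne_zero (by rw [hcard]; exact Nat.card_pos.ne')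
  have hbij := hFq_inj.bijective_of_nat_card_le (le_of_eq hcard)
  obtain ⟨q, hq⟩ := hbij.2 (mu φ hφ)
  induction q using QuotientGroup.induction_on with
  | H g =>
    refine ⟨g, fun x => ?_⟩
    have h1 : sg ((MulAut.conj g) x * x⁻¹) = sg (φ x * x⁻¹) := DFunLike.congr_fun hq x
    have h2 := sg_inj _ _ (hinner g x) (hφ x) h1
    simp only [MulAut.conj_apply] at h2
    exact (mul_right_cancel h2).symm

end Cfsg.Agent.S5395
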