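import Cfsg.Statements.S5396
import Mathlib
import Cfsg.Agent.Lib.Helper6.Rank2
-- import your own Cfsg.Agent.* helpers here

set_option autoImplicit false
open Cfsg

namespace Cfsg.Agent.S5396

open Cfsg.Agent.S3799 Cfsg.Agent.Lib.Helper6.Extra2 Cfsg.Agent.Lib.Helper6.Rank2

/-- For every n ≥ 1 there exist finite extraspecial 2-groups of order 2^(2n+1) whose 2-rank (the largest rank of an elementary abelian subgroup) is n, and ones whose 2-rank is n + 1 (so for each such order there are two non-isomorphic extraspecial 2-groups, told apart by their 2-rank). -/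
theorem result (n : ℕ) (hn : 1 ≤ n) : ∀ r ∈ ({n, n + 1} : Set ℕ), ∃ (E : Type) (_ : Group E) (_ : Finite E), Cfsg.IsExtraspecial 2 E ∧ Nat.card E = 2 ^ (2 * n + 1) ∧ sSup {k : ℕ | ∃ A : Subgroup E, Cfsg.IsElementaryAbelian 2 A ∧ Nat.card A = 2 ^ k} = r := by
  classical
  haveI : Fact (Nat.Prime 2) := ⟨Nat.prime_two⟩
  intro r hr
  rw [Set.mem_insert_iff, Set.mem_singleton_iff] at hr
  rcases hr with hr | hr
  · obtain ⟨m, hm⟩ : ∃ m, n = m + 1 := ⟨n - 1, by omega⟩
    have hX := hq_extraspecial m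
    have hcard : Nat.card (HQ m) = 2 ^ (2 * n + 1) := by
      rw [HQ.card_hq, hm]; congr 1; omega
    refine ⟨HQ m, inferInstance, inferInstance, hX, hcard, ?_⟩
    rw [hr, hm]
    apply IsGreatest.csSup_eq
    constructor
    · exact ⟨hqB m, And.intro ⟨⟨fun a b => Subtype.ext (hqB_comm m a.1 a.2 b.1 b.2)⟩⟩ (hqB_sq m),
        hqB_card m⟩
    · rintro k ⟨A, ⟨hAc, hA2⟩, hAk⟩
      have := hq_rank m A hAc hA2
      rw [hAk] at this
      exact (Nat.pow_le_pow_iff_right (by norm_num)).mp this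
  · have hX : Cfsg.IsExtraspecial 2 (Heis n 2) := Heis.extraspecial hn
    have hcard : Nat.card (Heis n 2) = 2 ^ (2 * n + 1) := by
      rw [Heis.card_heis]; congr 1; omega
    refine ⟨Heis n 2, inferInstance, inferInstance, hX, hcard, ?_⟩
    rw [hr]
    apply IsGreatest.csSup_eq
    constructor
    · exact ⟨heisB n, And.intro ⟨⟨fun a b => Subtype.ext (heisB_comm n a.1 a.2 b.1 b.2)⟩⟩
        (heisB_sq n), heisB_card n⟩
    · rintro k ⟨A, ⟨hAc, hA2⟩, hAk⟩
      have := rank_le_succ hX n hcard A hAc hA2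
      rw [hAk] at this
      exact (Nat.pow_le_pow_iff_right (by norm_num)).mp this

end Cfsg.Agent.S5396
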