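import Cfsg.Statements.S5420
import Mathlib
import Cfsg.Agent.Lib.Helper9.Basic

set_option autoImplicit false
open Cfsg

namespace Cfsg.Agent.S5420

/-- Let Q be an extraspecial 2-subgroup of the finite group G whose centralizer in G is its centre Z and which is normal in the centralizer of Z. If Z lies in the largest normal 2-subgroup of G, then Q is a large extraspecial 2-subgroup of G: it normalizes no non-trivial subgroup of G of odd order. -/
theorem result {G : Type*} [Group G] [Finite G] (Q : Subgroup G) (hL1 : Cfsg.IsExtraspecial 2 ↥Q) (hL2 : Subgroup.centralizer (Q : Set G) = ((Subgroup.center ↥Q).map Q.subtype)) (hL3 : Subgroup.centralizer (((Subgroup.center ↥Q).map Q.subtype) : Set G) ≤ Subgroup.normalizer (Q : Set G)) (hZ : ((Subgroup.center ↥Q).map Q.subtype) ≤ Cfsg.pCore 2 G) : Cfsg.IsLargeExtraspecial Q := by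
  refine ⟨hL1, hL2, hL3, ?_⟩
  intro K hK hQK
  have hZQ : (Subgroup.center ↥Q).map Q.subtype ≤ Q := Subgroup.map_subtype_le _
  have hQ2 : IsPGroup 2 Q := hL1.1.1
  have comm_of : ∀ a b : G, a * b * a⁻¹ * b⁻¹ = 1 → a * b = b * a := by
    intro a b h
    have : a * b * a⁻¹ = b := by rwa [mul_inv_eq_one] at h
    calc a * b = a * b * a⁻¹ * a := by group
      _ = b * a := by rw [this]
  -- Step 1: K centralizes Z
  have hKZ : K ≤ Subgroup.centralizer (((Subgroup.center ↥Q).map Q.subtype : Subgroup G) : Set G) := by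
    intro k hk
    rw [Subgroup.mem_centralizer_iff]
    intro z hz
    have h1 : z * k * z⁻¹ * k⁻¹ ∈ K ⊓ Cfsg.pCore 2 G := by
      constructor
      · have hzN := hQK (hZQ hz)
        rw [Subgroup.mem_normalizer_iff] at hzN
        exact K.mul_mem ((hzN k).mp hk) (K.inv_mem hk)
      · have hn := Lib.Helper9.pCore_normal 2 G
        have hzO := hZ hz
        have : z * (k * z⁻¹ * k⁻¹) ∈ Cfsg.pCore 2 G :=
          mul_mem hzO (hn.conj_mem _ (inv_mem hzO) k)
        simpa [mul_assoc] using this
    rw [Lib.Helper9.inf_eq_bot_of_odd_of_two_group hK (Lib.Helper9.pCore_isPGroup 2 G),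
      Subgroup.mem_bot] at h1
    exact comm_of z k h1
  -- Step 2: K normalizes Q
  have hKN : K ≤ Subgroup.normalizer (Q : Set G) := hKZ.trans hL3
  -- Step 3: K centralizes Q
  have hKC : K ≤ Subgroup.centralizer (Q : Set G) := by
    intro k hk
    rw [Subgroup.mem_centralizer_iff]
    intro q hq
    have h1 : q * k * q⁻¹ * k⁻¹ ∈ K ⊓ Q := by
      constructor
      · have := hQK hq
        rw [Subgroup.mem_normalizer_iff] at this
        exact K.mul_mem ((this k).mp hk) (K.inv_mem hk)
      · have := hKN hk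
        rw [Subgroup.mem_normalizer_iff] at this
        have h2 : k * q⁻¹ * k⁻¹ ∈ Q := (this q⁻¹).mp (Q.inv_mem hq)
        have : q * (k * q⁻¹ * k⁻¹) ∈ Q := Q.mul_mem hq h2
        simpa [mul_assoc] using this
    rw [Lib.Helper9.inf_eq_bot_of_odd_of_two_group hK hQ2, Subgroup.mem_bot] at h1
    exact comm_of q k h1
  -- Step 4
  have hKQ : K ≤ Q := by
    rw [hL2] at hKC
    exact hKC.trans hZQ
  have h := Lib.Helper9.inf_eq_bot_of_odd_of_two_group hK hQ2
  rwa [inf_eq_left.mpr hKQ] at h

end Cfsg.Agent.S5420
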