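import Cfsg.Statements.S5421
import Mathlib
import Cfsg.Agent.Lib.Helper9.Basic

set_option autoImplicit false
open Cfsg

namespace Cfsg.Agent.S5421

/-- Let Q be an extraspecial 2-subgroup of the finite group G whose centralizer in G is its centre Z and which is normal in the centralizer of Z. If some involution b of Q outside Z has Z inside the largest normal 2-subgroup of the centralizer of b, then Q is a large extraspecial 2-subgroup of G. -/
theorem result {G : Type*} [Group G] [Finite G] (Q : Subgroup G) (hL1 : Cfsg.IsExtraspecial 2 ↥Q) (hL2 : Subgroup.centralizer (Q : Set G) = ((Subgroup.center ↥Q).map Q.subtype)) (hL3 : Subgroup.centralizer (((Subgroup.center ↥Q).map Q.subtype) : Set G) ≤ Subgroup.normalizer (Q : Set G)) (b : G) (hbQ : b ∈ Q) (hbZ : b ∉ ((Subgroup.center ↥Q).map Q.subtype)) (hb : orderOf b = 2) (hZ : ((Subgroup.center ↥Q).map Q.subtype) ≤ (Cfsg.pCore 2 ↥(Subgroup.centralizer ({b} : Set G))).map (Subgroup.centralizer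 ({b} : Set G)).subtype) : Cfsg.IsLargeExtraspecial Q := by
  classical
  refine ⟨hL1, hL2, hL3, ?_⟩
  intro K hKodd hQK
  obtain ⟨⟨hP2, -, hcomm⟩, hZ2⟩ := hL1
  haveI : Nontrivial (Subgroup.center ↥Q) :=
    (Finite.one_lt_card_iff_nontrivial).mp (by rw [hZ2]; norm_num)
  obtain ⟨c, hc⟩ := exists_ne (1 : Subgroup.center ↥Q)
  have two : ∀ c' : Subgroup.center ↥Q, c' = 1 ∨ c' = c := by
    intro c'
    let e := Finite.equivFinOfCardEq hZ2
    have key : ∀ a b b' : Fin 2, a ≠ b → b' = a ∨ b' = b := by decide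
    rcases key (e 1) (e c) (e c') (fun h => hc (e.injective h).symm) with h | h
    · left; exact e.injective h
    · right; exact e.injective h
  have hzQ : ((c : ↥Q) : G) ∈ Q := (c : ↥Q).2
  have hz1 : ((c : ↥Q) : G) ≠ 1 := by
    intro h
    apply hc
    apply Subtype.ext
    apply Subtype.ext
    exact h
  have hzZ : ((c : ↥Q) : G) ∈ (Subgroup.center ↥Q).map Q.subtype := ⟨(c : ↥Q), c.2, rfl⟩
  have hZmem : ∀ g ∈ (Subgroup.center ↥Q).map Q.subtype, g = 1 ∨ g = ((c : ↥Q) : G) := by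
    rintro g ⟨x, hx, rfl⟩
    rcases two ⟨x, hx⟩ with h | h
    · left
      have h2 := congrArg (fun t : Subgroup.center ↥Q => ((t : ↥Q) : G)) h
      exact h2
    · right
      exact congrArg (fun t : Subgroup.center ↥Q => ((t : ↥Q) : G)) h
  generalize hzdef : ((c : ↥Q) : G) = z at hzQ hz1 hzZ hZmem
  have hzcomm : ∀ q ∈ Q, q * z = z * q := by
    intro q hq
    have h := Subgroup.mem_center_iff.mp c.2 ⟨q, hq⟩
    have h2 := congrArg Subtype.val h
    rw [← hzdef]
    exact h2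
  have hzz : z * z = 1 := by
    rcases hZmem _ (mul_mem hzZ hzZ) with h | h
    · exact h
    · exfalso
      exact hz1 (mul_left_cancel (a := z) (b := z) (c := 1) (by rw [mul_one]; exact h))
  have odd_two : ∀ u ∈ K, (∃ m : ℕ, u ^ 2 ^ m = 1) → u = 1 := by
    rintro u hu ⟨m, hm⟩
    have h1 : orderOf u ∣ 2 ^ m := orderOf_dvd_of_pow_eq_one hm
    have h2 : orderOf u ∣ Nat.card K := by
      have h := orderOf_dvd_natCard (⟨u, hu⟩ : K)
      rwa [Subgroup.orderOf_mk] at h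
    have hcop : Nat.Coprime (2 ^ m) (Nat.card K) :=
      Nat.Coprime.pow_left m (Nat.coprime_two_left.mpr hKodd)
    have h3 : orderOf u ∣ 1 := by
      have h := Nat.dvd_gcd h1 h2
      rwa [hcop] at h
    exact orderOf_eq_one_iff.mp (Nat.dvd_one.mp h3)
  have hQ2 : ∀ q ∈ Q, ∃ m : ℕ, q ^ 2 ^ m = 1 := by
    intro q hq
    obtain ⟨m, hm⟩ := hP2 ⟨q, hq⟩
    exact ⟨m, by simpa using congrArg Subtype.val hm⟩
  have hnorm : ∀ q ∈ Q, ∀ k ∈ K, q * k * q⁻¹ ∈ K := by
    intro q hq k hk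
    exact (Subgroup.mem_set_normalizer_iff.mp (hQK hq) k).mp hk
  have F4 : ∀ k ∈ K, k * z = z * k → k = 1 := by
    intro k hk hkz
    have h1 : k ∈ Subgroup.centralizer (((Subgroup.center ↥Q).map Q.subtype : Subgroup G) : Set G) := by
      rw [Subgroup.mem_centralizer_iff]
      intro h hh
      rcases hZmem h hh with rfl | rfl
      · rw [one_mul, mul_one]
      · exact hkz.symm
    have h2 := hL3 h1
    have h3 : ∀ q ∈ Q, k * q = q * k := by
      intro q hq
      have hw1 : k * q * k⁻¹ * q⁻¹ ∈ Q :=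
        mul_mem ((Subgroup.mem_set_normalizer_iff.mp h2 q).mp hq) (inv_mem hq)
      have hw2 : k * q * k⁻¹ * q⁻¹ ∈ K := by
        have h4 := hnorm q hq k⁻¹ (inv_mem hk)
        have e : k * q * k⁻¹ * q⁻¹ = k * (q * k⁻¹ * q⁻¹) := by group
        rw [e]
        exact mul_mem hk h4
      have hw3 := odd_two _ hw2 (hQ2 _ hw1)
      calc k * q = (k * q * k⁻¹ * q⁻¹) * (q * k) := by group
        _ = q * k := by rw [hw3, one_mul]
    have h4 : k ∈ Subgroup.centralizer (Q : Set G) := by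
      rw [Subgroup.mem_centralizer_iff]
      intro q hq
      exact (h3 q hq).symm
    rw [hL2] at h4
    rcases hZmem k h4 with h | h
    · exact h
    · exfalso
      apply hz1
      exact odd_two z (h ▸ hk) (hQ2 z hzQ)
  have F5 : ∀ k ∈ K, z * k * z⁻¹ = k⁻¹ := by
    let φ : K → K := fun k =>
      ⟨(k : G)⁻¹ * (z * k * z⁻¹), mul_mem (inv_mem k.2) (hnorm z hzQ k k.2)⟩
    have hφ : Function.Injective φ := by
      intro k h hkh
      have h1 : (k : G)⁻¹ * (z * k * z⁻¹) = (h : G)⁻¹ * (z * h * z⁻¹) := congrArg Subtype.val hkh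
      have e : (h : G) * (k : G)⁻¹ = z * ((h : G) * (k : G)⁻¹) * z⁻¹ := by
        calc (h : G) * (k : G)⁻¹
            = (h : G) * ((k : G)⁻¹ * (z * k * z⁻¹)) * (z * k * z⁻¹)⁻¹ := by group
          _ = (h : G) * ((h : G)⁻¹ * (z * h * z⁻¹)) * (z * k * z⁻¹)⁻¹ := by rw [h1]
          _ = z * ((h : G) * (k : G)⁻¹) * z⁻¹ := by group
      have h2 : ((h : G) * (k : G)⁻¹) * z = z * ((h : G) * (k : G)⁻¹) := by
        calc ((h : G) * (k : G)⁻¹) * z = (z * ((h : G) * (k : G)⁻¹) * z⁻¹) * z := by rw [← e]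
          _ = z * ((h : G) * (k : G)⁻¹) := by group
      have h3 := F4 _ (mul_mem h.2 (inv_mem k.2)) h2
      apply Subtype.ext
      exact (mul_inv_eq_one.mp h3).symm
    have hsurj : Function.Surjective φ := Finite.injective_iff_surjective.mp hφ
    intro k hk
    obtain ⟨h, hh⟩ := hsurj ⟨k, hk⟩
    have h1 : (h : G)⁻¹ * (z * h * z⁻¹) = k := congrArg Subtype.val hh
    rw [← h1]
    have e : z * ((h : G)⁻¹ * (z * h * z⁻¹)) * z⁻¹ =
        (z * (h : G) * z⁻¹)⁻¹ * ((z * z) * h * (z * z)⁻¹) := by group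
    rw [e, hzz]
    group
  have F6 : ∀ h ∈ K, ∀ k ∈ K, h * k = k * h := by
    intro h hh k hk
    have e1 := F5 (h * k) (mul_mem hh hk)
    have e2 := F5 h hh
    have e3 := F5 k hk
    have e4 : z * (h * k) * z⁻¹ = (z * h * z⁻¹) * (z * k * z⁻¹) := by group
    rw [e4, e2, e3] at e1
    have e5 : (h⁻¹ * k⁻¹)⁻¹ = ((h * k)⁻¹)⁻¹ := by rw [e1]
    simp only [mul_inv_rev, inv_inv] at e5
    exact e5.symm
  have hbb : b * b = 1 := by
    rw [← sq, ← hb]
    exact pow_orderOf_eq_one b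
  have F7 : ∀ u ∈ K, u * b = b * u → u = 1 := by
    intro u hu hub
    have huC : u ∈ Subgroup.centralizer ({b} : Set G) := by
      rw [Subgroup.mem_centralizer_iff]
      intro h hh
      rw [Set.mem_singleton_iff] at hh
      rw [hh]
      exact hub.symm
    obtain ⟨v, hv, hvz⟩ := hZ hzZ
    have hvz' : (v : G) = z := hvz
    have hnormal := Cfsg.Agent.Lib.Helper9.pCore_normal 2 ↥(Subgroup.centralizer ({b} : Set G))
    have hw : (⟨u, huC⟩ : Subgroup.centralizer ({b} : Set G)) * v *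
        (⟨u, huC⟩ : Subgroup.centralizer ({b} : Set G))⁻¹ * v⁻¹ ∈
        Cfsg.pCore 2 ↥(Subgroup.centralizer ({b} : Set G)) :=
      mul_mem (hnormal.conj_mem v hv _) (inv_mem hv)
    obtain ⟨m, hm⟩ :=
      (Cfsg.Agent.Lib.Helper9.pCore_isPGroup 2 ↥(Subgroup.centralizer ({b} : Set G))) ⟨_, hw⟩
    have hm' : (u * z * u⁻¹ * z⁻¹) ^ 2 ^ m = 1 := by
      have h := congrArg (fun t : Cfsg.pCore 2 ↥(Subgroup.centralizer ({b} : Set G)) =>
        (((t : ↥(Subgroup.centralizer ({b} : Set G))) : G))) hm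
      simpa [hvz'] using h
    have e : u * z * u⁻¹ * z⁻¹ = u * u := by
      have h5 := F5 u⁻¹ (inv_mem hu)
      rw [inv_inv] at h5
      calc u * z * u⁻¹ * z⁻¹ = u * (z * u⁻¹ * z⁻¹) := by group
        _ = u * u := by rw [h5]
    rw [e] at hm'
    have h6 := odd_two (u * u) (mul_mem hu hu) ⟨m, hm'⟩
    exact odd_two u hu ⟨1, by rw [pow_one, sq]; exact h6⟩
  have F8 : ∀ k ∈ K, b * k * b⁻¹ = k⁻¹ := by
    intro k hk
    have hτ : b * k * b⁻¹ ∈ K := hnorm b hbQ k hk
    have hu : k * (b * k * b⁻¹) ∈ K := mul_mem hk hτ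
    have hcomm' : k * (b * k * b⁻¹) * b = b * (k * (b * k * b⁻¹)) := by
      have e1 : b * (k * (b * k * b⁻¹)) = (b * k * b⁻¹) * ((b * b) * k * (b * b)⁻¹) * b := by
        group
      have e2 := F6 k hk _ hτ
      rw [e1, hbb, e2]
      group
    have h1 := F7 _ hu hcomm'
    exact eq_inv_of_mul_eq_one_right h1
  have F9 : ∃ q ∈ Q, q * b * q⁻¹ = b * z := by
    have hbnot : b ∉ Subgroup.centralizer (Q : Set G) := by
      rw [hL2]
      exact hbZ
    have hex : ∃ q ∈ Q, q * b ≠ b * q := by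
      by_contra hcon
      apply hbnot
      rw [Subgroup.mem_centralizer_iff]
      intro h hh
      by_contra hne
      exact hcon ⟨h, hh, hne⟩
    obtain ⟨q, hq, hqb⟩ := hex
    refine ⟨q, hq, ?_⟩
    have hcm : (⟨q, hq⟩ : Q) * ⟨b, hbQ⟩ * (⟨q, hq⟩ : Q)⁻¹ * (⟨b, hbQ⟩ : Q)⁻¹ ∈
        Subgroup.center ↥Q := by
      rw [← hcomm]
      exact Subgroup.commutator_mem_commutator (Subgroup.mem_top _) (Subgroup.mem_top _)
    have hcZ : q * b * q⁻¹ * b⁻¹ ∈ (Subgroup.center ↥Q).map Q.subtype := ⟨_, hcm, rfl⟩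
    rcases hZmem _ hcZ with h | h
    · exfalso
      apply hqb
      calc q * b = (q * b * q⁻¹ * b⁻¹) * (b * q) := by group
        _ = b * q := by rw [h, one_mul]
    · calc q * b * q⁻¹ = (q * b * q⁻¹ * b⁻¹) * b := by group
        _ = z * b := by rw [h]
        _ = b * z := (hzcomm b hbQ).symm
  rw [Subgroup.eq_bot_iff_forall]
  intro k hk
  obtain ⟨q, hq, hqb⟩ := F9
  have hk' : q⁻¹ * k * q ∈ K := by
    have h := hnorm q⁻¹ (inv_mem hq) k hk
    rw [inv_inv] at h
    exact h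
  have hbz : (b * z) * k = k * (b * z) := by
    have h5 := F5 k hk
    have h8 := F8 k⁻¹ (inv_mem hk)
    rw [inv_inv] at h8
    calc (b * z) * k = b * (z * k * z⁻¹) * b⁻¹ * (b * z) := by group
      _ = b * k⁻¹ * b⁻¹ * (b * z) := by rw [h5]
      _ = k * (b * z) := by rw [h8]
  have hcb : (q⁻¹ * k * q) * b = b * (q⁻¹ * k * q) := by
    rw [← hqb] at hbz
    calc (q⁻¹ * k * q) * b = q⁻¹ * (k * (q * b * q⁻¹)) * q := by group
      _ = q⁻¹ * ((q * b * q⁻¹) * k) * q := by rw [hbz]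
      _ = b * (q⁻¹ * k * q) := by group
  have h1 := F7 _ hk' hcb
  calc k = q * (q⁻¹ * k * q) * q⁻¹ := by group
    _ = 1 := by rw [h1]; group

end Cfsg.Agent.S5421
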