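import Cfsg.Statements.S5433
import Mathlib

set_option autoImplicit false
open Cfsg

namespace Cfsg.Agent.S5433

/-- Let Q be a large extraspecial 2-subgroup of the finite group G (extraspecial; centralizer equal to its centre; normal in the centralizer of its centre; normalizing no non-trivial subgroup of odd order), and L a normal subgroup of G containing Q. Then G is the product of L and the normalizer of Q. -/
theorem result {G : Type*} [Group G] [Finite G] (Q : Subgroup G) (hQ : Cfsg.IsLargeExtraspecial Q) (L : Subgroup G) [L.Normal] (hQL : Q ≤ L) : L ⊔ Subgroup.normalizer (Q : Set G) = ⊤ := by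
  classical
  obtain ⟨hL1, hL2, hL3, -⟩ := hQ
  have : Fact (Nat.Prime 2) := ⟨Nat.prime_two⟩
  have hQ2 : IsPGroup 2 Q := hL1.1.1
  have hcard : Nat.card (Subgroup.center ↥Q) = 2 := hL1.2
  -- Sylow 2-subgroup of L containing Q
  have hQL2 : IsPGroup 2 (Q.subgroupOf L) := hQ2.comap_subtype
  obtain ⟨P, hP⟩ := hQL2.exists_le_sylow
  have hfr : Subgroup.normalizer (((P : Subgroup L).map L.subtype : Subgroup G) : Set G) ⊔ L = ⊤ :=
    Sylow.normalizer_sup_eq_top P
  have hS2 : IsPGroup 2 ((P : Subgroup L).map L.subtype) := P.2.map L.subtype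
  have hQS : Q ≤ (P : Subgroup L).map L.subtype := by
    intro q hq
    exact ⟨⟨q, hQL hq⟩, hP (by simpa [Subgroup.mem_subgroupOf] using hq), rfl⟩
  generalize (P : Subgroup L).map L.subtype = S at hfr hS2 hQS
  -- the centre Z of Q, as a subgroup of G, has exactly two elements
  have hZcard : Nat.card ((Subgroup.center ↥Q).map Q.subtype) = 2 := by
    rw [Subgroup.card_map_of_injective Q.subtype_injective, hcard]
  have hZQ : (Subgroup.center ↥Q).map Q.subtype ≤ Q := Subgroup.map_subtype_le _
  -- S is nontrivial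
  have hSnt : Nontrivial S := by
    have h1 : Nontrivial ((Subgroup.center ↥Q).map Q.subtype) := by
      rw [← Finite.one_lt_card_iff_nontrivial, hZcard]; norm_num
    obtain ⟨z, hz⟩ := exists_ne (1 : ((Subgroup.center ↥Q).map Q.subtype))
    refine ⟨⟨⟨z.1, hQS (hZQ z.2)⟩, 1, ?_⟩⟩
    intro h
    apply hz
    ext
    simpa using congrArg Subtype.val h
  have hcen := hS2.center_nontrivial
  obtain ⟨w', hw'⟩ := exists_ne (1 : Subgroup.center ↥S)
  have hwS : (w'.1 : G) ∈ S := w'.1.2
  have hw1 : (w'.1 : G) ≠ 1 := by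
    intro h
    apply hw'
    ext
    simpa using h
  have hwc : ∀ s ∈ S, s * (w'.1 : G) = (w'.1 : G) * s := by
    intro s hs
    have := (Subgroup.mem_center_iff.mp w'.2) ⟨s, hs⟩
    simpa using congrArg Subtype.val this
  generalize (w'.1 : G) = w at hwS hw1 hwc
  -- central elements of S lie in Z
  have hcenZ : ∀ v ∈ S, (∀ s ∈ S, s * v = v * s) → v ∈ (Subgroup.center ↥Q).map Q.subtype := by
    intro v _ hvc
    rw [← hL2, Subgroup.mem_centralizer_iff]
    intro q hq
    exact hvc q (hQS hq)
  have hwZ := hcenZ w hwS hwc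
  have hZ2 : ∀ z ∈ (Subgroup.center ↥Q).map Q.subtype, z = 1 ∨ z = w := by
    intro z hz
    obtain ⟨y, -, hy⟩ := (Nat.card_eq_two_iff' (1 : ((Subgroup.center ↥Q).map Q.subtype))).mp hZcard
    by_cases hz1 : z = 1
    · exact Or.inl hz1
    · right
      have e1 := hy ⟨z, hz⟩ (by intro h; exact hz1 (by simpa using congrArg Subtype.val h))
      have e2 := hy ⟨w, hwZ⟩ (by intro h; exact hw1 (by simpa using congrArg Subtype.val h))
      have := e1.trans e2.symm
      simpa using congrArg Subtype.val this
  -- the normalizer of S normalizes Q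
  have hNS : Subgroup.normalizer (S : Set G) ≤ Subgroup.normalizer (Q : Set G) := by
    intro g hg
    apply hL3
    rw [Subgroup.mem_normalizer_iff] at hg
    have hg' : ∀ s, s ∈ S → g⁻¹ * s * g ∈ S := by
      intro s hs
      rw [hg (g⁻¹ * s * g)]
      have : g * (g⁻¹ * s * g) * g⁻¹ = s := by group
      rwa [this]
    have h1 : g * w * g⁻¹ ∈ S := (hg w).mp hwS
    have h2 : ∀ s ∈ S, s * (g * w * g⁻¹) = (g * w * g⁻¹) * s := by
      intro s hs
      have := hwc _ (hg' s hs)
      calc s * (g * w * g⁻¹) = g * ((g⁻¹ * s * g) * w) * g⁻¹ := by group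
        _ = g * (w * (g⁻¹ * s * g)) * g⁻¹ := by rw [this]
        _ = (g * w * g⁻¹) * s := by group
    have h3 := hZ2 _ (hcenZ _ h1 h2)
    have hgw : g * w = w * g := by
      rcases h3 with h | h
      · exfalso
        apply hw1
        have : w = g⁻¹ * (g * w * g⁻¹) * g := by group
        rw [this, h]; group
      · calc g * w = (g * w * g⁻¹) * g := by group
          _ = w * g := by rw [h]
    rw [Subgroup.mem_centralizer_iff]
    intro z hz
    rcases hZ2 z hz with h | h
    · rw [h]; simp
    · rw [h]; exact hgw.symm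
  rw [eq_top_iff, ← hfr, sup_comm]
  exact sup_le_sup_left hNS L

end Cfsg.Agent.S5433
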