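import Cfsg.Statements.S5437
import Mathlib

set_option autoImplicit false
open Cfsg

namespace Cfsg.Agent.S5437

/-- Let I be a set of involutions of the finite group G closed under conjugation, and H a subgroup of G. The following are equivalent: (1) for every member x of I lying in H, the conjugates of x lying in H form a single H-class and the centralizer of x lies in H; (2) for every g outside H, no member of I lies in both H and g H g⁻¹; (3) every member of I lying in H fixes exactly one coset in the action of G on the cosets of H. -/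
theorem result {G : Type*} [Group G] [Finite G] (I : Set G) (hI : ∀ x ∈ I, orderOf x = 2) (hIc : ∀ g : G, ∀ x ∈ I, g * x * g⁻¹ ∈ I) (H : Subgroup G) : ((∀ x ∈ I, x ∈ H → (∀ g : G, g * x * g⁻¹ ∈ H → ∃ h ∈ H, h * x * h⁻¹ = g * x * g⁻¹) ∧ Subgroup.centralizer ({x} : Set G) ≤ H) ↔ (∀ g : G, g ∉ H → ∀ x ∈ I, ¬ (x ∈ H ∧ x ∈ (H : Subgroup G).map (MulAut.conj g).toMonoidHom))) ∧ ((∀ g : G, g ∉ H → ∀ x ∈ I, ¬ (x ∈ H ∧ x ∈ (H : Subgroup G).map (MulAut.conj g).toMonoidHom)) ↔ ∀ x ∈ I, x ∈ H → ∃! c : G ⧸ H, x • c = c) := by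
  have hconj : ∀ g x : G, x ∈ (H : Subgroup G).map (MulAut.conj g).toMonoidHom ↔ g⁻¹ * x * g ∈ H := by
    intro g x
    rw [Subgroup.mem_map]
    constructor
    · rintro ⟨y, hy, rfl⟩
      have : g⁻¹ * ((MulAut.conj g).toMonoidHom y) * g = y := by
        simp [MulAut.conj_apply]; group
      rw [this]; exact hy
    · intro h
      refine ⟨g⁻¹ * x * g, h, ?_⟩
      simp [MulAut.conj_apply]; group
  have hfix : ∀ g x : G, x • (g : G ⧸ H) = (g : G ⧸ H) ↔ g⁻¹ * x * g ∈ H := by
    intro g x
    rw [MulAction.Quotient.smul_mk, QuotientGroup.eq, smul_eq_mul]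
    rw [← H.inv_mem_iff]
    have : ((x * g)⁻¹ * g)⁻¹ = g⁻¹ * x * g := by group
    rw [this]
  have h12 : (∀ x ∈ I, x ∈ H → (∀ g : G, g * x * g⁻¹ ∈ H → ∃ h ∈ H, h * x * h⁻¹ = g * x * g⁻¹) ∧ Subgroup.centralizer ({x} : Set G) ≤ H) ↔ (∀ g : G, g ∉ H → ∀ x ∈ I, ¬ (x ∈ H ∧ x ∈ (H : Subgroup G).map (MulAut.conj g).toMonoidHom)) := by
    constructor
    · intro h1 g hg x hxI ⟨hxH, hxg⟩
      rw [hconj] at hxg
      obtain ⟨hfus, hcen⟩ := h1 x hxI hxH
      obtain ⟨h, hh, he⟩ := hfus g⁻¹ (by simpa using hxg)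
      have hgh : g * h ∈ Subgroup.centralizer ({x} : Set G) := by
        rw [Subgroup.mem_centralizer_iff]
        intro y hy
        rw [Set.mem_singleton_iff] at hy
        subst hy
        have : h * y * h⁻¹ = g⁻¹ * y * g := by simpa using he
        have e2 : g * (h * y * h⁻¹) * g⁻¹ = y := by rw [this]; group
        calc y * (g * h) = (g * (h * y * h⁻¹) * g⁻¹) * (g * h) := by rw [e2]
          _ = g * h * y := by group
      have := hcen hgh
      exact hg ((H.mul_mem_cancel_right hh).mp this)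
    · intro h2 x hxI hxH
      refine ⟨?_, ?_⟩
      · intro g hgx
        by_cases hg : g ∈ H
        · exact ⟨g, hg, rfl⟩
        · exfalso
          have hg' : g⁻¹ ∉ H := fun h => hg (by simpa using H.inv_mem h)
          refine h2 g⁻¹ hg' x hxI ⟨hxH, ?_⟩
          rw [hconj]
          simpa using hgx
      · intro c hc
        by_contra hcH
        refine h2 c hcH x hxI ⟨hxH, ?_⟩
        rw [hconj]
        rw [Subgroup.mem_centralizer_iff] at hc
        have := hc x rfl
        have e : c⁻¹ * x * c = x := by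
          rw [mul_assoc, this]; group
        rw [e]; exact hxH
  refine ⟨h12, ?_⟩
  constructor
  · intro h2 x hxI hxH
    refine ⟨((1 : G) : G ⧸ H), ?_, ?_⟩
    · show x • ((1 : G) : G ⧸ H) = ((1 : G) : G ⧸ H)
      rw [hfix]; simpa using hxH
    · intro c hc
      induction c using QuotientGroup.induction_on with
      | H g =>
        rw [hfix] at hc
        by_contra hne
        have hg : g ∉ H := by
          intro hg
          apply hne
          rw [QuotientGroup.eq]; simpa using hg
        exact h2 g hg x hxI ⟨hxH, (hconj g x).mpr hc⟩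
  · intro h3 g hg x hxI ⟨hxH, hxg⟩
    obtain ⟨c, hc, huniq⟩ := h3 x hxI hxH
    have e1 : ((1 : G) : G ⧸ H) = c := huniq _ ((hfix 1 x).mpr (by simpa using hxH))
    have e2 : (g : G ⧸ H) = c := huniq _ ((hfix g x).mpr ((hconj g x).mp hxg))
    have : ((1 : G) : G ⧸ H) = (g : G ⧸ H) := e1.trans e2.symm
    rw [QuotientGroup.eq] at this
    exact hg (by simpa using this)

end Cfsg.Agent.S5437
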