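import Cfsg.Statements.S5438
import Mathlib
import Cfsg.Agent.Lib.Helper9.Basic

set_option autoImplicit false
open Cfsg

namespace Cfsg.Agent.S5438

/-- Let z be a 2-central involution of the finite group G (an involution central in some Sylow 2-subgroup) and H a subgroup containing z such that the coset H is the only coset of H fixed by z (in the action of G on the cosets of H). Then H has odd index in G, and for every 2-element x of H the conjugates of x lying in H form a single H-class. -/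
theorem result {G : Type*} [Group G] [Finite G] (z : G) (hz : Cfsg.IsTwoCentralInvolution z) (H : Subgroup G) (hzH : z ∈ H) (hfix : ∀ g : G, g⁻¹ * z * g ∈ H → g ∈ H) : Odd H.index ∧ ∀ x ∈ H, (∃ k : ℕ, orderOf x = 2 ^ k) → ∀ g : G, g * x * g⁻¹ ∈ H → ∃ h ∈ H, h * x * h⁻¹ = g * x * g⁻¹ := by
  classical
  have : Fact (Nat.Prime 2) := ⟨Nat.prime_two⟩
  obtain ⟨hz2, P, hzP, hPc⟩ := hz
  have hPH : (P : Subgroup G) ≤ H := by
    intro p hp
    apply hfix
    have e : p⁻¹ * z * p = z := by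
      have := hPc p hp
      rw [mul_assoc, ← this]; group
    rw [e]; exact hzH
  have hPidx : ¬ 2 ∣ (P : Subgroup G).index := P.not_dvd_index
  have hHidx : ¬ 2 ∣ H.index := fun h => hPidx (h.trans (Subgroup.index_dvd_of_le hPH))
  have hHodd : Odd H.index := Nat.not_even_iff_odd.mp (fun h => hHidx (even_iff_two_dvd.mp h))
  refine ⟨hHodd, ?_⟩
  -- every 2-subgroup containing an element fixing only the coset H lies in H
  have hstar : ∀ w : G, (∀ g : G, g⁻¹ * w * g ∈ H → g ∈ H) → ∀ T : Subgroup G, IsPGroup 2 T →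
      w ∈ T → T ≤ H := by
    intro w hw T hT hwT
    obtain ⟨g, hg⟩ := Lib.Helper9.exists_conj_mem_of_not_dvd_index H T hHidx hT
    have hgH : g ∈ H := hw g (hg w hwT)
    intro t ht
    have := hg t ht
    have e : t = g * (g⁻¹ * t * g) * g⁻¹ := by group
    rw [e]; exact H.mul_mem (H.mul_mem hgH this) (H.inv_mem hgH)
  -- every 2-element of H commutes with an H-conjugate of z
  have hF5 : ∀ x ∈ H, (∃ k : ℕ, orderOf x = 2 ^ k) →
      ∃ w : G, (∀ g : G, g⁻¹ * w * g ∈ H → g ∈ H) ∧ w * x = x * w ∧ orderOf w = 2 := by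
    intro x hx ⟨k, hk⟩
    have hidx : ¬ 2 ∣ ((P : Subgroup G).subgroupOf H).index := by
      intro h
      apply hPidx
      exact h.trans (Subgroup.relIndex_dvd_index_of_le hPH)
    have hR : IsPGroup 2 (Subgroup.zpowers (⟨x, hx⟩ : H)) := by
      apply IsPGroup.of_card (n := k)
      rw [Nat.card_zpowers, ← hk]
      exact Subgroup.orderOf_mk x hx
    obtain ⟨h, hh⟩ := Lib.Helper9.exists_conj_mem_of_not_dvd_index _ _ hidx hR
    have h1 : (h : G)⁻¹ * x * h ∈ P := by
      have := hh ⟨x, hx⟩ (Subgroup.mem_zpowers _)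
      rw [Subgroup.mem_subgroupOf] at this
      exact this
    refine ⟨h * z * (h : G)⁻¹, ?_, ?_, ?_⟩
    · intro g hg
      have h2 : (h : G)⁻¹ * g ∈ H := by
        apply hfix
        have e : ((h : G)⁻¹ * g)⁻¹ * z * ((h : G)⁻¹ * g) = g⁻¹ * (h * z * (h : G)⁻¹) * g := by group
        rw [e]; exact hg
      have e : g = h * ((h : G)⁻¹ * g) := by group
      rw [e]; exact H.mul_mem h.2 h2
    · have := hPc _ h1
      calc h * z * (h : G)⁻¹ * x = h * (z * ((h : G)⁻¹ * x * h)) * (h : G)⁻¹ := by group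
        _ = h * (((h : G)⁻¹ * x * h) * z) * (h : G)⁻¹ := by rw [this]
        _ = x * (h * z * (h : G)⁻¹) := by group
    · rw [← hz2]
      exact (MulAut.conj (h : G)).orderOf_eq z
  intro x hx hx2 g hgx
  obtain ⟨w, hw, hwx, hw2⟩ := hF5 x hx hx2
  have hy2 : ∃ k : ℕ, orderOf (g * x * g⁻¹) = 2 ^ k := by
    obtain ⟨k, hk⟩ := hx2
    exact ⟨k, by rw [← hk]; exact (MulAut.conj g).orderOf_eq x⟩
  obtain ⟨w', hw', hw'y, hw'2⟩ := hF5 (g * x * g⁻¹) hgx hy2
  have hwC : w ∈ Subgroup.centralizer ({x} : Set G) := by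
    rw [Subgroup.mem_centralizer_iff]
    intro y hy
    rw [Set.mem_singleton_iff] at hy
    subst hy
    exact hwx.symm
  have hw'C : g⁻¹ * w' * g ∈ Subgroup.centralizer ({x} : Set G) := by
    rw [Subgroup.mem_centralizer_iff]
    intro y hy
    rw [Set.mem_singleton_iff] at hy
    subst hy
    calc y * (g⁻¹ * w' * g) = g⁻¹ * ((g * y * g⁻¹) * w') * g := by group
      _ = g⁻¹ * (w' * (g * y * g⁻¹)) * g := by rw [hw'y]
      _ = g⁻¹ * w' * g * y := by group
  have hRw : IsPGroup 2 (Subgroup.zpowers (⟨w, hwC⟩ : Subgroup.centralizer ({x} : Set G))) := by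
    apply IsPGroup.of_card (n := 1)
    rw [Nat.card_zpowers, pow_one, ← hw2]
    exact Subgroup.orderOf_mk w hwC
  obtain ⟨T, hT⟩ := hRw.exists_le_sylow
  have hRw' : IsPGroup 2 (Subgroup.zpowers
      (⟨g⁻¹ * w' * g, hw'C⟩ : Subgroup.centralizer ({x} : Set G))) := by
    apply IsPGroup.of_card (n := 1)
    rw [Nat.card_zpowers, pow_one, ← hw'2, Subgroup.orderOf_mk]
    have := (MulAut.conj g⁻¹).orderOf_eq w'
    rwa [MulAut.conj_apply, inv_inv] at this
  obtain ⟨c, hc⟩ := Lib.Helper9.exists_conj_mem_of_not_dvd_index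
    (T : Subgroup (Subgroup.centralizer ({x} : Set G))) _ T.not_dvd_index hRw'
  have hc1 := hc _ (Subgroup.mem_zpowers _)
  have hTH : (T : Subgroup (Subgroup.centralizer ({x} : Set G))).map
      (Subgroup.centralizer ({x} : Set G)).subtype ≤ H := by
    apply hstar w hw _ (T.2.map _)
    exact ⟨⟨w, hwC⟩, hT (Subgroup.mem_zpowers _), rfl⟩
  have hmem : (g * c)⁻¹ * w' * (g * c) ∈ H := by
    apply hTH
    refine ⟨_, hc1, ?_⟩
    simp
    group
  have hgc : g * c ∈ H := hw' _ hmem
  refine ⟨g * c, hgc, ?_⟩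
  have hcx : (c : G) * x = x * c := by
    have := c.2
    rw [Subgroup.mem_centralizer_iff] at this
    exact (this x rfl).symm
  calc g * c * x * (g * c)⁻¹ = g * (c * x) * (c : G)⁻¹ * g⁻¹ := by group
    _ = g * (x * c) * (c : G)⁻¹ * g⁻¹ := by rw [hcx]
    _ = g * x * g⁻¹ := by group

end Cfsg.Agent.S5438
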