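import Cfsg.Statements.S5439
import Mathlib
import Cfsg.Agent.Lib.Helper9.Dihedral

set_option autoImplicit false
open Cfsg

namespace Cfsg.Agent.S5439

/-- Let I and J be two different conjugacy classes of involutions of the finite group G and H a subgroup such that every member of I ∪ J fixes exactly one coset in the action on the cosets of H, and such that for every a in I ∩ H and every b in (I ∪ J) ∩ H different from a and commuting with it, the centralizer of a b lies in H. Then H = G. -/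
theorem result {G : Type*} [Group G] [Finite G] (I J : Set G) (a₀ b₀ : G) (ha₀ : orderOf a₀ = 2) (hb₀ : orderOf b₀ = 2) (hI : I = {x | IsConj a₀ x}) (hJ : J = {x | IsConj b₀ x}) (hIJ : I ≠ J) (H : Subgroup G) (hfix : ∀ x ∈ I ∪ J, ∃! c : G ⧸ H, x • c = c) (hcent : ∀ a ∈ I, a ∈ H → ∀ b ∈ I ∪ J, b ∈ H → a ≠ b → a * b = b * a → Subgroup.centralizer ({a * b} : Set G) ≤ H) : H = ⊤ := by
  classical
  subst hI hJ
  have ha₀2 : a₀ * a₀ = 1 := Lib.Helper9.mul_self_of_orderOf_two ha₀
  have hb₀2 : b₀ * b₀ = 1 := Lib.Helper9.mul_self_of_orderOf_two hb₀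
  have hIinv : ∀ a ∈ {x | IsConj a₀ x}, a * a = 1 := by
    intro a ha
    obtain ⟨c, rfl⟩ := isConj_iff.mp (show IsConj a₀ a from ha)
    calc c * a₀ * c⁻¹ * (c * a₀ * c⁻¹) = c * (a₀ * a₀) * c⁻¹ := by group
      _ = 1 := by rw [ha₀2]; group
  have hJinv : ∀ b ∈ {x | IsConj b₀ x}, b * b = 1 := by
    intro b hb
    obtain ⟨c, rfl⟩ := isConj_iff.mp (show IsConj b₀ b from hb)
    calc c * b₀ * c⁻¹ * (c * b₀ * c⁻¹) = c * (b₀ * b₀) * c⁻¹ := by group
      _ = 1 := by rw [hb₀2]; group
  have hIconj : ∀ a ∈ {x | IsConj a₀ x}, ∀ g : G, g * a * g⁻¹ ∈ {x | IsConj a₀ x} := by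
    intro a ha g
    exact (show IsConj a₀ a from ha).trans (isConj_iff.mpr ⟨g, rfl⟩)
  have hJconj : ∀ b ∈ {x | IsConj b₀ x}, ∀ g : G, g * b * g⁻¹ ∈ {x | IsConj b₀ x} := by
    intro b hb g
    exact (show IsConj b₀ b from hb).trans (isConj_iff.mpr ⟨g, rfl⟩)
  have hdisj : ∀ x, x ∈ {x | IsConj a₀ x} → x ∈ {x | IsConj b₀ x} → False := by
    intro x hxI hxJ
    apply hIJ
    have hxI' : IsConj a₀ x := hxI
    have hxJ' : IsConj b₀ x := hxJ
    ext y
    constructor
    · intro hy
      exact hxJ'.trans (hxI'.symm.trans hy)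
    · intro hy
      exact hxI'.trans (hxJ'.symm.trans hy)
  have hfixH : ∀ x ∈ {x | IsConj a₀ x} ∪ {x | IsConj b₀ x}, x ∈ H → ∀ g : G, g⁻¹ * x * g ∈ H → g ∈ H := by
    intro x hx hxH g hg
    obtain ⟨c, hc, huniq⟩ := hfix x hx
    have h1 : ((1 : G) : G ⧸ H) = c := huniq _ (by
      show x • ((1 : G) : G ⧸ H) = ((1 : G) : G ⧸ H)
      rw [MulAction.Quotient.smul_mk, QuotientGroup.eq, smul_eq_mul]
      simpa using hxH)
    have h2 : (g : G ⧸ H) = c := huniq _ (by
      show x • (g : G ⧸ H) = (g : G ⧸ H)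
      rw [MulAction.Quotient.smul_mk, QuotientGroup.eq, smul_eq_mul]
      have := H.inv_mem hg
      have e : (x * g)⁻¹ * g = (g⁻¹ * x * g)⁻¹ := by group
      rw [e]; exact this)
    have := h1.trans h2.symm
    rw [QuotientGroup.eq] at this
    simpa using this
  have hcenH : ∀ x ∈ {x | IsConj a₀ x} ∪ {x | IsConj b₀ x}, x ∈ H → ∀ c : G, c * x = x * c → c ∈ H := by
    intro x hx hxH c hc
    apply hfixH x hx hxH
    have : c⁻¹ * x * c = x := by rw [mul_assoc, ← hc]; group
    rw [this]; exact hxH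
  obtain ⟨a, haI, haH⟩ : ∃ a ∈ {x | IsConj a₀ x}, a ∈ H := by
    have ha₀I : a₀ ∈ {x | IsConj a₀ x} := IsConj.refl a₀
    obtain ⟨c, hc, -⟩ := hfix a₀ (Or.inl ha₀I)
    induction c using QuotientGroup.induction_on with
    | H g =>
      refine ⟨g⁻¹ * a₀ * g, ?_, ?_⟩
      · have := hIconj a₀ ha₀I g⁻¹
        rwa [inv_inv] at this
      · have hc' : a₀ • (g : G ⧸ H) = (g : G ⧸ H) := hc
        rw [MulAction.Quotient.smul_mk, QuotientGroup.eq, smul_eq_mul] at hc'
        have := H.inv_mem hc'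
        have e : ((a₀ * g)⁻¹ * g)⁻¹ = g⁻¹ * a₀ * g := by group
        rwa [e] at this
  have hJH : ∀ b ∈ {x | IsConj b₀ x}, b ∈ H := by
    intro b hbJ
    have haa := hIinv a haI
    have hbb := hJinv b hbJ
    have ha_inv : a⁻¹ = a := inv_eq_of_mul_eq_one_left haa
    have hb_inv : b⁻¹ = b := inv_eq_of_mul_eq_one_left hbb
    have hau : a * (a * b) * a⁻¹ = (a * b)⁻¹ := by
      rw [mul_inv_rev, ha_inv, hb_inv]
      calc a * (a * b) * a = (a * a) * b * a := by group
        _ = b * a := by rw [haa, one_mul]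
    have hbu : b * (a * b) * b⁻¹ = (a * b)⁻¹ := by
      rw [mul_inv_rev, ha_inv, hb_inv]
      calc b * (a * b) * b = b * a * (b * b) := by group
        _ = b * a := by rw [hbb, mul_one]
    have hau1 : a * (a * b) = b := by rw [← mul_assoc, haa, one_mul]
    generalize a * b = u at hau hbu hau1
    have hn : 0 < orderOf u := orderOf_pos u
    rcases Nat.even_or_odd (orderOf u) with hev | hod
    · obtain ⟨m, hm⟩ := hev
      have hm0 : 0 < m := by omega
      have htt : u ^ m * u ^ m = 1 := by rw [← pow_add, ← hm, pow_orderOf_eq_one]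
      have ht1 : u ^ m ≠ 1 := by
        intro h
        have := Nat.le_of_dvd hm0 (orderOf_dvd_of_pow_eq_one h)
        omega
      have ht_inv : (u ^ m)⁻¹ = u ^ m := inv_eq_of_mul_eq_one_left htt
      have hat : a * u ^ m = u ^ m * a := by rw [Lib.Helper9.dihedral_comm a u hau m, ht_inv]
      have hbt : b * u ^ m = u ^ m * b := by rw [Lib.Helper9.dihedral_comm b u hbu m, ht_inv]
      have hatIJ : a * u ^ m ∈ {x | IsConj a₀ x} ∪ {x | IsConj b₀ x} := by
        rcases Nat.even_or_odd m with hme | hmo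
        · obtain ⟨j, hj⟩ := hme
          left
          have := Lib.Helper9.dihedral_conj a u hau j
          rw [two_mul, ← hj] at this
          rw [this]; exact hIconj a haI _
        · obtain ⟨j, hj⟩ := hmo
          right
          have h1 : a * u ^ m = b * u ^ (2 * j) := by
            rw [hj, pow_succ', ← mul_assoc, hau1]
          rw [h1, Lib.Helper9.dihedral_conj b u hbu j]; exact hJconj b hbJ _
      have htH : u ^ m ∈ H := hcenH a (Or.inl haI) haH _ hat.symm
      have hatH : a * u ^ m ∈ H := H.mul_mem haH htH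
      have hne : a ≠ a * u ^ m := by
        intro h
        apply ht1
        have h2 : a * 1 = a * u ^ m := by rw [mul_one]; exact h
        exact (mul_left_cancel h2).symm
      have hcomm : a * (a * u ^ m) = (a * u ^ m) * a := by rw [mul_assoc, ← hat]
      have hc := hcent a haI haH (a * u ^ m) hatIJ hatH hne hcomm
      apply hc
      rw [Subgroup.mem_centralizer_iff]
      intro y hy
      rw [Set.mem_singleton_iff] at hy
      subst hy
      rw [← mul_assoc, haa, one_mul]; exact hbt.symm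
    · exfalso
      obtain ⟨k, hk⟩ := hod
      have := Lib.Helper9.dihedral_conj a u hau (k + 1)
      have e1 : 2 * (k + 1) = orderOf u + 1 := by omega
      rw [e1, pow_add, pow_orderOf_eq_one, one_mul, pow_one, hau1] at this
      exact hdisj b (this ▸ hIconj a haI _) hbJ
  rw [eq_top_iff]
  intro g _
  have hb₀J : b₀ ∈ {x | IsConj b₀ x} := IsConj.refl b₀
  apply hfixH b₀ (Or.inr hb₀J) (hJH b₀ hb₀J) g
  apply hJH
  have := hJconj b₀ hb₀J g⁻¹
  rwa [inv_inv] at this

end Cfsg.Agent.S5439
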