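import Cfsg.Statements.S5459
import Mathlib

set_option autoImplicit false
open Cfsg

namespace Cfsg.Agent.S5459

theorem mem_conj_iff {G : Type*} [Group G] {d a : G} :
    a ∈ conjugatesOf d ↔ ∃ g, g * d * g⁻¹ = a :=
  ⟨fun h => isConj_iff.mp h, fun h => isConj_iff.mpr h⟩

theorem reach_conj {G : Type*} [Group G] (d x : G) (u v : conjugatesOf d)
    (hu' : x * u.1 * x⁻¹ ∈ conjugatesOf d) (hv' : x * v.1 * x⁻¹ ∈ conjugatesOf d)
    (h : (Cfsg.commutingGraph (conjugatesOf d)).Reachable u v) :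
    (Cfsg.commutingGraph (conjugatesOf d)).Reachable ⟨x * u.1 * x⁻¹, hu'⟩
      ⟨x * v.1 * x⁻¹, hv'⟩ := by
  have hconjD : ∀ a : G, a ∈ conjugatesOf d → x * a * x⁻¹ ∈ conjugatesOf d := by
    intro a ha
    obtain ⟨g, rfl⟩ := mem_conj_iff.mp (ha)
    exact mem_conj_iff.mpr (⟨x * g, by group⟩)
  let f : Cfsg.commutingGraph (conjugatesOf d) →g Cfsg.commutingGraph (conjugatesOf d) :=
    { toFun := fun a => ⟨x * a.1 * x⁻¹, hconjD a.1 a.2⟩
      map_rel' := by
        intro a b hab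
        have hab' := (SimpleGraph.fromRel_adj _ _ _).mp hab
        refine (SimpleGraph.fromRel_adj _ _ _).mpr ⟨?_, ?_⟩
        · intro h
          apply hab'.1
          have h1 : x * a.1 * x⁻¹ = x * b.1 * x⁻¹ := congrArg Subtype.val h
          exact Subtype.ext (mul_left_cancel (mul_right_cancel h1))
        · have hc : ∀ p q : G, Commute p q → Commute (x * p * x⁻¹) (x * q * x⁻¹) := by
            intro p q hpq
            show x * p * x⁻¹ * (x * q * x⁻¹) = x * q * x⁻¹ * (x * p * x⁻¹)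
            have e1 : x * p * x⁻¹ * (x * q * x⁻¹) = x * (p * q) * x⁻¹ := by group
            have e2 : x * q * x⁻¹ * (x * p * x⁻¹) = x * (q * p) * x⁻¹ := by group
            rw [e1, e2, hpq.eq]
          exact hab'.2.imp (hc _ _) (hc _ _) }
  exact h.map f

theorem comm_central {G : Type*} [Group G] (x y c c' : G) (hc : (y * c') * c = c * (y * c'))
    (hc' : x * c' = c' * x) :
    (x * c) * (y * c') * (x * c)⁻¹ * (y * c')⁻¹ = x * y * x⁻¹ * y⁻¹ := by
  have e1 : c * (y * c') * c⁻¹ = y * c' := by rw [← hc]; group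
  have e2 : x * c' * x⁻¹ = c' := by rw [hc']; group
  calc (x * c) * (y * c') * (x * c)⁻¹ * (y * c')⁻¹
      = x * (c * (y * c') * c⁻¹) * x⁻¹ * (y * c')⁻¹ := by group
    _ = x * (y * c') * x⁻¹ * (y * c')⁻¹ := by rw [e1]
    _ = (x * y * x⁻¹) * (x * c' * x⁻¹) * c'⁻¹ * y⁻¹ := by group
    _ = x * y * x⁻¹ * y⁻¹ := by rw [e2]; group

theorem qs_normal {H : Type*} [Group H] (hs : IsSimpleGroup (H ⧸ Subgroup.center H))
    (N : Subgroup H) (hN : N.Normal) : N ≤ Subgroup.center H ∨ N ⊔ Subgroup.center H = ⊤ := by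
  have h1 : (N.map (QuotientGroup.mk' (Subgroup.center H))).Normal :=
    hN.map _ (QuotientGroup.mk'_surjective _)
  rcases h1.eq_bot_or_eq_top with h | h
  · left
    intro x hx
    have h2 : QuotientGroup.mk' (Subgroup.center H) x
        ∈ N.map (QuotientGroup.mk' (Subgroup.center H)) := ⟨x, hx, rfl⟩
    rw [h] at h2
    exact (QuotientGroup.eq_one_iff x).mp (Subgroup.mem_bot.mp h2)
  · right
    have h2 := congrArg (Subgroup.comap (QuotientGroup.mk' (Subgroup.center H))) h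
    rw [Subgroup.comap_map_eq, QuotientGroup.ker_mk', Subgroup.comap_top] at h2
    exact h2

open scoped Pointwise in
theorem main {G : Type*} [Group G] [Finite G] (L : Subgroup G) [hLn : L.Normal]
    (hperf : Group.IsPerfect ↥L) (hsimp : IsSimpleGroup (↥L ⧸ Subgroup.center ↥L))
    (d : G) (hd : orderOf d = 2) (hgen : L ⊔ Subgroup.zpowers d = ⊤)
    (hodd : Odd (Nat.card ↥(Subgroup.center ↥L)))
    (hinv : ∀ c ∈ (Subgroup.center ↥L).map L.subtype, d * c * d⁻¹ = c⁻¹)
    [hn : ((Subgroup.center ↥L).map L.subtype).Normal]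
    (hconn : (Cfsg.commutingGraph (conjugatesOf
      (QuotientGroup.mk d : G ⧸ (Subgroup.center ↥L).map L.subtype))).Connected) :
    (Cfsg.commutingGraph (conjugatesOf d)).Connected := by
  classical
  set Z : Subgroup G := (Subgroup.center ↥L).map L.subtype with hZdef
  have hdd : d * d = 1 := by
    have h := pow_orderOf_eq_one d
    rw [hd, pow_two] at h
    exact h
  have hZL : Z ≤ L := by
    rintro _ ⟨c, _, rfl⟩
    exact c.2
  have hZc : ∀ z ∈ Z, ∀ l ∈ L, l * z = z * l := by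
    rintro _ ⟨c, hc, rfl⟩ l hl
    have h := Subgroup.mem_center_iff.mp hc ⟨l, hl⟩
    exact congrArg Subtype.val h
  have hZmem : ∀ x (hx : x ∈ L), (⟨x, hx⟩ : L) ∈ Subgroup.center L → x ∈ Z :=
    fun x hx h => ⟨⟨x, hx⟩, h, rfl⟩
  have hsqrt : ∀ z ∈ Z, ∃ u ∈ Z, u * u = z := by
    intro z hz
    have hcard : Nat.card Z = Nat.card (Subgroup.center ↥L) :=
      Nat.card_congr ((Subgroup.center ↥L).equivMapOfInjective L.subtype
        L.subtype_injective).symm.toEquiv
    obtain ⟨m, hm⟩ := hodd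
    have h1 : (⟨z, hz⟩ : Z) ^ Nat.card Z = 1 := pow_card_eq_one'
    have h2 : z ^ (2 * m + 1) = 1 := by
      rw [← hm, ← hcard]
      have h3 : (((⟨z, hz⟩ : Z) ^ Nat.card Z : Z) : G) = ((1 : Z) : G) :=
        congrArg Subtype.val h1
      rw [Subgroup.coe_pow, Subgroup.coe_one] at h3
      exact h3
    refine ⟨z ^ (m + 1), Subgroup.pow_mem _ hz _, ?_⟩
    rw [← pow_add]
    have h4 : m + 1 + (m + 1) = (2 * m + 1) + 1 := by ring
    rw [h4, pow_succ, h2, one_mul]
  have hDinv : ∀ a ∈ conjugatesOf d, ∀ c ∈ Z, a * c * a⁻¹ = c⁻¹ := by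
    intro a ha c hc
    obtain ⟨g, rfl⟩ := mem_conj_iff.mp (ha)
    have h1 : g⁻¹ * c * g ∈ Z := by
      have h := hn.conj_mem c hc g⁻¹
      simpa using h
    have h2 := hinv _ h1
    have h3 : g * d * g⁻¹ * c * (g * d * g⁻¹)⁻¹ = g * (d * (g⁻¹ * c * g) * d⁻¹) * g⁻¹ := by
      group
    rw [h3, h2]
    group
  have hDsq : ∀ a ∈ conjugatesOf d, a * a = 1 := by
    intro a ha
    obtain ⟨g, rfl⟩ := mem_conj_iff.mp (ha)
    have h : g * d * g⁻¹ * (g * d * g⁻¹) = g * (d * d) * g⁻¹ := by group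
    rw [h, hdd]
    group
  have hconjD : ∀ (x a : G), a ∈ conjugatesOf d → x * a * x⁻¹ ∈ conjugatesOf d := by
    intro x a ha
    obtain ⟨g, rfl⟩ := mem_conj_iff.mp (ha)
    exact mem_conj_iff.mpr (⟨x * g, by group⟩)
  have hDZ : ∀ a ∈ conjugatesOf d, ∀ z ∈ Z, a * z ∈ conjugatesOf d := by
    intro a ha z hz
    obtain ⟨u, hu, huu⟩ := hsqrt z⁻¹ (Z.inv_mem hz)
    have h1 := hDinv a ha u⁻¹ (Z.inv_mem hu)
    rw [inv_inv] at h1
    have h2 : u * a * u⁻¹ = a * z := by
      have h3 : u * a = a * u⁻¹ := by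
        calc u * a = (a * u⁻¹ * a⁻¹) * a := by rw [h1]
          _ = a * u⁻¹ := by group
      have h4 : z = u⁻¹ * u⁻¹ := by
        have h5 : z⁻¹ = u * u := huu.symm
        rw [← inv_inv z, h5]
        group
      rw [h3, h4]
      group
    rw [← h2]
    exact hconjD u a ha
  have hdD : d ∈ conjugatesOf d := mem_conjugatesOf_self
  have hlift : ∀ a ∈ conjugatesOf d, ∀ b ∈ conjugatesOf d,
      Commute (QuotientGroup.mk a : G ⧸ Z) (QuotientGroup.mk b) →
      ∃ z ∈ Z, Commute a (b * z) := by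
    intro a ha b hb hab
    have h1 : ((b * a : G) : G ⧸ Z) = ((a * b : G) : G ⧸ Z) := by
      rw [QuotientGroup.mk_mul, QuotientGroup.mk_mul]
      exact hab.eq.symm
    have h2 : (b * a)⁻¹ * (a * b) ∈ Z := QuotientGroup.eq.mp h1
    obtain ⟨z, hz, hzz⟩ := hsqrt _ (Z.inv_mem h2)
    refine ⟨z, hz, ?_⟩
    have e1 := hDinv a ha z⁻¹ (Z.inv_mem hz)
    rw [inv_inv] at e1
    have e1' : z * a = a * z⁻¹ := by
      calc z * a = (a * z⁻¹ * a⁻¹) * a := by rw [e1]
        _ = a * z⁻¹ := by group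
    have e2 : z⁻¹ = (b * a)⁻¹ * (a * b) * z := by
      have h3 : (z * z)⁻¹ = (b * a)⁻¹ * (a * b) := by rw [hzz, inv_inv]
      rw [← h3]
      group
    show a * (b * z) = b * z * a
    rw [mul_assoc b z a, e1', e2]
    group
  let Δ : Set G := {a | ∃ ha : a ∈ conjugatesOf d,
    (Cfsg.commutingGraph (conjugatesOf d)).Reachable ⟨d, hdD⟩ ⟨a, ha⟩}
  have hΔD : ∀ a ∈ Δ, a ∈ conjugatesOf d := fun a ha => ha.1
  have hdΔ : d ∈ Δ := ⟨hdD, SimpleGraph.Reachable.refl _⟩
  have hcover : ∀ a ∈ conjugatesOf d, ∃ z ∈ Z, a * z ∈ Δ := by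
    intro a ha
    have haq : (QuotientGroup.mk a : G ⧸ Z) ∈ conjugatesOf (QuotientGroup.mk d : G ⧸ Z) := by
      obtain ⟨g, rfl⟩ := mem_conj_iff.mp (ha)
      exact mem_conj_iff.mpr (⟨QuotientGroup.mk g, by simp⟩)
    have hreach := hconn.preconnected ⟨QuotientGroup.mk d, mem_conjugatesOf_self⟩
      ⟨QuotientGroup.mk a, haq⟩
    rw [SimpleGraph.reachable_iff_reflTransGen] at hreach
    have key : ∀ v : conjugatesOf (QuotientGroup.mk d : G ⧸ Z),
        Relation.ReflTransGen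
          (Cfsg.commutingGraph (conjugatesOf (QuotientGroup.mk d : G ⧸ Z))).Adj
          ⟨QuotientGroup.mk d, mem_conjugatesOf_self⟩ v →
        ∃ y ∈ Δ, (QuotientGroup.mk y : G ⧸ Z) = v.1 := by
      intro v hv
      induction hv with
      | refl => exact ⟨d, hdΔ, rfl⟩
      | tail hab hbc ih =>
        rename_i b c
        obtain ⟨y, hyΔ, hyb⟩ := ih
        obtain ⟨gq, hgq⟩ := mem_conj_iff.mp (c.2)
        obtain ⟨g, rfl⟩ := QuotientGroup.mk_surjective gq
        have hcD : g * d * g⁻¹ ∈ conjugatesOf d := hconjD g d hdD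
        have hcq : (QuotientGroup.mk (g * d * g⁻¹) : G ⧸ Z) = c.1 := by
          rw [← hgq]
          simp
        have hadj := (SimpleGraph.fromRel_adj _ _ _).mp hbc
        have hcomm : Commute (QuotientGroup.mk y : G ⧸ Z)
            (QuotientGroup.mk (g * d * g⁻¹)) := by
          rw [hyb, hcq]
          rcases hadj.2 with h | h
          · exact h
          · exact h.symm
        obtain ⟨z, hz, hzc⟩ := hlift y (hΔD y hyΔ) _ hcD hcomm
        refine ⟨g * d * g⁻¹ * z, ?_, ?_⟩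
        · have hmem := hDZ _ hcD z hz
          obtain ⟨hyD, hyr⟩ := hyΔ
          by_cases hEq : g * d * g⁻¹ * z = y
          · rw [hEq]
            exact ⟨hyD, hyr⟩
          · refine ⟨hmem, hyr.trans (SimpleGraph.Adj.reachable ?_)⟩
            refine (SimpleGraph.fromRel_adj _ _ _).mpr ⟨?_, Or.inl hzc⟩
            intro h
            exact hEq (congrArg Subtype.val h).symm
        · rw [QuotientGroup.mk_mul, hcq]
          have h1 : (QuotientGroup.mk z : G ⧸ Z) = 1 := (QuotientGroup.eq_one_iff z).mpr hz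
          rw [h1, mul_one]
    obtain ⟨y, hyΔ, hy⟩ := key _ hreach
    refine ⟨a⁻¹ * y, QuotientGroup.eq.mp hy.symm, ?_⟩
    rw [mul_inv_cancel_left]
    exact hyΔ
  let St : Subgroup G :=
    { carrier := {g | ∀ a, a ∈ Δ ↔ g * a * g⁻¹ ∈ Δ}
      one_mem' := by
        intro a
        simp
      mul_mem' := by
        intro g h hg hh a
        rw [hh a, hg (h * a * h⁻¹)]
        have e : g * (h * a * h⁻¹) * g⁻¹ = g * h * a * (g * h)⁻¹ := by group
        rw [e]
      inv_mem' := by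
        intro g hg a
        rw [hg (g⁻¹ * a * g⁻¹⁻¹)]
        have e : g * (g⁻¹ * a * g⁻¹⁻¹) * g⁻¹ = a := by group
        rw [e] }
  have hStmem : ∀ g, g ∈ St ↔ ∀ a, a ∈ Δ ↔ g * a * g⁻¹ ∈ Δ := fun g => Iff.rfl
  have hΔSt : ∀ x ∈ Δ, x ∈ St := by
    intro x hx
    have hfwd : ∀ a ∈ Δ, x * a * x⁻¹ ∈ Δ := by
      intro a ha
      obtain ⟨hxD, hxr⟩ := hx
      obtain ⟨haD, har⟩ := ha
      have hxa := hconjD x a haD
      have hxd := hconjD x d hdD
      have hxx : x * x * x⁻¹ = x := by group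
      have hxx' : x * x * x⁻¹ ∈ conjugatesOf d := by rw [hxx]; exact hxD
      have r1 := reach_conj d x ⟨d, hdD⟩ ⟨a, haD⟩ hxd hxa har
      have r2 := reach_conj d x ⟨d, hdD⟩ ⟨x, hxD⟩ hxd hxx' hxr
      have hv : (⟨x * x * x⁻¹, hxx'⟩ : conjugatesOf d) = ⟨x, hxD⟩ := Subtype.ext hxx
      rw [hv] at r2
      exact ⟨hxa, (hxr.trans r2.symm).trans r1⟩
    rw [hStmem]
    intro a
    constructor
    · exact hfwd a
    · intro h
      have h2 := hfwd _ h
      have hxx : x * x = 1 := hDsq x (hΔD x hx)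
      have hxi : x⁻¹ = x := inv_eq_of_mul_eq_one_left hxx
      have e : x * (x * a * x⁻¹) * x⁻¹ = a := by
        rw [hxi]
        calc x * (x * a * x) * x = (x * x) * a * (x * x) := by group
          _ = a := by rw [hxx]; group
      rw [e] at h2
      exact h2
  have hNn : (Subgroup.normalClosure ({d} : Set G)).Normal := Subgroup.normalClosure_normal
  have hNsub : Subgroup.normalClosure ({d} : Set G) ≤ St ⊔ Z := by
    rw [Subgroup.normalClosure, Subgroup.closure_le]
    intro a ha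
    obtain ⟨a', ha', hconj⟩ := Group.mem_conjugatesOfSet_iff.mp ha
    rw [Set.mem_singleton_iff] at ha'
    subst ha'
    obtain ⟨z, hz, hazΔ⟩ := hcover a (show a ∈ conjugatesOf a' from hconj)
    have e : a = a * z * z⁻¹ := by group
    rw [e]
    exact Subgroup.mul_mem _ (Subgroup.mem_sup_left (hΔSt _ hazΔ))
      (Subgroup.mem_sup_right (Z.inv_mem hz))
  have hTn : ((Subgroup.normalClosure ({d} : Set G)).subgroupOf L).Normal := hNn.subgroupOf L
  rcases qs_normal hsimp _ hTn with hT | hT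
  · have hcomm1 : ∀ l ∈ L, l * d * l⁻¹ * d⁻¹ ∈ Z := by
      intro l hl
      have h1 : l * d * l⁻¹ * d⁻¹ ∈ Subgroup.normalClosure ({d} : Set G) := by
        apply Subgroup.mul_mem
        · exact hNn.conj_mem d (Subgroup.subset_normalClosure (Set.mem_singleton d)) l
        · exact Subgroup.inv_mem _ (Subgroup.subset_normalClosure (Set.mem_singleton d))
      have h2 : l * d * l⁻¹ * d⁻¹ ∈ L := by
        have e : l * d * l⁻¹ * d⁻¹ = l * (d * l⁻¹ * d⁻¹) := by group
        rw [e]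
        exact L.mul_mem hl (hLn.conj_mem _ (L.inv_mem hl) d)
      have h3 : (⟨_, h2⟩ : ↥L) ∈ (Subgroup.normalClosure ({d} : Set G)).subgroupOf L := by
        rw [Subgroup.mem_subgroupOf]
        exact h1
      exact hZmem _ h2 (hT h3)
    have hw : ∀ l ∈ L, ∃ w ∈ Z, d * l * d⁻¹ = l * w := by
      intro l hl
      refine ⟨l⁻¹ * d * l * d⁻¹, ?_, by group⟩
      have h := hcomm1 l⁻¹ (L.inv_mem hl)
      simpa using h
    have hsub : (⊤ : Subgroup ↥L) ≤ (Subgroup.centralizer ({d} : Set G)).subgroupOf L := by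
      rw [← hperf.commutator_eq_top, commutator_eq_closure, Subgroup.closure_le]
      rintro _ ⟨l₁, l₂, rfl⟩
      rw [commutatorElement_def, SetLike.mem_coe, Subgroup.mem_subgroupOf,
        Subgroup.mem_centralizer_iff]
      intro y hy
      rw [Set.mem_singleton_iff] at hy
      subst hy
      simp only [Subgroup.coe_mul, Subgroup.coe_inv]
      obtain ⟨w₁, hw₁, e₁⟩ := hw l₁ l₁.2
      obtain ⟨w₂, hw₂, e₂⟩ := hw l₂ l₂.2
      have e : y * ((l₁ : G) * l₂ * (l₁ : G)⁻¹ * (l₂ : G)⁻¹) * y⁻¹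
          = (y * l₁ * y⁻¹) * (y * l₂ * y⁻¹) * (y * l₁ * y⁻¹)⁻¹ * (y * l₂ * y⁻¹)⁻¹ := by group
      rw [e₁, e₂, comm_central (l₁ : G) (l₂ : G) w₁ w₂
        (hZc w₁ hw₁ (l₂ * w₂) (L.mul_mem l₂.2 (hZL hw₂))) (hZc w₂ hw₂ l₁ l₁.2)] at e
      exact mul_inv_eq_iff_eq_mul.mp e
    have hcent : Subgroup.centralizer ({d} : Set G) = ⊤ := by
      rw [eq_top_iff, ← hgen]
      apply sup_le
      · intro l hl
        have h := hsub (Subgroup.mem_top (⟨l, hl⟩ : ↥L))
        exact Subgroup.mem_subgroupOf.mp h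
      · rw [Subgroup.zpowers_le, Subgroup.mem_centralizer_iff]
        intro y hy
        rw [Set.mem_singleton_iff] at hy
        subst hy
        rfl
    rw [SimpleGraph.connected_iff_exists_forall_reachable]
    refine ⟨⟨d, hdD⟩, fun w => ?_⟩
    have hwd : w = ⟨d, hdD⟩ := by
      apply Subtype.ext
      obtain ⟨g, hg⟩ := mem_conj_iff.mp (w.2)
      have hgc : g ∈ Subgroup.centralizer ({d} : Set G) := by rw [hcent]; trivial
      have h := Subgroup.mem_centralizer_iff.mp hgc d (Set.mem_singleton d)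
      rw [← hg, ← h]
      group
    rw [hwd]
  · have hLsub : L ≤ St ⊔ Z := by
      intro l hl
      have h1 : (⟨l, hl⟩ : ↥L) ∈ (Subgroup.normalClosure ({d} : Set G)).subgroupOf L
          ⊔ Subgroup.center ↥L := by rw [hT]; trivial
      have h2 : (⟨l, hl⟩ : ↥L) ∈ (((Subgroup.normalClosure ({d} : Set G)).subgroupOf L
          : Subgroup ↥L) : Set ↥L) * (Subgroup.center ↥L : Set ↥L) := by
        rw [← Subgroup.mul_normal]
        exact h1
      obtain ⟨t, ht, c, hc, htc⟩ := Set.mem_mul.mp h2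
      have h3 : l = (t : G) * (c : G) := by
        have h4 := congrArg Subtype.val htc
        simpa using h4.symm
      rw [h3]
      apply Subgroup.mul_mem
      · exact hNsub (Subgroup.mem_subgroupOf.mp ht)
      · exact Subgroup.mem_sup_right ⟨c, hc, rfl⟩
    have hdec : ∀ l ∈ L, ∃ k ∈ St, ∃ z ∈ Z, l = k * z := by
      intro l hl
      have h1 : l ∈ ((St ⊔ Z : Subgroup G) : Set G) := hLsub hl
      rw [Subgroup.mul_normal] at h1
      obtain ⟨k, hk, z, hz, hkz⟩ := Set.mem_mul.mp h1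
      exact ⟨k, hk, z, hz, hkz.symm⟩
    have hsub : (⊤ : Subgroup ↥L) ≤ St.subgroupOf L := by
      rw [← hperf.commutator_eq_top, commutator_eq_closure, Subgroup.closure_le]
      rintro _ ⟨l₁, l₂, rfl⟩
      rw [commutatorElement_def, SetLike.mem_coe, Subgroup.mem_subgroupOf]
      simp only [Subgroup.coe_mul, Subgroup.coe_inv]
      obtain ⟨k₁, hk₁, z₁, hz₁, e₁⟩ := hdec l₁ l₁.2
      obtain ⟨k₂, hk₂, z₂, hz₂, e₂⟩ := hdec l₂ l₂.2
      have hk₁L : k₁ ∈ L := by
        have e : k₁ = l₁ * z₁⁻¹ := by rw [e₁]; group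
        rw [e]
        exact L.mul_mem l₁.2 (L.inv_mem (hZL hz₁))
      have hk₂L : k₂ ∈ L := by
        have e : k₂ = l₂ * z₂⁻¹ := by rw [e₂]; group
        rw [e]
        exact L.mul_mem l₂.2 (L.inv_mem (hZL hz₂))
      have hcm : (l₁ : G) * l₂ * (l₁ : G)⁻¹ * (l₂ : G)⁻¹ = k₁ * k₂ * k₁⁻¹ * k₂⁻¹ := by
        rw [e₁, e₂]
        exact comm_central k₁ k₂ z₁ z₂
          (hZc z₁ hz₁ (k₂ * z₂) (L.mul_mem hk₂L (hZL hz₂))) (hZc z₂ hz₂ k₁ hk₁L)
      rw [hcm]
      exact St.mul_mem (St.mul_mem (St.mul_mem hk₁ hk₂) (St.inv_mem hk₁)) (St.inv_mem hk₂)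
    have hLSt : L ≤ St := by
      intro l hl
      have h := hsub (Subgroup.mem_top (⟨l, hl⟩ : ↥L))
      exact Subgroup.mem_subgroupOf.mp h
    have hSttop : St = ⊤ := by
      rw [eq_top_iff, ← hgen]
      exact sup_le hLSt ((Subgroup.zpowers_le).mpr (hΔSt d hdΔ))
    rw [SimpleGraph.connected_iff_exists_forall_reachable]
    refine ⟨⟨d, hdD⟩, fun w => ?_⟩
    obtain ⟨g, hg⟩ := mem_conj_iff.mp (w.2)
    have hgSt : g ∈ St := by rw [hSttop]; trivial
    have h1 : g * d * g⁻¹ ∈ Δ := ((hStmem g).mp hgSt d).mp hdΔ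
    obtain ⟨h2, hr⟩ := h1
    have hv : (⟨g * d * g⁻¹, h2⟩ : conjugatesOf d) = w := Subtype.ext hg
    rw [hv] at hr
    exact hr

/-- Let G be a finite group with a quasisimple normal subgroup L and an involution d such that G is generated by L and d, the centre of L has odd order, and d inverts every element of the centre of L. If the commuting graph on the conjugacy class of the image of d in G modulo the centre of L is connected, then the commuting graph on the conjugacy class of d is connected. -/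
theorem result {G : Type*} [Group G] [Finite G] (L : Subgroup G) [L.Normal] (hL : Cfsg.IsQuasisimple ↥L) (d : G) (hd : orderOf d = 2) (hgen : L ⊔ Subgroup.zpowers d = ⊤) (hodd : Odd (Nat.card ↥(Subgroup.center ↥L))) (hinv : ∀ c ∈ (Subgroup.center ↥L).map L.subtype, d * c * d⁻¹ = c⁻¹) [hn : ((Subgroup.center ↥L).map L.subtype).Normal] (hconn : (Cfsg.commutingGraph (conjugatesOf (QuotientGroup.mk d : G ⧸ (Subgroup.center ↥L).map L.subtype))).Connected) : (Cfsg.commutingGraph (conjugatesOf d)).Connected := by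
  exact main L hL.1 hL.2 d hd hgen hodd hinv hconn

end Cfsg.Agent.S5459
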