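import Cfsg.Statements.S5541
import Mathlib

set_option autoImplicit false
open Cfsg

namespace Cfsg.Agent.S5541

/-- Let ρ be a representation of a group H on a finite-dimensional real vector space U whose only ρ-invariant subspaces are the zero subspace and U, and suppose U carries a non-zero ρ-invariant symmetric bilinear form. Then the following are equivalent: (1) there is a non-zero ρ-equivariant commutative bilinear product on U of which every ρ-equivariant bilinear product is a scalar multiple; (2) there is a non-zero ρ-invariant trilinear form on U that is symmetric under all permutations of its arguments and of which every ρ-invariant trilinear form is a scalar multiple. -/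
theorem result {H : Type*} [Group H] {U : Type*} [AddCommGroup U] [Module ℝ U] [FiniteDimensional ℝ U] (ρ : Representation ℝ H U) (hirr : ∀ W : Submodule ℝ U, (∀ g : H, W.map (ρ g) ≤ W) → W = ⊥ ∨ W = ⊤) (B : LinearMap.BilinForm ℝ U) (hB0 : B ≠ 0) (hBs : ∀ u v, B u v = B v u) (hBi : ∀ (g : H) (u v : U), B (ρ g u) (ρ g v) = B u v) : (∃ m : U →ₗ[ℝ] U →ₗ[ℝ] U, m ≠ 0 ∧ (∀ u v, m u v = m v u) ∧ (∀ (g : H) (u v : U), m (ρ g u) (ρ g v) = ρ g (m u v)) ∧ ∀ m' : U →ₗ[ℝ] U →ₗ[ℝ] U, (∀ (g : H) (u v : U), m' (ρ g u) (ρ g v) = ρ g (m' u v)) → ∃ c : ℝ, m' = c • m) ↔ (∃ t : U →ₗ[ℝ] U →ₗ[ℝ] U →ₗ[ℝ] ℝ, t ≠ 0 ∧ (∀ u v w, t u v w = t v u w ∧ t u v w = t u w v) ∧ (∀ (g : H) (u v w : U), t (ρ g u) (ρ g v) (ρ g w) = t u v w) ∧ ∀ t' : U →ₗ[ℝ] U →ₗ[ℝ] U →ₗ[ℝ] ℝ, (∀ (g : H) (u v w : U), t' (ρ g u) (ρ g v) (ρ g w) = t' u v w) → ∃ c : ℝ, t' = c • t) := by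
  classical
  have hρ : ∀ (g : H) (v : U), ρ g (ρ g⁻¹ v) = v := by
    intro g v
    rw [← Module.End.mul_apply, ← map_mul, mul_inv_cancel, map_one, Module.End.one_apply]
  have hker : LinearMap.ker B = ⊥ := by
    rcases hirr (LinearMap.ker B) (by
      intro g
      rintro _ ⟨u, hu, rfl⟩
      rw [SetLike.mem_coe, LinearMap.mem_ker] at hu
      rw [LinearMap.mem_ker]
      apply LinearMap.ext
      intro v
      have h1 := hBi g u (ρ g⁻¹ v)
      rw [hρ] at h1
      rw [h1, hu]
      rfl) with h | h
    · exact h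
    · exfalso
      apply hB0
      apply LinearMap.ext
      intro u
      have hu : u ∈ LinearMap.ker B := by rw [h]; trivial
      rw [LinearMap.mem_ker] at hu
      rw [hu]
      rfl
  have hBinj : Function.Injective B := LinearMap.ker_eq_bot.mp hker
  have hnd : ∀ x y : U, (∀ w, B x w = B y w) → x = y := fun x y h => hBinj (LinearMap.ext h)
  let e : U ≃ₗ[ℝ] (U →ₗ[ℝ] ℝ) :=
    LinearMap.linearEquivOfInjective B hBinj (Subspace.dual_finrank_eq).symm
  have he : ∀ u, e u = B u := fun u => rfl
  have hes : ∀ (φ : U →ₗ[ℝ] ℝ) (w : U), B (e.symm φ) w = φ w := by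
    intro φ w
    rw [← he, LinearEquiv.apply_symm_apply]
  have toM : ∀ t' : U →ₗ[ℝ] U →ₗ[ℝ] U →ₗ[ℝ] ℝ,
      (∀ (g : H) (u v w : U), t' (ρ g u) (ρ g v) (ρ g w) = t' u v w) →
      ∃ m' : U →ₗ[ℝ] U →ₗ[ℝ] U, (∀ u v w, B (m' u v) w = t' u v w) ∧
        (∀ (g : H) (u v : U), m' (ρ g u) (ρ g v) = ρ g (m' u v)) := by
    intro t' ht'
    refine ⟨t'.compr₂ e.symm.toLinearMap, ?_, ?_⟩
    · intro u v w
      exact hes (t' u v) w
    · intro g u v
      apply hnd
      intro w
      have h1 : B ((t'.compr₂ e.symm.toLinearMap) (ρ g u) (ρ g v)) w = t' (ρ g u) (ρ g v) w :=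
        hes _ w
      have h2 : B ((t'.compr₂ e.symm.toLinearMap) u v) (ρ g⁻¹ w) = t' u v (ρ g⁻¹ w) := hes _ _
      rw [h1]
      have h3 := hBi g ((t'.compr₂ e.symm.toLinearMap) u v) (ρ g⁻¹ w)
      rw [hρ] at h3
      rw [h3, h2]
      have h4 := ht' g u v (ρ g⁻¹ w)
      rw [hρ] at h4
      exact h4
  constructor
  · rintro ⟨m, hm0, hmc, hme, hmu⟩
    let t : U →ₗ[ℝ] U →ₗ[ℝ] U →ₗ[ℝ] ℝ := m.compr₂ B
    have ht : ∀ u v w, t u v w = B (m u v) w := fun u v w => rfl
    have hti : ∀ (g : H) (u v w : U), t (ρ g u) (ρ g v) (ρ g w) = t u v w := by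
      intro g u v w
      rw [ht, ht, hme, hBi]
    have ht0 : t ≠ 0 := by
      intro h
      apply hm0
      apply LinearMap.ext
      intro u
      apply LinearMap.ext
      intro v
      apply hnd
      intro w
      have h1 := ht u v w
      rw [h] at h1
      rw [← h1]
      simp
    let t₂ : U →ₗ[ℝ] U →ₗ[ℝ] U →ₗ[ℝ] ℝ := (LinearMap.lflip (R := ℝ) (M := U) (N := U) (P := ℝ)).comp t
    have ht₂ : ∀ u v w, t₂ u w v = t u v w := fun u v w => rfl
    obtain ⟨m₂, hm₂, hm₂e⟩ := toM t₂ (by
      intro g u v w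
      show t (ρ g u) (ρ g w) (ρ g v) = t u w v
      exact hti g u w v)
    obtain ⟨c, hc⟩ := hmu m₂ hm₂e
    have hstar : ∀ u v w, t u v w = c * t u w v := by
      intro u v w
      have h1 := hm₂ u w v
      rw [hc, ht₂] at h1
      simp only [LinearMap.smul_apply, map_smul, smul_eq_mul] at h1
      rw [← h1, ht]
    have hc2 : c = 1 ∨ c = -1 := by
      have hex : ∃ u v w, t u v w ≠ 0 := by
        by_contra hcon
        push_neg at hcon
        exact ht0 (LinearMap.ext fun u => LinearMap.ext fun v => LinearMap.ext fun w => hcon u v w)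
      obtain ⟨u, v, w, huvw⟩ := hex
      have h1 := hstar u v w
      have h2 := hstar u w v
      rw [h2] at h1
      have h3 : (c * c - 1) * t u v w = 0 := by
        rw [sub_mul, one_mul, mul_assoc, ← h1, sub_self]
      have h4 : c * c = 1 := by
        rcases mul_eq_zero.mp h3 with h | h
        · linarith
        · exact absurd h huvw
      exact mul_self_eq_one_iff.mp h4
    have hs1 : ∀ u v w, t u v w = t v u w := by
      intro u v w
      rw [ht, ht, hmc]
    have hsym2 : ∀ u v w, t u v w = t u w v := by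
      rcases hc2 with rfl | rfl
      · intro u v w
        simpa using hstar u v w
      · exfalso
        have hanti : ∀ u v w, t u v w = - t u w v := by
          intro u v w
          simpa using hstar u v w
        apply ht0
        apply LinearMap.ext
        intro u
        apply LinearMap.ext
        intro v
        apply LinearMap.ext
        intro w
        have h1 := hanti u v w
        have h2 := hs1 u w v
        have h3 := hanti w u v
        have h4 := hs1 w v u
        have h5 := hanti v w u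
        have h6 := hs1 v u w
        simp only [LinearMap.zero_apply]
        linarith
    refine ⟨t, ht0, fun u v w => ⟨hs1 u v w, hsym2 u v w⟩, hti, ?_⟩
    intro t' ht'
    obtain ⟨m', hm', hm'e⟩ := toM t' ht'
    obtain ⟨c', hc'⟩ := hmu m' hm'e
    refine ⟨c', ?_⟩
    apply LinearMap.ext
    intro u
    apply LinearMap.ext
    intro v
    apply LinearMap.ext
    intro w
    rw [← hm', hc']
    simp only [LinearMap.smul_apply, map_smul, smul_eq_mul]
    rw [ht]
  · rintro ⟨t, ht0, hts, hti, htu⟩
    obtain ⟨m, hm, hme⟩ := toM t hti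
    refine ⟨m, ?_, ?_, hme, ?_⟩
    · intro h
      apply ht0
      apply LinearMap.ext
      intro u
      apply LinearMap.ext
      intro v
      apply LinearMap.ext
      intro w
      rw [← hm, h]
      simp
    · intro u v
      apply hnd
      intro w
      rw [hm, hm]
      exact (hts u v w).1
    · intro m' hm'e
      have hinv : ∀ (g : H) (u v w : U),
          (m'.compr₂ B) (ρ g u) (ρ g v) (ρ g w) = (m'.compr₂ B) u v w := by
        intro g u v w
        show B (m' (ρ g u) (ρ g v)) (ρ g w) = B (m' u v) w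
        rw [hm'e, hBi]
      obtain ⟨c, hc⟩ := htu _ hinv
      refine ⟨c, ?_⟩
      apply LinearMap.ext
      intro u
      apply LinearMap.ext
      intro v
      apply hnd
      intro w
      have h1 : B (m' u v) w = (m'.compr₂ B) u v w := rfl
      rw [h1, hc]
      simp only [LinearMap.smul_apply, map_smul, smul_eq_mul]
      rw [hm]

end Cfsg.Agent.S5541
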