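import Cfsg.Statements.S5543
import Mathlib

set_option autoImplicit false
open Cfsg

namespace Cfsg.Agent.S5543

/-- Let V be a finite-dimensional real vector space with a commutative bilinear product and a positive-definite symmetric bilinear form that associates with the product and satisfies the Norton inequality (the Majorana setting of the definitions). Let X be a group of linear automorphisms of V in which every element squares to the identity, and suppose every non-identity element x of X is a Majorana involution with an axial vector a(x) of squared length 1, such that for any two distinct non-identity x, y the product a(x) ∘ a(y) equals (1/8)(a(x) + a(y) − a(xy)) (the dihedral subalgebra of type 2A whose third axis belongs to the involution xy). Then X has order at most 4. -/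
theorem result {V : Type*} [AddCommGroup V] [Module ℝ V] [FiniteDimensional ℝ V] (mul : V →ₗ[ℝ] V →ₗ[ℝ] V) (B : LinearMap.BilinForm ℝ V) (hV : Cfsg.Axial.IsMajoranaAmbient mul B) (X : Subgroup (V ≃ₗ[ℝ] V)) (hX : ∀ x ∈ X, x * x = 1) (ax : (V ≃ₗ[ℝ] V) → V) (hax : ∀ x ∈ X, x ≠ 1 → Cfsg.Axial.IsMajoranaPair mul B x (ax x)) (h1 : ∀ x ∈ X, x ≠ 1 → B (ax x) (ax x) = 1) (h2A : ∀ x ∈ X, ∀ y ∈ X, x ≠ 1 → y ≠ 1 → x ≠ y → mul (ax x) (ax y) = (1 / 8 : ℝ) • (ax x + ax y - ax (x * y))) : Nat.card ↥X ≤ 4 := by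
  classical
  obtain ⟨hcm, hBs, hBpos, hBassoc, -⟩ := hV
  by_contra hcard
  rw [not_le] at hcard
  -- group facts
  have hcomm : ∀ a ∈ X, ∀ b ∈ X, a * b = b * a := by
    intro a ha b hb
    have ha' : a⁻¹ = a := inv_eq_of_mul_eq_one_left (hX a ha)
    have hb' : b⁻¹ = b := inv_eq_of_mul_eq_one_left (hX b hb)
    have hab' : (a * b)⁻¹ = a * b := inv_eq_of_mul_eq_one_left (hX (a * b) (mul_mem ha hb))
    calc a * b = (a * b)⁻¹ := hab'.symm
      _ = b⁻¹ * a⁻¹ := mul_inv_rev a b
      _ = b * a := by rw [ha', hb']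
  have i1 : ∀ a ∈ X, ∀ b : V ≃ₗ[ℝ] V, a * (a * b) = b := by
    intro a ha b
    rw [← mul_assoc, hX a ha, one_mul]
  have mul_ne_one : ∀ a ∈ X, ∀ b : V ≃ₗ[ℝ] V, a ≠ b → a * b ≠ 1 := by
    intro a ha b hab h
    have h2 := i1 a ha b
    rw [h, mul_one] at h2
    exact hab h2
  -- inner products
  have IP : ∀ a ∈ X, ∀ b ∈ X, a ≠ 1 → b ≠ 1 → a ≠ b → B (ax a) (ax b) = 1 / 8 := by
    intro a ha b hb ha1 hb1 hab
    have hab1 : a * b ≠ 1 := mul_ne_one a ha b hab
    have haab : a ≠ a * b := by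
      intro h
      exact hb1 (mul_left_cancel (a := a) (b := 1) (c := b) (by rw [mul_one]; exact h)).symm
    have e1 := h2A a ha b hb ha1 hb1 hab
    have e2 := h2A a ha (a * b) (mul_mem ha hb) ha1 hab1 haab
    rw [i1 a ha b] at e2
    have hidem : mul (ax a) (ax a) = ax a := (hax a ha ha1).2.2.1.1.2.1
    have as1 := hBassoc (ax a) (ax a) (ax b)
    have as2 := hBassoc (ax a) (ax a) (ax (a * b))
    rw [hidem, e1] at as1
    rw [hidem, e2] at as2
    simp only [map_smul, map_add, map_sub, smul_eq_mul, h1 a ha ha1] at as1 as2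
    linarith
  -- eigenvectors
  have EV : ∀ a ∈ X, ∀ b ∈ X, a ≠ 1 → b ≠ 1 → a ≠ b →
      mul (ax a) (ax b - ax (a * b)) = (1 / 4 : ℝ) • (ax b - ax (a * b)) := by
    intro a ha b hb ha1 hb1 hab
    have hab1 : a * b ≠ 1 := mul_ne_one a ha b hab
    have haab : a ≠ a * b := by
      intro h
      exact hb1 (mul_left_cancel (a := a) (b := 1) (c := b) (by rw [mul_one]; exact h)).symm
    have e1 := h2A a ha b hb ha1 hb1 hab
    have e2 := h2A a ha (a * b) (mul_mem ha hb) ha1 hab1 haab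
    rw [i1 a ha b] at e2
    rw [map_sub, e1, e2]
    module
  -- three independent elements
  have hex : ∀ T : Finset (V ≃ₗ[ℝ] V), T.card < Nat.card X → ∃ z ∈ X, z ∉ T := by
    intro T hT
    by_contra hcon
    simp only [not_exists, not_and, not_not] at hcon
    have hsub : (X : Set (V ≃ₗ[ℝ] V)) ⊆ (T : Set (V ≃ₗ[ℝ] V)) := fun z hz => hcon z hz
    have h2 : (X : Set (V ≃ₗ[ℝ] V)).ncard ≤ (T : Set (V ≃ₗ[ℝ] V)).ncard :=
      Set.ncard_le_ncard hsub T.finite_toSet
    rw [Set.ncard_coe_finset] at h2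
    have h3 : Nat.card X = (X : Set (V ≃ₗ[ℝ] V)).ncard := rfl
    omega
  obtain ⟨x, hx, hx'⟩ := hex {1} (by rw [Finset.card_singleton]; omega)
  obtain ⟨y, hy, hy'⟩ := hex {1, x} (lt_of_le_of_lt Finset.card_le_two (by omega))
  obtain ⟨z, hz, hz'⟩ := hex {1, x, y, x * y} (lt_of_le_of_lt Finset.card_le_four (by omega))
  simp only [Finset.mem_insert, Finset.mem_singleton, not_or] at hx' hy' hz'
  have hx1 : x ≠ 1 := hx'
  obtain ⟨hy1, hyx⟩ := hy'
  obtain ⟨hz1, hzx, hzy, hzxy⟩ := hz'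
  have hxy : x * y ∈ X := mul_mem hx hy
  have hxz : x * z ∈ X := mul_mem hx hz
  have hyz : y * z ∈ X := mul_mem hy hz
  have d1 : x * y ≠ 1 := mul_ne_one x hx y (Ne.symm hyx)
  have d3 : x * z ≠ 1 := mul_ne_one x hx z (Ne.symm hzx)
  have d4 : y ≠ x * z := by
    intro h
    apply hzxy
    rw [h, i1 x hx z]
  have d6 : x * y ≠ x * z := by
    intro h
    exact hzy (mul_left_cancel h).symm
  have d7 : y * z ≠ 1 := mul_ne_one y hy z (Ne.symm hzy)
  have d8 : x ≠ y * z := by
    intro h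
    apply hzxy
    rw [h, hcomm (y * z) hyz y hy, i1 y hy z]
  have d9 : x * (y * z) ≠ 1 := mul_ne_one x hx (y * z) d8
  have d10 : y * z ≠ x * (y * z) := by
    intro h
    exact hx1 (mul_right_cancel (b := y * z) (a := 1) (c := x) (by rw [one_mul]; exact h)).symm
  -- the product of two quarter-eigenvectors
  have p1 := h2A y hy z hz hy1 hz1 (Ne.symm hzy)
  have p2 := h2A y hy (x * z) hxz hy1 d3 d4
  have p3 := h2A (x * y) hxy z hz d1 hz1 (Ne.symm hzxy)
  have p4 := h2A (x * y) hxy (x * z) hxz d1 d3 d6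
  have i2 : y * (x * z) = x * (y * z) := by
    rw [← mul_assoc, hcomm y hy x hx, mul_assoc]
  have i3 : x * y * z = x * (y * z) := mul_assoc x y z
  have i4 : x * y * (x * z) = y * z := by
    rw [hcomm x hx y hy, mul_assoc, i1 x hx z]
  rw [i2] at p2
  rw [i3] at p3
  rw [i4] at p4
  have huv : mul (ax y - ax (x * y)) (ax z - ax (x * z)) =
      (1 / 4 : ℝ) • (ax (x * (y * z)) - ax (y * z)) := by
    simp only [map_sub, LinearMap.sub_apply, p1, p2, p3, p4]
    module
  have hu := EV x hx y hy hx1 hy1 (Ne.symm hyx)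
  have hv := EV x hx z hz hx1 hz1 (Ne.symm hzx)
  have hD := EV x hx (y * z) hyz hx1 d7 d8
  -- fusion
  have haxis := (hax x hx hx1).2.2.1.1
  have hq : (1 / 4 : ℝ) ∈ Cfsg.Axial.majoranaSpectrum := by
    unfold Cfsg.Axial.majoranaSpectrum
    simp
  have hfus := haxis.2.2.2 (1 / 4) hq (1 / 4) hq (ax y - ax (x * y))
    (Module.End.mem_eigenspace_iff.mpr hu) (ax z - ax (x * z)) (Module.End.mem_eigenspace_iff.mpr hv)
  have hlaw : Cfsg.Axial.monsterLaw (1 / 4 : ℝ) (1 / 32) (1 / 4) (1 / 4) = {1, 0} := by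
    unfold Cfsg.Axial.monsterLaw
    rw [if_neg (by norm_num), if_neg (by norm_num), if_pos ⟨rfl, rfl⟩]
  rw [hlaw] at hfus
  unfold Cfsg.Axial.eigenSum at hfus
  rw [iSup_insert, iSup_singleton, Submodule.mem_sup] at hfus
  obtain ⟨w₁, hw₁, w₀, hw₀, hw⟩ := hfus
  have hw₁' : mul (ax x) w₁ = w₁ := by
    have h := Module.End.mem_eigenspace_iff.mp hw₁
    rw [one_smul] at h
    exact h
  have hw₀' : mul (ax x) w₀ = 0 := by
    have h := Module.End.mem_eigenspace_iff.mp hw₀
    rw [zero_smul] at h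
    exact h
  -- the product is also a quarter-eigenvector
  have hD' : mul (ax x) (ax (x * (y * z)) - ax (y * z)) =
      (1 / 4 : ℝ) • (ax (x * (y * z)) - ax (y * z)) := by
    have h : ax (x * (y * z)) - ax (y * z) = -(ax (y * z) - ax (x * (y * z))) := by abel
    rw [h, map_neg, hD, smul_neg]
  set w := mul (ax y - ax (x * y)) (ax z - ax (x * z)) with hwdef
  have e1 : mul (ax x) w = (1 / 4 : ℝ) • w := by
    rw [huv, map_smul, hD']
  have e2 : mul (ax x) w = w₁ := by
    rw [← hw, map_add, hw₁', hw₀', add_zero]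
  have e3 : w₁ = (1 / 4 : ℝ) • w := by rw [← e2, e1]
  have e4 : (1 / 4 : ℝ) • ((1 / 4 : ℝ) • w) = (1 / 4 : ℝ) • w := by
    have h := hw₁'
    rw [e3, map_smul, e1] at h
    exact h
  have e5 : w = 0 := by
    rw [smul_smul] at e4
    have h : ((1 / 4 : ℝ) * (1 / 4) - 1 / 4) • w = 0 := by
      rw [sub_smul, e4, sub_self]
    rcases smul_eq_zero.mp h with h | h
    · norm_num at h
    · exact h
  rw [huv] at e5
  have e6 : ax (x * (y * z)) - ax (y * z) = 0 := by
    rcases smul_eq_zero.mp e5 with h | h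
    · norm_num at h
    · exact h
  have e7 : ax (x * (y * z)) = ax (y * z) := sub_eq_zero.mp e6
  have e8 := IP (y * z) hyz (x * (y * z)) (mul_mem hx hyz) d7 d9 d10
  rw [e7, h1 (y * z) hyz d7] at e8
  norm_num at e8

end Cfsg.Agent.S5543
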