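import Cfsg.Statements.S5545
import Mathlib

set_option autoImplicit false
open Cfsg

namespace Cfsg.Agent.S5545

section
open Cfsg.Axial

variable {V : Type*} [AddCommGroup V] [Module ℝ V]

theorem eigen_iff (mul : V →ₗ[ℝ] V →ₗ[ℝ] V) (a : V) (c : ℝ) (x : V) :
    x ∈ eigen mul a c ↔ mul a x = c • x := Module.End.mem_eigenspace_iff

theorem eigen_le_eigenSum (mul : V →ₗ[ℝ] V →ₗ[ℝ] V) (a : V) (S : Set ℝ) (c : ℝ) (hc : c ∈ S) :
    eigen mul a c ≤ eigenSum mul a S :=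
  le_biSup (fun c => eigen mul a c) hc

theorem eigen_map (mul : V →ₗ[ℝ] V →ₗ[ℝ] V) (ν : V ≃ₗ[ℝ] V)
    (hν : ∀ u v, ν (mul u v) = mul (ν u) (ν v)) (a : V) (c : ℝ) (x : V)
    (hx : x ∈ eigen mul a c) : ν x ∈ eigen mul (ν a) c := by
  rw [eigen_iff] at hx ⊢
  rw [← hν, hx, map_smul]

theorem eigenSum_map (mul : V →ₗ[ℝ] V →ₗ[ℝ] V) (ν : V ≃ₗ[ℝ] V)
    (hν : ∀ u v, ν (mul u v) = mul (ν u) (ν v)) (a : V) (S : Set ℝ) (x : V)
    (hx : x ∈ eigenSum mul a S) : ν x ∈ eigenSum mul (ν a) S := by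
  have h : eigenSum mul a S ≤ (eigenSum mul (ν a) S).comap (ν : V →ₗ[ℝ] V) := by
    refine iSup₂_le ?_
    intro c hc x hx
    rw [Submodule.mem_comap]
    exact eigen_le_eigenSum mul (ν a) S c hc (eigen_map mul ν hν a c x hx)
  exact h hx

theorem pair_transport (mul : V →ₗ[ℝ] V →ₗ[ℝ] V) (B : LinearMap.BilinForm ℝ V)
    (μ ν : V ≃ₗ[ℝ] V) (a : V) (h : IsMajoranaPair mul B μ a)
    (hν : ∀ u v, ν (mul u v) = mul (ν u) (ν v)) (hcomm : μ * ν = ν * μ) :
    IsMajoranaPair mul B μ (ν a) := by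
  obtain ⟨h1, h2, ⟨⟨hne, hidem, htop, hfus⟩, hprim⟩, hmiy1, hmiy2⟩ := h
  have hν' : ∀ u v, ν.symm (mul u v) = mul (ν.symm u) (ν.symm v) := by
    intro u v
    apply ν.injective
    rw [hν]
    simp
  have hback : ∀ (S : Set ℝ) (x : V), x ∈ eigenSum mul (ν a) S → ν.symm x ∈ eigenSum mul a S := by
    intro S x hx
    have h3 := eigenSum_map mul ν.symm hν' (ν a) S x hx
    simpa using h3
  have hback1 : ∀ (c : ℝ) (x : V), x ∈ eigen mul (ν a) c → ν.symm x ∈ eigen mul a c := by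
    intro c x hx
    have h3 := eigen_map mul ν.symm hν' (ν a) c x hx
    simpa using h3
  have hμν : ∀ v, μ (ν v) = ν (μ v) := fun v => congrArg (fun f : V ≃ₗ[ℝ] V => f v) hcomm
  refine ⟨h1, h2, ⟨⟨?_, ?_, ?_, ?_⟩, ?_⟩, ?_, ?_⟩
  · intro h0
    apply hne
    apply ν.injective
    rw [h0, map_zero]
  · rw [← hν, hidem]
  · rw [eq_top_iff]
    intro y _
    have h3 : ν.symm y ∈ eigenSum mul a majoranaSpectrum := by
      rw [htop]
      trivial
    have h4 := eigenSum_map mul ν hν a _ _ h3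
    simpa using h4
  · intro c hc d hd u hu v hv
    have h3 := hfus c hc d hd _ (hback1 c u hu) _ (hback1 d v hv)
    have h4 := eigenSum_map mul ν hν a _ _ h3
    rw [hν] at h4
    simpa using h4
  · apply le_antisymm
    · intro x hx
      have h3 := hback1 1 x hx
      rw [hprim, Submodule.mem_span_singleton] at h3
      obtain ⟨r, hr⟩ := h3
      rw [Submodule.mem_span_singleton]
      refine ⟨r, ?_⟩
      rw [← map_smul, hr]
      simp
    · rw [Submodule.span_singleton_le_iff_mem, eigen_iff, ← hν, hidem, one_smul]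
  · intro v hv
    have h4 : μ (ν.symm v) = ν.symm v := hmiy1 _ (hback _ v hv)
    show μ v = v
    have h5 := hμν (ν.symm v)
    rw [h4] at h5
    simpa using h5
  · intro v hv
    have h3 : μ (ν.symm v) = -(ν.symm v) := hmiy2 _ (hback1 _ v hv)
    show μ v = -v
    have h5 := hμν (ν.symm v)
    rw [h3] at h5
    simpa using h5


theorem B_axis_eigen (mul : V →ₗ[ℝ] V →ₗ[ℝ] V) (B : LinearMap.BilinForm ℝ V)
    (hBassoc : ∀ u v w : V, B u (mul v w) = B (mul u v) w) (a x : V) (c : ℝ)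
    (hidem : mul a a = a) (hx : mul a x = c • x) (hc : c ≠ 1) : B a x = 0 := by
  have h := hBassoc a a x
  rw [hidem, hx, map_smul, smul_eq_mul] at h
  have h2 : (c - 1) * B a x = 0 := by linarith
  rcases mul_eq_zero.mp h2 with h3 | h3
  · exact absurd (sub_eq_zero.mp h3) hc
  · exact h3

theorem decomp (mul : V →ₗ[ℝ] V →ₗ[ℝ] V) (B : LinearMap.BilinForm ℝ V)
    (hBs : ∀ u v : V, B u v = B v u)
    (hBassoc : ∀ u v w : V, B u (mul v w) = B (mul u v) w) (μ : V ≃ₗ[ℝ] V) (a : V)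
    (h : IsMajoranaPair mul B μ a) (hn : B a a = 1) (b : V) (hb : μ b = b) :
    ∃ x₀ xq : V, b = (B b a) • a + x₀ + xq ∧ mul a x₀ = 0 ∧ mul a xq = (1 / 4 : ℝ) • xq := by
  obtain ⟨-, -, ⟨⟨hne, hidem, htop, hfus⟩, hprim⟩, hmiy1, hmiy2⟩ := h
  have hb' : b ∈ eigenSum mul a majoranaSpectrum := by
    rw [htop]
    trivial
  unfold eigenSum majoranaSpectrum at hb'
  rw [iSup_insert, iSup_insert, iSup_insert, iSup_singleton] at hb'
  obtain ⟨x₁, hx₁, r₁, hr₁, h1⟩ := Submodule.mem_sup.mp hb'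
  obtain ⟨x₀, hx₀, r₂, hr₂, h2⟩ := Submodule.mem_sup.mp hr₁
  obtain ⟨xq, hxq, xs, hxs, h3⟩ := Submodule.mem_sup.mp hr₂
  have e1 : μ x₁ = x₁ := hmiy1 x₁ (eigen_le_eigenSum mul a _ 1 (by simp) hx₁)
  have e0 : μ x₀ = x₀ := hmiy1 x₀ (eigen_le_eigenSum mul a _ 0 (by simp) hx₀)
  have eq : μ xq = xq := hmiy1 xq (eigen_le_eigenSum mul a _ (1 / 4) (by simp) hxq)
  have es : μ xs = -xs := hmiy2 xs hxs
  have hbsum : b = x₁ + (x₀ + (xq + xs)) := by rw [h3, h2, h1]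
  have hxs0 : xs = 0 := by
    have h4 := hb
    rw [hbsum] at h4
    simp only [map_add, e1, e0, eq, es] at h4
    have h6 : -xs = xs := add_left_cancel (add_left_cancel (add_left_cancel h4))
    have h7 : (2 : ℝ) • xs = 0 := by
      linear_combination (norm := module) (-1 : ℝ) • h6
    rcases smul_eq_zero.mp h7 with h | h
    · norm_num at h
    · exact h
  have hx0' : mul a x₀ = 0 := by
    have h5 := (eigen_iff mul a 0 x₀).mp hx₀
    rw [zero_smul] at h5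
    exact h5
  have hxq' : mul a xq = (1 / 4 : ℝ) • xq := (eigen_iff mul a (1 / 4) xq).mp hxq
  change x₁ ∈ eigen mul a 1 at hx₁
  rw [hprim, Submodule.mem_span_singleton] at hx₁
  obtain ⟨r, hr⟩ := hx₁
  have hb2 : b = r • a + x₀ + xq := by
    rw [hbsum, hxs0, ← hr]
    module
  have hBr : B b a = r := by
    have o0 : B a x₀ = 0 := B_axis_eigen mul B hBassoc a x₀ 0 hidem (by rw [hx0', zero_smul]) (by norm_num)
    have oq : B a xq = 0 := B_axis_eigen mul B hBassoc a xq (1 / 4) hidem hxq' (by norm_num)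
    rw [hBs b a, hb2]
    simp only [map_add, map_smul, smul_eq_mul, hn, o0, oq]
    ring
  exact ⟨x₀, xq, by rw [hBr]; exact hb2, hx0', hxq'⟩

theorem fus00 (mul : V →ₗ[ℝ] V →ₗ[ℝ] V) (B : LinearMap.BilinForm ℝ V) (μ : V ≃ₗ[ℝ] V) (a : V)
    (h : IsMajoranaPair mul B μ a) (u v : V) (hu : mul a u = 0) (hv : mul a v = 0) :
    mul a (mul u v) = 0 := by
  have hfus := h.2.2.1.1.2.2.2 0 (by unfold majoranaSpectrum; simp) 0
    (by unfold majoranaSpectrum; simp) u ((eigen_iff mul a 0 u).mpr (by rw [hu, zero_smul]))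
    v ((eigen_iff mul a 0 v).mpr (by rw [hv, zero_smul]))
  have hlaw : monsterLaw (1 / 4 : ℝ) (1 / 32) 0 0 = {0} := by
    unfold monsterLaw
    rw [if_neg (by norm_num), if_neg (by norm_num), if_neg (by norm_num), if_neg (by norm_num),
      if_pos rfl]
  rw [hlaw] at hfus
  unfold eigenSum at hfus
  rw [iSup_singleton] at hfus
  have h5 := (eigen_iff mul a 0 _).mp hfus
  rw [zero_smul] at h5
  exact h5

theorem fus0q (mul : V →ₗ[ℝ] V →ₗ[ℝ] V) (B : LinearMap.BilinForm ℝ V) (μ : V ≃ₗ[ℝ] V) (a : V)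
    (h : IsMajoranaPair mul B μ a) (u v : V) (hu : mul a u = 0)
    (hv : mul a v = (1 / 4 : ℝ) • v) :
    mul a (mul u v) = (1 / 4 : ℝ) • mul u v := by
  have hfus := h.2.2.1.1.2.2.2 0 (by unfold majoranaSpectrum; simp) (1 / 4)
    (by unfold majoranaSpectrum; simp) u ((eigen_iff mul a 0 u).mpr (by rw [hu, zero_smul]))
    v ((eigen_iff mul a (1 / 4) v).mpr hv)
  have hlaw : monsterLaw (1 / 4 : ℝ) (1 / 32) 0 (1 / 4) = {1 / 4} := by
    unfold monsterLaw
    rw [if_neg (by norm_num), if_neg (by norm_num), if_neg (by norm_num),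
      if_pos (Or.inr rfl)]
  rw [hlaw] at hfus
  unfold eigenSum at hfus
  rw [iSup_singleton] at hfus
  exact (eigen_iff mul a (1 / 4) _).mp hfus

theorem fusqq (mul : V →ₗ[ℝ] V →ₗ[ℝ] V) (B : LinearMap.BilinForm ℝ V) (μ : V ≃ₗ[ℝ] V) (a : V)
    (h : IsMajoranaPair mul B μ a) (u v : V) (hu : mul a u = (1 / 4 : ℝ) • u)
    (hv : mul a v = (1 / 4 : ℝ) • v) :
    ∃ (r : ℝ) (w : V), mul u v = r • a + w ∧ mul a w = 0 := by
  have hfus := h.2.2.1.1.2.2.2 (1 / 4) (by unfold majoranaSpectrum; simp) (1 / 4)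
    (by unfold majoranaSpectrum; simp) u ((eigen_iff mul a (1 / 4) u).mpr hu)
    v ((eigen_iff mul a (1 / 4) v).mpr hv)
  have hlaw : monsterLaw (1 / 4 : ℝ) (1 / 32) (1 / 4) (1 / 4) = {1, 0} := by
    unfold monsterLaw
    rw [if_neg (by norm_num), if_neg (by norm_num), if_pos ⟨rfl, rfl⟩]
  rw [hlaw] at hfus
  unfold eigenSum at hfus
  rw [iSup_insert, iSup_singleton, Submodule.mem_sup] at hfus
  obtain ⟨w₁, hw₁, w₀, hw₀, hw⟩ := hfus
  change w₁ ∈ eigen mul a 1 at hw₁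
  rw [h.2.2.1.2, Submodule.mem_span_singleton] at hw₁
  obtain ⟨r, hr⟩ := hw₁
  refine ⟨r, w₀, by rw [hr, hw], ?_⟩
  have h5 := (eigen_iff mul a 0 _).mp hw₀
  rw [zero_smul] at h5
  exact h5

theorem components (mul : V →ₗ[ℝ] V →ₗ[ℝ] V) (B : LinearMap.BilinForm ℝ V)
    (hcm : IsCommMul mul) (μ : V ≃ₗ[ℝ] V) (a : V) (h : IsMajoranaPair mul B μ a)
    (b x₀ xq : V) (lam : ℝ) (hb : b = lam • a + x₀ + xq) (hidemb : mul b b = b)
    (h0 : mul a x₀ = 0) (hq : mul a xq = (1 / 4 : ℝ) • xq) :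
    mul x₀ xq = ((2 - lam) / 4) • xq ∧
      mul x₀ x₀ + mul xq xq = (lam * (1 - lam)) • a + x₀ := by
  have hidem : mul a a = a := h.2.2.1.1.2.1
  obtain ⟨r, w, hqq, hw⟩ := fusqq mul B μ a h xq xq hq hq
  have h00 := fus00 mul B μ a h x₀ x₀ h0 h0
  have h0q := fus0q mul B μ a h x₀ xq h0 hq
  have hexp : mul b b = (lam * lam) • a + mul x₀ x₀ + mul xq xq + (lam / 2) • xq +
      (2 : ℝ) • mul x₀ xq := by
    conv_lhs => rw [hb]
    simp only [map_add, map_smul, LinearMap.add_apply, LinearMap.smul_apply]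
    rw [hidem, h0, hq, hcm x₀ a, hcm xq a, hcm xq x₀, h0, hq]
    module
  have key : (lam * lam) • a + mul x₀ x₀ + mul xq xq + (lam / 2) • xq + (2 : ℝ) • mul x₀ xq =
      lam • a + x₀ + xq := by
    rw [← hexp, hidemb]
    exact hb
  rw [hqq] at key
  have hAC : ((lam * lam + r - lam) • a + (mul x₀ x₀ + w - x₀)) +
      ((lam / 2) • xq + (2 : ℝ) • mul x₀ xq - xq) = 0 := by
    linear_combination (norm := module) key
  have hLA : mul a ((lam * lam + r - lam) • a + (mul x₀ x₀ + w - x₀)) =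
      (lam * lam + r - lam) • a := by
    simp only [map_add, map_sub, map_smul, hidem, h00, hw, h0]
    module
  have hLC : mul a ((lam / 2) • xq + (2 : ℝ) • mul x₀ xq - xq) =
      (1 / 4 : ℝ) • ((lam / 2) • xq + (2 : ℝ) • mul x₀ xq - xq) := by
    simp only [map_add, map_sub, map_smul, hq, h0q]
    module
  have i1 : (lam * lam + r - lam) • a +
      (1 / 4 : ℝ) • ((lam / 2) • xq + (2 : ℝ) • mul x₀ xq - xq) = 0 := by
    have h5 := congrArg (mul a) hAC
    rw [map_add, hLA, hLC, map_zero] at h5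
    exact h5
  have i2 : (lam * lam + r - lam) • a +
      (1 / 4 : ℝ) • ((1 / 4 : ℝ) • ((lam / 2) • xq + (2 : ℝ) • mul x₀ xq - xq)) = 0 := by
    have h5 := congrArg (mul a) i1
    rw [map_add, map_smul, map_smul, hidem, hLC, map_zero] at h5
    exact h5
  have hC0 : (lam / 2) • xq + (2 : ℝ) • mul x₀ xq - xq = 0 := by
    have h3 : ((1 / 4 : ℝ) - 1 / 16) • ((lam / 2) • xq + (2 : ℝ) • mul x₀ xq - xq) = 0 := by
      linear_combination (norm := module) i1 - i2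
    rcases smul_eq_zero.mp h3 with h | h
    · norm_num at h
    · exact h
  have hA0 : (lam * lam + r - lam) • a + (mul x₀ x₀ + w - x₀) = 0 := by
    rw [hC0, add_zero] at hAC
    exact hAC
  constructor
  · linear_combination (norm := module) (1 / 2 : ℝ) • hC0
  · rw [hqq]
    linear_combination (norm := module) hA0

end

/-- Let V be a finite-dimensional real vector space with a commutative bilinear product and a positive-definite symmetric bilinear form that associates with the product and satisfies the Norton inequality (the Majorana setting of the definitions). Let μ₀, μ₁ be commuting Majorana involutions with distinct axial vectors a₀ ≠ a₁ of squared length 1, each involution having no other axial vector. Then either a₀ and a₁ are orthogonal with a₀ ∘ a₁ = 0 (type 2B), or their inner product is 1/8 and, with a₂ = a₀ + a₁ − 8 a₀ ∘ a₁, the vector a₂ is an idempotent and a₀ ∘ a₂ = (1/8)(a₀ + a₂ − a₁), a₁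 ∘ a₂ = (1/8)(a₁ + a₂ − a₀) (type 2A: the three idempotents span a subalgebra with aᵢ ∘ aⱼ = (1/8)(aᵢ + aⱼ − aₖ)). -/
theorem result {V : Type*} [AddCommGroup V] [Module ℝ V] [FiniteDimensional ℝ V] (mul : V →ₗ[ℝ] V →ₗ[ℝ] V) (B : LinearMap.BilinForm ℝ V) (hV : Cfsg.Axial.IsMajoranaAmbient mul B) (μ₀ μ₁ : V ≃ₗ[ℝ] V) (a₀ a₁ : V) (h₀ : Cfsg.Axial.IsMajoranaPair mul B μ₀ a₀) (h₁ : Cfsg.Axial.IsMajoranaPair mul B μ₁ a₁) (hu₀ : ∀ a : V, Cfsg.Axial.IsMajoranaPair mul B μ₀ a → a = a₀) (hu₁ : ∀ a : V, Cfsg.Axial.IsMajoranaPair mul B μ₁ a → a = a₁) (hn₀ : B a₀ a₀ = 1) (hn₁ : B a₁ a₁ = 1) (hc : μ₀ * μ₁ = μ₁ * μ₀) (hne : a₀ ≠ a₁) : (B a₀ a₁ = 0 ∧ mul a₀ a₁ = 0) ∨ (B a₀ a₁ = 1 / 8 ∧ mul (a₀ + a₁ - (8 : ℝ) • mul a₀ a₁) (a₀ + a₁ - (8 : ℝ) • mul a₀ a₁) = a₀ + a₁ - (8 : ℝ) • mul a₀ a₁ ∧ mul a₀ (a₀ + a₁ - (8 : ℝ) • mul a₀ a₁) = (1 / 8 : ℝ) • (a₀ + (a₀ + a₁ - (8 : ℝ) • mul a₀ a₁) - a₁) ∧ mul a₁ (a₀ + a₁ - (8 : ℝ) • mul a₀ a₁) =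 (1 / 8 : ℝ) • (a₁ + (a₀ + a₁ - (8 : ℝ) • mul a₀ a₁) - a₀)) := by
  classical
  obtain ⟨hcm, hBs, hBpos, hBassoc, -⟩ := hV
  have hfix0 : μ₁ a₀ = a₀ := hu₀ _ (pair_transport mul B μ₀ μ₁ a₀ h₀ h₁.1 hc)
  have hfix1 : μ₀ a₁ = a₁ := hu₁ _ (pair_transport mul B μ₁ μ₀ a₁ h₁ h₀.1 hc.symm)
  obtain ⟨lam, hlam⟩ : ∃ l : ℝ, l = B a₀ a₁ := ⟨_, rfl⟩
  obtain ⟨x₀, xq, hx, hx0, hxq⟩ := decomp mul B hBs hBassoc μ₁ a₁ h₁ hn₁ a₀ hfix0
  rw [← hlam] at hx
  obtain ⟨y₀, yq, hy, hy0, hyq⟩ := decomp mul B hBs hBassoc μ₀ a₀ h₀ hn₀ a₁ hfix1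
  rw [hBs a₁ a₀, ← hlam] at hy
  have hid0 : mul a₀ a₀ = a₀ := h₀.2.2.1.1.2.1
  have hid1 : mul a₁ a₁ = a₁ := h₁.2.2.1.1.2.1
  obtain ⟨E1, E2⟩ := components mul B hcm μ₁ a₁ h₁ a₀ x₀ xq lam hx hid0 hx0 hxq
  have hp1 : mul a₀ a₁ = lam • a₁ + (1 / 4 : ℝ) • xq := by
    rw [hcm a₀ a₁]
    conv_lhs => rw [hx]
    simp only [map_add, map_smul]
    rw [hid1, hx0, hxq, add_zero]
  have hp0 : mul a₀ a₁ = lam • a₀ + (1 / 4 : ℝ) • yq := by
    conv_lhs => rw [hy]
    simp only [map_add, map_smul]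
    rw [hid0, hy0, hyq, add_zero]
  have hyq' : yq = xq + (4 * lam) • a₁ - (4 * lam) • a₀ := by
    have h := hp1
    rw [hp0] at h
    linear_combination (norm := module) (4 : ℝ) • h
  have hm : mul a₀ xq = (1 / 2 : ℝ) • xq + mul xq xq := by
    conv_lhs => rw [hx]
    simp only [map_add, map_smul, LinearMap.add_apply, LinearMap.smul_apply]
    rw [hxq, E1]
    module
  have hR2 : mul xq xq = (2 * lam - 1 / 4) • xq + (3 * lam) • x₀ + (lam * (1 - lam)) • a₁ := by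
    have h := hyq
    rw [hyq'] at h
    simp only [map_add, map_sub, map_smul] at h
    rw [hm, hid0, hp1] at h
    linear_combination (norm := module) h + (3 * lam) • hx
  obtain ⟨r, w, hqq, hw⟩ := fusqq mul B μ₁ a₁ h₁ xq xq hxq hxq
  have hzero : (2 * lam - 1 / 4) • xq = 0 := by
    have hCA : (2 * lam - 1 / 4) • xq = (r - lam * (1 - lam)) • a₁ + (w - (3 * lam) • x₀) := by
      linear_combination (norm := module) hqq - hR2
    have hLC : mul a₁ ((2 * lam - 1 / 4) • xq) = (1 / 4 : ℝ) • ((2 * lam - 1 / 4) • xq) := by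
      rw [map_smul, hxq]
      module
    have hLA : mul a₁ ((2 * lam - 1 / 4) • xq) = (r - lam * (1 - lam)) • a₁ := by
      rw [hCA]
      simp only [map_add, map_sub, map_smul, hid1, hw, hx0]
      module
    have h1 : (1 / 4 : ℝ) • ((2 * lam - 1 / 4) • xq) = (r - lam * (1 - lam)) • a₁ := by
      rw [← hLC, hLA]
    have h2 : mul a₁ ((1 / 4 : ℝ) • ((2 * lam - 1 / 4) • xq)) = (r - lam * (1 - lam)) • a₁ := by
      rw [h1, map_smul, hid1]
    rw [map_smul, hLC] at h2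
    have h3 : ((1 / 4 : ℝ) - 1 / 16) • ((2 * lam - 1 / 4) • xq) = 0 := by
      linear_combination (norm := module) h1 - h2
    rcases smul_eq_zero.mp h3 with h | h
    · norm_num at h
    · exact h
  rcases smul_eq_zero.mp hzero with hl | hxq0
  · have hlam8 : lam = 1 / 8 := by linarith
    right
    rw [← hlam]
    have ha2 : a₀ + a₁ - (8 : ℝ) • mul a₀ a₁ = a₀ - (2 : ℝ) • xq := by
      rw [hp1, hlam8]
      module
    rw [ha2]
    refine ⟨hlam8, ?_, ?_, ?_⟩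
    · simp only [map_sub, map_smul, LinearMap.sub_apply, LinearMap.smul_apply]
      rw [hid0, hcm xq a₀, hm]
      module
    · simp only [map_sub, map_smul]
      rw [hid0, hm, hR2, hlam8]
      have hx' := hx
      rw [hlam8] at hx'
      linear_combination (norm := module) (3 / 4 : ℝ) • hx'
    · simp only [map_sub, map_smul]
      rw [← hcm a₀ a₁, hp1, hxq, hlam8]
      module
  · left
    have hE2 := E2
    rw [hxq0] at hE2
    simp only [map_zero, LinearMap.zero_apply, add_zero] at hE2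
    have h00 := fus00 mul B μ₁ a₁ h₁ x₀ x₀ hx0 hx0
    rw [hE2, map_add, map_smul, hid1, hx0, add_zero] at h00
    have ha1ne : a₁ ≠ 0 := h₁.2.2.1.1.1
    have hl : lam * (1 - lam) = 0 := by
      rcases smul_eq_zero.mp h00 with h | h
      · exact h
      · exact absurd h ha1ne
    rcases mul_eq_zero.mp hl with hl0 | hl1
    · rw [← hlam]
      refine ⟨hl0, ?_⟩
      rw [hp1, hl0, hxq0]
      simp
    · exfalso
      have hl1' : lam = 1 := by linarith
      apply hne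
      by_contra hne'
      have hpos := hBpos (a₀ - a₁) (sub_ne_zero.mpr hne')
      simp only [map_sub, LinearMap.sub_apply] at hpos
      rw [hn₀, hn₁, hBs a₁ a₀, ← hlam, hl1'] at hpos
      norm_num at hpos

end Cfsg.Agent.S5545
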