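import Cfsg.Statements.S5549
import Mathlib
import Cfsg.Agent.Lib.Helper9.M24Sext

set_option autoImplicit false
open Cfsg

namespace Cfsg.Agent.S5549

open Cfsg.Agent.Lib.Helper9
open scoped Pointwise

/-- binary words of length 24 -/
abbrev W : Type := GolayPt → ZMod 2

theorem card24 : Fintype.card GolayPt = 24 := by decide

theorem wt_eq (w : W) : hammingNorm w = (Gen.sp w).card := rfl

theorem dot_indw (s : Finset GolayPt) (w : W) : ∑ i, Gen.indw s i * w i = ∑ i ∈ s, w i := by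
  simp only [Gen.indw, ite_mul, one_mul, zero_mul]
  rw [Finset.sum_ite_mem, Finset.univ_inter]

theorem sp_one : Gen.sp (fun _ => (1 : ZMod 2) : W) = Finset.univ := by
  ext i
  simp [Gen.sp]

theorem wt_add_one (w : W) : hammingNorm (w + fun _ => (1 : ZMod 2)) = 24 - hammingNorm w := by
  have h := Gen.card_sp_add w (fun _ => (1 : ZMod 2))
  rw [sp_one, Finset.inter_univ, Finset.card_univ, card24] at h
  rw [wt_eq, wt_eq]
  omega

theorem wt_perm (σ : Equiv.Perm GolayPt) (w : W) :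
    hammingNorm (fun p => w (σ.symm p)) = hammingNorm w := by
  rw [hammingNorm_eq_card_support₂, hammingNorm_eq_card_support₂, ← smul_support₂,
    Finset.card_smul_finset]

theorem wt_perm' (σ : Equiv.Perm GolayPt) (w : W) :
    hammingNorm (fun p => w (σ p)) = hammingNorm w := by
  have h := wt_perm σ.symm w
  rw [Equiv.symm_symm] at h
  exact h

theorem orth_mem (v : W) (hv : ∀ c ∈ golayCode, ∑ i, v i * c i = 0) : v ∈ golayCode :=
  Gen.mem_of_orth_octads golayCode card24 finrank_golayCode golay_min golay_orth v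
    (fun o ho _ => hv o ho)

theorem small_eq (u u' : W) (h : ∀ c ∈ golayCode, ∑ i, u i * c i = ∑ i, u' i * c i)
    (hu : hammingNorm u ≤ 4) (hu' : hammingNorm u' ≤ 3) : u = u' := by
  by_contra hne
  have hmem : u - u' ∈ golayCode := by
    apply orth_mem
    intro c hc
    simp only [Pi.sub_apply, sub_mul, Finset.sum_sub_distrib]
    rw [h c hc, sub_self]
  have h3 := Gen.leaders_disjoint golayCode golay_min hmem hne hu (by omega)
  omega

theorem repr_fun (ψ : ↥golayCode →ₗ[ZMod 2] ZMod 2) :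
    ∃ u : W, hammingNorm u ≤ 4 ∧
      ∀ c : ↥golayCode, ψ c = ∑ i, u i * (c : W) i := by
  classical
  obtain ⟨g, hg⟩ := LinearMap.exists_extend ψ
  obtain ⟨u, hu1, hu2⟩ := Gen.covering golayCode card24 finrank_golayCode golay_min
    (fun i => g (fun j => if i = j then 1 else 0))
  refine ⟨u, hu2, fun c => ?_⟩
  have hg' : ψ c = g (c : W) := by
    rw [← hg]
    rfl
  have h1 : g (c : W) = ∑ i, (fun i => g (fun j => if i = j then 1 else 0)) i * (c : W) i := by
    rw [LinearMap.pi_apply_eq_sum_univ g (c : W)]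
    apply Finset.sum_congr rfl
    intro i _
    rw [smul_eq_mul, mul_comm]
  have h2 := golay_orth _ hu1 _ c.2
  have e : u = (u - fun i => g (fun j => if i = j then 1 else 0))
      + fun i => g (fun j => if i = j then 1 else 0) := by abel
  rw [hg', h1]
  conv_rhs => rw [e]
  rw [Gen.dot_add_left, h2, zero_add]

/-- the words of weight 8 or 16 -/
def S816 : Set ↥golayCode := {c | hammingNorm (c : W) = 8 ∨ hammingNorm (c : W) = 16}

/-- the number of words of weight 8 or 16 on which `ψ` vanishes -/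
noncomputable def NN (ψ : ↥golayCode → ZMod 2) : ℕ :=
  {c : ↥golayCode | c ∈ S816 ∧ ψ c = 0}.ncard

theorem NN_comp (ψ : ↥golayCode → ZMod 2) (y : ↥golayCode ≃ ↥golayCode)
    (h1 : ∀ c ∈ S816, y c ∈ S816) (h2 : ∀ c ∈ S816, y.symm c ∈ S816) :
    NN (fun c => ψ (y c)) = NN ψ := by
  unfold NN
  have e : {c : ↥golayCode | c ∈ S816 ∧ ψ c = 0}
      = y '' {c : ↥golayCode | c ∈ S816 ∧ ψ (y c) = 0} := by
    ext c
    constructor
    · rintro ⟨hc1, hc2⟩
      exact ⟨y.symm c, ⟨h2 c hc1, by rw [Equiv.apply_symm_apply]; exact hc2⟩,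
        Equiv.apply_symm_apply y c⟩
    · rintro ⟨c', ⟨hc1, hc2⟩, rfl⟩
      exact ⟨h1 c' hc1, hc2⟩
  rw [e, Set.ncard_image_of_injective _ y.injective]

/-- counting the words of weight 8 or 16 meeting the mask `m` evenly -/
def cntE (m : ℕ) : ℕ → ℕ
  | 0 => 0
  | k + 1 => (if (pc 24 (cw k) = 8 ∨ pc 24 (cw k) = 16) ∧ pc 24 (m &&& cw k) % 2 = 0
      then 1 else 0) + cntE m k

theorem cntE_eq (m k : ℕ) : cntE m k = ((Finset.range k).filter (fun n =>
    (pc 24 (cw n) = 8 ∨ pc 24 (cw n) = 16) ∧ pc 24 (m &&& cw n) % 2 = 0)).card := by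
  induction k with
  | zero => simp [cntE]
  | succ k ih =>
    rw [cntE, ih, Finset.range_add_one, Finset.filter_insert]
    by_cases h : (pc 24 (cw k) = 8 ∨ pc 24 (cw k) = 16) ∧ pc 24 (m &&& cw k) % 2 = 0
    · rw [if_pos h, if_pos h, Finset.card_insert_of_notMem (by simp)]
      omega
    · rw [if_neg h, if_neg h]
      omega

theorem cntE_vals : cntE 0 4096 = 1518 ∧ cntE 15 4096 = 750 ∧ cntE 3 4096 = 814 ∧
    cntE 5 4096 = 814 ∧ cntE 6 4096 = 814 ∧ cntE 9 4096 = 814 ∧ cntE 10 4096 = 814 ∧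
    cntE 12 4096 = 814 := by decide +kernel

theorem dot_wordOf (m k : ℕ) :
    ∑ i, wordOf m i * wordOf k i = ((pc 24 (m &&& k) : ℕ) : ZMod 2) := by
  rw [Gen.dot_eq, ← Gen.support₂_eq_sp, ← Gen.support₂_eq_sp, support₂_wordOf, support₂_wordOf,
    ← mset_and, card_mset]

theorem wt_wordOf (k : ℕ) : hammingNorm (wordOf k) = pc 24 k := by
  rw [hammingNorm_eq_card_support₂, card_support_wordOf]

theorem NN_wordOf (m : ℕ) : NN (fun c => ∑ i, wordOf m i * (c : W) i) = cntE m 4096 := by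
  rw [cntE_eq]
  unfold NN
  have e : {c : ↥golayCode | c ∈ S816 ∧ ∑ i, wordOf m i * (c : W) i = 0}
      = (fun n => (⟨wordOf (cw n), wordOf_cw_mem n⟩ : ↥golayCode)) ''
        (((Finset.range 4096).filter (fun n =>
          (pc 24 (cw n) = 8 ∨ pc 24 (cw n) = 16) ∧ pc 24 (m &&& cw n) % 2 = 0) : Finset ℕ) :
          Set ℕ) := by
    ext c
    constructor
    · rintro ⟨hc1, hc2⟩
      obtain ⟨n, hn, hcn⟩ := (mem_golayCode_iff _).mp c.2
      refine ⟨n, ?_, Subtype.ext hcn.symm⟩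
      rw [Finset.mem_coe, Finset.mem_filter, Finset.mem_range]
      have hc1' : hammingNorm (c : W) = 8 ∨ hammingNorm (c : W) = 16 := hc1
      rw [hcn, wt_wordOf] at hc1'
      rw [hcn, dot_wordOf, ZMod.natCast_eq_zero_iff_even, Nat.even_iff] at hc2
      exact ⟨hn, hc1', hc2⟩
    · rintro ⟨n, hn, rfl⟩
      rw [Finset.mem_coe, Finset.mem_filter, Finset.mem_range] at hn
      refine ⟨?_, ?_⟩
      · show hammingNorm (wordOf (cw n)) = 8 ∨ hammingNorm (wordOf (cw n)) = 16
        rw [wt_wordOf]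
        exact hn.2.1
      · show ∑ i, wordOf m i * wordOf (cw n) i = 0
        rw [dot_wordOf, ZMod.natCast_eq_zero_iff_even, Nat.even_iff]
        exact hn.2.2
  rw [e, Set.ncard_image_of_injOn, Set.ncard_coe_finset]
  intro n hn n' hn' h
  rw [Finset.mem_coe, Finset.mem_filter, Finset.mem_range] at hn hn'
  exact wordOf_cw_injOn hn.1 hn'.1 (congrArg Subtype.val h)

theorem S816_perm (g : Equiv.Perm GolayPt) (hg : g ∈ M24) (c : ↥golayCode) (hc : c ∈ S816) :
    (⟨fun p => (c : W) (g.symm p), preserves_of_mem_M24 g hg _ c.2⟩ : ↥golayCode) ∈ S816 := by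
  show hammingNorm (fun p => (c : W) (g.symm p)) = 8 ∨ hammingNorm (fun p => (c : W) (g.symm p)) = 16
  rw [wt_perm]
  exact hc

/-- the action of an element of the Mathieu group on the code -/
def actC (g : Equiv.Perm GolayPt) (hg : g ∈ M24) : ↥golayCode ≃ ↥golayCode where
  toFun := fun c => ⟨fun p => (c : W) (g.symm p), preserves_of_mem_M24 g hg _ c.2⟩
  invFun := fun c => ⟨fun p => (c : W) (g p), by
    have h := preserves_of_mem_M24 g⁻¹ (inv_mem hg) _ c.2
    exact h⟩
  left_inv := fun c => by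
    apply Subtype.ext
    funext p
    show (c : W) (g.symm (g p)) = (c : W) p
    rw [Equiv.symm_apply_apply]
  right_inv := fun c => by
    apply Subtype.ext
    funext p
    show (c : W) (g (g.symm p)) = (c : W) p
    rw [Equiv.apply_symm_apply]

theorem NN_perm (u u' : W) (g : Equiv.Perm GolayPt) (hg : g ∈ M24) (huu : ∀ i, u' i = u (g i)) :
    NN (fun c => ∑ i, u' i * (c : W) i) = NN (fun c => ∑ i, u i * (c : W) i) := by
  have key : ∀ c : ↥golayCode, ∑ i, u' i * (c : W) i
      = ∑ i, u i * ((actC g hg c : ↥golayCode) : W) i := by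
    intro c
    rw [← Equiv.sum_comp g (fun i => u i * ((actC g hg c : ↥golayCode) : W) i)]
    apply Finset.sum_congr rfl
    intro i _
    show u' i * (c : W) i = u (g i) * (c : W) (g.symm (g i))
    rw [Equiv.symm_apply_apply, huu]
  have h3 := NN_comp (fun c => ∑ i, u i * (c : W) i) (actC g hg)
    (fun c hc => S816_perm g hg c hc)
    (fun c hc => by
      have h4 := S816_perm g⁻¹ (inv_mem hg) c hc
      exact h4)
  have e : (fun c : ↥golayCode => ∑ i, u' i * (c : W) i)
      = (fun c => ∑ i, u i * ((actC g hg c : ↥golayCode) : W) i) := funext key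
  rw [e]
  exact h3

theorem eq_wordOf_of_sp (u : W) (m : ℕ) (h : support₂ u = mset m) : u = wordOf m := by
  apply Gen.sp_injective
  rw [← Gen.support₂_eq_sp, ← Gen.support₂_eq_sp, h, support₂_wordOf]

theorem NN_four (u : W) (hu : hammingNorm u = 4) :
    NN (fun c => ∑ i, u i * (c : W) i) = 750 := by
  rw [hammingNorm_eq_card_support₂] at hu
  obtain ⟨g, hg, hgt⟩ := exists_smul_eq_tetrad hu
  have h1 : support₂ (fun i => u (g i)) = mset 15 := by
    have h2 := smul_support₂ g⁻¹ u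
    rw [← hgt, inv_smul_smul] at h2
    exact h2.symm
  rw [← NN_perm u (wordOf 15) g hg (fun i => (congrFun (eq_wordOf_of_sp _ 15 h1) i).symm),
    NN_wordOf]
  exact cntE_vals.2.1

theorem pairs15 (s : Finset GolayPt) (hs : s ⊆ mset 15) (h2 : s.card = 2) :
    s = mset 3 ∨ s = mset 5 ∨ s = mset 6 ∨ s = mset 9 ∨ s = mset 10 ∨ s = mset 12 := by
  have h1 : mset (maskOf s &&& 15) = mset (maskOf s) := by
    rw [mset_and, mset_maskOf]
    exact Finset.inter_eq_left.mpr hs
  have h3 : maskOf s &&& 15 = maskOf s :=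
    mset_injOn (lt_of_le_of_lt Nat.and_le_left (maskOf_lt s)) (maskOf_lt s) h1
  have h4 : maskOf s ≤ 15 := by
    rw [← h3]
    exact Nat.and_le_right
  have h5 : pc 24 (maskOf s) = 2 := by
    rw [← card_mset, mset_maskOf]
    exact h2
  rw [← mset_maskOf s]
  generalize maskOf s = m at h4 h5 ⊢
  interval_cases m <;> first | (exfalso; revert h5; decide) | simp

theorem NN_two (u : W) (hu : hammingNorm u = 2) :
    NN (fun c => ∑ i, u i * (c : W) i) = 814 := by
  rw [hammingNorm_eq_card_support₂] at hu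
  obtain ⟨t, hst, -, ht⟩ := Finset.exists_subsuperset_card_eq (Finset.subset_univ (support₂ u))
    (by rw [hu]; norm_num : (support₂ u).card ≤ 4) (by rw [Finset.card_univ, card24]; norm_num)
  obtain ⟨g, hg, hgt⟩ := exists_smul_eq_tetrad ht
  have h2 := smul_support₂ g⁻¹ u
  have h3 : g⁻¹ • support₂ u ⊆ mset 15 := by
    intro p hp
    rw [Finset.mem_smul_finset] at hp
    obtain ⟨q, hq, rfl⟩ := hp
    have hq' := hst hq
    rw [← hgt, Finset.mem_smul_finset] at hq'
    obtain ⟨r, hr, hrq⟩ := hq'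
    rw [← hrq, inv_smul_smul]
    exact hr
  have h4 : (g⁻¹ • support₂ u).card = 2 := by
    rw [Finset.card_smul_finset]
    exact hu
  have h5 := pairs15 _ h3 h4
  rw [h2] at h5
  have h6 : ∀ m : ℕ, support₂ (fun p => u ((g⁻¹ : Equiv.Perm GolayPt).symm p)) = mset m →
      NN (fun c => ∑ i, u i * (c : W) i) = cntE m 4096 := by
    intro m hm
    have h7 := eq_wordOf_of_sp _ m hm
    have h8 : (fun i => u (g i)) = wordOf m := h7
    rw [← NN_perm u (wordOf m) g hg (fun i => (congrFun h8 i).symm), NN_wordOf]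
  rcases h5 with h | h | h | h | h | h
  · rw [h6 _ h]
    exact cntE_vals.2.2.1
  · rw [h6 _ h]
    exact cntE_vals.2.2.2.1
  · rw [h6 _ h]
    exact cntE_vals.2.2.2.2.1
  · rw [h6 _ h]
    exact cntE_vals.2.2.2.2.2.1
  · rw [h6 _ h]
    exact cntE_vals.2.2.2.2.2.2.1
  · rw [h6 _ h]
    exact cntE_vals.2.2.2.2.2.2.2

theorem NN_zero : NN (fun c => ∑ i, (0 : W) i * (c : W) i) = 1518 := by
  rw [← wordOf_zero, NN_wordOf]
  exact cntE_vals.1

/-- the dot product with `v`, as a linear functional -/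
def dotL (v : W) : W →ₗ[ZMod 2] ZMod 2 where
  toFun := fun w => ∑ i, v i * w i
  map_add' := fun a b => by simp only [Pi.add_apply, mul_add, Finset.sum_add_distrib]
  map_smul' := fun r a => by
    simp only [Pi.smul_apply, smul_eq_mul, RingHom.id_apply, Finset.mul_sum]
    apply Finset.sum_congr rfl
    intro i _
    ring

theorem two_zero : (2 : ZMod 2) = 0 := by decide

theorem duad_step (x : ↥golayCode ≃ₗ[ZMod 2] ↥golayCode)
    (hx1 : x ⟨1, one_mem_golayCode⟩ = ⟨1, one_mem_golayCode⟩)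
    (hS1 : ∀ c ∈ S816, x c ∈ S816) (hS2 : ∀ c ∈ S816, x.symm c ∈ S816)
    (v : W) (hv : hammingNorm v = 2) :
    ∃ u : W, hammingNorm u = 2 ∧
      ∀ c : ↥golayCode, ∑ i, v i * ((x c : ↥golayCode) : W) i = ∑ i, u i * (c : W) i := by
  obtain ⟨u, hu4, hu⟩ := repr_fun ((dotL v) ∘ₗ golayCode.subtype ∘ₗ x.toLinearMap)
  have hu' : ∀ c : ↥golayCode,
      ∑ i, v i * ((x c : ↥golayCode) : W) i = ∑ i, u i * (c : W) i := fun c => hu c
  refine ⟨u, ?_, hu'⟩
  have hpar : Even (hammingNorm u) := by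
    have h1 := hu' ⟨1, one_mem_golayCode⟩
    rw [hx1] at h1
    have h2 : ∀ w : W, ∑ i, w i * ((⟨1, one_mem_golayCode⟩ : ↥golayCode) : W) i
        = ((hammingNorm w : ℕ) : ZMod 2) := by
      intro w
      have h3 : ∑ i, w i * ((⟨1, one_mem_golayCode⟩ : ↥golayCode) : W) i
          = ∑ i, w i * (fun _ => (1 : ZMod 2)) i := rfl
      rw [h3, Gen.dot_eq, sp_one, Finset.inter_univ, wt_eq]
    rw [h2, h2, hv] at h1
    have h4 : ((hammingNorm u : ℕ) : ZMod 2) = 0 := by
      rw [← h1]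
      rfl
    exact (ZMod.natCast_eq_zero_iff_even).mp h4
  have hN : NN (fun c => ∑ i, u i * (c : W) i) = 814 := by
    have h1 := NN_comp (fun c => ∑ i, v i * (c : W) i) x.toEquiv hS1 hS2
    rw [NN_two v hv] at h1
    have e : (fun c : ↥golayCode => ∑ i, u i * (c : W) i)
        = (fun c => ∑ i, v i * ((x.toEquiv c : ↥golayCode) : W) i) :=
      funext (fun c => (hu' c).symm)
    rw [e]
    exact h1
  have h0 : hammingNorm u ≠ 0 := by
    intro h
    rw [hammingNorm_eq_zero] at h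
    rw [h, NN_zero] at hN
    omega
  have h4 : hammingNorm u ≠ 4 := by
    intro h
    rw [NN_four u h] at hN
    omega
  obtain ⟨k, hk⟩ := hpar
  omega

theorem tri (A B D : Finset GolayPt) (hAD : (A ∩ D).card = 1) (hBD : (B ∩ D).card = 1)
    (hD : D.card = 2) (hAB : (symmDiff A B).card = 2)
    (hne : (symmDiff (symmDiff A B) D).card ≠ 0) : (A ∩ B ∩ D).Nonempty := by
  have h1 := Gen.card_symmDiff_add (symmDiff A B) D
  have h2 := Gen.card_symmDiff_add (A ∩ D) (B ∩ D)
  have e1 : symmDiff A B ∩ D = symmDiff (A ∩ D) (B ∩ D) := by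
    ext i
    simp only [Finset.mem_inter, Finset.mem_symmDiff]
    tauto
  have e2 : (A ∩ D) ∩ (B ∩ D) = A ∩ B ∩ D := by
    ext i
    simp only [Finset.mem_inter]
    tauto
  rw [e1] at h1
  rw [e2] at h2
  rw [← Finset.card_pos]
  omega

/-- Let X be a group of linear automorphisms of the length-24 binary Golay code of the definitions that fix the all-ones word, containing the coordinate-permutation action of every element of the code's automorphism group (the Mathieu group of degree 24), and such that every element of X sends each codeword into its orbit under that Mathieu group up to adding the all-ones word (X has the same orbits as the Mathieu group on the code modulo the all-ones word). Then every element of X agrees, modulo the all-ones word, with the action of a single element of the Mathieu group: X induces exactly the Mathieu group on the code modulo the all-ones word. -/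
theorem result (X : Subgroup (↥Cfsg.golayCode ≃ₗ[ZMod 2] ↥Cfsg.golayCode)) (h1 : ∀ x ∈ X, ∀ e : ↥Cfsg.golayCode, (e : (Cfsg.GolayPt → ZMod 2)) = (fun _ => (1 : ZMod 2)) → x e = e) (hM : ∀ σ ∈ Cfsg.M24, ∃ x ∈ X, ∀ c : ↥Cfsg.golayCode, ((x c : ↥Cfsg.golayCode) : (Cfsg.GolayPt → ZMod 2)) = fun p => (c : (Cfsg.GolayPt → ZMod 2)) (σ.symm p)) (horb : ∀ x ∈ X, ∀ c : ↥Cfsg.golayCode, ∃ σ ∈ Cfsg.M24, ((x c : ↥Cfsg.golayCode) : (Cfsg.GolayPt → ZMod 2)) = (fun p => (c : (Cfsg.GolayPt → ZMod 2)) (σ.symm p)) ∨ ((x c : ↥Cfsg.golayCode) : (Cfsg.GolayPt → ZMod 2)) = (fun p => (c : (Cfsg.GolayPt → ZMod 2)) (σ.symm p)) + fun _ => (1 : ZMod 2)) (x : ↥Cfsg.golayCode ≃ₗ[ZMod 2] ↥Cfsg.golayCode) (hx : x ∈ X) : ∃ σ ∈ Cfsg.M24, ∀ c : ↥Cfsg.golayCode, ((x c : ↥Cfsg.golayCode) : (Cfsg.GolayPt → ZMod 2)) = (fun p => (c : (Cfsg.GolayPt → ZMod 2)) (σ.symm p)) ∨ ((x c : ↥Cfsg.golayCode) : (Cfsg.GolayPt → ZMod 2)) = (fun p => (c : (Cfsg.GolayPt → ZMod 2)) (σ.symm p)) + fun _ => (1 : ZMod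 2) := by
  classical
  have hone : ((⟨1, one_mem_golayCode⟩ : ↥golayCode) : W) = fun _ => (1 : ZMod 2) := rfl
  have hx1 : x ⟨1, one_mem_golayCode⟩ = ⟨1, one_mem_golayCode⟩ := h1 x hx _ hone
  have hwt : ∀ y ∈ X, ∀ c : ↥golayCode, c ∈ S816 → y c ∈ S816 := by
    intro y hy c hc
    obtain ⟨σ, hσ, h | h⟩ := horb y hy c
    · show hammingNorm ((y c : ↥golayCode) : W) = 8 ∨ hammingNorm ((y c : ↥golayCode) : W) = 16
      rw [h, wt_perm]
      exact hc
    · show hammingNorm ((y c : ↥golayCode) : W) = 8 ∨ hammingNorm ((y c : ↥golayCode) : W) = 16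
      rw [h, wt_add_one, wt_perm]
      rcases hc with h8 | h16
      · right
        rw [h8]
      · left
        rw [h16]
  have hS1 : ∀ c ∈ S816, x c ∈ S816 := hwt x hx
  have hS2 : ∀ c ∈ S816, x.symm c ∈ S816 := hwt x⁻¹ (X.inv_mem hx)
  have hduad := duad_step x hx1 hS1 hS2
  have hsurj : ∀ (v : W), (∀ c : ↥golayCode, ∑ i, v i * ((x c : ↥golayCode) : W) i = 0) →
      v ∈ golayCode := by
    intro v hv
    apply orth_mem
    intro c hc
    have h3 := hv (x.symm ⟨c, hc⟩)
    rw [LinearEquiv.apply_symm_apply] at h3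
    exact h3
  have hpair : ∀ p q : GolayPt, p ≠ q → ∃ u : W, hammingNorm u = 2 ∧ ∀ c : ↥golayCode,
      ((x c : ↥golayCode) : W) p + ((x c : ↥golayCode) : W) q = ∑ i, u i * (c : W) i := by
    intro p q hpq
    obtain ⟨u, hu2, hu⟩ := hduad (Gen.indw {p, q})
      (by rw [wt_eq, Gen.sp_indw, Finset.card_pair hpq])
    refine ⟨u, hu2, fun c => ?_⟩
    rw [← hu c, dot_indw, Finset.sum_pair hpq]
  obtain ⟨p₀, q₀, q₁, h01, h02, h12⟩ : ∃ p₀ q₀ q₁ : GolayPt, p₀ ≠ q₀ ∧ p₀ ≠ q₁ ∧ q₀ ≠ q₁ :=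
    ⟨none, some 0, some 1, by decide, by decide, by decide⟩
  have hp0 : ∀ q, p₀ ≠ q → ∃ u : W, hammingNorm u = 2 ∧ ∀ c : ↥golayCode,
      ((x c : ↥golayCode) : W) p₀ + ((x c : ↥golayCode) : W) q = ∑ i, u i * (c : W) i :=
    fun q hq => hpair p₀ q hq
  choose! U hU2 hU using hp0
  have hP1 : ∀ q q', p₀ ≠ q → p₀ ≠ q' → q ≠ q' →
      (symmDiff (Gen.sp (U q)) (Gen.sp (U q'))).card = 2 := by
    intro q q' hq hq' hqq
    obtain ⟨u, hu2, hu⟩ := hpair q q' hqq
    have e : U q + U q' = u := by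
      apply small_eq
      · intro c hc
        have a1 : ((x ⟨c, hc⟩ : ↥golayCode) : W) p₀ + ((x ⟨c, hc⟩ : ↥golayCode) : W) q
            = ∑ i, U q i * c i := hU q hq ⟨c, hc⟩
        have a2 : ((x ⟨c, hc⟩ : ↥golayCode) : W) p₀ + ((x ⟨c, hc⟩ : ↥golayCode) : W) q'
            = ∑ i, U q' i * c i := hU q' hq' ⟨c, hc⟩
        have a3 : ((x ⟨c, hc⟩ : ↥golayCode) : W) q + ((x ⟨c, hc⟩ : ↥golayCode) : W) q'
            = ∑ i, u i * c i := hu ⟨c, hc⟩
        rw [Gen.dot_add_left]
        linear_combination (-1 : ZMod 2) * a1 - a2 + a3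
          + (((x ⟨c, hc⟩ : ↥golayCode) : W) p₀) * two_zero
      · have a1 := Gen.card_sp_add (U q) (U q')
        have a2 := hU2 q hq
        have a3 := hU2 q' hq'
        rw [wt_eq] at a2 a3 ⊢
        omega
      · rw [hu2]
        norm_num
    rw [← Gen.sp_add, e, ← wt_eq, hu2]
  have hP2 : ∀ q q' q'', p₀ ≠ q → p₀ ≠ q' → p₀ ≠ q'' → q ≠ q' → q ≠ q'' → q' ≠ q'' →
      U q + U q' + U q'' ≠ 0 := by
    intro q q' q'' hq hq' hq'' hqq' hqq'' hq'q'' h0
    have hmem : Gen.indw ({p₀, q, q', q''} : Finset GolayPt) ∈ golayCode := by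
      apply hsurj
      intro c
      rw [dot_indw, Finset.sum_insert (by simp [hq, hq', hq'']),
        Finset.sum_insert (by simp [hqq', hqq'']), Finset.sum_pair hq'q'']
      have a1 := hU q hq c
      have a2 := hU q' hq' c
      have a3 := hU q'' hq'' c
      have a4 : ∑ i, (U q + U q' + U q'') i * (c : W) i = 0 := by
        rw [h0]
        simp
      rw [Gen.dot_add_left, Gen.dot_add_left] at a4
      linear_combination a1 + a2 + a3 + a4 - (((x c : ↥golayCode) : W) p₀) * two_zero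
    have h8 := golay_min _ hmem (by
      intro hz
      have h9 := congrFun hz p₀
      simp [Gen.indw] at h9)
    rw [wt_eq, Gen.sp_indw] at h8
    have h10 : ({p₀, q, q', q''} : Finset GolayPt).card ≤ 4 := Finset.card_le_four
    omega
  have hAB := hP1 q₀ q₁ h01 h02 h12
  have hinter : ∀ q q', p₀ ≠ q → p₀ ≠ q' → q ≠ q' →
      (Gen.sp (U q) ∩ Gen.sp (U q')).card = 1 := by
    intro q q' hq hq' hqq
    have a1 := Gen.card_symmDiff_add (Gen.sp (U q)) (Gen.sp (U q'))
    have a2 := hP1 q q' hq hq' hqq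
    have a3 := hU2 q hq
    have a4 := hU2 q' hq'
    rw [wt_eq] at a3 a4
    omega
  obtain ⟨r, hr⟩ := Finset.card_eq_one.mp (hinter q₀ q₁ h01 h02 h12)
  have hrAB : r ∈ Gen.sp (U q₀) ∩ Gen.sp (U q₁) := by
    rw [hr]
    exact Finset.mem_singleton_self r
  have hrA : r ∈ Gen.sp (U q₀) := (Finset.mem_inter.mp hrAB).1
  have hrB : r ∈ Gen.sp (U q₁) := (Finset.mem_inter.mp hrAB).2
  have hrall : ∀ q, p₀ ≠ q → r ∈ Gen.sp (U q) := by
    intro q hq
    by_cases hq0 : q = q₀
    · rw [hq0]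
      exact hrA
    by_cases hq1 : q = q₁
    · rw [hq1]
      exact hrB
    have hD : (Gen.sp (U q)).card = 2 := by
      rw [← wt_eq]
      exact hU2 q hq
    have hne : (symmDiff (symmDiff (Gen.sp (U q₀)) (Gen.sp (U q₁))) (Gen.sp (U q))).card ≠ 0 := by
      rw [← Gen.sp_add, ← Gen.sp_add, Finset.card_ne_zero, Finset.nonempty_iff_ne_empty]
      intro h0
      exact hP2 q₀ q₁ q h01 h02 hq h12 (Ne.symm hq0) (Ne.symm hq1) (Gen.sp_eq_empty.mp h0)
    obtain ⟨z, hz⟩ := tri _ _ _ (hinter q₀ q h01 hq (Ne.symm hq0))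
      (hinter q₁ q h02 hq (Ne.symm hq1)) hD hAB hne
    rw [Finset.mem_inter, hr, Finset.mem_singleton] at hz
    rw [← hz.1]
    exact hz.2
  have hex : ∀ q, p₀ ≠ q → ∃ t, ∀ c : ↥golayCode,
      ((x c : ↥golayCode) : W) p₀ + ((x c : ↥golayCode) : W) q = (c : W) r + (c : W) t := by
    intro q hq
    have hD : (Gen.sp (U q)).card = 2 := by
      rw [← wt_eq]
      exact hU2 q hq
    obtain ⟨a, b, hab, hsp⟩ := Finset.card_eq_two.mp hD
    have hr' := hrall q hq
    rw [hsp, Finset.mem_insert, Finset.mem_singleton] at hr'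
    have hUq : U q = Gen.indw {a, b} := by
      rw [← hsp, Gen.indw_sp]
    rcases hr' with hra | hrb
    · refine ⟨b, fun c => ?_⟩
      rw [hU q hq c, hUq, dot_indw, Finset.sum_pair hab, hra]
    · refine ⟨a, fun c => ?_⟩
      rw [hU q hq c, hUq, dot_indw, Finset.sum_pair hab, hrb, add_comm]
  choose! T hT using hex
  obtain ⟨τ, hτ⟩ : ∃ τ : GolayPt → GolayPt, ∀ q (c : ↥golayCode),
      ((x c : ↥golayCode) : W) p₀ + ((x c : ↥golayCode) : W) q
        = (c : W) r + (c : W) (τ q) := by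
    refine ⟨fun q => if p₀ = q then r else T q, fun q c => ?_⟩
    show _ = (c : W) r + (c : W) (if p₀ = q then r else T q)
    by_cases hq : p₀ = q
    · rw [if_pos hq, ← hq]
      exact (CharTwo.add_self_eq_zero _).trans (CharTwo.add_self_eq_zero _).symm
    · rw [if_neg hq]
      exact hT q hq c
  have hκ : ∀ (c : ↥golayCode) q, ((x c : ↥golayCode) : W) q
      = (c : W) (τ q) + (((x c : ↥golayCode) : W) p₀ + (c : W) r) := by
    intro c q
    have a := hτ q c
    linear_combination a - (((x c : ↥golayCode) : W) p₀) * two_zero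
  have hinj : Function.Injective τ := by
    intro q q' hqq
    by_contra hne
    have hmem : Gen.indw ({q, q'} : Finset GolayPt) ∈ golayCode := by
      apply hsurj
      intro c
      rw [dot_indw, Finset.sum_pair hne, hκ c q, hκ c q', hqq]
      exact CharTwo.add_self_eq_zero _
    have h8 := golay_min _ hmem (by
      intro hz
      have h9 := congrFun hz q
      simp [Gen.indw] at h9)
    rw [wt_eq, Gen.sp_indw, Finset.card_pair hne] at h8
    omega
  have hbij : Function.Bijective τ := Finite.injective_iff_bijective.mp hinj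
  have hπM : Equiv.ofBijective τ hbij ∈ M24 := by
    apply mem_M24_of_preserves'
    intro w hw
    have e : (fun q => w ((Equiv.ofBijective τ hbij) q))
        = ((x ⟨w, hw⟩ : ↥golayCode) : W)
          + (((x ⟨w, hw⟩ : ↥golayCode) : W) p₀ + w r) • (1 : W) := by
      funext q
      have a : ((x ⟨w, hw⟩ : ↥golayCode) : W) q
          = w (τ q) + (((x ⟨w, hw⟩ : ↥golayCode) : W) p₀ + w r) := hκ ⟨w, hw⟩ q
      rw [Equiv.ofBijective_apply, Pi.add_apply, Pi.smul_apply, Pi.one_apply, smul_eq_mul,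
        mul_one]
      linear_combination (-1 : ZMod 2) * a
        - (((x ⟨w, hw⟩ : ↥golayCode) : W) p₀ + w r) * two_zero
    rw [e]
    exact golayCode.add_mem (x ⟨w, hw⟩).2 (golayCode.smul_mem _ one_mem_golayCode)
  refine ⟨(Equiv.ofBijective τ hbij)⁻¹, inv_mem hπM, fun c => ?_⟩
  rcases Gen.zmod2_cases (((x c : ↥golayCode) : W) p₀ + (c : W) r) with hk | hk
  · left
    funext q
    rw [hκ c q, hk, add_zero]
    rfl
  · right
    funext q
    rw [hκ c q, hk]
    rfl

end Cfsg.Agent.S5549
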