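import Cfsg.Statements.S5550
import Mathlib
import Cfsg.Agent.Lib.Helper9.M24Dod
import Cfsg.Agent.Lib.Helper9.M24Oct
import Cfsg.Agent.Lib.Helper9.M24Tab
import Cfsg.Agent.Lib.Helper9.M24Fix
import Cfsg.Agent.Lib.Helper9.Golay2
import Cfsg.Agent.Lib.Helper9.GolayAut

set_option autoImplicit false
open Cfsg

namespace Cfsg.Agent.S5550

open Cfsg.Agent.Lib.Helper9
open Cfsg
open scoped Pointwise

/-- The action of a permutation on words. -/
def actW (σ : Equiv.Perm GolayPt) (w : GolayPt → ZMod 2) : GolayPt → ZMod 2 := fun p => w (σ.symm p)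

theorem actW_mul (σ τ : Equiv.Perm GolayPt) (w : GolayPt → ZMod 2) :
    actW (σ * τ) w = actW σ (actW τ w) := rfl

theorem actW_one (w : GolayPt → ZMod 2) : actW 1 w = w := rfl

theorem actW_add (σ : Equiv.Perm GolayPt) (a b : GolayPt → ZMod 2) :
    actW σ (a + b) = actW σ a + actW σ b := rfl

theorem actW_sub (σ : Equiv.Perm GolayPt) (a b : GolayPt → ZMod 2) :
    actW σ (a - b) = actW σ a - actW σ b := rfl

theorem actW_ones (σ : Equiv.Perm GolayPt) : actW σ (1 : GolayPt → ZMod 2) = 1 := rfl

theorem actW_inv_cancel (σ : Equiv.Perm GolayPt) (w : GolayPt → ZMod 2) :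
    actW σ⁻¹ (actW σ w) = w := by
  rw [← actW_mul, inv_mul_cancel, actW_one]

theorem actW_cancel_inv (σ : Equiv.Perm GolayPt) (w : GolayPt → ZMod 2) :
    actW σ (actW σ⁻¹ w) = w := by
  rw [← actW_mul, mul_inv_cancel, actW_one]

theorem actW_mem {σ : Equiv.Perm GolayPt} (hσ : σ ∈ M24) {w : GolayPt → ZMod 2}
    (hw : w ∈ golayCode) : actW σ w ∈ golayCode := preserves_of_mem_M24 σ hσ w hw

theorem actW_mem_iff {σ : Equiv.Perm GolayPt} (hσ : σ ∈ M24) {w : GolayPt → ZMod 2} :
    actW σ w ∈ golayCode ↔ w ∈ golayCode := by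
  constructor
  · intro h
    have := actW_mem (M24.inv_mem hσ) h
    rwa [actW_inv_cancel] at this
  · exact actW_mem hσ

/-- The assertion for one code word. -/
def Good (u : GolayPt → ZMod 2) : Prop :=
  ∀ w : GolayPt → ZMod 2, w ∉ golayCode →
    ∃ σ ∈ M24, actW σ u = u ∧ actW σ w - w ∉ golayCode

theorem transport {u0 : GolayPt → ZMod 2} (h : Good u0) {g : Equiv.Perm GolayPt} (hg : g ∈ M24) :
    Good (actW g u0) := by
  intro w hw
  have hw0 : actW g⁻¹ w ∉ golayCode := fun hc => hw ((actW_mem_iff (M24.inv_mem hg)).mp hc)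
  obtain ⟨σ0, hσ0, hu, hn⟩ := h _ hw0
  refine ⟨g * σ0 * g⁻¹, M24.mul_mem (M24.mul_mem hg hσ0) (M24.inv_mem hg), ?_, ?_⟩
  · rw [actW_mul, actW_mul, actW_inv_cancel, hu]
  · intro hc
    apply hn
    have e : actW (g * σ0 * g⁻¹) w - w = actW g (actW σ0 (actW g⁻¹ w) - actW g⁻¹ w) := by
      rw [actW_sub, actW_cancel_inv, actW_mul, actW_mul]
    rw [e] at hc
    exact (actW_mem_iff hg).mp hc

theorem support₂_inj {a b : GolayPt → ZMod 2} (h : support₂ a = support₂ b) : a = b := by
  funext p
  have h1 : p ∈ support₂ a ↔ p ∈ support₂ b := by rw [h]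
  unfold support₂ at h1
  simp only [Finset.mem_filter, Finset.mem_univ, true_and] at h1
  have ha : a p = 0 ∨ a p = 1 := by
    generalize a p = x
    revert x
    decide
  have hb : b p = 0 ∨ b p = 1 := by
    generalize b p = x
    revert x
    decide
  rcases ha with ha | ha <;> rcases hb with hb | hb
  · rw [ha, hb]
  · exfalso
    rw [ha, hb] at h1
    simp at h1
  · exfalso
    rw [ha, hb] at h1
    simp at h1
  · rw [ha, hb]

theorem wordOf_injOn {a b : ℕ} (ha : a < 2 ^ 24) (hb : b < 2 ^ 24) (h : wordOf a = wordOf b) :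
    a = b := by
  apply mset_injOn ha hb
  rw [← support₂_wordOf, ← support₂_wordOf, h]

theorem exists_mask (w : GolayPt → ZMod 2) : ∃ m < 2 ^ 24, w = wordOf m := by
  refine ⟨maskOf (support₂ w), maskOf_lt _, ?_⟩
  apply support₂_inj
  rw [support₂_wordOf, mset_maskOf]

theorem cw_shr {n : ℕ} (hn : n < 4096) : cw n >>> 12 = n := by
  have := allBelow_spec _ _ cw_chk n hn
  simp only [Bool.and_eq_true, decide_eq_true_eq, beq_iff_eq] at this
  exact this.2

theorem inCode_of_mem {x : ℕ} (hx : x < 2 ^ 24) (h : wordOf x ∈ golayCode) : inCode x = true := by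
  obtain ⟨n, hn, he⟩ := (mem_golayCode_iff _).mp h
  have e := wordOf_injOn hx (cw_lt' hn) he
  unfold inCode
  rw [e, cw_shr hn]
  exact beq_self_eq_true _

theorem coset_rep (w : GolayPt → ZMod 2) :
    ∃ r < 4096, ∃ c ∈ golayCode, w = wordOf r + c := by
  obtain ⟨m, hm, rfl⟩ := exists_mask w
  have hn : m >>> 12 < 4096 := by
    rw [Nat.shiftRight_eq_div_pow]
    apply Nat.div_lt_of_lt_mul
    norm_num at hm ⊢
    exact hm
  refine ⟨m ^^^ cw (m >>> 12), ?_, wordOf (cw (m >>> 12)), wordOf_cw_mem _, ?_⟩
  · have h0 : (m ^^^ cw (m >>> 12)) >>> 12 = 0 := by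
      rw [Nat.shiftRight_xor_distrib, cw_shr hn, Nat.xor_self]
    rw [Nat.shiftRight_eq_div_pow] at h0
    rcases (Nat.div_eq_zero_iff).mp h0 with h | h
    · norm_num at h
    · norm_num at h ⊢
      exact h
  · rw [← wordOf_xor, Nat.xor_assoc, Nat.xor_self, Nat.xor_zero]

theorem base (gs : List (List ℕ)) (m0 : ℕ)
    (hG : gs.all (fun l => isM24L l && actM l 0 m0 == m0) = true)
    (hchk : allBelow (fun r => r == 0 || gs.any (fun l => !inCode (actM l 0 r ^^^ r))) 4096 = true) :
    Good (wordOf m0) := by
  intro w hw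
  obtain ⟨r, hr, c, hc, rfl⟩ := coset_rep w
  have hr0 : r ≠ 0 := by
    rintro rfl
    apply hw
    rw [wordOf_zero, zero_add]
    exact hc
  have h := allBelow_spec _ _ hchk r hr
  simp only [Bool.or_eq_true, beq_iff_eq, List.any_eq_true, Bool.not_eq_true'] at h
  obtain ⟨l, hl, hin⟩ := h.resolve_left hr0
  have hl' := List.all_eq_true.mp hG l hl
  rw [Bool.and_eq_true, beq_iff_eq] at hl'
  have hp := isPermL_of_isM24L hl'.1
  refine ⟨permL l, permL_mem_M24 hl'.1, ?_, ?_⟩
  · show (fun p => wordOf m0 ((permL l).symm p)) = wordOf m0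
    rw [wordOf_comp_symm hp, hl'.2]
  · intro hmem
    have h1 : actW (permL l) (wordOf r + c) - (wordOf r + c) =
        (actW (permL l) (wordOf r) - wordOf r) + (actW (permL l) c - c) := by
      rw [actW_add]; abel
    rw [h1] at hmem
    have h2 : actW (permL l) c - c ∈ golayCode :=
      golayCode.sub_mem (actW_mem (permL_mem_M24 hl'.1) hc) hc
    have h3 : actW (permL l) (wordOf r) - wordOf r ∈ golayCode :=
      (golayCode.add_mem_iff_left h2).mp hmem
    have h4 : actW (permL l) (wordOf r) - wordOf r = wordOf (actM l 0 r ^^^ r) := by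
      rw [wordOf_xor]
      have e : actW (permL l) (wordOf r) = wordOf (actM l 0 r) := wordOf_comp_symm hp r
      rw [e]
      funext p
      show wordOf (actM l 0 r) p - wordOf r p = wordOf (actM l 0 r) p + wordOf r p
      generalize wordOf (actM l 0 r) p = x
      generalize wordOf r p = y
      revert x y
      decide
    rw [h4] at h3
    have hlt : actM l 0 r ^^^ r < 2 ^ 24 :=
      Nat.xor_lt_two_pow (actM_lt hp r) (lt_of_lt_of_le hr (by norm_num))
    have h5 := inCode_of_mem hlt h3
    rw [hin] at h5
    exact Bool.noConfusion h5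

theorem chk_zero : gensM.all (fun l => isM24L l && actM l 0 0 == 0) = true := by decide +kernel

theorem chk_one : gensM.all (fun l => isM24L l && actM l 0 16777215 == 16777215) = true := by
  decide +kernel

theorem chk_oct : gensKoct.all (fun l => isM24L l && actM l 0 8536111 == 8536111) = true := by
  decide +kernel

theorem chk_coct : gensKoct.all (fun l => isM24L l && actM l 0 8241104 == 8241104) = true := by
  decide +kernel

theorem chk_dod : gensKdod.all (fun l => isM24L l && actM l 0 8551822 == 8551822) = true := by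
  decide +kernel

set_option maxHeartbeats 40000000 in
theorem mv_M : allBelow (fun r => r == 0 || gensM.any (fun l => !inCode (actM l 0 r ^^^ r))) 4096 =
    true := by decide +kernel

set_option maxHeartbeats 40000000 in
theorem mv_oct : allBelow (fun r => r == 0 || gensKoct.any (fun l => !inCode (actM l 0 r ^^^ r)))
    4096 = true := by decide +kernel

set_option maxHeartbeats 40000000 in
theorem mv_dod : allBelow (fun r => r == 0 || gensKdod.any (fun l => !inCode (actM l 0 r ^^^ r)))
    4096 = true := by decide +kernel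

theorem wordOf_full : wordOf 16777215 = 1 := by
  have e : cw 4095 = 16777215 := by decide +kernel
  rw [← e]
  exact one_eq.symm

theorem zmod2_cases' (a : ZMod 2) : a = 0 ∨ a = 1 := by
  revert a
  decide

theorem support₂_add_one (u : GolayPt → ZMod 2) : support₂ (u + 1) = (support₂ u)ᶜ := by
  ext p
  unfold support₂
  simp only [Finset.mem_filter, Finset.mem_univ, true_and, Finset.mem_compl, Pi.add_apply,
    Pi.one_apply, not_not]
  rcases zmod2_cases' (u p) with h | h
  · rw [h]; decide
  · rw [h]; decide

theorem good_all (u : GolayPt → ZMod 2) (hu : u ∈ golayCode) : Good u := by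
  rcases golay_weight u hu with h | h | h | h | h
  · have e : u = wordOf 0 := by
      apply support₂_inj
      rw [support₂_wordOf, mset_zero]
      exact Finset.card_eq_zero.mp h
    rw [e]
    exact base gensM 0 chk_zero mv_M
  · have ho : support₂ u ∈ octads := ⟨⟨u, hu, rfl⟩, h⟩
    obtain ⟨g, hg, he⟩ := exists_smul_eq_octad ho
    have e : u = actW g (wordOf 8536111) := by
      apply support₂_inj
      rw [← he, ← support₂_wordOf, smul_support₂]
      rfl
    rw [e]
    exact transport (base gensKoct 8536111 chk_oct mv_oct) hg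
  · have ho : support₂ u ∈ dodecads := ⟨⟨u, hu, rfl⟩, h⟩
    obtain ⟨g, hg, he⟩ := exists_smul_eq_dodecad ho
    have e : u = actW g (wordOf 8551822) := by
      apply support₂_inj
      rw [← he, ← support₂_wordOf, smul_support₂]
      rfl
    rw [e]
    exact transport (base gensKdod 8551822 chk_dod mv_dod) hg
  · have hv : u + 1 ∈ golayCode := golayCode.add_mem hu one_mem_golayCode
    have hcard : (support₂ (u + 1)).card = 8 := by
      rw [support₂_add_one, Finset.card_compl, card_golayPt', h]
    obtain ⟨g, hg, he⟩ := exists_smul_eq_octad ⟨⟨u + 1, hv, rfl⟩, hcard⟩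
    have e1 : u + 1 = actW g (wordOf 8536111) := by
      apply support₂_inj
      rw [← he, ← support₂_wordOf, smul_support₂]
      rfl
    have e2 : u = actW g (wordOf 8241104) := by
      have e3 : wordOf 8241104 = wordOf 8536111 + 1 := by
        have e4 : (8241104 : ℕ) = 8536111 ^^^ 16777215 := by decide
        rw [e4, wordOf_xor, wordOf_full]
      rw [e3, actW_add, actW_ones, ← e1]
      funext p
      show u p = u p + 1 + 1
      rcases zmod2_cases' (u p) with h' | h'
      · rw [h']; decide
      · rw [h']; decide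
    rw [e2]
    exact transport (base gensKoct 8241104 chk_coct mv_oct) hg
  · have e : u = wordOf 16777215 := by
      apply support₂_inj
      rw [support₂_wordOf, mset_full]
      apply Finset.eq_univ_of_card
      rw [h, card_golayPt']
    rw [e]
    exact base gensM 16777215 chk_one mv_M

/-- Let u be a word of the length-24 binary Golay code of the definitions (possibly zero or all-ones) and w any binary word of length 24 outside the code. Then some automorphism of the code (a coordinate permutation preserving it) fixes u but moves w to a word not congruent to w modulo the code: the stabilizer of a codeword fixes no non-zero element of the quotient of the space of all words by the code. -/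
theorem result (u : (Cfsg.GolayPt → ZMod 2)) (hu : u ∈ Cfsg.golayCode) (w : (Cfsg.GolayPt → ZMod 2)) (hw : w ∉ Cfsg.golayCode) : ∃ σ ∈ Cfsg.M24, (fun p => u (σ.symm p)) = u ∧ (fun p => w (σ.symm p)) - w ∉ Cfsg.golayCode := by
  exact good_all u hu w hw

end Cfsg.Agent.S5550
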