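import Cfsg.Statements.S5551
import Mathlib
import Cfsg.Agent.Lib.Helper9.Leech

set_option autoImplicit false
open Cfsg

namespace Cfsg.Agent.S5551

/-- In the Leech lattice of the definitions (integer coordinates, minimal squared length 32), let v and w be non-zero lattice vectors of squared length at most 64 that are congruent modulo twice the lattice. Then they have the same squared length, and if that length is less than 64 then w = v or w = −v. (So a class that contains a non-zero vector of squared length at most 64 has a well-defined type 2, 3 or 4, and a class of type 2 or 3 contains no such vector other than v and −v.) -/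
theorem result (v w : Cfsg.GolayPt → ℤ) (hv : v ∈ Cfsg.leechLattice) (hw : w ∈ Cfsg.leechLattice) (hv0 : v ≠ 0) (hw0 : w ≠ 0) (hvn : Cfsg.sqNorm v ≤ 64) (hwn : Cfsg.sqNorm w ≤ 64) (hc : ∃ z ∈ Cfsg.leechLattice, v - w = 2 • z) : Cfsg.sqNorm v = Cfsg.sqNorm w ∧ (Cfsg.sqNorm v < 64 → w = v ∨ w = -v) := by
  have hneg : ∀ u : Cfsg.GolayPt → ℤ, Cfsg.sqNorm (-u) = Cfsg.sqNorm u := by
    intro u
    unfold Cfsg.sqNorm
    apply Finset.sum_congr rfl
    intro i _
    simp
  by_cases hvw : v = w
  · subst hvw
    exact ⟨rfl, fun _ => Or.inl rfl⟩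
  · rcases Lib.Helper9.leech_main v w hv hw hvw hvn hwn hc with h | ⟨h1, h2, _⟩
    · subst h
      refine ⟨hneg w, fun _ => Or.inr (by simp)⟩
    · refine ⟨h1.trans h2.symm, fun hlt => ?_⟩
      omega

end Cfsg.Agent.S5551
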