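import Cfsg.Statements.S5553
import Mathlib
import Cfsg.Agent.Lib.Helper9.Leech2

set_option autoImplicit false
open Cfsg

namespace Cfsg.Agent.S5553

open Lib.Helper9 in
/-- Reduction modulo 4. -/
def r4 : (Cfsg.GolayPt → ℤ) →+ (Cfsg.GolayPt → ZMod 4) :=
  (Int.castAddHom (ZMod 4)).compLeft Cfsg.GolayPt

theorem r4_apply (x : Cfsg.GolayPt → ℤ) (i : Cfsg.GolayPt) : r4 x i = ((x i : ℤ) : ZMod 4) := rfl

/-- The two constant vectors `0` and `2` modulo 4. -/
def T4 : AddSubgroup (Cfsg.GolayPt → ZMod 4) := AddSubgroup.zmultiples (fun _ => (2 : ZMod 4))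

theorem card_T4 : Nat.card T4 = 2 := by
  unfold T4
  rw [Nat.card_zmultiples]
  apply addOrderOf_eq_prime
  · funext i
    show (2 : ℕ) • (2 : ZMod 4) = 0
    decide
  · intro h
    have := congrFun h none
    revert this
    decide

/-- Parametrization of the lattice modulo 4. -/
def P (p : Bool × ℕ) : Cfsg.GolayPt → ZMod 4 := fun i =>
  (if p.1 then 1 else 0) + 2 * (if (Lib.Helper9.cw p.2).testBit (Lib.Helper9.ptIdx i) then 1 else 0)

theorem P_aux : ∀ (e e' b b' : Bool), (if e then (1 : ZMod 4) else 0) + 2 * (if b then 1 else 0) =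
    (if e' then 1 else 0) + 2 * (if b' then 1 else 0) → e = e' ∧ b = b' := by decide

theorem P_inj : Set.InjOn P ↑((Finset.univ : Finset Bool) ×ˢ Finset.range 4096) := by
  rintro ⟨e, n⟩ hn ⟨e', n'⟩ hn' h
  simp only [Finset.coe_product, Finset.coe_univ, Finset.coe_range, Set.mem_prod, Set.mem_univ,
    Set.mem_Iio, true_and] at hn hn'
  have h1 : ∀ i, e = e' ∧ (Lib.Helper9.cw n).testBit (Lib.Helper9.ptIdx i) =
      (Lib.Helper9.cw n').testBit (Lib.Helper9.ptIdx i) := fun i => P_aux _ _ _ _ (congrFun h i)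
  have h2 : Lib.Helper9.wordOf (Lib.Helper9.cw n) = Lib.Helper9.wordOf (Lib.Helper9.cw n') := by
    funext i
    unfold Lib.Helper9.wordOf
    rw [(h1 i).2]
  rw [(h1 none).1, Lib.Helper9.wordOf_cw_injOn hn hn' h2]

theorem r4_lam0 : r4 Lib.Helper9.lam0 = fun _ => 1 := by
  funext i
  rw [r4_apply]
  cases i with
  | none => show (((-3 : ℤ) : ℤ) : ZMod 4) = 1; decide
  | some j => show (((1 : ℤ) : ℤ) : ZMod 4) = 1; decide

theorem r4_dbl (n : ℕ) (i : Cfsg.GolayPt) : r4 (Lib.Helper9.dbl (Lib.Helper9.wordOf n)) i =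
    2 * (if n.testBit (Lib.Helper9.ptIdx i) then 1 else 0) := by
  rw [r4_apply]
  unfold Lib.Helper9.dbl Lib.Helper9.wordOf
  by_cases h : n.testBit (Lib.Helper9.ptIdx i) = true
  · simp only [h, if_true]
    decide
  · simp only [h]
    decide

theorem map_eq : ((Cfsg.leechLattice.map r4 : AddSubgroup (Cfsg.GolayPt → ZMod 4)) :
      Set (Cfsg.GolayPt → ZMod 4)) = P '' ↑((Finset.univ : Finset Bool) ×ˢ Finset.range 4096) := by
  ext y
  constructor
  · rintro ⟨x, hx, rfl⟩
    obtain ⟨m, hpar, hsum, hh⟩ := (Lib.Helper9.mem_leechLattice_iff x).1 hx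
    obtain ⟨n, hn, hw⟩ := (Lib.Helper9.mem_golayCode_iff _).1 hh
    refine ⟨(decide (m % 2 = 1), n), ?_, ?_⟩
    · simp only [Finset.coe_product, Finset.coe_univ, Finset.coe_range, Set.mem_prod, Set.mem_univ,
        Set.mem_Iio, true_and]
      exact hn
    · funext i
      show _ = ((x i : ℤ) : ZMod 4)
      unfold P
      have h1 := hpar i
      have h2 := Lib.Helper9.hbit_ne_zero_iff x i
      rw [hw] at h2
      have h3 : Lib.Helper9.wordOf (Lib.Helper9.cw n) i ≠ 0 ↔
          (Lib.Helper9.cw n).testBit (Lib.Helper9.ptIdx i) = true := by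
        unfold Lib.Helper9.wordOf
        by_cases h : (Lib.Helper9.cw n).testBit (Lib.Helper9.ptIdx i) = true <;> simp [h]
      rw [h3] at h2
      simp only [Int.ModEq] at h1
      have h4 : ((x i : ℤ) : ZMod 4) = ((x i % 4 : ℤ) : ZMod 4) := by
        rw [ZMod.intCast_eq_intCast_iff]
        simp only [Int.ModEq]
        omega
      rw [h4]
      by_cases hb : (Lib.Helper9.cw n).testBit (Lib.Helper9.ptIdx i) = true
      · have hb' := h2.1 hb
        by_cases hm : m % 2 = 1
        · have : x i % 4 = 3 := by omega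
          rw [this]
          simp only [hb, hm, decide_true, if_true]
          decide
        · have : x i % 4 = 2 := by omega
          rw [this]
          simp only [hb, hm, decide_false, if_true]
          decide
      · have hb' : ¬ (x i / 2 % 2 = 1) := fun h => hb (h2.2 h)
        by_cases hm : m % 2 = 1
        · have : x i % 4 = 1 := by omega
          rw [this]
          simp only [hb, hm, decide_true, if_true]
          decide
        · have : x i % 4 = 0 := by omega
          rw [this]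
          simp only [hb, hm, decide_false]
          decide
  · rintro ⟨⟨e, n⟩, hn, rfl⟩
    have hmem : Lib.Helper9.dbl (Lib.Helper9.wordOf (Lib.Helper9.cw n)) ∈ Cfsg.leechLattice :=
      Lib.Helper9.dbl_mem _ (Lib.Helper9.wordOf_cw_mem n)
    cases e with
    | false =>
      refine ⟨_, hmem, ?_⟩
      funext i
      rw [r4_dbl]
      simp [P]
    | true =>
      refine ⟨_, Cfsg.leechLattice.add_mem Lib.Helper9.lam0_mem hmem, ?_⟩
      rw [map_add, r4_lam0]
      funext i
      rw [Pi.add_apply, r4_dbl]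
      simp [P]

theorem card_map : Nat.card (Cfsg.leechLattice.map r4 : AddSubgroup (Cfsg.GolayPt → ZMod 4)) = 8192 := by
  have h1 : Nat.card (Cfsg.leechLattice.map r4 : AddSubgroup (Cfsg.GolayPt → ZMod 4)) =
      Set.ncard ((Cfsg.leechLattice.map r4 : AddSubgroup (Cfsg.GolayPt → ZMod 4)) :
        Set (Cfsg.GolayPt → ZMod 4)) := rfl
  rw [h1, map_eq, Set.ncard_image_of_injOn P_inj, Set.ncard_coe_finset, Finset.card_product,
    Finset.card_univ, Fintype.card_bool, Finset.card_range]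

theorem T4_le : T4 ≤ (Cfsg.leechLattice.map r4 : AddSubgroup (Cfsg.GolayPt → ZMod 4)) := by
  unfold T4
  rw [AddSubgroup.zmultiples_le]
  refine ⟨Lib.Helper9.dbl 1, Lib.Helper9.dbl_mem 1 Lib.Helper9.one_mem_golayCode, ?_⟩
  funext i
  rw [r4_apply]
  unfold Lib.Helper9.dbl
  simp only [Pi.one_apply]
  decide

theorem sq_sub_even (y : ℤ) : (2 : ℤ) ∣ y ^ 2 - y := by
  have : y ^ 2 - y = y * (y - 1) := by ring
  rw [this]
  rcases Int.even_or_odd y with ⟨a, ha⟩ | ⟨a, ha⟩
  · exact ⟨a * (y - 1), by rw [ha]; ring⟩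
  · exact ⟨y * a, by rw [ha]; ring⟩

theorem norm_dvd (v : Cfsg.GolayPt → ℤ) (hv : v ∈ Cfsg.leechLattice) (hT : r4 v ∈ T4) :
    (32 : ℤ) ∣ Cfsg.sqNorm v := by
  obtain ⟨m, hpar, hsum, _⟩ := (Lib.Helper9.mem_leechLattice_iff v).1 hv
  obtain ⟨k, hk⟩ := AddSubgroup.mem_zmultiples_iff.1 hT
  have h1 : ∀ i, v i ≡ 2 * k [ZMOD 4] := by
    intro i
    have := congrFun hk i
    rw [r4_apply] at this
    have e : (k • (fun _ : Cfsg.GolayPt => (2 : ZMod 4))) i = ((2 * k : ℤ) : ZMod 4) := by
      simp [mul_comm]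
    rw [e] at this
    exact (ZMod.intCast_eq_intCast_iff _ _ 4).1 this.symm
  have h2 : ∀ i, ∃ y : ℤ, v i = 2 * k + 4 * y := by
    intro i
    have := (h1 i).symm.dvd
    obtain ⟨y, hy⟩ := this
    exact ⟨y, by omega⟩
  choose y hy using h2
  have hm : m % 2 = 0 := by
    have := hpar none
    have h3 := hy none
    simp only [Int.ModEq] at this
    omega
  have hs : (∑ i, v i) % 8 = 0 := by
    simp only [Int.ModEq] at hsum
    omega
  have hcard : (Finset.univ : Finset Cfsg.GolayPt).card = 24 := by decide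
  have hsv : ∑ i, v i = 48 * k + 4 * ∑ i, y i := by
    simp_rw [hy]
    rw [Finset.sum_add_distrib, Finset.sum_const, hcard, ← Finset.mul_sum]
    simp
    ring
  have hnorm : Cfsg.sqNorm v = 96 * k ^ 2 + 16 * k * ∑ i, y i + 16 * ∑ i, y i ^ 2 := by
    unfold Cfsg.sqNorm
    simp_rw [hy]
    have : ∀ i, (2 * k + 4 * y i) ^ 2 = 4 * k ^ 2 + 16 * k * y i + 16 * y i ^ 2 := by
      intro i; ring
    simp_rw [this]
    rw [Finset.sum_add_distrib, Finset.sum_add_distrib, Finset.sum_const, hcard, ← Finset.mul_sum,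
      ← Finset.mul_sum]
    simp
    ring
  have hY2 : (2 : ℤ) ∣ ∑ i, y i ^ 2 - ∑ i, y i := by
    rw [← Finset.sum_sub_distrib]
    exact Finset.dvd_sum (fun i _ => sq_sub_even (y i))
  obtain ⟨b, hb⟩ := hY2
  have hY : (∑ i, y i) % 2 = 0 := by omega
  obtain ⟨a, ha⟩ : (2 : ℤ) ∣ ∑ i, y i := Int.dvd_of_emod_eq_zero hY
  rw [hnorm]
  have e2 : ∑ i, y i ^ 2 = 2 * a + 2 * b := by omega
  rw [e2, ha]
  exact ⟨3 * k ^ 2 + k * a + a + b, by ring⟩

/-- The Leech lattice of the definitions has an additive subgroup A containing twice the lattice, of index 2^12 in the lattice, all of whose vectors have squared length divisible by 32: the invariant quadratic form 'squared length over 16 modulo 2' on the lattice modulo twice the lattice (a 24-dimensional space over the field with two elements) vanishes on a 12-dimensional subspace, so it is of plus type. -/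
theorem result : ∃ A : AddSubgroup (Cfsg.GolayPt → ℤ), A ≤ Cfsg.leechLattice ∧ (∀ v ∈ Cfsg.leechLattice, (2 : ℤ) • v ∈ A) ∧ (A.addSubgroupOf Cfsg.leechLattice).index = 2 ^ 12 ∧ ∀ v ∈ A, (32 : ℤ) ∣ Cfsg.sqNorm v := by
  refine ⟨Cfsg.leechLattice ⊓ T4.comap r4, inf_le_left, ?_, ?_, ?_⟩
  · intro v hv
    refine ⟨Cfsg.leechLattice.zsmul_mem hv 2, ?_⟩
    obtain ⟨m, hpar, _, _⟩ := (Lib.Helper9.mem_leechLattice_iff v).1 hv
    show r4 ((2 : ℤ) • v) ∈ T4
    have : r4 ((2 : ℤ) • v) = m • (fun _ : Cfsg.GolayPt => (2 : ZMod 4)) := by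
      funext i
      rw [r4_apply]
      have e : (m • (fun _ : Cfsg.GolayPt => (2 : ZMod 4))) i = ((2 * m : ℤ) : ZMod 4) := by
        simp [mul_comm]
      rw [e, ZMod.intCast_eq_intCast_iff]
      have := hpar i
      simp only [Int.ModEq, Pi.smul_apply, smul_eq_mul] at this ⊢
      omega
    rw [this]
    exact AddSubgroup.zsmul_mem_zmultiples _ m
  · show (Cfsg.leechLattice ⊓ T4.comap r4).relIndex Cfsg.leechLattice = 2 ^ 12
    rw [AddSubgroup.inf_relIndex_left, AddSubgroup.relIndex_comap]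
    have := AddSubgroup.relIndex_mul_relIndex ⊥ T4 _ bot_le T4_le
    rw [AddSubgroup.relIndex_bot_left, AddSubgroup.relIndex_bot_left, card_T4, card_map] at this
    omega
  · rintro v ⟨hv, hT⟩
    exact norm_dvd v hv hT

end Cfsg.Agent.S5553
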