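import Cfsg.Statements.S5594
import Mathlib
import Cfsg.Agent.Lib.Helper9.LeechAut

set_option autoImplicit false
open Cfsg

namespace Cfsg.Agent.S5594

/-- The monomial map on the lattice. -/
def gFun (v : ↥Cfsg.leechLattice) : ↥Cfsg.leechLattice :=
  ⟨Lib.Helper9.G0 v.1, Lib.Helper9.G0_mem v.2⟩

theorem gFun_gFun (v : ↥Cfsg.leechLattice) : gFun (gFun v) = -v := by
  apply Subtype.ext
  exact Lib.Helper9.G0_G0 v.1

/-- The monomial map as a permutation of the lattice. -/
def gPerm : Equiv.Perm ↥Cfsg.leechLattice where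
  toFun := gFun
  invFun := fun v => gFun (gFun (gFun v))
  left_inv := by
    intro v
    show gFun (gFun (gFun (gFun v))) = v
    rw [gFun_gFun, gFun_gFun, neg_neg]
  right_inv := by
    intro v
    show gFun (gFun (gFun (gFun v))) = v
    rw [gFun_gFun, gFun_gFun, neg_neg]

theorem gPerm_mem : gPerm ∈ Cfsg.Co0 := by
  refine ⟨fun v w => ?_, fun v => ?_⟩
  · apply Subtype.ext
    exact Lib.Helper9.G0_add v.1 w.1
  · exact Lib.Helper9.G0_sqNorm v.1

theorem neg_mem_Co0 : Equiv.neg ↥Cfsg.leechLattice ∈ Cfsg.Co0 := by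
  refine ⟨fun v w => ?_, fun v => ?_⟩
  · show -(v + w) = -v + -w
    exact neg_add v w
  · show Cfsg.sqNorm ((-v : ↥Cfsg.leechLattice) : Cfsg.GolayPt → ℤ) = _
    unfold Cfsg.sqNorm
    apply Finset.sum_congr rfl
    intro i _
    simp

theorem map_neg_of_mem (h : Equiv.Perm ↥Cfsg.leechLattice) (hh : h ∈ Cfsg.Co0)
    (v : ↥Cfsg.leechLattice) : h (-v) = -h v := by
  have h0 : h 0 = 0 := by
    have := hh.1 0 0
    rw [add_zero] at this
    have h2 : h 0 + 0 = h 0 + h 0 := by rw [add_zero]; exact this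
    exact (add_left_cancel h2).symm
  have := hh.1 v (-v)
  rw [add_neg_cancel, h0] at this
  exact (eq_neg_of_add_eq_zero_right this.symm)

/-- The automorphism group of the Leech lattice contains the negation map, and the subgroup of order 2 it generates has no complement: the automorphism group is a non-split extension of its quotient by that subgroup (it is not the direct product of a group of order 2 with the first Conway group). -/
theorem result :
    ∃ n : ↥Cfsg.Co0, (∀ v : ↥Cfsg.leechLattice, ((n • v : ↥Cfsg.leechLattice) : Cfsg.GolayPt → ℤ) = -(v : Cfsg.GolayPt → ℤ)) ∧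
    ∀ K : Subgroup ↥Cfsg.Co0, ¬ (Subgroup.zpowers n).IsComplement' K := by
  refine ⟨⟨Equiv.neg ↥Cfsg.leechLattice, neg_mem_Co0⟩, fun v => rfl, ?_⟩
  intro K hK
  set n : ↥Cfsg.Co0 := ⟨Equiv.neg ↥Cfsg.leechLattice, neg_mem_Co0⟩ with hn
  set g : ↥Cfsg.Co0 := ⟨gPerm, gPerm_mem⟩ with hg
  have hgg : g * g = n := by
    apply Subtype.ext
    apply Equiv.ext
    intro v
    exact gFun_gFun v
  have hnn : n * n = 1 := by
    apply Subtype.ext
    apply Equiv.ext
    intro v
    show - -v = v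
    exact neg_neg v
  have hcent : ∀ h : ↥Cfsg.Co0, n * h = h * n := by
    intro h
    apply Subtype.ext
    apply Equiv.ext
    intro v
    show -(h.1 v) = h.1 (-v)
    exact (map_neg_of_mem h.1 h.2 v).symm
  obtain ⟨⟨⟨z, hz⟩, ⟨k, hk⟩⟩, hzk, _⟩ := (Subgroup.isComplement'_def.1 hK).existsUnique g
  simp only at hzk
  obtain ⟨j, rfl⟩ := Subgroup.mem_zpowers_iff.1 hz
  have hzc : ∀ h : ↥Cfsg.Co0, n ^ j * h = h * n ^ j := by
    intro h
    have : Commute n h := hcent h
    exact (this.zpow_left j).eq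
  have hzz : n ^ j * n ^ j = 1 := by
    rw [← zpow_add, ← two_mul, zpow_mul, zpow_two, hnn, one_zpow]
  have hnk : n = k * k := by
    rw [← hgg, ← hzk]
    calc n ^ j * k * (n ^ j * k) = n ^ j * (k * n ^ j) * k := by group
      _ = n ^ j * (n ^ j * k) * k := by rw [hzc k]
      _ = (n ^ j * n ^ j) * (k * k) := by group
      _ = k * k := by rw [hzz, one_mul]
  have hnK : n ∈ K := by rw [hnk]; exact K.mul_mem hk hk
  have hn1 : n = 1 := Subgroup.disjoint_def.1 hK.disjoint (Subgroup.mem_zpowers n) hnK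
  have h2 := congrArg (fun f : ↥Cfsg.Co0 => ((f.1 ⟨Lib.Helper9.lam0, Lib.Helper9.lam0_mem⟩ :
    ↥Cfsg.leechLattice) : Cfsg.GolayPt → ℤ) (some 0)) hn1
  revert h2
  show (-(1 : ℤ)) = 1 → False
  decide

end Cfsg.Agent.S5594
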