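import Cfsg.Statements.S5599
import Mathlib
import Cfsg.Agent.Lib.Helper9.GolayPerm

set_option autoImplicit false
open scoped Pointwise
open Cfsg

namespace Cfsg.Agent.S5599

open scoped Pointwise

/-- For each residue `q ≠ 0`: an element of the code's group whose fixed points are exactly the
extra point, `0` and `q` (index, list of images, inverse list, coefficients of the images of the
basis words). -/
def m22tab : List (ℕ × List ℕ × List ℕ × List ℕ) :=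
  [(1, [0, 1, 11, 20, 13, 4, 17, 22, 16, 18, 8, 14, 15, 21, 3, 2, 5, 19, 6, 7, 12, 10, 9, 23], [0, 1, 15, 14, 5, 16, 18, 19, 10, 22, 21, 2, 20, 4, 11, 12, 8, 6, 9, 17, 3, 13, 7, 23], [908, 28, 1744, 713, 1536, 1172, 220, 1252, 1688, 1622, 1100, 2648]),
   (2, [0, 7, 2, 19, 22, 6, 17, 4, 3, 10, 8, 15, 11, 12, 21, 14, 9, 1, 13, 20, 16, 18, 5, 23], [0, 17, 2, 8, 7, 22, 5, 1, 10, 16, 9, 12, 13, 18, 15, 11, 20, 6, 21, 3, 19, 14, 4, 23], [34, 1121, 1080, 33, 305, 1041, 1536, 48, 1168, 1045, 49, 3073]),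
   (3, [0, 2, 15, 3, 8, 11, 10, 1, 18, 14, 19, 21, 16, 22, 13, 12, 17, 7, 5, 9, 4, 20, 6, 23], [0, 7, 1, 3, 20, 18, 22, 17, 4, 19, 6, 5, 15, 14, 9, 2, 12, 16, 8, 10, 21, 11, 13, 23], [296, 324, 1248, 1056, 385, 496, 1120, 1440, 992, 1216, 1154, 3392]),
   (4, [0, 22, 14, 1, 4, 19, 15, 5, 21, 18, 12, 2, 11, 3, 8, 17, 6, 9, 20, 13, 16, 10, 7, 23], [0, 3, 11, 13, 4, 7, 16, 22, 14, 17, 21, 12, 10, 19, 2, 6, 20, 15, 9, 5, 18, 8, 1, 23], [1538, 135, 1584, 1557, 805, 1067, 1046, 1078, 1636, 567, 51, 2577]),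
   (5, [0, 16, 4, 14, 3, 5, 12, 11, 22, 6, 18, 13, 2, 17, 9, 8, 15, 20, 1, 21, 19, 7, 10, 23], [0, 18, 12, 4, 2, 5, 9, 21, 15, 14, 22, 7, 6, 11, 3, 16, 1, 13, 10, 20, 17, 19, 8, 23], [1601, 73, 1604, 1625, 1100, 518, 521, 844, 1581, 1164, 69, 3073]),
   (6, [0, 9, 4, 21, 7, 3, 6, 1, 16, 11, 22, 14, 20, 10, 2, 18, 13, 8, 5, 17, 15, 12, 19, 23], [0, 7, 14, 5, 2, 18, 6, 4, 17, 1, 13, 9, 21, 16, 11, 20, 8, 19, 15, 22, 12, 3, 10, 23], [518, 116, 66, 294, 34, 192, 108, 1056, 103, 98, 4, 2118]),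
   (7, [0, 18, 17, 12, 21, 22, 4, 7, 13, 10, 5, 19, 1, 3, 16, 8, 6, 14, 15, 20, 9, 2, 11, 23], [0, 12, 21, 13, 6, 10, 16, 7, 15, 20, 9, 22, 3, 8, 17, 18, 14, 2, 1, 11, 19, 4, 5, 23], [515, 1547, 305, 1625, 1293, 1282, 538, 283, 904, 1306, 1811, 3600]),
   (8, [0, 22, 21, 6, 5, 16, 2, 11, 8, 12, 15, 18, 7, 17, 10, 3, 19, 9, 13, 20, 1, 14, 4, 23], [0, 20, 6, 15, 22, 4, 3, 12, 8, 17, 14, 7, 9, 18, 21, 10, 5, 13, 11, 16, 19, 2, 1, 23], [1293, 1352, 805, 261, 1316, 1067, 9, 1337, 1189, 44, 296, 3076]),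
   (9, [0, 8, 5, 6, 19, 21, 22, 11, 15, 9, 17, 4, 1, 2, 12, 10, 20, 14, 7, 16, 18, 3, 13, 23], [0, 12, 13, 21, 11, 2, 3, 18, 1, 9, 15, 7, 14, 22, 17, 8, 19, 10, 20, 4, 16, 5, 6, 23], [591, 1539, 105, 75, 137, 576, 834, 577, 90, 520, 515, 2058]),
   (10, [0, 4, 9, 11, 8, 18, 5, 16, 6, 7, 10, 17, 1, 2, 22, 19, 21, 15, 12, 14, 13, 20, 3, 23], [0, 12, 13, 22, 1, 6, 8, 9, 4, 2, 10, 3, 18, 20, 19, 17, 7, 11, 5, 15, 21, 16, 14, 23], [1091, 1283, 129, 35, 1, 1024, 1026, 1033, 514, 1040, 1031, 2050]),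
   (11, [0, 19, 17, 10, 8, 14, 4, 22, 9, 18, 13, 11, 16, 7, 20, 1, 3, 6, 2, 21, 15, 5, 12, 23], [0, 15, 18, 16, 6, 21, 17, 13, 4, 8, 3, 11, 22, 10, 5, 20, 12, 2, 9, 1, 14, 19, 7, 23], [1114, 600, 554, 362, 9, 530, 626, 58, 582, 688, 120, 2656]),
   (12, [0, 17, 18, 20, 8, 4, 19, 13, 14, 3, 6, 16, 12, 10, 2, 11, 9, 7, 22, 1, 21, 15, 5, 23], [0, 19, 14, 9, 5, 22, 10, 17, 4, 16, 13, 15, 12, 7, 8, 21, 11, 1, 2, 6, 3, 20, 18, 23], [167, 1164, 1202, 686, 154, 1080, 1060, 176, 1078, 1306, 220, 3086]),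
   (13, [0, 19, 4, 5, 9, 21, 8, 18, 20, 14, 2, 3, 1, 13, 17, 12, 7, 22, 11, 6, 15, 16, 10, 23], [0, 12, 10, 11, 2, 3, 19, 16, 6, 4, 22, 18, 15, 13, 9, 20, 21, 14, 7, 1, 8, 5, 17, 23], [1049, 67, 1169, 1489, 1601, 84, 144, 145, 1040, 1216, 225, 3264]),
   (14, [0, 2, 13, 6, 11, 9, 1, 16, 19, 12, 21, 5, 8, 7, 14, 17, 3, 18, 20, 4, 10, 22, 15, 23], [0, 6, 1, 16, 19, 11, 3, 13, 12, 5, 20, 4, 9, 2, 14, 22, 7, 15, 17, 8, 18, 10, 21, 23], [402, 145, 262, 1283, 385, 154, 51, 147, 451, 273, 528, 2432]),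
   (15, [0, 20, 22, 2, 18, 14, 12, 8, 3, 19, 16, 17, 9, 6, 11, 15, 5, 21, 13, 4, 7, 10, 1, 23], [0, 22, 3, 8, 19, 16, 13, 20, 7, 12, 21, 14, 6, 18, 5, 15, 10, 11, 4, 9, 1, 17, 2, 23], [1920, 1236, 1811, 1806, 1669, 405, 274, 1411, 913, 567, 1031, 2710]),
   (16, [0, 14, 21, 11, 19, 20, 12, 6, 10, 15, 9, 18, 4, 3, 22, 17, 16, 2, 1, 5, 7, 8, 13, 23], [0, 18, 17, 13, 12, 19, 7, 20, 21, 10, 8, 3, 6, 22, 1, 9, 16, 15, 11, 4, 5, 2, 14, 23], [355, 1763, 448, 864, 593, 395, 930, 835, 929, 642, 102, 2209]),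
   (17, [0, 20, 4, 2, 16, 18, 8, 10, 13, 1, 19, 6, 21, 5, 7, 11, 9, 17, 15, 12, 3, 22, 14, 23], [0, 9, 3, 20, 2, 13, 11, 14, 6, 16, 7, 15, 19, 8, 22, 18, 4, 17, 5, 10, 1, 12, 21, 23], [388, 266, 1046, 76, 24, 318, 262, 276, 22, 283, 792, 2058]),
   (18, [0, 2, 16, 4, 10, 1, 12, 20, 15, 17, 19, 5, 21, 14, 22, 9, 7, 13, 18, 6, 11, 3, 8, 23], [0, 5, 1, 21, 3, 11, 19, 16, 22, 15, 4, 20, 6, 17, 13, 8, 2, 9, 18, 10, 7, 12, 14, 23], [528, 1824, 154, 1424, 1288, 792, 1744, 1688, 1048, 1929, 908, 2432]),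
   (19, [0, 11, 9, 6, 13, 8, 16, 17, 14, 18, 15, 12, 10, 1, 7, 4, 21, 20, 3, 19, 22, 2, 5, 23], [0, 13, 21, 18, 15, 22, 3, 14, 5, 2, 12, 1, 11, 4, 8, 10, 6, 7, 9, 19, 17, 16, 20, 23], [591, 1610, 1031, 519, 11, 1100, 1604, 206, 1581, 1105, 834, 3593]),
   (20, [0, 2, 8, 4, 18, 21, 22, 15, 16, 19, 13, 7, 10, 1, 9, 5, 12, 3, 14, 17, 20, 6, 11, 23], [0, 13, 1, 17, 3, 15, 21, 11, 2, 14, 12, 22, 16, 10, 18, 7, 8, 19, 4, 9, 20, 5, 6, 23], [51, 1066, 591, 1539, 1031, 1196, 552, 550, 269, 1581, 1574, 3593]),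
   (21, [0, 16, 18, 8, 7, 19, 5, 15, 22, 13, 11, 14, 17, 3, 4, 20, 9, 6, 12, 2, 10, 21, 1, 23], [0, 22, 19, 13, 14, 6, 17, 4, 3, 16, 20, 10, 18, 9, 11, 7, 1, 12, 2, 5, 15, 21, 8, 23], [1478, 1158, 1328, 1440, 1300, 23, 162, 1078, 412, 818, 1202, 2468]),
   (22, [0, 9, 15, 14, 11, 17, 20, 2, 16, 6, 5, 12, 8, 4, 21, 19, 18, 7, 13, 10, 3, 1, 22, 23], [0, 21, 7, 20, 13, 10, 9, 17, 12, 1, 19, 4, 11, 18, 3, 2, 8, 5, 16, 15, 6, 14, 22, 23], [930, 835, 672, 673, 643, 290, 305, 811, 163, 389, 1792, 2178])]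

theorem m22tab_ok : ∀ e ∈ m22tab,
    (∀ p : Cfsg.GolayPt, Lib.Helper9.listFun e.2.2.1 (Lib.Helper9.listFun e.2.1 p) = p ∧
      Lib.Helper9.listFun e.2.1 (Lib.Helper9.listFun e.2.2.1 p) = p) ∧
    e.2.2.2.length = 12 ∧
    (∀ p ∈ Lib.Helper9.golayBasis.zip (e.2.2.2.map Lib.Helper9.cw),
      (fun q => Lib.Helper9.wordOf p.1 (Lib.Helper9.listFun e.2.1 q)) = Lib.Helper9.wordOf p.2) ∧
    (∀ p : Cfsg.GolayPt, Lib.Helper9.listFun e.2.1 p = p ↔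
      (p = none ∨ p = some 0 ∨ p = Lib.Helper9.ptOf e.1)) := by
  decide +kernel

theorem m22tab_cover : ∀ q : Cfsg.GolayPt, q ≠ none → q ≠ some 0 →
    ∃ e ∈ m22tab, Lib.Helper9.ptOf e.1 = q := by
  decide +kernel

theorem mem_M22_iff (x : Equiv.Perm Cfsg.GolayPt) : x ∈ Cfsg.Spor.M22 ↔
    x ∈ Cfsg.M24 ∧ x none = none ∧ x (some 0) = some 0 := by
  unfold Cfsg.Spor.M22 Cfsg.Spor.M23
  rw [Subgroup.mem_inf, Subgroup.mem_inf]
  constructor
  · rintro ⟨⟨h1, h2⟩, h3⟩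
    exact ⟨h1, MulAction.mem_stabilizer_iff.1 h2, MulAction.mem_stabilizer_iff.1 h3⟩
  · rintro ⟨h1, h2, h3⟩
    exact ⟨⟨h1, MulAction.mem_stabilizer_iff.2 h2⟩, MulAction.mem_stabilizer_iff.2 h3⟩

/-- For each point `q` other than the two special ones there is an element of the two-point
group fixing `q` and moving every other point. -/
theorem exists_fix (q : Cfsg.GolayPt) (hq1 : q ≠ none) (hq2 : q ≠ some 0) :
    ∃ y ∈ Cfsg.Spor.M22, y q = q ∧ ∀ r, r ≠ none → r ≠ some 0 → r ≠ q → y r ≠ r := by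
  obtain ⟨e, he, rfl⟩ := m22tab_cover q hq1 hq2
  obtain ⟨h1, h2, h3, h4⟩ := m22tab_ok e he
  refine ⟨Lib.Helper9.listPerm e.2.1 e.2.2.1 h1, ?_, ?_, ?_⟩
  · rw [mem_M22_iff]
    refine ⟨Lib.Helper9.mem_M24_of_basis _ e.2.2.2 h2 h3, ?_, ?_⟩
    · exact (h4 none).2 (Or.inl rfl)
    · exact (h4 (some 0)).2 (Or.inr (Or.inl rfl))
  · exact (h4 _).2 (Or.inr (Or.inr rfl))
  · intro r hr1 hr2 hr3 hfix
    rcases (h4 r).1 hfix with h | h | h
    · exact hr1 h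
    · exact hr2 h
    · exact hr3 h

theorem swap_notMem : Equiv.swap (none : Cfsg.GolayPt) (some 0) ∉ Cfsg.M24 := by
  intro h
  have h1 := Lib.Helper9.preserves_of_mem_M24 _ h (Cfsg.qrWord 0) (Lib.Helper9.qrWord_mem 0)
  have h2 := Cfsg.golayCode.sub_mem h1 (Lib.Helper9.qrWord_mem 0)
  have h3 := Lib.Helper9.golay_min _ h2 (by
    intro h0
    have := congrFun h0 none
    revert this
    decide)
  revert h3
  decide +kernel

/-- In the automorphism group of the length-24 code, the two-point Mathieu group (permutations of the code's group fixing the extra point and the residue 0) has index 2 in the setwise stabiliser of that pair of points, and an element of the code's group interchanging the two points normalises the two-point group and induces on it, by conjugation, an automorphism that is not inner. -/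
theorem result (g : Equiv.Perm Cfsg.GolayPt) (hg : g ∈ Cfsg.M24) (h₁ : g none = some 0) (h₂ : g (some 0) = none) : Cfsg.Spor.M22.relIndex (Cfsg.M24 ⊓ MulAction.stabilizer (Equiv.Perm Cfsg.GolayPt) ({none, some 0} : Finset Cfsg.GolayPt)) = 2 ∧ (∀ x ∈ Cfsg.Spor.M22, g * x * g⁻¹ ∈ Cfsg.Spor.M22) ∧ ¬ ∃ h ∈ Cfsg.Spor.M22, ∀ x ∈ Cfsg.Spor.M22, g * x * g⁻¹ = h * x * h⁻¹ := by
  have hginj := g.injective
  have hgpair : ∀ p, g p ∈ ({none, some 0} : Finset Cfsg.GolayPt) ↔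
      p ∈ ({none, some 0} : Finset Cfsg.GolayPt) := by
    intro p
    simp only [Finset.mem_insert, Finset.mem_singleton]
    constructor
    · rintro (h | h)
      · right; exact hginj (h.trans h₂.symm)
      · left; exact hginj (h.trans h₁.symm)
    · rintro (h | h)
      · right; rw [h]; exact h₁
      · left; rw [h]; exact h₂
  refine ⟨?_, ?_, ?_⟩
  · -- index two
    have hgK : g ∈ Cfsg.M24 ⊓ MulAction.stabilizer (Equiv.Perm Cfsg.GolayPt)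
        ({none, some 0} : Finset Cfsg.GolayPt) :=
      ⟨hg, MulAction.mem_stabilizer_iff.2 ((Lib.Helper9.smul_finset_eq_iff g _).2 hgpair)⟩
    show (Cfsg.Spor.M22.subgroupOf _).index = 2
    rw [Subgroup.index_eq_two_iff]
    refine ⟨⟨g, hgK⟩, ?_⟩
    rintro ⟨b, hb⟩
    rw [Subgroup.mem_subgroupOf, Subgroup.mem_subgroupOf]
    show Xor' (b * g ∈ Cfsg.Spor.M22) (b ∈ Cfsg.Spor.M22)
    rw [mem_M22_iff, mem_M22_iff]
    have hb1 : b ∈ Cfsg.M24 := hb.1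
    have hb2 := (Lib.Helper9.smul_finset_eq_iff b _).1 (MulAction.mem_stabilizer_iff.1 hb.2)
    have hbg : b * g ∈ Cfsg.M24 := Cfsg.M24.mul_mem hb1 hg
    simp only [Equiv.Perm.mul_apply, h₁, h₂]
    have hn := (hb2 none).2 (by simp)
    have hz := (hb2 (some 0)).2 (by simp)
    simp only [Finset.mem_insert, Finset.mem_singleton] at hn hz
    have hbinj := b.injective
    rcases hn with hn | hn
    · -- b none = none
      have hz' : b (some 0) = some 0 := by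
        rcases hz with hz | hz
        · exact absurd (hbinj (hz.trans hn.symm)) (by simp)
        · exact hz
      right
      refine ⟨⟨hb1, hn, hz'⟩, ?_⟩
      rintro ⟨_, h, _⟩
      rw [hz'] at h
      exact absurd h (by simp)
    · have hz' : b (some 0) = none := by
        rcases hz with hz | hz
        · exact hz
        · exact absurd (hbinj (hz.trans hn.symm)) (by simp)
      left
      refine ⟨⟨hbg, hz', hn⟩, ?_⟩
      rintro ⟨_, h, _⟩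
      rw [hn] at h
      exact absurd h (by simp)
  · intro x hx
    rw [mem_M22_iff] at hx ⊢
    obtain ⟨hx1, hx2, hx3⟩ := hx
    have hgi1 : g⁻¹ none = some 0 := by
      rw [Equiv.Perm.inv_eq_iff_eq]; exact h₂.symm
    have hgi2 : g⁻¹ (some 0) = none := by
      rw [Equiv.Perm.inv_eq_iff_eq]; exact h₁.symm
    refine ⟨Cfsg.M24.mul_mem (Cfsg.M24.mul_mem hg hx1) (Cfsg.M24.inv_mem hg), ?_, ?_⟩
    · simp only [Equiv.Perm.mul_apply, hgi1, hx3, h₂]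
    · simp only [Equiv.Perm.mul_apply, hgi2, hx2, h₁]
  · rintro ⟨h, hh, hconj⟩
    have hh' := (mem_M22_iff h).1 hh
    -- the element c = h⁻¹ g centralizes the two-point group
    have hc : ∀ x ∈ Cfsg.Spor.M22, (h⁻¹ * g) * x = x * (h⁻¹ * g) := by
      intro x hx
      have := hconj x hx
      have e : g * x = h * x * h⁻¹ * g := by
        rw [← this]; group
      calc h⁻¹ * g * x = h⁻¹ * (g * x) := by group
        _ = h⁻¹ * (h * x * h⁻¹ * g) := by rw [e]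
        _ = x * (h⁻¹ * g) := by group
    have hhi1 : h⁻¹ none = none := by
      rw [Equiv.Perm.inv_eq_iff_eq]; exact hh'.2.1.symm
    have hhi2 : h⁻¹ (some 0) = some 0 := by
      rw [Equiv.Perm.inv_eq_iff_eq]; exact hh'.2.2.symm
    have hc1 : (h⁻¹ * g) none = some 0 := by
      simp only [Equiv.Perm.mul_apply, h₁, hhi2]
    have hc2 : (h⁻¹ * g) (some 0) = none := by
      simp only [Equiv.Perm.mul_apply, h₂, hhi1]
    have hcinj := (h⁻¹ * g).injective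
    have hfix : ∀ q : Cfsg.GolayPt, q ≠ none → q ≠ some 0 → (h⁻¹ * g) q = q := by
      intro q hq1 hq2
      obtain ⟨y, hy, hyq, hmove⟩ := exists_fix q hq1 hq2
      by_contra hne
      have h1 : (h⁻¹ * g) q ≠ none := fun hh => hq2 (hcinj (hh.trans hc2.symm))
      have h2 : (h⁻¹ * g) q ≠ some 0 := fun hh => hq1 (hcinj (hh.trans hc1.symm))
      apply hmove _ h1 h2 hne
      have := congrArg (fun f : Equiv.Perm Cfsg.GolayPt => f q) (hc y hy)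
      simp only [Equiv.Perm.mul_apply, hyq] at this
      exact this.symm
    have hswap : h⁻¹ * g = Equiv.swap (none : Cfsg.GolayPt) (some 0) := by
      apply Equiv.ext
      intro q
      by_cases hq1 : q = none
      · rw [hq1, hc1, Equiv.swap_apply_left]
      by_cases hq2 : q = some 0
      · rw [hq2, hc2, Equiv.swap_apply_right]
      rw [hfix q hq1 hq2, Equiv.swap_apply_of_ne_of_ne hq1 hq2]
    apply swap_notMem
    rw [← hswap]
    exact Cfsg.M24.mul_mem (Cfsg.M24.inv_mem hh'.1) hg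

end Cfsg.Agent.S5599
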