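import Cfsg.Statements.S5601
import Mathlib
import Cfsg.Agent.Lib.Helper9.M24Three

set_option autoImplicit false
open scoped Pointwise
open Cfsg

namespace Cfsg.Agent.S5601

open Cfsg.Agent.Lib.Helper9
open Cfsg
open scoped Pointwise

/-- The set of common fixed points of a subgroup. -/
def fixSet (X : Subgroup ↥M24) : Set GolayPt :=
  {p : GolayPt | ∀ x ∈ X, ((x : ↥M24) : Equiv.Perm GolayPt) p = p}

theorem exists_gen (X : Subgroup ↥M24) (hX : Nat.card X = 3) :
    ∃ x : ↥M24, orderOf x = 3 ∧ X = Subgroup.zpowers x := by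
  have hne : X ≠ ⊥ := by
    intro h
    rw [h, Subgroup.card_bot] at hX
    norm_num at hX
  obtain ⟨⟨x, hx⟩, hx1'⟩ := Subgroup.ne_bot_iff_exists_ne_one.mp hne
  have hx1 : x ≠ 1 := fun h => hx1' (Subtype.ext h)
  have hd : orderOf x ∣ 3 := by
    have h1 : orderOf (⟨x, hx⟩ : ↥X) ∣ Nat.card X := orderOf_dvd_natCard _
    rw [hX, Subgroup.orderOf_mk] at h1
    exact h1
  have ho : orderOf x = 3 := by
    rcases (Nat.dvd_prime Nat.prime_three).mp hd with h | h
    · exact absurd (orderOf_eq_one_iff.mp h) hx1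
    · exact h
  refine ⟨x, ho, ?_⟩
  symm
  apply Subgroup.eq_of_le_of_card_ge
  · rw [Subgroup.zpowers_le]; exact hx
  · rw [Nat.card_zpowers, ho, hX]

theorem fixSet_zpowers (x : ↥M24) :
    fixSet (Subgroup.zpowers x) =
      ((Finset.univ.filter fun p => (x : Equiv.Perm GolayPt) p = p : Finset GolayPt) : Set GolayPt) := by
  ext p
  simp only [fixSet, Set.mem_setOf_eq, Finset.coe_filter, Finset.mem_univ, true_and]
  constructor
  · intro h
    exact h x (Subgroup.mem_zpowers x)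
  · intro h y hy
    obtain ⟨n, rfl⟩ := Subgroup.mem_zpowers_iff.mp hy
    rw [Subgroup.coe_zpow]
    exact Equiv.Perm.zpow_apply_eq_self_of_apply_eq_self h n

theorem conj_zpowers (k x : ↥M24) :
    MulAut.conj k • Subgroup.zpowers x = Subgroup.zpowers (k * x * k⁻¹) := by
  rw [Subgroup.pointwise_smul_def]
  show Subgroup.map (MulAut.conj k).toMonoidHom (Subgroup.zpowers x) = _
  rw [MonoidHom.map_zpowers]
  rfl

/-- The subgroup generated by a listed element. -/
noncomputable def zp (l : List ℕ) (h : isM24L l = true) : Subgroup ↥M24 :=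
  Subgroup.zpowers (⟨permL l, permL_mem_M24 h⟩ : ↥M24)

theorem class_sub (X : Subgroup ↥M24) (hX : Nat.card X = 3) :
    (∃ k : ↥M24, MulAut.conj k • X = zp a3 a3_M24 ∧ (fixSet X).ncard = 6) ∨
    (∃ k : ↥M24, MulAut.conj k • X = zp b3 b3_M24 ∧ (fixSet X).ncard = 0) := by
  obtain ⟨x, ho, rfl⟩ := exists_gen X hX
  have ho' : orderOf (x : Equiv.Perm GolayPt) = 3 := by rw [Subgroup.orderOf_coe]; exact ho
  obtain ⟨k, hk, he | he⟩ := three_class x.1 x.2 ho'
  · left
    refine ⟨⟨k, hk⟩, ?_, ?_⟩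
    · rw [conj_zpowers]
      unfold zp
      congr 1
      exact Subtype.ext he
    · rw [fixSet_zpowers, Set.ncard_coe_finset]
      have e : (x : Equiv.Perm GolayPt) = k⁻¹ * permL a3 * k⁻¹⁻¹ := by rw [← he]; group
      rw [e, fix_conj, Finset.card_smul_finset, a3_fix, card_mset]
      decide
  · right
    refine ⟨⟨k, hk⟩, ?_, ?_⟩
    · rw [conj_zpowers]
      unfold zp
      congr 1
      exact Subtype.ext he
    · rw [fixSet_zpowers, Set.ncard_coe_finset]
      have e : (x : Equiv.Perm GolayPt) = k⁻¹ * permL b3 * k⁻¹⁻¹ := by rw [← he]; group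
      rw [e, fix_conj, Finset.card_smul_finset, b3_fix, mset_zero]
      simp

theorem card_zp (l : List ℕ) (h : isM24L l = true) (ho : orderOf (permL l) = 3) :
    Nat.card (zp l h) = 3 := by
  unfold zp
  rw [Nat.card_zpowers, Subgroup.orderOf_mk, ho]

theorem conj_of_eq {X Y Z : Subgroup ↥M24} {k k' : ↥M24} (h : MulAut.conj k • X = Z)
    (h' : MulAut.conj k' • Y = Z) : ∃ c : ↥M24, MulAut.conj c • X = Y := by
  refine ⟨k'⁻¹ * k, ?_⟩
  rw [map_mul, mul_smul, h, ← h', map_inv, inv_smul_smul]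

/-- The group of the length-24 code has exactly two conjugacy classes of subgroups of order 3: a subgroup of order 3 fixes either exactly 6 of the 24 points or none of them, both cases occur, and two subgroups of order 3 with the same number of fixed points are conjugate. -/
theorem result : (∀ X : Subgroup ↥Cfsg.M24, Nat.card X = 3 → {p : Cfsg.GolayPt | ∀ x ∈ X, ((x : ↥Cfsg.M24) : Equiv.Perm Cfsg.GolayPt) p = p}.ncard = 6 ∨ {p : Cfsg.GolayPt | ∀ x ∈ X, ((x : ↥Cfsg.M24) : Equiv.Perm Cfsg.GolayPt) p = p}.ncard = 0) ∧ (∃ X : Subgroup ↥Cfsg.M24, Nat.card X = 3 ∧ {p : Cfsg.GolayPt | ∀ x ∈ X, ((x : ↥Cfsg.M24) : Equiv.Perm Cfsg.GolayPt) p = p}.ncard = 6) ∧ (∃ X : Subgroup ↥Cfsg.M24, Nat.card X = 3 ∧ {p : Cfsg.GolayPt | ∀ x ∈ X, ((x : ↥Cfsg.M24) : Equiv.Perm Cfsg.GolayPt) p = p}.ncard = 0) ∧ ∀ X Y : Subgroup ↥Cfsg.M24, Nat.card X = 3 → Nat.card Y = 3 → {p : Cfsg.GolayPt | ∀ x ∈ X, ((x : ↥Cfsg.M24) : Equiv.Perm Cfsg.GolayPt) p = p}.ncard = {p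 : Cfsg.GolayPt | ∀ x ∈ Y, ((x : ↥Cfsg.M24) : Equiv.Perm Cfsg.GolayPt) p = p}.ncard → ∃ k : ↥Cfsg.M24, MulAut.conj k • X = Y := by
  have hA := card_zp a3 a3_M24 orderOf_a3
  have hB := card_zp b3 b3_M24 orderOf_b3
  have fA : (fixSet (zp a3 a3_M24)).ncard = 6 := by
    unfold zp
    rw [fixSet_zpowers, Set.ncard_coe_finset]
    show (Finset.univ.filter fun p => permL a3 p = p).card = 6
    rw [a3_fix, card_mset]
    decide
  have fB : (fixSet (zp b3 b3_M24)).ncard = 0 := by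
    unfold zp
    rw [fixSet_zpowers, Set.ncard_coe_finset]
    show (Finset.univ.filter fun p => permL b3 p = p).card = 0
    rw [b3_fix, mset_zero]
    simp
  refine ⟨?_, ⟨zp a3 a3_M24, hA, fA⟩, ⟨zp b3 b3_M24, hB, fB⟩, ?_⟩
  · intro X hX
    rcases class_sub X hX with ⟨k, -, h⟩ | ⟨k, -, h⟩
    · exact Or.inl h
    · exact Or.inr h
  · intro X Y hX hY hXY
    change (fixSet X).ncard = (fixSet Y).ncard at hXY
    rcases class_sub X hX with ⟨k, hk, h⟩ | ⟨k, hk, h⟩
    · rcases class_sub Y hY with ⟨k', hk', h'⟩ | ⟨k', hk', h'⟩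
      · exact conj_of_eq hk hk'
      · omega
    · rcases class_sub Y hY with ⟨k', hk', h'⟩ | ⟨k', hk', h'⟩
      · omega
      · exact conj_of_eq hk hk'

end Cfsg.Agent.S5601
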