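import Cfsg.Statements.S5602
import Mathlib
import Cfsg.Agent.Lib.Helper9.M24Three
import Cfsg.Agent.Lib.Helper9.M24Tab

set_option autoImplicit false
open scoped Pointwise
open Cfsg

namespace Cfsg.Agent.S5602

open Cfsg.Agent.Lib.Helper9
open Cfsg
open scoped Pointwise

theorem cA1 : cntB (fun n => pc 24 (cw n) == 8 && actM a3 0 (cw n) == cw n) 4096 = 21 := by
  decide +kernel

theorem cA2 : cntB (fun i => sameSet ((decK 3 trioA_X i).map (actM a3 0)) (decK 3 trioA_X i))
    3795 = 15 := by decide +kernel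

theorem cA3 : cntB (fun i => sameSet ((decK 6 sexA_X i).map (actM a3 0)) (decK 6 sexA_X i))
    1771 = 16 := by decide +kernel

theorem cA4 : cntB (fun n => pc 24 (cw n) == 12 && actM a3 0 (cw n) == cw n) 4096 = 20 := by
  decide +kernel

/-- An element of order 3 of the group of the length-24 code having exactly 6 fixed points maps to themselves exactly 21 octads, exactly 15 trios, exactly 16 sextets and exactly 20 dodecads. -/
theorem result (g : Equiv.Perm Cfsg.GolayPt) (hg : g ∈ Cfsg.M24) (h₃ : orderOf g = 3) (h₆ : (Finset.univ.filter fun p => g p = p).card = 6) : {o : Finset Cfsg.GolayPt | o ∈ Cfsg.octads ∧ g • o = o}.ncard = 21 ∧ {T : Finset (Finset Cfsg.GolayPt) | T ∈ Cfsg.trios ∧ g • T = T}.ncard = 15 ∧ {S : Finset (Finset Cfsg.GolayPt) | S ∈ Cfsg.sextets ∧ g • S = S}.ncard = 16 ∧ {d : Finset Cfsg.GolayPt | d ∈ Cfsg.dodecads ∧ g • d = d}.ncard = 20 := by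
  have hp := isPermL_of_isM24L a3_M24
  obtain ⟨k, hk, he | he⟩ := three_class g hg h₃
  · have e : g = k⁻¹ * permL a3 * k⁻¹⁻¹ := by rw [← he]; group
    have hki := M24.inv_mem hk
    rw [e]
    refine ⟨?_, ?_, ?_, ?_⟩
    · rw [ncard_fixed_conj octads (fun k hk s hs => smul_mem_octads hk hs) _ hki,
        octads_count hp, cA1]
    · rw [ncard_fixed_conj trios (fun k hk s hs => smul_mem_trios hk hs) _ hki,
        trios_count hp, cA2]
    · rw [ncard_fixed_conj sextets (fun k hk s hs => smul_mem_sextets hk hs) _ hki,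
        sextets_count hp, cA3]
    · rw [ncard_fixed_conj dodecads (fun k hk s hs => smul_mem_dodecads hk hs) _ hki,
        dodecads_count hp, cA4]
  · exfalso
    have e : g = k⁻¹ * permL b3 * k⁻¹⁻¹ := by rw [← he]; group
    rw [e, fix_conj, Finset.card_smul_finset, b3_fix, mset_zero] at h₆
    simp at h₆

end Cfsg.Agent.S5602
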