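import Cfsg.Statements.S5603
import Mathlib
import Cfsg.Agent.Lib.Helper9.M24Three
import Cfsg.Agent.Lib.Helper9.M24Tab

set_option autoImplicit false
open scoped Pointwise
open Cfsg

namespace Cfsg.Agent.S5603

open Cfsg.Agent.Lib.Helper9
open Cfsg
open scoped Pointwise

theorem cB2 : cntB (fun i => sameSet ((decK 3 trioA_X i).map (actM b3 0)) (decK 3 trioA_X i))
    3795 = 15 := by decide +kernel

theorem cB3 : cntB (fun i => sameSet ((decK 6 sexA_X i).map (actM b3 0)) (decK 6 sexA_X i))
    1771 = 7 := by decide +kernel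

/-- A fixed-point-free element of order 3 of the group of the length-24 code maps to themselves exactly 7 sextets and exactly 15 trios. -/
theorem result (g : Equiv.Perm Cfsg.GolayPt) (hg : g ∈ Cfsg.M24) (h₃ : orderOf g = 3) (h₀ : ∀ p, g p ≠ p) : {S : Finset (Finset Cfsg.GolayPt) | S ∈ Cfsg.sextets ∧ g • S = S}.ncard = 7 ∧ {T : Finset (Finset Cfsg.GolayPt) | T ∈ Cfsg.trios ∧ g • T = T}.ncard = 15 := by
  have hp := isPermL_of_isM24L b3_M24
  obtain ⟨k, hk, he | he⟩ := three_class g hg h₃
  · exfalso
    have e : g = k⁻¹ * permL a3 * k⁻¹⁻¹ := by rw [← he]; group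
    have hf : (Finset.univ.filter fun p => g p = p).card = 6 := by
      rw [e, fix_conj, Finset.card_smul_finset, a3_fix, card_mset]
      decide
    have : (Finset.univ.filter fun p => g p = p) = ∅ := by
      rw [Finset.filter_eq_empty_iff]
      intro p _
      exact h₀ p
    rw [this] at hf
    simp at hf
  · have e : g = k⁻¹ * permL b3 * k⁻¹⁻¹ := by rw [← he]; group
    have hki := M24.inv_mem hk
    rw [e]
    refine ⟨?_, ?_⟩
    · rw [ncard_fixed_conj sextets (fun k hk s hs => smul_mem_sextets hk hs) _ hki,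
        sextets_count hp, cB3]
    · rw [ncard_fixed_conj trios (fun k hk s hs => smul_mem_trios hk hs) _ hki,
        trios_count hp, cB2]

end Cfsg.Agent.S5603
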