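import Cfsg.Statements.S5605
import Mathlib
import Cfsg.Agent.Lib.Helper9.M24Inv
import Cfsg.Agent.Lib.Helper9.M24Tab

set_option autoImplicit false
open scoped Pointwise
open Cfsg

namespace Cfsg.Agent.S5605

open Cfsg.Agent.Lib.Helper9
open Cfsg
open scoped Pointwise

theorem cA1 : cntB (fun n => pc 24 (cw n) == 8 && actM repA 0 (cw n) == cw n) 4096 = 71 := by
  decide +kernel

theorem cA2 : cntB (fun i => sameSet ((decK 3 trioA_X i).map (actM repA 0)) (decK 3 trioA_X i))
    3795 = 99 := by decide +kernel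

theorem cA3 : cntB (fun i => sameSet ((decK 6 sexA_X i).map (actM repA 0)) (decK 6 sexA_X i))
    1771 = 91 := by decide +kernel

/-- An involution of the group of the length-24 code with exactly 8 fixed points maps to themselves exactly 71 octads, exactly 99 trios and exactly 91 sextets. -/
theorem result (g : Equiv.Perm Cfsg.GolayPt) (hg : g ∈ Cfsg.M24) (h₂ : orderOf g = 2) (h₈ : (Finset.univ.filter fun p => g p = p).card = 8) : {o : Finset Cfsg.GolayPt | o ∈ Cfsg.octads ∧ g • o = o}.ncard = 71 ∧ {T : Finset (Finset Cfsg.GolayPt) | T ∈ Cfsg.trios ∧ g • T = T}.ncard = 99 ∧ {S : Finset (Finset Cfsg.GolayPt) | S ∈ Cfsg.sextets ∧ g • S = S}.ncard = 91 := by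
  have hp := isPermL_of_isM24L repA_M24
  obtain ⟨k, hk, he | he⟩ := inv_class g hg h₂
  · have e : g = k⁻¹ * permL repA * k⁻¹⁻¹ := by rw [← he]; group
    have hki := M24.inv_mem hk
    rw [e]
    refine ⟨?_, ?_, ?_⟩
    · rw [ncard_fixed_conj octads (fun k hk s hs => smul_mem_octads hk hs) _ hki,
        octads_count hp, cA1]
    · rw [ncard_fixed_conj trios (fun k hk s hs => smul_mem_trios hk hs) _ hki,
        trios_count hp, cA2]
    · rw [ncard_fixed_conj sextets (fun k hk s hs => smul_mem_sextets hk hs) _ hki,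
        sextets_count hp, cA3]
  · exfalso
    have e : g = k⁻¹ * permL repB * k⁻¹⁻¹ := by rw [← he]; group
    rw [e, fix_conj, Finset.card_smul_finset, repB_fix, mset_zero] at h₈
    simp at h₈

end Cfsg.Agent.S5605
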