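import Cfsg.Statements.S5607
import Mathlib
import Cfsg.Agent.Lib.Helper9.M24Cent

set_option autoImplicit false
open scoped Pointwise
open Cfsg

namespace Cfsg.Agent.S5607

open Cfsg.Agent.Lib.Helper9
open Cfsg
open scoped Pointwise

theorem base_trans (p q : GolayPt) :
    ∃ c ∈ M24, c * permL tB = permL tB * c ∧ c p = q := by
  have key : ∀ r : GolayPt, ∃ c ∈ KzB, c (ptOf 0) = r := by
    intro r
    obtain ⟨l, hl, hj⟩ := trZ_cover ⟨ptIdx r, ptIdx_lt r⟩
    have h := trZ_chk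
    rw [List.all_eq_true] at h
    have h' := h l hl
    rw [Bool.and_eq_true] at h'
    refine ⟨permL l, memKzB l h'.1 h'.2, ?_⟩
    rw [permL_ptOf (isPermL_of_isM24L h'.1) (by norm_num), hj, ptOf_ptIdx]
  obtain ⟨a, ha, hap⟩ := key p
  obtain ⟨b, hb, hbq⟩ := key q
  have hm := KzB.mul_mem hb (KzB.inv_mem ha)
  refine ⟨b * a⁻¹, ((mem_KzB_iff _).mp hm).1, ((mem_KzB_iff _).mp hm).2, ?_⟩
  subst hap
  subst hbq
  simp

theorem base_result :
    Nat.card {c : Equiv.Perm GolayPt // c ∈ M24 ∧ c * permL tB = permL tB * c} = 7680 ∧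
    (∀ p q : GolayPt, ∃ c ∈ M24, c * permL tB = permL tB * c ∧ c p = q) ∧
    ∃ S ∈ sextets, permL tB • S = S ∧ ∀ c ∈ M24, c * permL tB = permL tB * c → c • S = S := by
  refine ⟨card_cent_tB, base_trans, obj S0l, mem_sextets_S0, ?_, comm_stab_S0⟩
  exact comm_stab_S0 _ (permL_mem_M24 tB_M24) rfl

theorem comm_conj_iff (k c t : Equiv.Perm GolayPt) :
    (k * c * k⁻¹) * (k * t * k⁻¹) = (k * t * k⁻¹) * (k * c * k⁻¹) ↔ c * t = t * c := by
  constructor
  · intro h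
    calc c * t = k⁻¹ * ((k * c * k⁻¹) * (k * t * k⁻¹)) * k := by group
      _ = k⁻¹ * ((k * t * k⁻¹) * (k * c * k⁻¹)) * k := by rw [h]
      _ = t * c := by group
  · intro h
    calc (k * c * k⁻¹) * (k * t * k⁻¹) = k * (c * t) * k⁻¹ := by group
      _ = k * (t * c) * k⁻¹ := by rw [h]
      _ = (k * t * k⁻¹) * (k * c * k⁻¹) := by group

theorem conj_mem_iff (k c : Equiv.Perm GolayPt) (hk : k ∈ M24) : k * c * k⁻¹ ∈ M24 ↔ c ∈ M24 := by
  constructor
  · intro h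
    have : c = k⁻¹ * (k * c * k⁻¹) * k := by group
    rw [this]
    exact M24.mul_mem (M24.mul_mem (M24.inv_mem hk) h) hk
  · intro h
    exact M24.mul_mem (M24.mul_mem hk h) (M24.inv_mem hk)

theorem transport (k t : Equiv.Perm GolayPt) (hk : k ∈ M24)
    (h : Nat.card {c : Equiv.Perm GolayPt // c ∈ M24 ∧ c * (k * t * k⁻¹) = (k * t * k⁻¹) * c} = 7680 ∧
    (∀ p q : GolayPt, ∃ c ∈ M24, c * (k * t * k⁻¹) = (k * t * k⁻¹) * c ∧ c p = q) ∧
    ∃ S ∈ sextets, (k * t * k⁻¹) • S = S ∧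
      ∀ c ∈ M24, c * (k * t * k⁻¹) = (k * t * k⁻¹) * c → c • S = S) :
    Nat.card {c : Equiv.Perm GolayPt // c ∈ M24 ∧ c * t = t * c} = 7680 ∧
    (∀ p q : GolayPt, ∃ c ∈ M24, c * t = t * c ∧ c p = q) ∧
    ∃ S ∈ sextets, t • S = S ∧ ∀ c ∈ M24, c * t = t * c → c • S = S := by
  obtain ⟨h1, h2, S, hS, h3, h4⟩ := h
  refine ⟨?_, ?_, ?_⟩
  · rw [← h1]
    apply Nat.card_congr
    exact Equiv.subtypeEquiv (MulAut.conj k).toEquiv (fun c => by
      show c ∈ M24 ∧ c * t = t * c ↔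
        k * c * k⁻¹ ∈ M24 ∧ (k * c * k⁻¹) * (k * t * k⁻¹) = (k * t * k⁻¹) * (k * c * k⁻¹)
      rw [conj_mem_iff k c hk, comm_conj_iff])
  · intro p q
    obtain ⟨c, hc, hct, hcp⟩ := h2 (k p) (k q)
    refine ⟨k⁻¹ * c * k, M24.mul_mem (M24.mul_mem (M24.inv_mem hk) hc) hk, ?_, ?_⟩
    · apply (comm_conj_iff k _ t).mp
      have e : k * (k⁻¹ * c * k) * k⁻¹ = c := by group
      rw [e]
      exact hct
    · simp only [Equiv.Perm.coe_mul, Function.comp_apply]
      rw [hcp]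
      simp
  · refine ⟨k⁻¹ • S, smul_mem_sextets (M24.inv_mem hk) hS, ?_, ?_⟩
    · rw [mul_smul, mul_smul] at h3
      rw [eq_inv_smul_iff]
      exact h3
    · intro c hc hct
      have := h4 (k * c * k⁻¹) ((conj_mem_iff k c hk).mpr hc) ((comm_conj_iff k c t).mpr hct)
      rw [mul_smul, mul_smul] at this
      rw [eq_inv_smul_iff]
      exact this

/-- For a fixed-point-free involution t of the group of the length-24 code: its centraliser in that group has order 7680, is transitive on the 24 points, and is contained, together with t, in the stabiliser of some sextet. -/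
theorem result (t : Equiv.Perm Cfsg.GolayPt) (ht : t ∈ Cfsg.M24) (h₂ : orderOf t = 2) (h₀ : ∀ p, t p ≠ p) : Nat.card {c : Equiv.Perm Cfsg.GolayPt // c ∈ Cfsg.M24 ∧ c * t = t * c} = 7680 ∧ (∀ p q : Cfsg.GolayPt, ∃ c ∈ Cfsg.M24, c * t = t * c ∧ c p = q) ∧ ∃ S ∈ Cfsg.sextets, t • S = S ∧ ∀ c ∈ Cfsg.M24, c * t = t * c → c • S = S := by
  obtain ⟨k, hk, he⟩ := fpf_conj t ht h₂ h₀
  apply transport k t hk
  rw [he]
  exact base_result

end Cfsg.Agent.S5607
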