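import Cfsg.Statements.S5608
import Mathlib
import Cfsg.Agent.Lib.Helper9.M24Cent
import Cfsg.Agent.Lib.Helper9.M24Three

set_option autoImplicit false
open scoped Pointwise
open Cfsg

namespace Cfsg.Agent.S5608

open Cfsg.Agent.Lib.Helper9
open Cfsg
open scoped Pointwise

theorem no_fpf_three (x : Equiv.Perm GolayPt) (hx3 : x ^ 3 = 1) (F : Finset GolayPt)
    (hF : ∀ p, x p ∈ F ↔ p ∈ F) (hcard : F.card = 8) (hfpf : ∀ p, x p ≠ p) : False := by
  haveI : Fact (Nat.Prime 3) := ⟨Nat.prime_three⟩
  have hσ : (x.subtypePerm hF) ^ 3 ^ 1 = 1 := by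
    rw [pow_one, Equiv.Perm.subtypePerm_pow]
    ext p
    simp [hx3]
  have h := Equiv.Perm.card_compl_support_modEq hσ
  have hs : (x.subtypePerm hF).supportᶜ = ∅ := by
    ext p
    simp only [Finset.mem_compl, Equiv.Perm.mem_support, ne_eq, not_not, Finset.notMem_empty,
      iff_false]
    intro hp
    apply hfpf p.1
    have := congrArg Subtype.val hp
    simpa using this
  rw [hs, Finset.card_empty, Fintype.card_coe, hcard] at h
  exact absurd h (by decide)

theorem fpf_of_conj {k g r : Equiv.Perm GolayPt} (h : k * g * k⁻¹ = r) (hr : ∀ p, r p ≠ p) :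
    ∀ p, g p ≠ p := by
  intro p hp
  apply hr (k p)
  rw [← h]
  simp [hp]

theorem card_fix_zero {g : Equiv.Perm GolayPt} (h : ∀ p, g p ≠ p) :
    (Finset.univ.filter fun p => g p = p).card = 0 := by
  rw [Finset.card_eq_zero, Finset.filter_eq_empty_iff]
  intro p _
  exact h p

/-- If an element of order 3 and an involution of the group of the length-24 code commute, then either the element of order 3 has exactly 6 fixed points and the involution exactly 8, or both are fixed-point-free. -/
theorem result (x s : Equiv.Perm Cfsg.GolayPt) (hx : x ∈ Cfsg.M24) (hs : s ∈ Cfsg.M24) (h₃ : orderOf x = 3) (h₂ : orderOf s = 2) (hc : Commute x s) : ((Finset.univ.filter fun p => x p = p).card = 6 ∧ (Finset.univ.filter fun p => s p = p).card = 8) ∨ ((Finset.univ.filter fun p => x p = p).card = 0 ∧ (Finset.univ.filter fun p => s p = p).card = 0) := by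
  have hx3 : x ^ 3 = 1 := by rw [← h₃, pow_orderOf_eq_one]
  obtain ⟨k, hk, he | he⟩ := inv_class s hs h₂
  · have hs8 : (Finset.univ.filter fun p => s p = p).card = 8 := by
      rw [card_fix_of_conj he, repA_fix, card_mset]
      decide
    obtain ⟨j, hj, hx' | hx'⟩ := three_class x hx h₃
    · left
      refine ⟨?_, hs8⟩
      rw [card_fix_of_conj hx', a3_fix, card_mset]
      decide
    · exfalso
      have hfpf := fpf_of_conj hx' b3_fpf
      apply no_fpf_three x hx3 (Finset.univ.filter fun p => s p = p) _ hs8 hfpf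
      intro p
      simp only [Finset.mem_filter, Finset.mem_univ, true_and]
      have hcomm : ∀ q, s (x q) = x (s q) := by
        intro q
        have := congrArg (fun f : Equiv.Perm GolayPt => f q) hc.eq
        simpa using this.symm
      constructor
      · intro h
        rw [hcomm] at h
        exact x.injective h
      · intro h
        rw [hcomm, h]
  · right
    have hsf := fpf_of_conj he repB_fpf
    refine ⟨?_, card_fix_zero hsf⟩
    obtain ⟨k', hk', he'⟩ := fpf_conj s hs h₂ hsf
    have hmem : k' * x * k'⁻¹ ∈ KzB := by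
      rw [mem_KzB_iff]
      refine ⟨M24.mul_mem (M24.mul_mem hk' hx) (M24.inv_mem hk'), ?_⟩
      rw [← he']
      calc k' * x * k'⁻¹ * (k' * s * k'⁻¹) = k' * (x * s) * k'⁻¹ := by group
        _ = k' * (s * x) * k'⁻¹ := by rw [hc.eq]
        _ = k' * s * k'⁻¹ * (k' * x * k'⁻¹) := by group
    have ho : orderOf (k' * x * k'⁻¹) = 3 := by
      have := MulEquiv.orderOf_eq (MulAut.conj k') x
      rw [MulAut.conj_apply] at this
      rw [this, h₃]
    have hf := three_cent_fpf _ hmem ho
    exact card_fix_zero (fpf_of_conj rfl hf)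

end Cfsg.Agent.S5608
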