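import Cfsg.Statements.S5609
import Mathlib
import Cfsg.Agent.Lib.Helper9.OctadGraph

set_option autoImplicit false
open scoped Pointwise
open Cfsg

namespace Cfsg.Agent.S5609

theorem octad_mem {o : Finset Cfsg.GolayPt} (ho : o ∈ Cfsg.octads) :
    ∃ c ∈ Cfsg.golayCode, Lib.Helper9.Gen.sp c = o ∧ (Lib.Helper9.Gen.sp c).card = 8 := by
  obtain ⟨⟨c, hc, rfl⟩, h8⟩ := ho
  exact ⟨c, hc, (Lib.Helper9.Gen.support₂_eq_sp c).symm,
    by rw [← Lib.Helper9.Gen.support₂_eq_sp]; exact h8⟩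

theorem mem_octad {c : Cfsg.GolayPt → ZMod 2} (hc : c ∈ Cfsg.golayCode)
    (h8 : (Lib.Helper9.Gen.sp c).card = 8) : Lib.Helper9.Gen.sp c ∈ Cfsg.octads :=
  ⟨⟨c, hc, Lib.Helper9.Gen.support₂_eq_sp c⟩, h8⟩

theorem adj_iff (u v : Cfsg.octads) : (Cfsg.blockGraph Cfsg.octads).Adj u v ↔
    u ≠ v ∧ Disjoint (u : Finset Cfsg.GolayPt) (v : Finset Cfsg.GolayPt) := by
  unfold Cfsg.blockGraph
  rw [SimpleGraph.fromRel_adj]
  constructor
  · rintro ⟨h1, h2 | h2⟩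
    · exact ⟨h1, h2⟩
    · exact ⟨h1, h2.symm⟩
  · rintro ⟨h1, h2⟩; exact ⟨h1, Or.inl h2⟩

theorem adj_of_disjoint (u w : Cfsg.octads)
    (h : Disjoint (u : Finset Cfsg.GolayPt) (w : Finset Cfsg.GolayPt)) :
    (Cfsg.blockGraph Cfsg.octads).Adj u w := by
  rw [adj_iff]
  refine ⟨?_, h⟩
  rintro rfl
  rw [disjoint_self] at h
  have h8 := u.2.2
  rw [h] at h8
  simp at h8

theorem key (u v : Cfsg.octads) (hne : u ≠ v) :
    (((u : Finset Cfsg.GolayPt) ∩ v).card = 0 ∧ (Cfsg.blockGraph Cfsg.octads).Adj u v) ∨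
    (((u : Finset Cfsg.GolayPt) ∩ v).card = 4 ∧ ¬ (Cfsg.blockGraph Cfsg.octads).Adj u v ∧
      ∃ w, (Cfsg.blockGraph Cfsg.octads).Adj u w ∧ (Cfsg.blockGraph Cfsg.octads).Adj w v) ∨
    (((u : Finset Cfsg.GolayPt) ∩ v).card = 2 ∧ ¬ (Cfsg.blockGraph Cfsg.octads).Adj u v ∧
      (∀ w, ¬ ((Cfsg.blockGraph Cfsg.octads).Adj u w ∧ (Cfsg.blockGraph Cfsg.octads).Adj w v)) ∧
      ∃ x y, (Cfsg.blockGraph Cfsg.octads).Adj u x ∧ (Cfsg.blockGraph Cfsg.octads).Adj x y ∧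
        (Cfsg.blockGraph Cfsg.octads).Adj y v) := by
  obtain ⟨c, hc, hcu, h8⟩ := octad_mem u.2
  obtain ⟨c', hc', hcv, h8'⟩ := octad_mem v.2
  have hcc : c ≠ c' := by
    rintro rfl
    exact hne (Subtype.ext (hcu.symm.trans hcv))
  have hnadj : ((u : Finset Cfsg.GolayPt) ∩ v).card ≠ 0 → ¬ (Cfsg.blockGraph Cfsg.octads).Adj u v := by
    intro h0 hadj
    rw [adj_iff] at hadj
    rw [Finset.disjoint_iff_inter_eq_empty.1 hadj.2] at h0
    simp at h0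
  rcases Lib.Helper9.octad_cases hc hc' h8 h8' hcc with h | h | h
  · left
    rw [hcu, hcv] at h
    refine ⟨h, adj_of_disjoint u v ?_⟩
    rw [Finset.disjoint_iff_inter_eq_empty, ← Finset.card_eq_zero]
    exact h
  · right; right
    have h' := h
    rw [hcu, hcv] at h'
    refine ⟨h', hnadj (by omega), ?_, ?_⟩
    · rintro w ⟨hw1, hw2⟩
      obtain ⟨d, hd, hdw, h8d⟩ := octad_mem w.2
      rw [adj_iff] at hw1 hw2
      refine Lib.Helper9.no_common_of_two hc hc' hd h8 h8' h8d h ?_ ?_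
      · rw [hdw, hcu]; exact hw1.2.symm
      · rw [hdw, hcv]; exact hw2.2
    · obtain ⟨x, hx, y, hy, hx8, hy8, h1, h2, h3⟩ := Lib.Helper9.exists_path_of_two hc hc' h8 h8' h
      refine ⟨⟨_, mem_octad hx hx8⟩, ⟨_, mem_octad hy hy8⟩, adj_of_disjoint _ _ ?_,
        adj_of_disjoint _ _ h2, adj_of_disjoint _ _ ?_⟩
      · show Disjoint (u : Finset Cfsg.GolayPt) _
        rw [← hcu]; exact h1
      · show Disjoint _ (v : Finset Cfsg.GolayPt)
        rw [← hcv]; exact h3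
  · right; left
    have h' := h
    rw [hcu, hcv] at h'
    refine ⟨h', hnadj (by omega), ?_⟩
    obtain ⟨d, hd, hd8, h1, h2⟩ := Lib.Helper9.exists_disjoint_octad_of_four hc hc' h8 h8' h
    refine ⟨⟨_, mem_octad hd hd8⟩, adj_of_disjoint _ _ ?_, adj_of_disjoint _ _ ?_⟩
    · show Disjoint (u : Finset Cfsg.GolayPt) _
      rw [← hcu]; exact h1.symm
    · show Disjoint _ (v : Finset Cfsg.GolayPt)
      rw [← hcv]; exact h2

/-- In the graph on the 759 octads of the length-24 code in which two octads are adjacent when they are disjoint, the graph is connected (of diameter 3) and two distinct octads are at distance 1, 2 or 3 exactly when they meet in 0, 4 or 2 points respectively. -/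
theorem result (o o' : Finset Cfsg.GolayPt) (ho : o ∈ Cfsg.octads) (ho' : o' ∈ Cfsg.octads) (hne : o ≠ o') : (Cfsg.blockGraph Cfsg.octads).Connected ∧ ((Cfsg.blockGraph Cfsg.octads).dist ⟨o, ho⟩ ⟨o', ho'⟩ = 1 ↔ (o ∩ o').card = 0) ∧ ((Cfsg.blockGraph Cfsg.octads).dist ⟨o, ho⟩ ⟨o', ho'⟩ = 2 ↔ (o ∩ o').card = 4) ∧ ((Cfsg.blockGraph Cfsg.octads).dist ⟨o, ho⟩ ⟨o', ho'⟩ = 3 ↔ (o ∩ o').card = 2) := by
  have hreach : ∀ u v : Cfsg.octads, (Cfsg.blockGraph Cfsg.octads).Reachable u v := by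
    intro u v
    by_cases huv : u = v
    · subst huv; exact SimpleGraph.Reachable.refl _
    · rcases key u v huv with ⟨_, h⟩ | ⟨_, _, w, h1, h2⟩ | ⟨_, _, _, x, y, h1, h2, h3⟩
      · exact h.reachable
      · exact h1.reachable.trans h2.reachable
      · exact (h1.reachable.trans h2.reachable).trans h3.reachable
  haveI : Nonempty Cfsg.octads := ⟨⟨o, ho⟩⟩
  have hconn : (Cfsg.blockGraph Cfsg.octads).Connected := ⟨hreach⟩
  have huv : (⟨o, ho⟩ : Cfsg.octads) ≠ ⟨o', ho'⟩ := fun h => hne (congrArg Subtype.val h)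
  have hk := key ⟨o, ho⟩ ⟨o', ho'⟩ huv
  simp only at hk
  have hcoe := (hreach ⟨o, ho⟩ ⟨o', ho'⟩).coe_dist_eq_edist
  have hd0 : (o ∩ o').card = 0 → (Cfsg.blockGraph Cfsg.octads).dist ⟨o, ho⟩ ⟨o', ho'⟩ = 1 := by
    intro h0
    rcases hk with ⟨_, h⟩ | ⟨h4, _⟩ | ⟨h2, _⟩
    · exact SimpleGraph.dist_eq_one_iff_adj.2 h
    · omega
    · omega
  have hd4 : (o ∩ o').card = 4 → (Cfsg.blockGraph Cfsg.octads).dist ⟨o, ho⟩ ⟨o', ho'⟩ = 2 := by
    intro h0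
    rcases hk with ⟨h4, _⟩ | ⟨_, hn, w, h1, h2⟩ | ⟨h2, _⟩
    · omega
    · have he : (Cfsg.blockGraph Cfsg.octads).edist ⟨o, ho⟩ ⟨o', ho'⟩ = 2 :=
        SimpleGraph.edist_eq_two_iff.2 ⟨huv, hn, ⟨w, (SimpleGraph.mem_commonNeighbors _).2 ⟨h1, h2.symm⟩⟩⟩
      rw [he] at hcoe
      exact_mod_cast hcoe
    · omega
  have hd2 : (o ∩ o').card = 2 → (Cfsg.blockGraph Cfsg.octads).dist ⟨o, ho⟩ ⟨o', ho'⟩ = 3 := by
    intro h0
    rcases hk with ⟨h4, _⟩ | ⟨h4, _⟩ | ⟨_, hn, hno, x, y, h1, h2, h3⟩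
    · omega
    · omega
    · have hlt : 2 < (Cfsg.blockGraph Cfsg.octads).edist ⟨o, ho⟩ ⟨o', ho'⟩ := by
        rw [SimpleGraph.two_lt_edist_iff]
        refine ⟨huv, hn, ?_⟩
        rw [Set.eq_empty_iff_forall_notMem]
        intro w hw
        rw [SimpleGraph.mem_commonNeighbors] at hw
        exact hno w ⟨hw.1, hw.2.symm⟩
      have hle := SimpleGraph.dist_le (SimpleGraph.Walk.cons h1 (SimpleGraph.Walk.cons h2
        (SimpleGraph.Walk.cons h3 SimpleGraph.Walk.nil)))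
      simp only [SimpleGraph.Walk.length_cons, SimpleGraph.Walk.length_nil] at hle
      rw [← hcoe] at hlt
      have hlt' : 2 < (Cfsg.blockGraph Cfsg.octads).dist ⟨o, ho⟩ ⟨o', ho'⟩ := by exact_mod_cast hlt
      omega
  have htri : (o ∩ o').card = 0 ∨ (o ∩ o').card = 4 ∨ (o ∩ o').card = 2 := by
    rcases hk with ⟨h, _⟩ | ⟨h, _⟩ | ⟨h, _⟩
    · exact Or.inl h
    · exact Or.inr (Or.inl h)
    · exact Or.inr (Or.inr h)
  refine ⟨hconn, ⟨fun h => ?_, hd0⟩, ⟨fun h => ?_, hd4⟩, ⟨fun h => ?_, hd2⟩⟩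
  · rcases htri with h0 | h4 | h2
    · exact h0
    · have := hd4 h4; omega
    · have := hd2 h2; omega
  · rcases htri with h0 | h4 | h2
    · have := hd0 h0; omega
    · exact h4
    · have := hd2 h2; omega
  · rcases htri with h0 | h4 | h2
    · have := hd0 h0; omega
    · have := hd4 h4; omega
    · exact h2

end Cfsg.Agent.S5609
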