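import Cfsg.Statements.S5613
import Mathlib
import Cfsg.Agent.Lib.Helper9.M24Pair

set_option autoImplicit false
open scoped Pointwise
open Cfsg

namespace Cfsg.Agent.S5613

open Cfsg.Agent.Lib.Helper9
open scoped Pointwise

/-- In the group of the length-24 code, the joint stabiliser of two octads has order 10752, 1152 or 720 according as the octads meet in 0, 4 or 2 points. -/
theorem result (o o' : Finset Cfsg.GolayPt) (ho : o ∈ Cfsg.octads) (ho' : o' ∈ Cfsg.octads) : ((o ∩ o').card = 0 → Nat.card ↥(MulAction.stabilizer Cfsg.M24 o ⊓ MulAction.stabilizer Cfsg.M24 o') = 10752) ∧ ((o ∩ o').card = 4 → Nat.card ↥(MulAction.stabilizer Cfsg.M24 o ⊓ MulAction.stabilizer Cfsg.M24 o') = 1152) ∧ ((o ∩ o').card = 2 → Nat.card ↥(MulAction.stabilizer Cfsg.M24 o ⊓ MulAction.stabilizer Cfsg.M24 o') = 720) := by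
  have key : ∀ (m : ℕ) (c : ℕ),
      Nat.card ↥(Koct ⊓ MulAction.stabilizer (Equiv.Perm Cfsg.GolayPt) (mset m)) = c →
      (∃ g ∈ Cfsg.M24, g • mset 8536111 = o ∧ g • mset m = o') →
      Nat.card ↥(MulAction.stabilizer Cfsg.M24 o ⊓ MulAction.stabilizer Cfsg.M24 o') = c := by
    rintro m c hc ⟨g, hg, rfl, rfl⟩
    rw [Nat.card_congr (bridgeStab2 (g • mset 8536111) (g • mset m)).toEquiv,
      ← Nat.card_congr (conjStab2 hg (mset 8536111) (mset m)).toEquiv]
    exact hc
  obtain ⟨h0, h4, h2⟩ := exists_pair_octads ho ho'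
  exact ⟨fun h => key _ _ octB0.2 (h0 h), fun h => key _ _ octB4.2 (h4 h),
    fun h => key _ _ octB2.2 (h2 h)⟩

end Cfsg.Agent.S5613
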