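import Cfsg.Statements.S5614
import Mathlib
import Cfsg.Agent.Lib.Helper9.M24Restrict

set_option autoImplicit false
open scoped Pointwise
open Cfsg

namespace Cfsg.Agent.S5614

open Cfsg.Agent.Lib.Helper9
open Cfsg
open scoped Pointwise

def fixE16 : List (List ℕ) :=
  [[0, 1, 2, 3, 4, 5, 6, 7, 8, 9, 10, 11, 12, 13, 14, 15, 16, 17, 18, 19, 20, 21, 22, 23],
   [0, 1, 2, 3, 6, 5, 4, 22, 20, 12, 11, 10, 9, 19, 14, 18, 21, 17, 15, 13, 8, 16, 7, 23],
   [0, 1, 2, 3, 7, 5, 22, 4, 15, 11, 12, 9, 10, 21, 14, 8, 19, 17, 20, 16, 18, 13, 6, 23],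
   [0, 1, 2, 3, 8, 5, 20, 15, 4, 21, 19, 13, 16, 11, 14, 7, 12, 17, 22, 10, 6, 9, 18, 23],
   [0, 1, 2, 3, 9, 5, 12, 11, 21, 4, 22, 7, 6, 15, 14, 13, 20, 17, 19, 18, 16, 8, 10, 23],
   [0, 1, 2, 3, 10, 5, 11, 12, 19, 22, 4, 6, 7, 20, 14, 16, 15, 17, 21, 8, 13, 18, 9, 23],
   [0, 1, 2, 3, 11, 5, 10, 9, 13, 7, 6, 4, 22, 8, 14, 21, 18, 17, 16, 20, 19, 15, 12, 23],
   [0, 1, 2, 3, 12, 5, 9, 10, 16, 6, 7, 22, 4, 18, 14, 19, 8, 17, 13, 15, 21, 20, 11, 23],
   [0, 1, 2, 3, 13, 5, 19, 21, 11, 15, 20, 8, 18, 4, 14, 9, 22, 17, 12, 6, 10, 7, 16, 23],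
   [0, 1, 2, 3, 15, 5, 18, 8, 7, 13, 16, 21, 19, 9, 14, 4, 10, 17, 6, 12, 22, 11, 20, 23],
   [0, 1, 2, 3, 16, 5, 21, 19, 12, 20, 15, 18, 8, 22, 14, 10, 4, 17, 11, 7, 9, 6, 13, 23],
   [0, 1, 2, 3, 18, 5, 15, 20, 22, 19, 21, 16, 13, 12, 14, 6, 11, 17, 4, 9, 7, 10, 8, 23],
   [0, 1, 2, 3, 19, 5, 13, 16, 10, 18, 8, 20, 15, 6, 14, 12, 7, 17, 9, 4, 11, 22, 21, 23],
   [0, 1, 2, 3, 20, 5, 8, 18, 6, 16, 13, 19, 21, 10, 14, 22, 9, 17, 7, 11, 4, 12, 15, 23],
   [0, 1, 2, 3, 21, 5, 16, 13, 9, 8, 18, 15, 20, 7, 14, 11, 6, 17, 10, 22, 12, 4, 19, 23],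
   [0, 1, 2, 3, 22, 5, 7, 6, 18, 10, 9, 12, 11, 16, 14, 20, 13, 17, 8, 21, 15, 19, 4, 23]]

def rigidE : List (ℕ × ℕ) :=
  [(150618, 8407702), (10558, 180636), (10558, 416040), (10558, 10558), (21116, 52005), (21116, 72588), (5279, 39257), (5279, 69395), (5279, 5279), (18147, 18147), (36294, 36294), (69395, 69395), (262637, 262637), (525274, 525274), (1050548, 1050548), (2101096, 2101096), (4196943, 4196943)]

theorem fixE16_ok : fixE16.all (fun l => isM24L l &&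
    decide (∀ i : Fin 24, (8536078 : ℕ).testBit i.val = true → l.getD i.val 0 = i.val)) = true := by
  decide +kernel

theorem fixE16_cover : ∀ j : Fin 24, (8536111 : ℕ).testBit j.val = false →
    ∃ l ∈ fixE16, l.getD 4 0 = j.val := by decide +kernel

theorem fixE16_stab : ∀ l ∈ fixE16, actM l 0 15777 = 15777 →
    l = [0, 1, 2, 3, 4, 5, 6, 7, 8, 9, 10, 11, 12, 13, 14, 15, 16, 17, 18, 19, 20, 21, 22, 23] := by
  decide +kernel

theorem fixE16_lt : ∀ l ∈ fixE16, actM l 0 15777 < 2 ^ 24 := by decide +kernel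

theorem rigidE_ok : rigidChk rigidE 8536094 = true := by decide +kernel

theorem fx_cases : ∀ p : GolayPt, (8536094 : ℕ).testBit (ptIdx p) = true →
    (8536078 : ℕ).testBit (ptIdx p) = true ∨ ptIdx p = 4 := by decide

theorem fixE_eq (g : Equiv.Perm GolayPt) (hg : g ∈ M24) (hfix : ∀ p ∈ mset 8536078, g p = p) :
    ∃ l ∈ fixE16, g = permL l := by
  have hO : g • mset 8536111 = mset 8536111 :=
    octad_fixed hg (by decide +kernel) (mset 8536078) (mset_subset_of_and (by decide))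
      (by rw [card_mset]; decide) hfix
  have h4 : g (ptOf 4) ∉ mset 8536111 := by
    intro hcon
    rw [← hO, ← Equiv.Perm.smul_def, Finset.smul_mem_smul_finset_iff, mem_mset] at hcon
    revert hcon
    decide
  rw [mem_mset] at h4
  have hj := ptIdx_lt (g (ptOf 4))
  obtain ⟨l, hl, hlj⟩ := fixE16_cover ⟨ptIdx (g (ptOf 4)), hj⟩ (by simpa using h4)
  refine ⟨l, hl, ?_⟩
  have hok := fixE16_ok
  rw [List.all_eq_true] at hok
  have hl' := hok l hl
  rw [Bool.and_eq_true, decide_eq_true_eq] at hl'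
  have hp := isPermL_of_isM24L hl'.1
  apply eq_of_rigid rigidE 8536094 rigidE_ok g (permL l) hg (permL_mem_M24 hl'.1)
  intro p hp'
  rcases fx_cases p (mem_mset.mp hp') with h | h
  · rw [hfix p (mem_mset.mpr h), permL_apply hp]
    unfold listFun
    rw [hl'.2 ⟨ptIdx p, ptIdx_lt p⟩ h, ptOf_ptIdx]
  · have : p = ptOf 4 := by rw [← ptOf_ptIdx p, h]
    rw [this, permL_ptOf hp (by norm_num), hlj, ptOf_ptIdx]

theorem ker_trivial (g : Equiv.Perm GolayPt)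
    (hg : g ∈ (M24 ⊓ MulAction.stabilizer (Equiv.Perm GolayPt) (mset 8536111)) ⊓
      MulAction.stabilizer (Equiv.Perm GolayPt) (mset 15777))
    (hfix : ∀ p ∈ mset 8536078, g p = p) : g = 1 := by
  obtain ⟨l, hl, rfl⟩ := fixE_eq g hg.1.1 hfix
  have hok := fixE16_ok
  rw [List.all_eq_true] at hok
  have hl' := hok l hl
  rw [Bool.and_eq_true] at hl'
  have hp := isPermL_of_isM24L hl'.1
  have h2 : permL l • mset 15777 = mset 15777 := hg.2
  rw [permL_smul_mset hp] at h2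
  have h3 := mset_injOn (fixE16_lt l hl) (by norm_num) h2
  rw [fixE16_stab l hl h3]
  exact permL_id

theorem base_iso : Nonempty (↥((M24 ⊓ MulAction.stabilizer (Equiv.Perm GolayPt) (mset 8536111)) ⊓
    MulAction.stabilizer (Equiv.Perm GolayPt) (mset 15777)) ≃* Equiv.Perm (Fin 6)) := by
  refine restrict_iso _ (mset 8536078) ?_ 6 (by rw [card_mset]; decide) octB2.2 ker_trivial
  intro g hg x
  have h0 := (smul_finset_eq_iff g (mset 8536111)).mp hg.1.2 x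
  have h2 := (smul_finset_eq_iff g (mset 15777)).mp hg.2 x
  have e : (8536078 : ℕ) = 8536111 &&& (15777 ^^^ 16777215) := by decide
  rw [e, mset_and, mset_xor_full]
  simp only [Finset.mem_inter, Finset.mem_sdiff, Finset.mem_univ, true_and]
  rw [h0, h2]

/-- In the group of the length-24 code, the joint stabiliser of two octads meeting in exactly two points is isomorphic to the symmetric group of degree 6. -/
theorem result (o o' : Finset Cfsg.GolayPt) (ho : o ∈ Cfsg.octads) (ho' : o' ∈ Cfsg.octads) (h₂ : (o ∩ o').card = 2) : Nonempty (↥(MulAction.stabilizer Cfsg.M24 o ⊓ MulAction.stabilizer Cfsg.M24 o') ≃* Equiv.Perm (Fin 6)) := by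
  obtain ⟨g, hg, rfl, rfl⟩ := (exists_pair_octads ho ho').2.2 h₂
  obtain ⟨e⟩ := base_iso
  exact ⟨(bridgeStab2 _ _).trans ((conjStab2 hg _ _).symm.trans e)⟩

end Cfsg.Agent.S5614
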