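import Cfsg.Statements.S5615
import Mathlib
import Cfsg.Agent.Lib.Helper9.M24List
import Cfsg.Agent.S5610
import Cfsg.Agent.S5614

set_option autoImplicit false
open scoped Pointwise
open Cfsg

namespace Cfsg.Agent.S5615

open Cfsg.Agent.Lib.Helper9
open Cfsg
open Cfsg.Agent.S5610 Cfsg.Agent.S5614
open scoped Pointwise

def Kc1 : Subgroup (Equiv.Perm GolayPt) :=
  Koct ⊓ MulAction.stabilizer (Equiv.Perm GolayPt) (obj [4038912, 4202192, 8536111])

theorem card_Kc1 : Nat.card Kc1 = 21504 := Cfsg.Agent.S5610.ct1.2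

theorem memKc1 (l : List ℕ) (hl : isM24L l = true) (h : (actM l 0 8536111 == 8536111 && sameSet ([4038912, 4202192, 8536111].map (actM l 0)) [4038912, 4202192, 8536111]) = true) :
    permL l ∈ Kc1 := by
  rw [Bool.and_eq_true] at h
  exact ⟨memKoct l hl h.1, stab_obj_of_sameSet (isPermL_of_isM24L hl) _ h.2⟩

def gensKc1 : List (List ℕ) :=
  [[3, 2, 5, 14, 13, 23, 20, 19, 12, 21, 15, 16, 18, 11, 17, 9, 4, 0, 22, 6, 7, 10, 8, 1],
   [1, 0, 2, 3, 11, 17, 12, 6, 8, 4, 9, 10, 22, 20, 23, 19, 16, 14, 21, 15, 18, 13, 7, 5],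
   [1, 23, 3, 5, 6, 0, 22, 7, 19, 10, 11, 9, 12, 15, 17, 21, 18, 14, 13, 8, 16, 20, 4, 2]]

theorem gensKc1_ok : gensKc1.all (fun l => isM24L l && (actM l 0 8536111 == 8536111 && sameSet ([4038912, 4202192, 8536111].map (actM l 0)) [4038912, 4202192, 8536111])) = true := by
  decide +kernel

def c2_X : ℕ := 0x82402f7898100527c082402f742a4009959082402f710d800cb25082402f6c071011b8c082402f6920d0149f0082402f659280182d5082402f60b5401d0a9082402f5d144020ab9082402f583380258c5082402f5481d0293e0082402f51a6102c19c082402f4cac8031135082402f498b4034349082402f4539103886c0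

def c2_P : ℕ := 0x2000701000100000c00000801000800000800000a01000a010007020009010004000001020008020006

def c2_D : ℕ := 0x302030101000202030203020103

def c2_levels : List (ℕ × List (List ℕ)) :=
  [(0, [[0, 1, 2, 3, 4, 5, 6, 7, 8, 9, 10, 11, 12, 13, 14, 15, 16, 17, 18, 19, 20, 21, 22, 23],
      [1, 23, 17, 0, 8, 14, 19, 16, 4, 18, 20, 13, 21, 11, 2, 12, 9, 5, 7, 6, 10, 22, 15, 3],
      [2, 1, 5, 17, 18, 0, 16, 8, 12, 19, 15, 21, 20, 7, 3, 11, 10, 14, 4, 9, 22, 6, 13, 23],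
      [3, 2, 1, 0, 7, 14, 9, 4, 15, 6, 12, 22, 10, 18, 5, 8, 19, 23, 13, 16, 21, 20, 11, 17],
      [5, 14, 23, 17, 6, 0, 4, 22, 19, 12, 11, 10, 9, 20, 1, 16, 15, 3, 21, 8, 13, 18, 7, 2],
      [14, 2, 17, 0, 6, 3, 10, 7, 13, 22, 11, 4, 12, 19, 5, 16, 15, 23, 18, 20, 8, 21, 9, 1],
      [17, 23, 1, 0, 21, 3, 18, 8, 22, 13, 16, 15, 20, 12, 2, 10, 11, 5, 4, 7, 9, 6, 19, 14],
      [23, 14, 5, 17, 22, 2, 7, 11, 21, 4, 9, 12, 6, 15, 1, 20, 13, 3, 8, 18, 16, 19, 10, 0]]),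
   (1, [[0, 1, 2, 3, 4, 5, 6, 7, 8, 9, 10, 11, 12, 13, 14, 15, 16, 17, 18, 19, 20, 21, 22, 23],
      [0, 3, 5, 17, 16, 23, 15, 20, 12, 8, 18, 21, 19, 9, 14, 6, 10, 1, 11, 22, 7, 4, 13, 2],
      [0, 14, 5, 1, 20, 23, 13, 21, 11, 16, 19, 8, 15, 10, 3, 22, 12, 17, 9, 4, 6, 7, 18, 2],
      [0, 17, 2, 14, 7, 5, 22, 6, 16, 10, 12, 9, 11, 18, 3, 13, 20, 1, 19, 15, 21, 8, 4, 23]]),
   (4, [[0, 1, 2, 3, 4, 5, 6, 7, 8, 9, 10, 11, 12, 13, 14, 15, 16, 17, 18, 19, 20, 21, 22, 23],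
      [0, 1, 2, 3, 6, 5, 4, 22, 20, 12, 11, 10, 9, 19, 14, 18, 21, 17, 15, 13, 8, 16, 7, 23],
      [0, 1, 5, 14, 7, 23, 12, 6, 21, 4, 9, 22, 10, 16, 17, 19, 20, 3, 8, 15, 18, 13, 11, 2],
      [0, 1, 5, 14, 8, 23, 19, 18, 11, 15, 13, 20, 16, 10, 17, 12, 22, 3, 7, 4, 6, 9, 21, 2],
      [0, 1, 2, 3, 9, 5, 12, 11, 21, 4, 22, 7, 6, 15, 14, 13, 20, 17, 19, 18, 16, 8, 10, 23],
      [0, 1, 2, 3, 10, 5, 11, 12, 19, 22, 4, 6, 7, 20, 14, 16, 15, 17, 21, 8, 13, 18, 9, 23],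
      [0, 1, 23, 17, 11, 2, 4, 7, 20, 12, 10, 6, 22, 13, 3, 16, 21, 14, 18, 8, 19, 15, 9, 5],
      [0, 1, 23, 17, 12, 2, 22, 6, 15, 11, 9, 7, 4, 16, 3, 13, 19, 14, 8, 18, 21, 20, 10, 5],
      [0, 1, 5, 14, 13, 23, 20, 16, 4, 21, 8, 19, 18, 6, 17, 22, 12, 3, 9, 11, 10, 7, 15, 2],
      [0, 1, 5, 14, 15, 23, 16, 20, 9, 8, 21, 18, 19, 12, 17, 10, 6, 3, 4, 7, 22, 11, 13, 2],
      [0, 1, 5, 14, 16, 23, 15, 13, 22, 19, 18, 21, 8, 7, 17, 4, 11, 3, 10, 12, 9, 6, 20, 2],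
      [0, 1, 23, 17, 18, 2, 16, 19, 9, 8, 15, 21, 13, 22, 3, 4, 6, 14, 11, 12, 7, 10, 20, 5],
      [0, 1, 5, 14, 19, 23, 8, 21, 6, 16, 20, 13, 15, 4, 17, 7, 9, 3, 12, 10, 11, 22, 18, 2],
      [0, 1, 5, 14, 20, 23, 13, 15, 10, 18, 19, 8, 21, 11, 17, 9, 7, 3, 22, 6, 4, 12, 16, 2],
      [0, 1, 5, 14, 21, 23, 18, 19, 7, 13, 15, 16, 20, 22, 17, 6, 10, 3, 11, 9, 12, 4, 8, 2],
      [0, 1, 2, 3, 22, 5, 7, 6, 18, 10, 9, 12, 11, 16, 14, 20, 13, 17, 8, 21, 15, 19, 4, 23]]),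
   (2, [[0, 1, 2, 3, 4, 5, 6, 7, 8, 9, 10, 11, 12, 13, 14, 15, 16, 17, 18, 19, 20, 21, 22, 23],
      [0, 1, 5, 14, 4, 23, 10, 22, 13, 7, 11, 6, 12, 19, 17, 16, 18, 3, 15, 8, 20, 21, 9, 2],
      [0, 1, 23, 17, 4, 2, 11, 9, 19, 22, 6, 10, 12, 8, 3, 18, 15, 14, 16, 13, 20, 21, 7, 5]])]

set_option maxHeartbeats 40000000 in
theorem c2 : (orbS Kc1 (obj [1584464, 6656640, 8536111])).ncard = 14 ∧
    Nat.card ↥(Kc1 ⊓ MulAction.stabilizer (Equiv.Perm GolayPt) (obj [1584464, 6656640, 8536111])) = 1536 := by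
  have h := orbK_exact Kc1 21504 card_Kc1 (fun l => actM l 0 8536111 == 8536111 && sameSet ([4038912, 4202192, 8536111].map (actM l 0)) [4038912, 4202192, 8536111]) memKc1
    gensKc1 gensKc1_ok 3 c2_X c2_P c2_D 14 8 [1584464, 6656640, 8536111] (by decide +kernel)
    (by decide +kernel) (by decide +kernel) c2_levels (by decide +kernel) (by decide +kernel)
  have e : chainProd c2_levels = 1536 := by decide +kernel
  rw [e] at h
  exact h

def Kc2 : Subgroup (Equiv.Perm GolayPt) :=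
  Kc1 ⊓ MulAction.stabilizer (Equiv.Perm GolayPt) (obj [1584464, 6656640, 8536111])

theorem card_Kc2 : Nat.card Kc2 = 1536 := c2.2

theorem memKc2 (l : List ℕ) (hl : isM24L l = true) (h : (actM l 0 8536111 == 8536111 && sameSet ([4038912, 4202192, 8536111].map (actM l 0)) [4038912, 4202192, 8536111] && sameSet ([1584464, 6656640, 8536111].map (actM l 0)) [1584464, 6656640, 8536111]) = true) :
    permL l ∈ Kc2 := by
  rw [Bool.and_eq_true] at h
  exact ⟨memKc1 l hl h.1, stab_obj_of_sameSet (isPermL_of_isM24L hl) _ h.2⟩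

def gensKc2 : List (List ℕ) :=
  [[1, 23, 14, 2, 22, 3, 7, 6, 16, 11, 12, 9, 10, 15, 5, 19, 20, 0, 13, 18, 21, 8, 4, 17],
   [3, 23, 14, 0, 20, 17, 13, 18, 10, 16, 8, 19, 15, 6, 2, 12, 9, 5, 7, 11, 4, 22, 21, 1],
   [1, 5, 3, 23, 6, 17, 10, 12, 20, 9, 11, 4, 7, 8, 2, 16, 15, 0, 18, 13, 19, 21, 22, 14]]

theorem gensKc2_ok : gensKc2.all (fun l => isM24L l && (actM l 0 8536111 == 8536111 && sameSet ([4038912, 4202192, 8536111].map (actM l 0)) [4038912, 4202192, 8536111] && sameSet ([1584464, 6656640, 8536111].map (actM l 0)) [1584464, 6656640, 8536111])) = true := by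
  decide +kernel

def c3_X : ℕ := 0x82402f7898100527c082402f742a4009959082402f710d800cb25082402f6c071011b8c082402f6920d0149f0082402f60b5401d0a9082402f5d144020ab9082402f5481d0293e0082402f51a6102c19c082402f4cac8031135082402f498b4034349082402f4539103886c0

def c3_P : ℕ := 0x2000902000800000901000902000b02000700000a020000010002000009020003020002

def c3_D : ℕ := 0x10200010203030302010302

def c3_levels : List (ℕ × List (List ℕ)) :=
  [(0, [[0, 1, 2, 3, 4, 5, 6, 7, 8, 9, 10, 11, 12, 13, 14, 15, 16, 17, 18, 19, 20, 21, 22, 23],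
      [1, 0, 14, 5, 4, 3, 6, 22, 8, 9, 11, 10, 12, 19, 2, 18, 16, 23, 15, 13, 20, 21, 7, 17],
      [2, 14, 0, 17, 20, 23, 8, 15, 6, 21, 13, 19, 16, 10, 1, 7, 12, 3, 22, 11, 4, 9, 18, 5],
      [3, 5, 17, 0, 12, 1, 9, 10, 21, 4, 22, 7, 6, 18, 23, 13, 8, 2, 19, 15, 16, 20, 11, 14],
      [5, 3, 23, 1, 12, 0, 9, 11, 21, 4, 7, 22, 6, 15, 17, 19, 8, 14, 13, 18, 16, 20, 10, 2],
      [14, 2, 1, 23, 20, 17, 8, 18, 6, 21, 19, 13, 16, 11, 0, 22, 12, 5, 7, 10, 4, 9, 15, 3],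
      [17, 23, 3, 2, 16, 14, 21, 13, 9, 20, 18, 15, 8, 22, 5, 10, 6, 0, 11, 7, 12, 4, 19, 1],
      [23, 17, 5, 14, 16, 2, 21, 19, 9, 20, 15, 18, 8, 7, 3, 11, 6, 1, 10, 22, 12, 4, 13, 0]]),
   (4, [[0, 1, 2, 3, 4, 5, 6, 7, 8, 9, 10, 11, 12, 13, 14, 15, 16, 17, 18, 19, 20, 21, 22, 23],
      [0, 1, 2, 3, 6, 5, 4, 22, 20, 12, 11, 10, 9, 19, 14, 18, 21, 17, 15, 13, 8, 16, 7, 23],
      [0, 1, 2, 3, 7, 5, 22, 4, 15, 11, 12, 9, 10, 21, 14, 8, 19, 17, 20, 16, 18, 13, 6, 23],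
      [0, 1, 2, 3, 8, 5, 20, 15, 4, 21, 19, 13, 16, 11, 14, 7, 12, 17, 22, 10, 6, 9, 18, 23],
      [0, 1, 2, 3, 9, 5, 12, 11, 21, 4, 22, 7, 6, 15, 14, 13, 20, 17, 19, 18, 16, 8, 10, 23],
      [0, 1, 2, 3, 10, 5, 11, 12, 19, 22, 4, 6, 7, 20, 14, 16, 15, 17, 21, 8, 13, 18, 9, 23],
      [0, 1, 2, 3, 11, 5, 10, 9, 13, 7, 6, 4, 22, 8, 14, 21, 18, 17, 16, 20, 19, 15, 12, 23],
      [0, 1, 2, 3, 12, 5, 9, 10, 16, 6, 7, 22, 4, 18, 14, 19, 8, 17, 13, 15, 21, 20, 11, 23],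
      [0, 1, 2, 3, 13, 5, 19, 21, 11, 15, 20, 8, 18, 4, 14, 9, 22, 17, 12, 6, 10, 7, 16, 23],
      [0, 1, 2, 3, 15, 5, 18, 8, 7, 13, 16, 21, 19, 9, 14, 4, 10, 17, 6, 12, 22, 11, 20, 23],
      [0, 1, 2, 3, 16, 5, 21, 19, 12, 20, 15, 18, 8, 22, 14, 10, 4, 17, 11, 7, 9, 6, 13, 23],
      [0, 1, 2, 3, 18, 5, 15, 20, 22, 19, 21, 16, 13, 12, 14, 6, 11, 17, 4, 9, 7, 10, 8, 23],
      [0, 1, 2, 3, 19, 5, 13, 16, 10, 18, 8, 20, 15, 6, 14, 12, 7, 17, 9, 4, 11, 22, 21, 23],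
      [0, 1, 2, 3, 20, 5, 8, 18, 6, 16, 13, 19, 21, 10, 14, 22, 9, 17, 7, 11, 4, 12, 15, 23],
      [0, 1, 2, 3, 21, 5, 16, 13, 9, 8, 18, 15, 20, 7, 14, 11, 6, 17, 10, 22, 12, 4, 19, 23],
      [0, 1, 2, 3, 22, 5, 7, 6, 18, 10, 9, 12, 11, 16, 14, 20, 13, 17, 8, 21, 15, 19, 4, 23]])]

set_option maxHeartbeats 40000000 in
theorem c3 : (orbS Kc2 (obj [832080, 7409024, 8536111])).ncard = 12 ∧
    Nat.card ↥(Kc2 ⊓ MulAction.stabilizer (Equiv.Perm GolayPt) (obj [832080, 7409024, 8536111])) = 128 := by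
  have h := orbK_exact Kc2 1536 card_Kc2 (fun l => actM l 0 8536111 == 8536111 && sameSet ([4038912, 4202192, 8536111].map (actM l 0)) [4038912, 4202192, 8536111] && sameSet ([1584464, 6656640, 8536111].map (actM l 0)) [1584464, 6656640, 8536111]) memKc2
    gensKc2 gensKc2_ok 3 c3_X c3_P c3_D 12 9 [832080, 7409024, 8536111] (by decide +kernel)
    (by decide +kernel) (by decide +kernel) c3_levels (by decide +kernel) (by decide +kernel)
  have e : chainProd c3_levels = 128 := by decide +kernel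
  rw [e] at h
  exact h

def Kc3 : Subgroup (Equiv.Perm GolayPt) :=
  Kc2 ⊓ MulAction.stabilizer (Equiv.Perm GolayPt) (obj [832080, 7409024, 8536111])

theorem card_Kc3 : Nat.card Kc3 = 128 := c3.2

theorem memKc3 (l : List ℕ) (hl : isM24L l = true) (h : (actM l 0 8536111 == 8536111 && sameSet ([4038912, 4202192, 8536111].map (actM l 0)) [4038912, 4202192, 8536111] && sameSet ([1584464, 6656640, 8536111].map (actM l 0)) [1584464, 6656640, 8536111] && sameSet ([832080, 7409024, 8536111].map (actM l 0)) [832080, 7409024, 8536111]) = true) :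
    permL l ∈ Kc3 := by
  rw [Bool.and_eq_true] at h
  exact ⟨memKc2 l hl h.1, stab_obj_of_sameSet (isPermL_of_isM24L hl) _ h.2⟩

def gensKc3 : List (List ℕ) :=
  [[23, 17, 5, 14, 13, 2, 19, 21, 10, 15, 20, 8, 18, 6, 3, 12, 7, 1, 9, 4, 11, 22, 16, 0],
   [1, 0, 14, 5, 8, 3, 20, 18, 4, 21, 13, 19, 16, 10, 2, 22, 12, 23, 7, 11, 6, 9, 15, 17],
   [0, 1, 2, 3, 11, 5, 10, 9, 13, 7, 6, 4, 22, 8, 14, 21, 18, 17, 16, 20, 19, 15, 12, 23],
   [5, 3, 23, 1, 15, 0, 18, 20, 22, 19, 16, 21, 13, 12, 17, 4, 10, 14, 6, 9, 7, 11, 8, 2],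
   [17, 23, 3, 2, 13, 14, 19, 16, 10, 15, 8, 20, 18, 4, 5, 9, 7, 0, 12, 6, 11, 22, 21, 1],
   [1, 0, 14, 5, 16, 3, 21, 13, 12, 20, 18, 15, 8, 7, 2, 11, 4, 23, 10, 22, 9, 6, 19, 17]]

theorem gensKc3_ok : gensKc3.all (fun l => isM24L l && (actM l 0 8536111 == 8536111 && sameSet ([4038912, 4202192, 8536111].map (actM l 0)) [4038912, 4202192, 8536111] && sameSet ([1584464, 6656640, 8536111].map (actM l 0)) [1584464, 6656640, 8536111] && sameSet ([832080, 7409024, 8536111].map (actM l 0)) [832080, 7409024, 8536111])) = true := by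
  decide +kernel

def c4_X : ℕ := 0x82402f7898100527c082402f742a4009959082402f6c071011b8c082402f60b5401d0a9082402f5d144020ab9082402f51a6102c19c082402f498b4034349082402f4539103886c0

def c4_P : ℕ := 0x30003030002040004000004000004010004040000030004

def c4_D : ℕ := 0x202010001010201

def c4_levels : List (ℕ × List (List ℕ)) :=
  [(4, [[0, 1, 2, 3, 4, 5, 6, 7, 8, 9, 10, 11, 12, 13, 14, 15, 16, 17, 18, 19, 20, 21, 22, 23],
      [0, 1, 2, 3, 6, 5, 4, 22, 20, 12, 11, 10, 9, 19, 14, 18, 21, 17, 15, 13, 8, 16, 7, 23],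
      [0, 1, 2, 3, 7, 5, 22, 4, 15, 11, 12, 9, 10, 21, 14, 8, 19, 17, 20, 16, 18, 13, 6, 23],
      [0, 1, 2, 3, 8, 5, 20, 15, 4, 21, 19, 13, 16, 11, 14, 7, 12, 17, 22, 10, 6, 9, 18, 23],
      [0, 1, 2, 3, 9, 5, 12, 11, 21, 4, 22, 7, 6, 15, 14, 13, 20, 17, 19, 18, 16, 8, 10, 23],
      [0, 1, 2, 3, 10, 5, 11, 12, 19, 22, 4, 6, 7, 20, 14, 16, 15, 17, 21, 8, 13, 18, 9, 23],
      [0, 1, 2, 3, 11, 5, 10, 9, 13, 7, 6, 4, 22, 8, 14, 21, 18, 17, 16, 20, 19, 15, 12, 23],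
      [0, 1, 2, 3, 12, 5, 9, 10, 16, 6, 7, 22, 4, 18, 14, 19, 8, 17, 13, 15, 21, 20, 11, 23],
      [0, 1, 2, 3, 13, 5, 19, 21, 11, 15, 20, 8, 18, 4, 14, 9, 22, 17, 12, 6, 10, 7, 16, 23],
      [0, 1, 2, 3, 15, 5, 18, 8, 7, 13, 16, 21, 19, 9, 14, 4, 10, 17, 6, 12, 22, 11, 20, 23],
      [0, 1, 2, 3, 16, 5, 21, 19, 12, 20, 15, 18, 8, 22, 14, 10, 4, 17, 11, 7, 9, 6, 13, 23],
      [0, 1, 2, 3, 18, 5, 15, 20, 22, 19, 21, 16, 13, 12, 14, 6, 11, 17, 4, 9, 7, 10, 8, 23],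
      [0, 1, 2, 3, 19, 5, 13, 16, 10, 18, 8, 20, 15, 6, 14, 12, 7, 17, 9, 4, 11, 22, 21, 23],
      [0, 1, 2, 3, 20, 5, 8, 18, 6, 16, 13, 19, 21, 10, 14, 22, 9, 17, 7, 11, 4, 12, 15, 23],
      [0, 1, 2, 3, 21, 5, 16, 13, 9, 8, 18, 15, 20, 7, 14, 11, 6, 17, 10, 22, 12, 4, 19, 23],
      [0, 1, 2, 3, 22, 5, 7, 6, 18, 10, 9, 12, 11, 16, 14, 20, 13, 17, 8, 21, 15, 19, 4, 23]])]

set_option maxHeartbeats 40000000 in
theorem c4 : (orbS Kc3 (obj [1903248, 6337856, 8536111])).ncard = 8 ∧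
    Nat.card ↥(Kc3 ⊓ MulAction.stabilizer (Equiv.Perm GolayPt) (obj [1903248, 6337856, 8536111])) = 16 := by
  have h := orbK_exact Kc3 128 card_Kc3 (fun l => actM l 0 8536111 == 8536111 && sameSet ([4038912, 4202192, 8536111].map (actM l 0)) [4038912, 4202192, 8536111] && sameSet ([1584464, 6656640, 8536111].map (actM l 0)) [1584464, 6656640, 8536111] && sameSet ([832080, 7409024, 8536111].map (actM l 0)) [832080, 7409024, 8536111]) memKc3
    gensKc3 gensKc3_ok 3 c4_X c4_P c4_D 8 4 [1903248, 6337856, 8536111] (by decide +kernel)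
    (by decide +kernel) (by decide +kernel) c4_levels (by decide +kernel) (by decide +kernel)
  have e : chainProd c4_levels = 16 := by decide +kernel
  rw [e] at h
  exact h

theorem o0_mem_orb {R : List ℕ} (hb : ∀ a ∈ R, a < 2 ^ 24) {T : Finset (Finset GolayPt)}
    (h : T ∈ orbS Koct (obj R)) : mset 8536111 ∈ T ↔ 8536111 ∈ R := by
  obtain ⟨k, hk, rfl⟩ := h
  have hk2 : k • mset 8536111 = mset 8536111 := hk.2
  rw [mem_smul_of_fixed hk2, mset_mem_obj_iff hb (by norm_num)]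

theorem trio_cover {T : Finset (Finset GolayPt)} (hT : T ∈ trios) :
    T ∈ orbS Koct (obj [4038912, 4202192, 8536111]) ∨ T ∈ orbS Koct (obj [4038912, 4346506, 8391797]) ∨ T ∈ orbS Koct (obj [3739786, 4645632, 8391797]) := by
  have h := cover_of_orbits Koct trios trios_finite
    (fun g hg s hs => smul_mem_trios hg.1 hs)
    [obj [4038912, 4202192, 8536111], obj [4038912, 4346506, 8391797], obj [3739786, 4645632, 8391797]]
    (by
      intro x hx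
      simp only [List.mem_cons, List.not_mem_nil, or_false] at hx
      rcases hx with rfl | rfl | rfl <;> exact obj_mem_trios (by decide +kernel))
    (by simp only [List.map_cons, List.map_nil]; rw [ct1.1, ct2.1, ct3.1]; decide)
    (by
      simp only [List.map_cons, List.map_nil, List.sum_cons, List.sum_nil]
      rw [ct1.1, ct2.1, ct3.1, ncard_trios]; omega) T hT
  obtain ⟨x, hx, hmem⟩ := h
  simp only [List.mem_cons, List.not_mem_nil, or_false] at hx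
  rcases hx with rfl | rfl | rfl
  · exact Or.inl hmem
  · exact Or.inr (Or.inl hmem)
  · exact Or.inr (Or.inr hmem)

theorem base_set : {T : Finset (Finset GolayPt) | T ∈ trios ∧ mset 8536111 ∈ T} =
    orbS Koct (obj [4038912, 4202192, 8536111]) := by
  ext T
  constructor
  · rintro ⟨hT, ho⟩
    rcases trio_cover hT with h | h | h
    · exact h
    · exact absurd ((o0_mem_orb (by decide) h).mp ho) (by decide)
    · exact absurd ((o0_mem_orb (by decide) h).mp ho) (by decide)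
  · intro h
    refine ⟨?_, (o0_mem_orb (by decide) h).mpr (by decide)⟩
    obtain ⟨k, hk, rfl⟩ := h
    exact smul_mem_trios hk.1 (obj_mem_trios (by decide +kernel))

theorem snd_set {T : Finset (Finset GolayPt)} (hT : T ∈ trios) (ho : mset 8536111 ∈ T)
    (hne : T ≠ obj [4038912, 4202192, 8536111]) : T ∈ orbS Kc1 (obj [1584464, 6656640, 8536111]) := by
  have hA : ({T : Finset (Finset GolayPt) | T ∈ trios ∧ mset 8536111 ∈ T}).ncard = 15 := by
    rw [base_set]; exact ct1.1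
  have hfin : ({T : Finset (Finset GolayPt) | T ∈ trios ∧ mset 8536111 ∈ T}).Finite :=
    trios_finite.subset (fun T h => h.1)
  have hT1 : obj [4038912, 4202192, 8536111] ∈ {T : Finset (Finset GolayPt) | T ∈ trios ∧ mset 8536111 ∈ T} :=
    ⟨obj_mem_trios (by decide +kernel), (mset_mem_obj_iff (by decide) (by norm_num)).mpr (by decide)⟩
  have hsub : orbS Kc1 (obj [1584464, 6656640, 8536111]) ⊆
      {T : Finset (Finset GolayPt) | T ∈ trios ∧ mset 8536111 ∈ T} \ {obj [4038912, 4202192, 8536111]} := by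
    rintro _ ⟨k, hk, rfl⟩
    have hk1 : k • mset 8536111 = mset 8536111 := hk.1.2
    have hk2 : k • obj [4038912, 4202192, 8536111] = obj [4038912, 4202192, 8536111] := hk.2
    refine ⟨⟨smul_mem_trios hk.1.1 (obj_mem_trios (by decide +kernel)), ?_⟩, ?_⟩
    · show mset 8536111 ∈ k • obj [1584464, 6656640, 8536111]
      rw [mem_smul_of_fixed hk1, mset_mem_obj_iff (by decide) (by norm_num)]; decide
    · intro e
      rw [Set.mem_singleton_iff] at e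
      rw [← hk2] at e
      have e2 := smul_left_cancel k e
      have e3 := obj_inj (by decide) (by decide) (by decide) (by decide) e2
      revert e3; decide
  have heq := Set.eq_of_subset_of_ncard_le hsub
    (by rw [Set.ncard_diff_singleton_of_mem hT1, hA, c2.1]) hfin.diff
  have hmem : T ∈ {T : Finset (Finset GolayPt) | T ∈ trios ∧ mset 8536111 ∈ T} \ {obj [4038912, 4202192, 8536111]} :=
    ⟨⟨hT, ho⟩, hne⟩
  rw [← heq] at hmem
  exact hmem

theorem base_two {T₁ T₂ : Finset (Finset GolayPt)} (h1 : T₁ ∈ trios) (h2 : T₂ ∈ trios)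
    (o1 : mset 8536111 ∈ T₁) (o2 : mset 8536111 ∈ T₂) (hne : T₁ ≠ T₂) :
    ∃ k ∈ Koct, k • T₁ = obj [4038912, 4202192, 8536111] ∧ k • T₂ = obj [1584464, 6656640, 8536111] := by
  have hm : T₁ ∈ orbS Koct (obj [4038912, 4202192, 8536111]) := by rw [← base_set]; exact ⟨h1, o1⟩
  obtain ⟨a, ha, rfl⟩ := hm
  have h2' : a⁻¹ • T₂ ∈ trios := smul_mem_trios (M24.inv_mem ha.1) h2
  have o2' : mset 8536111 ∈ a⁻¹ • T₂ := by
    have : a⁻¹ • mset 8536111 = mset 8536111 := (Koct.inv_mem ha).2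
    rw [mem_smul_of_fixed this]; exact o2
  have hne' : a⁻¹ • T₂ ≠ obj [4038912, 4202192, 8536111] := by
    intro e
    apply hne
    rw [← e, smul_inv_smul]
  obtain ⟨b, hb, hb'⟩ := snd_set h2' o2' hne'
  have hb1 : b • obj [4038912, 4202192, 8536111] = obj [4038912, 4202192, 8536111] := hb.2
  refine ⟨b⁻¹ * a⁻¹, Koct.mul_mem (Koct.inv_mem hb.1) (Koct.inv_mem ha), ?_, ?_⟩
  · rw [mul_smul, inv_smul_smul, inv_smul_eq_iff, hb1]
  · rw [mul_smul, ← hb', inv_smul_smul]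

theorem E_chk : fixE16.all (fun l => isM24L l && (actM l 0 8536111 == 8536111 && sameSet ([4038912, 4202192, 8536111].map (actM l 0)) [4038912, 4202192, 8536111] && sameSet ([1584464, 6656640, 8536111].map (actM l 0)) [1584464, 6656640, 8536111] && sameSet ([832080, 7409024, 8536111].map (actM l 0)) [832080, 7409024, 8536111]) &&
    sameSet ([1903248, 6337856, 8536111].map (actM l 0)) [1903248, 6337856, 8536111]) = true := by decide +kernel

theorem E_mem_K4 : ∀ l ∈ fixE16, isPermL l = true ∧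
    permL l ∈ Kc3 ⊓ MulAction.stabilizer (Equiv.Perm GolayPt) (obj [1903248, 6337856, 8536111]) := by
  intro l hl
  have h := E_chk
  rw [List.all_eq_true] at h
  have h' := h l hl
  rw [Bool.and_eq_true, Bool.and_eq_true] at h'
  exact ⟨isPermL_of_isM24L h'.1.1, memKc3 l h'.1.1 h'.1.2,
    stab_obj_of_sameSet (isPermL_of_isM24L h'.1.1) _ h'.2⟩

theorem K4_list : ∀ g ∈ Kc3 ⊓ MulAction.stabilizer (Equiv.Perm GolayPt) (obj [1903248, 6337856, 8536111]),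
    ∃ l ∈ fixE16, g = permL l :=
  subgroup_eq_list _ fixE16 16 c4.2 E_mem_K4 (by decide) (by decide)

theorem E_fix : ∀ l ∈ fixE16, ∀ i : Fin 24, (8536111 : ℕ).testBit i.val = true →
    l.getD i.val 0 = i.val := by decide

theorem mem_A {R : List ℕ} (h1 : isTrioL R = true) (hb : ∀ a ∈ R, a < 2 ^ 24) (h2 : 8536111 ∈ R) :
    obj R ∈ trios ∧ mset 8536111 ∈ obj R :=
  ⟨obj_mem_trios h1, (mset_mem_obj_iff hb (by norm_num)).mpr h2⟩

theorem base_ker (g : Equiv.Perm GolayPt) (hg : g ∈ M24) (hgo : g • mset 8536111 = mset 8536111) :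
    (∀ T ∈ trios, mset 8536111 ∈ T → g • T = T) ↔ ∀ p ∈ mset 8536111, g p = p := by
  constructor
  · intro hT
    have m1 := mem_A (R := [4038912, 4202192, 8536111]) (by decide +kernel) (by decide) (by decide)
    have m2 := mem_A (R := [1584464, 6656640, 8536111]) (by decide +kernel) (by decide) (by decide)
    have m3 := mem_A (R := [832080, 7409024, 8536111]) (by decide +kernel) (by decide) (by decide)
    have m4 := mem_A (R := [1903248, 6337856, 8536111]) (by decide +kernel) (by decide) (by decide)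
    have hmem : g ∈ Kc3 ⊓ MulAction.stabilizer (Equiv.Perm GolayPt) (obj [1903248, 6337856, 8536111]) :=
      ⟨⟨⟨⟨⟨hg, hgo⟩, hT _ m1.1 m1.2⟩, hT _ m2.1 m2.2⟩, hT _ m3.1 m3.2⟩, hT _ m4.1 m4.2⟩
    obtain ⟨l, hl, rfl⟩ := K4_list g hmem
    exact permL_fix_of_list (E_mem_K4 l hl).1 _ (E_fix l hl)
  · intro hp T hT ho
    have hm : T ∈ orbS Koct (obj [4038912, 4202192, 8536111]) := by rw [← base_set]; exact ⟨hT, ho⟩
    obtain ⟨k, hk, rfl⟩ := hm
    have hk2 : k • mset 8536111 = mset 8536111 := hk.2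
    have hfix : ∀ p ∈ mset 8536078, (k⁻¹ * g * k) p = p := by
      intro p hp'
      have hp0 : p ∈ mset 8536111 := mset_subset_of_and (by decide) hp'
      have hkp : k p ∈ mset 8536111 := by
        rw [← hk2]
        exact Finset.smul_mem_smul_finset hp0
      simp only [Equiv.Perm.coe_mul, Function.comp_apply]
      rw [hp _ hkp]
      simp
    obtain ⟨l, hl, he⟩ := fixE_eq (k⁻¹ * g * k)
      (M24.mul_mem (M24.mul_mem (M24.inv_mem hk.1) hg) hk.1) hfix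
    have hl1 : permL l • obj [4038912, 4202192, 8536111] = obj [4038912, 4202192, 8536111] := (E_mem_K4 l hl).2.1.1.1.2
    rw [← he, mul_smul, mul_smul] at hl1
    have := congrArg (fun S => k • S) hl1
    simp only [smul_inv_smul] at this
    exact this

theorem base_result : ({T : Finset (Finset GolayPt) | T ∈ trios ∧ mset 8536111 ∈ T}).ncard = 15 ∧
    (∀ T₁ T₂ T₁' T₂' : Finset (Finset GolayPt), T₁ ∈ trios → T₂ ∈ trios → T₁' ∈ trios →
      T₂' ∈ trios → mset 8536111 ∈ T₁ → mset 8536111 ∈ T₂ → mset 8536111 ∈ T₁' →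
      mset 8536111 ∈ T₂' → T₁ ≠ T₂ → T₁' ≠ T₂' →
      ∃ g ∈ M24, g • mset 8536111 = mset 8536111 ∧ g • T₁ = T₁' ∧ g • T₂ = T₂') ∧
    ∀ g ∈ M24, g • mset 8536111 = mset 8536111 →
      ((∀ T ∈ trios, mset 8536111 ∈ T → g • T = T) ↔ ∀ p ∈ mset 8536111, g p = p) := by
  refine ⟨by rw [base_set]; exact ct1.1, ?_, base_ker⟩
  intro T₁ T₂ T₁' T₂' t1 t2 t1' t2' o1 o2 o1' o2' ne ne'
  obtain ⟨k, hk, k1, k2⟩ := base_two t1 t2 o1 o2 ne
  obtain ⟨k', hk', k1', k2'⟩ := base_two t1' t2' o1' o2' ne'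
  refine ⟨k'⁻¹ * k, M24.mul_mem (M24.inv_mem hk'.1) hk.1, ?_, ?_, ?_⟩
  · have h1 : k • mset 8536111 = mset 8536111 := hk.2
    have h2 : k' • mset 8536111 = mset 8536111 := hk'.2
    rw [mul_smul, h1, inv_smul_eq_iff, h2]
  · rw [mul_smul, k1, inv_smul_eq_iff, k1']
  · rw [mul_smul, k2, inv_smul_eq_iff, k2']

theorem transport (a : Equiv.Perm GolayPt) (ha : a ∈ M24) (o : Finset GolayPt)
    (h : ({T : Finset (Finset GolayPt) | T ∈ trios ∧ o ∈ T}).ncard = 15 ∧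
    (∀ T₁ T₂ T₁' T₂' : Finset (Finset GolayPt), T₁ ∈ trios → T₂ ∈ trios → T₁' ∈ trios →
      T₂' ∈ trios → o ∈ T₁ → o ∈ T₂ → o ∈ T₁' → o ∈ T₂' → T₁ ≠ T₂ → T₁' ≠ T₂' →
      ∃ g ∈ M24, g • o = o ∧ g • T₁ = T₁' ∧ g • T₂ = T₂') ∧
    ∀ g ∈ M24, g • o = o → ((∀ T ∈ trios, o ∈ T → g • T = T) ↔ ∀ p ∈ o, g p = p)) :
    ({T : Finset (Finset GolayPt) | T ∈ trios ∧ a • o ∈ T}).ncard = 15 ∧
    (∀ T₁ T₂ T₁' T₂' : Finset (Finset GolayPt), T₁ ∈ trios → T₂ ∈ trios → T₁' ∈ trios →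
      T₂' ∈ trios → a • o ∈ T₁ → a • o ∈ T₂ → a • o ∈ T₁' → a • o ∈ T₂' → T₁ ≠ T₂ → T₁' ≠ T₂' →
      ∃ g ∈ M24, g • a • o = a • o ∧ g • T₁ = T₁' ∧ g • T₂ = T₂') ∧
    ∀ g ∈ M24, g • a • o = a • o →
      ((∀ T ∈ trios, a • o ∈ T → g • T = T) ↔ ∀ p ∈ a • o, g p = p) := by
  obtain ⟨h1, h2, h3⟩ := h
  have key : ∀ T : Finset (Finset GolayPt), a • o ∈ T ↔ o ∈ a⁻¹ • T := by
    intro T
    rw [← Finset.smul_mem_smul_finset_iff a⁻¹, inv_smul_smul]
  have hai := M24.inv_mem ha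
  refine ⟨?_, ?_, ?_⟩
  · have e : {T : Finset (Finset GolayPt) | T ∈ trios ∧ a • o ∈ T} =
        (fun T => a • T) '' {T : Finset (Finset GolayPt) | T ∈ trios ∧ o ∈ T} := by
      ext T
      constructor
      · rintro ⟨hT, ho⟩
        exact ⟨a⁻¹ • T, ⟨smul_mem_trios hai hT, (key T).mp ho⟩, smul_inv_smul a T⟩
      · rintro ⟨T', ⟨hT', ho'⟩, rfl⟩
        exact ⟨smul_mem_trios ha hT', (Finset.smul_mem_smul_finset_iff a).mpr ho'⟩
    rw [e, Set.ncard_image_of_injective _ (MulAction.injective a), h1]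
  · intro T₁ T₂ T₁' T₂' t1 t2 t1' t2' o1 o2 o1' o2' ne ne'
    obtain ⟨g, hg, go, g1, g2⟩ := h2 (a⁻¹ • T₁) (a⁻¹ • T₂) (a⁻¹ • T₁') (a⁻¹ • T₂')
      (smul_mem_trios hai t1) (smul_mem_trios hai t2) (smul_mem_trios hai t1')
      (smul_mem_trios hai t2') ((key _).mp o1) ((key _).mp o2) ((key _).mp o1') ((key _).mp o2')
      (fun e => ne (smul_left_cancel _ e)) (fun e => ne' (smul_left_cancel _ e))
    refine ⟨a * g * a⁻¹, M24.mul_mem (M24.mul_mem ha hg) hai, ?_, ?_, ?_⟩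
    · rw [mul_smul, mul_smul, inv_smul_smul, go]
    · rw [mul_smul, mul_smul, g1, smul_inv_smul]
    · rw [mul_smul, mul_smul, g2, smul_inv_smul]
  · intro g hg hgo
    have hg' : a⁻¹ * g * a ∈ M24 := M24.mul_mem (M24.mul_mem hai hg) ha
    have hgo' : (a⁻¹ * g * a) • o = o := by rw [mul_smul, mul_smul, hgo, inv_smul_smul]
    have h3' := h3 _ hg' hgo'
    constructor
    · intro hT q hq
      obtain ⟨p, hp, rfl⟩ := Finset.mem_smul_finset.mp hq
      have hp' := h3'.mp (by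
        intro T' hT' ho'
        have := hT (a • T') (smul_mem_trios ha hT') ((Finset.smul_mem_smul_finset_iff a).mpr ho')
        rw [mul_smul, mul_smul, this, inv_smul_smul]) p hp
      simp only [Equiv.Perm.coe_mul, Function.comp_apply] at hp'
      have := congrArg a hp'
      simpa using this
    · intro hq T hT ho
      have hp : ∀ p ∈ o, (a⁻¹ * g * a) p = p := by
        intro p hp
        have := hq (a p) (Finset.smul_mem_smul_finset hp)
        simp only [Equiv.Perm.coe_mul, Function.comp_apply]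
        rw [this]
        simp
      have := h3'.mpr hp (a⁻¹ • T) (smul_mem_trios hai hT) ((key T).mp ho)
      rw [mul_smul, mul_smul, smul_inv_smul] at this
      exact smul_left_cancel a⁻¹ this

/-- An octad of the length-24 code lies in exactly 15 trios; the stabiliser of the octad in the code's group acts doubly transitively on these 15 trios, and the kernel of this action is the pointwise stabiliser of the octad. -/
theorem result (o : Finset Cfsg.GolayPt) (ho : o ∈ Cfsg.octads) : {T : Finset (Finset Cfsg.GolayPt) | T ∈ Cfsg.trios ∧ o ∈ T}.ncard = 15 ∧ (∀ T₁ T₂ T₁' T₂' : Finset (Finset Cfsg.GolayPt), T₁ ∈ Cfsg.trios → T₂ ∈ Cfsg.trios → T₁' ∈ Cfsg.trios → T₂' ∈ Cfsg.trios → o ∈ T₁ → o ∈ T₂ → o ∈ T₁' → o ∈ T₂' → T₁ ≠ T₂ → T₁' ≠ T₂' → ∃ g ∈ Cfsg.M24, g • o = o ∧ g • T₁ = T₁' ∧ g • T₂ = T₂') ∧ ∀ g ∈ Cfsg.M24, g • o = o → ((∀ T ∈ Cfsg.trios, o ∈ T → g • T = T) ↔ ∀ p ∈ o, g p = p) := by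
  obtain ⟨a, ha, rfl⟩ := exists_smul_eq_octad ho
  exact transport a ha _ base_result

end Cfsg.Agent.S5615
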