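import Cfsg.Statements.S5619
import Mathlib
import Cfsg.Agent.Lib.Helper9.M24Dod
import Cfsg.Agent.Lib.Helper9.M24Syl
import Cfsg.Agent.Lib.Helper9.M24List
import Cfsg.Agent.Lib.Helper9.M24Orb2

set_option autoImplicit false
open scoped Pointwise
open Cfsg

namespace Cfsg.Agent.S5619

open Cfsg.Agent.Lib.Helper9
open Cfsg
open scoped Pointwise

def s1_X : ℕ := 0x800000020000004000002000001000000800000400000100000080000008000004000002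

def s1_P : ℕ := 0x10008020005000006020004020003000004020000000000000005000008010005000000

def s1_D : ℕ := 0x30203020302010102030200

def s1_levels : List (ℕ × List (List ℕ)) :=
  [(0, [[0, 1, 2, 3, 4, 5, 6, 7, 8, 9, 10, 11, 12, 13, 14, 15, 16, 17, 18, 19, 20, 21, 22, 23],
      [4, 1, 3, 7, 21, 0, 9, 17, 11, 6, 23, 8, 13, 14, 12, 15, 22, 10, 5, 16, 18, 20, 19, 2],
      [5, 1, 3, 17, 16, 0, 9, 7, 11, 6, 10, 13, 8, 12, 14, 20, 22, 23, 4, 21, 19, 15, 18, 2],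
      [6, 1, 14, 7, 18, 16, 15, 17, 10, 4, 8, 12, 23, 11, 13, 0, 5, 3, 22, 9, 20, 19, 21, 2],
      [9, 1, 13, 17, 0, 16, 15, 7, 3, 20, 8, 12, 2, 11, 14, 18, 5, 10, 19, 6, 4, 22, 21, 23],
      [15, 1, 12, 17, 16, 0, 22, 7, 13, 18, 2, 11, 23, 3, 14, 21, 9, 8, 4, 20, 19, 5, 6, 10],
      [16, 1, 8, 11, 19, 22, 21, 7, 10, 5, 23, 12, 13, 3, 14, 9, 0, 17, 20, 4, 6, 18, 15, 2],
      [18, 1, 12, 17, 4, 20, 6, 13, 8, 15, 14, 11, 2, 7, 10, 9, 19, 3, 0, 16, 5, 21, 22, 23],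
      [19, 1, 13, 10, 6, 0, 4, 7, 23, 16, 17, 3, 12, 8, 14, 21, 22, 11, 9, 20, 5, 15, 18, 2],
      [20, 1, 14, 7, 21, 0, 22, 17, 8, 19, 2, 11, 10, 3, 12, 16, 9, 13, 5, 15, 18, 4, 6, 23],
      [21, 1, 14, 7, 20, 0, 9, 17, 23, 19, 10, 13, 2, 12, 3, 16, 22, 11, 15, 5, 6, 4, 18, 8],
      [22, 1, 23, 10, 6, 0, 15, 14, 13, 18, 2, 8, 12, 3, 7, 21, 19, 11, 5, 20, 9, 4, 16, 17]]),
   (2, [[0, 1, 2, 3, 4, 5, 6, 7, 8, 9, 10, 11, 12, 13, 14, 15, 16, 17, 18, 19, 20, 21, 22, 23],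
      [0, 1, 3, 8, 6, 21, 9, 23, 2, 5, 13, 12, 10, 17, 11, 19, 15, 14, 4, 16, 22, 18, 20, 7],
      [0, 1, 7, 2, 4, 9, 18, 10, 11, 22, 12, 14, 3, 23, 13, 16, 5, 17, 21, 20, 6, 19, 15, 8],
      [0, 1, 8, 10, 15, 6, 22, 14, 11, 21, 17, 2, 12, 7, 13, 16, 4, 3, 18, 9, 20, 19, 5, 23],
      [0, 1, 10, 12, 4, 15, 18, 7, 23, 22, 2, 13, 3, 11, 14, 5, 16, 17, 6, 19, 21, 20, 9, 8],
      [0, 1, 11, 2, 19, 18, 4, 14, 3, 21, 10, 17, 13, 7, 23, 6, 9, 8, 16, 22, 20, 5, 15, 12],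
      [0, 1, 12, 23, 18, 20, 22, 8, 10, 15, 11, 3, 2, 17, 13, 19, 5, 14, 4, 16, 9, 6, 21, 7],
      [0, 1, 13, 12, 16, 20, 4, 11, 2, 19, 3, 8, 17, 10, 23, 5, 15, 14, 9, 6, 22, 18, 21, 7],
      [0, 1, 14, 2, 5, 19, 9, 3, 7, 21, 17, 12, 23, 8, 10, 22, 18, 11, 20, 15, 6, 4, 16, 13],
      [0, 1, 17, 2, 5, 9, 19, 23, 11, 22, 14, 12, 3, 10, 8, 21, 4, 7, 16, 15, 6, 18, 20, 13],
      [0, 1, 23, 2, 5, 18, 9, 14, 13, 20, 17, 10, 3, 7, 11, 16, 4, 12, 6, 22, 21, 19, 15, 8]]),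
   (3, [[0, 1, 2, 3, 4, 5, 6, 7, 8, 9, 10, 11, 12, 13, 14, 15, 16, 17, 18, 19, 20, 21, 22, 23],
      [0, 1, 2, 7, 9, 4, 22, 8, 11, 18, 17, 14, 13, 23, 3, 16, 20, 12, 19, 5, 6, 21, 15, 10],
      [0, 1, 2, 8, 9, 18, 21, 17, 14, 5, 7, 10, 13, 3, 12, 20, 6, 23, 19, 4, 16, 15, 22, 11],
      [0, 1, 2, 10, 4, 19, 6, 12, 8, 18, 3, 17, 7, 23, 14, 21, 22, 11, 9, 5, 20, 15, 16, 13],
      [0, 1, 2, 11, 19, 18, 21, 10, 7, 4, 14, 17, 13, 3, 23, 20, 16, 12, 9, 5, 6, 22, 15, 8],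
      [0, 1, 2, 12, 4, 18, 20, 10, 14, 19, 7, 17, 3, 13, 8, 21, 16, 11, 5, 9, 6, 15, 22, 23],
      [0, 1, 2, 13, 9, 19, 16, 7, 12, 4, 17, 23, 8, 3, 14, 15, 6, 10, 18, 5, 21, 20, 22, 11],
      [0, 1, 2, 14, 5, 19, 15, 23, 12, 18, 17, 7, 3, 8, 13, 16, 21, 11, 4, 9, 6, 20, 22, 10],
      [0, 1, 2, 17, 9, 5, 16, 8, 12, 18, 13, 10, 7, 11, 14, 20, 22, 23, 4, 19, 21, 15, 6, 3],
      [0, 1, 2, 23, 18, 5, 20, 8, 13, 9, 12, 10, 11, 7, 3, 16, 22, 17, 19, 4, 21, 6, 15, 14]]),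
   (6, [[0, 1, 2, 3, 4, 5, 6, 7, 8, 9, 10, 11, 12, 13, 14, 15, 16, 17, 18, 19, 20, 21, 22, 23],
      [0, 1, 2, 3, 4, 5, 16, 10, 13, 19, 12, 8, 7, 11, 23, 20, 21, 14, 9, 18, 22, 6, 15, 17],
      [0, 1, 2, 3, 4, 5, 21, 12, 11, 18, 7, 13, 10, 8, 17, 22, 6, 23, 19, 9, 15, 16, 20, 14]]),
   (4, [[0, 1, 2, 3, 4, 5, 6, 7, 8, 9, 10, 11, 12, 13, 14, 15, 16, 17, 18, 19, 20, 21, 22, 23],
      [0, 1, 2, 3, 5, 4, 6, 17, 13, 9, 23, 11, 14, 8, 12, 20, 21, 7, 19, 18, 15, 16, 22, 10]])]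

set_option maxHeartbeats 40000000 in
theorem s1 : (orbS Kdod (mset 2)).ncard = 12 ∧
    Nat.card ↥(Kdod ⊓ MulAction.stabilizer (Equiv.Perm GolayPt) (mset 2)) = 7920 := by
  have h := orb1_exact Kdod 95040 card_Kdod (fun l => actM l 0 8551822 == 8551822) memKdod
    gensKdod gensKdod_ok s1_X s1_P s1_D 12 0 2 (by decide +kernel)
    (by decide +kernel) (by decide +kernel) s1_levels (by decide +kernel) (by decide +kernel)
  have e : chainProd s1_levels = 7920 := by decide +kernel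
  rw [e] at h
  exact h

def Km11 : Subgroup (Equiv.Perm GolayPt) :=
  Kdod ⊓ MulAction.stabilizer (Equiv.Perm GolayPt) (mset 2)

theorem card_Km11 : Nat.card Km11 = 7920 := s1.2

theorem memKm11 (l : List ℕ) (hl : isM24L l = true) (h : (actM l 0 8551822 == 8551822 && actM l 0 2 == 2) = true) :
    permL l ∈ Km11 := by
  rw [Bool.and_eq_true] at h
  exact ⟨memKdod l hl h.1, stab_mset_of_eq (isPermL_of_isM24L hl) _ (beq_iff_eq.mp h.2)⟩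

def gensKm11 : List (List ℕ) :=
  [[6, 1, 2, 7, 15, 16, 5, 10, 12, 22, 11, 17, 8, 23, 13, 9, 18, 14, 21, 20, 0, 19, 4, 3],
   [19, 1, 10, 23, 15, 4, 9, 7, 13, 6, 3, 11, 14, 12, 8, 20, 21, 17, 0, 22, 5, 16, 18, 2],
   [15, 1, 7, 11, 6, 5, 9, 10, 23, 19, 8, 12, 2, 3, 13, 21, 20, 14, 16, 18, 22, 4, 0, 17]]

theorem gensKm11_ok : gensKm11.all (fun l => isM24L l && (actM l 0 8551822 == 8551822 && actM l 0 2 == 2)) = true := by
  decide +kernel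

def s2_X : ℕ := 0x800000020000004000002000001000000800000400000100000080000008000004

def s2_P : ℕ := 0x10001000005000009010003020005000004010000020004020000010004000000

def s2_D : ℕ := 0x303040303020102010200

def s2_levels : List (ℕ × List (List ℕ)) :=
  [(0, [[0, 1, 2, 3, 4, 5, 6, 7, 8, 9, 10, 11, 12, 13, 14, 15, 16, 17, 18, 19, 20, 21, 22, 23],
      [4, 1, 2, 14, 18, 9, 16, 13, 8, 5, 12, 10, 17, 3, 7, 20, 6, 11, 19, 0, 21, 22, 15, 23],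
      [5, 1, 2, 11, 9, 4, 15, 12, 7, 19, 17, 23, 10, 14, 3, 16, 20, 8, 18, 0, 21, 6, 22, 13],
      [6, 1, 2, 13, 16, 20, 0, 7, 10, 15, 3, 12, 14, 8, 17, 4, 9, 11, 22, 21, 18, 19, 5, 23],
      [9, 1, 2, 14, 4, 18, 22, 11, 12, 5, 7, 13, 23, 17, 8, 21, 16, 10, 19, 0, 15, 6, 20, 3],
      [15, 1, 2, 12, 20, 16, 0, 11, 10, 6, 14, 13, 3, 8, 23, 19, 18, 7, 22, 21, 9, 4, 5, 17],
      [16, 1, 2, 13, 6, 20, 0, 14, 17, 22, 3, 23, 7, 11, 10, 5, 19, 8, 15, 21, 18, 9, 4, 12],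
      [18, 1, 2, 7, 5, 19, 16, 13, 12, 4, 10, 8, 23, 14, 3, 20, 6, 17, 0, 9, 22, 15, 21, 11],
      [19, 1, 2, 11, 0, 18, 16, 10, 8, 4, 13, 12, 14, 23, 3, 20, 21, 17, 5, 9, 15, 22, 6, 7],
      [20, 1, 2, 12, 15, 16, 0, 3, 23, 22, 14, 17, 11, 7, 10, 5, 4, 8, 6, 21, 9, 18, 19, 13],
      [21, 1, 2, 3, 6, 16, 0, 17, 7, 20, 8, 13, 12, 14, 23, 9, 5, 10, 22, 15, 19, 4, 18, 11],
      [22, 1, 2, 7, 20, 21, 0, 3, 17, 15, 23, 14, 8, 10, 12, 5, 4, 13, 16, 6, 19, 9, 18, 11]]),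
   (3, [[0, 1, 2, 3, 4, 5, 6, 7, 8, 9, 10, 11, 12, 13, 14, 15, 16, 17, 18, 19, 20, 21, 22, 23],
      [0, 1, 2, 7, 4, 9, 20, 3, 14, 5, 12, 11, 10, 23, 8, 15, 22, 17, 19, 18, 6, 21, 16, 13],
      [0, 1, 2, 8, 18, 9, 6, 12, 10, 4, 23, 14, 11, 3, 17, 22, 21, 7, 19, 5, 16, 15, 20, 13],
      [0, 1, 2, 10, 4, 19, 22, 3, 23, 5, 7, 8, 12, 17, 13, 20, 15, 14, 18, 9, 16, 6, 21, 11],
      [0, 1, 2, 11, 19, 18, 16, 14, 3, 5, 13, 7, 10, 17, 8, 6, 22, 23, 4, 9, 15, 21, 20, 12],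
      [0, 1, 2, 12, 4, 18, 15, 3, 17, 5, 10, 13, 7, 14, 11, 22, 20, 23, 9, 19, 21, 16, 6, 8],
      [0, 1, 2, 13, 9, 19, 20, 8, 23, 18, 7, 3, 17, 12, 10, 22, 16, 11, 5, 4, 15, 6, 21, 14],
      [0, 1, 2, 14, 5, 19, 20, 3, 7, 4, 23, 8, 17, 12, 11, 22, 15, 10, 9, 18, 16, 21, 6, 13],
      [0, 1, 2, 17, 9, 5, 16, 8, 12, 18, 13, 10, 7, 11, 14, 20, 22, 23, 4, 19, 21, 15, 6, 3],
      [0, 1, 2, 23, 5, 18, 22, 3, 10, 4, 17, 13, 14, 7, 8, 15, 20, 12, 19, 9, 21, 6, 16, 11]]),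
   (4, [[0, 1, 2, 3, 4, 5, 6, 7, 8, 9, 10, 11, 12, 13, 14, 15, 16, 17, 18, 19, 20, 21, 22, 23],
      [0, 1, 2, 3, 5, 4, 16, 14, 11, 19, 17, 8, 23, 13, 7, 22, 6, 10, 18, 9, 20, 21, 15, 12]]),
   (6, [[0, 1, 2, 3, 4, 5, 6, 7, 8, 9, 10, 11, 12, 13, 14, 15, 16, 17, 18, 19, 20, 21, 22, 23],
      [0, 1, 2, 3, 4, 5, 16, 10, 13, 19, 12, 8, 7, 11, 23, 20, 21, 14, 9, 18, 22, 6, 15, 17],
      [0, 1, 2, 3, 4, 5, 21, 12, 11, 18, 7, 13, 10, 8, 17, 22, 6, 23, 19, 9, 15, 16, 20, 14]])]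

set_option maxHeartbeats 40000000 in
theorem s2 : (orbS Km11 (mset 4)).ncard = 11 ∧
    Nat.card ↥(Km11 ⊓ MulAction.stabilizer (Equiv.Perm GolayPt) (mset 4)) = 720 := by
  have h := orb1_exact Km11 7920 card_Km11 (fun l => actM l 0 8551822 == 8551822 && actM l 0 2 == 2) memKm11
    gensKm11 gensKm11_ok s2_X s2_P s2_D 11 0 4 (by decide +kernel)
    (by decide +kernel) (by decide +kernel) s2_levels (by decide +kernel) (by decide +kernel)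
  have e : chainProd s2_levels = 720 := by decide +kernel
  rw [e] at h
  exact h

def Km10 : Subgroup (Equiv.Perm GolayPt) :=
  Km11 ⊓ MulAction.stabilizer (Equiv.Perm GolayPt) (mset 4)

theorem card_Km10 : Nat.card Km10 = 720 := s2.2

theorem memKm10 (l : List ℕ) (hl : isM24L l = true) (h : (actM l 0 8551822 == 8551822 && actM l 0 2 == 2 && actM l 0 4 == 4) = true) :
    permL l ∈ Km10 := by
  rw [Bool.and_eq_true] at h
  exact ⟨memKm11 l hl h.1, stab_mset_of_eq (isPermL_of_isM24L hl) _ (beq_iff_eq.mp h.2)⟩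

def gensKm10 : List (List ℕ) :=
  [[15, 1, 2, 17, 16, 22, 5, 12, 14, 20, 7, 8, 23, 11, 10, 19, 9, 3, 21, 6, 4, 0, 18, 13],
   [4, 1, 2, 17, 18, 19, 20, 14, 11, 9, 12, 3, 13, 7, 10, 15, 21, 23, 5, 0, 22, 6, 16, 8],
   [21, 1, 2, 10, 20, 16, 5, 7, 12, 22, 14, 8, 17, 13, 23, 19, 18, 11, 6, 15, 4, 9, 0, 3]]

theorem gensKm10_ok : gensKm10.all (fun l => isM24L l && (actM l 0 8551822 == 8551822 && actM l 0 2 == 2 && actM l 0 4 == 4)) = true := by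
  decide +kernel

def s3_X : ℕ := 0x800000020000004000002000001000000800000400000100000080000008

def s3_P : ℕ := 0x10008000000020003000009010003020008020000010009000003000000

def s3_D : ℕ := 0x2010203020201030200

def s3_levels : List (ℕ × List (List ℕ)) :=
  [(0, [[0, 1, 2, 3, 4, 5, 6, 7, 8, 9, 10, 11, 12, 13, 14, 15, 16, 17, 18, 19, 20, 21, 22, 23],
      [4, 1, 2, 3, 5, 0, 21, 8, 23, 19, 13, 14, 11, 17, 12, 15, 6, 10, 9, 18, 20, 16, 22, 7],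
      [5, 1, 2, 3, 4, 0, 21, 11, 12, 9, 13, 7, 8, 10, 23, 22, 16, 17, 19, 18, 20, 6, 15, 14],
      [6, 1, 2, 3, 16, 21, 5, 13, 23, 20, 7, 10, 14, 11, 8, 18, 4, 17, 22, 15, 9, 0, 19, 12],
      [9, 1, 2, 3, 19, 18, 22, 13, 7, 0, 12, 11, 23, 17, 10, 21, 15, 8, 4, 5, 16, 20, 6, 14],
      [15, 1, 2, 3, 22, 20, 18, 10, 7, 6, 13, 23, 17, 8, 14, 5, 9, 11, 16, 21, 0, 19, 4, 12],
      [16, 1, 2, 3, 6, 21, 4, 13, 12, 20, 14, 17, 7, 8, 11, 18, 5, 10, 15, 22, 19, 0, 9, 23],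
      [18, 1, 2, 3, 9, 19, 20, 8, 12, 0, 10, 13, 14, 23, 7, 16, 22, 11, 4, 5, 6, 15, 21, 17],
      [19, 1, 2, 3, 9, 18, 15, 13, 14, 0, 23, 8, 12, 10, 17, 21, 22, 11, 5, 4, 6, 20, 16, 7],
      [20, 1, 2, 3, 22, 15, 18, 7, 10, 21, 23, 13, 8, 17, 11, 5, 19, 14, 16, 6, 4, 9, 0, 12],
      [21, 1, 2, 3, 6, 16, 0, 17, 7, 20, 8, 13, 12, 14, 23, 9, 5, 10, 22, 15, 19, 4, 18, 11],
      [22, 1, 2, 3, 15, 20, 9, 10, 12, 6, 17, 11, 13, 14, 8, 5, 18, 23, 21, 16, 4, 19, 0, 7]]),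
   (4, [[0, 1, 2, 3, 4, 5, 6, 7, 8, 9, 10, 11, 12, 13, 14, 15, 16, 17, 18, 19, 20, 21, 22, 23],
      [0, 1, 2, 3, 5, 4, 16, 14, 11, 19, 17, 8, 23, 13, 7, 22, 6, 10, 18, 9, 20, 21, 15, 12]]),
   (6, [[0, 1, 2, 3, 4, 5, 6, 7, 8, 9, 10, 11, 12, 13, 14, 15, 16, 17, 18, 19, 20, 21, 22, 23],
      [0, 1, 2, 3, 4, 5, 16, 10, 13, 19, 12, 8, 7, 11, 23, 20, 21, 14, 9, 18, 22, 6, 15, 17],
      [0, 1, 2, 3, 4, 5, 21, 12, 11, 18, 7, 13, 10, 8, 17, 22, 6, 23, 19, 9, 15, 16, 20, 14]])]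

set_option maxHeartbeats 40000000 in
theorem s3 : (orbS Km10 (mset 8)).ncard = 10 ∧
    Nat.card ↥(Km10 ⊓ MulAction.stabilizer (Equiv.Perm GolayPt) (mset 8)) = 72 := by
  have h := orb1_exact Km10 720 card_Km10 (fun l => actM l 0 8551822 == 8551822 && actM l 0 2 == 2 && actM l 0 4 == 4) memKm10
    gensKm10 gensKm10_ok s3_X s3_P s3_D 10 0 8 (by decide +kernel)
    (by decide +kernel) (by decide +kernel) s3_levels (by decide +kernel) (by decide +kernel)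
  have e : chainProd s3_levels = 72 := by decide +kernel
  rw [e] at h
  exact h

def Km9 : Subgroup (Equiv.Perm GolayPt) :=
  Km10 ⊓ MulAction.stabilizer (Equiv.Perm GolayPt) (mset 8)

theorem card_Km9 : Nat.card Km9 = 72 := s3.2

theorem memKm9 (l : List ℕ) (hl : isM24L l = true) (h : (actM l 0 8551822 == 8551822 && actM l 0 2 == 2 && actM l 0 4 == 4 && actM l 0 8 == 8) = true) :
    permL l ∈ Km9 := by
  rw [Bool.and_eq_true] at h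
  exact ⟨memKm10 l hl h.1, stab_mset_of_eq (isPermL_of_isM24L hl) _ (beq_iff_eq.mp h.2)⟩

def gensKm9 : List (List ℕ) :=
  [[21, 1, 2, 3, 6, 16, 0, 17, 7, 20, 8, 13, 12, 14, 23, 9, 5, 10, 22, 15, 19, 4, 18, 11],
   [19, 1, 2, 3, 18, 9, 22, 17, 8, 4, 11, 14, 7, 10, 13, 16, 15, 23, 5, 0, 6, 20, 21, 12],
   [21, 1, 2, 3, 6, 16, 5, 8, 14, 15, 12, 7, 17, 13, 11, 19, 4, 23, 20, 22, 18, 0, 9, 10]]

theorem gensKm9_ok : gensKm9.all (fun l => isM24L l && (actM l 0 8551822 == 8551822 && actM l 0 2 == 2 && actM l 0 4 == 4 && actM l 0 8 == 8)) = true := by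
  decide +kernel

theorem mset_single {i : ℕ} (hi : i < 24) : mset (2 ^ i) = {ptOf i} := by
  ext p
  rw [mem_mset, Finset.mem_singleton, Nat.testBit_two_pow]
  simp only [decide_eq_true_eq]
  constructor
  · intro h; rw [← ptOf_ptIdx p, ← h]
  · intro h; rw [h, ptIdx_ptOf hi]

theorem fix_of_stab {k : Equiv.Perm GolayPt} {i : ℕ} (hi : i < 24)
    (h : k ∈ MulAction.stabilizer (Equiv.Perm GolayPt) (mset (2 ^ i))) : k (ptOf i) = ptOf i := by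
  have h' := MulAction.mem_stabilizer_iff.mp h
  rw [mset_single hi, Finset.smul_finset_singleton, Finset.singleton_inj] at h'
  exact h'

theorem stab_single (a : GolayPt) :
    MulAction.stabilizer (Equiv.Perm GolayPt) ({a} : Finset GolayPt) =
      MulAction.stabilizer (Equiv.Perm GolayPt) a := by
  ext x
  rw [MulAction.mem_stabilizer_iff, MulAction.mem_stabilizer_iff, Finset.smul_finset_singleton,
    Finset.singleton_inj]

theorem point_of_orb {K : Subgroup (Equiv.Perm GolayPt)} {i : ℕ} (hi : i < 24) {x : GolayPt}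
    (h : mset (2 ^ ptIdx x) ∈ orbS K (mset (2 ^ i))) : ∃ k ∈ K, k (ptOf i) = x := by
  obtain ⟨k, hk, hke⟩ := h
  rw [mset_single hi, mset_single (ptIdx_lt x), ptOf_ptIdx, Finset.smul_finset_singleton,
    Finset.singleton_inj] at hke
  exact ⟨k, hk, hke⟩

theorem s1_cover : ∀ j : Fin 24, (8551822 : ℕ).testBit j.val = true →
    ∃ i : Fin 12, ent s1_X 24 i.val = 2 ^ j.val := by decide +kernel

theorem s2_cover : ∀ j : Fin 24, (8551822 : ℕ).testBit j.val = true → j.val ≠ 1 →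
    ∃ i : Fin 11, ent s2_X 24 i.val = 2 ^ j.val := by decide +kernel

theorem s3_cover : ∀ j : Fin 24, (8551822 : ℕ).testBit j.val = true → j.val ≠ 1 → j.val ≠ 2 →
    ∃ i : Fin 10, ent s3_X 24 i.val = 2 ^ j.val := by decide +kernel

theorem ptIdx_ne {x : GolayPt} {i : ℕ} (h : x ≠ ptOf i) : ptIdx x ≠ i := by
  intro e
  apply h
  rw [← e, ptOf_ptIdx]

theorem trans1 (x : GolayPt) (hx : x ∈ mset 8551822) : ∃ k ∈ Kdod, k (ptOf 1) = x := by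
  obtain ⟨i, hi⟩ := s1_cover ⟨ptIdx x, ptIdx_lt x⟩ (mem_mset.mp hx)
  have hmem := orb1_mem Kdod gensKdod
    (gens_ok_of_all (memK := (fun l => actM l 0 8551822 == 8551822)) memKdod gensKdod_ok)
    s1_X s1_P s1_D 12 0 (by decide +kernel) i.val i.isLt
  have e0 : ent s1_X 24 0 = 2 ^ 1 := by decide +kernel
  rw [hi, e0] at hmem
  exact point_of_orb (by norm_num) hmem

theorem trans2 (x : GolayPt) (hx : x ∈ mset 8551822) (h1 : x ≠ ptOf 1) :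
    ∃ k ∈ Km11, k (ptOf 2) = x := by
  obtain ⟨i, hi⟩ := s2_cover ⟨ptIdx x, ptIdx_lt x⟩ (mem_mset.mp hx) (ptIdx_ne h1)
  have hmem := orb1_mem Km11 gensKm11
    (gens_ok_of_all (memK := (fun l => actM l 0 8551822 == 8551822 && actM l 0 2 == 2)) memKm11 gensKm11_ok)
    s2_X s2_P s2_D 11 0 (by decide +kernel) i.val i.isLt
  have e0 : ent s2_X 24 0 = 2 ^ 2 := by decide +kernel
  rw [hi, e0] at hmem
  exact point_of_orb (by norm_num) hmem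

theorem trans3 (x : GolayPt) (hx : x ∈ mset 8551822) (h1 : x ≠ ptOf 1) (h2 : x ≠ ptOf 2) :
    ∃ k ∈ Km10, k (ptOf 3) = x := by
  obtain ⟨i, hi⟩ := s3_cover ⟨ptIdx x, ptIdx_lt x⟩ (mem_mset.mp hx) (ptIdx_ne h1) (ptIdx_ne h2)
  have hmem := orb1_mem Km10 gensKm10
    (gens_ok_of_all (memK := (fun l => actM l 0 8551822 == 8551822 && actM l 0 2 == 2 && actM l 0 4 == 4)) memKm10 gensKm10_ok)
    s3_X s3_P s3_D 10 0 (by decide +kernel) i.val i.isLt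
  have e0 : ent s3_X 24 0 = 2 ^ 3 := by decide +kernel
  rw [hi, e0] at hmem
  exact point_of_orb (by norm_num) hmem

theorem exists_transport {d : Finset GolayPt} (hd : d ∈ dodecads) {p q r : GolayPt}
    (hp : p ∈ d) (hq : q ∈ d) (hr : r ∈ d) (hpq : p ≠ q) (hpr : p ≠ r) (hqr : q ≠ r) :
    ∃ g ∈ M24, g • mset 8551822 = d ∧ g (ptOf 1) = p ∧ g (ptOf 2) = q ∧ g (ptOf 3) = r := by
  obtain ⟨g1, hg1, rfl⟩ := exists_smul_eq_dodecad hd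
  have mem_inv : ∀ (g : Equiv.Perm GolayPt) (x : GolayPt), x ∈ g • mset 8551822 →
      g⁻¹ x ∈ mset 8551822 := by
    intro g x hx
    obtain ⟨y, hy, rfl⟩ := Finset.mem_smul_finset.mp hx
    have : g⁻¹ (g • y) = y := by simp
    rw [this]; exact hy
  obtain ⟨k1, hk1, e1⟩ := trans1 _ (mem_inv g1 p hp)
  have hk1d : k1 • mset 8551822 = mset 8551822 := MulAction.mem_stabilizer_iff.mp hk1.2
  have hg2d : (g1 * k1) • mset 8551822 = g1 • mset 8551822 := by rw [mul_smul, hk1d]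
  have hg2p : (g1 * k1) (ptOf 1) = p := by
    show g1 (k1 (ptOf 1)) = p
    rw [e1]; simp
  have hq2 : (g1 * k1)⁻¹ q ∈ mset 8551822 := mem_inv (g1 * k1) q (by rw [hg2d]; exact hq)
  have hq2' : (g1 * k1)⁻¹ q ≠ ptOf 1 := by
    intro h
    apply hpq
    rw [← hg2p, ← h]; simp
  obtain ⟨k2, hk2, e2⟩ := trans2 _ hq2 hq2'
  have hk2d : k2 • mset 8551822 = mset 8551822 := MulAction.mem_stabilizer_iff.mp hk2.1.2
  have hk2p : k2 (ptOf 1) = ptOf 1 := fix_of_stab (i := 1) (by norm_num) hk2.2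
  have hg3d : (g1 * k1 * k2) • mset 8551822 = g1 • mset 8551822 := by
    rw [mul_smul, hk2d, hg2d]
  have hg3p : (g1 * k1 * k2) (ptOf 1) = p := by
    show (g1 * k1) (k2 (ptOf 1)) = p
    rw [hk2p, hg2p]
  have hg3q : (g1 * k1 * k2) (ptOf 2) = q := by
    show (g1 * k1) (k2 (ptOf 2)) = q
    rw [e2]; simp
  have hr3 : (g1 * k1 * k2)⁻¹ r ∈ mset 8551822 := mem_inv _ r (by rw [hg3d]; exact hr)
  have hr3p : (g1 * k1 * k2)⁻¹ r ≠ ptOf 1 := by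
    intro h
    apply hpr
    rw [← hg3p, ← h]; simp
  have hr3q : (g1 * k1 * k2)⁻¹ r ≠ ptOf 2 := by
    intro h
    apply hqr
    rw [← hg3q, ← h]; simp
  obtain ⟨k3, hk3, e3⟩ := trans3 _ hr3 hr3p hr3q
  have hk3d : k3 • mset 8551822 = mset 8551822 := MulAction.mem_stabilizer_iff.mp hk3.1.1.2
  have hk3p : k3 (ptOf 1) = ptOf 1 := fix_of_stab (i := 1) (by norm_num) hk3.1.2
  have hk3q : k3 (ptOf 2) = ptOf 2 := fix_of_stab (i := 2) (by norm_num) hk3.2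
  refine ⟨g1 * k1 * k2 * k3,
    M24.mul_mem (M24.mul_mem (M24.mul_mem hg1 hk1.1) hk2.1.1) hk3.1.1.1, ?_, ?_, ?_, ?_⟩
  · rw [mul_smul, hk3d, hg3d]
  · show (g1 * k1 * k2) (k3 (ptOf 1)) = p
    rw [hk3p, hg3p]
  · show (g1 * k1 * k2) (k3 (ptOf 2)) = q
    rw [hk3q, hg3q]
  · show (g1 * k1 * k2) (k3 (ptOf 3)) = r
    rw [e3]; simp

section Bridge

variable {A B C D : Type*} [MulAction (Equiv.Perm GolayPt) A] [MulAction (Equiv.Perm GolayPt) B]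
  [MulAction (Equiv.Perm GolayPt) C] [MulAction (Equiv.Perm GolayPt) D]

/-- Joint stabilisers inside the code's group, as subgroups of the symmetric group. -/
def bridgeStab4 (x : A) (y : B) (z : C) (w : D) :
    ↥(MulAction.stabilizer ↥M24 x ⊓ MulAction.stabilizer ↥M24 y ⊓ MulAction.stabilizer ↥M24 z ⊓
        MulAction.stabilizer ↥M24 w) ≃*
      ↥((((M24 ⊓ MulAction.stabilizer (Equiv.Perm GolayPt) x) ⊓
        MulAction.stabilizer (Equiv.Perm GolayPt) y) ⊓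
        MulAction.stabilizer (Equiv.Perm GolayPt) z) ⊓
        MulAction.stabilizer (Equiv.Perm GolayPt) w) where
  toFun h := ⟨h.1.1, ⟨⟨⟨⟨h.1.2, h.2.1.1.1⟩, h.2.1.1.2⟩, h.2.1.2⟩, h.2.2⟩⟩
  invFun h := ⟨⟨h.1, h.2.1.1.1.1⟩, ⟨⟨⟨h.2.1.1.1.2, h.2.1.1.2⟩, h.2.1.2⟩, h.2.2⟩⟩
  left_inv _ := rfl
  right_inv _ := rfl
  map_mul' _ _ := rfl

/-- Conjugation carries joint stabilisers to joint stabilisers. -/
def conjStab4 {g : Equiv.Perm GolayPt} (hg : g ∈ M24) (x : A) (y : B) (z : C) (w : D) :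
    ↥((((M24 ⊓ MulAction.stabilizer (Equiv.Perm GolayPt) x) ⊓
        MulAction.stabilizer (Equiv.Perm GolayPt) y) ⊓
        MulAction.stabilizer (Equiv.Perm GolayPt) z) ⊓
        MulAction.stabilizer (Equiv.Perm GolayPt) w) ≃*
      ↥((((M24 ⊓ MulAction.stabilizer (Equiv.Perm GolayPt) (g • x)) ⊓
        MulAction.stabilizer (Equiv.Perm GolayPt) (g • y)) ⊓
        MulAction.stabilizer (Equiv.Perm GolayPt) (g • z)) ⊓
        MulAction.stabilizer (Equiv.Perm GolayPt) (g • w)) where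
  toFun h := ⟨g * h.1 * g⁻¹, by
    have h1 : h.1 ∈ M24 := h.2.1.1.1.1
    have h2 : h.1 • x = x := h.2.1.1.1.2
    have h3 : h.1 • y = y := h.2.1.1.2
    have h4 : h.1 • z = z := h.2.1.2
    have h5 : h.1 • w = w := h.2.2
    refine ⟨⟨⟨⟨M24.mul_mem (M24.mul_mem hg h1) (M24.inv_mem hg), ?_⟩, ?_⟩, ?_⟩, ?_⟩
    · show (g * h.1 * g⁻¹) • g • x = g • x
      rw [mul_smul, mul_smul, inv_smul_smul, h2]
    · show (g * h.1 * g⁻¹) • g • y = g • y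
      rw [mul_smul, mul_smul, inv_smul_smul, h3]
    · show (g * h.1 * g⁻¹) • g • z = g • z
      rw [mul_smul, mul_smul, inv_smul_smul, h4]
    · show (g * h.1 * g⁻¹) • g • w = g • w
      rw [mul_smul, mul_smul, inv_smul_smul, h5]⟩
  invFun h := ⟨g⁻¹ * h.1 * g, by
    have h1 : h.1 ∈ M24 := h.2.1.1.1.1
    have h2 : h.1 • g • x = g • x := h.2.1.1.1.2
    have h3 : h.1 • g • y = g • y := h.2.1.1.2
    have h4 : h.1 • g • z = g • z := h.2.1.2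
    have h5 : h.1 • g • w = g • w := h.2.2
    refine ⟨⟨⟨⟨M24.mul_mem (M24.mul_mem (M24.inv_mem hg) h1) hg, ?_⟩, ?_⟩, ?_⟩, ?_⟩
    · show (g⁻¹ * h.1 * g) • x = x
      rw [mul_smul, mul_smul, h2, inv_smul_smul]
    · show (g⁻¹ * h.1 * g) • y = y
      rw [mul_smul, mul_smul, h3, inv_smul_smul]
    · show (g⁻¹ * h.1 * g) • z = z
      rw [mul_smul, mul_smul, h4, inv_smul_smul]
    · show (g⁻¹ * h.1 * g) • w = w
      rw [mul_smul, mul_smul, h5, inv_smul_smul]⟩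
  left_inv h := by
    apply Subtype.ext
    show g⁻¹ * (g * h.1 * g⁻¹) * g = h.1
    group
  right_inv h := by
    apply Subtype.ext
    show g * (g⁻¹ * h.1 * g) * g⁻¹ = h.1
    group
  map_mul' a b := by
    apply Subtype.ext
    show g * (a.1 * b.1) * g⁻¹ = g * a.1 * g⁻¹ * (g * b.1 * g⁻¹)
    group

end Bridge

/-- The properties of the group of order 72 that the statement asserts. -/
def M9like (G : Type) [Group G] : Prop :=
  Nat.card G = 72 ∧ (∃ N : Subgroup G, N.Normal ∧ Nat.card N = 9 ∧ ∀ x ∈ N, x ^ 3 = 1) ∧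
    ∃ P : Subgroup G, Nonempty (P ≃* QuaternionGroup 2)

theorem M9like.congr {G G' : Type} [Group G] [Group G'] (e : G ≃* G') (h : M9like G) :
    M9like G' := by
  obtain ⟨hc, ⟨N, hN, hN9, hN3⟩, P, ⟨f⟩⟩ := h
  refine ⟨by rw [← hc]; exact (Nat.card_congr e.toEquiv).symm,
    ⟨N.map e.toMonoidHom, ?_, ?_, ?_⟩, P.map e.toMonoidHom, ⟨?_⟩⟩
  · exact hN.map e.toMonoidHom e.surjective
  · rw [Subgroup.card_map_of_injective (f := e.toMonoidHom) e.injective, hN9]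
  · rintro _ ⟨x, hx, rfl⟩
    rw [← map_pow, hN3 x hx, map_one]
  · exact (P.equivMapOfInjective e.toMonoidHom e.injective).symm.trans f

theorem fac72_3 : (72 : ℕ).factorization 3 = 2 := by
  have e : (72 : ℕ) = 3 ^ 2 * 8 := by norm_num
  rw [e, Nat.factorization_mul (by norm_num) (by norm_num), Nat.Prime.factorization_pow (by norm_num)]
  have : (8 : ℕ).factorization 3 = 0 := Nat.factorization_eq_zero_of_not_dvd (by norm_num)
  simp [this]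

theorem fac72_2 : (72 : ℕ).factorization 2 = 3 := by
  have e : (72 : ℕ) = 2 ^ 3 * 9 := by norm_num
  rw [e, Nat.factorization_mul (by norm_num) (by norm_num), Nat.Prime.factorization_pow (by norm_num)]
  have : (9 : ℕ).factorization 2 = 0 := Nat.factorization_eq_zero_of_not_dvd (by norm_num)
  simp [this]

theorem M9like.sylow {G : Type} [Group G] [Finite G] (h : M9like G) :
    (∀ Q : Sylow 3 G, (Q : Subgroup G).Normal ∧ Nat.card ↥Q = 9 ∧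
      ∀ x ∈ (Q : Subgroup G), x ^ 3 = 1) ∧
    ∀ P : Sylow 2 G, Nonempty (↥P ≃* QuaternionGroup 2) := by
  obtain ⟨hc, ⟨N, hN, hN9, hN3⟩, P0, ⟨e⟩⟩ := h
  haveI : Fact (Nat.Prime 3) := ⟨by norm_num⟩
  haveI : Fact (Nat.Prime 2) := ⟨by norm_num⟩
  constructor
  · intro Q
    let N' : Sylow 3 G := Sylow.ofCard N (by rw [hc, fac72_3, hN9]; norm_num)
    have hN' : (N' : Subgroup G).Normal := hN
    haveI : Unique (Sylow 3 G) := Sylow.unique_of_normal N' hN'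
    have hQ : Q = N' := Subsingleton.elim _ _
    rw [hQ]
    exact ⟨hN, hN9, hN3⟩
  · intro P
    have hP0 : Nat.card P0 = 8 := by
      rw [Nat.card_congr e.toEquiv, Nat.card_eq_fintype_card, QuaternionGroup.card]
    let P0' : Sylow 2 G := Sylow.ofCard P0 (by rw [hc, fac72_2, hP0]; norm_num)
    obtain ⟨g, hg⟩ := MulAction.exists_smul_eq G P0' P
    rw [← hg]
    exact ⟨(Sylow.equivSMul P0' g).symm.trans e⟩

theorem Km9_le : Km9 ≤ M24 := fun g hg => hg.1.1.1.1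

/-- All members of the group of order 72. -/
def L72 : List (List ℕ) :=
  [[22, 1, 2, 3, 15, 20, 9, 10, 12, 6, 17, 11, 13, 14, 8, 5, 18, 23, 21, 16, 4, 19, 0, 7],
   [20, 1, 2, 3, 15, 22, 9, 12, 10, 16, 11, 17, 14, 13, 23, 5, 19, 8, 21, 6, 0, 18, 4, 7],
   [18, 1, 2, 3, 9, 19, 15, 14, 13, 4, 8, 23, 10, 12, 11, 21, 20, 17, 5, 0, 16, 22, 6, 7],
   [19, 1, 2, 3, 9, 18, 15, 13, 14, 0, 23, 8, 12, 10, 17, 21, 22, 11, 5, 4, 6, 20, 16, 7],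
   [16, 1, 2, 3, 21, 6, 5, 11, 17, 22, 10, 12, 23, 8, 13, 9, 4, 14, 15, 20, 19, 0, 18, 7],
   [6, 1, 2, 3, 21, 16, 5, 17, 11, 20, 12, 10, 8, 23, 14, 9, 0, 13, 15, 22, 18, 4, 19, 7],
   [0, 1, 2, 3, 5, 4, 21, 23, 8, 18, 14, 13, 17, 11, 10, 15, 16, 12, 9, 19, 22, 6, 20, 7],
   [4, 1, 2, 3, 5, 0, 21, 8, 23, 19, 13, 14, 11, 17, 12, 15, 6, 10, 9, 18, 20, 16, 22, 7],
   [22, 1, 2, 3, 15, 20, 19, 13, 11, 21, 10, 14, 17, 12, 23, 0, 9, 7, 16, 6, 5, 18, 4, 8],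
   [20, 1, 2, 3, 15, 22, 19, 11, 13, 6, 14, 10, 12, 17, 7, 0, 18, 23, 16, 21, 4, 9, 5, 8],
   [18, 1, 2, 3, 19, 9, 15, 17, 12, 4, 7, 23, 11, 13, 10, 16, 22, 14, 0, 5, 21, 20, 6, 8],
   [6, 1, 2, 3, 16, 21, 0, 14, 10, 22, 13, 11, 7, 23, 17, 19, 5, 12, 15, 20, 18, 4, 9, 8],
   [21, 1, 2, 3, 16, 6, 0, 10, 14, 20, 11, 13, 23, 7, 12, 19, 4, 17, 15, 22, 9, 5, 18, 8],
   [4, 1, 2, 3, 0, 5, 16, 7, 23, 9, 12, 17, 10, 14, 13, 15, 6, 11, 19, 18, 22, 21, 20, 8],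
   [9, 1, 2, 3, 19, 18, 15, 12, 17, 5, 23, 7, 13, 11, 14, 16, 20, 10, 0, 4, 6, 22, 21, 8],
   [5, 1, 2, 3, 0, 4, 16, 23, 7, 18, 17, 12, 14, 10, 11, 15, 21, 13, 19, 9, 20, 6, 22, 8],
   [15, 1, 2, 3, 20, 22, 19, 12, 7, 16, 14, 8, 11, 23, 13, 5, 9, 17, 6, 21, 4, 18, 0, 10],
   [22, 1, 2, 3, 20, 15, 19, 7, 12, 21, 8, 14, 23, 11, 17, 5, 18, 13, 6, 16, 0, 9, 4, 10],
   [21, 1, 2, 3, 6, 16, 5, 8, 14, 15, 12, 7, 17, 13, 11, 19, 4, 23, 20, 22, 18, 0, 9, 10],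
   [4, 1, 2, 3, 5, 0, 6, 13, 17, 18, 11, 23, 8, 14, 7, 20, 16, 12, 19, 9, 22, 21, 15, 10],
   [9, 1, 2, 3, 19, 18, 20, 23, 11, 4, 13, 17, 12, 7, 8, 6, 22, 14, 5, 0, 21, 15, 16, 10],
   [16, 1, 2, 3, 6, 21, 5, 14, 8, 22, 7, 12, 13, 17, 23, 19, 0, 11, 20, 15, 9, 4, 18, 10],
   [18, 1, 2, 3, 19, 9, 20, 11, 23, 0, 17, 13, 7, 12, 14, 6, 15, 8, 5, 4, 16, 22, 21, 10],
   [0, 1, 2, 3, 5, 4, 6, 17, 13, 9, 23, 11, 14, 8, 12, 20, 21, 7, 19, 18, 15, 16, 22, 10],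
   [20, 1, 2, 3, 22, 15, 9, 8, 13, 16, 7, 17, 23, 10, 14, 0, 18, 12, 6, 21, 5, 19, 4, 11],
   [15, 1, 2, 3, 22, 20, 9, 13, 8, 21, 17, 7, 10, 23, 12, 0, 19, 14, 6, 16, 4, 18, 5, 11],
   [4, 1, 2, 3, 0, 5, 6, 12, 14, 18, 10, 23, 7, 17, 8, 22, 21, 13, 9, 19, 20, 16, 15, 11],
   [18, 1, 2, 3, 9, 19, 22, 10, 23, 5, 14, 12, 8, 13, 17, 6, 15, 7, 0, 4, 21, 20, 16, 11],
   [21, 1, 2, 3, 6, 16, 0, 17, 7, 20, 8, 13, 12, 14, 23, 9, 5, 10, 22, 15, 19, 4, 18, 11],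
   [16, 1, 2, 3, 6, 21, 0, 7, 17, 15, 13, 8, 14, 12, 10, 9, 4, 23, 22, 20, 18, 5, 19, 11],
   [5, 1, 2, 3, 0, 4, 6, 14, 12, 19, 23, 10, 17, 7, 13, 22, 16, 8, 9, 18, 15, 21, 20, 11],
   [19, 1, 2, 3, 9, 18, 22, 23, 10, 4, 12, 14, 13, 8, 7, 6, 20, 17, 0, 5, 16, 15, 21, 11],
   [20, 1, 2, 3, 22, 15, 18, 7, 10, 21, 23, 13, 8, 17, 11, 5, 19, 14, 16, 6, 4, 9, 0, 12],
   [15, 1, 2, 3, 22, 20, 18, 10, 7, 6, 13, 23, 17, 8, 14, 5, 9, 11, 16, 21, 0, 19, 4, 12],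
   [9, 1, 2, 3, 18, 19, 22, 8, 17, 0, 14, 11, 10, 7, 23, 16, 20, 13, 5, 4, 21, 15, 6, 12],
   [21, 1, 2, 3, 16, 6, 5, 23, 13, 15, 10, 7, 11, 14, 17, 18, 0, 8, 22, 20, 19, 4, 9, 12],
   [0, 1, 2, 3, 5, 4, 16, 14, 11, 19, 17, 8, 23, 13, 7, 22, 6, 10, 18, 9, 20, 21, 15, 12],
   [6, 1, 2, 3, 16, 21, 5, 13, 23, 20, 7, 10, 14, 11, 8, 18, 4, 17, 22, 15, 9, 0, 19, 12],
   [4, 1, 2, 3, 5, 0, 16, 11, 14, 9, 8, 17, 13, 23, 10, 22, 21, 7, 18, 19, 15, 6, 20, 12],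
   [19, 1, 2, 3, 18, 9, 22, 17, 8, 4, 11, 14, 7, 10, 13, 16, 15, 23, 5, 0, 6, 20, 21, 12],
   [15, 1, 2, 3, 20, 22, 18, 11, 8, 6, 12, 23, 14, 7, 17, 0, 19, 10, 21, 16, 5, 9, 4, 13],
   [22, 1, 2, 3, 20, 15, 18, 8, 11, 16, 23, 12, 7, 14, 10, 0, 9, 17, 21, 6, 4, 19, 5, 13],
   [19, 1, 2, 3, 18, 9, 20, 7, 14, 5, 17, 10, 11, 8, 23, 21, 22, 12, 0, 4, 16, 15, 6, 13],
   [6, 1, 2, 3, 21, 16, 0, 12, 23, 22, 8, 11, 17, 10, 7, 18, 4, 14, 20, 15, 19, 5, 9, 13],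
   [5, 1, 2, 3, 0, 4, 21, 17, 10, 9, 14, 7, 23, 12, 8, 20, 6, 11, 18, 19, 22, 16, 15, 13],
   [9, 1, 2, 3, 18, 19, 20, 14, 7, 4, 10, 17, 8, 11, 12, 21, 15, 23, 0, 5, 6, 22, 16, 13],
   [16, 1, 2, 3, 21, 6, 0, 23, 12, 15, 11, 8, 10, 17, 14, 18, 5, 7, 20, 22, 9, 4, 19, 13],
   [4, 1, 2, 3, 0, 5, 21, 10, 17, 19, 7, 14, 12, 23, 11, 20, 16, 8, 18, 9, 15, 6, 22, 13],
   [15, 1, 2, 3, 22, 20, 19, 17, 23, 16, 10, 8, 13, 7, 11, 4, 18, 12, 21, 6, 5, 9, 0, 14],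
   [20, 1, 2, 3, 22, 15, 19, 23, 17, 6, 8, 10, 7, 13, 12, 4, 9, 11, 21, 16, 0, 18, 5, 14],
   [9, 1, 2, 3, 19, 18, 22, 13, 7, 0, 12, 11, 23, 17, 10, 21, 15, 8, 4, 5, 16, 20, 6, 14],
   [16, 1, 2, 3, 21, 6, 4, 10, 8, 20, 23, 17, 11, 12, 7, 19, 0, 13, 22, 15, 18, 5, 9, 14],
   [5, 1, 2, 3, 4, 0, 21, 11, 12, 9, 13, 7, 8, 10, 23, 22, 16, 17, 19, 18, 20, 6, 15, 14],
   [18, 1, 2, 3, 19, 9, 22, 7, 13, 5, 11, 12, 17, 23, 8, 21, 20, 10, 4, 0, 6, 15, 16, 14],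
   [6, 1, 2, 3, 21, 16, 4, 8, 10, 15, 17, 23, 12, 11, 13, 19, 5, 7, 22, 20, 9, 0, 18, 14],
   [0, 1, 2, 3, 4, 5, 21, 12, 11, 18, 7, 13, 10, 8, 17, 22, 6, 23, 19, 9, 15, 16, 20, 14],
   [22, 1, 2, 3, 20, 15, 9, 23, 14, 6, 7, 11, 8, 12, 13, 4, 19, 10, 16, 21, 5, 18, 0, 17],
   [15, 1, 2, 3, 20, 22, 9, 14, 23, 21, 11, 7, 12, 8, 10, 4, 18, 13, 16, 6, 0, 19, 5, 17],
   [19, 1, 2, 3, 9, 18, 20, 12, 8, 5, 13, 10, 23, 14, 11, 16, 15, 7, 4, 0, 21, 22, 6, 17],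
   [0, 1, 2, 3, 4, 5, 16, 10, 13, 19, 12, 8, 7, 11, 23, 20, 21, 14, 9, 18, 22, 6, 15, 17],
   [6, 1, 2, 3, 16, 21, 4, 7, 11, 15, 14, 23, 13, 10, 12, 9, 0, 8, 20, 22, 19, 5, 18, 17],
   [21, 1, 2, 3, 16, 6, 4, 11, 7, 22, 23, 14, 10, 13, 8, 9, 5, 12, 20, 15, 18, 0, 19, 17],
   [18, 1, 2, 3, 9, 19, 20, 8, 12, 0, 10, 13, 14, 23, 7, 16, 22, 11, 4, 5, 6, 15, 21, 17],
   [5, 1, 2, 3, 4, 0, 16, 13, 10, 18, 8, 12, 11, 7, 14, 20, 6, 23, 9, 19, 15, 21, 22, 17],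
   [20, 1, 2, 3, 15, 22, 18, 14, 17, 21, 12, 13, 11, 10, 8, 4, 9, 7, 6, 16, 5, 19, 0, 23],
   [22, 1, 2, 3, 15, 20, 18, 17, 14, 16, 13, 12, 10, 11, 7, 4, 19, 8, 6, 21, 0, 9, 5, 23],
   [16, 1, 2, 3, 6, 21, 4, 13, 12, 20, 14, 17, 7, 8, 11, 18, 5, 10, 15, 22, 19, 0, 9, 23],
   [19, 1, 2, 3, 18, 9, 15, 11, 10, 0, 7, 8, 17, 14, 12, 6, 20, 13, 4, 5, 21, 22, 16, 23],
   [21, 1, 2, 3, 6, 16, 4, 12, 13, 22, 17, 14, 8, 7, 10, 18, 0, 11, 15, 20, 9, 5, 19, 23],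
   [5, 1, 2, 3, 4, 0, 6, 8, 7, 19, 11, 10, 13, 12, 17, 15, 21, 14, 18, 9, 22, 16, 20, 23],
   [9, 1, 2, 3, 18, 19, 15, 10, 11, 5, 8, 7, 14, 17, 13, 6, 22, 12, 4, 0, 16, 20, 21, 23],
   [0, 1, 2, 3, 4, 5, 6, 7, 8, 9, 10, 11, 12, 13, 14, 15, 16, 17, 18, 19, 20, 21, 22, 23]]

theorem L72_chk : L72.all (fun l => isM24L l && (actM l 0 8551822 == 8551822 && actM l 0 2 == 2 && actM l 0 4 == 4 && actM l 0 8 == 8)) = true := by decide +kernel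

theorem L72_nodup : L72.Nodup := by decide +kernel

theorem L72_len : L72.length = 72 := by decide

theorem L72_perm {l : List ℕ} (hl : l ∈ L72) : isM24L l = true := by
  have := List.all_eq_true.mp L72_chk l hl
  rw [Bool.and_eq_true] at this
  exact this.1

theorem L72_mem {l : List ℕ} (hl : l ∈ L72) : permL l ∈ Km9 := by
  have := List.all_eq_true.mp L72_chk l hl
  rw [Bool.and_eq_true] at this
  exact memKm9 l this.1 this.2

theorem Km9_list : ∀ g ∈ Km9, ∃ l ∈ L72, g = permL l :=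
  subgroup_eq_list Km9 L72 72 card_Km9
    (fun l hl => ⟨isPermL_of_isM24L (L72_perm hl), L72_mem hl⟩) L72_nodup L72_len

/-- The members of order dividing three. -/
def L9 : List (List ℕ) :=
  [[4, 1, 2, 3, 5, 0, 21, 8, 23, 19, 13, 14, 11, 17, 12, 15, 6, 10, 9, 18, 20, 16, 22, 7],
   [5, 1, 2, 3, 0, 4, 16, 23, 7, 18, 17, 12, 14, 10, 11, 15, 21, 13, 19, 9, 20, 6, 22, 8],
   [4, 1, 2, 3, 5, 0, 6, 13, 17, 18, 11, 23, 8, 14, 7, 20, 16, 12, 19, 9, 22, 21, 15, 10],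
   [5, 1, 2, 3, 0, 4, 6, 14, 12, 19, 23, 10, 17, 7, 13, 22, 16, 8, 9, 18, 15, 21, 20, 11],
   [4, 1, 2, 3, 5, 0, 16, 11, 14, 9, 8, 17, 13, 23, 10, 22, 21, 7, 18, 19, 15, 6, 20, 12],
   [5, 1, 2, 3, 0, 4, 21, 17, 10, 9, 14, 7, 23, 12, 8, 20, 6, 11, 18, 19, 22, 16, 15, 13],
   [0, 1, 2, 3, 4, 5, 21, 12, 11, 18, 7, 13, 10, 8, 17, 22, 6, 23, 19, 9, 15, 16, 20, 14],
   [0, 1, 2, 3, 4, 5, 16, 10, 13, 19, 12, 8, 7, 11, 23, 20, 21, 14, 9, 18, 22, 6, 15, 17],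
   [0, 1, 2, 3, 4, 5, 6, 7, 8, 9, 10, 11, 12, 13, 14, 15, 16, 17, 18, 19, 20, 21, 22, 23]]

theorem L9_ok : listOK L9 = true := by decide +kernel

theorem L9_nodup : L9.Nodup := by decide +kernel

theorem L9_len : L9.length = 9 := by decide

theorem L9_chk : L9.all (fun l => isM24L l && (actM l 0 8551822 == 8551822 && actM l 0 2 == 2 && actM l 0 4 == 4 && actM l 0 8 == 8)) = true := by decide +kernel

theorem L9_cube : L9.all (fun l => compL l (compL l l) == idL) = true := by decide +kernel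

theorem L72_norm : L72.all (fun g => L9.all (fun n => L9.any (fun n' =>
    compL g n == compL n' g))) = true := by decide +kernel

theorem L9_perm {l : List ℕ} (hl : l ∈ L9) : isPermL l = true := by
  have := List.all_eq_true.mp L9_chk l hl
  rw [Bool.and_eq_true] at this
  exact isPermL_of_isM24L this.1

/-- The normal subgroup of order nine. -/
def N9 : Subgroup (Equiv.Perm GolayPt) := listSub L9 L9_ok

theorem card_N9 : Nat.card N9 = 9 := by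
  have := card_listSub L9 L9_ok L9_nodup
  rw [L9_len] at this
  exact this

theorem N9_le : N9 ≤ Km9 := by
  intro g hg
  obtain ⟨l, hl, rfl⟩ := mem_listSub.mp hg
  have := List.all_eq_true.mp L9_chk l hl
  rw [Bool.and_eq_true] at this
  exact memKm9 l this.1 this.2

theorem N9_normal : (N9.subgroupOf Km9).Normal := by
  refine ⟨fun n hn g => ?_⟩
  rw [Subgroup.mem_subgroupOf] at hn ⊢
  obtain ⟨nl, hnl, hne⟩ := mem_listSub.mp hn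
  obtain ⟨gl, hgl, hge⟩ := Km9_list g.1 g.2
  show (g : Equiv.Perm GolayPt) * (n : Equiv.Perm GolayPt) * (g : Equiv.Perm GolayPt)⁻¹ ∈ N9
  rw [hne, hge]
  have := List.all_eq_true.mp (List.all_eq_true.mp L72_norm gl hgl) nl hnl
  obtain ⟨n', hn', e⟩ := List.any_eq_true.mp this
  rw [permL_conj (isPermL_of_isM24L (L72_perm hgl)) (L9_perm hnl) (L9_perm hn') (beq_iff_eq.mp e)]
  exact mem_listSub.mpr ⟨n', hn', rfl⟩

theorem N9_cube (x : ↥Km9) (hx : x ∈ N9.subgroupOf Km9) : x ^ 3 = 1 := by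
  rw [Subgroup.mem_subgroupOf] at hx
  obtain ⟨l, hl, he⟩ := mem_listSub.mp hx
  have hp := L9_perm hl
  have h3 := beq_iff_eq.mp (List.all_eq_true.mp L9_cube l hl)
  have : x * x * x = 1 := by
    apply Subtype.ext
    show (x : Equiv.Perm GolayPt) * (x : Equiv.Perm GolayPt) * (x : Equiv.Perm GolayPt) = 1
    rw [he, mul_assoc, permL_mul hp hp, permL_mul hp (isPermL_compL hp hp), h3, permL_idL]
  rw [pow_three', this]

/-- Images of the rotations of the quaternion group. -/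
def qA : List (List ℕ) :=
  [[0, 1, 2, 3, 4, 5, 6, 7, 8, 9, 10, 11, 12, 13, 14, 15, 16, 17, 18, 19, 20, 21, 22, 23],
   [22, 1, 2, 3, 15, 20, 9, 10, 12, 6, 17, 11, 13, 14, 8, 5, 18, 23, 21, 16, 4, 19, 0, 7],
   [0, 1, 2, 3, 5, 4, 6, 17, 13, 9, 23, 11, 14, 8, 12, 20, 21, 7, 19, 18, 15, 16, 22, 10],
   [22, 1, 2, 3, 20, 15, 9, 23, 14, 6, 7, 11, 8, 12, 13, 4, 19, 10, 16, 21, 5, 18, 0, 17]]

/-- Images of the other members of the quaternion group. -/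
def qX : List (List ℕ) :=
  [[6, 1, 2, 3, 16, 21, 0, 14, 10, 22, 13, 11, 7, 23, 17, 19, 5, 12, 15, 20, 18, 4, 9, 8],
   [9, 1, 2, 3, 19, 18, 22, 13, 7, 0, 12, 11, 23, 17, 10, 21, 15, 8, 4, 5, 16, 20, 6, 14],
   [6, 1, 2, 3, 21, 16, 0, 12, 23, 22, 8, 11, 17, 10, 7, 18, 4, 14, 20, 15, 19, 5, 9, 13],
   [9, 1, 2, 3, 18, 19, 22, 8, 17, 0, 14, 11, 10, 7, 23, 16, 20, 13, 5, 4, 21, 15, 6, 12]]

/-- The embedding of the quaternion group, on the level of lists. -/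
def fL : QuaternionGroup 2 → List ℕ
  | QuaternionGroup.a i => qA.getD (ZMod.val i) []
  | QuaternionGroup.xa i => qX.getD (ZMod.val i) []

theorem fL_aa : ∀ i j : ZMod 4, fL (QuaternionGroup.a i * QuaternionGroup.a j) =
    compL (fL (QuaternionGroup.a i)) (fL (QuaternionGroup.a j)) := by decide +kernel

theorem fL_ax : ∀ i j : ZMod 4, fL (QuaternionGroup.a i * QuaternionGroup.xa j) =
    compL (fL (QuaternionGroup.a i)) (fL (QuaternionGroup.xa j)) := by decide +kernel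

theorem fL_xa : ∀ i j : ZMod 4, fL (QuaternionGroup.xa i * QuaternionGroup.a j) =
    compL (fL (QuaternionGroup.xa i)) (fL (QuaternionGroup.a j)) := by decide +kernel

theorem fL_xx : ∀ i j : ZMod 4, fL (QuaternionGroup.xa i * QuaternionGroup.xa j) =
    compL (fL (QuaternionGroup.xa i)) (fL (QuaternionGroup.xa j)) := by decide +kernel

theorem fL_mul (x y : QuaternionGroup 2) : fL (x * y) = compL (fL x) (fL y) := by
  cases x with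
  | a i =>
    cases y with
    | a j => exact fL_aa i j
    | xa j => exact fL_ax i j
  | xa i =>
    cases y with
    | a j => exact fL_xa i j
    | xa j => exact fL_xx i j

theorem fL_chk_a : ∀ i : ZMod 4, (fun l => isM24L l && (actM l 0 8551822 == 8551822 && actM l 0 2 == 2 && actM l 0 4 == 4 && actM l 0 8 == 8)) (fL (QuaternionGroup.a i)) = true := by
  decide +kernel

theorem fL_chk_x : ∀ i : ZMod 4, (fun l => isM24L l && (actM l 0 8551822 == 8551822 && actM l 0 2 == 2 && actM l 0 4 == 4 && actM l 0 8 == 8)) (fL (QuaternionGroup.xa i)) = true := by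
  decide +kernel

theorem fL_chk (x : QuaternionGroup 2) : (isM24L (fL x) && ((fun l => actM l 0 8551822 == 8551822 && actM l 0 2 == 2 && actM l 0 4 == 4 && actM l 0 8 == 8) (fL x))) = true := by
  cases x with
  | a i => exact fL_chk_a i
  | xa i => exact fL_chk_x i

theorem fL_perm (x : QuaternionGroup 2) : isPermL (fL x) = true := by
  have := fL_chk x
  rw [Bool.and_eq_true] at this
  exact isPermL_of_isM24L this.1

theorem fL_mem (x : QuaternionGroup 2) : permL (fL x) ∈ Km9 := by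
  have := fL_chk x
  rw [Bool.and_eq_true] at this
  exact memKm9 (fL x) this.1 this.2

theorem fL_inj_aa : ∀ i j : ZMod 4, fL (QuaternionGroup.a i) = fL (QuaternionGroup.a j) →
    (QuaternionGroup.a i : QuaternionGroup 2) = QuaternionGroup.a j := by decide +kernel

theorem fL_inj_ax : ∀ i j : ZMod 4, fL (QuaternionGroup.a i) = fL (QuaternionGroup.xa j) →
    (QuaternionGroup.a i : QuaternionGroup 2) = QuaternionGroup.xa j := by decide +kernel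

theorem fL_inj_xa : ∀ i j : ZMod 4, fL (QuaternionGroup.xa i) = fL (QuaternionGroup.a j) →
    (QuaternionGroup.xa i : QuaternionGroup 2) = QuaternionGroup.a j := by decide +kernel

theorem fL_inj_xx : ∀ i j : ZMod 4, fL (QuaternionGroup.xa i) = fL (QuaternionGroup.xa j) →
    (QuaternionGroup.xa i : QuaternionGroup 2) = QuaternionGroup.xa j := by decide +kernel

theorem fL_inj (x y : QuaternionGroup 2) (h : fL x = fL y) : x = y := by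
  cases x with
  | a i =>
    cases y with
    | a j => exact fL_inj_aa i j h
    | xa j => exact fL_inj_ax i j h
  | xa i =>
    cases y with
    | a j => exact fL_inj_xa i j h
    | xa j => exact fL_inj_xx i j h

theorem fL_one : fL 1 = idL := by decide +kernel

/-- The embedding of the quaternion group. -/
noncomputable def qHom : QuaternionGroup 2 →* Equiv.Perm GolayPt where
  toFun x := permL (fL x)
  map_one' := by
    show permL (fL 1) = 1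
    rw [fL_one, permL_idL]
  map_mul' x y := by
    show permL (fL (x * y)) = permL (fL x) * permL (fL y)
    rw [fL_mul, permL_mul (fL_perm x) (fL_perm y)]

theorem qHom_inj : Function.Injective qHom := by
  intro x y h
  exact fL_inj x y (permL_inj (fL_perm x) (fL_perm y) h)

theorem qRange_le : qHom.range ≤ Km9 := by
  rintro _ ⟨x, rfl⟩
  exact fL_mem x

theorem m9like_base : M9like ↥Km9 := by
  refine ⟨card_Km9, ⟨N9.subgroupOf Km9, N9_normal, ?_, N9_cube⟩, qHom.range.subgroupOf Km9, ⟨?_⟩⟩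
  · rw [← card_N9]
    exact Nat.card_congr (Subgroup.subgroupOfEquivOfLe N9_le).toEquiv
  · exact (Subgroup.subgroupOfEquivOfLe qRange_le).trans (MonoidHom.ofInjective qHom_inj).symm

theorem Km9_eq : Km9 = (((M24 ⊓ MulAction.stabilizer (Equiv.Perm GolayPt) (mset 8551822)) ⊓
    MulAction.stabilizer (Equiv.Perm GolayPt) (ptOf 1)) ⊓
    MulAction.stabilizer (Equiv.Perm GolayPt) (ptOf 2)) ⊓
    MulAction.stabilizer (Equiv.Perm GolayPt) (ptOf 3) := by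
  have m2 : mset 2 = {ptOf 1} := mset_single (i := 1) (by norm_num)
  have m4 : mset 4 = {ptOf 2} := mset_single (i := 2) (by norm_num)
  have m8 : mset 8 = {ptOf 3} := mset_single (i := 3) (by norm_num)
  unfold Km9 Km10 Km11 Kdod
  rw [m2, m4, m8, stab_single, stab_single, stab_single]

/-- In the group of the length-24 code, the subgroup fixing a dodecad setwise and three of its points individually (a group of order 72) has a normal Sylow 3-subgroup that is elementary abelian of order 9, and its Sylow 2-subgroups are quaternion of order 8. -/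
theorem result (d : Finset Cfsg.GolayPt) (hd : d ∈ Cfsg.dodecads) (p q r : Cfsg.GolayPt) (hp : p ∈ d) (hq : q ∈ d) (hr : r ∈ d) (hpq : p ≠ q) (hpr : p ≠ r) (hqr : q ≠ r) : (∀ Q : Sylow 3 ↥(MulAction.stabilizer Cfsg.M24 d ⊓ MulAction.stabilizer Cfsg.M24 p ⊓ MulAction.stabilizer Cfsg.M24 q ⊓ MulAction.stabilizer Cfsg.M24 r), (Q : Subgroup ↥(MulAction.stabilizer Cfsg.M24 d ⊓ MulAction.stabilizer Cfsg.M24 p ⊓ MulAction.stabilizer Cfsg.M24 q ⊓ MulAction.stabilizer Cfsg.M24 r)).Normal ∧ Nat.card ↥Q = 9 ∧ ∀ x ∈ (Q : Subgroup ↥(MulAction.stabilizer Cfsg.M24 d ⊓ MulAction.stabilizer Cfsg.M24 p ⊓ MulAction.stabilizer Cfsg.M24 q ⊓ MulAction.stabilizer Cfsg.M24 r)), x ^ 3 = 1) ∧ ∀ P : Sylow 2 ↥(MulAction.stabilizer Cfsg.M24 d ⊓ MulAction.stabilizer Cfsg.M24 p ⊓ MulAction.stabilizer Cfsg.M24 q ⊓ MulAction.stabilizer Cfsg.M24 r), Nonempty (↥P ≃* QuaternionGroup 2) := by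
  obtain ⟨g, hg, rfl, rfl, rfl, rfl⟩ := exists_transport hd hp hq hr hpq hpr hqr
  have h1 : M9like ↥((((M24 ⊓ MulAction.stabilizer (Equiv.Perm GolayPt) (mset 8551822)) ⊓
      MulAction.stabilizer (Equiv.Perm GolayPt) (ptOf 1)) ⊓
      MulAction.stabilizer (Equiv.Perm GolayPt) (ptOf 2)) ⊓
      MulAction.stabilizer (Equiv.Perm GolayPt) (ptOf 3)) := by
    rw [← Km9_eq]
    exact m9like_base
  have h2 := M9like.congr (conjStab4 hg (mset 8551822) (ptOf 1) (ptOf 2) (ptOf 3)) h1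
  have h3 := M9like.congr (bridgeStab4 (g • mset 8551822) (g • ptOf 1) (g • ptOf 2)
    (g • ptOf 3)).symm h2
  exact h3.sylow

end Cfsg.Agent.S5619
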