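import Cfsg.Statements.S5620
import Mathlib
import Cfsg.Agent.Lib.Helper9.GolayPerm

set_option autoImplicit false
open scoped Pointwise
open Cfsg

namespace Cfsg.Agent.S5620

open scoped Pointwise

theorem mem_M12_iff (x : Equiv.Perm Cfsg.GolayPt) : x ∈ Cfsg.Spor.M12 ↔
    x ∈ Cfsg.M24 ∧ ∀ p, x p ∈ Cfsg.Spor.squareDodecad ↔ p ∈ Cfsg.Spor.squareDodecad := by
  unfold Cfsg.Spor.M12
  rw [Subgroup.mem_inf]
  constructor
  · rintro ⟨h1, h2⟩
    exact ⟨h1, (Lib.Helper9.smul_finset_eq_iff x _).1 (MulAction.mem_stabilizer_iff.1 h2)⟩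
  · rintro ⟨h1, h2⟩
    exact ⟨h1, MulAction.mem_stabilizer_iff.2 ((Lib.Helper9.smul_finset_eq_iff x _).2 h2)⟩

theorem mem_M11_iff (x : Equiv.Perm Cfsg.GolayPt) : x ∈ Cfsg.Spor.M11 ↔
    x ∈ Cfsg.Spor.M12 ∧ x (some 0) = some 0 := by
  unfold Cfsg.Spor.M11
  rw [Subgroup.mem_inf, MulAction.mem_stabilizer_iff]
  rfl

theorem mem_M12_none_iff (x : Equiv.Perm Cfsg.GolayPt) :
    x ∈ Cfsg.Spor.M12 ⊓ MulAction.stabilizer (Equiv.Perm Cfsg.GolayPt) (none : Cfsg.GolayPt) ↔
    x ∈ Cfsg.Spor.M12 ∧ x none = none := by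
  rw [Subgroup.mem_inf, MulAction.mem_stabilizer_iff]
  rfl

theorem mem_conj_smul_iff (g x : Equiv.Perm Cfsg.GolayPt) (H : Subgroup (Equiv.Perm Cfsg.GolayPt)) :
    x ∈ MulAut.conj g • H ↔ g⁻¹ * x * g ∈ H := by
  rw [Subgroup.mem_pointwise_smul_iff_inv_smul_mem]
  simp [MulAut.smul_def]

theorem projInv_D : ∀ p, Cfsg.projInv p ∈ Cfsg.Spor.squareDodecad ↔ p ∉ Cfsg.Spor.squareDodecad := by
  decide +kernel

theorem projInv_inv : (Cfsg.projInv)⁻¹ = Cfsg.projInv := by
  apply Equiv.ext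
  intro p
  rfl

theorem conj_projInv : MulAut.conj Cfsg.projInv • Cfsg.Spor.M11 =
    Cfsg.Spor.M12 ⊓ MulAction.stabilizer (Equiv.Perm Cfsg.GolayPt) (none : Cfsg.GolayPt) := by
  ext x
  rw [mem_conj_smul_iff, mem_M11_iff, mem_M12_none_iff, mem_M12_iff, mem_M12_iff, projInv_inv]
  have hg := Lib.Helper9.projInv_mem_M24
  have hinv : ∀ p, Cfsg.projInv (Cfsg.projInv p) = p := by decide
  constructor
  · rintro ⟨⟨h1, h2⟩, h3⟩
    refine ⟨⟨?_, ?_⟩, ?_⟩
    · have := Cfsg.M24.mul_mem (Cfsg.M24.mul_mem hg h1) hg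
      have e : Cfsg.projInv * (Cfsg.projInv * x * Cfsg.projInv) * Cfsg.projInv = x := by
        apply Equiv.ext
        intro p
        simp [Equiv.Perm.mul_apply, hinv]
      rw [e] at this
      exact this
    · intro q
      have := h2 (Cfsg.projInv q)
      simp only [Equiv.Perm.mul_apply, hinv] at this
      rw [projInv_D, projInv_D] at this
      tauto
    · simp only [Equiv.Perm.mul_apply] at h3
      have h4 : Cfsg.projInv (some 0) = none := by decide
      rw [h4] at h3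
      have := congrArg Cfsg.projInv h3
      rw [hinv] at this
      rw [this]
      decide
  · rintro ⟨⟨h1, h2⟩, h3⟩
    refine ⟨⟨Cfsg.M24.mul_mem (Cfsg.M24.mul_mem hg h1) hg, ?_⟩, ?_⟩
    · intro p
      simp only [Equiv.Perm.mul_apply]
      rw [projInv_D, h2, projInv_D]
      tauto
    · simp only [Equiv.Perm.mul_apply]
      have h4 : Cfsg.projInv (some 0) = none := by decide
      rw [h4, h3]
      decide

theorem mu_mem : Lib.Helper9.mu ∈ Cfsg.Spor.M12 ∧ Lib.Helper9.mu none = none := by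
  rw [mem_M12_iff]
  exact ⟨⟨Lib.Helper9.mu_mem_M24, by decide +kernel⟩, by decide +kernel⟩

theorem mu_moves : ∀ p ∈ Cfsg.Spor.squareDodecad, p ≠ some 0 → Lib.Helper9.mu p ≠ p := by
  decide +kernel

theorem hZero_mem : Lib.Helper9.hZero ∈ Cfsg.Spor.M12 ∧ Lib.Helper9.hZero none = none := by
  rw [mem_M12_iff]
  exact ⟨⟨Lib.Helper9.hZero_mem_M24, by decide +kernel⟩, by decide +kernel⟩

theorem hZero_moves : Lib.Helper9.hZero (some 0) ≠ some 0 := by decide +kernel

theorem zero_mem_D : (some 0 : Cfsg.GolayPt) ∈ Cfsg.Spor.squareDodecad := by decide +kernel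

/-- Inside the stabiliser of the dodecad of squares (a Mathieu group of degree 12), the stabiliser of the residue 0 (a point of the dodecad) and the stabiliser of the extra point (a point outside the dodecad) are isomorphic but not conjugate; conjugation by a suitable element of the code's group that maps the dodecad of squares onto its complement carries the first onto the second. -/
theorem result : Nonempty (↥(Cfsg.Spor.M12 ⊓ MulAction.stabilizer (Equiv.Perm Cfsg.GolayPt) (none : Cfsg.GolayPt)) ≃* ↥Cfsg.Spor.M11) ∧ (¬ ∃ k ∈ Cfsg.Spor.M12, MulAut.conj k • Cfsg.Spor.M11 = Cfsg.Spor.M12 ⊓ MulAction.stabilizer (Equiv.Perm Cfsg.GolayPt) (none : Cfsg.GolayPt)) ∧ ∃ g ∈ Cfsg.M24, g • Cfsg.Spor.squareDodecad = Finset.univ \ Cfsg.Spor.squareDodecad ∧ MulAut.conj g • Cfsg.Spor.M11 = Cfsg.Spor.M12 ⊓ MulAction.stabilizer (Equiv.Perm Cfsg.GolayPt) (none : Cfsg.GolayPt) := by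
  refine ⟨?_, ?_, ?_⟩
  · have e := Subgroup.equivSMul (MulAut.conj Cfsg.projInv) Cfsg.Spor.M11
    rw [conj_projInv] at e
    exact ⟨e.symm⟩
  · rintro ⟨k, hk, hconj⟩
    have hkD := ((mem_M12_iff k).1 hk).2
    have hp : k (some 0) ∈ Cfsg.Spor.squareDodecad := (hkD (some 0)).2 zero_mem_D
    have key : ∀ x : Equiv.Perm Cfsg.GolayPt, x ∈ Cfsg.Spor.M12 → x none = none →
        x (k (some 0)) = k (some 0) := by
      intro x hx hx0
      have hmem : x ∈ MulAut.conj k • Cfsg.Spor.M11 := by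
        rw [hconj, mem_M12_none_iff]
        exact ⟨hx, hx0⟩
      rw [mem_conj_smul_iff, mem_M11_iff] at hmem
      have := hmem.2
      simp only [Equiv.Perm.mul_apply] at this
      have h2 := congrArg k this
      simpa using h2
    by_cases h0 : k (some 0) = some 0
    · have := key _ hZero_mem.1 hZero_mem.2
      rw [h0] at this
      exact hZero_moves this
    · have := key _ mu_mem.1 mu_mem.2
      exact mu_moves _ hp h0 this
  · refine ⟨Cfsg.projInv, Lib.Helper9.projInv_mem_M24, ?_, conj_projInv⟩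
    ext p
    rw [← Finset.inv_smul_mem_iff, projInv_inv, Equiv.Perm.smul_def, projInv_D]
    simp

end Cfsg.Agent.S5620
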