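import Cfsg.Statements.S5623
import Mathlib
import Cfsg.Agent.Lib.Helper9.Code24

set_option autoImplicit false
open Cfsg

namespace Cfsg.Agent.S5623

/-- Let C be a self-dual binary code of length 24 with minimum weight at least 8 (a 12-dimensional subspace of the 24-dimensional space over the field with two elements, any two of whose words have dot product zero, with no non-zero word of weight below 8 — an abstract extended binary Golay code). Then every coset w + C of C in the ambient space contains either exactly one word of weight at most 4, which then has weight at most 3, or exactly six words of weight at most 4, all of weight exactly 4 and with pairwise disjoint supports (a sextet). -/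
theorem result (C : Submodule (ZMod 2) (Fin 24 → ZMod 2)) (hdim : Module.finrank (ZMod 2) C = 12) (horth : ∀ v ∈ C, ∀ w ∈ C, ∑ i, v i * w i = 0) (hmin : ∀ w ∈ C, w ≠ 0 → 8 ≤ hammingNorm w) (w : Fin 24 → ZMod 2) : (∃ u : Fin 24 → ZMod 2, {u : Fin 24 → ZMod 2 | u - w ∈ C ∧ hammingNorm u ≤ 4} = {u} ∧ hammingNorm u ≤ 3) ∨ ({u : Fin 24 → ZMod 2 | u - w ∈ C ∧ hammingNorm u ≤ 4}.ncard = 6 ∧ ∀ u ∈ {u : Fin 24 → ZMod 2 | u - w ∈ C ∧ hammingNorm u ≤ 4}, hammingNorm u = 4 ∧ ∀ u' ∈ {u : Fin 24 → ZMod 2 | u - w ∈ C ∧ hammingNorm u ≤ 4}, u ≠ u' → Disjoint (Finset.univ.filter fun i => u i ≠ 0) (Finset.univ.filter fun i => u' i ≠ 0)) := by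
  by_cases h : ∀ u : Fin 24 → ZMod 2, u - w ∈ C → 4 ≤ hammingNorm u
  · right
    have hset : {u : Fin 24 → ZMod 2 | u - w ∈ C ∧ hammingNorm u ≤ 4} =
        {u : Fin 24 → ZMod 2 | u - w ∈ C ∧ hammingNorm u = 4} := by
      ext u
      simp only [Set.mem_setOf_eq]
      constructor
      · rintro ⟨h1, h2⟩
        exact ⟨h1, le_antisymm h2 (h u h1)⟩
      · rintro ⟨h1, h2⟩
        exact ⟨h1, h2.le⟩
    rw [hset]
    refine ⟨Lib.Helper9.coset_count C hdim hmin w h, ?_⟩
    rintro u ⟨hu1, hu2⟩
    refine ⟨hu2, ?_⟩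
    rintro u' ⟨hu1', hu2'⟩ hne
    have hd : u - u' ∈ C := by
      have := C.sub_mem hu1 hu1'
      simpa using this
    exact (Lib.Helper9.leaders_disjoint C hmin hd hne hu2.le hu2'.le).2.2
  · left
    push Not at h
    obtain ⟨u0, hu1, hu2⟩ := h
    refine ⟨u0, ?_, by omega⟩
    ext u
    simp only [Set.mem_setOf_eq, Set.mem_singleton_iff]
    constructor
    · rintro ⟨h1, h2⟩
      by_contra hne
      have hd : u - u0 ∈ C := by
        have := C.sub_mem h1 hu1
        simpa using this
      have := Lib.Helper9.leaders_disjoint C hmin hd hne h2 (by omega)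
      omega
    · rintro rfl
      exact ⟨hu1, by omega⟩

end Cfsg.Agent.S5623
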