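import Cfsg.Statements.S5625
import Mathlib
import Cfsg.Agent.Lib.Helper9.Steiner

set_option autoImplicit false
open Cfsg

namespace Cfsg.Agent.S5625

/-- In any Steiner system S(5, 8, 24) and for any set Y of three points, the blocks meeting Y in exactly 3, 2, 1 and 0 points number 21, 168, 360 and 210 respectively (so there are 759 blocks in all). -/
theorem result (α : Type*) [Fintype α] [DecidableEq α] (hα : Fintype.card α = 24) (B : Set (Finset α)) (hB : Cfsg.IsSteinerSystem 5 8 B) (Y : Finset α) (hY : Y.card = 3) : {b : Finset α | b ∈ B ∧ (b ∩ Y).card = 3}.ncard = 21 ∧ {b : Finset α | b ∈ B ∧ (b ∩ Y).card = 2}.ncard = 168 ∧ {b : Finset α | b ∈ B ∧ (b ∩ Y).card = 1}.ncard = 360 ∧ {b : Finset α | b ∈ B ∧ (b ∩ Y).card = 0}.ncard = 210 := by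
  classical
  let 𝔅 : Finset (Finset α) := Finset.univ.filter (fun b => b ∈ B)
  let n : ℕ → ℕ := fun i => (𝔅.filter (fun b => (b ∩ Y).card = i)).card
  have hn : ∀ j, {b : Finset α | b ∈ B ∧ (b ∩ Y).card = j}.ncard = n j := by
    intro j
    show _ = (𝔅.filter (fun b => (b ∩ Y).card = j)).card
    rw [← Set.ncard_coe_finset]
    congr 1
    ext b
    simp [𝔅]
  have hlam : ∀ S : Finset α, S.card ≤ 5 →
      (𝔅.filter (fun b => S ⊆ b)).card * (8 - S.card).choose (5 - S.card) =
        (24 - S.card).choose (5 - S.card) := by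
    intro S hS
    have h := Cfsg.Agent.Lib.Helper9.steiner_count hB S hS
    rw [hα] at h
    rw [← h, ← Set.ncard_coe_finset]
    congr 2
    ext b
    simp [𝔅]
  have key : ∀ j, ∑ b ∈ 𝔅, ((b ∩ Y).card).choose j =
      ∑ S ∈ Y.powersetCard j, (𝔅.filter (fun b => S ⊆ b)).card := by
    intro j
    have h1 : ∀ b ∈ 𝔅, ((b ∩ Y).card).choose j = ((Y.powersetCard j).filter (fun S => S ⊆ b)).card := by
      intro b _
      rw [← Finset.card_powersetCard]
      congr 1
      ext S
      simp only [Finset.mem_powersetCard, Finset.mem_filter, Finset.subset_inter_iff]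
      tauto
    rw [Finset.sum_congr rfl h1]
    exact Finset.sum_card_bipartiteAbove_eq_sum_card_bipartiteBelow (fun (b : Finset α) (S : Finset α) => S ⊆ b)
  have hfib : ∀ j, ∑ b ∈ 𝔅, ((b ∩ Y).card).choose j =
      n 0 * Nat.choose 0 j + n 1 * Nat.choose 1 j + n 2 * Nat.choose 2 j + n 3 * Nat.choose 3 j := by
    intro j
    have hmaps : ∀ b ∈ 𝔅, (b ∩ Y).card ∈ Finset.range 4 := by
      intro b _
      rw [Finset.mem_range]
      have := Finset.card_le_card (Finset.inter_subset_right : b ∩ Y ⊆ Y)
      omega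
    rw [← Finset.sum_fiberwise_of_maps_to hmaps]
    have h2 : ∀ i ∈ Finset.range 4, ∑ b ∈ 𝔅 with (b ∩ Y).card = i, ((b ∩ Y).card).choose j
        = n i * Nat.choose i j := by
      intro i _
      apply Finset.sum_const_nat
      intro b hb
      rw [(Finset.mem_filter.mp hb).2]
    rw [Finset.sum_congr rfl h2]
    simp [Finset.sum_range_succ]
  have hval : ∀ j, j ≤ 3 → ∀ S ∈ Y.powersetCard j,
      (𝔅.filter (fun b => S ⊆ b)).card * (8 - j).choose (5 - j) = (24 - j).choose (5 - j) := by
    intro j hj S hS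
    rw [Finset.mem_powersetCard] at hS
    have := hlam S (by omega)
    rw [hS.2] at this
    exact this
  have e0 : ∑ S ∈ Y.powersetCard 0, (𝔅.filter (fun b => S ⊆ b)).card = 759 := by
    have : ∀ S ∈ Y.powersetCard 0, (𝔅.filter (fun b => S ⊆ b)).card = 759 := by
      intro S hS
      have := hval 0 (by norm_num) S hS
      have c1 : (8 - 0).choose (5 - 0) = 56 := by decide
      have c2 : (24 - 0).choose (5 - 0) = 42504 := by decide
      rw [c1, c2] at this
      omega
    rw [Finset.sum_const_nat this, Finset.card_powersetCard, hY]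
    simp [Nat.choose]
  have e1 : ∑ S ∈ Y.powersetCard 1, (𝔅.filter (fun b => S ⊆ b)).card = 759 := by
    have : ∀ S ∈ Y.powersetCard 1, (𝔅.filter (fun b => S ⊆ b)).card = 253 := by
      intro S hS
      have := hval 1 (by norm_num) S hS
      have c1 : (8 - 1).choose (5 - 1) = 35 := by decide
      have c2 : (24 - 1).choose (5 - 1) = 8855 := by decide
      rw [c1, c2] at this
      omega
    rw [Finset.sum_const_nat this, Finset.card_powersetCard, hY]
    simp [Nat.choose]
  have e2 : ∑ S ∈ Y.powersetCard 2, (𝔅.filter (fun b => S ⊆ b)).card = 231 := by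
    have : ∀ S ∈ Y.powersetCard 2, (𝔅.filter (fun b => S ⊆ b)).card = 77 := by
      intro S hS
      have := hval 2 (by norm_num) S hS
      have c1 : (8 - 2).choose (5 - 2) = 20 := by decide
      have c2 : (24 - 2).choose (5 - 2) = 1540 := by decide
      rw [c1, c2] at this
      omega
    rw [Finset.sum_const_nat this, Finset.card_powersetCard, hY]
    simp [Nat.choose]
  have e3 : ∑ S ∈ Y.powersetCard 3, (𝔅.filter (fun b => S ⊆ b)).card = 21 := by
    have : ∀ S ∈ Y.powersetCard 3, (𝔅.filter (fun b => S ⊆ b)).card = 21 := by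
      intro S hS
      have := hval 3 (by norm_num) S hS
      have c1 : (8 - 3).choose (5 - 3) = 10 := by decide
      have c2 : (24 - 3).choose (5 - 3) = 210 := by decide
      rw [c1, c2] at this
      omega
    rw [Finset.sum_const_nat this, Finset.card_powersetCard, hY]
    simp [Nat.choose]
  have q0 := (hfib 0).symm.trans ((key 0).trans e0)
  have q1 := (hfib 1).symm.trans ((key 1).trans e1)
  have q2 := (hfib 2).symm.trans ((key 2).trans e2)
  have q3 := (hfib 3).symm.trans ((key 3).trans e3)
  have c00 : Nat.choose 0 0 = 1 := by decide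
  have c10 : Nat.choose 1 0 = 1 := by decide
  have c20 : Nat.choose 2 0 = 1 := by decide
  have c30 : Nat.choose 3 0 = 1 := by decide
  have c01 : Nat.choose 0 1 = 0 := by decide
  have c11 : Nat.choose 1 1 = 1 := by decide
  have c21 : Nat.choose 2 1 = 2 := by decide
  have c31 : Nat.choose 3 1 = 3 := by decide
  have c02 : Nat.choose 0 2 = 0 := by decide
  have c12 : Nat.choose 1 2 = 0 := by decide
  have c22 : Nat.choose 2 2 = 1 := by decide
  have c32 : Nat.choose 3 2 = 3 := by decide
  have c03 : Nat.choose 0 3 = 0 := by decide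
  have c13 : Nat.choose 1 3 = 0 := by decide
  have c23 : Nat.choose 2 3 = 0 := by decide
  have c33 : Nat.choose 3 3 = 1 := by decide
  rw [c00, c10, c20, c30] at q0
  rw [c01, c11, c21, c31] at q1
  rw [c02, c12, c22, c32] at q2
  rw [c03, c13, c23, c33] at q3
  rw [hn 3, hn 2, hn 1, hn 0]
  refine ⟨?_, ?_, ?_, ?_⟩ <;> omega

end Cfsg.Agent.S5625
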