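import Cfsg.Statements.S5632
import Mathlib
import Cfsg.Agent.Lib.Helper9.Transvection

set_option autoImplicit false
open Cfsg

namespace Cfsg.Agent.S5632

/-- For a finite field F and subspaces 0 < W < U of F^n with dim W + dim U = n, the elements of SL_n(F) stabilising both W and U form a subgroup that is not maximal in SL_n(F): some subgroup lies strictly between it and SL_n(F). -/
theorem result {F : Type*} [Field F] [Fintype F] (n : ℕ) (W U : Submodule F (Fin n → F)) (hW0 : W ≠ ⊥) (hWU : W < U) (hdim : Module.finrank F W + Module.finrank F U = n) : ∃ K : Subgroup (Matrix.GeneralLinearGroup (Fin n) F), Cfsg.Geo.subspaceStabilizer W ⊓ Cfsg.Geo.subspaceStabilizer U ⊓ Cfsg.Geo.specialLinear (Fin n) F < K ∧ K < Cfsg.Geo.specialLinear (Fin n) F := by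
  classical
  have hWtop : W ≠ ⊤ := by
    rintro rfl
    exact lt_irrefl _ (lt_of_lt_of_le hWU le_top)
  have hUtop : U ≠ ⊤ := by
    rintro rfl
    have h1 : Module.finrank F (⊤ : Submodule F (Fin n → F)) = n := by simp
    have h2 : 0 < Module.finrank F W := by
      rw [Module.finrank_pos_iff]
      exact (Submodule.nontrivial_iff_ne_bot).mpr hW0
    omega
  obtain ⟨u, huU, huW⟩ : ∃ u ∈ U, u ∉ W := SetLike.exists_of_lt hWU
  obtain ⟨v, hvU⟩ : ∃ v, v ∉ U := by
    by_contra h
    push Not at h
    exact hUtop (eq_top_iff.mpr fun x _ => h x)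
  refine ⟨Geo.subspaceStabilizer W ⊓ Geo.specialLinear (Fin n) F, ?_,
    Lib.Helper9.subspaceStabilizer_inf_specialLinear_lt W hW0 hWtop⟩
  refine lt_of_le_of_ne (inf_le_inf_right _ inf_le_left) ?_
  intro heq
  have hu : u ∉ W ⊔ Submodule.span F {v} := by
    intro hmem
    obtain ⟨w', hw', y, hy, hsum⟩ := Submodule.mem_sup.mp hmem
    obtain ⟨c, rfl⟩ := Submodule.mem_span_singleton.mp hy
    by_cases hc0 : c = 0
    · subst hc0
      rw [zero_smul, add_zero] at hsum
      exact huW (hsum ▸ hw')
    · apply hvU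
      have : v = c⁻¹ • (u - w') := by
        rw [← hsum, add_sub_cancel_left, smul_smul, inv_mul_cancel₀ hc0, one_smul]
      rw [this]
      exact U.smul_mem _ (U.sub_mem huU (hWU.le hw'))
  obtain ⟨g, hgdet, hgfix, hgu⟩ := Lib.Helper9.exists_transvection (W ⊔ Submodule.span F {v}) v u
    (Submodule.mem_sup_right (Submodule.subset_span rfl)) hu
  have hgK : g ∈ Geo.subspaceStabilizer W ⊓ Geo.specialLinear (Fin n) F :=
    ⟨Lib.Helper9.mem_subspaceStabilizer_of_fix W g (fun x hx => hgfix x (Submodule.mem_sup_left hx)),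
      hgdet⟩
  rw [← heq] at hgK
  have := Lib.Helper9.mulVec_mem_of_mem_subspaceStabilizer hgK.1.2 huU
  rw [hgu] at this
  exact hvU ((U.add_mem_iff_right huU).mp this)

end Cfsg.Agent.S5632
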