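import Cfsg.Statements.S5633
import Mathlib
import Cfsg.Agent.Lib.Helper9.Transvection

set_option autoImplicit false
open Cfsg

namespace Cfsg.Agent.S5633

/-- For a finite field F and complementary non-zero subspaces W ⊕ U = F^n with dim W < dim U, the elements of SL_n(F) stabilising both W and U form a subgroup that is not maximal in SL_n(F): some subgroup lies strictly between it and SL_n(F). -/
theorem result {F : Type*} [Field F] [Fintype F] (n : ℕ) (W U : Submodule F (Fin n → F)) (hW0 : W ≠ ⊥) (hWU : W ⊓ U = ⊥) (hWU' : W ⊔ U = ⊤) (hdim : Module.finrank F W < Module.finrank F U) : ∃ K : Subgroup (Matrix.GeneralLinearGroup (Fin n) F), Cfsg.Geo.subspaceStabilizer W ⊓ Cfsg.Geo.subspaceStabilizer U ⊓ Cfsg.Geo.specialLinear (Fin n) F < K ∧ K < Cfsg.Geo.specialLinear (Fin n) F := by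
  classical
  have hU0 : U ≠ ⊥ := by
    rintro rfl
    simp at hdim
  have hWtop : W ≠ ⊤ := by
    rintro rfl
    apply hU0
    rwa [top_inf_eq] at hWU
  obtain ⟨w, hwW, hw0⟩ : ∃ w ∈ W, w ≠ 0 := Submodule.exists_mem_ne_zero_of_ne_bot hW0
  obtain ⟨u, huU, hu0⟩ : ∃ u ∈ U, u ≠ 0 := Submodule.exists_mem_ne_zero_of_ne_bot hU0
  have hdisj : ∀ x, x ∈ W → x ∈ U → x = 0 := by
    intro x hxW hxU
    have : x ∈ W ⊓ U := ⟨hxW, hxU⟩
    rw [hWU] at this
    simpa using this
  have huW : u ∉ W := fun h => hu0 (hdisj u h huU)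
  have hwU : w ∉ U := fun h => hw0 (hdisj w hwW h)
  refine ⟨Geo.subspaceStabilizer W ⊓ Geo.specialLinear (Fin n) F, ?_,
    Lib.Helper9.subspaceStabilizer_inf_specialLinear_lt W hW0 hWtop⟩
  refine lt_of_le_of_ne (inf_le_inf_right _ inf_le_left) ?_
  intro heq
  obtain ⟨g, hgdet, hgfix, hgu⟩ := Lib.Helper9.exists_transvection W w u hwW huW
  have hgK : g ∈ Geo.subspaceStabilizer W ⊓ Geo.specialLinear (Fin n) F :=
    ⟨Lib.Helper9.mem_subspaceStabilizer_of_fix W g hgfix, hgdet⟩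
  rw [← heq] at hgK
  have := Lib.Helper9.mulVec_mem_of_mem_subspaceStabilizer hgK.1.2 huU
  rw [hgu] at this
  exact hwU ((U.add_mem_iff_right huU).mp this)

end Cfsg.Agent.S5633
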