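import Cfsg.Statements.S5638
import Mathlib

set_option autoImplicit false
open Cfsg

namespace Cfsg.Agent.S5638

open scoped Kronecker

theorem f2_cases {F : Type*} [Field F] [Fintype F] (hq : Fintype.card F = 2) (x : F) :
    x = 0 ∨ x = 1 := by
  classical
  have h : ({0, 1} : Finset F) = Finset.univ :=
    Finset.eq_univ_of_card _ (by rw [Finset.card_pair zero_ne_one, hq])
  have hx : x ∈ ({0, 1} : Finset F) := by rw [h]; exact Finset.mem_univ x
  simpa using hx

theorem f2_two {F : Type*} [Field F] [Fintype F] (hq : Fintype.card F = 2) : (1 : F) + 1 = 0 := by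
  rcases f2_cases hq ((1 : F) + 1) with h | h
  · exact h
  · exfalso
    have h3 : (1 : F) + 1 = 1 + 0 := by rw [h, add_zero]
    exact one_ne_zero (add_left_cancel h3)

def om (F : Type*) [Field F] : Matrix (Fin 2) (Fin 2) F := !![0, 1; 1, 1]
def om' (F : Type*) [Field F] : Matrix (Fin 2) (Fin 2) F := !![1, 1; 1, 0]

theorem om_mul {F : Type*} [Field F] [Fintype F] (hq : Fintype.card F = 2) :
    om F * om' F = 1 := by
  have h2 := f2_two hq
  have h2' : (2 : F) = 0 := by rw [← one_add_one_eq_two]; exact h2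
  ext i j
  fin_cases i <;> fin_cases j <;>
    simp [om, om', Matrix.mul_apply, Fin.sum_univ_two, h2, h2']

theorem om_mul' {F : Type*} [Field F] [Fintype F] (hq : Fintype.card F = 2) :
    om' F * om F = 1 := by
  have h2 := f2_two hq
  have h2' : (2 : F) = 0 := by rw [← one_add_one_eq_two]; exact h2
  ext i j
  fin_cases i <;> fin_cases j <;>
    simp [om, om', Matrix.mul_apply, Fin.sum_univ_two, h2, h2']

theorem conj_om {F : Type*} [Field F] [Fintype F] (hq : Fintype.card F = 2)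
    (A : Matrix (Fin 2) (Fin 2) F) (hA : A.det ≠ 0) :
    A * om F = om F * A ∨ A * om F = om' F * A := by
  have h2 := f2_two hq
  have h2' : (2 : F) = 0 := by rw [← one_add_one_eq_two]; exact h2
  rw [Matrix.det_fin_two] at hA
  rcases f2_cases hq (A 0 0) with h00 | h00 <;> rcases f2_cases hq (A 0 1) with h01 | h01 <;>
  rcases f2_cases hq (A 1 0) with h10 | h10 <;> rcases f2_cases hq (A 1 1) with h11 | h11 <;>
  first
  | (exfalso; apply hA; simp [h00, h01, h10, h11]; done)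
  | (left; ext i j; fin_cases i <;> fin_cases j <;>
      (simp [om, om', Matrix.mul_apply, Fin.sum_univ_two, h00, h01, h10, h11, h2, h2']; done))
  | (right; ext i j; fin_cases i <;> fin_cases j <;>
      (simp [om, om', Matrix.mul_apply, Fin.sum_univ_two, h00, h01, h10, h11, h2, h2']; done))

theorem sl_top {F : Type*} [Field F] [Fintype F] (hq : Fintype.card F = 2)
    (ι : Type) [Fintype ι] [DecidableEq ι] : Cfsg.Geo.specialLinear ι F = ⊤ := by
  classical
  have hs : Subsingleton Fˣ := by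
    rw [← Fintype.card_le_one_iff_subsingleton, Fintype.card_units, hq]
  rw [eq_top_iff]
  intro g _
  rw [Cfsg.Geo.specialLinear, MonoidHom.mem_ker]
  exact Subsingleton.elim _ _

/-- normaliser of the pair `{J, J⁻¹}` -/
def K1 {G : Type*} [Group G] (J : G) : Subgroup G where
  carrier := {g | g * J * g⁻¹ = J ∨ g * J * g⁻¹ = J⁻¹}
  one_mem' := by left; simp
  mul_mem' := by
    intro a b ha hb
    have e : a * b * J * (a * b)⁻¹ = a * (b * J * b⁻¹) * a⁻¹ := by group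
    have e' : a * J⁻¹ * a⁻¹ = (a * J * a⁻¹)⁻¹ := by group
    show a * b * J * (a * b)⁻¹ = J ∨ a * b * J * (a * b)⁻¹ = J⁻¹
    rw [e]
    rcases hb with hb | hb <;> rcases ha with ha | ha
    · left; rw [hb, ha]
    · right; rw [hb, ha]
    · right; rw [hb, e', ha]
    · left; rw [hb, e', ha, inv_inv]
  inv_mem' := by
    intro a ha
    show a⁻¹ * J * a⁻¹⁻¹ = J ∨ a⁻¹ * J * a⁻¹⁻¹ = J⁻¹
    rcases ha with ha | ha
    · left
      calc a⁻¹ * J * a⁻¹⁻¹ = a⁻¹ * (a * J * a⁻¹) * a := by rw [ha, inv_inv]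
        _ = J := by group
    · right
      have h1 : a * J⁻¹ * a⁻¹ = J := by
        have e' : a * J⁻¹ * a⁻¹ = (a * J * a⁻¹)⁻¹ := by group
        rw [e', ha, inv_inv]
      calc a⁻¹ * J * a⁻¹⁻¹ = a⁻¹ * (a * J⁻¹ * a⁻¹) * a := by rw [h1, inv_inv]
        _ = J⁻¹ := by group

theorem mem_K1 {G : Type*} [Group G] (J g : G) :
    g ∈ K1 J ↔ g * J = J * g ∨ g * J = J⁻¹ * g := by
  show (g * J * g⁻¹ = J ∨ g * J * g⁻¹ = J⁻¹) ↔ _
  rw [mul_inv_eq_iff_eq_mul, mul_inv_eq_iff_eq_mul]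

noncomputable def Jg {F : Type*} [Field F] [Fintype F] (hq : Fintype.card F = 2) (n₂ : ℕ) :
    Matrix.GeneralLinearGroup (Fin 2 × Fin n₂) F :=
  ⟨om F ⊗ₖ (1 : Matrix (Fin n₂) (Fin n₂) F), om' F ⊗ₖ (1 : Matrix (Fin n₂) (Fin n₂) F),
    by rw [← Matrix.mul_kronecker_mul, om_mul hq, Matrix.one_mul, Matrix.one_kronecker_one],
    by rw [← Matrix.mul_kronecker_mul, om_mul' hq, Matrix.one_mul, Matrix.one_kronecker_one]⟩

theorem kron_le {F : Type*} [Field F] [Fintype F] (hq : Fintype.card F = 2) (n₂ : ℕ) :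
    Cfsg.Geo.kroneckerSubgroup 2 n₂ F ≤ K1 (Jg hq n₂) := by
  rintro g ⟨a, b, hg⟩
  have hdet : (a : Matrix (Fin 2) (Fin 2) F).det ≠ 0 :=
    ((Matrix.isUnit_iff_isUnit_det _).mp a.isUnit).ne_zero
  rw [mem_K1]
  rcases conj_om hq _ hdet with h | h
  · left
    apply Units.ext
    rw [Units.val_mul, Units.val_mul, hg]
    show ((a : Matrix (Fin 2) (Fin 2) F) ⊗ₖ (b : Matrix (Fin n₂) (Fin n₂) F))
        * (om F ⊗ₖ (1 : Matrix (Fin n₂) (Fin n₂) F))
      = (om F ⊗ₖ (1 : Matrix (Fin n₂) (Fin n₂) F))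
        * ((a : Matrix (Fin 2) (Fin 2) F) ⊗ₖ (b : Matrix (Fin n₂) (Fin n₂) F))
    rw [← Matrix.mul_kronecker_mul, ← Matrix.mul_kronecker_mul, h, Matrix.mul_one,
      Matrix.one_mul]
  · right
    apply Units.ext
    rw [Units.val_mul, Units.val_mul, hg]
    show ((a : Matrix (Fin 2) (Fin 2) F) ⊗ₖ (b : Matrix (Fin n₂) (Fin n₂) F))
        * (om F ⊗ₖ (1 : Matrix (Fin n₂) (Fin n₂) F))
      = (om' F ⊗ₖ (1 : Matrix (Fin n₂) (Fin n₂) F))
        * ((a : Matrix (Fin 2) (Fin 2) F) ⊗ₖ (b : Matrix (Fin n₂) (Fin n₂) F))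
    rw [← Matrix.mul_kronecker_mul, ← Matrix.mul_kronecker_mul, h, Matrix.mul_one,
      Matrix.one_mul]

noncomputable def g0 {F : Type*} [Field F] [Fintype F] (hq : Fintype.card F = 2) (n₂ : ℕ)
    (j₀ : Fin n₂) : Matrix.GeneralLinearGroup (Fin 2 × Fin n₂) F :=
  ⟨Matrix.blockDiagonal (fun k => if k = j₀ then om F else 1),
   Matrix.blockDiagonal (fun k => if k = j₀ then om' F else 1),
   by
    rw [← Matrix.blockDiagonal_mul]
    convert Matrix.blockDiagonal_one using 2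
    funext k
    by_cases hk : k = j₀ <;> simp [hk, om_mul hq],
   by
    rw [← Matrix.blockDiagonal_mul]
    convert Matrix.blockDiagonal_one using 2
    funext k
    by_cases hk : k = j₀ <;> simp [hk, om_mul' hq]⟩

theorem g0_mem {F : Type*} [Field F] [Fintype F] (hq : Fintype.card F = 2) (n₂ : ℕ)
    (j₀ : Fin n₂) : g0 hq n₂ j₀ ∈ K1 (Jg hq n₂) := by
  rw [mem_K1]
  left
  apply Units.ext
  rw [Units.val_mul, Units.val_mul]
  show Matrix.blockDiagonal (fun k => if k = j₀ then om F else 1)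
        * (om F ⊗ₖ (1 : Matrix (Fin n₂) (Fin n₂) F))
      = (om F ⊗ₖ (1 : Matrix (Fin n₂) (Fin n₂) F))
        * Matrix.blockDiagonal (fun k => if k = j₀ then om F else 1)
  rw [Matrix.kronecker_one, ← Matrix.blockDiagonal_mul, ← Matrix.blockDiagonal_mul]
  congr 1
  funext k
  by_cases hk : k = j₀ <;> simp [hk]

theorem g0_not_kron {F : Type*} [Field F] [Fintype F] (hq : Fintype.card F = 2) (n₂ : ℕ)
    (j₀ j₁ : Fin n₂) (hj : j₁ ≠ j₀) : g0 hq n₂ j₀ ∉ Cfsg.Geo.kroneckerSubgroup 2 n₂ F := by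
  rintro ⟨a, b, hg⟩
  have hg' : ∀ x y, Matrix.blockDiagonal (fun k => if k = j₀ then om F else 1) x y
      = ((a : Matrix (Fin 2) (Fin 2) F) ⊗ₖ (b : Matrix (Fin n₂) (Fin n₂) F)) x y :=
    fun x y => by rw [← hg]; rfl
  have h1 := hg' (0, j₁) (0, j₁)
  have h2 := hg' (0, j₁) (1, j₁)
  have h3 := hg' (0, j₀) (1, j₀)
  simp only [Matrix.blockDiagonal_apply_eq, Matrix.kronecker_apply, if_neg hj, if_true] at h1 h2 h3
  have hb : (b : Matrix (Fin n₂) (Fin n₂) F) j₁ j₁ ≠ 0 := by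
    intro h0
    rw [h0, mul_zero] at h1
    simp at h1
  have ha : (a : Matrix (Fin 2) (Fin 2) F) 0 1 = 0 := by
    have h4 : (a : Matrix (Fin 2) (Fin 2) F) 0 1 * (b : Matrix (Fin n₂) (Fin n₂) F) j₁ j₁ = 0 := by
      rw [← h2]; simp
    rcases mul_eq_zero.mp h4 with h | h
    · exact h
    · exact absurd h hb
  rw [ha, zero_mul] at h3
  simp [om] at h3

noncomputable def hT {F : Type*} [Field F] [Fintype F] (hq : Fintype.card F = 2) (n₂ : ℕ)
    (j₀ j₁ : Fin n₂) (hj : j₁ ≠ j₀) : Matrix.GeneralLinearGroup (Fin 2 × Fin n₂) F :=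
  ⟨Matrix.transvection ((0 : Fin 2), j₀) ((0 : Fin 2), j₁) 1,
   Matrix.transvection ((0 : Fin 2), j₀) ((0 : Fin 2), j₁) 1,
   by
    rw [Matrix.transvection_mul_transvection_same (i := ((0 : Fin 2), j₀))
      (j := ((0 : Fin 2), j₁)) (fun h => hj (congrArg Prod.snd h).symm) (1 : F) 1,
      f2_two hq, Matrix.transvection_zero],
   by
    rw [Matrix.transvection_mul_transvection_same (i := ((0 : Fin 2), j₀))
      (j := ((0 : Fin 2), j₁)) (fun h => hj (congrArg Prod.snd h).symm) (1 : F) 1,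
      f2_two hq, Matrix.transvection_zero]⟩

theorem hT_not {F : Type*} [Field F] [Fintype F] (hq : Fintype.card F = 2) (n₂ : ℕ)
    (j₀ j₁ : Fin n₂) (hj : j₁ ≠ j₀) : hT hq n₂ j₀ j₁ hj ∉ K1 (Jg hq n₂) := by
  intro h
  rw [mem_K1] at h
  rcases h with h | h
  · have hm := congrArg Units.val h
    rw [Units.val_mul, Units.val_mul] at hm
    have e := congrFun (congrFun hm ((0 : Fin 2), j₀)) ((1 : Fin 2), j₁)
    change ((Matrix.transvection ((0 : Fin 2), j₀) ((0 : Fin 2), j₁) (1 : F))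
          * (om F ⊗ₖ (1 : Matrix (Fin n₂) (Fin n₂) F))) ((0 : Fin 2), j₀) ((1 : Fin 2), j₁)
        = ((om F ⊗ₖ (1 : Matrix (Fin n₂) (Fin n₂) F))
          * Matrix.transvection ((0 : Fin 2), j₀) ((0 : Fin 2), j₁) (1 : F))
            ((0 : Fin 2), j₀) ((1 : Fin 2), j₁) at e
    simp [Matrix.transvection, Matrix.add_mul, Matrix.mul_add, om, Matrix.one_apply, hj,
      hj.symm] at e
  · have hm := congrArg Units.val h
    rw [Units.val_mul, Units.val_mul] at hm
    have e := congrFun (congrFun hm ((0 : Fin 2), j₀)) ((0 : Fin 2), j₀)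
    change ((Matrix.transvection ((0 : Fin 2), j₀) ((0 : Fin 2), j₁) (1 : F))
          * (om F ⊗ₖ (1 : Matrix (Fin n₂) (Fin n₂) F))) ((0 : Fin 2), j₀) ((0 : Fin 2), j₀)
        = ((om' F ⊗ₖ (1 : Matrix (Fin n₂) (Fin n₂) F))
          * Matrix.transvection ((0 : Fin 2), j₀) ((0 : Fin 2), j₁) (1 : F))
            ((0 : Fin 2), j₀) ((0 : Fin 2), j₀) at e
    simp [Matrix.transvection, Matrix.add_mul, Matrix.mul_add, om, om', Matrix.one_apply, hj,
      hj.symm] at e

/-- Over the field with 2 elements, for n = 2 n₂ ≥ 13, the stabiliser in SL_n of a tensor decomposition with factors of dimensions 2 and n₂ (the conjugate by any P of the Kronecker-product subgroup transported along any bijection Fin n ≃ Fin 2 × Fin n₂, intersected with SL_n) is not a maximal subgroup: some subgroup lies strictly between it and SL_n. -/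
theorem result {F : Type*} [Field F] [Fintype F] (n : ℕ) (hn : 13 ≤ n) (hq : Fintype.card F = 2) (n₂ : ℕ) (e : Fin n ≃ Fin 2 × Fin n₂) (P : Matrix.GeneralLinearGroup (Fin n) F) : ∃ K : Subgroup (Matrix.GeneralLinearGroup (Fin n) F), Cfsg.Geo.tensorProductSubgroup 2 n₂ e P ⊓ Cfsg.Geo.specialLinear (Fin n) F < K ∧ K < Cfsg.Geo.specialLinear (Fin n) F := by
  have hn₂ : 2 ≤ n₂ := by
    have h := Fintype.card_congr e
    simp at h
    omega
  let j₀ : Fin n₂ := ⟨0, by omega⟩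
  let j₁ : Fin n₂ := ⟨1, by omega⟩
  have hj : j₁ ≠ j₀ := by
    intro h
    have h' := congrArg Fin.val h
    simp [j₀, j₁] at h'
  rw [sl_top hq, inf_top_eq]
  let Φ : Matrix.GeneralLinearGroup (Fin 2 × Fin n₂) F →* Matrix.GeneralLinearGroup (Fin n) F :=
    (MulAut.conj P).toMonoidHom.comp (Cfsg.Geo.glReindex e.symm).toMonoidHom
  have hΦi : Function.Injective Φ :=
    (MulAut.conj P).injective.comp (Cfsg.Geo.glReindex e.symm).injective
  have hTe : Cfsg.Geo.tensorProductSubgroup 2 n₂ e P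
      = (Cfsg.Geo.kroneckerSubgroup 2 n₂ F).map Φ := by
    rw [Cfsg.Geo.tensorProductSubgroup, Subgroup.map_map]
  refine ⟨(K1 (Jg hq n₂)).map Φ, ?_, ?_⟩
  · rw [hTe, Subgroup.map_lt_map_iff_of_injective hΦi]
    refine lt_of_le_of_ne (kron_le hq n₂) ?_
    intro h
    exact g0_not_kron hq n₂ j₀ j₁ hj (h ▸ g0_mem hq n₂ j₀)
  · rw [lt_top_iff_ne_top]
    intro h
    have h1 : Φ (hT hq n₂ j₀ j₁ hj) ∈ (K1 (Jg hq n₂)).map Φ := by rw [h]; trivial
    obtain ⟨x, hx, hxe⟩ := h1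
    have h2 := hΦi hxe
    exact hT_not hq n₂ j₀ j₁ hj (h2 ▸ hx)

end Cfsg.Agent.S5638
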