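import Cfsg.Statements.S5644
import Mathlib
import Cfsg.Agent.S5643

set_option autoImplicit false
open Cfsg

namespace Cfsg.Agent.S5644

open Cfsg.Agent.S5635 (tvG tvG_mulVec tvG_det mem_sl_iff)
open Cfsg.Agent.S5631 (gl_ext mul_inv_mulVec tv_conj)
open Cfsg.Agent.S5642 (TK TK_sub TK_conj TK_zero g_inj0)
open Cfsg.Agent.S5643 (ker_ne)
open Cfsg.Agent.Lib.Helper9.SLGen (sl_le_of_tv)
open scoped Matrix

section
variable {F : Type*} [Field F] [Fintype F] {n : ℕ} {Q : (Fin n → F) → F}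
  {B : (Fin n → F) → (Fin n → F) → F}

/-- a quadratic form with its polar form over a finite field of odd order -/
structure OF (Q : (Fin n → F) → F) (B : (Fin n → F) → (Fin n → F) → F) : Prop where
  bil : Cfsg.Geo.IsBilinearForm B
  symm : ∀ x y, B x y = B y x
  nondeg : Cfsg.Geo.IsNondegenerateForm B
  Q_add : ∀ x y, Q (x + y) = Q x + Q y + B x y
  Q_smul : ∀ (c : F) (x : Fin n → F), Q (c • x) = c ^ 2 * Q x
  two : (2 : F) ≠ 0
  odd : Fintype.card F % 2 = 1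

theorem B_self (h : OF Q B) (x : Fin n → F) : B x x = 2 * Q x := by
  have h1 := h.Q_add x x
  rw [← two_smul F x, h.Q_smul] at h1
  linear_combination -h1

theorem B_sing (h : OF Q B) {x : Fin n → F} (hx : Q x = 0) : B x x = 0 := by
  rw [B_self h, hx, mul_zero]

/-- the functional `x ↦ B x y`, linear in `y` -/
noncomputable def fl (h : OF Q B) : (Fin n → F) →ₗ[F] Module.Dual F (Fin n → F) :=
  (LinearMap.mk₂ F B h.bil.add_left h.bil.smul_left h.bil.add_right h.bil.smul_right).flip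

theorem fl_apply (h : OF Q B) (y x : Fin n → F) : fl h y x = B x y := rfl

theorem fl_inj (h : OF Q B) : Function.Injective (fl h) := by
  rw [injective_iff_map_eq_zero]
  intro y hy
  by_contra hne
  obtain ⟨x, hx⟩ := (h.nondeg y hne).1
  apply hx
  rw [← fl_apply h, hy, LinearMap.zero_apply]

theorem fl_surj (h : OF Q B) : Function.Surjective (fl h) :=
  (LinearMap.injective_iff_surjective_of_finrank_eq_finrank
    (Subspace.dual_finrank_eq).symm).mp (fl_inj h)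

theorem B_sub_left (h : OF Q B) (x y v : Fin n → F) : B (x - y) v = B x v - B y v :=
  map_sub (fl h v) x y

theorem B_sub_right (h : OF Q B) (v x y : Fin n → F) : B v (x - y) = B v x - B v y := by
  rw [h.symm v (x - y), B_sub_left h, h.symm x v, h.symm y v]

theorem B_zero_left (h : OF Q B) (v : Fin n → F) : B 0 v = 0 := map_zero (fl h v)

theorem B_zero_right (h : OF Q B) (v : Fin n → F) : B v 0 = 0 := by
  rw [h.symm v 0, B_zero_left h]

theorem sing_ker (h : OF Q B) (L : List (Module.Dual F (Fin n → F))) (hk : L.length + 2 < n) :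
    ∃ y : Fin n → F, y ≠ 0 ∧ Q y = 0 ∧ ∀ ψ ∈ L, ψ y = 0 := by
  obtain ⟨x₁, h10, h1⟩ := ker_ne L (by omega)
  by_cases q1 : Q x₁ = 0
  · exact ⟨x₁, h10, q1, h1⟩
  obtain ⟨x₂, h20, h2⟩ := ker_ne (fl h x₁ :: L) (by rw [List.length_cons]; omega)
  have h21 : B x₂ x₁ = 0 := h2 (fl h x₁) (by simp)
  have h2L : ∀ ψ ∈ L, ψ x₂ = 0 := fun ψ hψ => h2 ψ (List.mem_cons_of_mem _ hψ)
  by_cases q2 : Q x₂ = 0
  · exact ⟨x₂, h20, q2, h2L⟩
  obtain ⟨x₃, h30, h3⟩ := ker_ne (fl h x₂ :: fl h x₁ :: L) (by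
    rw [List.length_cons, List.length_cons]
    omega)
  have h32 : B x₃ x₂ = 0 := h3 (fl h x₂) (by simp)
  have h31 : B x₃ x₁ = 0 := h3 (fl h x₁) (by simp)
  have h3L : ∀ ψ ∈ L, ψ x₃ = 0 := fun ψ hψ =>
    h3 ψ (List.mem_cons_of_mem _ (List.mem_cons_of_mem _ hψ))
  by_cases q3 : Q x₃ = 0
  · exact ⟨x₃, h30, q3, h3L⟩
  have hd1 : (Polynomial.C (Q x₁) * Polynomial.X ^ 2 + Polynomial.C 0 * Polynomial.X +
      Polynomial.C (Q x₃) : Polynomial F).degree = 2 := Polynomial.degree_quadratic q1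
  have hd2 : (Polynomial.C (Q x₂) * Polynomial.X ^ 2 : Polynomial F).degree = 2 := by
    have h7 := Polynomial.degree_C_mul_X_pow 2 q2
    exact_mod_cast h7
  obtain ⟨s, t, hst⟩ := FiniteField.exists_root_sum_quadratic hd1 hd2 h.odd
  simp only [Polynomial.eval_add, Polynomial.eval_mul, Polynomial.eval_C, Polynomial.eval_pow,
    Polynomial.eval_X, zero_mul, add_zero] at hst
  have h12 : B x₁ x₂ = 0 := by rw [h.symm x₁ x₂]; exact h21
  have h13 : B x₁ x₃ = 0 := by rw [h.symm x₁ x₃]; exact h31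
  have h23 : B x₂ x₃ = 0 := by rw [h.symm x₂ x₃]; exact h32
  refine ⟨s • x₁ + t • x₂ + x₃, ?_, ?_, fun ψ hψ => ?_⟩
  · intro h0
    have h4 : B (s • x₁ + t • x₂ + x₃) x₃ = 0 := by rw [h0, B_zero_left h]
    rw [h.bil.add_left, h.bil.add_left, h.bil.smul_left, h.bil.smul_left, h13, h23, mul_zero,
      mul_zero, zero_add, zero_add, B_self h] at h4
    exact q3 ((mul_eq_zero.mp h4).resolve_left h.two)
  · simp only [h.Q_add, h.Q_smul, h.bil.add_left, h.bil.smul_left, h.bil.smul_right, h12, h13,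
      h23, mul_zero, add_zero]
    linear_combination hst
  · rw [map_add, map_add, map_smul, map_smul, h1 ψ hψ, h2L ψ hψ, h3L ψ hψ, smul_zero, smul_zero,
      add_zero, add_zero]

theorem proj_list (h : OF Q B) (L : List (Module.Dual F (Fin n → F))) :
    ∃ qs : List (Fin n → F), qs.length ≤ L.length ∧
      ∀ y : Fin n → F, (∀ q ∈ qs, B y q = 0) →
        ∀ x : Fin n → F, ∃ x' : Fin n → F, (∀ ψ ∈ L, ψ x' = 0) ∧ B y x' = B y x := by
  induction L with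
  | nil => exact ⟨[], le_refl _, fun y _ x => ⟨x, fun ψ hψ => by simp at hψ, rfl⟩⟩
  | cons ψ₀ L ih =>
    obtain ⟨qs, hlen, hqs⟩ := ih
    by_cases h0 : ∀ x, (∀ ψ ∈ L, ψ x = 0) → ψ₀ x = 0
    · refine ⟨qs, by rw [List.length_cons]; omega, fun y hy x => ?_⟩
      obtain ⟨x', hx', hB⟩ := hqs y hy x
      refine ⟨x', fun ψ hψ => ?_, hB⟩
      rcases List.mem_cons.mp hψ with h' | h'
      · rw [h']
        exact h0 x' hx'
      · exact hx' ψ h'
    · push Not at h0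
      obtain ⟨q₀, hq₀L, hq₀⟩ := h0
      refine ⟨((ψ₀ q₀)⁻¹ • q₀) :: qs, by rw [List.length_cons, List.length_cons]; omega,
        fun y hy x => ?_⟩
      obtain ⟨x', hx', hB⟩ := hqs y (fun q hq => hy q (List.mem_cons_of_mem _ hq))
        x
      have hyq : B y ((ψ₀ q₀)⁻¹ • q₀) = 0 := hy _ (by simp)
      refine ⟨x' - ψ₀ x' • ((ψ₀ q₀)⁻¹ • q₀), fun ψ hψ => ?_, ?_⟩
      · rcases List.mem_cons.mp hψ with h' | h'
        · rw [h', map_sub, map_smul, map_smul, smul_eq_mul, smul_eq_mul, inv_mul_cancel₀ hq₀,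
            mul_one, sub_self]
        · rw [map_sub, map_smul, map_smul, hx' ψ h', hq₀L ψ h', smul_zero, smul_zero, sub_zero]
      · rw [B_sub_right h, h.bil.smul_right, hyq, mul_zero, sub_zero, hB]

theorem iso_knL (h : OF Q B) (L : List (Module.Dual F (Fin n → F)))
    (hn : 2 * L.length + 3 < n) (ν : Module.Dual F (Fin n → F)) {x₀ : Fin n → F}
    (hL : ∀ ψ ∈ L, ψ x₀ = 0) (hν : ν x₀ ≠ 0) :
    ∃ z : Fin n → F, Q z = 0 ∧ (∀ ψ ∈ L, ψ z = 0) ∧ ν z ≠ 0 := by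
  obtain ⟨qs, hlen, hqs⟩ := proj_list h L
  obtain ⟨y, hy0, hyy, hyK⟩ := sing_ker h (L ++ ν :: qs.map (fl h)) (by
    simp only [List.length_append, List.length_cons, List.length_map]
    omega)
  have hyL : ∀ ψ ∈ L, ψ y = 0 := fun ψ hψ => hyK ψ (List.mem_append_left _ hψ)
  have hyν : ν y = 0 := hyK ν (by simp)
  have hyq : ∀ q ∈ qs, B y q = 0 := fun q hq =>
    hyK (fl h q) (List.mem_append_right _ (List.mem_cons_of_mem _ (List.mem_map_of_mem hq)))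
  obtain ⟨x, hx⟩ := (h.nondeg y hy0).2
  obtain ⟨x', hx'L, hx'B⟩ := hqs y hyq x
  have hx'ne : B y x' ≠ 0 := by
    rw [hx'B]
    exact hx
  obtain ⟨x₁, h1L, h1ν, h1y⟩ : ∃ x₁, (∀ ψ ∈ L, ψ x₁ = 0) ∧ ν x₁ ≠ 0 ∧ B y x₁ ≠ 0 := by
    by_cases c1 : B y x₀ = 0
    · by_cases c2 : ν x' = 0
      · refine ⟨x₀ + x', fun ψ hψ => ?_, ?_, ?_⟩
        · rw [map_add, hL ψ hψ, hx'L ψ hψ, add_zero]
        · rw [map_add, c2, add_zero]
          exact hν
        · rw [h.bil.add_right, c1, zero_add]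
          exact hx'ne
      · exact ⟨x', hx'L, c2, hx'ne⟩
    · exact ⟨x₀, hL, hν, c1⟩
  have h1y' : B x₁ y ≠ 0 := by
    rw [h.symm x₁ y]
    exact h1y
  refine ⟨x₁ + (-Q x₁ / B x₁ y) • y, ?_, fun ψ hψ => ?_, ?_⟩
  · rw [h.Q_add, h.Q_smul, hyy, mul_zero, add_zero, h.bil.smul_right, div_mul_cancel₀ _ h1y']
    ring
  · rw [map_add, map_smul, h1L ψ hψ, hyL ψ hψ, smul_zero, add_zero]
  · rw [map_add, map_smul, hyν, smul_zero, add_zero]
    exact h1ν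

theorem sing_adj (h : OF Q B) (L : List (Module.Dual F (Fin n → F)))
    (hn : 2 * L.length + 3 < n) {x : Fin n → F} (hL : ∀ ψ ∈ L, ψ x = 0) (hq : Q x ≠ 0) :
    ∃ (y₃ : Fin n → F) (t : F), Q y₃ = 0 ∧ (∀ ψ ∈ L, ψ y₃ = 0) ∧ Q (x + t • y₃) = 0 := by
  have hxx : (fl h x) x ≠ 0 := by
    rw [fl_apply, B_self h]
    exact mul_ne_zero h.two hq
  obtain ⟨y₃, q3, h3L, h3x⟩ := iso_knL h L hn (fl h x) hL hxx
  have h3x' : B y₃ x ≠ 0 := h3x
  have hxy₃ : B x y₃ ≠ 0 := by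
    rw [h.symm x y₃]
    exact h3x'
  refine ⟨y₃, -Q x / B x y₃, q3, h3L, ?_⟩
  rw [h.Q_add, h.Q_smul, q3, mul_zero, add_zero, h.bil.smul_right, div_mul_cancel₀ _ hxy₃]
  ring

theorem sieg_aux1 (h : OF Q B) {y₁ y₂ : Fin n → F} (h12 : B y₁ y₂ = 0) (a : F) :
    1 + (a • fl h y₂) y₁ ≠ 0 := by
  rw [LinearMap.smul_apply, fl_apply, h12, smul_zero, add_zero]
  exact one_ne_zero

theorem sieg_aux2 (h : OF Q B) {y₁ y₂ : Fin n → F} (h12 : B y₁ y₂ = 0) (a : F) :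
    1 + (-(a • fl h y₁)) y₂ ≠ 0 := by
  rw [LinearMap.neg_apply, LinearMap.smul_apply, fl_apply, h.symm y₂ y₁, h12, smul_zero,
    neg_zero, add_zero]
  exact one_ne_zero

/-- the Siegel element `x ↦ x + a B(x,y₂) y₁ - a B(x,y₁) y₂` -/
noncomputable def sieg (h : OF Q B) {y₁ y₂ : Fin n → F} (h12 : B y₁ y₂ = 0) (a : F) :
    Matrix.GeneralLinearGroup (Fin n) F :=
  tvG (a • fl h y₂) y₁ (sieg_aux1 h h12 a) * tvG (-(a • fl h y₁)) y₂ (sieg_aux2 h h12 a)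

theorem sieg_mulVec (h : OF Q B) {y₁ y₂ : Fin n → F} (h12 : B y₁ y₂ = 0) (h2 : Q y₂ = 0)
    (a : F) (x : Fin n → F) :
    ((sieg h h12 a : Matrix.GeneralLinearGroup (Fin n) F) : Matrix (Fin n) (Fin n) F) *ᵥ x =
      x + (a * B x y₂) • y₁ - (a * B x y₁) • y₂ := by
  rw [sieg, Units.val_mul, ← Matrix.mulVec_mulVec]
  simp only [tvG_mulVec, LinearMap.neg_apply, LinearMap.smul_apply, fl_apply, smul_eq_mul,
    h.bil.add_left, h.bil.smul_left, B_sing h h2, mul_zero, add_zero]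
  module

theorem sieg_mem (h : OF Q B) {y₁ y₂ : Fin n → F} (h12 : B y₁ y₂ = 0) (h1 : Q y₁ = 0)
    (h2 : Q y₂ = 0) (a : F) :
    sieg h h12 a ∈ Cfsg.Geo.quadSimilarityGroup Q ⊓ Cfsg.Geo.specialLinear (Fin n) F := by
  refine ⟨⟨1, fun x => ?_⟩, ?_⟩
  · rw [sieg_mulVec h h12 h2, Units.val_one, one_mul, sub_eq_add_neg, ← neg_smul]
    simp only [h.Q_add, h.Q_smul, h.bil.add_left, h.bil.smul_left, h.bil.smul_right, h1, h2,
      h12, mul_zero, add_zero]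
    ring
  · refine (mem_sl_iff _).mpr ?_
    simp only [sieg, map_mul, Units.val_mul, tvG_det, LinearMap.neg_apply, LinearMap.smul_apply,
      fl_apply, h.symm y₂ y₁, h12, smul_zero, neg_zero, add_zero, mul_one]

theorem TK_siegel (h : OF Q B) (K : Subgroup (Matrix.GeneralLinearGroup (Fin n) F))
    (hHK : Cfsg.Geo.quadSimilarityGroup Q ⊓ Cfsg.Geo.specialLinear (Fin n) F ≤ K)
    {φ : Module.Dual F (Fin n → F)} {v : Fin n → F} (hT : TK K φ v) {y₁ y₂ : Fin n → F}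
    (h1 : Q y₁ = 0) (h2 : Q y₂ = 0) (h12 : B y₁ y₂ = 0) (hv1 : B v y₁ = 0)
    (hv2 : B v y₂ = 0) (hφ2 : φ y₂ = 0) (a : F) : TK K (φ - (a * φ y₁) • fl h y₂) v := by
  apply TK_conj K _ (hHK (sieg_mem h h12 h1 h2 a)) hT
  · simp only [sieg_mulVec h h12 h2, hv1, hv2, mul_zero, zero_smul, add_zero, sub_zero]
  · intro x
    rw [sieg_mulVec h h12 h2]
    simp only [LinearMap.sub_apply, LinearMap.smul_apply, fl_apply, map_add, map_sub, map_smul,
      B_sub_left h, h.bil.add_left, h.bil.smul_left, B_sing h h2, h12, hφ2, smul_eq_mul,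
      mul_zero, add_zero, sub_zero]
    ring

/-- the vectors `y ⊥ v` all of whose functionals give transvections in `K` with direction `v` -/
def Yu (h : OF Q B) (K : Subgroup (Matrix.GeneralLinearGroup (Fin n) F)) (v : Fin n → F) :
    Set (Fin n → F) :=
  {y | B y v = 0 ∧ ∀ a : F, TK K (a • fl h y) v}

theorem Yu_sub (h : OF Q B) (K : Subgroup (Matrix.GeneralLinearGroup (Fin n) F))
    {v y y' : Fin n → F} (hy : y ∈ Yu h K v) (hy' : y' ∈ Yu h K v) : y - y' ∈ Yu h K v := by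
  refine ⟨?_, fun a => ?_⟩
  · rw [B_sub_left h, hy.1, hy'.1, sub_zero]
  · rw [map_sub, smul_sub]
    exact TK_sub K (hy.2 a) (hy'.2 a)

theorem Yu_smul (h : OF Q B) (K : Subgroup (Matrix.GeneralLinearGroup (Fin n) F))
    {v y : Fin n → F} (hy : y ∈ Yu h K v) (b : F) : b • y ∈ Yu h K v := by
  refine ⟨?_, fun a => ?_⟩
  · rw [h.bil.smul_left, hy.1, mul_zero]
  · rw [map_smul, smul_smul]
    exact hy.2 (a * b)

theorem full_at_sing (h : OF Q B) (hn : 13 ≤ n)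
    (K : Subgroup (Matrix.GeneralLinearGroup (Fin n) F))
    (hHK : Cfsg.Geo.quadSimilarityGroup Q ⊓ Cfsg.Geo.specialLinear (Fin n) F ≤ K)
    {φ₀ : Module.Dual F (Fin n → F)} {v : Fin n → F} (hT : TK K φ₀ v)
    (hφ : ∀ c : F, φ₀ ≠ c • fl h v) (hv : v ≠ 0) :
    ∀ χ : Module.Dual F (Fin n → F), χ v = 0 → TK K χ v := by
  obtain ⟨a, ha⟩ : ∃ a, B a v = 1 := by
    obtain ⟨x, hx⟩ := (h.nondeg v hv).1
    exact ⟨(B x v)⁻¹ • x, by rw [h.bil.smul_left, inv_mul_cancel₀ hx]⟩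
  have hker : ∀ x, B (x - B x v • a) v = 0 := by
    intro x
    rw [B_sub_left h, h.bil.smul_left, ha, mul_one, sub_self]
  obtain ⟨x₀, hx₀v, hx₀φ⟩ : ∃ x₀, B x₀ v = 0 ∧ φ₀ x₀ ≠ 0 := by
    by_contra hcon
    push Not at hcon
    apply hφ (φ₀ a)
    refine LinearMap.ext fun x => ?_
    have h1 := hcon (x - B x v • a) (hker x)
    rw [map_sub, map_smul, sub_eq_zero] at h1
    rw [h1, LinearMap.smul_apply, fl_apply, smul_eq_mul, smul_eq_mul, mul_comm]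
  obtain ⟨y₁, h11, h1L, h1φ⟩ := iso_knL h [fl h v] (by
    simp only [List.length_cons, List.length_nil]
    omega) φ₀ (x₀ := x₀) (fun ψ hψ => by
      rw [List.mem_singleton] at hψ
      rw [hψ]
      exact hx₀v) hx₀φ
  have h1v : B y₁ v = 0 := h1L (fl h v) (by simp)
  have claimA : ∀ y₂, Q y₂ = 0 → B y₂ v = 0 → B y₂ y₁ = 0 → φ₀ y₂ = 0 → y₂ ∈ Yu h K v := by
    intro y₂ h22 h2v h21 h2φ
    refine ⟨h2v, fun b => ?_⟩
    have h3 := TK_sub K hT (TK_siegel h K hHK hT h11 h22 (by rw [h.symm y₁ y₂]; exact h21)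
      (by rw [h.symm v y₁]; exact h1v) (by rw [h.symm v y₂]; exact h2v) h2φ (b / φ₀ y₁))
    rw [sub_sub_cancel, div_mul_cancel₀ _ h1φ] at h3
    exact h3
  have claimB : ∀ y, y ∈ Yu h K v → ∀ y₁' y₂', Q y₁' = 0 → Q y₂' = 0 → B y₁' y₂' = 0 →
      B y₁' v = 0 → B y₂' v = 0 → B y₂' y = 0 → B y₁' y ≠ 0 → y₂' ∈ Yu h K v := by
    intro y hy y₁' y₂' q1 q2 h12 h1v' h2v' h2y h1y
    refine ⟨h2v', fun b => ?_⟩
    have hT1 : TK K (fl h y) v := by
      have h9 := hy.2 1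
      rwa [one_smul] at h9
    have h3 := TK_sub K hT1 (TK_siegel h K hHK hT1 q1 q2 h12 (by rw [h.symm v y₁']; exact h1v')
      (by rw [h.symm v y₂']; exact h2v') (by rw [fl_apply]; exact h2y) (b / B y₁' y))
    rw [sub_sub_cancel, fl_apply, div_mul_cancel₀ _ h1y] at h3
    exact h3
  have claimC : ∀ s, Q s = 0 → B s v = 0 → s ∈ Yu h K v := by
    intro s hs hsv
    obtain ⟨qs, hlen, hqs⟩ := proj_list h [fl h v, fl h s]
    obtain ⟨y, hy0, hyy, hyK⟩ := sing_ker h ([fl h v, fl h y₁, φ₀, fl h s] ++ qs.map (fl h)) (by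
      simp only [List.length_append, List.length_cons, List.length_nil, List.length_map] at hlen ⊢
      omega)
    have hyv : B y v = 0 := hyK (fl h v) (by simp)
    have hy1 : B y y₁ = 0 := hyK (fl h y₁) (by simp)
    have hyφ : φ₀ y = 0 := hyK φ₀ (by simp)
    have hys : B y s = 0 := hyK (fl h s) (by simp)
    have hyq : ∀ q ∈ qs, B y q = 0 := fun q hq =>
      hyK (fl h q) (List.mem_append_right _ (List.mem_map_of_mem hq))
    have hyY : y ∈ Yu h K v := claimA y hyy hyv hy1 hyφ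
    obtain ⟨x, hx⟩ := (h.nondeg y hy0).2
    obtain ⟨x', hx'L, hx'B⟩ := hqs y hyq x
    have hx'y : (fl h y) x' ≠ 0 := by
      rw [fl_apply, h.symm x' y, hx'B]
      exact hx
    obtain ⟨y₁', q1, h1L', h1y⟩ := iso_knL h [fl h v, fl h s] (by
      simp only [List.length_cons, List.length_nil]
      omega) (fl h y) (x₀ := x') hx'L hx'y
    have h1v' : B y₁' v = 0 := h1L' (fl h v) (by simp)
    have h1s : B y₁' s = 0 := h1L' (fl h s) (by simp)
    have h1y' : B y₁' y ≠ 0 := h1y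
    exact claimB y hyY y₁' s q1 hs h1s h1v' hsv (by rw [h.symm s y]; exact hys) h1y'
  have hall : ∀ x, B x v = 0 → x ∈ Yu h K v := by
    intro x hxv
    by_cases hq : Q x = 0
    · exact claimC x hq hxv
    · obtain ⟨y₃, t, q3, h3L, ht⟩ := sing_adj h [fl h v] (by
        simp only [List.length_cons, List.length_nil]
        omega) (x := x) (fun ψ hψ => by
          rw [List.mem_singleton] at hψ
          rw [hψ]
          exact hxv) hq
      have h3v : B y₃ v = 0 := h3L (fl h v) (by simp)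
      have hz : x + t • y₃ ∈ Yu h K v := claimC _ ht (by
        rw [h.bil.add_left, h.bil.smul_left, hxv, h3v, mul_zero, add_zero])
      have h5 := Yu_sub h K hz (Yu_smul h K (claimC y₃ q3 h3v) t)
      rwa [add_sub_cancel_right] at h5
  intro χ hχ
  obtain ⟨w, rfl⟩ := fl_surj h χ
  have hχ' : B v w = 0 := hχ
  have hw : B w v = 0 := by
    rw [h.symm w v]
    exact hχ'
  have h8 := (hall w hw).2 1
  rwa [one_smul] at h8

/-- `y` is scaled by `d` under `g` against every vector -/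
def USim (B : (Fin n → F) → (Fin n → F) → F) (g : Matrix.GeneralLinearGroup (Fin n) F) (d : F)
    (y : Fin n → F) : Prop :=
  ∀ x, B ((g : Matrix (Fin n) (Fin n) F) *ᵥ x) ((g : Matrix (Fin n) (Fin n) F) *ᵥ y) = d * B x y

theorem USim_add (h : OF Q B) (g : Matrix.GeneralLinearGroup (Fin n) F) {d : F}
    {y y' : Fin n → F} (hy : USim B g d y) (hy' : USim B g d y') : USim B g d (y + y') := by
  intro x
  rw [Matrix.mulVec_add, h.bil.add_right, h.bil.add_right, hy x, hy' x, mul_add]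

theorem USim_smul (h : OF Q B) (g : Matrix.GeneralLinearGroup (Fin n) F) {d : F}
    {y : Fin n → F} (hy : USim B g d y) (b : F) : USim B g d (b • y) := by
  intro x
  rw [Matrix.mulVec_smul, h.bil.smul_right, h.bil.smul_right, hy x]
  ring

theorem USim_ne (h : OF Q B) (g : Matrix.GeneralLinearGroup (Fin n) F) {d : F}
    {y : Fin n → F} (hy : USim B g d y) (hy0 : y ≠ 0) : d ≠ 0 := by
  rintro rfl
  have hgy : (g : Matrix (Fin n) (Fin n) F) *ᵥ y ≠ 0 := fun h0 => hy0 (g_inj0 g y h0)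
  obtain ⟨z, hz⟩ := (h.nondeg _ hgy).1
  apply hz
  have h1 := hy (((g⁻¹ : Matrix.GeneralLinearGroup (Fin n) F) : Matrix (Fin n) (Fin n) F) *ᵥ z)
  rw [mul_inv_mulVec, zero_mul] at h1
  exact h1

theorem USim_orth (h : OF Q B) (g : Matrix.GeneralLinearGroup (Fin n) F)
    (hall : ∀ z : Fin n → F, z ≠ 0 → Q z = 0 → ∃ d, USim B g d z)
    {y z : Fin n → F} (hy : Q y = 0) (hz : Q z = 0) (hyz : B y z = 0)
    {x₁ x₂ : Fin n → F} (h1y : B x₁ y ≠ 0) (h1z : B x₁ z = 0) (h2z : B x₂ z ≠ 0)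
    (h2y : B x₂ y = 0) {d d' : F} (hd : USim B g d y) (hd' : USim B g d' z) : d = d' := by
  have hq : Q (y + z) = 0 := by rw [h.Q_add, hy, hz, hyz, add_zero, add_zero]
  have hne : y + z ≠ 0 := by
    intro h0
    apply h2z
    have h3 : B x₂ (y + z) = 0 := by rw [h0, B_zero_right h]
    rw [h.bil.add_right, h2y, zero_add] at h3
    exact h3
  obtain ⟨d'', h''⟩ := hall _ hne hq
  have k1 := h'' x₁
  have k2 := h'' x₂
  rw [Matrix.mulVec_add, h.bil.add_right, hd x₁, hd' x₁, h.bil.add_right, h1z, mul_zero,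
    add_zero, add_zero] at k1
  rw [Matrix.mulVec_add, h.bil.add_right, hd x₂, hd' x₂, h.bil.add_right, h2y, mul_zero,
    zero_add, zero_add] at k2
  have e1 : d = d'' := mul_right_cancel₀ h1y k1
  have e2 : d' = d'' := mul_right_cancel₀ h2z k2
  rw [e1, e2]

theorem sim_of_all (h : OF Q B) (hn : 13 ≤ n) (g : Matrix.GeneralLinearGroup (Fin n) F)
    (hall : ∀ z : Fin n → F, z ≠ 0 → Q z = 0 → ∃ d, USim B g d z) :
    g ∈ Cfsg.Geo.quadSimilarityGroup Q := by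
  obtain ⟨y₀, hy₀0, hy₀, -⟩ := sing_ker h [] (by
    simp only [List.length_nil]
    omega)
  obtain ⟨d₀, h₀⟩ := hall y₀ hy₀0 hy₀
  have hd₀ : d₀ ≠ 0 := USim_ne h g h₀ hy₀0
  obtain ⟨a, ha⟩ : ∃ a, B a y₀ = 1 := by
    obtain ⟨x, hx⟩ := (h.nondeg y₀ hy₀0).1
    exact ⟨(B x y₀)⁻¹ • x, by rw [h.bil.smul_left, inv_mul_cancel₀ hx]⟩
  have hsing : ∀ s : Fin n → F, Q s = 0 → USim B g d₀ s := by
    intro s hs
    by_cases hs0 : s = 0
    · intro x
      rw [hs0, Matrix.mulVec_zero, B_zero_right h, B_zero_right h, mul_zero]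
    obtain ⟨d, hd⟩ := hall s hs0 hs
    obtain ⟨a', ha'⟩ : ∃ a', B a' s = 1 := by
      obtain ⟨x, hx⟩ := (h.nondeg s hs0).1
      exact ⟨(B x s)⁻¹ • x, by rw [h.bil.smul_left, inv_mul_cancel₀ hx]⟩
    obtain ⟨qs, hlen, hqs⟩ := proj_list h [fl h y₀, fl h s]
    obtain ⟨z, hz0, hzz, hzK⟩ := sing_ker h
      ([fl h y₀, fl h s, fl h a, fl h a'] ++ qs.map (fl h)) (by
      simp only [List.length_append, List.length_cons, List.length_nil, List.length_map] at hlen ⊢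
      omega)
    have hzy : B z y₀ = 0 := hzK (fl h y₀) (by simp)
    have hzs : B z s = 0 := hzK (fl h s) (by simp)
    have hza : B z a = 0 := hzK (fl h a) (by simp)
    have hza' : B z a' = 0 := hzK (fl h a') (by simp)
    have hzq : ∀ q ∈ qs, B z q = 0 := fun q hq =>
      hzK (fl h q) (List.mem_append_right _ (List.mem_map_of_mem hq))
    obtain ⟨x, hx⟩ := (h.nondeg z hz0).2
    obtain ⟨x', hx'L, hx'B⟩ := hqs z hzq x
    have hx'y : B x' y₀ = 0 := hx'L (fl h y₀) (by simp)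
    have hx's : B x' s = 0 := hx'L (fl h s) (by simp)
    have hx'z : B x' z ≠ 0 := by
      rw [h.symm x' z, hx'B]
      exact hx
    obtain ⟨dz, hdz⟩ := hall z hz0 hzz
    have e1 : d₀ = dz := USim_orth h g hall hy₀ hzz (by rw [h.symm y₀ z]; exact hzy)
      (x₁ := a) (x₂ := x') (by rw [ha]; exact one_ne_zero) (by rw [h.symm a z]; exact hza)
      hx'z hx'y h₀ hdz
    have e2 : d = dz := USim_orth h g hall hs hzz (by rw [h.symm s z]; exact hzs)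
      (x₁ := a') (x₂ := x') (by rw [ha']; exact one_ne_zero) (by rw [h.symm a' z]; exact hza')
      hx'z hx's hd hdz
    rw [e1, ← e2]
    exact hd
  have hallv : ∀ x : Fin n → F, USim B g d₀ x := by
    intro x
    by_cases hq : Q x = 0
    · exact hsing x hq
    · obtain ⟨y₃, t, q3, -, ht⟩ := sing_adj h [] (by
        simp only [List.length_nil]
        omega) (x := x) (fun ψ hψ => by simp at hψ) hq
      have h3 := USim_add h g (hsing _ ht) (USim_smul h g (hsing y₃ q3) (-t))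
      have e : x + t • y₃ + -t • y₃ = x := by
        rw [neg_smul, add_neg_cancel_right]
      rw [e] at h3
      exact h3
  refine ⟨Units.mk0 d₀ hd₀, fun x => ?_⟩
  have h4 := hallv x x
  rw [B_self h, B_self h] at h4
  show Q _ = d₀ * Q x
  exact mul_left_cancel₀ h.two (by rw [h4]; ring)

theorem comm_tv (K : Subgroup (Matrix.GeneralLinearGroup (Fin n) F))
    {φ₁ φ₂ ψ₁ ψ₂ : Module.Dual F (Fin n → F)} {y₁ y₂ z₁ z₂ : Fin n → F}
    (hu1 : 1 + φ₂ y₁ ≠ 0) (hu2 : 1 + (-φ₁) y₂ ≠ 0) (hu3 : 1 + ψ₂ z₁ ≠ 0)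
    (hu4 : 1 + (-ψ₁) z₂ ≠ 0)
    (hS : tvG φ₂ y₁ hu1 * tvG (-φ₁) y₂ hu2 ∈ K) (hE : tvG ψ₂ z₁ hu3 * tvG (-ψ₁) z₂ hu4 ∈ K)
    (a1 : φ₂ y₂ = 0) (a2 : ψ₂ z₂ = 0) (a3 : ψ₂ z₁ = 0) (a4 : φ₁ z₂ = 0) (a5 : φ₂ z₁ = 0)
    (a6 : φ₂ z₂ = 0) (a7 : ψ₁ y₁ = 0) (a8 : ψ₁ y₂ = 0) (a9 : ψ₂ y₁ = 0) (a10 : ψ₂ y₂ = 0)
    (hu : 1 + ((-φ₁ z₁) • ψ₂) y₂ ≠ 0) : tvG ((-φ₁ z₁) • ψ₂) y₂ hu ∈ K := by
  have e : tvG φ₂ y₁ hu1 * tvG (-φ₁) y₂ hu2 * (tvG ψ₂ z₁ hu3 * tvG (-ψ₁) z₂ hu4) =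
      tvG ((-φ₁ z₁) • ψ₂) y₂ hu * ((tvG ψ₂ z₁ hu3 * tvG (-ψ₁) z₂ hu4) *
        (tvG φ₂ y₁ hu1 * tvG (-φ₁) y₂ hu2)) := by
    apply gl_ext
    intro x
    simp only [Units.val_mul, ← Matrix.mulVec_mulVec, tvG_mulVec, map_add, map_smul,
      LinearMap.neg_apply, LinearMap.smul_apply, smul_eq_mul, a1, a2, a3, a4, a5, a6, a7, a8,
      a9, a10, mul_zero, add_zero, neg_zero, zero_mul]
    module
  have e2 : tvG ((-φ₁ z₁) • ψ₂) y₂ hu = (tvG φ₂ y₁ hu1 * tvG (-φ₁) y₂ hu2) *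
      (tvG ψ₂ z₁ hu3 * tvG (-ψ₁) z₂ hu4) * ((tvG ψ₂ z₁ hu3 * tvG (-ψ₁) z₂ hu4) *
        (tvG φ₂ y₁ hu1 * tvG (-φ₁) y₂ hu2))⁻¹ := by
    rw [e]
    group
  rw [e2]
  exact K.mul_mem (K.mul_mem hS hE) (K.inv_mem (K.mul_mem hE hS))

theorem crux (h : OF Q B) (hn : 13 ≤ n) (K : Subgroup (Matrix.GeneralLinearGroup (Fin n) F))
    (hHK : Cfsg.Geo.quadSimilarityGroup Q ⊓ Cfsg.Geo.specialLinear (Fin n) F ≤ K)
    (g : Matrix.GeneralLinearGroup (Fin n) F) (hgK : g ∈ K)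
    (hg : g ∉ Cfsg.Geo.quadSimilarityGroup Q) :
    ∃ (v : Fin n → F) (φ₀ : Module.Dual F (Fin n → F)), v ≠ 0 ∧ TK K φ₀ v ∧
      ∀ c : F, φ₀ ≠ c • fl h v := by
  obtain ⟨w₁, hw₁0, hw₁, hbad⟩ : ∃ w₁ : Fin n → F, w₁ ≠ 0 ∧ Q w₁ = 0 ∧
      ∀ d, ¬ USim B g d w₁ := by
    by_contra hcon
    push Not at hcon
    exact hg (sim_of_all h hn g hcon)
  obtain ⟨gi, hgi⟩ : ∃ gi : (Fin n → F) →ₗ[F] (Fin n → F), gi = Matrix.toLin'
      ((g⁻¹ : Matrix.GeneralLinearGroup (Fin n) F) : Matrix (Fin n) (Fin n) F) := ⟨_, rfl⟩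
  have hgig : ∀ x, gi ((g : Matrix (Fin n) (Fin n) F) *ᵥ x) = x := by
    intro x
    have h1 := mul_inv_mulVec g⁻¹ x
    rw [inv_inv] at h1
    rw [hgi, Matrix.toLin'_apply, h1]
  obtain ⟨β₁, hβ₁⟩ : ∃ β₁ : Module.Dual F (Fin n → F), β₁ = fl h w₁ ∘ₗ gi := ⟨_, rfl⟩
  have hβ₁a : ∀ x, β₁ x = B (gi x) w₁ := fun x => by
    rw [hβ₁]
    rfl
  obtain ⟨x₀, hx₀β, hx₀α⟩ : ∃ x₀, β₁ x₀ = 0 ∧
      B x₀ ((g : Matrix (Fin n) (Fin n) F) *ᵥ w₁) ≠ 0 := by
    by_contra hcon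
    push Not at hcon
    obtain ⟨x, hx⟩ := (h.nondeg w₁ hw₁0).1
    have hb₀ : β₁ ((B x w₁)⁻¹ • ((g : Matrix (Fin n) (Fin n) F) *ᵥ x)) = 1 := by
      rw [map_smul, hβ₁a, hgig, smul_eq_mul, inv_mul_cancel₀ hx]
    apply hbad (B ((B x w₁)⁻¹ • ((g : Matrix (Fin n) (Fin n) F) *ᵥ x))
      ((g : Matrix (Fin n) (Fin n) F) *ᵥ w₁))
    intro x'
    have h1 := hcon ((g : Matrix (Fin n) (Fin n) F) *ᵥ x' -
      β₁ ((g : Matrix (Fin n) (Fin n) F) *ᵥ x') •
        ((B x w₁)⁻¹ • ((g : Matrix (Fin n) (Fin n) F) *ᵥ x))) (by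
      rw [map_sub, map_smul, hb₀, smul_eq_mul, mul_one, sub_self])
    rw [B_sub_left h, h.bil.smul_left, sub_eq_zero, hβ₁a, hgig] at h1
    rw [h1]
    ring
  obtain ⟨γ, hγ⟩ : ∃ γ : Module.Dual F (Fin n → F), γ = fl h x₀ ∘ₗ
      Matrix.toLin' (g : Matrix (Fin n) (Fin n) F) := ⟨_, rfl⟩
  obtain ⟨w₂, hw₂0, hw₂, hw₂K⟩ := sing_ker h [fl h w₁, γ, fl h (gi x₀)] (by
    simp only [List.length_cons, List.length_nil]
    omega)
  have hw21 : B w₂ w₁ = 0 := hw₂K (fl h w₁) (by simp)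
  have hw2a : B ((g : Matrix (Fin n) (Fin n) F) *ᵥ w₂) x₀ = 0 := by
    have h9 := hw₂K γ (by simp)
    rw [hγ, LinearMap.comp_apply, Matrix.toLin'_apply, fl_apply] at h9
    exact h9
  have hw2b : B w₂ (gi x₀) = 0 := hw₂K (fl h (gi x₀)) (by simp)
  have hw12 : B w₁ w₂ = 0 := by
    rw [h.symm w₁ w₂]
    exact hw21
  obtain ⟨β₂, hβ₂⟩ : ∃ β₂ : Module.Dual F (Fin n → F), β₂ = fl h w₂ ∘ₗ gi := ⟨_, rfl⟩
  have hβ₂a : ∀ x, β₂ x = B (gi x) w₂ := fun x => by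
    rw [hβ₂]
    rfl
  have hβ₂x₀ : β₂ x₀ = 0 := by
    rw [hβ₂a, h.symm (gi x₀) w₂]
    exact hw2b
  have hα₂x₀ : fl h ((g : Matrix (Fin n) (Fin n) F) *ᵥ w₂) x₀ = 0 := by
    rw [fl_apply, h.symm x₀ _]
    exact hw2a
  have hα₁x₀ : fl h ((g : Matrix (Fin n) (Fin n) F) *ᵥ w₁) x₀ ≠ 0 := hx₀α
  obtain ⟨y, hyy, hyL, hyα⟩ := iso_knL h
    [β₁, β₂, fl h ((g : Matrix (Fin n) (Fin n) F) *ᵥ w₂)] (by
    simp only [List.length_cons, List.length_nil]
    omega) (fl h ((g : Matrix (Fin n) (Fin n) F) *ᵥ w₁)) (x₀ := x₀) (fun ψ hψ => by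
      simp only [List.mem_cons, List.not_mem_nil, or_false] at hψ
      rcases hψ with h' | h' | h'
      · rw [h']
        exact hx₀β
      · rw [h']
        exact hβ₂x₀
      · rw [h']
        exact hα₂x₀) hα₁x₀
  have hyβ₁ : β₁ y = 0 := hyL β₁ (by simp)
  have hyβ₂ : β₂ y = 0 := hyL β₂ (by simp)
  have hyα₂ : B y ((g : Matrix (Fin n) (Fin n) F) *ᵥ w₂) = 0 :=
    hyL (fl h ((g : Matrix (Fin n) (Fin n) F) *ᵥ w₂)) (by simp)
  have hyα₁ : B y ((g : Matrix (Fin n) (Fin n) F) *ᵥ w₁) ≠ 0 := hyα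
  obtain ⟨d₂, hd₂⟩ : ∃ d₂, β₂ d₂ = 1 := by
    obtain ⟨x, hx⟩ := (h.nondeg w₂ hw₂0).1
    refine ⟨(B x w₂)⁻¹ • ((g : Matrix (Fin n) (Fin n) F) *ᵥ x), ?_⟩
    rw [map_smul, hβ₂a, hgig, smul_eq_mul, inv_mul_cancel₀ hx]
  obtain ⟨y', hy'0, hy'y', hy'K⟩ := sing_ker h
    [β₁, β₂, fl h ((g : Matrix (Fin n) (Fin n) F) *ᵥ w₂),
      fl h ((g : Matrix (Fin n) (Fin n) F) *ᵥ w₁), fl h y, fl h d₂] (by
    simp only [List.length_cons, List.length_nil]
    omega)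
  have hy'β₁ : β₁ y' = 0 := hy'K β₁ (by simp)
  have hy'β₂ : β₂ y' = 0 := hy'K β₂ (by simp)
  have hy'α₂ : B y' ((g : Matrix (Fin n) (Fin n) F) *ᵥ w₂) = 0 :=
    hy'K (fl h ((g : Matrix (Fin n) (Fin n) F) *ᵥ w₂)) (by simp)
  have hy'α₁ : B y' ((g : Matrix (Fin n) (Fin n) F) *ᵥ w₁) = 0 :=
    hy'K (fl h ((g : Matrix (Fin n) (Fin n) F) *ᵥ w₁)) (by simp)
  have hy'y : B y' y = 0 := hy'K (fl h y) (by simp)
  have hy'd : B y' d₂ = 0 := hy'K (fl h d₂) (by simp)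
  have hyy' : B y y' = 0 := by
    rw [h.symm y y']
    exact hy'y
  have hc₀ : B ((g : Matrix (Fin n) (Fin n) F) *ᵥ w₁) y ≠ 0 := by
    rw [h.symm _ y]
    exact hyα₁
  -- the conjugate of the Siegel element of `w₁, w₂`
  have hu3 : 1 + β₂ ((g : Matrix (Fin n) (Fin n) F) *ᵥ w₁) ≠ 0 := by
    rw [hβ₂a, hgig, hw12, add_zero]
    exact one_ne_zero
  have hu4 : 1 + (-β₁) ((g : Matrix (Fin n) (Fin n) F) *ᵥ w₂) ≠ 0 := by
    rw [LinearMap.neg_apply, hβ₁a, hgig, hw21, neg_zero, add_zero]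
    exact one_ne_zero
  have e3 : tvG β₂ ((g : Matrix (Fin n) (Fin n) F) *ᵥ w₁) hu3 =
      g * tvG ((1 : F) • fl h w₂) w₁ (sieg_aux1 h hw12 1) * g⁻¹ :=
    tv_conj g ((1 : F) • fl h w₂) β₂ w₁ _ 1 (by rw [one_smul]) (fun x => by
      rw [one_mul, LinearMap.smul_apply, one_smul, hβ₂a, hgig, fl_apply]) hu3
      (sieg_aux1 h hw12 1)
  have e4 : tvG (-β₁) ((g : Matrix (Fin n) (Fin n) F) *ᵥ w₂) hu4 =
      g * tvG (-((1 : F) • fl h w₁)) w₂ (sieg_aux2 h hw12 1) * g⁻¹ :=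
    tv_conj g (-((1 : F) • fl h w₁)) (-β₁) w₂ _ 1 (by rw [one_smul]) (fun x => by
      rw [one_mul, LinearMap.neg_apply, LinearMap.neg_apply, LinearMap.smul_apply, one_smul,
        hβ₁a, hgig, fl_apply]) hu4 (sieg_aux2 h hw12 1)
  have hE : tvG β₂ ((g : Matrix (Fin n) (Fin n) F) *ᵥ w₁) hu3 *
      tvG (-β₁) ((g : Matrix (Fin n) (Fin n) F) *ᵥ w₂) hu4 ∈ K := by
    have e5 : tvG β₂ ((g : Matrix (Fin n) (Fin n) F) *ᵥ w₁) hu3 *
        tvG (-β₁) ((g : Matrix (Fin n) (Fin n) F) *ᵥ w₂) hu4 = g * sieg h hw12 1 * g⁻¹ := by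
      rw [e3, e4, sieg]
      group
    rw [e5]
    exact K.mul_mem (K.mul_mem hgK (hHK (sieg_mem h hw12 hw₁ hw₂ 1))) (K.inv_mem hgK)
  have hS : tvG ((-(B ((g : Matrix (Fin n) (Fin n) F) *ᵥ w₁) y)⁻¹) • fl h y') y
      (sieg_aux1 h hyy' _) * tvG (-((-(B ((g : Matrix (Fin n) (Fin n) F) *ᵥ w₁) y)⁻¹) • fl h y))
      y' (sieg_aux2 h hyy' _) ∈ K :=
    hHK (sieg_mem h hyy' hyy hy'y' (-(B ((g : Matrix (Fin n) (Fin n) F) *ᵥ w₁) y)⁻¹))
  have hcoef : -((-(B ((g : Matrix (Fin n) (Fin n) F) *ᵥ w₁) y)⁻¹) • fl h y)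
      ((g : Matrix (Fin n) (Fin n) F) *ᵥ w₁) = 1 := by
    rw [LinearMap.smul_apply, fl_apply, smul_eq_mul, neg_mul, neg_neg, inv_mul_cancel₀ hc₀]
  have hu : 1 + ((-((-(B ((g : Matrix (Fin n) (Fin n) F) *ᵥ w₁) y)⁻¹) • fl h y)
      ((g : Matrix (Fin n) (Fin n) F) *ᵥ w₁)) • β₂) y' ≠ 0 := by
    rw [LinearMap.smul_apply, hy'β₂, smul_zero, add_zero]
    exact one_ne_zero
  have hT := comm_tv K (sieg_aux1 h hyy' _) (sieg_aux2 h hyy' _) hu3 hu4 hS hE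
    (by rw [LinearMap.smul_apply, fl_apply, B_sing h hy'y', smul_zero])
    (by rw [hβ₂a, hgig, B_sing h hw₂])
    (by rw [hβ₂a, hgig, hw12])
    (by rw [LinearMap.smul_apply, fl_apply, h.symm ((g : Matrix (Fin n) (Fin n) F) *ᵥ w₂) y, hyα₂, smul_zero])
    (by rw [LinearMap.smul_apply, fl_apply, h.symm ((g : Matrix (Fin n) (Fin n) F) *ᵥ w₁) y', hy'α₁, smul_zero])
    (by rw [LinearMap.smul_apply, fl_apply, h.symm ((g : Matrix (Fin n) (Fin n) F) *ᵥ w₂) y', hy'α₂, smul_zero])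
    hyβ₁ hy'β₁ hyβ₂ hy'β₂ hu
  refine ⟨y', β₂, hy'0, ⟨hy'β₂, fun hu' => ?_⟩, ?_⟩
  · have e6 : tvG β₂ y' hu' = tvG ((-((-(B ((g : Matrix (Fin n) (Fin n) F) *ᵥ w₁) y)⁻¹) • fl h y)
        ((g : Matrix (Fin n) (Fin n) F) *ᵥ w₁)) • β₂) y' hu := gl_ext _ _ (fun x => by
      rw [tvG_mulVec, tvG_mulVec, hcoef, one_smul])
    rw [e6]
    exact hT
  · intro c hc
    have h5 := LinearMap.congr_fun hc d₂
    rw [hd₂, LinearMap.smul_apply, fl_apply, h.symm d₂ y', hy'd, smul_zero] at h5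
    exact one_ne_zero h5

/-- all transvections with direction `u` lie in `K` -/
def Dfull (K : Subgroup (Matrix.GeneralLinearGroup (Fin n) F)) (u : Fin n → F) : Prop :=
  ∀ χ : Module.Dual F (Fin n → F), χ u = 0 → TK K χ u

theorem D_conj (K : Subgroup (Matrix.GeneralLinearGroup (Fin n) F))
    (k : Matrix.GeneralLinearGroup (Fin n) F) (hk : k ∈ K) {a b : Fin n → F}
    (hkab : (k : Matrix (Fin n) (Fin n) F) *ᵥ a = b) (hfull : Dfull K a) : Dfull K b := by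
  intro χ hχ
  refine TK_conj K k hk (hfull (χ ∘ₗ Matrix.toLin' (k : Matrix (Fin n) (Fin n) F)) ?_) hkab ?_
  · rw [LinearMap.comp_apply, Matrix.toLin'_apply, hkab]
    exact hχ
  · intro y
    rw [LinearMap.comp_apply, Matrix.toLin'_apply]

theorem D_smul (K : Subgroup (Matrix.GeneralLinearGroup (Fin n) F)) {u : Fin n → F}
    (hu : Dfull K u) (l : F) : Dfull K (l • u) := by
  intro χ hχ
  by_cases hl : l = 0
  · rw [hl, zero_smul]
    exact TK_zero K χ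
  have hχu : χ u = 0 := by
    rw [map_smul, smul_eq_mul] at hχ
    exact (mul_eq_zero.mp hχ).resolve_left hl
  have h1 := hu (l • χ) (by rw [LinearMap.smul_apply, hχu, smul_zero])
  refine ⟨hχ, fun hu' => ?_⟩
  have hu'' : 1 + (l • χ) u ≠ 0 := by
    rw [h1.1, add_zero]
    exact one_ne_zero
  have e : tvG χ (l • u) hu' = tvG (l • χ) u hu'' := gl_ext _ _ (fun x => by
    rw [tvG_mulVec, tvG_mulVec, LinearMap.smul_apply, smul_smul, smul_eq_mul, mul_comm])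
  rw [e]
  exact h1.2 hu''

theorem D_add (h : OF Q B) (K : Subgroup (Matrix.GeneralLinearGroup (Fin n) F))
    {u u' : Fin n → F} (hu : Dfull K u) (hu' : Dfull K u') : Dfull K (u + u') := by
  by_cases hu'0 : u' = 0
  · rw [hu'0, add_zero]
    exact hu
  obtain ⟨a, ha⟩ : ∃ a, B a u' = 1 := by
    obtain ⟨x, hx⟩ := (h.nondeg u' hu'0).1
    exact ⟨(B x u')⁻¹ • x, by rw [h.bil.smul_left, inv_mul_cancel₀ hx]⟩
  by_cases hdep : ∀ p, B u (p - B p u' • a) = 0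
  · have e : u = B u a • u' := by
      by_contra hne
      obtain ⟨p, hp⟩ := (h.nondeg _ (sub_ne_zero.mpr hne)).2
      apply hp
      have h1 := hdep p
      rw [B_sub_right h, h.bil.smul_right, sub_eq_zero] at h1
      rw [B_sub_left h, h.bil.smul_left, h1, h.symm u' p]
      ring
    have e2 : u + u' = (B u a + 1) • u' := by rw [add_smul, one_smul, ← e]
    rw [e2]
    exact D_smul K hu' _
  · push Not at hdep
    obtain ⟨p, hp⟩ := hdep
    have hp' : B u' (p - B p u' • a) = 0 := by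
      rw [B_sub_right h, h.bil.smul_right, h.symm u' a, ha, mul_one, h.symm u' p, sub_self]
    have h0 : ((B u (p - B p u' • a))⁻¹ • fl h (p - B p u' • a)) u' = 0 := by
      rw [LinearMap.smul_apply, fl_apply, hp', smul_zero]
    have hk := (hu' _ h0).2 (by
      rw [h0, add_zero]
      exact one_ne_zero)
    refine D_conj K _ hk ?_ hu
    rw [tvG_mulVec, LinearMap.smul_apply, fl_apply, smul_eq_mul, inv_mul_cancel₀ hp, one_smul]

theorem D_step (h : OF Q B) (K : Subgroup (Matrix.GeneralLinearGroup (Fin n) F))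
    (hHK : Cfsg.Geo.quadSimilarityGroup Q ⊓ Cfsg.Geo.specialLinear (Fin n) F ≤ K)
    {u y₁ y₂ : Fin n → F} (hu : Dfull K u) (h1 : Q y₁ = 0) (h2 : Q y₂ = 0)
    (h12 : B y₁ y₂ = 0) (hu1 : B u y₁ = 0) (hu2 : B u y₂ ≠ 0) : Dfull K y₁ := by
  have hk : sieg h h12 (B u y₂)⁻¹ ∈ K := hHK (sieg_mem h h12 h1 h2 _)
  have hku : ((sieg h h12 (B u y₂)⁻¹ : Matrix.GeneralLinearGroup (Fin n) F) :
      Matrix (Fin n) (Fin n) F) *ᵥ u = u + y₁ := by
    rw [sieg_mulVec h h12 h2, hu1, mul_zero, zero_smul, sub_zero, inv_mul_cancel₀ hu2, one_smul]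
  have h3 : Dfull K (u + y₁) := D_conj K _ hk hku hu
  have h4 := D_add h K h3 (D_smul K hu (-1))
  have e : u + y₁ + (-1 : F) • u = y₁ := by
    rw [neg_one_smul]
    abel
  rw [e] at h4
  exact h4

theorem D_sing (h : OF Q B) (hn : 13 ≤ n) (K : Subgroup (Matrix.GeneralLinearGroup (Fin n) F))
    (hHK : Cfsg.Geo.quadSimilarityGroup Q ⊓ Cfsg.Geo.specialLinear (Fin n) F ≤ K)
    {v : Fin n → F} (hv : v ≠ 0) (hfull : Dfull K v) (s : Fin n → F) (hs : Q s = 0) :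
    Dfull K s := by
  obtain ⟨a, ha⟩ : ∃ a, B a v = 1 := by
    obtain ⟨x, hx⟩ := (h.nondeg v hv).1
    exact ⟨(B x v)⁻¹ • x, by rw [h.bil.smul_left, inv_mul_cancel₀ hx]⟩
  obtain ⟨qs, hlen, hqs⟩ := proj_list h [fl h s]
  obtain ⟨y₁, hy0, hyy, hyK⟩ := sing_ker h ([fl h v, fl h s, fl h a] ++ qs.map (fl h)) (by
    simp only [List.length_append, List.length_cons, List.length_nil, List.length_map] at hlen ⊢
    omega)
  have h1v : B y₁ v = 0 := hyK (fl h v) (by simp)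
  have h1s : B y₁ s = 0 := hyK (fl h s) (by simp)
  have h1a : B y₁ a = 0 := hyK (fl h a) (by simp)
  have h1q : ∀ q ∈ qs, B y₁ q = 0 := fun q hq =>
    hyK (fl h q) (List.mem_append_right _ (List.mem_map_of_mem hq))
  obtain ⟨m, hm, hmL, hmv⟩ := iso_knL h [fl h y₁] (by
    simp only [List.length_cons, List.length_nil]
    omega) (fl h v) (x₀ := a) (fun ψ hψ => by
      rw [List.mem_singleton] at hψ
      rw [hψ, fl_apply, h.symm a y₁]
      exact h1a) (by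
      rw [fl_apply, ha]
      exact one_ne_zero)
  have hm1 : B m y₁ = 0 := hmL (fl h y₁) (by simp)
  have hmv' : B m v ≠ 0 := hmv
  have hD1 : Dfull K y₁ := D_step h K hHK hfull hyy hm (by rw [h.symm y₁ m]; exact hm1)
    (by rw [h.symm v y₁]; exact h1v) (by rw [h.symm v m]; exact hmv')
  obtain ⟨x, hx⟩ := (h.nondeg y₁ hy0).2
  obtain ⟨x', hx'L, hx'B⟩ := hqs y₁ h1q x
  have hx'y : (fl h y₁) x' ≠ 0 := by
    rw [fl_apply, h.symm x' y₁, hx'B]
    exact hx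
  obtain ⟨m', hm', hm'L, hm'y⟩ := iso_knL h [fl h s] (by
    simp only [List.length_cons, List.length_nil]
    omega) (fl h y₁) (x₀ := x') hx'L hx'y
  have hm's : B m' s = 0 := hm'L (fl h s) (by simp)
  have hm'y' : B m' y₁ ≠ 0 := hm'y
  exact D_step h K hHK hD1 hs hm' (by rw [h.symm s m']; exact hm's) h1s
    (by rw [h.symm y₁ m']; exact hm'y')

theorem D_all (h : OF Q B) (hn : 13 ≤ n) (K : Subgroup (Matrix.GeneralLinearGroup (Fin n) F))
    (hsing : ∀ s : Fin n → F, Q s = 0 → Dfull K s) (x : Fin n → F) : Dfull K x := by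
  by_cases hq : Q x = 0
  · exact hsing x hq
  obtain ⟨y₃, t, q3, -, ht⟩ := sing_adj h [] (by
    simp only [List.length_nil]
    omega) (x := x) (fun ψ hψ => by simp at hψ) hq
  have h4 := D_add h K (hsing _ ht) (D_smul K (hsing y₃ q3) (-t))
  have e : x + t • y₃ + -t • y₃ = x := by
    rw [neg_smul, add_neg_cancel_right]
  rw [e] at h4
  exact h4

theorem exists_nonsim (h : OF Q B) (hn : 13 ≤ n) :
    ∃ g ∈ Cfsg.Geo.specialLinear (Fin n) F, g ∉ Cfsg.Geo.quadSimilarityGroup Q := by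
  obtain ⟨v, hv0, hvv, -⟩ := sing_ker h [] (by
    simp only [List.length_nil]
    omega)
  obtain ⟨a, ha⟩ : ∃ a, B a v = 1 := by
    obtain ⟨x, hx⟩ := (h.nondeg v hv0).1
    exact ⟨(B x v)⁻¹ • x, by rw [h.bil.smul_left, inv_mul_cancel₀ hx]⟩
  have h0 : fl h v v = 0 := by
    rw [fl_apply]
    exact B_sing h hvv
  have hu : 1 + fl h v v ≠ 0 := by
    rw [h0, add_zero]
    exact one_ne_zero
  refine ⟨tvG (fl h v) v hu, (mem_sl_iff _).mpr (by rw [tvG_det, h0, add_zero]), ?_⟩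
  rintro ⟨c, hc⟩
  have h1 := hc (a - Q a • v)
  have hx : Q (a - Q a • v) = 0 := by
    rw [sub_eq_add_neg, ← neg_smul, h.Q_add, h.Q_smul, hvv, mul_zero, add_zero,
      h.bil.smul_right, ha]
    ring
  have hxv : B (a - Q a • v) v = 1 := by
    rw [B_sub_left h, h.bil.smul_left, B_sing h hvv, mul_zero, sub_zero, ha]
  rw [tvG_mulVec, fl_apply, hxv, one_smul, hx, mul_zero, h.Q_add, hx, hvv, hxv] at h1
  norm_num at h1

end

/-- For a finite field F of odd order and n ≥ 13, let Q be a non-degenerate quadratic form on F^n (its polar form is non-degenerate). Then the elements of SL_n(F) that are similarities of Q (Q(gv) = c Q(v) for a non-zero scalar c depending on g) form a maximal subgroup of SL_n(F). -/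
theorem result {F : Type*} [Field F] [Fintype F] (n : ℕ) (hn : 13 ≤ n) (hodd : Odd (Fintype.card F)) (Q : (Fin n → F) → F) (hQ : Cfsg.Geo.IsNondegenerateQuadraticForm Q) : Cfsg.Geo.IsMaximalIn (Cfsg.Geo.specialLinear (Fin n) F) (Cfsg.Geo.quadSimilarityGroup Q ⊓ Cfsg.Geo.specialLinear (Fin n) F) := by
  have hOF : OF Q (QuadraticMap.polar Q) :=
    { bil := hQ.polar_bilinear
      symm := fun x y => QuadraticMap.polar_comm Q x y
      nondeg := hQ.nondegenerate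
      Q_add := fun x y => by
        simp only [QuadraticMap.polar]
        ring
      Q_smul := hQ.smul
      two := by
        intro h2
        have hch : ringChar F = 2 :=
          CharP.ringChar_of_prime_eq_zero Nat.prime_two (by exact_mod_cast h2)
        have h3 := FiniteField.even_card_iff_char_two.mp hch
        have h4 := Nat.odd_iff.mp hodd
        omega
      odd := Nat.odd_iff.mp hodd }
  refine ⟨lt_of_le_of_ne inf_le_right ?_, ?_⟩
  · intro heq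
    obtain ⟨g, hg, hg'⟩ := exists_nonsim hOF hn
    rw [← heq] at hg
    exact hg' hg.1
  · intro K hHK hKle
    by_cases hKH : K = Cfsg.Geo.quadSimilarityGroup Q ⊓ Cfsg.Geo.specialLinear (Fin n) F
    · exact Or.inl hKH
    · right
      apply le_antisymm hKle
      obtain ⟨g, hgK, hgH⟩ : ∃ g ∈ K,
          g ∉ Cfsg.Geo.quadSimilarityGroup Q ⊓ Cfsg.Geo.specialLinear (Fin n) F := by
        by_contra hcon
        push Not at hcon
        exact hKH (le_antisymm (fun x hx => hcon x hx) hHK)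
      have hgS : g ∉ Cfsg.Geo.quadSimilarityGroup Q := fun h => hgH ⟨h, hKle hgK⟩
      obtain ⟨v, φ₀, hv0, hT, hprop⟩ := crux hOF hn K hHK g hgK hgS
      have hfull : Dfull K v := full_at_sing hOF hn K hHK hT hprop hv0
      have hsing := D_sing hOF hn K hHK hv0 hfull
      exact sl_le_of_tv K (fun φ v' hu h0 => (D_all hOF hn K hsing v' φ h0).2 hu)

end Cfsg.Agent.S5644
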