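import Cfsg.Statements.S5645
import Mathlib
import Cfsg.Agent.Lib.Helper9.SpGen
import Cfsg.Agent.Lib.Helper9.Transvection
import Cfsg.Agent.Lib.Helper9.Family

set_option autoImplicit false
open Cfsg

namespace Cfsg.Agent.S5645

open Cfsg.Agent.S5648 (Bl Bl_apply Bl_self Bl_skew)
open Cfsg.Agent.Lib.Helper9.SpGen
open Cfsg.Agent.Lib.Helper9.Family (stab_of_maps)
open Cfsg.Agent.Lib.Helper9.Symp (Bl_nd)
open scoped Matrix

section
variable {F : Type*} [Field F] [Fintype F] {m : ℕ}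

/-- enlarging a subspace of directions -/
theorem enlarge (W : Submodule F (Fin m ⊕ Fin m → F))
    (hW : ∀ u ∈ W, ∀ v ∈ W, Bl m F u v = 0)
    (K : Subgroup (Matrix.GeneralLinearGroup (Fin m ⊕ Fin m) F))
    (S : Submodule F (Fin m ⊕ Fin m → F)) (hWS : perp W ≤ S) (hS : ∀ s ∈ S, s ∈ Dset K)
    (y : Fin m ⊕ Fin m → F) (hy : y ∈ Dset K) (hyS : y ∉ S) :
    ∀ z ∈ S ⊔ Submodule.span F {y}, z ∈ Dset K := by
  have hWp : W ≤ perp W := fun w hw => (mem_perp W w).mpr fun w' hw' => hW w' hw' w hw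
  have key : ∀ s ∈ S, ∀ y' : Fin m ⊕ Fin m → F, y' ∈ Dset K → y' ∉ S → s + y' ∈ Dset K := by
    intro s hs y' hy' hy'S
    by_cases hsy : Bl m F s y' = 0
    · have hy'p : y' ∉ perp W := fun h => hy'S (hWS h)
      have hsy'p : s + y' ∉ perp W := fun h => hy'S (by
        have := S.sub_mem (hWS h) hs
        rwa [add_sub_cancel_left] at this)
      rw [mem_perp] at hy'p hsy'p
      push Not at hy'p hsy'p
      obtain ⟨w₁, hw₁, h1⟩ := hy'p
      obtain ⟨w₂, hw₂, h2⟩ := hsy'p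
      obtain ⟨w, hw, hwy, hwsy⟩ : ∃ w ∈ W, Bl m F w y' ≠ 0 ∧ Bl m F w (s + y') ≠ 0 := by
        by_cases c1 : Bl m F w₁ (s + y') = 0
        · by_cases c2 : Bl m F w₂ y' = 0
          · refine ⟨w₁ + w₂, W.add_mem hw₁ hw₂, ?_, ?_⟩
            · rw [LinearMap.map_add₂, c2, add_zero]
              exact h1
            · rw [LinearMap.map_add₂, c1, zero_add]
              exact h2
          · exact ⟨w₂, hw₂, c2, h2⟩
        · exact ⟨w₁, hw₁, h1, c1⟩
      have hwD : w ∈ Dset K := hS w (hWS (hWp hw))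
      have h3 : y' + (1 : F) • w ∈ Dset K :=
        D_add K y' w hy' hwD (by rw [Bl_skew]; exact neg_ne_zero.mpr hwy) 1
      have h4 : s - w ∈ Dset K := hS _ (S.sub_mem hs (hWS (hWp hw)))
      have h5 : Bl m F (y' + (1 : F) • w) (s - w) ≠ 0 := by
        have e : Bl m F (y' + (1 : F) • w) (s - w) = Bl m F w (s + y') := by
          simp only [one_smul, map_add, map_sub, LinearMap.add_apply]
          rw [Bl_self w, Bl_skew y' s, hsy, Bl_skew y' w]
          ring
        rw [e]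
        exact hwsy
      have h6 := D_add K _ _ h3 h4 h5 1
      have e2 : y' + (1 : F) • w + (1 : F) • (s - w) = s + y' := by
        rw [one_smul, one_smul]
        abel
      rw [e2] at h6
      exact h6
    · have := D_add K s y' (hS s hs) hy' hsy 1
      rwa [one_smul] at this
  intro z hz
  obtain ⟨s, hs, y'', hy'', rfl⟩ := Submodule.mem_sup.mp hz
  obtain ⟨l, rfl⟩ := Submodule.mem_span_singleton.mp hy''
  by_cases hl : l = 0
  · rw [hl, zero_smul, add_zero]
    exact hS s hs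
  · refine key s hs (l • y) (D_smul K y hy l) ?_
    intro h
    apply hyS
    have := S.smul_mem l⁻¹ h
    rwa [smul_smul, inv_mul_cancel₀ hl, one_smul] at this

theorem all_dirs (W : Submodule F (Fin m ⊕ Fin m → F))
    (hW : ∀ u ∈ W, ∀ v ∈ W, Bl m F u v = 0)
    (K : Subgroup (Matrix.GeneralLinearGroup (Fin m ⊕ Fin m) F))
    (hPK : Cfsg.Geo.subspaceStabilizer W ⊓ Cfsg.spGL m F ≤ K) (hKS : K ≤ Cfsg.spGL m F)
    (g : Matrix.GeneralLinearGroup (Fin m ⊕ Fin m) F) (hgK : g ∈ K)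
    (hg : g ∉ Cfsg.Geo.subspaceStabilizer W) : ∀ y, y ∈ Dset K := by
  classical
  have hWp : W ≤ perp W := fun w hw => (mem_perp W w).mpr fun w' hw' => hW w' hw' w hw
  have hperpD : ∀ y ∈ perp W, y ∈ Dset K := by
    intro y hy c
    apply hPK
    refine ⟨Cfsg.Agent.Lib.Helper9.mem_subspaceStabilizer_of_fix W _ ?_, stv_mem y c⟩
    intro x hx
    rw [stv_mulVec, (mem_perp W y).mp hy x hx, mul_zero, zero_smul, add_zero]
  obtain ⟨S, -, hSmax⟩ := Set.Finite.exists_le_maximal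
    (s := {S : Submodule F (Fin m ⊕ Fin m → F) | perp W ≤ S ∧ ∀ s ∈ S, s ∈ Dset K})
    (Set.toFinite _) (a := perp W) ⟨le_rfl, hperpD⟩
  obtain ⟨hWS, hSD⟩ := hSmax.1
  have hKstab : ∀ k ∈ K, ∀ s ∈ S,
      (k : Matrix (Fin m ⊕ Fin m) (Fin m ⊕ Fin m) F) *ᵥ s ∈ S := by
    intro k hk s hs
    by_contra hks
    have hyD := D_inv K k hk (hKS hk) s (hSD s hs)
    have hbig := enlarge W hW K S hWS hSD _ hyD hks
    have hle : S ≤ S ⊔ Submodule.span F
        {(k : Matrix (Fin m ⊕ Fin m) (Fin m ⊕ Fin m) F) *ᵥ s} := le_sup_left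
    have := hSmax.2 (y := S ⊔ Submodule.span F
        {(k : Matrix (Fin m ⊕ Fin m) (Fin m ⊕ Fin m) F) *ᵥ s}) ⟨hWS.trans hle, hbig⟩ hle
    exact hks (this (Submodule.mem_sup_right (Submodule.subset_span rfl)))
  by_cases hStop : S = ⊤
  · intro y
    exact hSD y (by rw [hStop]; trivial)
  exfalso
  by_cases hSperp : S ≤ perp W
  · apply hg
    apply stab_of_maps
    intro w hw
    rw [← perp_perp W, mem_perp]
    intro v hv
    rw [← sp_adj g (hKS hgK)]
    have hv' : ((g⁻¹ : Matrix.GeneralLinearGroup (Fin m ⊕ Fin m) F) :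
        Matrix (Fin m ⊕ Fin m) (Fin m ⊕ Fin m) F) *ᵥ v ∈ perp W :=
      hSperp (hKstab g⁻¹ (K.inv_mem hgK) v (hWS hv))
    rw [Bl_skew, (mem_perp W _).mp hv' w hw, neg_zero]
  · obtain ⟨x, hxS, hxp⟩ := SetLike.not_le_iff_exists.mp hSperp
    obtain ⟨v₀, hv₀⟩ : ∃ v₀, v₀ ∉ S := by
      by_contra h
      push Not at h
      exact hStop (eq_top_iff.mpr fun z _ => h z)
    rw [mem_perp] at hxp
    push Not at hxp
    obtain ⟨a, haW, hax⟩ := hxp
    have hxa : Bl m F x a ≠ 0 := by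
      rw [Bl_skew]
      exact neg_ne_zero.mpr hax
    obtain ⟨b, hb_def⟩ : ∃ b, b = v₀ - (Bl m F v₀ a / Bl m F x a) • x := ⟨_, rfl⟩
    have hba : Bl m F b a = 0 := by
      rw [hb_def, LinearMap.map_sub₂, LinearMap.map_smul₂, smul_eq_mul, div_mul_cancel₀ _ hxa,
        sub_self]
    have hab : Bl m F a b = 0 := by rw [Bl_skew, hba, neg_zero]
    have hbS : b ∉ S := by
      intro h
      apply hv₀
      have := S.add_mem h (S.smul_mem (Bl m F v₀ a / Bl m F x a) hxS)
      rw [hb_def, sub_add_cancel] at this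
      exact this
    obtain ⟨E, hE⟩ : ∃ E, E = stv (a + b) (1 : F) * stv a (-1) * stv b (-1) := ⟨_, rfl⟩
    have hEv : ∀ z, (E : Matrix (Fin m ⊕ Fin m) (Fin m ⊕ Fin m) F) *ᵥ z
        = z + Bl m F z a • b + Bl m F z b • a := by
      intro z
      rw [hE, Units.val_mul, Units.val_mul, ← Matrix.mulVec_mulVec, ← Matrix.mulVec_mulVec,
        stv_mulVec, stv_mulVec, stv_mulVec]
      simp only [map_add, map_smul, LinearMap.add_apply, LinearMap.smul_apply, smul_eq_mul, hab,
        hba, Bl_self]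
      module
    have hES : E ∈ Cfsg.spGL m F := by
      rw [hE]
      exact (Cfsg.spGL m F).mul_mem ((Cfsg.spGL m F).mul_mem (stv_mem _ _) (stv_mem _ _))
        (stv_mem _ _)
    have hEP : E ∈ Cfsg.Geo.subspaceStabilizer W := by
      apply stab_of_maps
      intro w hw
      rw [hEv, hW w hw a haW, zero_smul, add_zero]
      exact W.add_mem hw (W.smul_mem _ haW)
    have hEK : E ∈ K := hPK ⟨hEP, hES⟩
    have h1 := hKstab E hEK x hxS
    rw [hEv] at h1
    have haS : a ∈ S := hWS (hWp haW)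
    have h2 : Bl m F x a • b ∈ S := by
      have := S.sub_mem (S.sub_mem h1 hxS) (S.smul_mem (Bl m F x b) haS)
      have e : x + Bl m F x a • b + Bl m F x b • a - x - Bl m F x b • a = Bl m F x a • b := by
        abel
      rwa [e] at this
    apply hbS
    have := S.smul_mem (Bl m F x a)⁻¹ h2
    rwa [smul_smul, inv_mul_cancel₀ hxa, one_smul] at this

end

/-- For a finite field F and m ≥ 7, in the symplectic group Sp_2m(F) of the standard alternating form on F^(2m) (as a subgroup of GL_2m(F)), the stabiliser of any non-zero subspace on which the form vanishes identically is a maximal subgroup. -/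
theorem result {F : Type*} [Field F] [Fintype F] (m : ℕ) (hm : 7 ≤ m) (W : Submodule F (Fin m ⊕ Fin m → F)) (hW0 : W ≠ ⊥) (hW : Cfsg.Geo.IsTotallySingularFor (Cfsg.sympForm m F) W) : Cfsg.Geo.IsMaximalIn (Cfsg.spGL m F) (Cfsg.Geo.subspaceStabilizer W ⊓ Cfsg.spGL m F) := by
  classical
  have hWB : ∀ u ∈ W, ∀ v ∈ W, Bl m F u v = 0 := fun u hu v hv => by
    rw [Bl_apply]
    exact hW u hu v hv
  constructor
  · refine lt_of_le_of_ne inf_le_right ?_
    intro heq
    obtain ⟨w₀, hw₀W, hw₀⟩ := Submodule.exists_mem_ne_zero_of_ne_bot hW0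
    obtain ⟨y, hy⟩ := Bl_nd w₀ hw₀
    have h1 : stv y (1 : F) ∈ Cfsg.Geo.subspaceStabilizer W ⊓ Cfsg.spGL m F := by
      rw [heq]
      exact stv_mem y 1
    have h2 := Cfsg.Agent.Lib.Helper9.mulVec_mem_of_mem_subspaceStabilizer h1.1 hw₀W
    rw [stv_mulVec, one_mul] at h2
    have h3 : Bl m F w₀ y • y ∈ W := (W.add_mem_iff_right hw₀W).mp h2
    have h4 : y ∈ W := by
      have := W.smul_mem (Bl m F w₀ y)⁻¹ h3
      rwa [smul_smul, inv_mul_cancel₀ hy, one_smul] at this
    exact hy (hWB w₀ hw₀W y h4)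
  · intro K hPK hKS
    by_cases hK : K ≤ Cfsg.Geo.subspaceStabilizer W ⊓ Cfsg.spGL m F
    · exact Or.inl (le_antisymm hK hPK)
    · right
      obtain ⟨g, hgK, hgP⟩ := SetLike.not_le_iff_exists.mp hK
      have hgS : g ∉ Cfsg.Geo.subspaceStabilizer W := fun h => hgP ⟨h, hKS hgK⟩
      have hall := all_dirs W hWB K hPK hKS g hgK hgS
      exact le_antisymm hKS (sp_le_of_stv K fun y c => hall y c)

end Cfsg.Agent.S5645
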