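import Cfsg.Statements.S5646
import Mathlib
import Cfsg.Agent.Lib.Helper9.SpGen
import Cfsg.Agent.Lib.Helper9.Transvection
import Cfsg.Agent.Lib.Helper9.Family

set_option autoImplicit false
open Cfsg

namespace Cfsg.Agent.S5646

open Cfsg.Agent.S5648 (Bl Bl_apply Bl_self Bl_skew)
open Cfsg.Agent.S5631 (mul_inv_mulVec)
open Cfsg.Agent.Lib.Helper9.SpGen
open Cfsg.Agent.Lib.Helper9.Family (stab_of_maps img mem_img img_finrank)
open Cfsg.Agent.Lib.Helper9.Symp (Bl_nd)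
open scoped Matrix

section
variable {F : Type*} [Field F] [Fintype F] {m : ℕ}

theorem disj (W : Submodule F (Fin m ⊕ Fin m → F))
    (hW : ∀ w ∈ W, w ≠ 0 → ∃ x ∈ W, Bl m F w x ≠ 0) (v : Fin m ⊕ Fin m → F) (hv : v ∈ W)
    (hv' : v ∈ perp W) : v = 0 := by
  by_contra hne
  obtain ⟨x, hx, hvx⟩ := hW v hv hne
  apply hvx
  rw [Bl_skew, (mem_perp W v).mp hv' x hx, neg_zero]

theorem decomp (W : Submodule F (Fin m ⊕ Fin m → F))
    (hW : ∀ w ∈ W, w ≠ 0 → ∃ x ∈ W, Bl m F w x ≠ 0) (y : Fin m ⊕ Fin m → F) :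
    ∃ w ∈ W, ∃ w' ∈ perp W, y = w + w' := by
  have hinf : W ⊓ perp W = ⊥ := by
    rw [eq_bot_iff]
    intro v hv
    exact (Submodule.mem_bot F).mpr (disj W hW v hv.1 hv.2)
  have hsup : W ⊔ perp W = ⊤ := by
    apply Submodule.eq_top_of_finrank_eq
    have h1 := Submodule.finrank_sup_add_finrank_inf_eq W (perp W)
    rw [hinf, finrank_bot, add_zero, finrank_perp] at h1
    have h2 : Module.finrank F W ≤ 2 * m := by
      have := Submodule.finrank_le W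
      rw [Module.finrank_fintype_fun_eq_card, Fintype.card_sum, Fintype.card_fin] at this
      omega
    rw [h1, Module.finrank_fintype_fun_eq_card, Fintype.card_sum, Fintype.card_fin]
    omega
  have hy : y ∈ W ⊔ perp W := by
    rw [hsup]
    trivial
  obtain ⟨w, hw, w', hw', rfl⟩ := Submodule.mem_sup.mp hy
  exact ⟨w, hw, w', hw', rfl⟩

theorem perp_nd (W : Submodule F (Fin m ⊕ Fin m → F))
    (hW : ∀ w ∈ W, w ≠ 0 → ∃ x ∈ W, Bl m F w x ≠ 0) (w' : Fin m ⊕ Fin m → F)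
    (hw' : w' ∈ perp W) (hne : w' ≠ 0) : ∃ z ∈ perp W, Bl m F w' z ≠ 0 := by
  obtain ⟨v, hv⟩ := Bl_nd w' hne
  obtain ⟨a, ha, b, hb, rfl⟩ := decomp W hW v
  refine ⟨b, hb, ?_⟩
  rw [map_add, Bl_skew w' a, (mem_perp W w').mp hw' a ha, neg_zero, zero_add] at hv
  exact hv

theorem transfer (K : Subgroup (Matrix.GeneralLinearGroup (Fin m ⊕ Fin m) F))
    (X : Submodule F (Fin m ⊕ Fin m → F)) (hXD : ∀ x ∈ X, x ∈ Dset K)
    (hXnd : ∀ x ∈ X, x ≠ 0 → ∃ z ∈ X, Bl m F x z ≠ 0)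
    (x' : Fin m ⊕ Fin m → F) (hx' : ∀ a ∈ X, Bl m F x' a = 0) (x₁ x₂ : Fin m ⊕ Fin m → F)
    (h1 : x₁ ∈ X) (h2 : x₂ ∈ X) (h1n : x₁ ≠ 0) (h2n : x₂ ≠ 0) (h : x₁ + x' ∈ Dset K) :
    x₂ + x' ∈ Dset K := by
  have step : ∀ a b, a ∈ X → b ∈ X → Bl m F a b ≠ 0 → a + x' ∈ Dset K → b + x' ∈ Dset K := by
    intro a b ha hb hab hD
    have hd : b - a ∈ X := X.sub_mem hb ha
    have h3 : Bl m F (a + x') (b - a) ≠ 0 := by
      rw [LinearMap.map_add₂, hx' _ hd, add_zero, map_sub, Bl_self, sub_zero]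
      exact hab
    have h4 := D_add K _ _ hD (hXD _ hd) h3 1
    have e : a + x' + (1 : F) • (b - a) = b + x' := by
      rw [one_smul]
      abel
    rw [e] at h4
    exact h4
  obtain ⟨z₁, hz₁, h1z⟩ := hXnd x₁ h1 h1n
  obtain ⟨z₂, hz₂, h2z⟩ := hXnd x₂ h2 h2n
  have h2z' : Bl m F z₂ x₂ ≠ 0 := by
    rw [Bl_skew]
    exact neg_ne_zero.mpr h2z
  by_cases c1 : Bl m F z₁ x₂ = 0
  · by_cases c2 : Bl m F x₁ z₂ = 0
    · have ha : Bl m F x₁ (z₁ + z₂) ≠ 0 := by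
        rw [map_add, c2, add_zero]
        exact h1z
      have hb : Bl m F (z₁ + z₂) x₂ ≠ 0 := by
        rw [LinearMap.map_add₂, c1, zero_add]
        exact h2z'
      exact step _ _ (X.add_mem hz₁ hz₂) h2 hb (step _ _ h1 (X.add_mem hz₁ hz₂) ha h)
    · exact step _ _ hz₂ h2 h2z' (step _ _ h1 hz₂ c2 h)
  · exact step _ _ hz₁ h2 c1 (step _ _ h1 hz₁ h1z h)

theorem sub_union (W U : Submodule F (Fin m ⊕ Fin m → F))
    (h : ∀ u ∈ U, u ∈ W ∨ u ∈ perp W) : U ≤ W ∨ U ≤ perp W := by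
  by_contra hcon
  push Not at hcon
  obtain ⟨h1, h2⟩ := hcon
  obtain ⟨u, huU, huW⟩ := SetLike.not_le_iff_exists.mp h1
  obtain ⟨u', hu'U, hu'P⟩ := SetLike.not_le_iff_exists.mp h2
  have hu : u ∈ perp W := (h u huU).resolve_left huW
  have hu' : u' ∈ W := (h u' hu'U).resolve_right hu'P
  rcases h (u + u') (U.add_mem huU hu'U) with h3 | h3
  · exact huW ((W.add_mem_iff_left hu').mp h3)
  · exact hu'P (((perp W).add_mem_iff_right hu).mp h3)

theorem all_dirs (W : Submodule F (Fin m ⊕ Fin m → F)) (hW0 : W ≠ ⊥)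
    (hW : ∀ w ∈ W, w ≠ 0 → ∃ x ∈ W, Bl m F w x ≠ 0) (hdim : Module.finrank F W < m)
    (K : Subgroup (Matrix.GeneralLinearGroup (Fin m ⊕ Fin m) F))
    (hPK : Cfsg.Geo.subspaceStabilizer W ⊓ Cfsg.spGL m F ≤ K) (hKS : K ≤ Cfsg.spGL m F)
    (g : Matrix.GeneralLinearGroup (Fin m ⊕ Fin m) F) (hgK : g ∈ K)
    (hg : g ∉ Cfsg.Geo.subspaceStabilizer W) : ∀ y, y ∈ Dset K := by
  classical
  have hWD : ∀ y ∈ W, y ∈ Dset K := by
    intro y hy c
    apply hPK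
    refine ⟨stab_of_maps W _ ?_, stv_mem y c⟩
    intro x hx
    rw [stv_mulVec]
    exact W.add_mem hx (W.smul_mem _ hy)
  have hPD : ∀ y ∈ perp W, y ∈ Dset K := by
    intro y hy c
    apply hPK
    refine ⟨Cfsg.Agent.Lib.Helper9.mem_subspaceStabilizer_of_fix W _ ?_, stv_mem y c⟩
    intro x hx
    rw [stv_mulVec, (mem_perp W y).mp hy x hx, mul_zero, zero_smul, add_zero]
  obtain ⟨y₀, hy₀D, hy₀W, hy₀P⟩ : ∃ y₀, y₀ ∈ Dset K ∧ y₀ ∉ W ∧ y₀ ∉ perp W := by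
    by_contra hcon
    push Not at hcon
    have hall : ∀ y ∈ Dset K, y ∈ W ∨ y ∈ perp W := fun y hy => by
      by_cases h : y ∈ W
      · exact Or.inl h
      · exact Or.inr (hcon y hy h)
    have h1 : img g W ≤ W ∨ img g W ≤ perp W := sub_union W _ (fun u hu => by
      obtain ⟨x, hx, rfl⟩ := (mem_img g W u).mp hu
      exact hall _ (D_inv K g hgK (hKS hgK) x (hWD x hx)))
    have h2 : img g (perp W) ≤ W ∨ img g (perp W) ≤ perp W := sub_union W _ (fun u hu => by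
      obtain ⟨x, hx, rfl⟩ := (mem_img g (perp W) u).mp hu
      exact hall _ (D_inv K g hgK (hKS hgK) x (hPD x hx)))
    rcases h1 with h1 | h1
    · exact hg (stab_of_maps W g fun v hv => h1 ((mem_img g W _).mpr ⟨v, hv, rfl⟩))
    · rcases h2 with h2 | h2
      · have h3 := Submodule.finrank_mono h2
        rw [img_finrank, finrank_perp] at h3
        omega
      · obtain ⟨w₀, hw₀W, hw₀⟩ := Submodule.exists_mem_ne_zero_of_ne_bot hW0
        apply hw₀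
        apply disj W hW w₀ hw₀W
        obtain ⟨a, ha, b, hb, hab⟩ := decomp W hW
          (((g⁻¹ : Matrix.GeneralLinearGroup (Fin m ⊕ Fin m) F) :
            Matrix (Fin m ⊕ Fin m) (Fin m ⊕ Fin m) F) *ᵥ w₀)
        have e : w₀ = (g : Matrix (Fin m ⊕ Fin m) (Fin m ⊕ Fin m) F) *ᵥ a
            + (g : Matrix (Fin m ⊕ Fin m) (Fin m ⊕ Fin m) F) *ᵥ b := by
          rw [← Matrix.mulVec_add, ← hab, mul_inv_mulVec]
        rw [e]
        exact (perp W).add_mem (h1 ((mem_img g W _).mpr ⟨a, ha, rfl⟩))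
          (h2 ((mem_img g (perp W) _).mpr ⟨b, hb, rfl⟩))
  obtain ⟨w₀, hw₀, w₀', hw₀', rfl⟩ := decomp W hW y₀
  have hw₀n : w₀ ≠ 0 := by
    rintro rfl
    rw [zero_add] at hy₀P
    exact hy₀P hw₀'
  have hw₀'n : w₀' ≠ 0 := by
    rintro rfl
    rw [add_zero] at hy₀W
    exact hy₀W hw₀
  intro y
  obtain ⟨w, hw, w', hw', rfl⟩ := decomp W hW y
  by_cases hwn : w = 0
  · rw [hwn, zero_add]
    exact hPD w' hw'
  by_cases hw'n : w' = 0
  · rw [hw'n, add_zero]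
    exact hWD w hw
  have h1 : w + w₀' ∈ Dset K := transfer K W hWD hW w₀'
    (fun a ha => by rw [Bl_skew, (mem_perp W w₀').mp hw₀' a ha, neg_zero]) w₀ w hw₀ hw hw₀n hwn
    hy₀D
  have h2 : w₀' + w ∈ Dset K := by
    rw [add_comm]
    exact h1
  have h3 : w' + w ∈ Dset K := transfer K (perp W) hPD (fun x hx hxn => perp_nd W hW x hx hxn) w
    (fun a ha => (mem_perp W a).mp ha w hw) w₀' w' hw₀' hw' hw₀'n hw'n h2
  rw [add_comm]
  exact h3

end

/-- For a finite field F and m ≥ 7, in the symplectic group Sp_2m(F) of the standard alternating form on F^(2m), the stabiliser of any non-zero subspace W on which the form is non-degenerate and with dim W < m is a maximal subgroup. -/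
theorem result {F : Type*} [Field F] [Fintype F] (m : ℕ) (hm : 7 ≤ m) (W : Submodule F (Fin m ⊕ Fin m → F)) (hW0 : W ≠ ⊥) (hW : Cfsg.Geo.IsNondegenerateOn (Cfsg.sympForm m F) W) (hdim : Module.finrank F W < m) : Cfsg.Geo.IsMaximalIn (Cfsg.spGL m F) (Cfsg.Geo.subspaceStabilizer W ⊓ Cfsg.spGL m F) := by
  classical
  have hWB : ∀ w ∈ W, w ≠ 0 → ∃ x ∈ W, Bl m F w x ≠ 0 := by
    intro w hw hne
    obtain ⟨x, hx, hwx⟩ := (hW w hw hne).2
    exact ⟨x, hx, by rw [Bl_apply]; exact hwx⟩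
  constructor
  · refine lt_of_le_of_ne inf_le_right ?_
    intro heq
    obtain ⟨w₀, hw₀W, hw₀⟩ := Submodule.exists_mem_ne_zero_of_ne_bot hW0
    obtain ⟨z, hzW, hz⟩ := hWB w₀ hw₀W hw₀
    have hP0 : perp W ≠ ⊥ := by
      intro h
      have h1 := finrank_perp W
      rw [h, finrank_bot] at h1
      omega
    obtain ⟨w', hw'P, hw'⟩ := Submodule.exists_mem_ne_zero_of_ne_bot hP0
    have h1 : stv (z + w') (1 : F) ∈ Cfsg.Geo.subspaceStabilizer W ⊓ Cfsg.spGL m F := by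
      rw [heq]
      exact stv_mem _ 1
    have h2 := Cfsg.Agent.Lib.Helper9.mulVec_mem_of_mem_subspaceStabilizer h1.1 hw₀W
    rw [stv_mulVec, one_mul, map_add, (mem_perp W w').mp hw'P w₀ hw₀W, add_zero] at h2
    have h3 : Bl m F w₀ z • (z + w') ∈ W := (W.add_mem_iff_right hw₀W).mp h2
    have h4 : z + w' ∈ W := by
      have := W.smul_mem (Bl m F w₀ z)⁻¹ h3
      rwa [smul_smul, inv_mul_cancel₀ hz, one_smul] at this
    have h5 : w' ∈ W := (W.add_mem_iff_right hzW).mp h4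
    exact hw' (disj W hWB w' h5 hw'P)
  · intro K hPK hKS
    by_cases hK : K ≤ Cfsg.Geo.subspaceStabilizer W ⊓ Cfsg.spGL m F
    · exact Or.inl (le_antisymm hK hPK)
    · right
      obtain ⟨g, hgK, hgP⟩ := SetLike.not_le_iff_exists.mp hK
      have hgS : g ∉ Cfsg.Geo.subspaceStabilizer W := fun h => hgP ⟨h, hKS hgK⟩
      have hall := all_dirs W hW0 hWB hdim K hPK hKS g hgK hgS
      exact le_antisymm hKS (sp_le_of_stv K fun y c => hall y c)

end Cfsg.Agent.S5646
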