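import Cfsg.Statements.S5647
import Mathlib
import Cfsg.Agent.Lib.Helper9.SpGen
import Cfsg.Agent.Lib.Helper9.Family
import Cfsg.Agent.S5646

set_option autoImplicit false
open Cfsg

namespace Cfsg.Agent.S5647

open Cfsg.Agent.S5648 (Bl Bl_apply Bl_self Bl_skew)
open Cfsg.Agent.S5635 (mkGL mkGL_mulVec)
open Cfsg.Agent.S5631 (gl_ext mul_inv_mulVec)
open Cfsg.Agent.S5646 (transfer)
open Cfsg.Agent.Lib.Helper9.SpGen
open Cfsg.Agent.Lib.Helper9.Family (stab_of_maps img mem_img img_finrank img_of_stab)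
open Cfsg.Agent.Lib.Helper9.Refl (gl_inj)
open Cfsg.Agent.Lib.Helper9.Symp (Bl_nd perpPair mem_perpPair proj_mem NondegOn nd_perpPair
  perpPair_lt)
open Cfsg.Agent.Lib.Helper9.Decomp (comp comp_mem comp_of_mem sum_comp)
open scoped Matrix

section
variable {F : Type*} [Field F] [Fintype F] {m : ℕ}

/-- the linear map `x ↦ x + B(x,b) a - B(x,a) b` -/
noncomputable def swL (a b : Fin m ⊕ Fin m → F) :
    (Fin m ⊕ Fin m → F) →ₗ[F] (Fin m ⊕ Fin m → F) :=
  LinearMap.id + ((Bl m F).flip b).smulRight a - ((Bl m F).flip a).smulRight b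

theorem swL_apply (a b x : Fin m ⊕ Fin m → F) :
    swL a b x = x + Bl m F x b • a - Bl m F x a • b := by
  simp [swL]

theorem swL_comp (a b : Fin m ⊕ Fin m → F) (hab : Bl m F b a = 2) :
    swL a b ∘ₗ swL a b = LinearMap.id := by
  refine LinearMap.ext fun x => ?_
  have hba : Bl m F a b = -2 := by rw [Bl_skew, hab]
  rw [LinearMap.comp_apply, swL_apply, swL_apply, LinearMap.id_apply]
  simp only [map_add, map_sub, map_smul, LinearMap.add_apply, LinearMap.sub_apply,
    LinearMap.smul_apply, smul_eq_mul, hab, hba, Bl_self]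
  module

noncomputable def swapEl (a b : Fin m ⊕ Fin m → F) (hab : Bl m F b a = 2) :
    Matrix.GeneralLinearGroup (Fin m ⊕ Fin m) F :=
  mkGL (swL a b) (swL a b) (swL_comp a b hab) (swL_comp a b hab)

theorem swapEl_mulVec (a b : Fin m ⊕ Fin m → F) (hab : Bl m F b a = 2)
    (x : Fin m ⊕ Fin m → F) :
    (swapEl a b hab).val *ᵥ x = x + Bl m F x b • a - Bl m F x a • b := by
  rw [swapEl, mkGL_mulVec, swL_apply]

theorem swapEl_mem (a b : Fin m ⊕ Fin m → F) (hab : Bl m F b a = 2) :
    swapEl a b hab ∈ Cfsg.spGL m F := by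
  rw [mem_sp_iff]
  intro u v
  have hba : Bl m F a b = -2 := by rw [Bl_skew, hab]
  rw [swapEl_mulVec, swapEl_mulVec]
  simp only [map_add, map_sub, map_smul, LinearMap.add_apply, LinearMap.sub_apply,
    LinearMap.smul_apply, smul_eq_mul, hab, hba, Bl_self]
  rw [Bl_skew a v, Bl_skew b v]
  ring

theorem block_swap : ∀ n : ℕ, ∀ A B' : Submodule F (Fin m ⊕ Fin m → F),
    Module.finrank F A + Module.finrank F B' ≤ n →
    NondegOn (Bl m F) A → NondegOn (Bl m F) B' → (∀ a ∈ A, ∀ b ∈ B', Bl m F a b = 0) →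
    ∃ h : Matrix.GeneralLinearGroup (Fin m ⊕ Fin m) F, h ∈ Cfsg.spGL m F ∧
      (∀ x, (∀ a ∈ A, Bl m F a x = 0) → (∀ b ∈ B', Bl m F b x = 0) → h.val *ᵥ x = x) ∧
      ((∀ a ∈ A, h.val *ᵥ a ∈ B') ∨ (∀ b ∈ B', h.val *ᵥ b ∈ A)) := by
  intro n
  induction n with
  | zero =>
    intro A B' hn _ _ _
    have hA : A = ⊥ := by
      apply Submodule.finrank_eq_zero.mp
      omega
    refine ⟨1, (Cfsg.spGL m F).one_mem, fun x _ _ => by rw [Units.val_one, Matrix.one_mulVec],
      Or.inl ?_⟩
    intro a ha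
    rw [hA, Submodule.mem_bot] at ha
    rw [ha, Matrix.mulVec_zero]
    exact B'.zero_mem
  | succ n ih =>
    intro A B' hn hAnd hBnd horth
    by_cases hA : A = ⊥
    · refine ⟨1, (Cfsg.spGL m F).one_mem,
        fun x _ _ => by rw [Units.val_one, Matrix.one_mulVec], Or.inl ?_⟩
      intro a ha
      rw [hA, Submodule.mem_bot] at ha
      rw [ha, Matrix.mulVec_zero]
      exact B'.zero_mem
    by_cases hB : B' = ⊥
    · refine ⟨1, (Cfsg.spGL m F).one_mem,
        fun x _ _ => by rw [Units.val_one, Matrix.one_mulVec], Or.inr ?_⟩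
      intro b hb
      rw [hB, Submodule.mem_bot] at hb
      rw [hb, Matrix.mulVec_zero]
      exact A.zero_mem
    obtain ⟨e, heA, f, hfA, hef⟩ : ∃ e ∈ A, ∃ f ∈ A, Bl m F e f = 1 := by
      obtain ⟨e₀, he₀A, he₀⟩ := Submodule.exists_mem_ne_zero_of_ne_bot hA
      obtain ⟨f₀, hf₀A, hef₀⟩ := hAnd e₀ he₀A he₀
      exact ⟨e₀, he₀A, (Bl m F e₀ f₀)⁻¹ • f₀, A.smul_mem _ hf₀A,
        by rw [map_smul, smul_eq_mul, inv_mul_cancel₀ hef₀]⟩
    obtain ⟨e', he'B, f', hf'B, hef'⟩ : ∃ e' ∈ B', ∃ f' ∈ B', Bl m F e' f' = 1 := by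
      obtain ⟨e₀, he₀B, he₀⟩ := Submodule.exists_mem_ne_zero_of_ne_bot hB
      obtain ⟨f₀, hf₀B, hef₀⟩ := hBnd e₀ he₀B he₀
      exact ⟨e₀, he₀B, (Bl m F e₀ f₀)⁻¹ • f₀, B'.smul_mem _ hf₀B,
        by rw [map_smul, smul_eq_mul, inv_mul_cancel₀ hef₀]⟩
    have hee' : Bl m F e e' = 0 := horth e heA e' he'B
    have hef'' : Bl m F e f' = 0 := horth e heA f' hf'B
    have hfe' : Bl m F f e' = 0 := horth f hfA e' he'B
    have hff' : Bl m F f f' = 0 := horth f hfA f' hf'B
    have he'e : Bl m F e' e = 0 := by rw [Bl_skew, hee', neg_zero]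
    have he'f : Bl m F e' f = 0 := by rw [Bl_skew, hfe', neg_zero]
    have hf'e : Bl m F f' e = 0 := by rw [Bl_skew, hef'', neg_zero]
    have hf'f : Bl m F f' f = 0 := by rw [Bl_skew, hff', neg_zero]
    have hfe : Bl m F f e = -1 := by rw [Bl_skew, hef]
    have hf'e' : Bl m F f' e' = -1 := by rw [Bl_skew, hef']
    have hab : Bl m F (e - e') (f - f') = 2 := by
      simp only [map_sub, LinearMap.sub_apply, hef, hef', hef'', he'f]
      norm_num
    obtain ⟨s, hs_def⟩ : ∃ s, s = swapEl (f - f') (e - e') hab := ⟨_, rfl⟩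
    have hsS : s ∈ Cfsg.spGL m F := by
      rw [hs_def]
      exact swapEl_mem _ _ _
    have hsv : ∀ x, s.val *ᵥ x
        = x + Bl m F x (e - e') • (f - f') - Bl m F x (f - f') • (e - e') := fun x => by
      rw [hs_def, swapEl_mulVec]
    have hse : s.val *ᵥ e = e' := by
      rw [hsv]
      simp only [map_sub, Bl_self, hef, hee', hef'']
      module
    have hsf : s.val *ᵥ f = f' := by
      rw [hsv]
      simp only [map_sub, Bl_self, hfe, hfe', hff']
      module
    have hse' : s.val *ᵥ e' = e := by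
      rw [hsv]
      simp only [map_sub, Bl_self, he'e, he'f, hef']
      module
    have hsf' : s.val *ᵥ f' = f := by
      rw [hsv]
      simp only [map_sub, Bl_self, hf'e, hf'f, hf'e']
      module
    have hs_fix : ∀ x, Bl m F x e = 0 → Bl m F x f = 0 → Bl m F x e' = 0 → Bl m F x f' = 0 →
        s.val *ᵥ x = x := by
      intro x h1 h2 h3 h4
      rw [hsv, map_sub, map_sub, h1, h2, h3, h4, sub_zero, zero_smul, zero_smul, add_zero,
        sub_zero]
    have hA1nd := nd_perpPair (Bl m F) Bl_self A e f heA hfA hef hAnd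
    have hB1nd := nd_perpPair (Bl m F) Bl_self B' e' f' he'B hf'B hef' hBnd
    have hA1lt := perpPair_lt (Bl m F) Bl_self A e f heA hef
    have hB1lt := perpPair_lt (Bl m F) Bl_self B' e' f' he'B hef'
    have hA1 : ∀ a ∈ perpPair (Bl m F) A e f, a ∈ A ∧ Bl m F e a = 0 ∧ Bl m F f a = 0 :=
      fun a ha => (mem_perpPair (Bl m F) A e f a).mp ha
    have hB1 : ∀ b ∈ perpPair (Bl m F) B' e' f', b ∈ B' ∧ Bl m F e' b = 0 ∧ Bl m F f' b = 0 :=
      fun b hb => (mem_perpPair (Bl m F) B' e' f' b).mp hb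
    obtain ⟨h₁, hh₁S, hh₁fix, hh₁⟩ := ih (perpPair (Bl m F) A e f)
      (perpPair (Bl m F) B' e' f') (by omega) hA1nd hB1nd
      (fun a ha b hb => horth a (hA1 a ha).1 b (hB1 b hb).1)
    have h1e : h₁.val *ᵥ e = e := hh₁fix e
      (fun a ha => by rw [Bl_skew, (hA1 a ha).2.1, neg_zero])
      (fun b hb => by rw [Bl_skew, horth e heA b (hB1 b hb).1, neg_zero])
    have h1f : h₁.val *ᵥ f = f := hh₁fix f
      (fun a ha => by rw [Bl_skew, (hA1 a ha).2.2, neg_zero])
      (fun b hb => by rw [Bl_skew, horth f hfA b (hB1 b hb).1, neg_zero])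
    have h1e' : h₁.val *ᵥ e' = e' := hh₁fix e'
      (fun a ha => horth a (hA1 a ha).1 e' he'B)
      (fun b hb => by rw [Bl_skew, (hB1 b hb).2.1, neg_zero])
    have h1f' : h₁.val *ᵥ f' = f' := hh₁fix f'
      (fun a ha => horth a (hA1 a ha).1 f' hf'B)
      (fun b hb => by rw [Bl_skew, (hB1 b hb).2.2, neg_zero])
    have hsA : ∀ a ∈ A, ∃ a₁ ∈ perpPair (Bl m F) A e f, ∃ α β : F,
        s.val *ᵥ a = a₁ + (α • e' + β • f') := by
      intro a ha
      have hp := proj_mem (Bl m F) Bl_self A e f heA hfA hef a ha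
      refine ⟨_, hp, Bl m F a f, Bl m F e a, ?_⟩
      have hp' := hA1 _ hp
      have h1 : s.val *ᵥ (a - (Bl m F a f • e + Bl m F e a • f))
          = a - (Bl m F a f • e + Bl m F e a • f) :=
        hs_fix _ (by rw [Bl_skew, hp'.2.1, neg_zero]) (by rw [Bl_skew, hp'.2.2, neg_zero])
          (horth _ hp'.1 e' he'B) (horth _ hp'.1 f' hf'B)
      have h2 : a = (a - (Bl m F a f • e + Bl m F e a • f))
          + (Bl m F a f • e + Bl m F e a • f) := by abel
      conv_lhs => rw [h2]
      rw [Matrix.mulVec_add, h1, Matrix.mulVec_add, Matrix.mulVec_smul, Matrix.mulVec_smul, hse,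
        hsf]
    have hsB : ∀ b ∈ B', ∃ b₁ ∈ perpPair (Bl m F) B' e' f', ∃ α β : F,
        s.val *ᵥ b = b₁ + (α • e + β • f) := by
      intro b hb
      have hp := proj_mem (Bl m F) Bl_self B' e' f' he'B hf'B hef' b hb
      refine ⟨_, hp, Bl m F b f', Bl m F e' b, ?_⟩
      have hp' := hB1 _ hp
      have h1 : s.val *ᵥ (b - (Bl m F b f' • e' + Bl m F e' b • f'))
          = b - (Bl m F b f' • e' + Bl m F e' b • f') :=
        hs_fix _ (by rw [Bl_skew, horth e heA _ hp'.1, neg_zero])
          (by rw [Bl_skew, horth f hfA _ hp'.1, neg_zero])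
          (by rw [Bl_skew, hp'.2.1, neg_zero]) (by rw [Bl_skew, hp'.2.2, neg_zero])
      have h2 : b = (b - (Bl m F b f' • e' + Bl m F e' b • f'))
          + (Bl m F b f' • e' + Bl m F e' b • f') := by abel
      conv_lhs => rw [h2]
      rw [Matrix.mulVec_add, h1, Matrix.mulVec_add, Matrix.mulVec_smul, Matrix.mulVec_smul, hse',
        hsf']
    refine ⟨h₁ * s, (Cfsg.spGL m F).mul_mem hh₁S hsS, ?_, ?_⟩
    · intro x hxA hxB
      have hsx : s.val *ᵥ x = x := hs_fix x (by rw [Bl_skew, hxA e heA, neg_zero])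
        (by rw [Bl_skew, hxA f hfA, neg_zero]) (by rw [Bl_skew, hxB e' he'B, neg_zero])
        (by rw [Bl_skew, hxB f' hf'B, neg_zero])
      rw [Units.val_mul, ← Matrix.mulVec_mulVec, hsx]
      exact hh₁fix x (fun a ha => hxA a (hA1 a ha).1) (fun b hb => hxB b (hB1 b hb).1)
    · rcases hh₁ with hl | hr
      · left
        intro a ha
        obtain ⟨a₁, ha₁, α, β, hsa⟩ := hsA a ha
        rw [Units.val_mul, ← Matrix.mulVec_mulVec, hsa, Matrix.mulVec_add, Matrix.mulVec_add,
          Matrix.mulVec_smul, Matrix.mulVec_smul, h1e', h1f']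
        exact B'.add_mem (hB1 _ (hl a₁ ha₁)).1
          (B'.add_mem (B'.smul_mem _ he'B) (B'.smul_mem _ hf'B))
      · right
        intro b hb
        obtain ⟨b₁, hb₁, α, β, hsb⟩ := hsB b hb
        rw [Units.val_mul, ← Matrix.mulVec_mulVec, hsb, Matrix.mulVec_add, Matrix.mulVec_add,
          Matrix.mulVec_smul, Matrix.mulVec_smul, h1e, h1f]
        exact A.add_mem (hA1 _ (hr b₁ hb₁)).1
          (A.add_mem (A.smul_mem _ heA) (A.smul_mem _ hfA))

theorem orth_comp {t : ℕ} (D : Fin t → Submodule F (Fin m ⊕ Fin m → F))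
    (hint : DirectSum.IsInternal D)
    (horth : ∀ i j, i ≠ j → ∀ u ∈ D i, ∀ v ∈ D j, Bl m F u v = 0)
    (v : Fin m ⊕ Fin m → F) (l : Fin t) (z : Fin m ⊕ Fin m → F) (hz : z ∈ D l) :
    Bl m F v z = Bl m F (comp D hint l v) z := by
  conv_lhs => rw [← sum_comp D hint v]
  rw [map_sum, LinearMap.sum_apply, Finset.sum_eq_single l]
  · intro j _ hjl
    exact horth j l hjl _ (comp_mem D hint j v) z hz
  · intro h
    exact absurd (Finset.mem_univ l) h

theorem block_transp {t : ℕ} (k : ℕ) (D : Fin t → Submodule F (Fin m ⊕ Fin m → F))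
    (hfr : ∀ i, Module.finrank F (D i) = k) (hint : DirectSum.IsInternal D)
    (hnd : ∀ i, NondegOn (Bl m F) (D i))
    (horth : ∀ i j, i ≠ j → ∀ u ∈ D i, ∀ v ∈ D j, Bl m F u v = 0)
    (x y : Fin t) (hxy : x ≠ y) :
    ∃ h : Matrix.GeneralLinearGroup (Fin m ⊕ Fin m) F,
      h ∈ Cfsg.Geo.decompositionStabilizer D ⊓ Cfsg.spGL m F ∧
      ∀ l, img h (D l) = D (Equiv.swap x y l) := by
  have one : ∀ x y : Fin t, x ≠ y → ∀ h : Matrix.GeneralLinearGroup (Fin m ⊕ Fin m) F,
      h ∈ Cfsg.spGL m F →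
      (∀ z, (∀ a ∈ D x, Bl m F a z = 0) → (∀ b ∈ D y, Bl m F b z = 0) → h.val *ᵥ z = z) →
      (∀ a ∈ D x, h.val *ᵥ a ∈ D y) →
      (img h (D x) = D y ∧ ∀ b ∈ D y, h.val *ᵥ b ∈ D x) := by
    intro x y hxy h hS hfix hxy'
    have himg : img h (D x) = D y := by
      apply Submodule.eq_of_le_of_finrank_eq
      · intro v hv
        obtain ⟨u, hu, rfl⟩ := (mem_img h (D x) v).mp hv
        exact hxy' u hu
      · rw [img_finrank, hfr, hfr]
    refine ⟨himg, ?_⟩
    intro b hb
    have hB := (mem_sp_iff h).mp hS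
    have hcomp0 : ∀ l, l ≠ x → comp D hint l (h.val *ᵥ b) = 0 := by
      intro l hl
      by_contra hne
      obtain ⟨z, hz, hzne⟩ := hnd l _ (comp_mem D hint l _) hne
      apply hzne
      rw [← orth_comp D hint horth _ l z hz]
      by_cases hly : l = y
      · have hz' : z ∈ img h (D x) := by
          rw [himg, ← hly]
          exact hz
        obtain ⟨a, ha, rfl⟩ := (mem_img h (D x) z).mp hz'
        rw [hB]
        exact horth y x (Ne.symm hxy) b hb a ha
      · have hzfix : h.val *ᵥ z = z := hfix z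
          (fun a ha => horth x l (Ne.symm hl) a ha z hz)
          (fun b' hb' => horth y l (Ne.symm hly) b' hb' z hz)
        rw [← hzfix, hB]
        exact horth y l (Ne.symm hly) b hb z hz
    have e : h.val *ᵥ b = comp D hint x (h.val *ᵥ b) := by
      conv_lhs => rw [← sum_comp D hint (h.val *ᵥ b)]
      rw [Finset.sum_eq_single x]
      · intro l _ hl
        exact hcomp0 l hl
      · intro hx
        exact absurd (Finset.mem_univ x) hx
    rw [e]
    exact comp_mem D hint x _
  obtain ⟨h, hS, hfix, hdir⟩ := block_swap (k + k) (D x) (D y) (by rw [hfr, hfr]) (hnd x)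
    (hnd y) (horth x y hxy)
  have both : img h (D x) = D y ∧ img h (D y) = D x := by
    rcases hdir with hd | hd
    · obtain ⟨h1, h2⟩ := one x y hxy h hS hfix hd
      refine ⟨h1, ?_⟩
      apply Submodule.eq_of_le_of_finrank_eq
      · intro v hv
        obtain ⟨u, hu, rfl⟩ := (mem_img h (D y) v).mp hv
        exact h2 u hu
      · rw [img_finrank, hfr, hfr]
    · obtain ⟨h1, h2⟩ := one y x (Ne.symm hxy) h hS (fun z h1 h2 => hfix z h2 h1) hd
      refine ⟨?_, h1⟩
      apply Submodule.eq_of_le_of_finrank_eq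
      · intro v hv
        obtain ⟨u, hu, rfl⟩ := (mem_img h (D x) v).mp hv
        exact h2 u hu
      · rw [img_finrank, hfr, hfr]
  have hall : ∀ l, img h (D l) = D (Equiv.swap x y l) := by
    intro l
    by_cases hlx : l = x
    · rw [hlx, Equiv.swap_apply_left]
      exact both.1
    · by_cases hly : l = y
      · rw [hly, Equiv.swap_apply_right]
        exact both.2
      · rw [Equiv.swap_apply_of_ne_of_ne hlx hly]
        have hzfix : ∀ z ∈ D l, h.val *ᵥ z = z := fun z hz => hfix z
          (fun a ha => horth x l (Ne.symm hlx) a ha z hz)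
          (fun b hb => horth y l (Ne.symm hly) b hb z hz)
        ext v
        rw [mem_img]
        constructor
        · rintro ⟨u, hu, rfl⟩
          rw [hzfix u hu]
          exact hu
        · intro hv
          exact ⟨v, hv, hzfix v hv⟩
  exact ⟨h, ⟨(show h ∈ Cfsg.Geo.decompositionStabilizer D from ⟨Equiv.swap x y, hall⟩), hS⟩,
    hall⟩

theorem D_sub {t : ℕ} (D : Fin t → Submodule F (Fin m ⊕ Fin m → F))
    (horth : ∀ i j, i ≠ j → ∀ u ∈ D i, ∀ v ∈ D j, Bl m F u v = 0)
    (K : Subgroup (Matrix.GeneralLinearGroup (Fin m ⊕ Fin m) F))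
    (hHK : Cfsg.Geo.decompositionStabilizer D ⊓ Cfsg.spGL m F ≤ K) (i : Fin t)
    (y : Fin m ⊕ Fin m → F) (hy : y ∈ D i) : y ∈ Dset K := by
  intro c
  apply hHK
  refine ⟨(show stv y c ∈ Cfsg.Geo.decompositionStabilizer D from ⟨1, fun j => ?_⟩),
    stv_mem y c⟩
  show img (stv y c) (D j) = D j
  apply img_of_stab
  apply stab_of_maps
  intro v hv
  rw [stv_mulVec]
  by_cases hji : j = i
  · rw [hji] at hv ⊢
    exact (D i).add_mem hv ((D i).smul_mem _ hy)
  · rw [horth j i hji v hv y hy, mul_zero, zero_smul, add_zero]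
    exact hv

theorem two_support {t : ℕ} (k : ℕ) (D : Fin t → Submodule F (Fin m ⊕ Fin m → F))
    (hk : 0 < k) (hfr : ∀ i, Module.finrank F (D i) = k) (hint : DirectSum.IsInternal D)
    (K : Subgroup (Matrix.GeneralLinearGroup (Fin m ⊕ Fin m) F)) (hKS : K ≤ Cfsg.spGL m F)
    (hDK : ∀ i, ∀ y ∈ D i, y ∈ Dset K)
    (g : Matrix.GeneralLinearGroup (Fin m ⊕ Fin m) F) (hgK : g ∈ K)
    (hg : g ∉ Cfsg.Geo.decompositionStabilizer D) :
    ∃ y ∈ Dset K, ∃ a b, a ≠ b ∧ comp D hint a y ≠ 0 ∧ comp D hint b y ≠ 0 := by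
  classical
  by_contra hcon
  push Not at hcon
  have hne : ∀ i, ∃ x₀ ∈ D i, x₀ ≠ 0 := by
    intro i
    apply Submodule.exists_mem_ne_zero_of_ne_bot
    intro h
    have := hfr i
    rw [h, finrank_bot] at this
    omega
  have hkey : ∀ i, ∃ j, ∀ x ∈ D i, g.val *ᵥ x ∈ D j := by
    intro i
    obtain ⟨x₀, hx₀, hx₀n⟩ := hne i
    have hy₀n : g.val *ᵥ x₀ ≠ 0 := by
      intro h
      apply hx₀n
      apply gl_inj g
      rw [h, Matrix.mulVec_zero]
    obtain ⟨j, hj⟩ : ∃ j, comp D hint j (g.val *ᵥ x₀) ≠ 0 := by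
      by_contra h
      push Not at h
      apply hy₀n
      rw [← sum_comp D hint (g.val *ᵥ x₀)]
      exact Finset.sum_eq_zero fun l _ => h l
    refine ⟨j, fun x hx => ?_⟩
    have hD0 := D_inv K g hgK (hKS hgK) x₀ (hDK i x₀ hx₀)
    have hD1 := D_inv K g hgK (hKS hgK) x (hDK i x hx)
    have hD2 := D_inv K g hgK (hKS hgK) (x + x₀) (hDK i _ ((D i).add_mem hx hx₀))
    have hc : ∀ l, l ≠ j → comp D hint l (g.val *ᵥ x) = 0 := by
      intro l hl
      by_contra hne'
      have h1 : comp D hint j (g.val *ᵥ x) = 0 := hcon _ hD1 l j hl hne'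
      have h2 : comp D hint l (g.val *ᵥ x₀) = 0 := hcon _ hD0 j l (Ne.symm hl) hj
      have h3 : comp D hint l (g.val *ᵥ (x + x₀)) ≠ 0 := by
        rw [Matrix.mulVec_add, map_add, h2, add_zero]
        exact hne'
      have h4 := hcon _ hD2 l j hl h3
      rw [Matrix.mulVec_add, map_add, h1, zero_add] at h4
      exact hj h4
    have e : g.val *ᵥ x = comp D hint j (g.val *ᵥ x) := by
      conv_lhs => rw [← sum_comp D hint (g.val *ᵥ x)]
      rw [Finset.sum_eq_single j]
      · intro l _ hl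
        exact hc l hl
      · intro h
        exact absurd (Finset.mem_univ j) h
    rw [e]
    exact comp_mem D hint j _
  choose σ hσ using hkey
  have himg : ∀ i, img g (D i) = D (σ i) := by
    intro i
    apply Submodule.eq_of_le_of_finrank_eq
    · intro v hv
      obtain ⟨u, hu, rfl⟩ := (mem_img g (D i) v).mp hv
      exact hσ i u hu
    · rw [img_finrank, hfr, hfr]
  have hinj : Function.Injective σ := by
    intro i i' hii
    by_contra hne'
    obtain ⟨x₀, hx₀, hx₀n⟩ := hne i
    have h1 : g.val *ᵥ x₀ ∈ img g (D i') := by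
      rw [himg i', ← hii]
      exact hσ i x₀ hx₀
    obtain ⟨x', hx', hxx⟩ := (mem_img g (D i') _).mp h1
    have h2 : x' = x₀ := gl_inj g _ _ hxx
    rw [h2] at hx'
    have h3 := comp_of_mem D hint hx₀ i
    have h4 := comp_of_mem D hint hx' i
    rw [if_pos rfl] at h3
    rw [if_neg hne'] at h4
    exact hx₀n (h3.symm.trans h4)
  apply hg
  exact ⟨Equiv.ofBijective σ ⟨hinj, Finite.surjective_of_injective hinj⟩, fun i => himg i⟩

theorem exists_r (k : ℕ) (hex : ¬ (k = 2 ∧ Fintype.card F = 2))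
    (X : Submodule F (Fin m ⊕ Fin m → F)) (hXfr : Module.finrank F X = k)
    (hXnd : NondegOn (Bl m F) X) (c : Fin m ⊕ Fin m → F) (hc : c ∈ X) (hc0 : c ≠ 0) :
    ∃ r ∈ X, Bl m F c r = 0 ∧ r ≠ 0 ∧ c + r ≠ 0 := by
  classical
  by_cases hq : Fintype.card F = 2
  · have hk2 : k ≠ 2 := fun h => hex ⟨h, hq⟩
    obtain ⟨N, hN⟩ : ∃ N, N = X ⊓ LinearMap.ker (Bl m F c) := ⟨_, rfl⟩
    have hcN : c ∈ N := by
      rw [hN]
      exact ⟨hc, LinearMap.mem_ker.mpr (Bl_self c)⟩
    obtain ⟨x, hx, hcx⟩ := hXnd c hc hc0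
    have hNlt : N < X := by
      rw [lt_iff_le_and_ne]
      refine ⟨by rw [hN]; exact inf_le_left, fun h => ?_⟩
      have h' : x ∈ N := by
        rw [h]
        exact hx
      rw [hN] at h'
      exact hcx (LinearMap.mem_ker.mp h'.2)
    have h1 : Module.finrank F N < k := by
      rw [← hXfr]
      exact Submodule.finrank_lt_finrank_of_lt hNlt
    have h2 : k ≤ Module.finrank F N + 1 := by
      have e1 := Submodule.finrank_sup_add_finrank_inf_eq X (LinearMap.ker (Bl m F c))
      have e2 := LinearMap.finrank_range_add_finrank_ker (Bl m F c)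
      have e3 : Module.finrank F (LinearMap.range (Bl m F c)) ≤ 1 := by
        have := Submodule.finrank_le (LinearMap.range (Bl m F c))
        rwa [Module.finrank_self] at this
      have e4 := Submodule.finrank_le (X ⊔ LinearMap.ker (Bl m F c))
      rw [← hN, hXfr] at e1
      omega
    have hspan : Submodule.span F {c} ≤ N := by
      rw [Submodule.span_singleton_le_iff_mem]
      exact hcN
    have h3 : Module.finrank F (Submodule.span F {c}) = 1 := finrank_span_singleton hc0
    have hlt : Submodule.span F {c} < N := by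
      rw [lt_iff_le_and_ne]
      refine ⟨hspan, fun h => ?_⟩
      rw [← h, h3] at h1 h2
      omega
    obtain ⟨r, hrN, hrs⟩ := SetLike.exists_of_lt hlt
    rw [hN] at hrN
    refine ⟨r, hrN.1, LinearMap.mem_ker.mp hrN.2, ?_, ?_⟩
    · rintro rfl
      exact hrs (Submodule.zero_mem _)
    · intro h
      apply hrs
      have e : r = (-1 : F) • c := by
        rw [neg_one_smul]
        exact eq_neg_of_add_eq_zero_right h
      rw [e]
      exact Submodule.smul_mem _ _ (Submodule.subset_span rfl)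
  · obtain ⟨l, hl0, hl1⟩ : ∃ l : F, l ≠ 0 ∧ l ≠ -1 := by
      by_contra h
      push Not at h
      have h1 : (Finset.univ : Finset F) ⊆ {0, -1} := by
        intro l _
        by_cases hl : l = 0
        · simp [hl]
        · simp [h l hl]
      have h2 := Finset.card_le_card h1
      rw [Finset.card_univ] at h2
      have h3 : ({0, -1} : Finset F).card ≤ 2 := Finset.card_le_two
      have h4 := Fintype.one_lt_card (α := F)
      omega
    refine ⟨l • c, X.smul_mem l hc, by rw [map_smul, Bl_self, smul_zero], smul_ne_zero hl0 hc0,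
      ?_⟩
    have e : c + l • c = (1 + l) • c := by rw [add_smul, one_smul]
    rw [e]
    exact smul_ne_zero (fun h => hl1 (eq_neg_of_add_eq_zero_right h)) hc0

theorem pair_good {t : ℕ} (k : ℕ) (hex : ¬ (k = 2 ∧ Fintype.card F = 2))
    (D : Fin t → Submodule F (Fin m ⊕ Fin m → F))
    (hfr : ∀ i, Module.finrank F (D i) = k) (hint : DirectSum.IsInternal D)
    (hnd : ∀ i, NondegOn (Bl m F) (D i))
    (horth : ∀ i j, i ≠ j → ∀ u ∈ D i, ∀ v ∈ D j, Bl m F u v = 0)
    (K : Subgroup (Matrix.GeneralLinearGroup (Fin m ⊕ Fin m) F))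
    (hDK : ∀ i, ∀ y ∈ D i, y ∈ Dset K)
    (y : Fin m ⊕ Fin m → F) (hy : y ∈ Dset K) (a b : Fin t) (hab : a ≠ b)
    (hca : comp D hint a y ≠ 0) (hcb : comp D hint b y ≠ 0) :
    ∀ u ∈ D a, ∀ v ∈ D b, u + v ∈ Dset K := by
  have R : ∀ y ∈ Dset K, ∀ i, ∀ x₂ ∈ D i, x₂ ≠ 0 → comp D hint i y ≠ 0 →
      x₂ + (y - comp D hint i y) ∈ Dset K := by
    intro y hy i x₂ hx₂ hx₂n hc
    refine transfer K (D i) (hDK i) (hnd i) (y - comp D hint i y) ?_ (comp D hint i y) x₂
      (comp_mem D hint i y) hx₂ hc hx₂n ?_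
    · intro z hz
      rw [LinearMap.map_sub₂, orth_comp D hint horth y i z hz, sub_self]
    · rw [add_sub_cancel]
      exact hy
  obtain ⟨ca, hca_def⟩ : ∃ ca, ca = comp D hint a y := ⟨_, rfl⟩
  obtain ⟨cb, hcb_def⟩ : ∃ cb, cb = comp D hint b y := ⟨_, rfl⟩
  rw [← hca_def] at hca
  rw [← hcb_def] at hcb
  have hcaD : ca ∈ D a := by
    rw [hca_def]
    exact comp_mem D hint a y
  have hcbD : cb ∈ D b := by
    rw [hcb_def]
    exact comp_mem D hint b y
  obtain ⟨p, hp, hcap⟩ := hnd a ca hcaD hca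
  obtain ⟨r, hr, hcbr, hr0, hcbr0⟩ := exists_r k hex (D b) (hfr b) (hnd b) cb hcbD hcb
  have hp0 : p ≠ 0 := by
    rintro rfl
    exact hcap (map_zero _)
  have hy1 : -y ∈ Dset K := by
    have := D_smul K y hy (-1)
    rwa [neg_one_smul] at this
  have hy2 : p + (-y - comp D hint a (-y)) ∈ Dset K :=
    R _ hy1 a p hp hp0 (by rw [map_neg, ← hca_def]; exact neg_ne_zero.mpr hca)
  have hcb2 : comp D hint b (p + (-y - comp D hint a (-y))) = -cb := by
    rw [map_add, map_sub, map_neg, map_neg, map_neg, ← hca_def, ← hcb_def,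
      comp_of_mem D hint hp b, comp_of_mem D hint hcaD b]
    simp [Ne.symm hab]
  have hy3 : r + (p + (-y - comp D hint a (-y))
      - comp D hint b (p + (-y - comp D hint a (-y)))) ∈ Dset K :=
    R _ hy2 b r hr hr0 (by rw [hcb2]; exact neg_ne_zero.mpr hcb)
  rw [hcb2, map_neg, ← hca_def] at hy3
  have hB : Bl m F y (r + (p + (-y - -ca) - -cb)) ≠ 0 := by
    have e : Bl m F y (r + (p + (-y - -ca) - -cb)) = Bl m F ca p := by
      simp only [map_add, map_sub, map_neg, Bl_self]
      rw [orth_comp D hint horth y b r hr, orth_comp D hint horth y a p hp,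
        orth_comp D hint horth y a ca hcaD, orth_comp D hint horth y b cb hcbD, ← hca_def,
        ← hcb_def, hcbr, Bl_self, Bl_self]
      ring
    rw [e]
    exact hcap
  have h4 := D_add K _ _ hy hy3 hB 1
  have e4 : y + (1 : F) • (r + (p + (-y - -ca) - -cb)) = (ca + p) + (cb + r) := by
    rw [one_smul]
    abel
  rw [e4] at h4
  have hu0 : ca + p ≠ 0 := by
    intro h
    apply hcap
    have e : p = -ca := eq_neg_of_add_eq_zero_right h
    rw [e, map_neg, Bl_self, neg_zero]
  intro u hu v hv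
  by_cases hu0' : u = 0
  · rw [hu0', zero_add]
    exact hDK b v hv
  by_cases hv0 : v = 0
  · rw [hv0, add_zero]
    exact hDK a u hu
  have h5 : u + (cb + r) ∈ Dset K := transfer K (D a) (hDK a) (hnd a) (cb + r)
    (fun z hz => horth b a (Ne.symm hab) _ ((D b).add_mem hcbD hr) z hz) (ca + p) u
    ((D a).add_mem hcaD hp) hu hu0 hu0' h4
  have h6 : (cb + r) + u ∈ Dset K := by
    rw [add_comm]
    exact h5
  have h7 : v + u ∈ Dset K := transfer K (D b) (hDK b) (hnd b) u
    (fun z hz => horth a b hab u hu z hz) (cb + r) v ((D b).add_mem hcbD hr) hv hcbr0 hv0 h6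
  rw [add_comm]
  exact h7

theorem main {t : ℕ} (k : ℕ) (D : Fin t → Submodule F (Fin m ⊕ Fin m → F)) (hk : 0 < k)
    (hfr : ∀ i, Module.finrank F (D i) = k) (hint : DirectSum.IsInternal D)
    (hnd : ∀ i, NondegOn (Bl m F) (D i))
    (horth : ∀ i j, i ≠ j → ∀ u ∈ D i, ∀ v ∈ D j, Bl m F u v = 0)
    (hex : ¬ (k = 2 ∧ Fintype.card F = 2))
    (K : Subgroup (Matrix.GeneralLinearGroup (Fin m ⊕ Fin m) F))
    (hHK : Cfsg.Geo.decompositionStabilizer D ⊓ Cfsg.spGL m F ≤ K) (hKS : K ≤ Cfsg.spGL m F)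
    (g : Matrix.GeneralLinearGroup (Fin m ⊕ Fin m) F) (hgK : g ∈ K)
    (hg : g ∉ Cfsg.Geo.decompositionStabilizer D) : ∀ y, y ∈ Dset K := by
  classical
  have hDK : ∀ i, ∀ y ∈ D i, y ∈ Dset K := fun i y hy => D_sub D horth K hHK i y hy
  obtain ⟨y₀, hy₀, a, b, hab, hca, hcb⟩ := two_support k D hk hfr hint K hKS hDK g hgK hg
  have hgood0 := pair_good k hex D hfr hint hnd horth K hDK y₀ hy₀ a b hab hca hcb
  have hswap : ∀ p q : Fin t, (∀ u ∈ D p, ∀ v ∈ D q, u + v ∈ Dset K) → ∀ x y : Fin t,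
      ∀ u ∈ D (Equiv.swap x y p), ∀ v ∈ D (Equiv.swap x y q), u + v ∈ Dset K := by
    intro p q hpq x y u hu v hv
    by_cases hxy : x = y
    · rw [hxy, Equiv.swap_self, Equiv.refl_apply] at hu hv
      exact hpq u hu v hv
    · obtain ⟨h, hH, himg⟩ := block_transp k D hfr hint hnd horth x y hxy
      rw [← himg p] at hu
      rw [← himg q] at hv
      obtain ⟨u₁, hu₁, rfl⟩ := (mem_img h (D p) u).mp hu
      obtain ⟨v₁, hv₁, rfl⟩ := (mem_img h (D q) v).mp hv
      rw [← Matrix.mulVec_add]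
      exact D_inv K h (hHK hH) hH.2 _ (hpq u₁ hu₁ v₁ hv₁)
  have hgood : ∀ i j : Fin t, i ≠ j → ∀ u ∈ D i, ∀ v ∈ D j, u + v ∈ Dset K := by
    intro i j hij
    have h1 := hswap a b hgood0 a i
    rw [Equiv.swap_apply_left] at h1
    have hb' : Equiv.swap a i b ≠ i := by
      intro h
      have h2 := congrArg (Equiv.swap a i) h
      rw [Equiv.swap_apply_self, Equiv.swap_apply_right] at h2
      exact hab h2.symm
    have h3 := hswap i (Equiv.swap a i b) h1 (Equiv.swap a i b) j
    rw [Equiv.swap_apply_left, Equiv.swap_apply_of_ne_of_ne (Ne.symm hb') hij] at h3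
    exact h3
  have hfin : ∀ T : Finset (Fin t), ∀ y, (∀ i, i ∉ T → comp D hint i y = 0) → y ∈ Dset K := by
    intro T
    induction T using Finset.induction_on with
    | empty =>
      intro y hy
      have e : y = 0 := by
        rw [← sum_comp D hint y]
        exact Finset.sum_eq_zero fun i _ => hy i (Finset.notMem_empty i)
      rw [e]
      exact D_zero K
    | insert l T' hl ih =>
      intro y hy
      have hy' : ∀ i, i ≠ l → i ∉ T' → comp D hint i y = 0 := fun i hil hi =>
        hy i (fun h => by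
          rcases Finset.mem_insert.mp h with h | h
          · exact hil h
          · exact hi h)
      by_cases hc : comp D hint l y = 0
      · apply ih
        intro i hi
        by_cases hil : i = l
        · rw [hil]
          exact hc
        · exact hy' i hil hi
      · obtain ⟨c, hc_def⟩ : ∃ c, c = comp D hint l y := ⟨_, rfl⟩
        rw [← hc_def] at hc
        have hcD : c ∈ D l := by
          rw [hc_def]
          exact comp_mem D hint l y
        have hcomp' : ∀ i, comp D hint i (y - c) = if i = l then 0 else comp D hint i y := by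
          intro i
          rw [map_sub, comp_of_mem D hint hcD i]
          by_cases hil : i = l
          · rw [if_pos hil, if_pos hil, hil, ← hc_def, sub_self]
          · rw [if_neg hil, if_neg hil, sub_zero]
        have hsupp' : ∀ i, i ∉ T' → comp D hint i (y - c) = 0 := by
          intro i hi
          rw [hcomp']
          by_cases hil : i = l
          · rw [if_pos hil]
          · rw [if_neg hil]
            exact hy' i hil hi
        have hyc : y - c ∈ Dset K := ih _ hsupp'
        by_cases hy'0 : y - c = 0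
        · have e : y = c := sub_eq_zero.mp hy'0
          rw [e]
          exact hDK l c hcD
        · obtain ⟨j, hj⟩ : ∃ j, comp D hint j (y - c) ≠ 0 := by
            by_contra h
            push Not at h
            apply hy'0
            rw [← sum_comp D hint (y - c)]
            exact Finset.sum_eq_zero fun i _ => h i
          have hjl : j ≠ l := by
            intro h
            rw [hcomp', if_pos h] at hj
            exact hj rfl
          have hjT : j ∈ T' := by
            by_contra h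
            exact hj (hsupp' j h)
          obtain ⟨d, hd, hjd⟩ := hnd j _ (comp_mem D hint j (y - c)) hj
          have hy'' : y - c - d ∈ Dset K := by
            apply ih
            intro i hi
            have hij : i ≠ j := fun h => hi (by rw [h]; exact hjT)
            rw [map_sub, hsupp' i hi, comp_of_mem D hint hd i, if_neg hij, sub_zero]
          have hz : c + d ∈ Dset K := hgood l j (Ne.symm hjl) c hcD d hd
          have hB : Bl m F (y - c - d) (c + d) ≠ 0 := by
            have e : Bl m F (y - c - d) (c + d) = Bl m F (comp D hint j (y - c)) d := by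
              rw [LinearMap.map_sub₂, map_add, map_add,
                orth_comp D hint horth (y - c) l c hcD, orth_comp D hint horth (y - c) j d hd,
                hcomp' l, if_pos rfl, Bl_self, horth j l hjl d hd c hcD]
              simp
            rw [e]
            exact hjd
          have h4 := D_add K _ _ hy'' hz hB 1
          have e4 : y - c - d + (1 : F) • (c + d) = y := by
            rw [one_smul]
            abel
          rw [e4] at h4
          exact h4
  intro y
  exact hfin Finset.univ y (fun i hi => absurd (Finset.mem_univ i) hi)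

end

/-- For a finite field F with q elements and m ≥ 7, let D be a decomposition of F^(2m) into t ≥ 2 pairwise orthogonal subspaces of equal dimension k on each of which the standard alternating form is non-degenerate, spanning F^(2m). Unless k = 2 and q = 2, the elements of Sp_2m(F) permuting the members of D form a maximal subgroup of Sp_2m(F). -/
theorem result {F : Type*} [Field F] [Fintype F] (m : ℕ) (hm : 7 ≤ m) {t : ℕ} (k : ℕ) (D : Fin t → Submodule F (Fin m ⊕ Fin m → F)) (hD : Cfsg.Geo.IsNondegenerateMDecomposition (Cfsg.sympForm m F) k D) (hex : ¬ (k = 2 ∧ Fintype.card F = 2)) : Cfsg.Geo.IsMaximalIn (Cfsg.spGL m F) (Cfsg.Geo.decompositionStabilizer D ⊓ Cfsg.spGL m F) := by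
  classical
  have hint : DirectSum.IsInternal D :=
    DirectSum.isInternal_submodule_of_iSupIndep_of_iSup_eq_top hD.decomp.indep
      hD.decomp.iSup_eq_top
  have hnd : ∀ i, NondegOn (Bl m F) (D i) := by
    intro i u hu hu0
    obtain ⟨x, hx, hux⟩ := (hD.nondegenerate i u hu hu0).2
    exact ⟨x, hx, by rw [Bl_apply]; exact hux⟩
  have horth : ∀ i j, i ≠ j → ∀ u ∈ D i, ∀ v ∈ D j, Bl m F u v = 0 := by
    intro i j hij u hu v hv
    rw [Bl_apply]
    exact hD.orthogonal i j hij u hu v hv
  have hfr := hD.decomp.finrank_eq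
  have hk := hD.decomp.pos
  have ht := hD.decomp.two_le
  have hne : ∀ i, ∃ x₀ ∈ D i, x₀ ≠ 0 := by
    intro i
    apply Submodule.exists_mem_ne_zero_of_ne_bot
    intro h
    have := hfr i
    rw [h, finrank_bot] at this
    omega
  constructor
  · refine lt_of_le_of_ne inf_le_right ?_
    intro heq
    obtain ⟨a, b, hab⟩ : ∃ a b : Fin t, a ≠ b :=
      ⟨⟨0, by omega⟩, ⟨1, by omega⟩, fun h => by simpa using congrArg Fin.val h⟩
    obtain ⟨u, hu, hu0⟩ := hne a
    obtain ⟨v, hv, hv0⟩ := hne b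
    obtain ⟨x, hx, hux⟩ := hnd a u hu hu0
    have hxu : Bl m F x u ≠ 0 := by
      rw [Bl_skew]
      exact neg_ne_zero.mpr hux
    have h1 : stv (u + v) (1 : F) ∈ Cfsg.Geo.decompositionStabilizer D ⊓ Cfsg.spGL m F := by
      rw [heq]
      exact stv_mem _ 1
    obtain ⟨σ, hσ⟩ := h1.1
    have hw : Matrix.toLin' (stv (u + v) (1 : F)).val x ∈ D (σ a) := by
      rw [← hσ a]
      exact Submodule.mem_map_of_mem hx
    rw [Matrix.toLin'_apply, stv_mulVec, one_mul, map_add, horth a b hab x hx v hv, add_zero]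
      at hw
    have hcb : comp D hint b (x + Bl m F x u • (u + v)) = Bl m F x u • v := by
      rw [map_add, map_smul, map_add, comp_of_mem D hint hx b, comp_of_mem D hint hu b,
        comp_of_mem D hint hv b]
      simp [Ne.symm hab]
    have hca : comp D hint a (x + Bl m F x u • (u + v)) = x + Bl m F x u • u := by
      rw [map_add, map_smul, map_add, comp_of_mem D hint hx a, comp_of_mem D hint hu a,
        comp_of_mem D hint hv a]
      simp [hab]
    by_cases hj : σ a = b
    · rw [hj] at hw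
      have h2 := comp_of_mem D hint hw a
      rw [if_neg hab, hca] at h2
      apply hxu
      have hx' : x = -(Bl m F x u • u) := eq_neg_of_add_eq_zero_left h2
      rw [hx', LinearMap.map_neg₂, LinearMap.map_smul₂, Bl_self, smul_zero, neg_zero]
    · have h2 := comp_of_mem D hint hw b
      rw [if_neg (fun h => hj h.symm), hcb] at h2
      exact (smul_ne_zero hxu hv0) h2
  · intro K hHK hKS
    by_cases hK : K ≤ Cfsg.Geo.decompositionStabilizer D ⊓ Cfsg.spGL m F
    · exact Or.inl (le_antisymm hK hHK)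
    · right
      obtain ⟨g, hgK, hgP⟩ := SetLike.not_le_iff_exists.mp hK
      have hgS : g ∉ Cfsg.Geo.decompositionStabilizer D := fun h => hgP ⟨h, hKS hgK⟩
      have hall := main k D hk hfr hint hnd horth hex K hHK hKS g hgK hgS
      exact le_antisymm hKS (sp_le_of_stv K fun y c => hall y c)

end Cfsg.Agent.S5647
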