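import Cfsg.Statements.S5649
import Mathlib
import Cfsg.Agent.Lib.Helper9.SpGen
import Cfsg.Agent.Lib.Helper9.Family

set_option autoImplicit false
open Cfsg

namespace Cfsg.Agent.S5649

open Cfsg.Agent.S5648 (Bl Bl_apply Bl_self Bl_skew)
open Cfsg.Agent.S5635 (mkGL mkGL_mulVec)
open Cfsg.Agent.S5631 (gl_ext mul_inv_mulVec)
open Cfsg.Agent.Lib.Helper9.SpGen
open Cfsg.Agent.Lib.Helper9.Family (img mem_img img_finrank)
open Cfsg.Agent.Lib.Helper9.Symp (Bl_nd)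
open scoped Matrix

section
variable {F : Type*} [Field F] [Fintype F] {m : ℕ}

theorem gne (g : Matrix.GeneralLinearGroup (Fin m ⊕ Fin m) F) (x : Fin m ⊕ Fin m → F)
    (hx : x ≠ 0) : (g : Matrix (Fin m ⊕ Fin m) (Fin m ⊕ Fin m) F) *ᵥ x ≠ 0 := by
  intro h0
  have h1 := mul_inv_mulVec g⁻¹ x
  rw [inv_inv, h0, Matrix.mulVec_zero] at h1
  exact hx h1.symm

/-- short root element `x ↦ x + B(x,b) a + B(x,a) b` (for `B(a,b) = 0`) -/
noncomputable def sh (a b : Fin m ⊕ Fin m → F) : Matrix.GeneralLinearGroup (Fin m ⊕ Fin m) F :=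
  stv (a + b) 1 * stv a (-1) * stv b (-1)

theorem sh_mem (a b : Fin m ⊕ Fin m → F) : sh a b ∈ Cfsg.spGL m F :=
  Subgroup.mul_mem _ (Subgroup.mul_mem _ (stv_mem _ _) (stv_mem _ _)) (stv_mem _ _)

theorem sh_mulVec (a b : Fin m ⊕ Fin m → F) (hab : Bl m F a b = 0) (x : Fin m ⊕ Fin m → F) :
    ((sh a b : Matrix.GeneralLinearGroup (Fin m ⊕ Fin m) F) :
      Matrix (Fin m ⊕ Fin m) (Fin m ⊕ Fin m) F) *ᵥ x = x + Bl m F x b • a + Bl m F x a • b := by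
  have hba : Bl m F b a = 0 := by rw [Bl_skew, hab, neg_zero]
  rw [sh, Units.val_mul, Units.val_mul, ← Matrix.mulVec_mulVec, ← Matrix.mulVec_mulVec,
    stv_mulVec, stv_mulVec, stv_mulVec]
  simp only [map_add, map_smul, LinearMap.add_apply, LinearMap.smul_apply, smul_eq_mul,
    Bl_self, hab, hba]
  module

theorem sh_comm (a b : Fin m ⊕ Fin m → F) (hab : Bl m F a b = 0) : sh a b = sh b a := by
  have hba : Bl m F b a = 0 := by rw [Bl_skew, hab, neg_zero]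
  apply gl_ext
  intro x
  rw [sh_mulVec a b hab, sh_mulVec b a hba]
  abel

theorem sh_conj (k : Matrix.GeneralLinearGroup (Fin m ⊕ Fin m) F) (hk : k ∈ Cfsg.spGL m F)
    (a b : Fin m ⊕ Fin m → F) :
    k * sh a b * k⁻¹ = sh ((k : Matrix (Fin m ⊕ Fin m) (Fin m ⊕ Fin m) F) *ᵥ a)
      ((k : Matrix (Fin m ⊕ Fin m) (Fin m ⊕ Fin m) F) *ᵥ b) := by
  rw [sh, sh, ← Matrix.mulVec_add, ← stv_conj k hk, ← stv_conj k hk, ← stv_conj k hk]
  group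

theorem comm_rule (K : Subgroup (Matrix.GeneralLinearGroup (Fin m ⊕ Fin m) F))
    (a b b' : Fin m ⊕ Fin m → F) (hab : Bl m F a b = 0) (hab' : Bl m F a b' = 0)
    (h1 : sh a b ∈ K) (h2 : sh a b' ∈ K) : stv a (2 * Bl m F b' b) ∈ K := by
  have e : sh a b * sh a b' = sh a b' * sh a b * stv a (2 * Bl m F b' b) := by
    apply gl_ext
    intro x
    have hba : Bl m F b a = 0 := by rw [Bl_skew, hab, neg_zero]
    have hba' : Bl m F b' a = 0 := by rw [Bl_skew, hab', neg_zero]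
    have hbb : Bl m F b b' = - Bl m F b' b := Bl_skew _ _
    simp only [Units.val_mul, ← Matrix.mulVec_mulVec, sh_mulVec a b hab, sh_mulVec a b' hab',
      stv_mulVec, map_add, map_smul, LinearMap.add_apply, LinearMap.smul_apply, smul_eq_mul,
      Bl_self, hab, hab', hba, hba', hbb]
    module
  have e2 : stv a (2 * Bl m F b' b) = (sh a b' * sh a b)⁻¹ * (sh a b * sh a b') := by
    rw [e]
    group
  rw [e2]
  exact K.mul_mem (K.inv_mem (K.mul_mem h2 h1)) (K.mul_mem h1 h2)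

/-- a pair of complementary totally singular subspaces of dimension at least 4 -/
def LP (W W' : Submodule F (Fin m ⊕ Fin m → F)) : Prop :=
  (∀ u ∈ W, ∀ v ∈ W, Bl m F u v = 0) ∧ (∀ u ∈ W', ∀ v ∈ W', Bl m F u v = 0) ∧
  (∀ x : Fin m ⊕ Fin m → F, ∃ x₀ ∈ W, ∃ x₁ ∈ W', x = x₀ + x₁) ∧
  4 ≤ Module.finrank F W ∧ 4 ≤ Module.finrank F W'

theorem LP_symm {W W' : Submodule F (Fin m ⊕ Fin m → F)} (h : LP W W') : LP W' W :=
  ⟨h.2.1, h.1, fun x => by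
    obtain ⟨x₀, h0, x₁, h1, e⟩ := h.2.2.1 x
    exact ⟨x₁, h1, x₀, h0, by rw [e, add_comm]⟩, h.2.2.2.2, h.2.2.2.1⟩

theorem LP_pair {W W' : Submodule F (Fin m ⊕ Fin m → F)} (h : LP W W')
    (x : Fin m ⊕ Fin m → F) (hx : x ∈ W) (hx0 : x ≠ 0) : ∃ b ∈ W', Bl m F x b ≠ 0 := by
  obtain ⟨v, hv⟩ := Bl_nd x hx0
  obtain ⟨v₀, h0, v₁, h1, e⟩ := h.2.2.1 v
  refine ⟨v₁, h1, ?_⟩
  rw [e, map_add, h.1 x hx v₀ h0, zero_add] at hv
  exact hv

theorem LP_out {W W' : Submodule F (Fin m ⊕ Fin m → F)} (h : LP W W')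
    (x : Fin m ⊕ Fin m → F) (hx : x ∉ W') : ∃ b ∈ W', Bl m F b x ≠ 0 := by
  obtain ⟨x₀, h0, x₁, h1, e⟩ := h.2.2.1 x
  have hx0 : x₀ ≠ 0 := by
    rintro rfl
    rw [zero_add] at e
    exact hx (e ▸ h1)
  obtain ⟨b, hb, hne⟩ := LP_pair h x₀ h0 hx0
  refine ⟨b, hb, ?_⟩
  rw [e, map_add, h.2.1 b hb x₁ h1, add_zero, Bl_skew]
  exact neg_ne_zero.mpr hne

theorem LP_disj {W W' : Submodule F (Fin m ⊕ Fin m → F)} (h : LP W W')
    (x : Fin m ⊕ Fin m → F) (hx : x ∈ W) (hx' : x ∈ W') : x = 0 := by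
  by_contra hne
  obtain ⟨b, hb, hb'⟩ := LP_pair h x hx hne
  exact hb' (h.2.1 x hx' b hb)

theorem exists_kill (W : Submodule F (Fin m ⊕ Fin m → F)) (hW : 4 ≤ Module.finrank F W)
    (u v w : Fin m ⊕ Fin m → F) :
    ∃ x ∈ W, x ≠ 0 ∧ Bl m F x u = 0 ∧ Bl m F x v = 0 ∧ Bl m F x w = 0 := by
  obtain ⟨L, hL⟩ : ∃ L : W →ₗ[F] (Fin 3 → F), ∀ x : W,
      L x = ![Bl m F (x : Fin m ⊕ Fin m → F) u, Bl m F (x : Fin m ⊕ Fin m → F) v,
        Bl m F (x : Fin m ⊕ Fin m → F) w] := by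
    refine ⟨LinearMap.pi ![((Bl m F).flip u).comp W.subtype, ((Bl m F).flip v).comp W.subtype,
      ((Bl m F).flip w).comp W.subtype], fun x => ?_⟩
    funext i
    fin_cases i <;> rfl
  have hker : LinearMap.ker L ≠ ⊥ :=
    LinearMap.ker_ne_bot_of_finrank_lt (by rw [Module.finrank_fin_fun]; omega)
  obtain ⟨x, hx, hx0⟩ := (Submodule.ne_bot_iff _).mp hker
  have h0 := hL x
  rw [LinearMap.mem_ker.mp hx] at h0
  refine ⟨x.1, x.2, fun h => hx0 (Subtype.ext h), ?_, ?_, ?_⟩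
  · exact (congrFun h0 0).symm
  · exact (congrFun h0 1).symm
  · exact (congrFun h0 2).symm

theorem stab_id (D : Fin 2 → Submodule F (Fin m ⊕ Fin m → F))
    (g : Matrix.GeneralLinearGroup (Fin m ⊕ Fin m) F)
    (h : ∀ i, ∀ x ∈ D i, (g : Matrix (Fin m ⊕ Fin m) (Fin m ⊕ Fin m) F) *ᵥ x ∈ D i) :
    g ∈ Cfsg.Geo.decompositionStabilizer D := by
  refine ⟨1, fun i => ?_⟩
  show img g (D i) = D i
  apply Submodule.eq_of_le_of_finrank_eq
  · intro v hv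
    obtain ⟨u, hu, rfl⟩ := (mem_img g (D i) v).mp hv
    exact h i u hu
  · rw [img_finrank]

theorem stab_swap (D : Fin 2 → Submodule F (Fin m ⊕ Fin m → F))
    (hfr : Module.finrank F (D 0) = Module.finrank F (D 1))
    (g : Matrix.GeneralLinearGroup (Fin m ⊕ Fin m) F)
    (h0 : ∀ x ∈ D 0, (g : Matrix (Fin m ⊕ Fin m) (Fin m ⊕ Fin m) F) *ᵥ x ∈ D 1)
    (h1 : ∀ x ∈ D 1, (g : Matrix (Fin m ⊕ Fin m) (Fin m ⊕ Fin m) F) *ᵥ x ∈ D 0) :
    g ∈ Cfsg.Geo.decompositionStabilizer D := by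
  refine ⟨Equiv.swap 0 1, Fin.forall_fin_two.mpr ⟨?_, ?_⟩⟩
  · rw [Equiv.swap_apply_left]
    show img g (D 0) = D 1
    apply Submodule.eq_of_le_of_finrank_eq
    · intro v hv
      obtain ⟨u, hu, rfl⟩ := (mem_img g (D 0) v).mp hv
      exact h0 u hu
    · rw [img_finrank, hfr]
  · rw [Equiv.swap_apply_right]
    show img g (D 1) = D 0
    apply Submodule.eq_of_le_of_finrank_eq
    · intro v hv
      obtain ⟨u, hu, rfl⟩ := (mem_img g (D 1) v).mp hv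
      exact h1 u hu
    · rw [img_finrank, hfr]

theorem sh_mem_H (D : Fin 2 → Submodule F (Fin m ⊕ Fin m → F))
    (hts0 : ∀ u ∈ D 0, ∀ v ∈ D 0, Bl m F u v = 0) (hts1 : ∀ u ∈ D 1, ∀ v ∈ D 1, Bl m F u v = 0)
    (a b : Fin m ⊕ Fin m → F) (ha : a ∈ D 0) (hb : b ∈ D 1) (hab : Bl m F a b = 0) :
    sh a b ∈ Cfsg.Geo.decompositionStabilizer D ⊓ Cfsg.spGL m F := by
  refine ⟨stab_id D _ (Fin.forall_fin_two.mpr ⟨?_, ?_⟩), sh_mem a b⟩
  · intro x hx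
    rw [sh_mulVec a b hab, hts0 x hx a ha, zero_smul, add_zero]
    exact (D 0).add_mem hx ((D 0).smul_mem _ ha)
  · intro x hx
    rw [sh_mulVec a b hab, hts1 x hx b hb, zero_smul, add_zero]
    exact (D 1).add_mem hx ((D 1).smul_mem _ hb)

theorem extract (K : Subgroup (Matrix.GeneralLinearGroup (Fin m ⊕ Fin m) F))
    {W W' : Submodule F (Fin m ⊕ Fin m → F)} (h : LP W W')
    (hP : ∀ a ∈ W, ∀ b ∈ W', Bl m F a b = 0 → sh a b ∈ K) (h2 : (2 : F) ≠ 0)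
    (u v : Fin m ⊕ Fin m → F) (huv : Bl m F u v = 0) (hsh : sh u v ∈ K) (hu : u ∉ W')
    (hv : v ∉ W') : ∃ a₀ ∈ W, a₀ ≠ 0 ∧ a₀ ∈ Dset K := by
  obtain ⟨b₁, hb₁, h1⟩ := LP_out h u hu
  obtain ⟨b₂, hb₂, h2'⟩ := LP_out h v hv
  obtain ⟨b₀, hb₀, hbu, hbv⟩ : ∃ b₀ ∈ W', Bl m F b₀ u ≠ 0 ∧ Bl m F b₀ v ≠ 0 := by
    by_cases c1 : Bl m F b₁ v = 0
    · by_cases c2 : Bl m F b₂ u = 0
      · refine ⟨b₁ + b₂, W'.add_mem hb₁ hb₂, ?_, ?_⟩
        · rw [map_add, LinearMap.add_apply, c2, add_zero]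
          exact h1
        · rw [map_add, LinearMap.add_apply, c1, zero_add]
          exact h2'
      · exact ⟨b₂, hb₂, c2, h2'⟩
    · exact ⟨b₁, hb₁, h1, c1⟩
  obtain ⟨a₀, ha₀, hne, hau, hav, hab⟩ := exists_kill W h.2.2.2.1 u v b₀
  refine ⟨a₀, ha₀, hne, fun c => ?_⟩
  have h4 : (4 : F) ≠ 0 := by
    have e4 : (4 : F) = 2 * 2 := by norm_num
    rw [e4]
    exact mul_ne_zero h2 h2
  have hd : -4 * (Bl m F b₀ u * Bl m F b₀ v) ≠ 0 :=
    mul_ne_zero (neg_ne_zero.mpr h4) (mul_ne_zero hbu hbv)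
  obtain ⟨l, hl⟩ : ∃ l : F, l = c / (-4 * (Bl m F b₀ u * Bl m F b₀ v)) := ⟨_, rfl⟩
  have hl' : l * (-4 * (Bl m F b₀ u * Bl m F b₀ v)) = c := by
    rw [hl, div_mul_cancel₀ _ hd]
  have hp1 : sh a₀ b₀ ∈ K := hP a₀ ha₀ b₀ hb₀ hab
  have hp2 : sh a₀ (l • b₀) ∈ K :=
    hP a₀ ha₀ (l • b₀) (W'.smul_mem l hb₀) (by rw [map_smul, hab, smul_zero])
  have hconj : sh u v * sh a₀ (l • b₀) * (sh u v)⁻¹ ∈ K :=
    K.mul_mem (K.mul_mem hsh hp2) (K.inv_mem hsh)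
  rw [sh_conj (sh u v) (sh_mem u v), sh_mulVec u v huv a₀, hav, hau, zero_smul, zero_smul,
    add_zero, add_zero] at hconj
  have hab' : Bl m F a₀ (((sh u v : Matrix.GeneralLinearGroup (Fin m ⊕ Fin m) F) :
      Matrix (Fin m ⊕ Fin m) (Fin m ⊕ Fin m) F) *ᵥ (l • b₀)) = 0 := by
    rw [sh_mulVec u v huv]
    simp only [map_add, map_smul, smul_eq_mul, hab, hau, hav, mul_zero, add_zero]
  have hc := comm_rule K a₀ b₀ _ hab hab' hp1 hconj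
  have e : 2 * Bl m F (((sh u v : Matrix.GeneralLinearGroup (Fin m ⊕ Fin m) F) :
      Matrix (Fin m ⊕ Fin m) (Fin m ⊕ Fin m) F) *ᵥ (l • b₀)) b₀ = c := by
    rw [sh_mulVec u v huv]
    simp only [map_add, map_smul, LinearMap.add_apply, LinearMap.smul_apply, smul_eq_mul,
      Bl_self]
    have s1 := Bl_skew u b₀
    have s2 := Bl_skew v b₀
    linear_combination hl' + (2 * l * Bl m F b₀ v) * s1 + (2 * l * Bl m F b₀ u) * s2
  rw [e] at hc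
  exact hc

theorem spread (K : Subgroup (Matrix.GeneralLinearGroup (Fin m ⊕ Fin m) F))
    {W W' : Submodule F (Fin m ⊕ Fin m → F)} (h : LP W W')
    (hP : ∀ a ∈ W, ∀ b ∈ W', Bl m F a b = 0 → sh a b ∈ K)
    (a₀ : Fin m ⊕ Fin m → F) (ha₀ : a₀ ∈ W) (hne : a₀ ≠ 0) (hD : a₀ ∈ Dset K) :
    ∀ x ∈ W, x ∈ Dset K := by
  intro x hx
  by_cases hx0 : x = 0
  · rw [hx0]
    exact D_zero K
  obtain ⟨b₁, hb₁, h1⟩ := LP_pair h x hx hx0
  obtain ⟨b₂, hb₂, h2⟩ := LP_pair h a₀ ha₀ hne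
  obtain ⟨b, hb, hxb, hab⟩ : ∃ b ∈ W', Bl m F x b ≠ 0 ∧ Bl m F a₀ b ≠ 0 := by
    by_cases c1 : Bl m F a₀ b₁ = 0
    · by_cases c2 : Bl m F x b₂ = 0
      · refine ⟨b₁ + b₂, W'.add_mem hb₁ hb₂, ?_, ?_⟩
        · rw [map_add, c2, add_zero]
          exact h1
        · rw [map_add, c1, zero_add]
          exact h2
      · exact ⟨b₂, hb₂, c2, h2⟩
    · exact ⟨b₁, hb₁, h1, c1⟩
  obtain ⟨a₁, ha₁⟩ : ∃ a₁, a₁ = (Bl m F x b / Bl m F a₀ b) • a₀ := ⟨_, rfl⟩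
  have ha₁W : a₁ ∈ W := by
    rw [ha₁]
    exact W.smul_mem _ ha₀
  have ha₁D : a₁ ∈ Dset K := by
    rw [ha₁]
    exact D_smul K a₀ hD _
  have ha₁b : Bl m F a₁ b = Bl m F x b := by
    rw [ha₁, map_smul, LinearMap.smul_apply, smul_eq_mul, div_mul_cancel₀ _ hab]
  obtain ⟨b', hb'⟩ : ∃ b', b' = (Bl m F x b)⁻¹ • b := ⟨_, rfl⟩
  have hb'W : b' ∈ W' := by
    rw [hb']
    exact W'.smul_mem _ hb
  have horth : Bl m F (x - a₁) b' = 0 := by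
    rw [hb', map_smul, map_sub, LinearMap.sub_apply, ha₁b, sub_self, smul_zero]
  have hk : sh (x - a₁) b' ∈ K := hP (x - a₁) (W.sub_mem hx ha₁W) b' hb'W horth
  have hmove := D_inv K (sh (x - a₁) b') hk (sh_mem _ _) a₁ ha₁D
  rw [sh_mulVec (x - a₁) b' horth, h.1 a₁ ha₁W (x - a₁) (W.sub_mem hx ha₁W), zero_smul,
    add_zero, hb', map_smul, smul_eq_mul, ha₁b, inv_mul_cancel₀ hxb, one_smul,
    add_sub_cancel] at hmove
  exact hmove

theorem cross (K : Subgroup (Matrix.GeneralLinearGroup (Fin m ⊕ Fin m) F))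
    {W W' : Submodule F (Fin m ⊕ Fin m → F)} (h : LP W W')
    (hP' : ∀ a ∈ W', ∀ b ∈ W, Bl m F a b = 0 → sh a b ∈ K)
    (J : Matrix.GeneralLinearGroup (Fin m ⊕ Fin m) F) (hJK : J ∈ K) (hJS : J ∈ Cfsg.spGL m F)
    (hJ : ∀ x ∈ W, (J : Matrix (Fin m ⊕ Fin m) (Fin m ⊕ Fin m) F) *ᵥ x ∈ W')
    (hW : ∀ x ∈ W, x ∈ Dset K) : ∀ x ∈ W', x ∈ Dset K := by
  obtain ⟨x₀, hx₀, hx₀ne, -⟩ := exists_kill W h.2.2.2.1 0 0 0
  exact spread K (LP_symm h) hP' _ (hJ x₀ hx₀) (gne J x₀ hx₀ne)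
    (D_inv K J hJK hJS x₀ (hW x₀ hx₀))

theorem all_D (K : Subgroup (Matrix.GeneralLinearGroup (Fin m ⊕ Fin m) F))
    {W W' : Submodule F (Fin m ⊕ Fin m → F)} (h : LP W W')
    (h0 : ∀ x ∈ W, x ∈ Dset K) (h1 : ∀ x ∈ W', x ∈ Dset K) : ∀ y, y ∈ Dset K := by
  intro y
  obtain ⟨w₀, hw₀, w₁, hw₁, e⟩ := h.2.2.1 y
  rw [e]
  by_cases hw0 : w₀ = 0
  · rw [hw0, zero_add]
    exact h1 w₁ hw₁
  by_cases hc : Bl m F w₀ w₁ = 0
  · obtain ⟨w', hw', hne⟩ := LP_pair h w₀ hw₀ hw0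
    have hy : w₀ + w' ∈ Dset K := by
      have h3 := D_add K w₀ w' (h0 w₀ hw₀) (h1 w' hw') hne 1
      rwa [one_smul] at h3
    have e2 : Bl m F (w₀ + w') (w₁ - w') = - Bl m F w₀ w' := by
      rw [map_add, LinearMap.add_apply, map_sub, map_sub, hc, h.2.1 w' hw' w₁ hw₁, Bl_self]
      ring
    have hne2 : Bl m F (w₀ + w') (w₁ - w') ≠ 0 := by
      rw [e2]
      exact neg_ne_zero.mpr hne
    have h4 := D_add K (w₀ + w') (w₁ - w') hy (h1 _ (W'.sub_mem hw₁ hw')) hne2 1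
    rw [one_smul] at h4
    have e3 : w₀ + w' + (w₁ - w') = w₀ + w₁ := by abel
    rwa [e3] at h4
  · have h3 := D_add K w₀ w₁ (h0 w₀ hw₀) (h1 w₁ hw₁) hc 1
    rwa [one_smul] at h3

theorem all_or (g : Matrix.GeneralLinearGroup (Fin m ⊕ Fin m) F)
    {W W' : Submodule F (Fin m ⊕ Fin m → F)} (h : LP W W')
    (T : Submodule F (Fin m ⊕ Fin m → F))
    (hbad : ∀ a ∈ W, ∀ b ∈ W', Bl m F a b = 0 →
      ((g : Matrix (Fin m ⊕ Fin m) (Fin m ⊕ Fin m) F) *ᵥ a ∈ T ∨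
        (g : Matrix (Fin m ⊕ Fin m) (Fin m ⊕ Fin m) F) *ᵥ b ∈ T)) :
    (∀ a ∈ W, (g : Matrix (Fin m ⊕ Fin m) (Fin m ⊕ Fin m) F) *ᵥ a ∈ T) ∨
      (∀ b ∈ W', (g : Matrix (Fin m ⊕ Fin m) (Fin m ⊕ Fin m) F) *ᵥ b ∈ T) := by
  by_contra hcon
  push Not at hcon
  obtain ⟨⟨a, ha, hga⟩, ⟨b, hb, hgb⟩⟩ := hcon
  by_cases hab : Bl m F a b = 0
  · rcases hbad a ha b hb hab with h1 | h1
    · exact hga h1
    · exact hgb h1
  · obtain ⟨a'', ha'', hne, hk, -, -⟩ := exists_kill W h.2.2.2.1 b b b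
    obtain ⟨bs, hbs, hbs'⟩ := LP_pair h a'' ha'' hne
    obtain ⟨b'', hb''def⟩ : ∃ b'', b'' = bs - (Bl m F a bs / Bl m F a b) • b := ⟨_, rfl⟩
    have hb''W : b'' ∈ W' := by
      rw [hb''def]
      exact W'.sub_mem hbs (W'.smul_mem _ hb)
    have h1 : Bl m F a b'' = 0 := by
      rw [hb''def, map_sub, map_smul, smul_eq_mul, div_mul_cancel₀ _ hab, sub_self]
    have h2 : Bl m F a'' b'' = Bl m F a'' bs := by
      rw [hb''def, map_sub, map_smul, hk, smul_zero, sub_zero]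
    have h2' : Bl m F a'' b'' ≠ 0 := by
      rw [h2]
      exact hbs'
    by_cases c1 : (g : Matrix (Fin m ⊕ Fin m) (Fin m ⊕ Fin m) F) *ᵥ a'' ∈ T
    · by_cases c2 : (g : Matrix (Fin m ⊕ Fin m) (Fin m ⊕ Fin m) F) *ᵥ b'' ∈ T
      · obtain ⟨l, hl⟩ : ∃ l : F, l = -(Bl m F a b) / Bl m F a'' b'' := ⟨_, rfl⟩
        have hl' : l * Bl m F a'' b'' = -(Bl m F a b) := by
          rw [hl, div_mul_cancel₀ _ h2']
        have horth : Bl m F (a + a'') (b + l • b'') = 0 := by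
          simp only [map_add, map_smul, LinearMap.add_apply, smul_eq_mul, h1, hk]
          linear_combination hl'
        rcases hbad (a + a'') (W.add_mem ha ha'') (b + l • b'')
          (W'.add_mem hb (W'.smul_mem _ hb''W)) horth with h3 | h3
        · rw [Matrix.mulVec_add] at h3
          have h4 := T.sub_mem h3 c1
          rw [add_sub_cancel_right] at h4
          exact hga h4
        · rw [Matrix.mulVec_add, Matrix.mulVec_smul] at h3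
          have h4 := T.sub_mem h3 (T.smul_mem l c2)
          rw [add_sub_cancel_right] at h4
          exact hgb h4
      · rcases hbad a ha b'' hb''W h1 with h3 | h3
        · exact hga h3
        · exact c2 h3
    · rcases hbad a'' ha'' b hb hk with h3 | h3
      · exact c1 h3
      · exact hgb h3

theorem mem_of_bad (D : Fin 2 → Submodule F (Fin m ⊕ Fin m → F))
    (hfr : Module.finrank F (D 0) = Module.finrank F (D 1)) (h : LP (D 0) (D 1))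
    (g : Matrix.GeneralLinearGroup (Fin m ⊕ Fin m) F)
    (hb1 : ∀ a ∈ D 0, ∀ b ∈ D 1, Bl m F a b = 0 →
      ((g : Matrix (Fin m ⊕ Fin m) (Fin m ⊕ Fin m) F) *ᵥ a ∈ D 1 ∨
        (g : Matrix (Fin m ⊕ Fin m) (Fin m ⊕ Fin m) F) *ᵥ b ∈ D 1))
    (hb0 : ∀ a ∈ D 0, ∀ b ∈ D 1, Bl m F a b = 0 →
      ((g : Matrix (Fin m ⊕ Fin m) (Fin m ⊕ Fin m) F) *ᵥ a ∈ D 0 ∨
        (g : Matrix (Fin m ⊕ Fin m) (Fin m ⊕ Fin m) F) *ᵥ b ∈ D 0)) :
    g ∈ Cfsg.Geo.decompositionStabilizer D := by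
  obtain ⟨x₀, hx₀, hx₀ne, -⟩ := exists_kill (D 0) h.2.2.2.1 0 0 0
  obtain ⟨x₁, hx₁, hx₁ne, -⟩ := exists_kill (D 1) h.2.2.2.2 0 0 0
  rcases all_or g h (D 1) hb1 with c1 | c1
  · rcases all_or g h (D 0) hb0 with c0 | c0
    · exact absurd (LP_disj h _ (c0 x₀ hx₀) (c1 x₀ hx₀)) (gne g x₀ hx₀ne)
    · exact stab_swap D hfr g c1 c0
  · rcases all_or g h (D 0) hb0 with c0 | c0
    · exact stab_id D g (Fin.forall_fin_two.mpr ⟨c0, c1⟩)
    · exact absurd (LP_disj h _ (c0 x₁ hx₁) (c1 x₁ hx₁)) (gne g x₁ hx₁ne)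

theorem not_mem_stv (D : Fin 2 → Submodule F (Fin m ⊕ Fin m → F)) (h : LP (D 0) (D 1))
    (x : Fin m ⊕ Fin m → F) (hx : x ∈ D 0) (hx0 : x ≠ 0) :
    stv x (1 : F) ∉ Cfsg.Geo.decompositionStabilizer D := by
  rintro ⟨σ, hσ⟩
  obtain ⟨b, hb, hne⟩ := LP_pair h x hx hx0
  have hmem : ((stv x (1 : F) : Matrix.GeneralLinearGroup (Fin m ⊕ Fin m) F) :
      Matrix (Fin m ⊕ Fin m) (Fin m ⊕ Fin m) F) *ᵥ b ∈ D (σ 1) := by
    rw [← hσ 1]
    exact Submodule.mem_map.mpr ⟨b, hb, by rw [Matrix.toLin'_apply]⟩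
  rw [stv_mulVec, one_mul] at hmem
  have hbx : Bl m F b x ≠ 0 := by
    rw [Bl_skew]
    exact neg_ne_zero.mpr hne
  have hcases : ∀ i : Fin 2, i = 0 ∨ i = 1 := by decide
  rcases hcases (σ 1) with h0 | h1
  · rw [h0] at hmem
    have h3 := (D 0).sub_mem hmem ((D 0).smul_mem (Bl m F b x) hx)
    rw [add_sub_cancel_right] at h3
    have hb0 : b = 0 := LP_disj h b h3 hb
    rw [hb0, map_zero] at hne
    exact hne rfl
  · rw [h1] at hmem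
    have h3 := (D 1).sub_mem hmem hb
    rw [add_sub_cancel_left] at h3
    have h4 := (D 1).smul_mem (Bl m F b x)⁻¹ h3
    rw [smul_smul, inv_mul_cancel₀ hbx, one_smul] at h4
    exact hx0 (LP_disj h x hx h4)

theorem exists_swap (D : Fin 2 → Submodule F (Fin m ⊕ Fin m → F))
    (hfr0 : Module.finrank F (D 0) = m) (hfr1 : Module.finrank F (D 1) = m)
    (h : LP (D 0) (D 1)) :
    ∃ J : Matrix.GeneralLinearGroup (Fin m ⊕ Fin m) F,
      J ∈ Cfsg.Geo.decompositionStabilizer D ⊓ Cfsg.spGL m F ∧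
      (∀ x ∈ D 0, (J : Matrix (Fin m ⊕ Fin m) (Fin m ⊕ Fin m) F) *ᵥ x ∈ D 1) ∧
      (∀ x ∈ D 1, (J : Matrix (Fin m ⊕ Fin m) (Fin m ⊕ Fin m) F) *ᵥ x ∈ D 0) := by
  classical
  obtain ⟨e⟩ : Nonempty (Module.Basis (Fin m) F (D 0)) :=
    ⟨Module.finBasisOfFinrankEq F (D 0) hfr0⟩
  obtain ⟨ρ, hρ⟩ : ∃ ρ : (D 1) →ₗ[F] Module.Dual F (D 0), ∀ (b : D 1) (x : D 0),
      ρ b x = Bl m F (x : Fin m ⊕ Fin m → F) (b : Fin m ⊕ Fin m → F) :=
    ⟨(LinearMap.lcomp F F (D 0).subtype) ∘ₗ (Bl m F).flip ∘ₗ (D 1).subtype, fun b x => rfl⟩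
  have hinj : Function.Injective ρ := by
    rw [injective_iff_map_eq_zero]
    intro b hb
    by_contra hne
    obtain ⟨x, hx, hx'⟩ := LP_pair (LP_symm h) (b : Fin m ⊕ Fin m → F) b.2
      (fun h0 => hne (Subtype.ext h0))
    apply hx'
    have h1 := hρ b ⟨x, hx⟩
    rw [hb, LinearMap.zero_apply] at h1
    rw [Bl_skew, ← h1, neg_zero]
  have hsurj : Function.Surjective ρ :=
    (LinearMap.injective_iff_surjective_of_finrank_eq_finrank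
      (by rw [Subspace.dual_finrank_eq, hfr0, hfr1])).mp hinj
  choose f hf using fun i => hsurj (e.coord i)
  have Q1 : ∀ (i : Fin m) (x : D 0),
      Bl m F (x : Fin m ⊕ Fin m → F) (f i : Fin m ⊕ Fin m → F) = e.repr x i := by
    intro i x
    rw [← hρ, hf, Module.Basis.coord_apply]
  have Q2 : ∀ i j : Fin m, Bl m F (e j : Fin m ⊕ Fin m → F) (f i : Fin m ⊕ Fin m → F)
      = if j = i then 1 else 0 := by
    intro i j
    rw [Q1, Module.Basis.repr_self_apply]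
  have E0s : ∀ x : D 0, (x : Fin m ⊕ Fin m → F) = ∑ i, Bl m F (x : Fin m ⊕ Fin m → F)
      (f i : Fin m ⊕ Fin m → F) • (e i : Fin m ⊕ Fin m → F) := by
    intro x
    have h1 := congrArg Subtype.val (e.sum_repr x)
    rw [Submodule.coe_sum] at h1
    refine h1.symm.trans (Finset.sum_congr rfl fun i _ => ?_)
    rw [Q1, Submodule.coe_smul]
  have E0B : ∀ x ∈ D 0, ∀ z : Fin m ⊕ Fin m → F, Bl m F x z
      = ∑ j, Bl m F x (f j : Fin m ⊕ Fin m → F) * Bl m F (e j : Fin m ⊕ Fin m → F) z := by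
    intro x hx z
    have h1 : x = ∑ i, Bl m F x (f i : Fin m ⊕ Fin m → F) • (e i : Fin m ⊕ Fin m → F) :=
      E0s ⟨x, hx⟩
    conv_lhs => rw [h1]
    rw [map_sum, LinearMap.sum_apply]
    refine Finset.sum_congr rfl fun j _ => ?_
    rw [map_smul, LinearMap.smul_apply, smul_eq_mul]
  obtain ⟨JL, hJL⟩ : ∃ JL : (Fin m ⊕ Fin m → F) →ₗ[F] (Fin m ⊕ Fin m → F), ∀ x, JL x
      = ∑ i, (Bl m F x (f i : Fin m ⊕ Fin m → F) • (f i : Fin m ⊕ Fin m → F)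
        - Bl m F (e i : Fin m ⊕ Fin m → F) x • (e i : Fin m ⊕ Fin m → F)) := by
    refine ⟨∑ i, (((Bl m F).flip (f i : Fin m ⊕ Fin m → F)).smulRight
      (f i : Fin m ⊕ Fin m → F) - (Bl m F (e i : Fin m ⊕ Fin m → F)).smulRight
      (e i : Fin m ⊕ Fin m → F)), fun x => ?_⟩
    rw [LinearMap.sum_apply]
    rfl
  have J0 : ∀ x ∈ D 0, JL x = ∑ i, Bl m F x (f i : Fin m ⊕ Fin m → F)
      • (f i : Fin m ⊕ Fin m → F) := by
    intro x hx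
    rw [hJL]
    refine Finset.sum_congr rfl fun i _ => ?_
    rw [h.1 (e i) (e i).2 x hx, zero_smul, sub_zero]
  have J1 : ∀ y ∈ D 1, JL y = -∑ i, Bl m F (e i : Fin m ⊕ Fin m → F) y
      • (e i : Fin m ⊕ Fin m → F) := by
    intro y hy
    rw [hJL, ← Finset.sum_neg_distrib]
    refine Finset.sum_congr rfl fun i _ => ?_
    rw [h.2.1 y hy (f i) (f i).2, zero_smul, zero_sub]
  have J0m : ∀ x ∈ D 0, JL x ∈ D 1 := fun x hx => by
    rw [J0 x hx]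
    exact (D 1).sum_mem fun i _ => (D 1).smul_mem _ (f i).2
  have J1m : ∀ y ∈ D 1, JL y ∈ D 0 := fun y hy => by
    rw [J1 y hy]
    exact (D 0).neg_mem ((D 0).sum_mem fun i _ => (D 0).smul_mem _ (e i).2)
  have T0 : ∀ x ∈ D 0, ∀ j, Bl m F (e j : Fin m ⊕ Fin m → F) (JL x)
      = Bl m F x (f j : Fin m ⊕ Fin m → F) := by
    intro x hx j
    rw [J0 x hx, map_sum]
    simp only [map_smul, smul_eq_mul, Q2, mul_ite, mul_one, mul_zero, Finset.sum_ite_eq,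
      Finset.mem_univ, if_true]
  have S : ∀ x ∈ D 0, ∀ y ∈ D 1, Bl m F (JL x) (JL y) = Bl m F x y := by
    intro x hx y hy
    rw [J1 y hy, map_neg, map_sum, E0B x hx y, ← Finset.sum_neg_distrib]
    refine Finset.sum_congr rfl fun j _ => ?_
    rw [map_smul, smul_eq_mul, Bl_skew (JL x) (e j : Fin m ⊕ Fin m → F), T0 x hx j]
    ring
  have hsymp : ∀ u v, Bl m F (JL u) (JL v) = Bl m F u v := by
    intro u v
    obtain ⟨u₀, hu₀, u₁, hu₁, eu⟩ := h.2.2.1 u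
    obtain ⟨v₀, hv₀, v₁, hv₁, ev⟩ := h.2.2.1 v
    rw [eu, ev]
    simp only [map_add, LinearMap.add_apply]
    rw [h.2.1 _ (J0m u₀ hu₀) _ (J0m v₀ hv₀), h.1 _ (J1m u₁ hu₁) _ (J1m v₁ hv₁),
      S u₀ hu₀ v₁ hv₁, Bl_skew (JL u₁) (JL v₀), S v₀ hv₀ u₁ hu₁, h.1 u₀ hu₀ v₀ hv₀,
      h.2.1 u₁ hu₁ v₁ hv₁, Bl_skew v₀ u₁]
    ring
  have hJinj : Function.Injective JL := by
    rw [injective_iff_map_eq_zero]
    intro x hx
    by_contra hne
    obtain ⟨v, hv⟩ := Bl_nd x hne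
    apply hv
    rw [← hsymp, hx, map_zero, LinearMap.zero_apply]
  obtain ⟨E, hE⟩ : ∃ E : (Fin m ⊕ Fin m → F) ≃ₗ[F] (Fin m ⊕ Fin m → F), ∀ x, E x = JL x :=
    ⟨LinearEquiv.ofInjectiveEndo JL hJinj, fun x => rfl⟩
  obtain ⟨J, hJ⟩ : ∃ J : Matrix.GeneralLinearGroup (Fin m ⊕ Fin m) F,
      ∀ x, (J : Matrix (Fin m ⊕ Fin m) (Fin m ⊕ Fin m) F) *ᵥ x = JL x := by
    refine ⟨mkGL (E : (Fin m ⊕ Fin m → F) →ₗ[F] (Fin m ⊕ Fin m → F))
      (E.symm : (Fin m ⊕ Fin m → F) →ₗ[F] (Fin m ⊕ Fin m → F))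
      (LinearMap.ext fun x => by simp) (LinearMap.ext fun x => by simp), fun x => ?_⟩
    rw [mkGL_mulVec]
    exact hE x
  refine ⟨J, ⟨stab_swap D (by rw [hfr0, hfr1]) J (fun x hx => by rw [hJ]; exact J0m x hx)
    (fun x hx => by rw [hJ]; exact J1m x hx),
    (mem_sp_iff J).mpr (fun u v => by rw [hJ, hJ, hsymp])⟩,
    fun x hx => by rw [hJ]; exact J0m x hx, fun x hx => by rw [hJ]; exact J1m x hx⟩

theorem main_D (D : Fin 2 → Submodule F (Fin m ⊕ Fin m → F))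
    (hfr0 : Module.finrank F (D 0) = m) (hfr1 : Module.finrank F (D 1) = m)
    (h : LP (D 0) (D 1)) (h2 : (2 : F) ≠ 0)
    (K : Subgroup (Matrix.GeneralLinearGroup (Fin m ⊕ Fin m) F))
    (hHK : Cfsg.Geo.decompositionStabilizer D ⊓ Cfsg.spGL m F ≤ K) (hKS : K ≤ Cfsg.spGL m F)
    (g : Matrix.GeneralLinearGroup (Fin m ⊕ Fin m) F) (hgK : g ∈ K)
    (hgD : g ∉ Cfsg.Geo.decompositionStabilizer D) : ∀ y, y ∈ Dset K := by
  have hgS : g ∈ Cfsg.spGL m F := hKS hgK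
  have hP0 : ∀ a ∈ D 0, ∀ b ∈ D 1, Bl m F a b = 0 → sh a b ∈ K :=
    fun a ha b hb hab => hHK (sh_mem_H D h.1 h.2.1 a b ha hb hab)
  have hP1 : ∀ a ∈ D 1, ∀ b ∈ D 0, Bl m F a b = 0 → sh a b ∈ K := fun a ha b hb hab => by
    rw [sh_comm a b hab]
    exact hP0 b hb a ha (by rw [Bl_skew, hab, neg_zero])
  obtain ⟨J, hJH, hJ0, hJ1⟩ := exists_swap D hfr0 hfr1 h
  have hJK : J ∈ K := hHK hJH
  have hgsh : ∀ a ∈ D 0, ∀ b ∈ D 1, Bl m F a b = 0 →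
      sh ((g : Matrix (Fin m ⊕ Fin m) (Fin m ⊕ Fin m) F) *ᵥ a)
        ((g : Matrix (Fin m ⊕ Fin m) (Fin m ⊕ Fin m) F) *ᵥ b) ∈ K := by
    intro a ha b hb hab
    rw [← sh_conj g hgS]
    exact K.mul_mem (K.mul_mem hgK (hP0 a ha b hb hab)) (K.inv_mem hgK)
  have hguv : ∀ a b : Fin m ⊕ Fin m → F, Bl m F a b = 0 →
      Bl m F ((g : Matrix (Fin m ⊕ Fin m) (Fin m ⊕ Fin m) F) *ᵥ a)
        ((g : Matrix (Fin m ⊕ Fin m) (Fin m ⊕ Fin m) F) *ᵥ b) = 0 := by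
    intro a b hab
    rw [(mem_sp_iff g).mp hgS]
    exact hab
  by_cases hb1 : ∀ a ∈ D 0, ∀ b ∈ D 1, Bl m F a b = 0 →
      ((g : Matrix (Fin m ⊕ Fin m) (Fin m ⊕ Fin m) F) *ᵥ a ∈ D 1 ∨
        (g : Matrix (Fin m ⊕ Fin m) (Fin m ⊕ Fin m) F) *ᵥ b ∈ D 1)
  · by_cases hb0 : ∀ a ∈ D 0, ∀ b ∈ D 1, Bl m F a b = 0 →
        ((g : Matrix (Fin m ⊕ Fin m) (Fin m ⊕ Fin m) F) *ᵥ a ∈ D 0 ∨
          (g : Matrix (Fin m ⊕ Fin m) (Fin m ⊕ Fin m) F) *ᵥ b ∈ D 0)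
    · exact absurd (mem_of_bad D (by rw [hfr0, hfr1]) h g hb1 hb0) hgD
    · push Not at hb0
      obtain ⟨a, ha, b, hb, hab, hga, hgb⟩ := hb0
      obtain ⟨a₀, ha₀, hne, hD⟩ := extract K (LP_symm h) hP1 h2 _ _ (hguv a b hab)
        (hgsh a ha b hb hab) hga hgb
      have hW1 := spread K (LP_symm h) hP1 a₀ ha₀ hne hD
      have hW0 := cross K (LP_symm h) hP0 J hJK hJH.2 hJ1 hW1
      exact all_D K h hW0 hW1
  · push Not at hb1
    obtain ⟨a, ha, b, hb, hab, hga, hgb⟩ := hb1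
    obtain ⟨a₀, ha₀, hne, hD⟩ := extract K h hP0 h2 _ _ (hguv a b hab)
      (hgsh a ha b hb hab) hga hgb
    have hW0 := spread K h hP0 a₀ ha₀ hne hD
    have hW1 := cross K h hP1 J hJK hJH.2 hJ0 hW0
    exact all_D K h hW0 hW1

end

/-- For a finite field F of odd order and m ≥ 7, let D be a decomposition of F^(2m) into two complementary subspaces of dimension m on each of which the standard alternating form vanishes identically. Then the elements of Sp_2m(F) preserving or interchanging the two subspaces form a maximal subgroup of Sp_2m(F). -/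
theorem result {F : Type*} [Field F] [Fintype F] (m : ℕ) (hm : 7 ≤ m) (hodd : Odd (Fintype.card F)) (D : Fin 2 → Submodule F (Fin m ⊕ Fin m → F)) (hD : Cfsg.Geo.IsMDecomposition m D) (hts : ∀ i, Cfsg.Geo.IsTotallySingularFor (Cfsg.sympForm m F) (D i)) : Cfsg.Geo.IsMaximalIn (Cfsg.spGL m F) (Cfsg.Geo.decompositionStabilizer D ⊓ Cfsg.spGL m F) := by
  have h2 : (2 : F) ≠ 0 := by
    intro h
    have hc : ringChar F = 2 :=
      CharP.ringChar_of_prime_eq_zero Nat.prime_two (by exact_mod_cast h)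
    have h3 := FiniteField.even_card_iff_char_two.mp hc
    rcases hodd with ⟨k, hk⟩
    omega
  have hsup : D 0 ⊔ D 1 = ⊤ := by
    rw [← hD.iSup_eq_top]
    exact le_antisymm (sup_le (le_iSup D 0) (le_iSup D 1))
      (iSup_le (Fin.forall_fin_two.mpr ⟨le_sup_left, le_sup_right⟩))
  have hLP : LP (D 0) (D 1) := by
    refine ⟨fun u hu v hv => ?_, fun u hu v hv => ?_, fun x => ?_, ?_, ?_⟩
    · rw [Bl_apply]
      exact hts 0 u hu v hv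
    · rw [Bl_apply]
      exact hts 1 u hu v hv
    · have hx : x ∈ D 0 ⊔ D 1 := by
        rw [hsup]
        exact Submodule.mem_top
      obtain ⟨y, hy, z, hz, e⟩ := Submodule.mem_sup.mp hx
      exact ⟨y, hy, z, hz, e.symm⟩
    · rw [hD.finrank_eq 0]
      omega
    · rw [hD.finrank_eq 1]
      omega
  refine ⟨lt_of_le_of_ne inf_le_right ?_, ?_⟩
  · intro heq
    obtain ⟨x, hx, hx0, -⟩ := exists_kill (D 0) hLP.2.2.2.1 0 0 0
    have h1 : stv x (1 : F) ∈ Cfsg.spGL m F := stv_mem x 1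
    rw [← heq] at h1
    exact not_mem_stv D hLP x hx hx0 h1.1
  · intro K hHK hKS
    by_cases hKH : K = Cfsg.Geo.decompositionStabilizer D ⊓ Cfsg.spGL m F
    · exact Or.inl hKH
    · right
      apply le_antisymm hKS
      obtain ⟨g, hgK, hgH⟩ : ∃ g ∈ K,
          g ∉ Cfsg.Geo.decompositionStabilizer D ⊓ Cfsg.spGL m F := by
        by_contra hcon
        push Not at hcon
        exact hKH (le_antisymm (fun x hx => hcon x hx) hHK)
      have hgD : g ∉ Cfsg.Geo.decompositionStabilizer D := fun h => hgH ⟨h, hKS hgK⟩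
      exact sp_le_of_stv K (fun y c =>
        main_D D (hD.finrank_eq 0) (hD.finrank_eq 1) hLP h2 K hHK hKS g hgK hgD y c)

end Cfsg.Agent.S5649
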