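import Cfsg.Statements.S5652
import Mathlib
import Cfsg.Agent.Lib.Helper9.SpGen

set_option autoImplicit false
open Cfsg

namespace Cfsg.Agent.S5652

open Cfsg.Agent.S5648 (Bl Bl_apply Bl_self Bl_skew symp_formula)
open Cfsg.Agent.Lib.Helper9.SpGen
open Cfsg.Agent.Lib.Helper9.Symp (Bl_nd)
open scoped Matrix

section
variable {F : Type*} [Field F] [Fintype F] {m : ℕ}

theorem neg_eq (h2 : (2 : F) = 0) (x : F) : -x = x := by
  have h : x + x = 0 := by rw [← two_mul, h2, zero_mul]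
  exact neg_eq_of_add_eq_zero_left h

theorem Bl_symm (h2 : (2 : F) = 0) (u v : Fin m ⊕ Fin m → F) : Bl m F u v = Bl m F v u := by
  rw [Bl_skew, neg_eq h2]

theorem add_self_smul (h2 : (2 : F) = 0) (b : F) (z : Fin m ⊕ Fin m → F) :
    b • z + b • z = 0 := by
  rw [← add_smul, ← two_mul, h2, zero_mul, zero_smul]

theorem Q_zero (Q : (Fin m ⊕ Fin m → F) → F) (hQs : ∀ (c : F) v, Q (c • v) = c ^ 2 * Q v) :
    Q 0 = 0 := by
  simpa using hQs 0 0

theorem Q_add_smul (Q : (Fin m ⊕ Fin m → F) → F) (hQs : ∀ (c : F) v, Q (c • v) = c ^ 2 * Q v)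
    (hQa : ∀ u v, Q (u + v) = Q u + Q v + Bl m F u v) (x y : Fin m ⊕ Fin m → F) (b : F) :
    Q (x + b • y) = Q x + b ^ 2 * Q y + b * Bl m F x y := by
  rw [hQa, hQs, map_smul, smul_eq_mul]

theorem Q_stv (Q : (Fin m ⊕ Fin m → F) → F) (hQs : ∀ (c : F) v, Q (c • v) = c ^ 2 * Q v)
    (hQa : ∀ u v, Q (u + v) = Q u + Q v + Bl m F u v) (y x : Fin m ⊕ Fin m → F) :
    Q ((stv y (1 : F)).val *ᵥ x) = Q x + Bl m F x y ^ 2 * (Q y + 1) := by
  rw [stv_mulVec, one_mul, Q_add_smul Q hQs hQa]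
  ring

/-- the directions `y` whose transvection `x ↦ x + B(x,y) y` lies in `K` -/
def D1 (K : Subgroup (Matrix.GeneralLinearGroup (Fin m ⊕ Fin m) F)) :
    Set (Fin m ⊕ Fin m → F) := {y | stv y (1 : F) ∈ K}

theorem D1_inv (K : Subgroup (Matrix.GeneralLinearGroup (Fin m ⊕ Fin m) F))
    (k : Matrix.GeneralLinearGroup (Fin m ⊕ Fin m) F) (hk : k ∈ K) (hks : k ∈ Cfsg.spGL m F)
    (y : Fin m ⊕ Fin m → F) (hy : y ∈ D1 K) : k.val *ᵥ y ∈ D1 K := by
  show stv (k.val *ᵥ y) 1 ∈ K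
  rw [← stv_conj k hks]
  exact K.mul_mem (K.mul_mem hk hy) (K.inv_mem hk)

theorem D1_of_one (h2 : (2 : F) = 0) (Q : (Fin m ⊕ Fin m → F) → F)
    (hQs : ∀ (c : F) v, Q (c • v) = c ^ 2 * Q v)
    (hQa : ∀ u v, Q (u + v) = Q u + Q v + Bl m F u v)
    (K : Subgroup (Matrix.GeneralLinearGroup (Fin m ⊕ Fin m) F))
    (hHK : Cfsg.Geo.quadSimilarityGroup Q ⊓ Cfsg.spGL m F ≤ K)
    (y : Fin m ⊕ Fin m → F) (hy : Q y = 1) : y ∈ D1 K := by
  apply hHK
  refine ⟨(show stv y (1 : F) ∈ Cfsg.Geo.quadSimilarityGroup Q from ⟨1, fun v => ?_⟩),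
    stv_mem y 1⟩
  rw [Units.val_one, one_mul, Q_stv Q hQs hQa, hy, one_add_one_eq_two, h2, mul_zero, add_zero]

theorem star (h2 : (2 : F) = 0) (Q : (Fin m ⊕ Fin m → F) → F)
    (hQs : ∀ (c : F) v, Q (c • v) = c ^ 2 * Q v)
    (hQa : ∀ u v, Q (u + v) = Q u + Q v + Bl m F u v)
    (K : Subgroup (Matrix.GeneralLinearGroup (Fin m ⊕ Fin m) F))
    (hHK : Cfsg.Geo.quadSimilarityGroup Q ⊓ Cfsg.spGL m F ≤ K)
    (z : Fin m ⊕ Fin m → F) (hz : z ∈ D1 K) (x : Fin m ⊕ Fin m → F)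
    (hx : Q x + (Q z + 1) * Bl m F x z ^ 2 = 1) : x ∈ D1 K := by
  have hy : Q (x + Bl m F x z • z) = 1 := by
    rw [Q_add_smul Q hQs hQa]
    linear_combination hx
  have h1 := D1_inv K (stv z 1) hz (stv_mem z 1) _ (D1_of_one h2 Q hQs hQa K hHK _ hy)
  rw [stv_mulVec, one_mul, LinearMap.map_add₂, LinearMap.map_smul₂, Bl_self, smul_zero, add_zero,
    add_assoc, add_self_smul h2, add_zero] at h1
  exact h1

theorem finrank_span1_le (v : Fin m ⊕ Fin m → F) :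
    Module.finrank F (Submodule.span F {v}) ≤ 1 := by
  by_cases hv : v = 0
  · rw [hv, Submodule.span_zero_singleton, finrank_bot]
    omega
  · rw [finrank_span_singleton hv]

theorem exists_sing (h2 : (2 : F) = 0) (hsq : ∀ c : F, ∃ d, d * d = c) (hm : 7 ≤ m)
    (Q : (Fin m ⊕ Fin m → F) → F) (hQs : ∀ (c : F) v, Q (c • v) = c ^ 2 * Q v)
    (hQa : ∀ u v, Q (u + v) = Q u + Q v + Bl m F u v) (z₁ z₂ : Fin m ⊕ Fin m → F) :
    ∃ e, Q e = 0 ∧ e ∈ perp (Submodule.span F {z₁} ⊔ Submodule.span F {z₂}) ∧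
      e ∉ Submodule.span F {z₁} ⊔ Submodule.span F {z₂} := by
  classical
  obtain ⟨S, hS⟩ : ∃ S, S = Submodule.span F {z₁} ⊔ Submodule.span F {z₂} := ⟨_, rfl⟩
  rw [← hS]
  have hSfr : Module.finrank F S ≤ 2 := by
    rw [hS]
    have h0 := Submodule.finrank_add_le_finrank_add_finrank (Submodule.span F {z₁})
      (Submodule.span F {z₂})
    have h1 := finrank_span1_le z₁
    have h2' := finrank_span1_le z₂
    omega
  obtain ⟨E, hE⟩ : ∃ E : Submodule F (Fin m ⊕ Fin m → F),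
      E = LinearMap.ker (LinearMap.funLeft F F (Sum.inr : Fin m → Fin m ⊕ Fin m)) := ⟨_, rfl⟩
  have hEB : ∀ u ∈ E, ∀ v ∈ E, Bl m F u v = 0 := by
    intro u hu v hv
    rw [hE, LinearMap.mem_ker] at hu hv
    have hu' : ∀ i, u (Sum.inr i) = 0 := fun i => congrFun hu i
    have hv' : ∀ i, v (Sum.inr i) = 0 := fun i => congrFun hv i
    rw [Bl_apply, symp_formula]
    apply Finset.sum_eq_zero
    intro i _
    rw [hu' i, hv' i]
    ring
  have hEfr : m ≤ Module.finrank F E := by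
    have e1 := LinearMap.finrank_range_add_finrank_ker
      (LinearMap.funLeft F F (Sum.inr : Fin m → Fin m ⊕ Fin m))
    have e2 := Submodule.finrank_le
      (LinearMap.range (LinearMap.funLeft F F (Sum.inr : Fin m → Fin m ⊕ Fin m)))
    rw [Module.finrank_fintype_fun_eq_card, Fintype.card_fin] at e2
    rw [Module.finrank_fintype_fun_eq_card, Fintype.card_sum, Fintype.card_fin, ← hE] at e1
    omega
  obtain ⟨W, hW⟩ : ∃ W, W = E ⊓ perp S := ⟨_, rfl⟩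
  have hWfr : 5 ≤ Module.finrank F W := by
    have e1 := Submodule.finrank_sup_add_finrank_inf_eq E (perp S)
    have e2 := finrank_perp S
    have e3 := Submodule.finrank_le (E ⊔ perp S)
    rw [Module.finrank_fintype_fun_eq_card, Fintype.card_sum, Fintype.card_fin] at e3
    rw [← hW] at e1
    omega
  have hnle : ¬ W ≤ S := fun h => by
    have := Submodule.finrank_mono h
    omega
  obtain ⟨u₁, hu₁W, hu₁S⟩ := SetLike.not_le_iff_exists.mp hnle
  have hWE : ∀ u ∈ W, u ∈ E := fun u hu => by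
    rw [hW] at hu
    exact hu.1
  have hWP : ∀ u ∈ W, u ∈ perp S := fun u hu => by
    rw [hW] at hu
    exact hu.2
  by_cases hQ1 : Q u₁ = 0
  · exact ⟨u₁, hQ1, hWP u₁ hu₁W, hu₁S⟩
  · have hnle2 : ¬ W ≤ S ⊔ Submodule.span F {u₁} := fun h => by
      have h1 := Submodule.finrank_mono h
      have h2' := Submodule.finrank_add_le_finrank_add_finrank S (Submodule.span F {u₁})
      have h3 := finrank_span1_le u₁
      omega
    obtain ⟨u₂, hu₂W, hu₂S⟩ := SetLike.not_le_iff_exists.mp hnle2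
    obtain ⟨l, hl⟩ := hsq (Q u₂ / Q u₁)
    refine ⟨u₂ + l • u₁, ?_,
      (perp S).add_mem (hWP u₂ hu₂W) ((perp S).smul_mem l (hWP u₁ hu₁W)), ?_⟩
    · rw [Q_add_smul Q hQs hQa, hEB u₂ (hWE u₂ hu₂W) u₁ (hWE u₁ hu₁W), mul_zero, add_zero,
        pow_two, hl, div_mul_cancel₀ _ hQ1, ← two_mul, h2, zero_mul]
    · intro h
      apply hu₂S
      have e : u₂ = (u₂ + l • u₁) + (-l) • u₁ := by
        rw [neg_smul]
        abel
      rw [e]
      exact Submodule.add_mem _ (Submodule.mem_sup_left h)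
        (Submodule.mem_sup_right (Submodule.smul_mem _ _ (Submodule.subset_span rfl)))

theorem exists_hyp (h2 : (2 : F) = 0) (hsq : ∀ c : F, ∃ d, d * d = c) (hm : 7 ≤ m)
    (Q : (Fin m ⊕ Fin m → F) → F) (hQs : ∀ (c : F) v, Q (c • v) = c ^ 2 * Q v)
    (hQa : ∀ u v, Q (u + v) = Q u + Q v + Bl m F u v) (z₁ z₂ : Fin m ⊕ Fin m → F) :
    ∃ e f, Q e = 0 ∧ Q f = 0 ∧ Bl m F e f = 1 ∧ Bl m F e z₁ = 0 ∧ Bl m F e z₂ = 0 ∧
      Bl m F f z₁ = 0 ∧ Bl m F f z₂ = 0 := by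
  obtain ⟨e, hQe, heP, heS⟩ := exists_sing h2 hsq hm Q hQs hQa z₁ z₂
  obtain ⟨S, hS⟩ : ∃ S, S = Submodule.span F {z₁} ⊔ Submodule.span F {z₂} := ⟨_, rfl⟩
  rw [← hS] at heP heS
  have hz₁ : z₁ ∈ S := by
    rw [hS]
    exact Submodule.mem_sup_left (Submodule.subset_span rfl)
  have hz₂ : z₂ ∈ S := by
    rw [hS]
    exact Submodule.mem_sup_right (Submodule.subset_span rfl)
  have hperp : ∀ v ∈ perp S, Bl m F v z₁ = 0 ∧ Bl m F v z₂ = 0 := fun v hv =>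
    ⟨by rw [Bl_symm h2]; exact (mem_perp S v).mp hv z₁ hz₁,
      by rw [Bl_symm h2]; exact (mem_perp S v).mp hv z₂ hz₂⟩
  obtain ⟨f₀, hf₀P, hf₀e⟩ : ∃ f₀ ∈ perp S, Bl m F f₀ e ≠ 0 := by
    by_contra hcon
    push Not at hcon
    apply heS
    rw [← perp_perp S, mem_perp]
    exact hcon
  obtain ⟨f₁, hf₁P, hf₁e⟩ : ∃ f₁ ∈ perp S, Bl m F e f₁ = 1 :=
    ⟨(Bl m F f₀ e)⁻¹ • f₀, (perp S).smul_mem _ hf₀P,
      by rw [map_smul, smul_eq_mul, Bl_symm h2 e f₀, inv_mul_cancel₀ hf₀e]⟩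
  refine ⟨e, f₁ + Q f₁ • e, hQe, ?_, ?_, (hperp e heP).1, (hperp e heP).2, ?_, ?_⟩
  · rw [Q_add_smul Q hQs hQa, hQe, mul_zero, add_zero, Bl_symm h2 f₁ e, hf₁e, mul_one,
      ← two_mul, h2, zero_mul]
  · rw [map_add, map_smul, Bl_self, smul_zero, add_zero, hf₁e]
  · rw [LinearMap.map_add₂, LinearMap.map_smul₂, (hperp f₁ hf₁P).1, (hperp e heP).1, smul_zero,
      add_zero]
  · rw [LinearMap.map_add₂, LinearMap.map_smul₂, (hperp f₁ hf₁P).2, (hperp e heP).2, smul_zero,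
      add_zero]

theorem exists_Q_value (h2 : (2 : F) = 0) (hsq : ∀ c : F, ∃ d, d * d = c) (hm : 7 ≤ m)
    (Q : (Fin m ⊕ Fin m → F) → F) (hQs : ∀ (c : F) v, Q (c • v) = c ^ 2 * Q v)
    (hQa : ∀ u v, Q (u + v) = Q u + Q v + Bl m F u v) (z₁ z₂ v₀ : Fin m ⊕ Fin m → F) (ν : F) :
    ∃ w, Bl m F w z₁ = 0 ∧ Bl m F w z₂ = 0 ∧ Q (v₀ + w) = ν := by
  obtain ⟨e, f, hQe, hQf, hef, he1, he2, hf1, hf2⟩ := exists_hyp h2 hsq hm Q hQs hQa z₁ z₂
  have h11 : ∀ x : F, x + x = 0 := fun x => by rw [← two_mul, h2, zero_mul]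
  by_cases ce : Bl m F v₀ e = 0
  · by_cases cf : Bl m F v₀ f = 0
    · refine ⟨(ν + Q v₀) • e + f, ?_, ?_, ?_⟩
      · rw [LinearMap.map_add₂, LinearMap.map_smul₂, he1, hf1, smul_zero, add_zero]
      · rw [LinearMap.map_add₂, LinearMap.map_smul₂, he2, hf2, smul_zero, add_zero]
      · have hw : Q ((ν + Q v₀) • e + f) = ν + Q v₀ := by
          rw [hQa, hQs, hQe, hQf, LinearMap.map_smul₂, hef, smul_eq_mul]
          ring
        rw [hQa, hw, map_add, map_smul, ce, cf, smul_zero, add_zero, add_zero]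
        linear_combination h11 (Q v₀)
    · refine ⟨((ν + Q v₀) / Bl m F v₀ f) • f, ?_, ?_, ?_⟩
      · rw [LinearMap.map_smul₂, hf1, smul_zero]
      · rw [LinearMap.map_smul₂, hf2, smul_zero]
      · rw [Q_add_smul Q hQs hQa, hQf, mul_zero, add_zero, div_mul_cancel₀ _ cf]
        linear_combination h11 (Q v₀)
  · refine ⟨((ν + Q v₀) / Bl m F v₀ e) • e, ?_, ?_, ?_⟩
    · rw [LinearMap.map_smul₂, he1, smul_zero]
    · rw [LinearMap.map_smul₂, he2, smul_zero]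
    · rw [Q_add_smul Q hQs hQa, hQe, mul_zero, add_zero, div_mul_cancel₀ _ ce]
      linear_combination h11 (Q v₀)

theorem exists_bad (h2 : (2 : F) = 0) (hsq : ∀ c : F, ∃ d, d * d = c) (hm : 7 ≤ m)
    (Q : (Fin m ⊕ Fin m → F) → F) (hQs : ∀ (c : F) v, Q (c • v) = c ^ 2 * Q v)
    (hQa : ∀ u v, Q (u + v) = Q u + Q v + Bl m F u v)
    (g : Matrix.GeneralLinearGroup (Fin m ⊕ Fin m) F) (hgS : g ∈ Cfsg.spGL m F)
    (hg : g ∉ Cfsg.Geo.quadSimilarityGroup Q) : ∃ y, Q y = 1 ∧ Q (g.val *ᵥ y) ≠ 1 := by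
  by_contra hcon
  push Not at hcon
  have hgB := (mem_sp_iff g).mp hgS
  have hns : ∀ v, Q v ≠ 0 → Q (g.val *ᵥ v) = Q v := by
    intro v hv
    obtain ⟨d, hd⟩ := hsq (Q v)
    have hd0 : d ≠ 0 := by
      rintro rfl
      rw [mul_zero] at hd
      exact hv hd.symm
    have h1 : Q (d⁻¹ • v) = 1 := by
      rw [hQs, ← hd]
      field_simp
    have h3 := hcon _ h1
    rw [Matrix.mulVec_smul, hQs] at h3
    calc Q (g.val *ᵥ v) = (d * d) * (d⁻¹ ^ 2 * Q (g.val *ᵥ v)) := by field_simp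
      _ = Q v := by rw [h3, mul_one, hd]
  apply hg
  show ∃ c : Fˣ, ∀ v, Q (g.val *ᵥ v) = (c : F) * Q v
  refine ⟨1, fun v => ?_⟩
  rw [Units.val_one, one_mul]
  by_cases hv : Q v = 0
  · obtain ⟨w, hw1, -, hw2⟩ := exists_Q_value h2 hsq hm Q hQs hQa v v 0 1
    rw [zero_add] at hw2
    have h1 : Q (v + w) = 1 := by
      rw [hQa, hv, hw2, Bl_symm h2, hw1]
      ring
    have h4 := hns (v + w) (by rw [h1]; exact one_ne_zero)
    have h3 := hns w (by rw [hw2]; exact one_ne_zero)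
    have e1 : Q (g.val *ᵥ (v + w)) = Q (g.val *ᵥ v) + Q (g.val *ᵥ w) + Bl m F v w := by
      rw [Matrix.mulVec_add, hQa, hgB]
    rw [e1, h3, Bl_symm h2 v w, hw1, add_zero, h1, hw2] at h4
    rw [hv]
    linear_combination h4
  · exact hns v hv

theorem indep_mem (h2 : (2 : F) = 0) (hsq : ∀ c : F, ∃ d, d * d = c) (hm : 7 ≤ m)
    (Q : (Fin m ⊕ Fin m → F) → F) (hQs : ∀ (c : F) v, Q (c • v) = c ^ 2 * Q v)
    (hQa : ∀ u v, Q (u + v) = Q u + Q v + Bl m F u v)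
    (K : Subgroup (Matrix.GeneralLinearGroup (Fin m ⊕ Fin m) F))
    (hHK : Cfsg.Geo.quadSimilarityGroup Q ⊓ Cfsg.spGL m F ≤ K)
    (z : Fin m ⊕ Fin m → F) (hz : z ∈ D1 K) (hz0 : z ≠ 0) (hμ : Q z ≠ 1)
    (x : Fin m ⊕ Fin m → F) (hx : ∀ c : F, x ≠ c • z) : x ∈ D1 K := by
  by_cases hν : Q x = 1
  · exact D1_of_one h2 Q hQs hQa K hHK x hν
  have h11 : ∀ a : F, a + a = 0 := fun a => by rw [← two_mul, h2, zero_mul]
  have hμ1 : Q z + 1 ≠ 0 := by
    intro h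
    apply hμ
    linear_combination h - h11 1
  obtain ⟨γ, hγ⟩ := hsq ((Q x + 1) / (Q z + 1))
  obtain ⟨v₁', hv₁'⟩ := Bl_nd z hz0
  obtain ⟨v₁, hv₁⟩ : ∃ v₁, Bl m F v₁ z = 1 :=
    ⟨(Bl m F z v₁')⁻¹ • v₁', by
      rw [LinearMap.map_smul₂, smul_eq_mul, Bl_symm h2 v₁' z, inv_mul_cancel₀ hv₁']⟩
  have hxs : x ∉ Submodule.span F {z} := by
    intro h
    obtain ⟨c, hc⟩ := Submodule.mem_span_singleton.mp h
    exact hx c hc.symm
  rw [← perp_perp (Submodule.span F {z}), mem_perp] at hxs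
  push Not at hxs
  obtain ⟨v₂, hv₂P, hv₂x⟩ := hxs
  have hv₂z : Bl m F v₂ z = 0 := by
    rw [Bl_symm h2]
    exact (mem_perp _ v₂).mp hv₂P z (Submodule.subset_span rfl)
  obtain ⟨v₀, hv₀z, hv₀x⟩ : ∃ v₀, Bl m F v₀ z = 1 ∧ Bl m F v₀ x = γ := by
    refine ⟨v₁ + ((γ + Bl m F v₁ x) / Bl m F v₂ x) • v₂, ?_, ?_⟩
    · rw [LinearMap.map_add₂, LinearMap.map_smul₂, hv₂z, smul_zero, add_zero, hv₁]
    · rw [LinearMap.map_add₂, LinearMap.map_smul₂, smul_eq_mul, div_mul_cancel₀ _ hv₂x]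
      linear_combination h11 (Bl m F v₁ x)
  obtain ⟨w, hwz, hwx, hQw⟩ := exists_Q_value h2 hsq hm Q hQs hQa z x v₀ (Q z)
  have hz'z : Bl m F (v₀ + w) z = 1 := by rw [LinearMap.map_add₂, hwz, add_zero, hv₀z]
  have hz'x : Bl m F (v₀ + w) x = γ := by rw [LinearMap.map_add₂, hwx, add_zero, hv₀x]
  have hz' : v₀ + w ∈ D1 K := by
    apply star h2 Q hQs hQa K hHK z hz
    rw [hQw, hz'z]
    linear_combination h11 (Q z)
  apply star h2 Q hQs hQa K hHK (v₀ + w) hz'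
  rw [hQw, Bl_symm h2 x, hz'x, pow_two, hγ]
  have e : (Q z + 1) * ((Q x + 1) / (Q z + 1)) = Q x + 1 := by field_simp
  rw [e]
  linear_combination h11 (Q x)

theorem all_D1 (h2 : (2 : F) = 0) (hsq : ∀ c : F, ∃ d, d * d = c) (hm : 7 ≤ m)
    (Q : (Fin m ⊕ Fin m → F) → F) (hQs : ∀ (c : F) v, Q (c • v) = c ^ 2 * Q v)
    (hQa : ∀ u v, Q (u + v) = Q u + Q v + Bl m F u v)
    (K : Subgroup (Matrix.GeneralLinearGroup (Fin m ⊕ Fin m) F))
    (hHK : Cfsg.Geo.quadSimilarityGroup Q ⊓ Cfsg.spGL m F ≤ K) (hKS : K ≤ Cfsg.spGL m F)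
    (g : Matrix.GeneralLinearGroup (Fin m ⊕ Fin m) F) (hgK : g ∈ K)
    (hg : g ∉ Cfsg.Geo.quadSimilarityGroup Q) : ∀ x, x ∈ D1 K := by
  obtain ⟨y, hy1, hy2⟩ := exists_bad h2 hsq hm Q hQs hQa g (hKS hgK) hg
  have hzD : g.val *ᵥ y ∈ D1 K :=
    D1_inv K g hgK (hKS hgK) y (D1_of_one h2 Q hQs hQa K hHK y hy1)
  have hz0 : g.val *ᵥ y ≠ 0 := by
    intro h
    have hy0 : y = 0 := by
      apply Cfsg.Agent.Lib.Helper9.Refl.gl_inj g
      rw [h, Matrix.mulVec_zero]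
    rw [hy0, Q_zero Q hQs] at hy1
    exact zero_ne_one hy1
  obtain ⟨e, hQe, -, heS⟩ := exists_sing h2 hsq hm Q hQs hQa (g.val *ᵥ y) (g.val *ᵥ y)
  have hez : ∀ c : F, e ≠ c • (g.val *ᵥ y) := by
    intro c h
    apply heS
    rw [h]
    exact Submodule.mem_sup_left (Submodule.smul_mem _ _ (Submodule.subset_span rfl))
  have heD : e ∈ D1 K := indep_mem h2 hsq hm Q hQs hQa K hHK _ hzD hz0 hy2 e hez
  have he0 : e ≠ 0 := by
    intro h
    exact hez 0 (by rw [h, zero_smul])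
  have hQe1 : Q e ≠ 1 := by
    rw [hQe]
    exact zero_ne_one
  intro x
  by_cases hxe : ∀ c : F, x ≠ c • e
  · exact indep_mem h2 hsq hm Q hQs hQa K hHK e heD he0 hQe1 x hxe
  · push Not at hxe
    obtain ⟨c, rfl⟩ := hxe
    by_cases hc : c = 0
    · rw [hc, zero_smul]
      show stv (0 : Fin m ⊕ Fin m → F) (1 : F) ∈ K
      rw [stv_zero]
      exact K.one_mem
    · apply indep_mem h2 hsq hm Q hQs hQa K hHK _ hzD hz0 hy2
      intro c' h
      apply hez (c⁻¹ * c')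
      rw [mul_smul, ← h, smul_smul, inv_mul_cancel₀ hc, one_smul]

end

/-- For a finite field F of characteristic two and m ≥ 7, let Q be a non-degenerate quadratic form on F^(2m) whose polar form is the standard alternating form. Then the elements of Sp_2m(F) that are similarities of Q (they are exactly the isometries of Q) form a maximal subgroup of Sp_2m(F). -/
theorem result {F : Type*} [Field F] [Fintype F] (m : ℕ) (hm : 7 ≤ m) (heven : ¬ Odd (Fintype.card F)) (Q : (Fin m ⊕ Fin m → F) → F) (hQ : Cfsg.Geo.IsNondegenerateQuadraticForm Q) (hpol : ∀ u v, QuadraticMap.polar Q u v = Cfsg.sympForm m F u v) : Cfsg.Geo.IsMaximalIn (Cfsg.spGL m F) (Cfsg.Geo.quadSimilarityGroup Q ⊓ Cfsg.spGL m F) := by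
  classical
  have hchar : ringChar F = 2 := FiniteField.even_card_iff_char_two.mpr (by
    rcases Nat.even_or_odd (Fintype.card F) with h | h
    · exact Nat.even_iff.mp h
    · exact absurd h heven)
  have h2 : (2 : F) = 0 := by
    haveI : CharP F 2 := by
      rw [← hchar]
      infer_instance
    have h := CharP.cast_eq_zero F 2
    exact_mod_cast h
  have hsq : ∀ c : F, ∃ d, d * d = c := fun c => by
    obtain ⟨d, hd⟩ := FiniteField.isSquare_of_char_two hchar c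
    exact ⟨d, hd.symm⟩
  have hQs := hQ.smul
  have hQa : ∀ u v, Q (u + v) = Q u + Q v + Bl m F u v := by
    intro u v
    have h := hpol u v
    rw [QuadraticMap.polar] at h
    rw [Bl_apply]
    linear_combination h
  constructor
  · refine lt_of_le_of_ne inf_le_right ?_
    intro heq
    obtain ⟨e, hQe, -, heS⟩ := exists_sing h2 hsq hm Q hQs hQa 0 0
    have he0 : e ≠ 0 := fun h => heS (by rw [h]; exact Submodule.zero_mem _)
    have h1 : stv e (1 : F) ∈ Cfsg.Geo.quadSimilarityGroup Q ⊓ Cfsg.spGL m F := by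
      rw [heq]
      exact stv_mem e 1
    obtain ⟨c, hc⟩ := h1.1
    obtain ⟨w, hw1, -, hw2⟩ := exists_Q_value h2 hsq hm Q hQs hQa e e 0 1
    rw [zero_add] at hw2
    have hc1 := hc w
    have hc1' : Q ((stv e (1 : F)).val *ᵥ w) = (c : F) * Q w := hc1
    rw [Q_stv Q hQs hQa, hw1, hw2] at hc1'
    have hc' : (c : F) = 1 := by linear_combination -hc1'
    obtain ⟨v, hv⟩ := Bl_nd e he0
    have hc2 : Q ((stv e (1 : F)).val *ᵥ v) = (c : F) * Q v := hc v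
    rw [Q_stv Q hQs hQa, hQe, hc'] at hc2
    have h3 : Bl m F v e ^ 2 = 0 := by linear_combination hc2
    apply hv
    rw [Bl_symm h2]
    exact sq_eq_zero_iff.mp h3
  · intro K hHK hKS
    by_cases hK : K ≤ Cfsg.Geo.quadSimilarityGroup Q ⊓ Cfsg.spGL m F
    · exact Or.inl (le_antisymm hK hHK)
    · right
      obtain ⟨g, hgK, hgP⟩ := SetLike.not_le_iff_exists.mp hK
      have hgS : g ∉ Cfsg.Geo.quadSimilarityGroup Q := fun h => hgP ⟨h, hKS hgK⟩
      have hall := all_D1 h2 hsq hm Q hQs hQa K hHK hKS g hgK hgS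
      refine le_antisymm hKS (sp_le_of_stv K fun y c => ?_)
      obtain ⟨d, hd⟩ := hsq c
      have h3 : stv (d • y) (1 : F) ∈ K := hall (d • y)
      have e : stv (d • y) (1 : F) = stv y c := by rw [stv_smul, pow_two, hd, mul_one]
      rw [← e]
      exact h3

end Cfsg.Agent.S5652
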