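import Cfsg.Statements.S5654
import Mathlib
import Cfsg.Agent.Lib.Helper9.SUb
import Cfsg.Agent.Lib.Helper4.HermStabDecomp

set_option autoImplicit false
open Cfsg

namespace Cfsg.Agent.S5654

open Cfsg.Agent.S5635 (tvG tvG_mulVec tvG_det mem_sl_iff)
open Cfsg.Agent.S5631 (gl_ext mul_inv_mulVec tv_conj)
open Cfsg.Agent.S5643 (fl fl_apply herm' herm_self herm_ne herm_zero f_add_right f_smul_right
  f_zero_left f_zero_right f_sub_right f_sub_left f_neg_right exists_eps exists_moved tr_surj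
  norm_surj iso_adjust ker_ne iso_ker)
open Cfsg.Agent.Lib.Helper9.SUa
open Cfsg.Agent.Lib.Helper9.SUb
open scoped Matrix

theorem herm_unitary {F : Type*} [Field F] [Fintype F] (n q : ℕ) (hF : Fintype.card F = q ^ 2) :
    ∃ σ : F ≃+* F, Cfsg.Geo.IsUnitaryForm σ (Cfsg.hermForm n F q) := by
  classical
  obtain ⟨φ, hφ⟩ := Cfsg.Agent.Lib.Helper4.exists_frobQ hF
  have hφ2 : ∀ a : F, φ (φ a) = a := fun a => by
    rw [hφ, hφ, Cfsg.Agent.Lib.Helper4.pow_card_sq hF]
  obtain ⟨σ, hσ⟩ : ∃ σ : F ≃+* F, ∀ a, σ a = a ^ q :=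
    ⟨RingEquiv.ofBijective φ (Function.Involutive.bijective hφ2), fun a => hφ a⟩
  refine ⟨σ, ?_, ?_, ?_, ?_, ?_, ?_⟩
  · intro h
    obtain ⟨c, hc⟩ := Cfsg.Agent.Lib.Helper4.exists_not_fixed hF
    apply hc
    rw [← hσ, h]
    rfl
  · intro a
    rw [hσ, hσ, Cfsg.Agent.Lib.Helper4.pow_card_sq hF]
  · intro x y v
    exact Cfsg.Agent.Lib.Helper4.herm_add_left n x y v
  · intro c x v
    exact Cfsg.Agent.Lib.Helper4.herm_smul_left n c x v
  · intro v w
    rw [hσ]
    exact Cfsg.Agent.Lib.Helper4.herm_symm hF n w v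
  · intro v hv
    obtain ⟨j, hj⟩ : ∃ j, v j ≠ 0 := by
      by_contra hcon
      push Not at hcon
      exact hv (funext hcon)
    have h1 : Cfsg.hermForm n F q (Pi.single j 1) v ≠ 0 := by
      rw [Cfsg.Agent.Lib.Helper4.herm_single_left' φ hφ]
      exact pow_ne_zero _ hj
    refine ⟨⟨_, h1⟩, ⟨Pi.single j 1, ?_⟩⟩
    rw [Cfsg.Agent.Lib.Helper4.herm_symm hF n (Pi.single j 1) v]
    exact pow_ne_zero _ h1

set_option maxHeartbeats 1600000 in
theorem core {F : Type*} [Field F] [Fintype F] {n : ℕ} {σ : F ≃+* F}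
    {f : (Fin n → F) → (Fin n → F) → F} (hf : Cfsg.Geo.IsUnitaryForm σ f) (hn : 13 ≤ n)
    (W : Submodule F (Fin n → F)) (k : ℕ) (b : Fin k → Fin n → F)
    (hb : ∀ i j, f (b i) (b j) = if i = j then 1 else 0) (hbW : ∀ i, b i ∈ W)
    (hspan : ∀ w ∈ W, w = ∑ i, f w (b i) • b i) (hk0 : 0 < k) (hkn : 2 * k < n) :
    Cfsg.Geo.IsMaximalIn (GUf f ⊓ Cfsg.Geo.specialLinear (Fin n) F)
      (Cfsg.Geo.subspaceStabilizer W ⊓ (GUf f ⊓ Cfsg.Geo.specialLinear (Fin n) F)) := by
  classical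
  obtain ⟨X, hXdef⟩ : ∃ X : List (Fin n → F), X = List.ofFn b := ⟨_, rfl⟩
  have hXmem1 : ∀ i, b i ∈ X := by
    intro i
    rw [hXdef]
    exact (List.mem_ofFn).mpr ⟨i, rfl⟩
  have hXmem2 : ∀ v ∈ X, ∃ i, b i = v := by
    intro v hv
    rw [hXdef] at hv
    obtain ⟨i, hi⟩ := (List.mem_ofFn).mp hv
    exact ⟨i, hi⟩
  have hXlen : X.length = k := by rw [hXdef, List.length_ofFn]
  have hA : ∀ y, y ∈ Yp hf X ↔ ∀ i, f y (b i) = 0 := by
    intro y
    constructor
    · intro h i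
      exact h (b i) (hXmem1 i)
    · intro h v hv
      obtain ⟨i, rfl⟩ := hXmem2 v hv
      exact h i
  have hsumf : ∀ (c : Fin k → F) (y : Fin n → F),
      f (∑ i, c i • b i) y = ∑ i, c i * f (b i) y := by
    intro c y
    have h1 := map_sum (fl hf y) (fun i => c i • b i) Finset.univ
    simp only [map_smul, fl_apply, smul_eq_mul] at h1
    exact h1
  have hpair : X.Pairwise (fun u v => f u v = 0) := by
    rw [hXdef, List.pairwise_ofFn]
    intro i j hij
    rw [hb, if_neg (ne_of_lt hij)]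
  have hnorm : ∀ u ∈ X, f u u = 1 := by
    intro u hu
    obtain ⟨i, rfl⟩ := hXmem2 u hu
    rw [hb, if_pos rfl]
  have hXproj : Proj hf X := proj_of_on hf X hpair hnorm
  have hpW : ∀ x : Fin n → F, ∑ i, f x (b i) • b i ∈ W := fun x =>
    Submodule.sum_mem _ (fun i _ => W.smul_mem _ (hbW i))
  have hdA : ∀ x : Fin n → F, x - ∑ i, f x (b i) • b i ∈ Yp hf X := by
    intro x
    refine (hA _).mpr (fun j => ?_)
    rw [f_sub_left hf, hsumf]
    simp [hb]
  have hWA : ∀ x ∈ W, ∀ a ∈ Yp hf X, f x a = 0 := by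
    intro x hx a ha
    rw [hspan x hx, hsumf]
    exact Finset.sum_eq_zero (fun i _ => by rw [herm_zero hf ((hA a).mp ha i), mul_zero])
  have hAW : ∀ x ∈ W, ∀ a ∈ Yp hf X, f a x = 0 := fun x hx a ha =>
    herm_zero hf (hWA x hx a ha)
  have hNsum : ∀ w ∈ W, ∀ y ∈ Yp hf X, f (w + y) (w + y) = f w w + f y y := by
    intro w hw y hy
    simp only [hf.add_left, f_add_right hf, hWA w hw y hy, hAW w hw y hy, add_zero, zero_add]
  have hWmem : ∀ x : Fin n → F, (∀ a ∈ Yp hf X, f x a = 0) → x ∈ W := by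
    intro x hx
    have h0 : x - ∑ i, f x (b i) • b i = 0 := by
      by_contra hne
      obtain ⟨y, hy, hyne⟩ := nd_of_proj hf hXproj (hdA x) hne
      apply hyne
      apply herm_zero hf
      rw [f_sub_left hf, hx y hy, hWA _ (hpW x) y hy, sub_zero]
    rw [sub_eq_zero.mp h0]
    exact hpW x
  have hfixW : ∀ t : Matrix.GeneralLinearGroup (Fin n) F,
      (∀ v ∈ X, (t : Matrix (Fin n) (Fin n) F) *ᵥ v = v) →
      ∀ w ∈ W, (t : Matrix (Fin n) (Fin n) F) *ᵥ w = w := by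
    intro t ht w hw
    have h1 : (t : Matrix (Fin n) (Fin n) F) *ᵥ (∑ i, f w (b i) • b i)
        = ∑ i, f w (b i) • b i := by
      rw [Matrix.mulVec_sum]
      refine Finset.sum_congr rfl (fun i _ => ?_)
      rw [Matrix.mulVec_smul, ht (b i) (hXmem1 i)]
    rw [← hspan w hw] at h1
    exact h1
  have hk6 : X.length + 6 < n := by
    rw [hXlen]
    omega
  obtain ⟨a', ha'A, ha'N, ha'0⟩ := norm_vec hf hXproj (by omega) (1 : F) (map_one σ)
  obtain ⟨ε, hε0, hε⟩ := exists_eps hf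
  obtain ⟨θ, hθ⟩ := exists_moved hf
  have hθ0 : θ ≠ 0 := by
    intro h
    rw [h, map_zero] at hθ
    exact hθ rfl
  have hσθ0 : σ θ ≠ 0 := (map_ne_zero σ).mpr hθ0
  obtain ⟨l, hl, hl1⟩ : ∃ l : F, l * σ l = 1 ∧ l ≠ 1 := by
    refine ⟨σ θ / θ, ?_, ?_⟩
    · rw [map_div₀, hf.involutive]
      field_simp
    · intro h
      exact hθ ((div_eq_one_iff_eq hθ0).mp h)
  have hPA : ∀ a ∈ Yp hf X, f a a = 0 → ∀ (κ : F) (hu : 1 + κ * f a a ≠ 0), κ + σ κ = 0 →
      rf hf a κ hu ∈ Cfsg.Geo.subspaceStabilizer W ⊓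
        (GUf f ⊓ Cfsg.Geo.specialLinear (Fin n) F) := by
    intro a ha haa κ hu hκ
    refine ⟨?_, rf_mem_GU hf a κ hu (by rw [haa, mul_zero, add_zero]; exact hκ),
      (mem_sl_iff _).mpr (by rw [rf_det, haa, mul_zero, add_zero])⟩
    refine Cfsg.Agent.Lib.Helper9.mem_subspaceStabilizer_of_fix W _ (fun x hx => ?_)
    rw [rf_mulVec, hWA x hx a ha, mul_zero, zero_smul, add_zero]
  have hPWv : ∀ a ∈ W, f a a = 0 → ∀ (κ : F) (hu : 1 + κ * f a a ≠ 0), κ + σ κ = 0 →
      rf hf a κ hu ∈ Cfsg.Geo.subspaceStabilizer W ⊓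
        (GUf f ⊓ Cfsg.Geo.specialLinear (Fin n) F) := by
    intro a ha haa κ hu hκ
    refine ⟨?_, rf_mem_GU hf a κ hu (by rw [haa, mul_zero, add_zero]; exact hκ),
      (mem_sl_iff _).mpr (by rw [rf_det, haa, mul_zero, add_zero])⟩
    refine stab_of_le W _ (fun x hx => ?_)
    rw [rf_mulVec]
    exact W.add_mem hx (W.smul_mem _ ha)
  have hbb : ∀ i, f (b i) (b i) = 1 := fun i => by rw [hb, if_pos rfl]
  refine ⟨?_, ?_⟩
  · refine lt_of_le_of_ne inf_le_right (fun heq => ?_)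
    obtain ⟨y₁, hy₁A, hy₁N, hy₁0⟩ := norm_vec hf hXproj (by omega) (-1 : F)
      (by rw [map_neg, map_one])
    obtain ⟨i₀⟩ : Nonempty (Fin k) := ⟨⟨0, hk0⟩⟩
    have hby : f (b i₀) y₁ = 0 := hWA _ (hbW i₀) y₁ hy₁A
    have hyb : f y₁ (b i₀) = 0 := herm_zero hf hby
    have hx1 : f (b i₀ + y₁) (b i₀ + y₁) = 0 := by
      simp only [hf.add_left, f_add_right hf, hbb, hby, hyb, hy₁N]
      ring
    have hu : 1 + ε * f (b i₀ + y₁) (b i₀ + y₁) ≠ 0 := by
      rw [hx1, mul_zero, add_zero]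
      exact one_ne_zero
    have hgG : rf hf (b i₀ + y₁) ε hu ∈ GUf f ⊓ Cfsg.Geo.specialLinear (Fin n) F :=
      ⟨rf_mem_GU hf _ ε hu (by rw [hx1, mul_zero, add_zero]; exact hε),
        (mem_sl_iff _).mpr (by rw [rf_det, hx1, mul_zero, add_zero])⟩
    rw [← heq] at hgG
    have h1 := Cfsg.Agent.Lib.Helper9.mulVec_mem_of_mem_subspaceStabilizer hgG.1 (hbW i₀)
    rw [rf_mulVec, f_add_right hf, hbb, hby, add_zero, mul_one] at h1
    have h2 : ε • y₁ ∈ W := by
      have h3 : ε • y₁ = (b i₀ + ε • (b i₀ + y₁)) - b i₀ - ε • b i₀ := by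
        rw [smul_add]
        abel
      rw [h3]
      exact W.sub_mem (W.sub_mem h1 (hbW i₀)) (W.smul_mem _ (hbW i₀))
    have h4 : y₁ ∈ W := by
      have h5 := W.smul_mem ε⁻¹ h2
      rwa [smul_smul, inv_mul_cancel₀ hε0, one_smul] at h5
    have h6 := hWA y₁ h4 y₁ hy₁A
    rw [hy₁N] at h6
    exact one_ne_zero (neg_eq_zero.mp h6)
  · intro M hPM hMG
    by_cases hMP : M ≤ Cfsg.Geo.subspaceStabilizer W ⊓
        (GUf f ⊓ Cfsg.Geo.specialLinear (Fin n) F)
    · left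
      exact le_antisymm hMP hPM
    right
    refine le_antisymm hMG ?_
    have hMGU : M ≤ GUf f := hMG.trans inf_le_left
    have hCA : ∀ a ∈ Yp hf X, f a a = 0 → Cn hf M a := fun a ha haa =>
      ⟨haa, fun κ hu hκ => hPM (hPA a ha haa κ hu hκ)⟩
    have hCW : ∀ a ∈ W, f a a = 0 → Cn hf M a := fun a ha haa =>
      ⟨haa, fun κ hu hκ => hPM (hPWv a ha haa κ hu hκ)⟩
    have hTvA : HasTv hf M X := fun a κ hu ha haa hκ => (hCA a ha haa).2 κ hu hκ
    have hTr : ∀ w ∈ W, ∀ y ∈ Yp hf X, ∀ y' ∈ Yp hf X, y ≠ 0 → y' ≠ 0 → f y y = f y' y' →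
        Cn hf M (w + y) → Cn hf M (w + y') := by
      intro w hw y hy y' hy' hy0 hy'0 hN hC
      obtain ⟨t, htM, htfix, hty⟩ := TR hf hXproj hk6 hTvA hy hy' hy0 hy'0 hN
      have h1 := Cn_map hf htM (hMGU htM) hC
      rw [Matrix.mulVec_add, hfixW t htfix w hw, hty] at h1
      exact h1
    obtain ⟨g₀, hg₀M, hg₀P⟩ := SetLike.not_le_iff_exists.mp hMP
    have hg₀S : g₀ ∉ Cfsg.Geo.subspaceStabilizer W := fun h => hg₀P ⟨h, hMG hg₀M⟩
    obtain ⟨w₁, hw₁, hgw₁⟩ : ∃ w ∈ W, (g₀ : Matrix (Fin n) (Fin n) F) *ᵥ w ∉ W := by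
      by_contra hcon
      push Not at hcon
      exact hg₀S (stab_of_le W g₀ hcon)
    obtain ⟨g, hgg⟩ : ∃ g : Matrix.GeneralLinearGroup (Fin n) F, g = g₀⁻¹ := ⟨_, rfl⟩
    have hgM : g ∈ M := by
      rw [hgg]
      exact M.inv_mem hg₀M
    have hgGU : g ∈ GUf f := hMGU hgM
    obtain ⟨a₀, ha₀, i₁, hi₁⟩ : ∃ a₀ ∈ Yp hf X, ∃ i,
        f ((g : Matrix (Fin n) (Fin n) F) *ᵥ a₀) (b i) ≠ 0 := by
      by_contra hcon
      push Not at hcon
      apply hgw₁
      apply hWmem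
      intro a ha
      have h1 : ((g₀⁻¹ : Matrix.GeneralLinearGroup (Fin n) F) : Matrix (Fin n) (Fin n) F) *ᵥ a
          ∈ Yp hf X := by
        rw [← hgg]
        exact (hA _).mpr (hcon a ha)
      have h2 := (mem_GUf g₀).mp (hMGU hg₀M) w₁
        (((g₀⁻¹ : Matrix.GeneralLinearGroup (Fin n) F) : Matrix (Fin n) (Fin n) F) *ᵥ a)
      rw [mul_inv_mulVec] at h2
      rw [h2]
      exact hWA w₁ hw₁ _ h1
    obtain ⟨a₁, ha₁, a₂, ha₂, ha12⟩ : ∃ a₁ ∈ Yp hf X, ∃ a₂ ∈ Yp hf X,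
        f ((g : Matrix (Fin n) (Fin n) F) *ᵥ a₁) a₂ ≠ 0 := by
      by_contra hcon
      push Not at hcon
      have hgAW : ∀ a ∈ Yp hf X, (g : Matrix (Fin n) (Fin n) F) *ᵥ a ∈ W := fun a ha =>
        hWmem _ (hcon a ha)
      have hdimW : Module.finrank F ↥W ≤ k := by
        have h1 : W ≤ Submodule.span F (Set.range b) := by
          intro w hw
          rw [hspan w hw]
          exact Submodule.sum_mem _ (fun i _ =>
            Submodule.smul_mem _ _ (Submodule.subset_span ⟨i, rfl⟩))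
        have h2 := Submodule.finrank_mono h1
        have h3 : Module.finrank F ↥(Submodule.span F (Set.range b)) ≤ Fintype.card (Fin k) :=
          finrank_range_le_card b
        rw [Fintype.card_fin] at h3
        exact h2.trans h3
      have hdimA : n ≤ Module.finrank F ↥(Yp hf X) + k := by
        have h1 := LinearMap.finrank_range_add_finrank_ker
          (LinearMap.pi (fun i : Fin k => fl hf (b i)))
        rw [Module.finrank_fintype_fun_eq_card, Fintype.card_fin] at h1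
        have h2 : Module.finrank F
            ↥(LinearMap.range (LinearMap.pi (fun i : Fin k => fl hf (b i)))) ≤ k := by
          have h5 := Submodule.finrank_le
            (LinearMap.range (LinearMap.pi (fun i : Fin k => fl hf (b i))))
          rwa [Module.finrank_fintype_fun_eq_card, Fintype.card_fin] at h5
        have h3 : LinearMap.ker (LinearMap.pi (fun i : Fin k => fl hf (b i))) ≤ Yp hf X := by
          intro y hy
          refine (hA y).mpr (fun i => ?_)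
          exact congrFun (LinearMap.mem_ker.mp hy) i
        have h4 := Submodule.finrank_mono h3
        omega
      have hle : Module.finrank F ↥(Yp hf X) ≤ Module.finrank F ↥W := by
        obtain ⟨L, hL⟩ : ∃ L : ↥(Yp hf X) →ₗ[F] ↥W, ∀ a : ↥(Yp hf X),
            ((L a : ↥W) : Fin n → F) = (g : Matrix (Fin n) (Fin n) F) *ᵥ (a : Fin n → F) :=
          ⟨LinearMap.codRestrict W
            ((Matrix.toLin' (g : Matrix (Fin n) (Fin n) F)).comp (Yp hf X).subtype)
            (fun a => by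
              show Matrix.toLin' (g : Matrix (Fin n) (Fin n) F) (a : Fin n → F) ∈ W
              rw [Matrix.toLin'_apply]
              exact hgAW a a.2), fun a => by
              show Matrix.toLin' (g : Matrix (Fin n) (Fin n) F) (a : Fin n → F) = _
              rw [Matrix.toLin'_apply]⟩
        refine LinearMap.finrank_le_finrank_of_injective (f := L) ?_
        intro x y hxy
        have h1 : (g : Matrix (Fin n) (Fin n) F) *ᵥ (x : Fin n → F)
            = (g : Matrix (Fin n) (Fin n) F) *ᵥ (y : Fin n → F) := by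
          rw [← hL x, ← hL y, hxy]
        exact Subtype.ext (Matrix.mulVec_injective_iff_isUnit.mpr g.isUnit h1)
      omega
    obtain ⟨ν₁, hν₁⟩ : ∃ ν₁ : Module.Dual F (Fin n → F),
        ∀ x, ν₁ x = f ((g : Matrix (Fin n) (Fin n) F) *ᵥ x) (b i₁) :=
      ⟨(fl hf (b i₁)).comp (Matrix.toLin' (g : Matrix (Fin n) (Fin n) F)), fun x => by
        show fl hf (b i₁) (Matrix.toLin' (g : Matrix (Fin n) (Fin n) F) x) = _
        rw [Matrix.toLin'_apply]
        rfl⟩
    obtain ⟨ν₂, hν₂⟩ : ∃ ν₂ : Module.Dual F (Fin n → F),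
        ∀ x, ν₂ x = f ((g : Matrix (Fin n) (Fin n) F) *ᵥ x) a₂ :=
      ⟨(fl hf a₂).comp (Matrix.toLin' (g : Matrix (Fin n) (Fin n) F)), fun x => by
        show fl hf a₂ (Matrix.toLin' (g : Matrix (Fin n) (Fin n) F) x) = _
        rw [Matrix.toLin'_apply]
        rfl⟩
    obtain ⟨e₁, he₁, he₁e₁, hνe₁⟩ := iso_ne hf hXproj (by omega) ν₁ ha₀
      (by rw [hν₁]; exact hi₁)
    obtain ⟨e₂, he₂, he₂e₂, hνe₂⟩ := iso_ne hf hXproj (by omega) ν₂ ha₁
      (by rw [hν₂]; exact ha12)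
    rw [hν₁] at hνe₁
    rw [hν₂] at hνe₂
    obtain ⟨a, haA, haa, hga1, hga2⟩ : ∃ a ∈ Yp hf X, f a a = 0 ∧
        f ((g : Matrix (Fin n) (Fin n) F) *ᵥ a) (b i₁) ≠ 0 ∧
        f ((g : Matrix (Fin n) (Fin n) F) *ᵥ a) a₂ ≠ 0 := by
      by_cases c1 : f ((g : Matrix (Fin n) (Fin n) F) *ᵥ e₁) a₂ = 0
      swap
      · exact ⟨e₁, he₁, he₁e₁, hνe₁, c1⟩
      by_cases c2 : f ((g : Matrix (Fin n) (Fin n) F) *ᵥ e₂) (b i₁) = 0
      swap
      · exact ⟨e₂, he₂, he₂e₂, c2, hνe₂⟩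
      obtain ⟨μ, hμ0, hμiso⟩ : ∃ μ : F, μ ≠ 0 ∧ f (e₁ + μ • e₂) (e₁ + μ • e₂) = 0 := by
        by_cases c3 : f e₂ e₁ = 0
        · refine ⟨1, one_ne_zero, ?_⟩
          simp only [one_smul, hf.add_left, f_add_right hf, he₁e₁, he₂e₂, c3, herm_zero hf c3,
            add_zero]
        · refine ⟨ε / f e₂ e₁, div_ne_zero hε0 c3, ?_⟩
          have h1 : ε / f e₂ e₁ * f e₂ e₁ = ε := div_mul_cancel₀ _ c3
          have h2 : σ (ε / f e₂ e₁) * f e₁ e₂ = σ ε := by
            rw [map_div₀, herm' hf e₂ e₁]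
            exact div_mul_cancel₀ _ (herm_ne hf c3)
          simp only [hf.add_left, hf.smul_left, f_add_right hf, f_smul_right hf, he₁e₁, he₂e₂,
            mul_zero, add_zero, zero_add]
          linear_combination h1 + h2 + hε
      refine ⟨e₁ + μ • e₂, Submodule.add_mem _ he₁ (Submodule.smul_mem _ _ he₂), hμiso, ?_, ?_⟩
      · rw [Matrix.mulVec_add, Matrix.mulVec_smul, hf.add_left, hf.smul_left, c2, mul_zero,
          add_zero]
        exact hνe₁
      · rw [Matrix.mulVec_add, Matrix.mulVec_smul, hf.add_left, hf.smul_left, c1, zero_add]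
        exact mul_ne_zero hμ0 hνe₂
    have hCx : Cn hf M ((g : Matrix (Fin n) (Fin n) F) *ᵥ a) :=
      Cn_map hf hgM hgGU (hCA a haA haa)
    obtain ⟨x, hxdef⟩ : ∃ x : Fin n → F, x = (g : Matrix (Fin n) (Fin n) F) *ᵥ a := ⟨_, rfl⟩
    rw [← hxdef] at hCx hga1 hga2
    obtain ⟨w₀, hw₀def⟩ : ∃ w₀ : Fin n → F, w₀ = ∑ i, f x (b i) • b i := ⟨_, rfl⟩
    obtain ⟨y₀, hy₀def⟩ : ∃ y₀ : Fin n → F, y₀ = x - w₀ := ⟨_, rfl⟩
    have hw₀W : w₀ ∈ W := by
      rw [hw₀def]
      exact hpW x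
    have hy₀A : y₀ ∈ Yp hf X := by
      rw [hy₀def, hw₀def]
      exact hdA x
    have hxsum : w₀ + y₀ = x := by
      rw [hy₀def]
      abel
    have hw₀0 : w₀ ≠ 0 := by
      intro h
      apply hga1
      rw [← hxsum, h, zero_add]
      exact (hA y₀).mp hy₀A i₁
    have hy₀0 : y₀ ≠ 0 := by
      intro h
      apply hga2
      rw [← hxsum, h, add_zero]
      exact hWA w₀ hw₀W a₂ ha₂
    obtain ⟨Gd, hGd⟩ : ∃ Gd : (Fin n → F) → Prop, ∀ w, Gd w ↔
        (w ∈ W ∧ ∀ y ∈ Yp hf X, y ≠ 0 → f y y = -(f w w) → Cn hf M (w + y)) :=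
      ⟨_, fun w => Iff.rfl⟩
    have hG0 : Gd 0 := by
      rw [hGd]
      refine ⟨W.zero_mem, fun y hy _ hyN => ?_⟩
      rw [zero_add]
      exact hCA y hy (by rw [hyN, f_zero_left hf, neg_zero])
    have hGw₀ : Gd w₀ := by
      rw [hGd]
      refine ⟨hw₀W, fun y hy hy0 hyN => ?_⟩
      refine hTr w₀ hw₀W y₀ hy₀A y hy hy₀0 hy0 ?_ (by rw [hxsum]; exact hCx)
      have h1 := hNsum w₀ hw₀W y₀ hy₀A
      rw [hxsum, hCx.1] at h1
      rw [hyN]
      linear_combination -h1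
    have hisoG : ∀ (μ : F), μ ≠ 0 → ∀ A B : Fin n → F, f A A = 0 → f B B = 0 →
        f B A = ε / μ → f (A + μ • B) (A + μ • B) = 0 := by
      intro μ hμ A B hAA hBB hBA
      have hAB : f A B = σ (ε / μ) := by rw [hf.herm, hBA]
      have h4 : μ * (ε / μ) = ε := by field_simp
      have h5 : σ μ * σ (ε / μ) = σ ε := by rw [← map_mul, h4]
      simp only [hf.add_left, hf.smul_left, f_add_right hf, f_smul_right hf, hAA, hBB, hAB, hBA]
      linear_combination h5 + h4 + hε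
    have hGadd : ∀ w₁ w₂, Gd w₁ → Gd w₂ → ∀ μ : F, μ ≠ 0 → Gd (w₁ + μ • w₂) := by
      intro w₁ w₂ h1 h2 μ hμ
      rw [hGd] at h1 h2 ⊢
      obtain ⟨hw₁, hg₁⟩ := h1
      obtain ⟨hw₂, hg₂⟩ := h2
      have hwW : w₁ + μ • w₂ ∈ W := W.add_mem hw₁ (W.smul_mem _ hw₂)
      refine ⟨hwW, fun y hy hy0 hyN => ?_⟩
      obtain ⟨e, e', he, he', hee, he'e', h1e⟩ := hyp_pair hf hXproj (by omega)
      have h1e' : f e e' = 1 := by rw [hf.herm e e', h1e, map_one]
      have hXproj2 : Proj hf (e :: e' :: X) := Proj_cons_hyp hf hXproj he he' hee he'e' h1e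
      obtain ⟨d, d', hd, hd', hdd, hd'd', h1d⟩ := hyp_pair hf hXproj2 (by
        simp only [List.length_cons]
        omega)
      have h1d' : f d d' = 1 := by rw [hf.herm d d', h1d, map_one]
      rw [mem_Yp_cons, mem_Yp_cons] at hd hd'
      obtain ⟨hde, hde', hdA'⟩ := hd
      obtain ⟨hd'e, hd'e', hd'A⟩ := hd'
      have hed : f e d = 0 := herm_zero hf hde
      have he'd : f e' d = 0 := herm_zero hf hde'
      have hed' : f e d' = 0 := herm_zero hf hd'e
      have he'd' : f e' d' = 0 := herm_zero hf hd'e'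
      obtain ⟨γ₁, hγ₁⟩ := tr_surj hf (-(f w₁ w₁)) (by rw [map_neg, herm_self hf])
      obtain ⟨γ₂, hγ₂⟩ := tr_surj hf (-(f w₂ w₂)) (by rw [map_neg, herm_self hf])
      obtain ⟨τ, hτ⟩ : ∃ τ : F, τ = -(f w₂ w₁) + ε / μ := ⟨_, rfl⟩
      obtain ⟨y₁, hy₁def⟩ : ∃ y₁ : Fin n → F, y₁ = e + γ₁ • e' := ⟨_, rfl⟩
      obtain ⟨y₂, hy₂def⟩ : ∃ y₂ : Fin n → F, y₂ = τ • e' + (d + γ₂ • d') := ⟨_, rfl⟩
      have hy₁A : y₁ ∈ Yp hf X := by
        rw [hy₁def]
        exact Submodule.add_mem _ he (Submodule.smul_mem _ _ he')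
      have hy₂A : y₂ ∈ Yp hf X := by
        rw [hy₂def]
        exact Submodule.add_mem _ (Submodule.smul_mem _ _ he')
          (Submodule.add_mem _ hdA' (Submodule.smul_mem _ _ hd'A))
      have hy₁N : f y₁ y₁ = -(f w₁ w₁) := by
        rw [hy₁def]
        simp only [hf.add_left, hf.smul_left, f_add_right hf, f_smul_right hf, hee, he'e', h1e,
          h1e', mul_zero, mul_one, add_zero, zero_add]
        linear_combination hγ₁
      have hy₂N : f y₂ y₂ = -(f w₂ w₂) := by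
        rw [hy₂def]
        simp only [hf.add_left, hf.smul_left, f_add_right hf, f_smul_right hf, he'e', hdd, hd'd',
          h1d, h1d', hde', hd'e', he'd, he'd', mul_zero, mul_one, add_zero, zero_add]
        linear_combination hγ₂
      have hy21 : f y₂ y₁ = τ := by
        rw [hy₂def, hy₁def]
        simp only [hf.add_left, hf.smul_left, f_add_right hf, f_smul_right hf, he'e', h1e, hde,
          hde', hd'e, hd'e', mul_zero, mul_one, add_zero, zero_add]
      have hy₁0 : y₁ ≠ 0 := by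
        intro h
        have h3 : f e' y₁ = 1 := by
          rw [hy₁def, f_add_right hf, f_smul_right hf, h1e, he'e', mul_zero, add_zero]
        rw [h, f_zero_right hf] at h3
        exact zero_ne_one h3
      have hd'y₂ : f d' y₂ = 1 := by
        rw [hy₂def]
        simp only [f_add_right hf, f_smul_right hf, hd'e', h1d, hd'd', mul_zero, add_zero,
          zero_add]
      have hy₂0 : y₂ ≠ 0 := by
        intro h
        rw [h, f_zero_right hf] at hd'y₂
        exact zero_ne_one hd'y₂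
      have hC1 : Cn hf M (w₁ + y₁) := hg₁ y₁ hy₁A hy₁0 hy₁N
      have hC2 : Cn hf M (w₂ + y₂) := hg₂ y₂ hy₂A hy₂0 hy₂N
      have h21 : f (w₂ + y₂) (w₁ + y₁) = ε / μ := by
        simp only [hf.add_left, f_add_right hf, hWA w₂ hw₂ y₁ hy₁A, hAW w₁ hw₁ y₂ hy₂A, hy21, hτ]
        ring
      have h12 : f (w₁ + y₁) (w₂ + y₂) ≠ 0 := by
        apply herm_ne hf
        rw [h21]
        exact div_ne_zero hε0 hμ
      have hiso := hisoG μ hμ (w₁ + y₁) (w₂ + y₂) hC1.1 hC2.1 h21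
      have hCsum := Cn_line hf hC2 hC1 h12 hiso
      have hre : (w₁ + y₁) + μ • (w₂ + y₂) = (w₁ + μ • w₂) + (y₁ + μ • y₂) := by
        rw [smul_add]
        abel
      rw [hre] at hCsum hiso
      have hysA : y₁ + μ • y₂ ∈ Yp hf X :=
        Submodule.add_mem _ hy₁A (Submodule.smul_mem _ _ hy₂A)
      have hys0 : y₁ + μ • y₂ ≠ 0 := by
        intro h
        have h3 : f d' (y₁ + μ • y₂) = σ μ := by
          rw [f_add_right hf, f_smul_right hf, hd'y₂, mul_one, hy₁def, f_add_right hf,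
            f_smul_right hf, hd'e, hd'e', mul_zero, add_zero, zero_add]
        rw [h, f_zero_right hf] at h3
        exact (map_ne_zero σ).mpr hμ h3.symm
      have hysN : f (y₁ + μ • y₂) (y₁ + μ • y₂) = f y y := by
        have h3 := hNsum (w₁ + μ • w₂) hwW (y₁ + μ • y₂) hysA
        rw [hiso] at h3
        rw [hyN]
        linear_combination -h3
      exact hTr (w₁ + μ • w₂) hwW (y₁ + μ • y₂) hysA y hy hys0 hy0 hysN hCsum
    have hGadd' : ∀ w₁ w₂, Gd w₁ → Gd w₂ → ∀ μ : F, Gd (w₁ + μ • w₂) := by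
      intro w₁ w₂ h1 h2 μ
      by_cases hμ : μ = 0
      · rw [hμ, zero_smul, add_zero]
        exact h1
      · exact hGadd w₁ w₂ h1 h2 μ hμ
    have hGsmul : ∀ w, Gd w → ∀ c : F, Gd (c • w) := by
      intro w hw c
      have h1 := hGadd' 0 w hG0 hw c
      rwa [zero_add] at h1
    have hGinv : ∀ h : Matrix.GeneralLinearGroup (Fin n) F,
        h ∈ Cfsg.Geo.subspaceStabilizer W ⊓ (GUf f ⊓ Cfsg.Geo.specialLinear (Fin n) F) →
        ∀ w, Gd w → Gd ((h : Matrix (Fin n) (Fin n) F) *ᵥ w) := by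
      intro h hP w hw
      rw [hGd] at hw ⊢
      obtain ⟨hwW, hg⟩ := hw
      have hhM : h ∈ M := hPM hP
      have hhGU : h ∈ GUf f := hP.2.1
      have hhW : (h : Matrix (Fin n) (Fin n) F) *ᵥ w ∈ W :=
        Cfsg.Agent.Lib.Helper9.mulVec_mem_of_mem_subspaceStabilizer hP.1 hwW
      refine ⟨hhW, fun y hy hy0 hyN => ?_⟩
      obtain ⟨y', hy'def⟩ : ∃ y' : Fin n → F, y' =
          ((h⁻¹ : Matrix.GeneralLinearGroup (Fin n) F) : Matrix (Fin n) (Fin n) F) *ᵥ y :=
        ⟨_, rfl⟩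
      have hhy' : (h : Matrix (Fin n) (Fin n) F) *ᵥ y' = y := by
        rw [hy'def, mul_inv_mulVec]
      have hy'A : y' ∈ Yp hf X := by
        refine (hA y').mpr (fun i => ?_)
        have h1 := (mem_GUf h).mp hhGU y' (b i)
        rw [hhy'] at h1
        rw [← h1]
        exact hAW _ (Cfsg.Agent.Lib.Helper9.mulVec_mem_of_mem_subspaceStabilizer hP.1 (hbW i))
          y hy
      have hy'0 : y' ≠ 0 := by
        intro h0
        rw [h0, Matrix.mulVec_zero] at hhy'
        exact hy0 hhy'.symm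
      have hy'N : f y' y' = -(f w w) := by
        have h1 := (mem_GUf h).mp hhGU y' y'
        rw [hhy'] at h1
        have h2 := (mem_GUf h).mp hhGU w w
        rw [← h1, hyN, h2]
      have h3 := Cn_map hf hhM hhGU (hg y' hy'A hy'0 hy'N)
      rw [Matrix.mulVec_add, hhy'] at h3
      exact h3
    obtain ⟨i₀, hi₀⟩ : ∃ i₀, f w₀ (b i₀) ≠ 0 := by
      by_contra hcon
      push Not at hcon
      apply hw₀0
      rw [hspan w₀ hw₀W]
      exact Finset.sum_eq_zero (fun i _ => by rw [hcon i, zero_smul])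
    have hGb0 : Gd (b i₀) := by
      obtain ⟨ρ, hρG, hρ⟩ := qr_exists hf (v := b i₀) (a' := a')
        (by rw [hbb]; exact one_ne_zero) ha'N hl
      have hρP : ρ ∈ Cfsg.Geo.subspaceStabilizer W ⊓
          (GUf f ⊓ Cfsg.Geo.specialLinear (Fin n) F) := by
        refine ⟨stab_of_le W ρ (fun x hx => ?_), hρG⟩
        rw [hρ x (hWA x hx a' ha'A)]
        exact W.add_mem hx (W.smul_mem _ (hbW i₀))
      have h1 := hGinv ρ hρP w₀ hGw₀
      rw [hρ w₀ (hWA w₀ hw₀W a' ha'A)] at h1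
      have h2 := hGadd' _ _ h1 hGw₀ (-1)
      have h3 : w₀ + ((l - 1) / f (b i₀) (b i₀) * f w₀ (b i₀)) • b i₀ + (-1 : F) • w₀
          = ((l - 1) / f (b i₀) (b i₀) * f w₀ (b i₀)) • b i₀ := by
        rw [neg_one_smul]
        abel
      rw [h3] at h2
      have h4 := hGsmul _ h2 ((l - 1) / f (b i₀) (b i₀) * f w₀ (b i₀))⁻¹
      have hc0 : (l - 1) / f (b i₀) (b i₀) * f w₀ (b i₀) ≠ 0 := by
        rw [hbb, div_one]
        exact mul_ne_zero (sub_ne_zero.mpr hl1) hi₀
      rwa [smul_smul, inv_mul_cancel₀ hc0, one_smul] at h4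
    have hGb : ∀ j, Gd (b j) := by
      intro j
      by_cases hj : j = i₀
      · rw [hj]
        exact hGb0
      have hij : f (b i₀) (b j) = 0 := by rw [hb, if_neg (Ne.symm hj)]
      have hji : f (b j) (b i₀) = 0 := by rw [hb, if_neg hj]
      have hvW : b i₀ + b j ∈ W := W.add_mem (hbW i₀) (hbW j)
      have hvN : f (b i₀ + b j) (b i₀ + b j) = 1 + 1 := by
        simp only [hf.add_left, f_add_right hf, hbb, hij, hji, add_zero, zero_add]
      have hbv : f (b i₀) (b i₀ + b j) = 1 := by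
        rw [f_add_right hf, hbb, hij, add_zero]
      obtain ⟨c₁, hc₁0, hc₁G⟩ : ∃ c₁ : F, c₁ ≠ 0 ∧ Gd (b i₀ + c₁ • (b i₀ + b j)) := by
        by_cases h2 : (1 : F) + 1 = 0
        · have hviso : f (b i₀ + b j) (b i₀ + b j) = 0 := by rw [hvN, h2]
          have hu : 1 + ε * f (b i₀ + b j) (b i₀ + b j) ≠ 0 := by
            rw [hviso, mul_zero, add_zero]
            exact one_ne_zero
          have h3 := hGinv _ (hPWv _ hvW hviso ε hu hε) (b i₀) hGb0
          rw [rf_mulVec, hbv, mul_one] at h3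
          exact ⟨ε, hε0, h3⟩
        · have hvne : f (b i₀ + b j) (b i₀ + b j) ≠ 0 := by
            rw [hvN]
            exact h2
          obtain ⟨ρ, hρG, hρ⟩ := qr_exists hf (v := b i₀ + b j) (a' := a') hvne ha'N hl
          have hρP : ρ ∈ Cfsg.Geo.subspaceStabilizer W ⊓
              (GUf f ⊓ Cfsg.Geo.specialLinear (Fin n) F) := by
            refine ⟨stab_of_le W ρ (fun x hx => ?_), hρG⟩
            rw [hρ x (hWA x hx a' ha'A)]
            exact W.add_mem hx (W.smul_mem _ hvW)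
          have h3 := hGinv ρ hρP (b i₀) hGb0
          rw [hρ (b i₀) (hWA _ (hbW i₀) a' ha'A), hbv, mul_one] at h3
          exact ⟨(l - 1) / f (b i₀ + b j) (b i₀ + b j),
            div_ne_zero (sub_ne_zero.mpr hl1) hvne, h3⟩
      have h4 := hGadd' _ _ hc₁G hGb0 (-(1 + c₁))
      have h5 : b i₀ + c₁ • (b i₀ + b j) + (-(1 + c₁)) • b i₀ = c₁ • b j := by
        rw [smul_add, neg_smul, add_smul, one_smul]
        abel
      rw [h5] at h4
      have h6 := hGsmul _ h4 c₁⁻¹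
      rwa [smul_smul, inv_mul_cancel₀ hc₁0, one_smul] at h6
    have hGsum : ∀ (c : Fin k → F) (s : Finset (Fin k)), Gd (∑ i ∈ s, c i • b i) := by
      intro c s
      induction s using Finset.induction_on with
      | empty =>
        rw [Finset.sum_empty]
        exact hG0
      | insert j s hj ih =>
        rw [Finset.sum_insert hj, add_comm]
        exact hGadd' _ _ ih (hGb j) (c j)
    have hGall : ∀ w ∈ W, Gd w := by
      intro w hw
      rw [hspan w hw]
      exact hGsum _ Finset.univ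
    have hall : ∀ x : Fin n → F, f x x = 0 → Cn hf M x := by
      intro x hxx
      by_cases hy : x - ∑ i, f x (b i) • b i = 0
      · have hxW : x ∈ W := by
          rw [sub_eq_zero.mp hy]
          exact hpW x
        exact hCW x hxW hxx
      · have h1 := ((hGd _).mp (hGall _ (hpW x))).2 (x - ∑ i, f x (b i) • b i) (hdA x) hy (by
          have h2 := hNsum _ (hpW x) _ (hdA x)
          rw [add_sub_cancel, hxx] at h2
          linear_combination -h2)
        rw [add_sub_cancel] at h1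
        exact h1
    have hHas : HasTv hf M [] := fun a κ hu _ haa hκ => (hall a haa).2 κ hu hκ
    intro g hg
    obtain ⟨t, htM, htfix⟩ := fix_list hf M hMGU hHas X hpair hnorm (by omega) g hg.1
    have htg : t * g ∈ M := by
      apply hPM
      exact ⟨Cfsg.Agent.Lib.Helper9.mem_subspaceStabilizer_of_fix W _ (hfixW _ htfix),
        Subgroup.mul_mem _ (hMG htM) hg⟩
    have h1 : g = t⁻¹ * (t * g) := by group
    rw [h1]
    exact M.mul_mem (M.inv_mem htM) htg

/-- Let F be the field with q² elements and n ≥ 13. In SU_n(q) (determinant-one isometries of the standard unitary form on F^n) the stabiliser of a non-zero subspace W on which the form is non-degenerate and with 2 dim W < n is a maximal subgroup. -/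
theorem result {F : Type*} [Field F] [Fintype F] (n q : ℕ) (hF : Fintype.card F = q ^ 2) (hn : 13 ≤ n) (W : Submodule F (Fin n → F)) (hW0 : W ≠ ⊥) (hW : Cfsg.Geo.IsNondegenerateOn (Cfsg.hermForm n F q) W) (hdim : 2 * Module.finrank F W < n) : Cfsg.Geo.IsMaximalIn (Cfsg.GU n F q ⊓ Cfsg.Geo.specialLinear (Fin n) F) (Cfsg.Geo.subspaceStabilizer W ⊓ (Cfsg.GU n F q ⊓ Cfsg.Geo.specialLinear (Fin n) F)) := by
  classical
  obtain ⟨σ, hf⟩ := herm_unitary n q hF
  have hWnd : ∀ u ∈ W, (∀ v ∈ W, Cfsg.hermForm n F q u v = 0) → u = 0 := by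
    intro u hu h
    by_contra hu0
    obtain ⟨x, hx, hxu⟩ := (hW u hu hu0).2
    exact hxu (h x hx)
  obtain ⟨b, hb⟩ := Cfsg.Agent.Lib.Helper4.herm_sub_onb hF n W hWnd
  have hk0 : 0 < Module.finrank F ↥W :=
    Nat.pos_of_ne_zero (fun h => hW0 (Submodule.finrank_eq_zero.mp h))
  have hspan : ∀ w ∈ W, w = ∑ i, Cfsg.hermForm n F q w (b i : Fin n → F) • (b i : Fin n → F) := by
    intro w hw
    have h1 := b.sum_repr ⟨w, hw⟩
    have h2 : w = ∑ i, (b.repr ⟨w, hw⟩ i) • (b i : Fin n → F) := by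
      have h3 : ((∑ i, (b.repr ⟨w, hw⟩ i) • b i : ↥W) : Fin n → F) = w := congrArg Subtype.val h1
      rw [Submodule.coe_sum] at h3
      exact h3.symm.trans (Finset.sum_congr rfl (fun i _ => rfl))
    have h3 : ∀ j, Cfsg.hermForm n F q w (b j : Fin n → F) = b.repr ⟨w, hw⟩ j := by
      intro j
      rw [← fl_apply hf]
      conv_lhs => rw [h2]
      rw [map_sum]
      simp [fl_apply, hb]
    conv_lhs => rw [h2]
    exact Finset.sum_congr rfl (fun i _ => by rw [h3 i])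
  exact core hf hn W (Module.finrank F ↥W) (fun i => (b i : Fin n → F)) hb (fun i => (b i).2)
    hspan hk0 hdim

end Cfsg.Agent.S5654
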