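import Cfsg.Statements.S5653
import Mathlib
import Cfsg.Agent.Lib.Helper9.SUc
import Cfsg.Agent.S5654

set_option autoImplicit false
open Cfsg

namespace Cfsg.Agent.S5653

open Cfsg.Agent.S5635 (tvG tvG_mulVec tvG_det mem_sl_iff)
open Cfsg.Agent.S5631 (gl_ext mul_inv_mulVec tv_conj)
open Cfsg.Agent.S5643 (fl fl_apply herm' herm_self herm_ne herm_zero f_add_right f_smul_right
  f_zero_left f_zero_right f_sub_right f_sub_left f_neg_right exists_eps exists_moved tr_surj
  norm_surj iso_adjust ker_ne iso_ker)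
open Cfsg.Agent.Lib.Helper9.SUa
open Cfsg.Agent.Lib.Helper9.SUb
open Cfsg.Agent.Lib.Helper9.SUc
open scoped Matrix

set_option maxHeartbeats 1600000 in
theorem core_sing {F : Type*} [Field F] [Fintype F] {n : ℕ} {σ : F ≃+* F}
    {f : (Fin n → F) → (Fin n → F) → F} (hf : Cfsg.Geo.IsUnitaryForm σ f)
    (W : Submodule F (Fin n → F)) (hW0 : W ≠ ⊥) (hW : ∀ u ∈ W, ∀ v ∈ W, f u v = 0) :
    Cfsg.Geo.IsMaximalIn (GUf f ⊓ Cfsg.Geo.specialLinear (Fin n) F)
      (Cfsg.Geo.subspaceStabilizer W ⊓ (GUf f ⊓ Cfsg.Geo.specialLinear (Fin n) F)) := by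
  classical
  obtain ⟨ε, hε0, hε⟩ := exists_eps hf
  have hσε : σ ε = -ε := sig_eps hε
  obtain ⟨b⟩ : Nonempty (Module.Basis (Fin (Module.finrank F ↥W)) F ↥W) :=
    ⟨Module.finBasis F ↥W⟩
  obtain ⟨wv, hwv⟩ : ∃ wv : Fin (Module.finrank F ↥W) → Fin n → F,
      ∀ i, wv i = (b i : Fin n → F) := ⟨_, fun i => rfl⟩
  have hwvW : ∀ i, wv i ∈ W := fun i => by
    rw [hwv]
    exact (b i).2
  have hwvcomp : wv = W.subtype ∘ b := funext (fun i => hwv i)
  have hspanW : Submodule.span F (Set.range wv) = W := by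
    rw [hwvcomp, Set.range_comp, ← Submodule.map_span, b.span_eq, Submodule.map_subtype_top]
  have hli : LinearIndependent F wv := by
    rw [hwvcomp]
    exact b.linearIndependent.map' W.subtype (Submodule.ker_subtype W)
  have hperp_of_basis : ∀ a : Fin n → F, (∀ i, f a (wv i) = 0) → ∀ w' ∈ W, f w' a = 0 := by
    intro a ha w' hw'
    have h1 : Submodule.span F (Set.range wv) ≤ LinearMap.ker (fl hf a) := by
      rw [Submodule.span_le]
      rintro x ⟨i, rfl⟩
      exact LinearMap.mem_ker.mpr (herm_zero hf (ha i))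
    rw [hspanW] at h1
    exact LinearMap.mem_ker.mp (h1 hw')
  have hCperp_P : ∀ a : Fin n → F, (∀ w ∈ W, f w a = 0) → f a a = 0 →
      ∀ (κ : F) (hu : 1 + κ * f a a ≠ 0), κ + σ κ = 0 →
      rf hf a κ hu ∈ Cfsg.Geo.subspaceStabilizer W ⊓
        (GUf f ⊓ Cfsg.Geo.specialLinear (Fin n) F) := by
    intro a ha haa κ hu hκ
    refine ⟨?_, rf_mem_GU hf a κ hu (by rw [haa, mul_zero, add_zero]; exact hκ),
      (mem_sl_iff _).mpr (by rw [rf_det, haa, mul_zero, add_zero])⟩
    refine Cfsg.Agent.Lib.Helper9.mem_subspaceStabilizer_of_fix W _ (fun x hx => ?_)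
    rw [rf_mulVec, ha x hx, mul_zero, zero_smul, add_zero]
  have hEP : ∀ u ∈ W, ∀ v : Fin n → F, f u v = 0 → ∀ c : F, c + σ c = f v v →
      ∃ E : Matrix.GeneralLinearGroup (Fin n) F,
        E ∈ Cfsg.Geo.subspaceStabilizer W ⊓ (GUf f ⊓ Cfsg.Geo.specialLinear (Fin n) F) ∧
        ∀ x : Fin n → F, (E : Matrix (Fin n) (Fin n) F) *ᵥ x
          = x + f x v • u - f x u • (v + c • u) := by
    intro u hu v huv c hc
    obtain ⟨E, hEG, hE⟩ := eich_exists hf (hW u hu u hu) huv hc
    refine ⟨E, ⟨stab_of_le W E (fun w hw => ?_), hEG⟩, hE⟩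
    rw [hE, hW w hw u hu, zero_smul, sub_zero]
    exact W.add_mem hw (W.smul_mem _ hu)
  refine ⟨?_, ?_⟩
  · refine lt_of_le_of_ne inf_le_right (fun heq => ?_)
    obtain ⟨w, hw, hw0⟩ := (Submodule.ne_bot_iff W).mp hW0
    obtain ⟨e', -, he'e', h1⟩ := hyp_partner hf (Proj_nil hf)
      (fun v hv => absurd hv List.not_mem_nil) hw0 (hW w hw w hw)
    have hu : 1 + ε * f e' e' ≠ 0 := by
      rw [he'e', mul_zero, add_zero]
      exact one_ne_zero
    have hgG : rf hf e' ε hu ∈ GUf f ⊓ Cfsg.Geo.specialLinear (Fin n) F :=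
      ⟨rf_mem_GU hf _ ε hu (by rw [he'e', mul_zero, add_zero]; exact hε),
        (mem_sl_iff _).mpr (by rw [rf_det, he'e', mul_zero, add_zero])⟩
    rw [← heq] at hgG
    have h2 := Cfsg.Agent.Lib.Helper9.mulVec_mem_of_mem_subspaceStabilizer hgG.1 hw
    have hwe' : f w e' = 1 := by rw [hf.herm w e', h1, map_one]
    rw [rf_mulVec, hwe', mul_one] at h2
    have h3 : ε • e' ∈ W := by
      have h7 : ε • e' = (w + ε • e') - w := by abel
      rw [h7]
      exact W.sub_mem h2 hw
    have h4 : e' ∈ W := by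
      have h5 := W.smul_mem ε⁻¹ h3
      rwa [smul_smul, inv_mul_cancel₀ hε0, one_smul] at h5
    have h6 := hW e' h4 w hw
    rw [h1] at h6
    exact one_ne_zero h6
  · intro M hPM hMG
    by_cases hMP : M ≤ Cfsg.Geo.subspaceStabilizer W ⊓
        (GUf f ⊓ Cfsg.Geo.specialLinear (Fin n) F)
    · left
      exact le_antisymm hMP hPM
    right
    refine le_antisymm hMG ?_
    have hMGU : M ≤ GUf f := hMG.trans inf_le_left
    have hCperp : ∀ a : Fin n → F, (∀ w ∈ W, f w a = 0) → f a a = 0 → Cn hf M a :=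
      fun a ha haa => ⟨haa, fun κ hu hκ => hPM (hCperp_P a ha haa κ hu hκ)⟩
    have hCW : ∀ w ∈ W, Cn hf M w := fun w hw =>
      hCperp w (fun w' hw' => hW w' hw' w hw) (hW w hw w hw)
    have hAlpha : ∀ x' : Fin n → F, Cn hf M x' → ∀ ws ∈ W, f x' ws ≠ 0 → ∀ w ∈ W,
        f (x' + w) (x' + w) = 0 → Cn hf M (x' + w) := by
      intro x' hx' ws hws hxws w hw hiso
      by_cases h0 : f x' w = 0
      · obtain ⟨w₁, hw₁def⟩ : ∃ w₁ : Fin n → F, w₁ = σ (ε / f x' ws) • ws := ⟨_, rfl⟩
        have hw₁W : w₁ ∈ W := by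
          rw [hw₁def]
          exact W.smul_mem _ hws
        have hxw₁ : f x' w₁ = ε := by
          rw [hw₁def, f_smul_right hf, hf.involutive, div_mul_cancel₀ _ hxws]
        have hw₁x : f w₁ x' = -ε := by rw [hf.herm w₁ x', hxw₁, hσε]
        have hiso1 : f (x' + (1 : F) • w₁) (x' + (1 : F) • w₁) = 0 := by
          rw [one_smul]
          simp only [hf.add_left, f_add_right hf, hx'.1, hxw₁, hw₁x, hW w₁ hw₁W w₁ hw₁W]
          ring
        have hC1 := Cn_line hf (hCW w₁ hw₁W) hx' (by rw [hxw₁]; exact hε0) hiso1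
        rw [one_smul] at hC1
        have hwW' : w - w₁ ∈ W := W.sub_mem hw hw₁W
        have hne2 : f (x' + w₁) (w - w₁) ≠ 0 := by
          rw [hf.add_left, f_sub_right hf, f_sub_right hf, h0, hxw₁, hW w₁ hw₁W w hw,
            hW w₁ hw₁W w₁ hw₁W]
          simp only [zero_sub, sub_zero, add_zero]
          exact neg_ne_zero.mpr hε0
        have hre : x' + w₁ + (1 : F) • (w - w₁) = x' + w := by
          rw [one_smul]
          abel
        have hiso2 : f (x' + w₁ + (1 : F) • (w - w₁)) (x' + w₁ + (1 : F) • (w - w₁)) = 0 := by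
          rw [hre]
          exact hiso
        have hC2 := Cn_line hf (hCW _ hwW') hC1 hne2 hiso2
        rw [hre] at hC2
        exact hC2
      · have hiso1 : f (x' + (1 : F) • w) (x' + (1 : F) • w) = 0 := by
          rw [one_smul]
          exact hiso
        have hC1 := Cn_line hf (hCW w hw) hx' h0 hiso1
        rw [one_smul] at hC1
        exact hC1
    obtain ⟨g, hgM, hgP⟩ := SetLike.not_le_iff_exists.mp hMP
    have hgS : g ∉ Cfsg.Geo.subspaceStabilizer W := fun h => hgP ⟨h, hMG hgM⟩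
    have hgGU : g ∈ GUf f := hMGU hgM
    obtain ⟨w, hw, hgw⟩ : ∃ w ∈ W, (g : Matrix (Fin n) (Fin n) F) *ᵥ w ∉ W := by
      by_contra hcon
      push Not at hcon
      exact hgS (stab_of_le W g hcon)
    obtain ⟨v, hvdef⟩ : ∃ v : Fin n → F, v = (g : Matrix (Fin n) (Fin n) F) *ᵥ w := ⟨_, rfl⟩
    rw [← hvdef] at hgw
    have hvv : f v v = 0 := by
      rw [hvdef, (mem_GUf g).mp hgGU w w]
      exact hW w hw w hw
    have hCv : Cn hf M v := by
      rw [hvdef]
      exact Cn_map hf hgM hgGU (hCW w hw)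
    obtain ⟨x₀, hCx₀, ws₀, hws₀, hx₀ws⟩ : ∃ x₀ : Fin n → F, Cn hf M x₀ ∧
        ∃ ws ∈ W, f ws x₀ ≠ 0 := by
      by_cases hA : ∃ w' ∈ W, f w' v ≠ 0
      · obtain ⟨w', hw', hne⟩ := hA
        exact ⟨v, hCv, w', hw', hne⟩
      · push Not at hA
        have hvspan : v ∉ Submodule.span F (Set.range wv) := by
          rw [hspanW]
          exact hgw
        obtain ⟨a₀, ha₀, ha₀v⟩ := perp_sep hf wv v hvspan
        have ha₀W : ∀ w' ∈ W, f w' a₀ = 0 := hperp_of_basis a₀ ha₀
        obtain ⟨s, hs⟩ := iso_adjust hf hvv (herm_ne hf ha₀v)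
        have haW : ∀ w' ∈ W, f w' (a₀ + s • v) = 0 := by
          intro w' hw'
          rw [f_add_right hf, f_smul_right hf, ha₀W w' hw', hA w' hw', mul_zero, add_zero]
        have hCa := hCperp _ haW hs
        have hginv : g⁻¹ ∈ M := M.inv_mem hgM
        refine ⟨((g⁻¹ : Matrix.GeneralLinearGroup (Fin n) F) : Matrix (Fin n) (Fin n) F) *ᵥ
          (a₀ + s • v), Cn_map hf hginv (hMGU hginv) hCa, w, hw, ?_⟩
        have h1 := (mem_GUf g).mp hgGU w
          (((g⁻¹ : Matrix.GeneralLinearGroup (Fin n) F) : Matrix (Fin n) (Fin n) F) *ᵥ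
            (a₀ + s • v))
        rw [mul_inv_mulVec, ← hvdef] at h1
        rw [← h1, f_add_right hf, f_smul_right hf, hvv, mul_zero, add_zero]
        exact herm_ne hf ha₀v
    have hall : ∀ x : Fin n → F, f x x = 0 → Cn hf M x := by
      intro x hxx
      by_cases hxW : ∀ w' ∈ W, f w' x = 0
      · exact hCperp x hxW hxx
      push Not at hxW
      obtain ⟨ws, hws, hwsx⟩ := hxW
      obtain ⟨x₁, hCx₁, hx₁⟩ : ∃ x₁ : Fin n → F, Cn hf M x₁ ∧ ∀ w' ∈ W, f w' x₁ = f w' x := by
        by_cases h : ∃ u ∈ W, f u x₀ = f u x ∧ f u x₀ ≠ 0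
        · obtain ⟨u, hu, hux, hux₀⟩ := h
          have hq : f x₀ u ≠ 0 := herm_ne hf hux₀
          obtain ⟨vv, hvvdef⟩ : ∃ vv : Fin n → F, vv = (f x₀ u)⁻¹ • (x₀ - x) := ⟨_, rfl⟩
          have huvv : f u vv = 0 := by
            rw [hvvdef, f_smul_right hf, f_sub_right hf, hux, sub_self, mul_zero]
          obtain ⟨c, hc⟩ := tr_surj hf (f vv vv) (herm_self hf vv)
          obtain ⟨E, hEP', hE⟩ := hEP u hu vv huvv c hc
          refine ⟨(E : Matrix (Fin n) (Fin n) F) *ᵥ x₀, Cn_map hf (hPM hEP') hEP'.2.1 hCx₀,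
            fun w' hw' => ?_⟩
          have hq1 : σ (f x₀ u) * σ (f x₀ u)⁻¹ = 1 := by
            rw [← map_mul, mul_inv_cancel₀ hq, map_one]
          have hw'vv : f w' vv = σ (f x₀ u)⁻¹ * (f w' x₀ - f w' x) := by
            rw [hvvdef, f_smul_right hf, f_sub_right hf]
          rw [hE]
          simp only [f_sub_right hf, f_add_right hf, f_smul_right hf, hW w' hw' u hu, hw'vv]
          linear_combination (-(f w' x₀ - f w' x)) * hq1
        · push Not at h
          have hδ : f ws₀ x₀ - f ws₀ x ≠ 0 := by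
            intro h0
            exact hx₀ws (h ws₀ hws₀ (sub_eq_zero.mp h0))
          have hprop : ∀ w' ∈ W, f w' x = f ws₀ x / f ws₀ x₀ * f w' x₀ := by
            intro w' hw'
            obtain ⟨r, hr⟩ : ∃ r : F, r = (f w' x₀ - f w' x) / (f ws₀ x₀ - f ws₀ x) := ⟨_, rfl⟩
            have huW : w' - r • ws₀ ∈ W := W.sub_mem hw' (W.smul_mem _ hws₀)
            have h2 : r * (f ws₀ x₀ - f ws₀ x) = f w' x₀ - f w' x := by
              rw [hr, div_mul_cancel₀ _ hδ]
            have h1 : f (w' - r • ws₀) x₀ = f (w' - r • ws₀) x := by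
              rw [f_sub_left hf, f_sub_left hf, hf.smul_left, hf.smul_left]
              linear_combination -h2
            have h3 := h _ huW h1
            have h4 : f (w' - r • ws₀) x = 0 := by
              rw [← h1]
              exact h3
            rw [f_sub_left hf, hf.smul_left] at h3 h4
            have h5 : f w' x₀ = r * f ws₀ x₀ := sub_eq_zero.mp h3
            have h6 : f w' x = r * f ws₀ x := sub_eq_zero.mp h4
            rw [h6, h5, mul_comm r (f ws₀ x₀), ← mul_assoc, div_mul_cancel₀ _ hx₀ws, mul_comm]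
          refine ⟨σ (f ws₀ x / f ws₀ x₀) • x₀, Cn_smul hf hCx₀ _, fun w' hw' => ?_⟩
          rw [f_smul_right hf, hf.involutive, hprop w' hw']
      have hwsx₁ : f ws x₁ ≠ 0 := by
        rw [hx₁ ws hws]
        exact hwsx
      have hx₁ws : f x₁ ws ≠ 0 := herm_ne hf hwsx₁
      obtain ⟨d, hddef⟩ : ∃ d : Fin n → F, d = x - x₁ := ⟨_, rfl⟩
      have hdW : ∀ w' ∈ W, f w' d = 0 := by
        intro w' hw'
        rw [hddef, f_sub_right hf, hx₁ w' hw', sub_self]
      obtain ⟨u₂, hu₂def⟩ : ∃ u₂ : Fin n → F, u₂ = σ (-(f x₁ ws)⁻¹) • ws := ⟨_, rfl⟩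
      have hu₂W : u₂ ∈ W := by
        rw [hu₂def]
        exact W.smul_mem _ hws
      have hx₁u₂ : f x₁ u₂ = -1 := by
        rw [hu₂def, f_smul_right hf, hf.involutive, neg_mul, inv_mul_cancel₀ hx₁ws]
      obtain ⟨c, hc⟩ := tr_surj hf (f d d) (herm_self hf d)
      obtain ⟨E, hEP', hE⟩ := hEP u₂ hu₂W d (hdW u₂ hu₂W) c hc
      have hC3 := Cn_map hf (hPM hEP') hEP'.2.1 hCx₁
      rw [hE, hx₁u₂] at hC3
      have hre : x₁ + f x₁ d • u₂ - (-1 : F) • (d + c • u₂) = x + (f x₁ d + c) • u₂ := by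
        rw [hddef, neg_one_smul, add_smul]
        abel
      rw [hre] at hC3
      have hre2 : x + (f x₁ d + c) • u₂ + (-(f x₁ d + c)) • u₂ = x := by
        rw [neg_smul]
        abel
      have hne3 : f (x + (f x₁ d + c) • u₂) ws ≠ 0 := by
        rw [hf.add_left, hf.smul_left, hW u₂ hu₂W ws hws, mul_zero, add_zero]
        exact herm_ne hf hwsx
      have hfin := hAlpha _ hC3 ws hws hne3 ((-(f x₁ d + c)) • u₂) (W.smul_mem _ hu₂W)
        (by rw [hre2]; exact hxx)
      rw [hre2] at hfin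
      exact hfin
    have hHas : ∀ a : Fin n → F, f a a = 0 → ∀ (κ : F) (hu : 1 + κ * f a a ≠ 0),
        κ + σ κ = 0 → rf hf a κ hu ∈ M := fun a haa κ hu hκ => (hall a haa).2 κ hu hκ
    have hMove1 : ∀ (S : Set (Fin n → F)), (∀ y ∈ S, y ∈ W) → ∀ z : Fin n → F, f z z = 0 →
        (∀ y ∈ S, f y z = 0) → (∃ w' ∈ W, f z w' ≠ 0) →
        ∃ t ∈ M, (∀ y ∈ S, (t : Matrix (Fin n) (Fin n) F) *ᵥ y = y) ∧
          (t : Matrix (Fin n) (Fin n) F) *ᵥ z ∈ W := by
      intro S hSW z hzz hSz ⟨w', hw', hzw'⟩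
      obtain ⟨w₁, hw₁def⟩ : ∃ w₁ : Fin n → F, w₁ = σ (ε / f z w') • w' := ⟨_, rfl⟩
      have hw₁W : w₁ ∈ W := by
        rw [hw₁def]
        exact W.smul_mem _ hw'
      have hzw₁ : f z w₁ = ε := by
        rw [hw₁def, f_smul_right hf, hf.involutive, div_mul_cancel₀ _ hzw']
      have hw₁z : f w₁ z = -ε := by rw [hf.herm w₁ z, hzw₁, hσε]
      have haa : f (w₁ - z) (w₁ - z) = 0 := by
        simp only [f_sub_left hf, f_sub_right hf, hW w₁ hw₁W w₁ hw₁W, hzz, hzw₁, hw₁z]
        ring
      have hza : f z (w₁ - z) = ε := by rw [f_sub_right hf, hzw₁, hzz, sub_zero]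
      have hκ : ε⁻¹ + σ ε⁻¹ = 0 := by rw [map_inv₀, hσε, inv_neg, add_neg_cancel]
      have hu : 1 + ε⁻¹ * f (w₁ - z) (w₁ - z) ≠ 0 := by
        rw [haa, mul_zero, add_zero]
        exact one_ne_zero
      refine ⟨rf hf (w₁ - z) ε⁻¹ hu, hHas _ haa _ hu hκ, fun y hy => ?_, ?_⟩
      · rw [rf_mulVec, f_sub_right hf, hW y (hSW y hy) w₁ hw₁W, hSz y hy, sub_zero, mul_zero,
          zero_smul, add_zero]
      · rw [rf_mulVec, hza, inv_mul_cancel₀ hε0, one_smul]
        have h7 : z + (w₁ - z) = w₁ := by abel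
        rw [h7]
        exact hw₁W
    have hdual : ∀ j, ∃ a : Fin n → F, (∀ i, i ≠ j → f a (wv i) = 0) ∧ f a (wv j) ≠ 0 := by
      intro j
      have h1 : wv j ∉ Submodule.span F
          (Set.range (fun i : ({i | i ≠ j} : Set (Fin (Module.finrank F ↥W))) => wv i)) := by
        have h2 := hli.notMem_span_image (s := {i | i ≠ j}) (x := j) (by simp)
        rwa [Set.image_eq_range] at h2
      obtain ⟨a, ha, haj⟩ := perp_sep hf
        (fun i : ({i | i ≠ j} : Set (Fin (Module.finrank F ↥W))) => wv i) (wv j) h1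
      exact ⟨a, fun i hi => ha ⟨i, hi⟩, haj⟩
    have hstep : ∀ g : Matrix.GeneralLinearGroup (Fin n) F, g ∈ GUf f → ∀ j : ℕ,
        j ≤ Module.finrank F ↥W → ∃ t ∈ M, ∀ i : Fin (Module.finrank F ↥W), i.val < j →
          ((t * g : Matrix.GeneralLinearGroup (Fin n) F) : Matrix (Fin n) (Fin n) F) *ᵥ wv i
            ∈ W := by
      intro g hg j
      induction j with
      | zero =>
        intro _
        exact ⟨1, M.one_mem, fun i hi => absurd hi (Nat.not_lt_zero _)⟩
      | succ j ih =>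
        intro hj
        obtain ⟨t, htM, ht⟩ := ih (by omega)
        obtain ⟨h, hhdef⟩ : ∃ h : Matrix.GeneralLinearGroup (Fin n) F, h = t * g := ⟨_, rfl⟩
        rw [← hhdef] at ht
        have hhGU : h ∈ GUf f := by
          rw [hhdef]
          exact Subgroup.mul_mem _ (hMGU htM) hg
        obtain ⟨jj, hjj⟩ : ∃ jj : Fin (Module.finrank F ↥W), jj.val = j := ⟨⟨j, by omega⟩, rfl⟩
        obtain ⟨z, hzdef⟩ : ∃ z : Fin n → F, z = (h : Matrix (Fin n) (Fin n) F) *ᵥ wv jj :=
          ⟨_, rfl⟩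
        have hzz : f z z = 0 := by
          rw [hzdef, (mem_GUf h).mp hhGU]
          exact hW _ (hwvW jj) _ (hwvW jj)
        obtain ⟨S, hSdef⟩ : ∃ S : Set (Fin n → F), S = {y | ∃ i : Fin (Module.finrank F ↥W),
            i.val < j ∧ y = (h : Matrix (Fin n) (Fin n) F) *ᵥ wv i} := ⟨_, rfl⟩
        have hSW : ∀ y ∈ S, y ∈ W := by
          intro y hy
          rw [hSdef] at hy
          obtain ⟨i, hi, rfl⟩ := hy
          exact ht i hi
        have hSz : ∀ y ∈ S, f y z = 0 := by
          intro y hy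
          rw [hSdef] at hy
          obtain ⟨i, hi, rfl⟩ := hy
          rw [hzdef, (mem_GUf h).mp hhGU]
          exact hW _ (hwvW i) _ (hwvW jj)
        have hsub : ∃ t' ∈ M, (∀ y ∈ S, (t' : Matrix (Fin n) (Fin n) F) *ᵥ y = y) ∧
            (t' : Matrix (Fin n) (Fin n) F) *ᵥ z ∈ W := by
          by_cases hzW : z ∈ W
          · exact ⟨1, M.one_mem, fun y _ => by rw [Units.val_one, Matrix.one_mulVec], by
              rw [Units.val_one, Matrix.one_mulVec]
              exact hzW⟩
          by_cases hi : ∃ w' ∈ W, f z w' ≠ 0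
          · exact hMove1 S hSW z hzz hSz hi
          push Not at hi
          obtain ⟨a', ha', ha'j⟩ := hdual jj
          obtain ⟨a₁, ha₁def⟩ : ∃ a₁ : Fin n → F, a₁ = (h : Matrix (Fin n) (Fin n) F) *ᵥ a' :=
            ⟨_, rfl⟩
          have ha₁S : ∀ y ∈ S, f a₁ y = 0 := by
            intro y hy
            rw [hSdef] at hy
            obtain ⟨i, hi', rfl⟩ := hy
            rw [ha₁def, (mem_GUf h).mp hhGU]
            exact ha' i (fun hij => by
              rw [hij, hjj] at hi'
              exact lt_irrefl _ hi')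
          have ha₁z : f a₁ z ≠ 0 := by
            rw [ha₁def, hzdef, (mem_GUf h).mp hhGU]
            exact ha'j
          obtain ⟨a₀, ha₀S, ha₀z, w₂, hw₂, ha₀w₂⟩ : ∃ a₀ : Fin n → F, (∀ y ∈ S, f a₀ y = 0) ∧
              f a₀ z ≠ 0 ∧ ∃ w₂ ∈ W, f a₀ w₂ ≠ 0 := by
            by_cases hq : ∃ w₂ ∈ W, f a₁ w₂ ≠ 0
            · exact ⟨a₁, ha₁S, ha₁z, hq⟩
            push Not at hq
            obtain ⟨fam, hfam⟩ : ∃ fam : {i : Fin (Module.finrank F ↥W) // i.val ≤ j} →
                Fin n → F, ∀ i, fam i = (h : Matrix (Fin n) (Fin n) F) *ᵥ wv i.1 :=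
              ⟨_, fun i => rfl⟩
            have hex : ∃ w₂ ∈ W, w₂ ∉ Submodule.span F (Set.range fam) := by
              by_contra hcon
              push Not at hcon
              have hle : W ≤ Submodule.span F (Set.range fam) := fun w₂ hw₂ => hcon w₂ hw₂
              have hcard : Module.finrank F ↥(Submodule.span F (Set.range fam))
                  ≤ Module.finrank F ↥W := by
                have h3 : Module.finrank F ↥(Submodule.span F (Set.range fam))
                    ≤ Fintype.card {i : Fin (Module.finrank F ↥W) // i.val ≤ j} :=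
                  finrank_range_le_card fam
                have h4 : Fintype.card {i : Fin (Module.finrank F ↥W) // i.val ≤ j}
                    ≤ Fintype.card (Fin (Module.finrank F ↥W)) := Fintype.card_subtype_le _
                rw [Fintype.card_fin] at h4
                exact h3.trans h4
              have heq := Submodule.eq_of_le_of_finrank_le hle hcard
              apply hzW
              rw [heq]
              have h8 : z = fam ⟨jj, le_of_eq hjj⟩ := by rw [hfam, hzdef]
              rw [h8]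
              exact Submodule.subset_span ⟨_, rfl⟩
            obtain ⟨w₂, hw₂, hw₂span⟩ := hex
            obtain ⟨a₂, ha₂, ha₂w⟩ := perp_sep hf fam w₂ hw₂span
            have ha₂z : f a₂ z = 0 := by
              have h9 := ha₂ ⟨jj, le_of_eq hjj⟩
              rw [hfam] at h9
              rw [hzdef]
              exact h9
            refine ⟨a₁ + a₂, fun y hy => ?_, ?_, w₂, hw₂, ?_⟩
            · rw [hf.add_left, ha₁S y hy, zero_add]
              rw [hSdef] at hy
              obtain ⟨i, hi', rfl⟩ := hy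
              have h9 := ha₂ ⟨i, le_of_lt hi'⟩
              rw [hfam] at h9
              exact h9
            · rw [hf.add_left, ha₂z, add_zero]
              exact ha₁z
            · rw [hf.add_left, hq w₂ hw₂, zero_add]
              exact ha₂w
          obtain ⟨s, hs⟩ := iso_adjust hf hzz (herm_ne hf ha₀z)
          obtain ⟨a, hadef⟩ : ∃ a : Fin n → F, a = a₀ + s • z := ⟨_, rfl⟩
          rw [← hadef] at hs
          have haS : ∀ y ∈ S, f y a = 0 := by
            intro y hy
            rw [hadef, f_add_right hf, f_smul_right hf, herm_zero hf (ha₀S y hy), hSz y hy,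
              mul_zero, add_zero]
          have hza : f z a ≠ 0 := by
            rw [hadef, f_add_right hf, f_smul_right hf, hzz, mul_zero, add_zero]
            exact herm_ne hf ha₀z
          have haw₂ : f a w₂ ≠ 0 := by
            rw [hadef, hf.add_left, hf.smul_left, hi w₂ hw₂, mul_zero, add_zero]
            exact ha₀w₂
          have hu : 1 + ε * f a a ≠ 0 := by
            rw [hs, mul_zero, add_zero]
            exact one_ne_zero
          have ht''M : rf hf a ε hu ∈ M := hHas a hs ε hu hε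
          have ht''GU : rf hf a ε hu ∈ GUf f := hMGU ht''M
          have ht''S : ∀ y ∈ S, ((rf hf a ε hu : Matrix.GeneralLinearGroup (Fin n) F) :
              Matrix (Fin n) (Fin n) F) *ᵥ y = y := by
            intro y hy
            rw [rf_mulVec, haS y hy, mul_zero, zero_smul, add_zero]
          obtain ⟨z', hz'def⟩ : ∃ z' : Fin n → F, z' =
              ((rf hf a ε hu : Matrix.GeneralLinearGroup (Fin n) F) :
                Matrix (Fin n) (Fin n) F) *ᵥ z := ⟨_, rfl⟩
          have hz'z' : f z' z' = 0 := by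
            rw [hz'def, (mem_GUf _).mp ht''GU]
            exact hzz
          have hSz' : ∀ y ∈ S, f y z' = 0 := by
            intro y hy
            have h5 := (mem_GUf _).mp ht''GU y z
            rw [ht''S y hy, ← hz'def] at h5
            rw [h5]
            exact hSz y hy
          have hz'w₂ : f z' w₂ ≠ 0 := by
            rw [hz'def, rf_mulVec, hf.add_left, hf.smul_left, hi w₂ hw₂, zero_add]
            exact mul_ne_zero (mul_ne_zero hε0 hza) haw₂
          obtain ⟨t₁, ht₁M, ht₁S, ht₁z⟩ := hMove1 S hSW z' hz'z' hSz' ⟨w₂, hw₂, hz'w₂⟩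
          refine ⟨t₁ * rf hf a ε hu, M.mul_mem ht₁M ht''M, fun y hy => ?_, ?_⟩
          · rw [Units.val_mul, ← Matrix.mulVec_mulVec, ht''S y hy, ht₁S y hy]
          · rw [Units.val_mul, ← Matrix.mulVec_mulVec, ← hz'def]
            exact ht₁z
        obtain ⟨t', ht'M, ht'S, ht'z⟩ := hsub
        refine ⟨t' * t, M.mul_mem ht'M htM, fun i hi => ?_⟩
        have hmul : ((t' * t * g : Matrix.GeneralLinearGroup (Fin n) F) :
            Matrix (Fin n) (Fin n) F) *ᵥ wv i
            = (t' : Matrix (Fin n) (Fin n) F) *ᵥ ((h : Matrix (Fin n) (Fin n) F) *ᵥ wv i) := by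
          rw [hhdef, mul_assoc, Units.val_mul, ← Matrix.mulVec_mulVec]
        rw [hmul]
        by_cases hij : i.val < j
        · rw [ht'S _ (by rw [hSdef]; exact ⟨i, hij, rfl⟩)]
          exact ht i hij
        · have hieq : i = jj := Fin.ext (by rw [hjj]; omega)
          rw [hieq, ← hzdef]
          exact ht'z
    intro g hg
    obtain ⟨t, htM, ht⟩ := hstep g hg.1 _ le_rfl
    have htg : t * g ∈ M := by
      apply hPM
      refine ⟨stab_of_le W _ (fun x hx => ?_), Subgroup.mul_mem _ (hMG htM) hg⟩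
      have h1 : Submodule.span F (Set.range wv) ≤ W.comap (Matrix.toLin'
          ((t * g : Matrix.GeneralLinearGroup (Fin n) F) : Matrix (Fin n) (Fin n) F)) := by
        rw [Submodule.span_le]
        rintro y ⟨i, rfl⟩
        show Matrix.toLin' ((t * g : Matrix.GeneralLinearGroup (Fin n) F) :
          Matrix (Fin n) (Fin n) F) (wv i) ∈ W
        rw [Matrix.toLin'_apply]
        exact ht i i.2
      rw [hspanW] at h1
      have h2 := h1 hx
      rw [Submodule.mem_comap, Matrix.toLin'_apply] at h2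
      exact h2
    have h1 : g = t⁻¹ * (t * g) := by group
    rw [h1]
    exact M.mul_mem (M.inv_mem htM) htg

/-- Let F be the field with q² elements and n ≥ 13, and let SU_n(q) be the group of matrices of determinant one preserving the standard unitary form Σ u_i v_i^q on F^n (the intersection of the unitary group GU_n with the kernel of the determinant). The elements of SU_n(q) stabilising a non-zero subspace on which the form vanishes identically form a maximal subgroup of SU_n(q). -/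
theorem result {F : Type*} [Field F] [Fintype F] (n q : ℕ) (hF : Fintype.card F = q ^ 2) (hn : 13 ≤ n) (W : Submodule F (Fin n → F)) (hW0 : W ≠ ⊥) (hW : Cfsg.Geo.IsTotallySingularFor (Cfsg.hermForm n F q) W) : Cfsg.Geo.IsMaximalIn (Cfsg.GU n F q ⊓ Cfsg.Geo.specialLinear (Fin n) F) (Cfsg.Geo.subspaceStabilizer W ⊓ (Cfsg.GU n F q ⊓ Cfsg.Geo.specialLinear (Fin n) F)) := by
  classical
  obtain ⟨σ, hf⟩ := Cfsg.Agent.S5654.herm_unitary n q hF
  exact core_sing hf W hW0 hW

end Cfsg.Agent.S5653
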