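import Cfsg.Statements.S5656
import Mathlib
import Cfsg.Agent.Lib.Helper9.Decomp
import Cfsg.Agent.S5635

set_option autoImplicit false
open Cfsg

namespace Cfsg.Agent.S5656

open Cfsg.Agent.Lib.Helper9.Decomp
open Cfsg.Agent.S5635 (tvG tvG_mulVec tvG_det not_stab mem_sl_iff sq_sum_char2)
open scoped Matrix

section herm
variable {F : Type*} [Field F] {n : ℕ}

theorem herm_def (u v : Fin n → F) : Cfsg.hermForm n F 2 u v = ∑ i, u i * (v i) ^ 2 := rfl

theorem herm_add_left (u u' v : Fin n → F) :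
    Cfsg.hermForm n F 2 (u + u') v = Cfsg.hermForm n F 2 u v + Cfsg.hermForm n F 2 u' v := by
  simp only [herm_def, Pi.add_apply, add_mul, Finset.sum_add_distrib]

theorem herm_smul_left (a : F) (u v : Fin n → F) :
    Cfsg.hermForm n F 2 (a • u) v = a * Cfsg.hermForm n F 2 u v := by
  simp only [herm_def, Pi.smul_apply, smul_eq_mul, Finset.mul_sum, mul_assoc]

theorem herm_add_right (h2 : (2 : F) = 0) (u v v' : Fin n → F) :
    Cfsg.hermForm n F 2 u (v + v') = Cfsg.hermForm n F 2 u v + Cfsg.hermForm n F 2 u v' := by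
  simp only [herm_def, Pi.add_apply]
  rw [← Finset.sum_add_distrib]
  apply Finset.sum_congr rfl
  intro i _
  linear_combination (u i * v i * v' i) * h2

theorem herm_smul_right (a : F) (u v : Fin n → F) :
    Cfsg.hermForm n F 2 u (a • v) = a ^ 2 * Cfsg.hermForm n F 2 u v := by
  simp only [herm_def, Pi.smul_apply, smul_eq_mul, Finset.mul_sum]
  apply Finset.sum_congr rfl
  intro i _
  ring

theorem herm_zero_left (v : Fin n → F) : Cfsg.hermForm n F 2 0 v = 0 := by
  simp [herm_def]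

theorem herm_zero_right (u : Fin n → F) : Cfsg.hermForm n F 2 u 0 = 0 := by
  simp [herm_def]

theorem herm_sum_left {ι : Type*} (s : Finset ι) (a : ι → F) (x : ι → Fin n → F)
    (v : Fin n → F) :
    Cfsg.hermForm n F 2 (∑ j ∈ s, a j • x j) v = ∑ j ∈ s, a j * Cfsg.hermForm n F 2 (x j) v := by
  simp only [herm_def, Finset.sum_apply, Pi.smul_apply, smul_eq_mul, Finset.sum_mul,
    Finset.mul_sum]
  rw [Finset.sum_comm]
  apply Finset.sum_congr rfl
  intro j _
  apply Finset.sum_congr rfl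
  intro i _
  ring

theorem herm_sum_right (h2 : (2 : F) = 0) {ι : Type*} (s : Finset ι) (a : ι → F)
    (y : ι → Fin n → F) (u : Fin n → F) :
    Cfsg.hermForm n F 2 u (∑ j ∈ s, a j • y j)
      = ∑ j ∈ s, (a j) ^ 2 * Cfsg.hermForm n F 2 u (y j) := by
  simp only [herm_def, Finset.sum_apply, Pi.smul_apply, smul_eq_mul]
  have h1 : ∀ i, (∑ j ∈ s, a j * y j i) ^ 2 = ∑ j ∈ s, (a j) ^ 2 * (y j i) ^ 2 := by
    intro i
    rw [sq_sum_char2 h2]
    apply Finset.sum_congr rfl
    intro j _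
    ring
  simp only [h1, Finset.mul_sum]
  rw [Finset.sum_comm]
  apply Finset.sum_congr rfl
  intro j _
  apply Finset.sum_congr rfl
  intro i _
  ring

theorem sum01 (h2 : (2 : F) = 0) {ι : Type*} (s : Finset ι) (a : ι → F)
    (ha : ∀ i, a i = 0 ∨ a i = 1) : ∑ i ∈ s, a i = 0 ∨ ∑ i ∈ s, a i = 1 := by
  classical
  induction s using Finset.induction_on with
  | empty => left; simp
  | insert i s hi ih =>
    rw [Finset.sum_insert hi]
    rcases ha i with h0 | h0 <;> rcases ih with h1 | h1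
    · left; rw [h0, h1, add_zero]
    · right; rw [h0, h1, zero_add]
    · right; rw [h0, h1, add_zero]
    · left; rw [h0, h1]; linear_combination h2

end herm

section f4
variable {F : Type*} [Field F] [Fintype F] (hF : Fintype.card F = 4) {n : ℕ}
include hF

theorem f4_two : (2 : F) = 0 := by
  have h4 : (4 : F) = 0 := by
    have h3 := Nat.cast_card_eq_zero F
    rw [hF] at h3
    exact_mod_cast h3
  have h5 : (2 : F) * 2 = 0 := by linear_combination h4
  exact mul_self_eq_zero.mp h5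

theorem f4_cube (x : F) (hx : x ≠ 0) : x ^ 3 = 1 := by
  have h5 := FiniteField.pow_card_sub_one_eq_one x hx
  rw [hF] at h5
  exact h5

theorem f4_omega : ∃ γ : F, γ ≠ 0 ∧ γ ≠ 1 ∧ γ ^ 2 + γ + 1 = 0 := by
  classical
  obtain ⟨γ, hγ0, hγ1⟩ : ∃ γ : F, γ ≠ 0 ∧ γ ≠ 1 := by
    by_contra hcon
    have hsub : (Finset.univ : Finset F) ⊆ {0, 1} := by
      intro x _
      by_contra hx
      rw [Finset.mem_insert, Finset.mem_singleton, not_or] at hx
      exact hcon ⟨x, hx.1, hx.2⟩
    have h5 := Finset.card_le_card hsub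
    rw [Finset.card_univ, hF] at h5
    have h6 := Finset.card_le_two (a := (0 : F)) (b := 1)
    omega
  refine ⟨γ, hγ0, hγ1, ?_⟩
  have hγ3 := f4_cube hF γ hγ0
  have h5 : (γ - 1) * (γ ^ 2 + γ + 1) = 0 := by linear_combination hγ3
  rcases mul_eq_zero.mp h5 with h6 | h6
  · exact absurd (sub_eq_zero.mp h6) hγ1
  · exact h6

theorem f4_norm01 (v : Fin n → F) :
    Cfsg.hermForm n F 2 v v = 0 ∨ Cfsg.hermForm n F 2 v v = 1 := by
  have h2 := f4_two hF
  rw [herm_def]
  apply sum01 h2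
  intro i
  by_cases h0 : v i = 0
  · left
    rw [h0]
    ring
  · right
    have h3 := f4_cube hF (v i) h0
    rw [← h3]
    ring

theorem herm_symm (u v : Fin n → F) :
    Cfsg.hermForm n F 2 u v = (Cfsg.hermForm n F 2 v u) ^ 2 := by
  rw [herm_def, herm_def, sq_sum_char2 (f4_two hF)]
  apply Finset.sum_congr rfl
  intro i _
  have h4 : (u i) ^ 4 = u i := by
    have h5 := FiniteField.pow_card (u i)
    rw [hF] at h5
    exact h5
  calc u i * (v i) ^ 2 = (v i) ^ 2 * (u i) ^ 4 := by rw [h4]; ring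
    _ = (v i * (u i) ^ 2) ^ 2 := by ring

theorem exists_noniso (W : Submodule F (Fin n → F)) (hW : W ≠ ⊥)
    (hnd : Cfsg.Geo.IsNondegenerateOn (Cfsg.hermForm n F 2) W) :
    ∃ v ∈ W, Cfsg.hermForm n F 2 v v = 1 := by
  have h2 := f4_two hF
  by_contra hcon
  have hiso : ∀ v ∈ W, Cfsg.hermForm n F 2 v v = 0 := by
    intro v hv
    rcases f4_norm01 hF v with h0 | h1
    · exact h0
    · exact absurd ⟨v, hv, h1⟩ hcon
  have hsym : ∀ u ∈ W, ∀ v ∈ W, Cfsg.hermForm n F 2 u v = Cfsg.hermForm n F 2 v u := by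
    intro u hu v hv
    have h3 := hiso (u + v) (W.add_mem hu hv)
    rw [herm_add_left, herm_add_right h2, herm_add_right h2, hiso u hu, hiso v hv, zero_add,
      add_zero] at h3
    linear_combination h3 - (Cfsg.hermForm n F 2 v u) * h2
  obtain ⟨ω, hω0, hω1, -⟩ := f4_omega hF
  have hzero : ∀ u ∈ W, ∀ v ∈ W, Cfsg.hermForm n F 2 u v = 0 := by
    intro u hu v hv
    have h3 := hsym (ω • u) (W.smul_mem ω hu) v hv
    rw [herm_smul_left, herm_smul_right, hsym v hv u hu] at h3
    have h4 : (ω * (1 - ω)) * Cfsg.hermForm n F 2 u v = 0 := by linear_combination h3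
    rcases mul_eq_zero.mp h4 with h5 | h5
    · exfalso
      rcases mul_eq_zero.mp h5 with h6 | h6
      · exact hω0 h6
      · exact hω1 (by linear_combination -h6)
    · exact h5
  obtain ⟨w, hw, hw0⟩ := Submodule.exists_mem_ne_zero_of_ne_bot hW
  obtain ⟨⟨x, hx, hxw⟩, _⟩ := hnd w hw hw0
  exact hxw (hzero x hx w hw)

theorem exists_frame (W : Submodule F (Fin n → F)) (hdim : Module.finrank F W = 2)
    (hnd : Cfsg.Geo.IsNondegenerateOn (Cfsg.hermForm n F 2) W) :
    ∃ B : Module.Basis (Fin 2) F W, ∀ k k',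
      Cfsg.hermForm n F 2 (B k : Fin n → F) (B k' : Fin n → F) = if k = k' then 1 else 0 := by
  have h2 := f4_two hF
  have hW : W ≠ ⊥ := by
    intro h0
    rw [h0] at hdim
    simp at hdim
  obtain ⟨e, he, hee⟩ := exists_noniso hF W hW hnd
  have he0 : e ≠ 0 := by
    intro h0
    rw [h0, herm_zero_left] at hee
    exact zero_ne_one hee
  obtain ⟨f, hf, hf0, hfe⟩ : ∃ f ∈ W, f ≠ 0 ∧ Cfsg.hermForm n F 2 f e = 0 := by
    obtain ⟨x, hx, hxe⟩ : ∃ x ∈ W, ∀ c : F, x ≠ c • e := by
      by_contra hcon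
      have hle : W ≤ Submodule.span F {e} := by
        intro x hx
        by_contra hx'
        apply hcon
        refine ⟨x, hx, fun c hc => hx' ?_⟩
        rw [hc]
        exact Submodule.smul_mem _ c (Submodule.mem_span_singleton_self e)
      have h1 := Submodule.finrank_mono hle
      have h3 := finrank_span_singleton (K := F) he0
      omega
    refine ⟨x - Cfsg.hermForm n F 2 x e • e, W.sub_mem hx (W.smul_mem _ he), ?_, ?_⟩
    · intro h0
      exact hxe _ (sub_eq_zero.mp h0)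
    · rw [sub_eq_add_neg, herm_add_left, ← neg_smul, herm_smul_left, hee]
      ring
  have hef : Cfsg.hermForm n F 2 e f = 0 := by
    rw [herm_symm hF, hfe]
    ring
  have hli : LinearIndependent F ![e, f] := by
    rw [LinearIndependent.pair_iff]
    intro s t hst
    have h3 := congrArg (fun z => Cfsg.hermForm n F 2 z e) hst
    simp only [herm_add_left, herm_smul_left, hee, hfe, herm_zero_left, mul_one, mul_zero,
      add_zero] at h3
    refine ⟨h3, ?_⟩
    rw [h3, zero_smul, zero_add] at hst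
    rcases smul_eq_zero.mp hst with h4 | h4
    · exact h4
    · exact absurd h4 hf0
  have hspan : Submodule.span F {e, f} = W := by
    apply Submodule.eq_of_le_of_finrank_eq
    · rw [Submodule.span_le]
      intro a ha
      rcases ha with rfl | rfl
      · exact he
      · exact hf
    · have h4 := finrank_span_eq_card hli
      have h5 : Set.range ![e, f] = {e, f} := by
        rw [Matrix.range_cons, Matrix.range_cons, Matrix.range_empty, Set.union_empty,
          Set.singleton_union]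
      rw [h5] at h4
      rw [h4, hdim]
      simp
  have hff : Cfsg.hermForm n F 2 f f = 1 := by
    rcases f4_norm01 hF f with h0 | h1
    · exfalso
      obtain ⟨⟨x, hx, hxf⟩, _⟩ := hnd f hf hf0
      rw [← hspan] at hx
      obtain ⟨a, b, rfl⟩ := Submodule.mem_span_pair.mp hx
      apply hxf
      rw [herm_add_left, herm_smul_left, herm_smul_left, hef, h0, mul_zero, mul_zero, add_zero]
    · exact h1
  have hli' : LinearIndependent F ![(⟨e, he⟩ : W), ⟨f, hf⟩] := by
    apply LinearIndependent.of_comp W.subtype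
    have h6 : W.subtype ∘ ![(⟨e, he⟩ : W), ⟨f, hf⟩] = ![e, f] := by
      funext k
      fin_cases k <;> rfl
    rw [h6]
    exact hli
  refine ⟨basisOfLinearIndependentOfCardEqFinrank hli' (by rw [hdim]; simp), ?_⟩
  intro k k'
  rw [coe_basisOfLinearIndependentOfCardEqFinrank]
  fin_cases k <;> fin_cases k' <;> simp [hee, hff, hef, hfe]

end f4

section onb
variable {F : Type*} [Field F] {n : ℕ} {ι : Type*} [Fintype ι] [DecidableEq ι]
  (bb : Module.Basis ι F (Fin n → F))

theorem herm_coord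
    (hON : ∀ a a', Cfsg.hermForm n F 2 (bb a) (bb a') = if a = a' then 1 else 0)
    (h2 : (2 : F) = 0) (x y : Fin n → F) :
    Cfsg.hermForm n F 2 x y = ∑ a, bb.repr x a * (bb.repr y a) ^ 2 := by
  conv_lhs => rw [← bb.sum_repr x, ← bb.sum_repr y]
  rw [herm_sum_left]
  apply Finset.sum_congr rfl
  intro a _
  rw [herm_sum_right h2, Finset.sum_eq_single a]
  · rw [hON, if_pos rfl]
    ring
  · intro b _ hb
    rw [hON, if_neg (Ne.symm hb), mul_zero]
  · intro ha
    exact absurd (Finset.mem_univ a) ha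

/-- the functional `γ` times the sum of the coordinates over `S` -/
noncomputable def fU (S : Finset ι) (γ : F) : Module.Dual F (Fin n → F) :=
  γ • ∑ a ∈ S, bb.coord a

/-- the sum of the basis vectors over `S` -/
noncomputable def wU (S : Finset ι) : Fin n → F := ∑ a ∈ S, bb a

theorem fU_apply (S : Finset ι) (γ : F) (x : Fin n → F) :
    fU bb S γ x = γ * ∑ a ∈ S, bb.repr x a := by
  simp [fU, LinearMap.sum_apply, Module.Basis.coord_apply]

theorem repr_wU (S : Finset ι) (a : ι) : bb.repr (wU bb S) a = if a ∈ S then 1 else 0 := by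
  unfold wU
  rw [map_sum, Finsupp.finset_sum_apply]
  simp only [Module.Basis.repr_self, Finsupp.single_apply]
  rw [Finset.sum_ite_eq' S a]

theorem fU_wU (S : Finset ι) (γ : F) : fU bb S γ (wU bb S) = γ * (S.card : F) := by
  rw [fU_apply, Finset.sum_congr rfl (fun a ha => by rw [repr_wU, if_pos ha])]
  simp

/-- the element `x ↦ x + (γ Σ_{a∈S} x_a) • Σ_{a∈S} e_a` -/
noncomputable def gU (S : Finset ι) (γ : F) (hu : 1 + fU bb S γ (wU bb S) ≠ 0) :
    Matrix.GeneralLinearGroup (Fin n) F :=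
  tvG (fU bb S γ) (wU bb S) hu

theorem gU_mulVec (S : Finset ι) (γ : F) (hu : 1 + fU bb S γ (wU bb S) ≠ 0) (x : Fin n → F) :
    ((gU bb S γ hu : Matrix.GeneralLinearGroup (Fin n) F) : Matrix (Fin n) (Fin n) F) *ᵥ x
      = x + fU bb S γ x • wU bb S :=
  tvG_mulVec _ _ _ _

theorem gU_repr (S : Finset ι) (γ : F) (hu : 1 + fU bb S γ (wU bb S) ≠ 0) (x : Fin n → F)
    (a : ι) :
    bb.repr (((gU bb S γ hu : Matrix.GeneralLinearGroup (Fin n) F) :
        Matrix (Fin n) (Fin n) F) *ᵥ x) a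
      = bb.repr x a + (γ * ∑ a' ∈ S, bb.repr x a') * (if a ∈ S then 1 else 0) := by
  rw [gU_mulVec, map_add, map_smul, Finsupp.add_apply, Finsupp.smul_apply, repr_wU, fU_apply,
    smul_eq_mul]

theorem gU_det (S : Finset ι) (γ : F) (hu : 1 + fU bb S γ (wU bb S) ≠ 0) :
    ((Matrix.GeneralLinearGroup.det (gU bb S γ hu) : Fˣ) : F) = 1 + γ * (S.card : F) := by
  rw [gU, tvG_det, fU_wU]

theorem invU {κ : Type*} (h2 : (2 : F) = 0) (S : Finset κ) (γ : F)
    (hγS : γ ^ 2 + γ + γ ^ 3 * (S.card : F) = 0) (a b : κ → F) :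
    ∑ j ∈ S, (a j + γ * ∑ i ∈ S, a i) * (b j + γ * ∑ i ∈ S, b i) ^ 2
      = ∑ j ∈ S, a j * (b j) ^ 2 := by
  have e : ∀ j, (a j + γ * ∑ i ∈ S, a i) * (b j + γ * ∑ i ∈ S, b i) ^ 2
      = a j * (b j) ^ 2 + (γ ^ 2 * (∑ i ∈ S, b i) ^ 2 * a j
        + (γ * (∑ i ∈ S, a i) * (b j) ^ 2 + γ ^ 3 * (∑ i ∈ S, a i) * (∑ i ∈ S, b i) ^ 2)) := by
    intro j
    linear_combination ((a j + γ * ∑ i ∈ S, a i) * b j * γ * ∑ i ∈ S, b i) * h2
  rw [Finset.sum_congr rfl (fun j _ => e j), Finset.sum_add_distrib, Finset.sum_add_distrib,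
    Finset.sum_add_distrib, ← Finset.mul_sum, ← Finset.mul_sum, Finset.sum_const, nsmul_eq_mul,
    ← sq_sum_char2 h2 S b]
  linear_combination ((∑ i ∈ S, a i) * (∑ i ∈ S, b i) ^ 2) * hγS

theorem gU_mem
    (hON : ∀ a a', Cfsg.hermForm n F 2 (bb a) (bb a') = if a = a' then 1 else 0)
    (h2 : (2 : F) = 0) (S : Finset ι) (γ : F) (hu : 1 + fU bb S γ (wU bb S) ≠ 0)
    (hγS : γ ^ 2 + γ + γ ^ 3 * (S.card : F) = 0) : gU bb S γ hu ∈ Cfsg.GU n F 2 := by
  intro u v
  show Cfsg.hermForm n F 2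
      (((gU bb S γ hu : Matrix.GeneralLinearGroup (Fin n) F) : Matrix (Fin n) (Fin n) F) *ᵥ u)
      (((gU bb S γ hu : Matrix.GeneralLinearGroup (Fin n) F) : Matrix (Fin n) (Fin n) F) *ᵥ v)
      = _
  rw [herm_coord bb hON h2, herm_coord bb hON h2, ← Finset.sum_add_sum_compl S,
    ← Finset.sum_add_sum_compl S (fun a => bb.repr u a * (bb.repr v a) ^ 2)]
  congr 1
  · rw [← invU h2 S γ hγS (fun a => bb.repr u a) (fun a => bb.repr v a)]
    apply Finset.sum_congr rfl
    intro a ha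
    rw [gU_repr, gU_repr, if_pos ha, mul_one, mul_one]
  · apply Finset.sum_congr rfl
    intro a ha
    rw [Finset.mem_compl] at ha
    rw [gU_repr, gU_repr, if_neg ha, mul_zero, add_zero, mul_zero, add_zero]

/-- exactly one non-zero coordinate -/
def oneCoord (x : Fin n → F) : Prop :=
  ∃ a, bb.repr x a ≠ 0 ∧ ∀ a', a' ≠ a → bb.repr x a' = 0

theorem oneCoord_perm (τ : Equiv.Perm ι) (x y : Fin n → F)
    (hxy : ∀ a, bb.repr y a = bb.repr x (τ a)) : oneCoord bb y ↔ oneCoord bb x := by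
  constructor
  · rintro ⟨a, ha, ha'⟩
    refine ⟨τ a, by rw [← hxy]; exact ha, fun a' hne => ?_⟩
    have h1 := ha' (τ.symm a') (fun h => hne (by rw [← h, Equiv.apply_symm_apply]))
    rw [hxy, Equiv.apply_symm_apply] at h1
    exact h1
  · rintro ⟨a, ha, ha'⟩
    refine ⟨τ.symm a, by rw [hxy, Equiv.apply_symm_apply]; exact ha, fun a' hne => ?_⟩
    rw [hxy]
    exact ha' _ (fun h => hne (by rw [← h, Equiv.symm_apply_apply]))

theorem oneCoord_basis (a : ι) : oneCoord bb (bb a) := by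
  refine ⟨a, ?_, fun a' hne => ?_⟩
  · rw [Module.Basis.repr_self, Finsupp.single_eq_same]
    exact one_ne_zero
  · rw [Module.Basis.repr_self, Finsupp.single_apply, if_neg (Ne.symm hne)]

/-- the matrices preserving the set of vectors with exactly one non-zero coordinate -/
def frameGroup : Subgroup (Matrix.GeneralLinearGroup (Fin n) F) where
  carrier := {g | ∀ x, oneCoord bb ((g : Matrix (Fin n) (Fin n) F) *ᵥ x) ↔ oneCoord bb x}
  one_mem' := fun x => by simp
  mul_mem' := by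
    intro a b ha hb x
    rw [Units.val_mul, ← Matrix.mulVec_mulVec, ha, hb]
  inv_mem' := by
    intro a ha x
    have h1 := ha (((a⁻¹ : Matrix.GeneralLinearGroup (Fin n) F) :
      Matrix (Fin n) (Fin n) F) *ᵥ x)
    rw [Matrix.mulVec_mulVec, ← Units.val_mul, mul_inv_cancel, Units.val_one,
      Matrix.one_mulVec] at h1
    exact h1.symm

end onb

section core
variable {F : Type*} [Field F] [Fintype F]

theorem core (hF : Fintype.card F = 4) (n : ℕ) {t : ℕ} (ht : 4 ≤ t)
    (D : Fin t → Submodule F (Fin n → F)) (hint : DirectSum.IsInternal D)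
    (bb : Module.Basis (Σ _ : Fin t, Fin 2) F (Fin n → F))
    (hON : ∀ a a', Cfsg.hermForm n F 2 (bb a) (bb a') = if a = a' then 1 else 0)
    (hmem : ∀ a, bb a ∈ D a.1)
    (hz : ∀ x i, x ∈ D i → ∀ j k, j ≠ i → bb.repr x ⟨j, k⟩ = 0) :
    ∃ K : Subgroup (Matrix.GeneralLinearGroup (Fin n) F),
      Cfsg.Geo.decompositionStabilizer D ⊓
          (Cfsg.GU n F 2 ⊓ Cfsg.Geo.specialLinear (Fin n) F) < K ∧
        K < (Cfsg.GU n F 2 ⊓ Cfsg.Geo.specialLinear (Fin n) F) := by
  classical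
  have h2 := f4_two hF
  obtain ⟨γ, hγ0, hγ1, hγ⟩ := f4_omega hF
  -- characterisation of the frame vectors
  have hXD : ∀ x, oneCoord bb x ↔ ((∃ i, x ∈ D i) ∧ Cfsg.hermForm n F 2 x x = 1) := by
    intro x
    constructor
    · rintro ⟨a, ha, ha'⟩
      have hx : x = bb.repr x a • bb a := by
        conv_lhs => rw [← bb.sum_repr x]
        rw [Finset.sum_eq_single a]
        · intro b _ hb
          rw [ha' b hb, zero_smul]
        · intro h
          exact absurd (Finset.mem_univ a) h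
      refine ⟨⟨a.1, ?_⟩, ?_⟩
      · rw [hx]
        exact (D a.1).smul_mem _ (hmem a)
      · have hc := f4_cube hF _ ha
        rw [hx, herm_smul_left, herm_smul_right, hON, if_pos rfl]
        linear_combination hc
    · rintro ⟨⟨i, hx⟩, hxx⟩
      have hsum : Cfsg.hermForm n F 2 x x
          = (bb.repr x ⟨i, 0⟩) ^ 3 + (bb.repr x ⟨i, 1⟩) ^ 3 := by
        rw [herm_coord bb hON h2, Fintype.sum_sigma, Finset.sum_eq_single i]
        · rw [Fin.sum_univ_two]
          ring
        · intro j _ hj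
          apply Finset.sum_eq_zero
          intro k _
          rw [hz x i hx j k hj]
          ring
        · intro h
          exact absurd (Finset.mem_univ i) h
      rw [hsum] at hxx
      by_cases ha : bb.repr x ⟨i, 0⟩ = 0
      · by_cases hb : bb.repr x ⟨i, 1⟩ = 0
        · rw [ha, hb] at hxx
          simp at hxx
        · refine ⟨⟨i, 1⟩, hb, ?_⟩
          rintro ⟨j, k⟩ hne
          by_cases hj : j = i
          · subst hj
            have hk : k = 0 := by
              fin_cases k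
              · rfl
              · exact absurd rfl hne
            rw [hk]
            exact ha
          · exact hz x i hx j k hj
      · by_cases hb : bb.repr x ⟨i, 1⟩ = 0
        · refine ⟨⟨i, 0⟩, ha, ?_⟩
          rintro ⟨j, k⟩ hne
          by_cases hj : j = i
          · subst hj
            have hk : k = 1 := by
              fin_cases k
              · exact absurd rfl hne
              · rfl
            rw [hk]
            exact hb
          · exact hz x i hx j k hj
        · rw [f4_cube hF _ ha, f4_cube hF _ hb] at hxx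
          exfalso
          have h10 : (1 : F) = 0 := by linear_combination h2 - hxx
          exact one_ne_zero h10
  -- the stabiliser lies in the frame group
  have hle : Cfsg.Geo.decompositionStabilizer D ⊓
      (Cfsg.GU n F 2 ⊓ Cfsg.Geo.specialLinear (Fin n) F)
      ≤ frameGroup bb ⊓ (Cfsg.GU n F 2 ⊓ Cfsg.Geo.specialLinear (Fin n) F) := by
    rintro g ⟨⟨σ, hσ⟩, hg2⟩
    refine ⟨?_, hg2⟩
    intro x
    rw [hXD, hXD]
    have hgu : Cfsg.hermForm n F 2 ((g : Matrix (Fin n) (Fin n) F) *ᵥ x)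
        ((g : Matrix (Fin n) (Fin n) F) *ᵥ x) = Cfsg.hermForm n F 2 x x := hg2.1 x x
    rw [hgu]
    constructor
    · rintro ⟨⟨i, hi⟩, h1⟩
      refine ⟨⟨σ.symm i, ?_⟩, h1⟩
      have h3 := hσ (σ.symm i)
      rw [Equiv.apply_symm_apply] at h3
      rw [← h3] at hi
      obtain ⟨y, hy, hyx⟩ := hi
      rw [Matrix.toLin'_apply] at hyx
      have hyx' : y = x := by
        have h4 := congrArg (fun z => ((g⁻¹ : Matrix.GeneralLinearGroup (Fin n) F) :
          Matrix (Fin n) (Fin n) F) *ᵥ z) hyx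
        simp only [Matrix.mulVec_mulVec, ← Units.val_mul, inv_mul_cancel, Units.val_one,
          Matrix.one_mulVec] at h4
        exact h4
      rw [← hyx']
      exact hy
    · rintro ⟨⟨i, hi⟩, h1⟩
      refine ⟨⟨σ i, ?_⟩, h1⟩
      rw [← hσ i, ← Matrix.toLin'_apply]
      exact Submodule.mem_map_of_mem hi
  -- a non-zero coordinate gives a non-zero component
  have hcomp : ∀ (y : Fin n → F) (i : Fin t) (k : Fin 2), bb.repr y ⟨i, k⟩ ≠ 0 →
      comp D hint i y ≠ 0 := by
    intro y i k hne h0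
    apply hne
    conv_lhs => rw [← sum_comp D hint y]
    rw [map_sum, Finsupp.finset_sum_apply]
    apply Finset.sum_eq_zero
    intro j _
    by_cases hj : j = i
    · rw [hj, h0, map_zero, Finsupp.zero_apply]
    · exact hz _ j (comp_mem D hint j y) i k (Ne.symm hj)
  -- four distinct indices
  obtain ⟨i₀, i₁, i₂, i₃, h01, h02, h03, h12, h13, h23⟩ :
      ∃ (i₀ i₁ i₂ i₃ : Fin t), i₀ ≠ i₁ ∧ i₀ ≠ i₂ ∧ i₀ ≠ i₃ ∧ i₁ ≠ i₂ ∧ i₁ ≠ i₃ ∧ i₂ ≠ i₃ := by
    refine ⟨⟨0, by omega⟩, ⟨1, by omega⟩, ⟨2, by omega⟩, ⟨3, by omega⟩, ?_, ?_, ?_, ?_, ?_, ?_⟩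
      <;> simp [Fin.ext_iff]
  -- the swap
  obtain ⟨j₀, j₁, j₂, hj₀, hj₁, hj₂⟩ : ∃ (j₀ j₁ j₂ : Σ _ : Fin t, Fin 2),
      j₀ = ⟨i₀, 0⟩ ∧ j₁ = ⟨i₀, 1⟩ ∧ j₂ = ⟨i₁, 0⟩ := ⟨_, _, _, rfl, rfl, rfl⟩
  have hj01 : j₀ ≠ j₁ := by
    rw [hj₀, hj₁]
    simp
  have hj02 : j₀ ≠ j₂ := by
    rw [hj₀, hj₂]
    intro h
    exact h01 (congrArg Sigma.fst h)
  have hj12 : j₁ ≠ j₂ := by
    rw [hj₁, hj₂]
    intro h
    exact h01 (congrArg Sigma.fst h)
  have hcard2 : ((({j₁, j₂} : Finset (Σ _ : Fin t, Fin 2)).card : ℕ) : F) = 0 := by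
    rw [Finset.card_pair hj12]
    exact_mod_cast h2
  have hfw2 : fU bb {j₁, j₂} 1 (wU bb {j₁, j₂}) = 0 := by
    rw [fU_wU, hcard2, mul_zero]
  have hu2 : 1 + fU bb {j₁, j₂} 1 (wU bb {j₁, j₂}) ≠ 0 := by
    rw [hfw2, add_zero]
    exact one_ne_zero
  have hsw1 : gU bb {j₁, j₂} 1 hu2 ∈ frameGroup bb := by
    intro x
    apply oneCoord_perm bb (Equiv.swap j₁ j₂)
    intro a
    rw [gU_repr, Finset.sum_pair hj12]
    by_cases ha1 : a = j₁
    · rw [ha1, Equiv.swap_apply_left, if_pos (by simp)]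
      linear_combination (bb.repr x j₁) * h2
    · by_cases ha2 : a = j₂
      · rw [ha2, Equiv.swap_apply_right, if_pos (by simp)]
        linear_combination (bb.repr x j₂) * h2
      · rw [Equiv.swap_apply_of_ne_of_ne ha1 ha2, if_neg (by simp [ha1, ha2]), mul_zero,
          add_zero]
  have hsw2 : gU bb {j₁, j₂} 1 hu2 ∈ Cfsg.GU n F 2 := by
    apply gU_mem bb hON h2
    rw [hcard2]
    linear_combination h2
  have hsw3 : gU bb {j₁, j₂} 1 hu2 ∈ Cfsg.Geo.specialLinear (Fin n) F := by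
    rw [mem_sl_iff, gU_det, hcard2]
    ring
  have hsw4 : gU bb {j₁, j₂} 1 hu2 ∉ Cfsg.Geo.decompositionStabilizer D := by
    have hr : ∀ a, bb.repr (bb j₀ + bb j₁) a
        = (if j₀ = a then 1 else 0) + (if j₁ = a then 1 else 0) := by
      intro a
      rw [map_add, Finsupp.add_apply, Module.Basis.repr_self, Module.Basis.repr_self,
        Finsupp.single_apply, Finsupp.single_apply]
    have hx : bb j₀ + bb j₁ ∈ D i₀ := by
      apply (D i₀).add_mem
      · have h5 := hmem j₀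
        rw [hj₀] at h5
        rw [hj₀]
        exact h5
      · have h5 := hmem j₁
        rw [hj₁] at h5
        rw [hj₁]
        exact h5
    apply not_stab D hint _ i₀ i₀ i₁ h01 (bb j₀ + bb j₁) hx
    · apply hcomp _ i₀ 0
      rw [← hj₀, gU_repr, if_neg (by simp [hj01, hj02]), mul_zero, add_zero, hr, if_pos rfl,
        if_neg (Ne.symm hj01), add_zero]
      exact one_ne_zero
    · apply hcomp _ i₁ 0
      rw [← hj₂, gU_repr, if_pos (by simp), Finset.sum_pair hj12]
      simp [hr, hj01, hj02, hj12]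
  -- the element outside the frame group
  obtain ⟨a₀, a₁, a₂, a₃, ha₀, ha₁, ha₂, ha₃⟩ : ∃ (a₀ a₁ a₂ a₃ : Σ _ : Fin t, Fin 2),
      a₀ = ⟨i₀, 0⟩ ∧ a₁ = ⟨i₁, 0⟩ ∧ a₂ = ⟨i₂, 0⟩ ∧ a₃ = ⟨i₃, 0⟩ := ⟨_, _, _, _, rfl, rfl, rfl, rfl⟩
  have ha01 : a₀ ≠ a₁ := by
    rw [ha₀, ha₁]
    intro h
    exact h01 (congrArg Sigma.fst h)
  have ha02 : a₀ ≠ a₂ := by
    rw [ha₀, ha₂]
    intro h
    exact h02 (congrArg Sigma.fst h)
  have ha03 : a₀ ≠ a₃ := by
    rw [ha₀, ha₃]
    intro h
    exact h03 (congrArg Sigma.fst h)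
  have ha12 : a₁ ≠ a₂ := by
    rw [ha₁, ha₂]
    intro h
    exact h12 (congrArg Sigma.fst h)
  have hcard3 : ((({a₀, a₁, a₂} : Finset (Σ _ : Fin t, Fin 2)).card : ℕ) : F) = 1 := by
    rw [Finset.card_eq_three.mpr ⟨a₀, a₁, a₂, ha01, ha02, ha12, rfl⟩]
    push_cast
    linear_combination h2
  have hcard1 : ((({a₃} : Finset (Σ _ : Fin t, Fin 2)).card : ℕ) : F) = 1 := by
    rw [Finset.card_singleton]
    norm_num
  have hfw3 : fU bb {a₀, a₁, a₂} γ (wU bb {a₀, a₁, a₂}) = γ := by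
    rw [fU_wU, hcard3, mul_one]
  have hfw1 : fU bb {a₃} γ (wU bb {a₃}) = γ := by
    rw [fU_wU, hcard1, mul_one]
  have hgne : (1 : F) + γ ≠ 0 := by
    intro h
    apply hγ1
    linear_combination h - h2
  have hu3 : 1 + fU bb {a₀, a₁, a₂} γ (wU bb {a₀, a₁, a₂}) ≠ 0 := by
    rw [hfw3]
    exact hgne
  have hu1 : 1 + fU bb {a₃} γ (wU bb {a₃}) ≠ 0 := by
    rw [hfw1]
    exact hgne
  have hB1 : gU bb {a₀, a₁, a₂} γ hu3 * (gU bb {a₃} γ hu1 * gU bb {a₃} γ hu1)
      ∈ Cfsg.GU n F 2 ⊓ Cfsg.Geo.specialLinear (Fin n) F := by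
    constructor
    · apply Subgroup.mul_mem
      · apply gU_mem bb hON h2
        rw [hcard3]
        linear_combination γ * hγ
      · have h1 : gU bb {a₃} γ hu1 ∈ Cfsg.GU n F 2 := by
          apply gU_mem bb hON h2
          rw [hcard1]
          linear_combination γ * hγ
        exact Subgroup.mul_mem _ h1 h1
    · show _ ∈ Cfsg.Geo.specialLinear (Fin n) F
      rw [mem_sl_iff, map_mul, map_mul, Units.val_mul, Units.val_mul, gU_det, gU_det, hcard3,
        hcard1]
      linear_combination (γ + 2) * hγ - h2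
  have hB2 : gU bb {a₀, a₁, a₂} γ hu3 * (gU bb {a₃} γ hu1 * gU bb {a₃} γ hu1)
      ∉ frameGroup bb := by
    intro hmemB
    have h1 := (hmemB (bb a₀)).mpr (oneCoord_basis bb a₀)
    have hfix : ((gU bb {a₃} γ hu1 : Matrix.GeneralLinearGroup (Fin n) F) :
        Matrix (Fin n) (Fin n) F) *ᵥ bb a₀ = bb a₀ := by
      rw [gU_mulVec, fU_apply, Finset.sum_singleton, Module.Basis.repr_self,
        Finsupp.single_apply, if_neg ha03, mul_zero, zero_smul, add_zero]
    rw [Units.val_mul, Units.val_mul, ← Matrix.mulVec_mulVec, ← Matrix.mulVec_mulVec, hfix,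
      hfix] at h1
    obtain ⟨a, -, ha'⟩ := h1
    have hsum : ∑ a' ∈ ({a₀, a₁, a₂} : Finset (Σ _ : Fin t, Fin 2)), bb.repr (bb a₀) a' = 1 := by
      rw [Module.Basis.repr_self]
      simp only [Finsupp.single_apply]
      rw [Finset.sum_ite_eq]
      simp
    have hr1 : bb.repr (((gU bb {a₀, a₁, a₂} γ hu3 : Matrix.GeneralLinearGroup (Fin n) F) :
        Matrix (Fin n) (Fin n) F) *ᵥ bb a₀) a₁ = γ := by
      rw [gU_repr, hsum, if_pos (by simp), Module.Basis.repr_self, Finsupp.single_apply,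
        if_neg ha01]
      ring
    have hr2 : bb.repr (((gU bb {a₀, a₁, a₂} γ hu3 : Matrix.GeneralLinearGroup (Fin n) F) :
        Matrix (Fin n) (Fin n) F) *ᵥ bb a₀) a₂ = γ := by
      rw [gU_repr, hsum, if_pos (by simp), Module.Basis.repr_self, Finsupp.single_apply,
        if_neg ha02]
      ring
    have e1 : a₁ = a := by
      by_contra hne
      exact hγ0 (hr1.symm.trans (ha' a₁ hne))
    have e2 : a₂ = a := by
      by_contra hne
      exact hγ0 (hr2.symm.trans (ha' a₂ hne))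
    exact ha12 (e1.trans e2.symm)
  refine ⟨frameGroup bb ⊓ (Cfsg.GU n F 2 ⊓ Cfsg.Geo.specialLinear (Fin n) F),
    lt_of_le_of_ne hle ?_, lt_of_le_of_ne inf_le_right ?_⟩
  · intro hEq
    have h1 : gU bb {j₁, j₂} 1 hu2 ∈ Cfsg.Geo.decompositionStabilizer D ⊓
        (Cfsg.GU n F 2 ⊓ Cfsg.Geo.specialLinear (Fin n) F) := by
      rw [hEq]
      exact ⟨hsw1, hsw2, hsw3⟩
    exact hsw4 h1.1
  · intro hEq
    have h1 : gU bb {a₀, a₁, a₂} γ hu3 * (gU bb {a₃} γ hu1 * gU bb {a₃} γ hu1)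
        ∈ frameGroup bb ⊓ (Cfsg.GU n F 2 ⊓ Cfsg.Geo.specialLinear (Fin n) F) := by
      rw [hEq]
      exact hB1
    exact hB2 h1.1

end core

/-- Let F be the field with 4 elements (q = 2) and n ≥ 13. Let D be a decomposition of F^n into t pairwise orthogonal 2-dimensional subspaces, each non-degenerate for the standard unitary form Σ u_i v_i². Then the elements of SU_n(2) permuting the members of D form a subgroup that is not maximal: some subgroup lies strictly between it and SU_n(2). -/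
theorem result {F : Type*} [Field F] [Fintype F] (n : ℕ) (hF : Fintype.card F = 4) (hn : 13 ≤ n) {t : ℕ} (D : Fin t → Submodule F (Fin n → F)) (hD : Cfsg.Geo.IsNondegenerateMDecomposition (Cfsg.hermForm n F 2) 2 D) : ∃ K : Subgroup (Matrix.GeneralLinearGroup (Fin n) F), Cfsg.Geo.decompositionStabilizer D ⊓ (Cfsg.GU n F 2 ⊓ Cfsg.Geo.specialLinear (Fin n) F) < K ∧ K < (Cfsg.GU n F 2 ⊓ Cfsg.Geo.specialLinear (Fin n) F) := by
  classical
  have hint : DirectSum.IsInternal D :=
    DirectSum.isInternal_submodule_of_iSupIndep_of_iSup_eq_top hD.decomp.indep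
      hD.decomp.iSup_eq_top
  have hfr := hD.decomp.finrank_eq
  choose B hB using fun i => exists_frame hF (D i) (hfr i) (hD.nondegenerate i)
  have hbbv : ∀ a, hint.collectedBasis B a = (B a.1 a.2 : Fin n → F) := fun a => by
    rw [DirectSum.IsInternal.collectedBasis_coe]
  have hmem : ∀ a, hint.collectedBasis B a ∈ D a.1 := fun a => hint.collectedBasis_mem B a
  have htn : n = t * 2 := by
    have h1 := Module.finrank_eq_card_basis (hint.collectedBasis B)
    rw [Module.finrank_fintype_fun_eq_card] at h1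
    simpa using h1
  refine core hF n (by omega) D hint (hint.collectedBasis B) ?_ hmem ?_
  · rintro ⟨i, k⟩ ⟨i', k'⟩
    by_cases hi : i = i'
    · subst hi
      rw [hbbv, hbbv, hB]
      simp
    · rw [hD.orthogonal i i' hi _ (hmem ⟨i, k⟩) _ (hmem ⟨i', k'⟩), if_neg]
      intro h
      exact hi (congrArg Sigma.fst h)
  · intro x i hx j k hj
    exact hint.collectedBasis_repr_of_mem_ne B (Ne.symm hj) hx

end Cfsg.Agent.S5656
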