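import Cfsg.Statements.S5667
import Mathlib
import Cfsg.Agent.Lib.Helper9.Tensor3
import Cfsg.Agent.S5648

set_option autoImplicit false
open Cfsg

namespace Cfsg.Agent.S5667

open Cfsg.Agent.Lib.Helper9.Frame3
open Cfsg.Agent.Lib.Helper9.Refl
open Cfsg.Agent.Lib.Helper9.Family
open Cfsg.Agent.Lib.Helper9.Tensor3
open Cfsg.Agent.S5635 (tvG tvG_mulVec)
open Cfsg.Agent.S5648 (Bl Bl_apply Bl_self Bl_skew)
open scoped Matrix Kronecker

section aux
variable {F : Type*} [Field F] {κ : Type} [Fintype κ] [DecidableEq κ] {a b : ℕ}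
  (e : κ ≃ Fin a × Fin b) (P : Matrix.GeneralLinearGroup κ F)

theorem tau_add_left (u u' : Fin a → F) (v : Fin b → F) :
    tau e P (u + u') v = tau e P u v + tau e P u' v := by
  unfold tau
  rw [← Matrix.mulVec_add]
  congr 1
  funext x
  simp only [Function.comp_apply, pt, Pi.add_apply]
  ring

/-- `tau` as a linear map in the first variable -/
noncomputable def tauL2 (v : Fin b → F) : (Fin a → F) →ₗ[F] (κ → F) where
  toFun u := tau e P u v
  map_add' := fun u u' => tau_add_left e P u u' v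
  map_smul' := fun c u => by
    rw [tau_smul_left]
    rfl

theorem tau_form (ω : (κ → F) → (κ → F) → F) (f₁ : (Fin a → F) → (Fin a → F) → F)
    (f₂ : (Fin b → F) → (Fin b → F) → F)
    (h₁ : Cfsg.Geo.IsBilinearForm f₁) (h₂ : Cfsg.Geo.IsBilinearForm f₂) (c : F)
    (hT : ∀ x y : Fin a × Fin b → F,
      ω ((P : Matrix κ κ F) *ᵥ (x ∘ e)) ((P : Matrix κ κ F) *ᵥ (y ∘ e))
        = c * Cfsg.Geo.formOfGram id (Cfsg.Geo.gramMatrix f₁ ⊗ₖ Cfsg.Geo.gramMatrix f₂) x y)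
    (u u' : Fin a → F) (v v' : Fin b → F) :
    ω (tau e P u v) (tau e P u' v') = c * (f₁ u u' * f₂ v v') := by
  unfold tau
  rw [hT, fog_pt f₁ f₂ h₁ h₂]

end aux

section sp
variable {F : Type*} [Field F] {m : ℕ}

/-- the symplectic transvection -/
noncomputable def spT (a : Fin m ⊕ Fin m → F) : Matrix.GeneralLinearGroup (Fin m ⊕ Fin m) F :=
  tvG ((Bl m F).flip a) a (by
    show 1 + Bl m F a a ≠ 0
    rw [Bl_self, add_zero]
    exact one_ne_zero)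

theorem spT_mulVec (a x : Fin m ⊕ Fin m → F) :
    ((spT a : Matrix.GeneralLinearGroup (Fin m ⊕ Fin m) F)
      : Matrix (Fin m ⊕ Fin m) (Fin m ⊕ Fin m) F) *ᵥ x = x + Cfsg.sympForm m F x a • a := by
  rw [spT, tvG_mulVec, ← Bl_apply]
  rfl

theorem spT_mem (a : Fin m ⊕ Fin m → F) : spT a ∈ Cfsg.spGL m F := by
  intro u v
  show Cfsg.sympForm m F (((spT a : Matrix.GeneralLinearGroup (Fin m ⊕ Fin m) F)
      : Matrix (Fin m ⊕ Fin m) (Fin m ⊕ Fin m) F) *ᵥ u)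
    (((spT a : Matrix.GeneralLinearGroup (Fin m ⊕ Fin m) F)
      : Matrix (Fin m ⊕ Fin m) (Fin m ⊕ Fin m) F) *ᵥ v) = Cfsg.sympForm m F u v
  rw [spT_mulVec, spT_mulVec]
  simp only [← Bl_apply]
  simp only [map_add, map_smul, LinearMap.add_apply, LinearMap.smul_apply, smul_eq_mul]
  rw [Bl_self, Bl_skew a v]
  ring

theorem symp_bil : Cfsg.Geo.IsBilinearForm (Cfsg.sympForm m F) := by
  refine ⟨?_, ?_, ?_, ?_⟩
  · intro x y v
    simp only [← Bl_apply]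
    rw [map_add, LinearMap.add_apply]
  · intro c x v
    simp only [← Bl_apply]
    rw [map_smul, LinearMap.smul_apply, smul_eq_mul]
  · intro v x y
    simp only [← Bl_apply]
    rw [map_add]
  · intro c v x
    simp only [← Bl_apply]
    rw [map_smul, smul_eq_mul]

end sp

/-- Over the field with 3 elements and for m ≥ 7, suppose the standard alternating form on F^(2m) is similar, through P and e, to the tensor product of a non-degenerate symplectic form f₁ on F^(n₁) and a non-degenerate symmetric bilinear form f₂ on F^3. Then the elements of Sp_2m(3) in the stabiliser of this tensor decomposition form a subgroup that is not maximal: some subgroup lies strictly between it and Sp_2m(3). -/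
theorem result {F : Type*} [Field F] [Fintype F] (m : ℕ) (hm : 7 ≤ m) (hq : Fintype.card F = 3) (n₁ : ℕ) (e : (Fin m ⊕ Fin m) ≃ Fin n₁ × Fin 3) (P : Matrix.GeneralLinearGroup (Fin m ⊕ Fin m) F) (f₁ : (Fin n₁ → F) → (Fin n₁ → F) → F) (f₂ : (Fin 3 → F) → (Fin 3 → F) → F) (hf₁ : Cfsg.Geo.IsSymplecticForm f₁) (hf₂ : Cfsg.Geo.IsSymmetricForm f₂) (hT : Cfsg.Geo.IsTensorFormStructure id (Cfsg.sympForm m F) f₁ f₂ e P) : ∃ K : Subgroup (Matrix.GeneralLinearGroup (Fin m ⊕ Fin m) F), Cfsg.Geo.tensorProductSubgroup n₁ 3 e P ⊓ Cfsg.spGL m F < K ∧ K < Cfsg.spGL m F := by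
  classical
  have h2 := f3_two_ne hq
  obtain ⟨c, hc, hT'⟩ := hT
  have ωb : Cfsg.Geo.IsBilinearForm (Cfsg.sympForm m F) := symp_bil
  have tp : ∀ (u u' : Fin n₁ → F) (v v' : Fin 3 → F),
      Cfsg.sympForm m F (tau e P u v) (tau e P u' v') = c * (f₁ u u' * f₂ v v') :=
    fun u u' v v' => tau_form e P (Cfsg.sympForm m F) f₁ f₂ hf₁.bilinear hf₂.bilinear c hT'
      u u' v v'
  obtain ⟨bb, η, hη, hbo, hbn⟩ := frame_exists hq f₂ hf₂
  have hn₁ : 0 < n₁ := by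
    have h1 := Fintype.card_congr e
    simp only [Fintype.card_sum, Fintype.card_fin, Fintype.card_prod] at h1
    omega
  obtain ⟨u₁, hu₁⟩ : ∃ u₁ : Fin n₁ → F, u₁ ≠ 0 := ⟨Pi.single ⟨0, hn₁⟩ 1, by
    intro h
    have h1 := congrFun h ⟨0, hn₁⟩
    simp at h1⟩
  obtain ⟨⟨u', hu'⟩, -⟩ := hf₁.nondegenerate u₁ hu₁
  obtain ⟨φ, hφ⟩ : ∃ φ : F, φ = f₁ u' u₁ := ⟨_, rfl⟩
  have hφ0 : φ ≠ 0 := by
    rw [hφ]
    exact hu'
  have hφ' : f₁ u₁ u' = -φ := by
    rw [hf₁.skew, ← hφ]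
  obtain ⟨D', hD'⟩ : ∃ D' : Fin 3 → Submodule F (Fin m ⊕ Fin m → F),
      D' = fun l => LinearMap.range (tauL2 e P (bb l)) := ⟨_, rfl⟩
  have hmem : ∀ l x, x ∈ D' l ↔ ∃ u, tau e P u (bb l) = x := by
    intro l x
    rw [hD']
    exact LinearMap.mem_range
  have mt : ∀ l u, tau e P u (bb l) ∈ D' l := fun l u => (hmem l _).mpr ⟨u, rfl⟩
  have orthD : ∀ l l', l ≠ l' → ∀ x ∈ D' l, ∀ z ∈ D' l', Cfsg.sympForm m F x z = 0 := by
    intro l l' hne x hx z hz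
    obtain ⟨v, rfl⟩ := (hmem l x).mp hx
    obtain ⟨v', rfl⟩ := (hmem l' z).mp hz
    rw [tp, hbo l l' hne]
    ring
  have spT_D : ∀ (a : Fin m ⊕ Fin m → F) (l₀ : Fin 3), a ∈ D' l₀ → ∀ l, ∀ x ∈ D' l,
      ((spT a : Matrix.GeneralLinearGroup (Fin m ⊕ Fin m) F)
        : Matrix (Fin m ⊕ Fin m) (Fin m ⊕ Fin m) F) *ᵥ x ∈ D' l := by
    intro a l₀ haD l x hx
    rw [spT_mulVec]
    by_cases hl : l = l₀
    · rw [hl] at hx ⊢
      exact (D' l₀).add_mem hx ((D' l₀).smul_mem _ haD)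
    · rw [orthD l l₀ hl x hx a haD, zero_smul, add_zero]
      exact hx
  obtain ⟨κ', hκ'⟩ : ∃ κ' : F, κ' = c * (φ * η) := ⟨_, rfl⟩
  have hκ0 : κ' ≠ 0 := by
    rw [hκ']
    exact mul_ne_zero hc (mul_ne_zero hφ0 hη)
  obtain ⟨a₁, ha₁⟩ : ∃ a₁, a₁ = tau e P u₁ (bb 0) := ⟨_, rfl⟩
  obtain ⟨a₂, ha₂⟩ : ∃ a₂, a₂ = tau e P u₁ (bb 0 + bb 1) := ⟨_, rfl⟩
  have ha₁D : a₁ ∈ D' 0 := by
    rw [ha₁]
    exact mt 0 u₁
  have g₁D : spT a₁ ∈ Cfsg.Geo.decompositionStabilizer D' := by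
    show ∃ σ : Equiv.Perm (Fin 3), ∀ i, (D' i).map (Matrix.toLin'
      ((spT a₁ : Matrix.GeneralLinearGroup (Fin m ⊕ Fin m) F)
        : Matrix (Fin m ⊕ Fin m) (Fin m ⊕ Fin m) F)) = D' (σ i)
    refine ⟨1, fun l => ?_⟩
    exact img_of_stab (D' l) (spT a₁) (stab_of_maps (D' l) (spT a₁) (spT_D a₁ 0 ha₁D l))
  refine ⟨Cfsg.Geo.decompositionStabilizer D' ⊓ Cfsg.spGL m F, ?_, ?_⟩
  · apply SetLike.lt_iff_le_and_exists.mpr
    refine ⟨?_, spT a₁, ⟨g₁D, spT_mem a₁⟩, ?_⟩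
    · rintro g ⟨hten, hgS⟩
      refine ⟨?_, hgS⟩
      obtain ⟨A, B, hAB⟩ := tensor_act e P g hten
      have hiso : ∀ x y, Cfsg.sympForm m F
          ((g : Matrix (Fin m ⊕ Fin m) (Fin m ⊕ Fin m) F) *ᵥ x)
          ((g : Matrix (Fin m ⊕ Fin m) (Fin m ⊕ Fin m) F) *ᵥ y) = Cfsg.sympForm m F x y := hgS
      have key : ∀ (u u' : Fin n₁ → F) (v v' : Fin 3 → F),
          f₁ ((A : Matrix (Fin n₁) (Fin n₁) F) *ᵥ u) ((A : Matrix (Fin n₁) (Fin n₁) F) *ᵥ u')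
            * f₂ ((B : Matrix (Fin 3) (Fin 3) F) *ᵥ v) ((B : Matrix (Fin 3) (Fin 3) F) *ᵥ v')
            = f₁ u u' * f₂ v v' := by
        intro u u' v v'
        have h1 := hiso (tau e P u v) (tau e P u' v')
        rw [hAB, hAB, tp, tp] at h1
        exact mul_left_cancel₀ hc h1
      obtain ⟨μ, hμ⟩ : ∃ μ : F, μ = f₁ ((A : Matrix (Fin n₁) (Fin n₁) F) *ᵥ u')
          ((A : Matrix (Fin n₁) (Fin n₁) F) *ᵥ u₁) := ⟨_, rfl⟩
      have hμ0 : μ ≠ 0 := by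
        intro h0
        have h1 := key u' u₁ (bb 0) (bb 0)
        rw [← hμ, h0, zero_mul, ← hφ, hbn] at h1
        exact mul_ne_zero hφ0 hη h1.symm
      have hB : ∀ v v', f₂ ((B : Matrix (Fin 3) (Fin 3) F) *ᵥ v)
          ((B : Matrix (Fin 3) (Fin 3) F) *ᵥ v') = (φ * μ⁻¹) * f₂ v v' := by
        intro v v'
        have h1 := key u' u₁ v v'
        rw [← hμ, ← hφ] at h1
        have h4 : f₂ ((B : Matrix (Fin 3) (Fin 3) F) *ᵥ v)
            ((B : Matrix (Fin 3) (Fin 3) F) *ᵥ v') = μ⁻¹ * (φ * f₂ v v') := by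
          rw [← h1, ← mul_assoc, inv_mul_cancel₀ hμ0, one_mul]
        rw [h4]
        ring
      have hsim := sim_frame hq f₂ hf₂ bb η hη hbo hbn (B : Matrix (Fin 3) (Fin 3) F)
        (φ * μ⁻¹) (mul_ne_zero hφ0 (inv_ne_zero hμ0)) hB
      choose π s hs hBπ using hsim
      have hinj : Function.Injective π := by
        intro l l' hll
        by_contra hne
        have h1 := hB (bb l) (bb l')
        rw [hBπ l, hBπ l', hll, hf₂.bilinear.smul_left, hf₂.bilinear.smul_right, hbn,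
          hbo l l' hne, mul_zero] at h1
        exact mul_ne_zero (hs l) (mul_ne_zero (hs l') hη) h1
      show ∃ σ : Equiv.Perm (Fin 3), ∀ i, (D' i).map (Matrix.toLin'
        (g : Matrix (Fin m ⊕ Fin m) (Fin m ⊕ Fin m) F)) = D' (σ i)
      refine ⟨Equiv.ofBijective π ⟨hinj, Finite.surjective_of_injective hinj⟩, fun l => ?_⟩
      show (D' l).map (Matrix.toLin' (g : Matrix (Fin m ⊕ Fin m) (Fin m ⊕ Fin m) F))
        = D' (π l)
      ext x
      rw [Submodule.mem_map]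
      constructor
      · rintro ⟨y, hy, rfl⟩
        obtain ⟨u, rfl⟩ := (hmem l y).mp hy
        rw [Matrix.toLin'_apply, hAB, hBπ l, tau_smul_right, ← tau_smul_left]
        exact mt _ _
      · intro hx
        obtain ⟨w, rfl⟩ := (hmem _ x).mp hx
        refine ⟨tau e P (((A⁻¹ : Matrix.GeneralLinearGroup (Fin n₁) F)
          : Matrix (Fin n₁) (Fin n₁) F) *ᵥ ((s l)⁻¹ • w)) (bb l), mt _ _, ?_⟩
        rw [Matrix.toLin'_apply, hAB, hBπ l, tau_smul_right, ← tau_smul_left,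
          Matrix.mulVec_mulVec, ← Units.val_mul, mul_inv_cancel, Units.val_one,
          Matrix.one_mulVec, smul_smul, mul_inv_cancel₀ (hs l), one_smul]
    · rintro ⟨hten, -⟩
      obtain ⟨A, B, hAB⟩ := tensor_act e P (spT a₁) hten
      have fx : ((spT a₁ : Matrix.GeneralLinearGroup (Fin m ⊕ Fin m) F)
          : Matrix (Fin m ⊕ Fin m) (Fin m ⊕ Fin m) F) *ᵥ tau e P u' (bb 1)
          = tau e P u' (bb 1) := by
        rw [spT_mulVec, ha₁, tp, hbo 1 0 (by decide), mul_zero, mul_zero, zero_smul, add_zero]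
      have mv : ((spT a₁ : Matrix.GeneralLinearGroup (Fin m ⊕ Fin m) F)
          : Matrix (Fin m ⊕ Fin m) (Fin m ⊕ Fin m) F) *ᵥ tau e P u' (bb 0)
          = tau e P (u' + κ' • u₁) (bb 0) := by
        rw [spT_mulVec, ha₁, tp, hbn, ← hφ, ← hκ', tau_add_left, tau_smul_left]
      rw [hAB] at fx mv
      have t1 := tau_inj e P _ _ _ _ fx
      have t2 := tau_inj e P _ _ _ _ mv
      obtain ⟨j₀, hj₀⟩ : ∃ j, bb 1 j ≠ 0 := Function.ne_iff.mp (bb.ne_zero 1)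
      obtain ⟨j₁, hj₁⟩ : ∃ j, bb 0 j ≠ 0 := Function.ne_iff.mp (bb.ne_zero 0)
      obtain ⟨w, hw⟩ : ∃ w, w = (A : Matrix (Fin n₁) (Fin n₁) F) *ᵥ u' := ⟨_, rfl⟩
      rw [← hw] at t1 t2
      have hv1 : u' = (((B : Matrix (Fin 3) (Fin 3) F) *ᵥ bb 1) j₀ * (bb 1 j₀)⁻¹) • w := by
        funext i
        have h5 := congrFun t1 (i, j₀)
        simp only [pt] at h5
        have h6 : u' i = (u' i * bb 1 j₀) * (bb 1 j₀)⁻¹ := by
          rw [mul_assoc, mul_inv_cancel₀ hj₀, mul_one]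
        rw [Pi.smul_apply, smul_eq_mul, h6, ← h5]
        ring
      have hv2 : u' + κ' • u₁
          = (((B : Matrix (Fin 3) (Fin 3) F) *ᵥ bb 0) j₁ * (bb 0 j₁)⁻¹) • w := by
        funext i
        have h5 := congrFun t2 (i, j₁)
        simp only [pt] at h5
        have h6 : (u' + κ' • u₁) i = ((u' + κ' • u₁) i * bb 0 j₁) * (bb 0 j₁)⁻¹ := by
          rw [mul_assoc, mul_inv_cancel₀ hj₁, mul_one]
        rw [Pi.smul_apply, smul_eq_mul, h6, ← h5]
        ring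
      obtain ⟨γ, hγ⟩ : ∃ γ : F, u' = γ • w := ⟨_, hv1⟩
      obtain ⟨γ', hγ'⟩ : ∃ γ' : F, u' + κ' • u₁ = γ' • w := ⟨_, hv2⟩
      have h8 : f₁ (u' + κ' • u₁) u' = -(κ' * φ) := by
        rw [hf₁.bilinear.add_left, hf₁.bilinear.smul_left, hf₁.alternating, hφ']
        ring
      have h7 : f₁ (u' + κ' • u₁) u' = 0 := by
        rw [hγ']
        rw [hγ, hf₁.bilinear.smul_left, hf₁.bilinear.smul_right, hf₁.alternating, mul_zero,
          mul_zero]
      rw [h8] at h7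
      exact mul_ne_zero hκ0 hφ0 (neg_eq_zero.mp h7)
  · apply SetLike.lt_iff_le_and_exists.mpr
    refine ⟨inf_le_right, spT a₂, spT_mem a₂, ?_⟩
    rintro ⟨⟨σ, hσ⟩, -⟩
    have i1 : ((spT a₂ : Matrix.GeneralLinearGroup (Fin m ⊕ Fin m) F)
        : Matrix (Fin m ⊕ Fin m) (Fin m ⊕ Fin m) F) *ᵥ tau e P u' (bb 0) ∈ D' (σ 0) := by
      rw [← hσ 0]
      exact Submodule.mem_map.mpr ⟨_, mt 0 u', Matrix.toLin'_apply _ _⟩
    have ev : ((spT a₂ : Matrix.GeneralLinearGroup (Fin m ⊕ Fin m) F)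
        : Matrix (Fin m ⊕ Fin m) (Fin m ⊕ Fin m) F) *ᵥ tau e P u' (bb 0)
        = tau e P u' (bb 0) + κ' • tau e P u₁ (bb 0 + bb 1) := by
      rw [spT_mulVec, ha₂, tp, hf₂.bilinear.add_right, hbn, hbo 0 1 (by decide), add_zero,
        ← hφ, ← hκ']
    rw [ev] at i1
    have hσ0 : σ 0 = 1 := by
      by_contra hne
      have h5 := orthD (σ 0) 1 hne _ i1 (tau e P u' (bb 1)) (mt 1 u')
      rw [ωb.add_left, ωb.smul_left, tp, tp, hf₂.bilinear.add_left, hbo 0 1 (by decide), hbn,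
        hφ'] at h5
      have h6 : κ' * κ' = 0 := by linear_combination κ' * hκ' - h5
      exact hκ0 (mul_self_eq_zero.mp h6)
    rw [hσ0] at i1
    have h5 := orthD 1 0 (by decide) _ i1 (tau e P u₁ (bb 0)) (mt 0 u₁)
    rw [ωb.add_left, ωb.smul_left, tp, tp, hf₁.alternating, hbn, ← hφ] at h5
    have h6 : κ' = 0 := by
      rw [hκ']
      linear_combination h5
    exact hκ0 h6

end Cfsg.Agent.S5667
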