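import Cfsg.Statements.S5671
import Mathlib
import Cfsg.Agent.Lib.Helper9.Tensor3

set_option autoImplicit false
open Cfsg

namespace Cfsg.Agent.S5671

open Cfsg.Agent.Lib.Helper9.Refl (gl_inj)
open Cfsg.Agent.Lib.Helper9.Family (img_of_stab stab_of_maps)
open Cfsg.Agent.Lib.Helper9.Tensor3
open Cfsg.Agent.S5635 (tvG tvG_mulVec tvG_det mem_sl_iff)
open scoped Matrix Kronecker

section f4
variable {F : Type*} [Field F] [Fintype F] (hF : Fintype.card F = 4)
include hF

theorem f4_two : (2 : F) = 0 := by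
  have h := Nat.cast_card_eq_zero F
  rw [hF] at h
  have h' : (2 : F) ^ 2 = 0 := by
    have h4 : ((4 : ℕ) : F) = (2 : F) ^ 2 := by norm_num
    rw [← h4]
    exact h
  exact (pow_eq_zero_iff (by norm_num)).mp h'

theorem f4_cube (x : F) (hx : x ≠ 0) : x ^ 3 = 1 := by
  have h := FiniteField.pow_card_sub_one_eq_one x hx
  rw [hF] at h
  exact h

theorem f4_add_sq (a b : F) : (a + b) ^ 2 = a ^ 2 + b ^ 2 := by
  linear_combination (a * b) * f4_two hF

theorem f4_fix (x : F) (h : x = x ^ 2) : x = 0 ∨ x = 1 := by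
  have h1 : x * (x - 1) = 0 := by linear_combination -h
  rcases mul_eq_zero.mp h1 with h2 | h2
  · left
    exact h2
  · right
    linear_combination h2

theorem f4_omega : ∃ ω : F, ω + ω ^ 2 ≠ 0 := by
  classical
  have hcard : ({0, 1} : Finset F).card < Fintype.card F := by
    rw [hF]
    exact lt_of_le_of_lt Finset.card_le_two (by norm_num)
  obtain ⟨ω, hω⟩ : ∃ ω : F, ω ∉ ({0, 1} : Finset F) := by
    by_contra hcon
    have hall : ∀ ω : F, ω ∈ ({0, 1} : Finset F) := by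
      intro ω
      by_contra h
      exact hcon ⟨ω, h⟩
    have h1 : ({0, 1} : Finset F) = Finset.univ := Finset.eq_univ_iff_forall.mpr hall
    rw [h1, Finset.card_univ] at hcard
    exact lt_irrefl _ hcard
  refine ⟨ω, fun h => hω ?_⟩
  have h1 : ω * (ω + 1) = 0 := by linear_combination h
  simp only [Finset.mem_insert, Finset.mem_singleton]
  rcases mul_eq_zero.mp h1 with h2 | h2
  · left
    exact h2
  · right
    linear_combination h2 - f4_two hF

theorem f4_sum_sq {ι : Type*} (S : Finset ι) (a : ι → F) :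
    (∑ i ∈ S, a i) ^ 2 = ∑ i ∈ S, (a i) ^ 2 := by
  classical
  induction S using Finset.induction_on with
  | empty => simp
  | insert i S hi ih => rw [Finset.sum_insert hi, Finset.sum_insert hi, f4_add_sq hF, ih]

end f4

section unitary
variable {F : Type*} [Field F] [Fintype F] {κ : Type} [Fintype κ] [DecidableEq κ]

theorem u_add_right (hF : Fintype.card F = 4) (f : (κ → F) → (κ → F) → F)
    (hf : Cfsg.Geo.IsUnitaryFormPow 2 f) (v x y : κ → F) : f v (x + y) = f v x + f v y := by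
  rw [hf.herm v (x + y), hf.add_left, f4_add_sq hF, ← hf.herm, ← hf.herm]

theorem u_smul_right (f : (κ → F) → (κ → F) → F)
    (hf : Cfsg.Geo.IsUnitaryFormPow 2 f) (c : F) (v x : κ → F) :
    f v (c • x) = c ^ 2 * f v x := by
  rw [hf.herm v (c • x), hf.smul_left, mul_pow, ← hf.herm]

theorem u_zero_left (f : (κ → F) → (κ → F) → F)
    (hf : Cfsg.Geo.IsUnitaryFormPow 2 f) (x : κ → F) : f 0 x = 0 := by
  have h := hf.smul_left 0 0 x
  rw [zero_smul, zero_mul] at h
  exact h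

theorem u_zero_right (f : (κ → F) → (κ → F) → F)
    (hf : Cfsg.Geo.IsUnitaryFormPow 2 f) (x : κ → F) : f x 0 = 0 := by
  rw [hf.herm, u_zero_left f hf]
  ring

theorem u_self (hF : Fintype.card F = 4) (f : (κ → F) → (κ → F) → F)
    (hf : Cfsg.Geo.IsUnitaryFormPow 2 f) (x : κ → F) : f x x = 0 ∨ f x x = 1 :=
  f4_fix hF _ (hf.herm x x)

theorem u_sum_left (f : (κ → F) → (κ → F) → F) (hf : Cfsg.Geo.IsUnitaryFormPow 2 f)
    {ι : Type*} (S : Finset ι) (c : ι → F) (e : ι → κ → F) (x : κ → F) :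
    f (∑ a ∈ S, c a • e a) x = ∑ a ∈ S, c a * f (e a) x := by
  classical
  induction S using Finset.induction_on with
  | empty => simp [u_zero_left f hf]
  | insert a S ha ih =>
    rw [Finset.sum_insert ha, Finset.sum_insert ha, hf.add_left, hf.smul_left, ih]

theorem u_sum_right (hF : Fintype.card F = 4) (f : (κ → F) → (κ → F) → F)
    (hf : Cfsg.Geo.IsUnitaryFormPow 2 f)
    {ι : Type*} (S : Finset ι) (c : ι → F) (e : ι → κ → F) (x : κ → F) :
    f x (∑ a ∈ S, c a • e a) = ∑ a ∈ S, (c a) ^ 2 * f x (e a) := by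
  classical
  induction S using Finset.induction_on with
  | empty => simp [u_zero_right f hf]
  | insert a S ha ih =>
    rw [Finset.sum_insert ha, Finset.sum_insert ha, u_add_right hF f hf, u_smul_right f hf, ih]

theorem u_gram_repr (hF : Fintype.card F = 4) (f : (κ → F) → (κ → F) → F)
    (hf : Cfsg.Geo.IsUnitaryFormPow 2 f) (u u' : κ → F) :
    f u u' = u ⬝ᵥ (Cfsg.Geo.gramMatrix f *ᵥ (fun j => (u' j) ^ 2)) := by
  have hu : ∀ w : κ → F, w = ∑ i, w i • (Pi.single i (1 : F) : κ → F) := by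
    intro w
    funext j
    simp [Finset.sum_apply, Pi.single_apply]
  calc f u u' = f (∑ i, u i • (Pi.single i (1 : F) : κ → F))
        (∑ j, u' j • (Pi.single j (1 : F) : κ → F)) := by
        rw [← hu u, ← hu u']
    _ = ∑ i, u i * ∑ j, Cfsg.Geo.gramMatrix f i j * (u' j) ^ 2 := by
        rw [u_sum_left f hf]
        apply Finset.sum_congr rfl
        intro i _
        rw [u_sum_right hF f hf]
        congr 1
        apply Finset.sum_congr rfl
        intro j _
        rw [mul_comm]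
        rfl
    _ = u ⬝ᵥ (Cfsg.Geo.gramMatrix f *ᵥ (fun j => (u' j) ^ 2)) := rfl

theorem fog_eq2 {κ' : Type} [Fintype κ'] (G : Matrix κ' κ' F) (x y : κ' → F) :
    Cfsg.Geo.formOfGram (fun x : F => x ^ 2) G x y = x ⬝ᵥ (G *ᵥ (fun b => (y b) ^ 2)) := by
  unfold Cfsg.Geo.formOfGram
  simp only [dotProduct, Matrix.mulVec, Finset.mul_sum, mul_assoc]

theorem fog_pt2 (hF : Fintype.card F = 4) {a b : ℕ} (f₁ : (Fin a → F) → (Fin a → F) → F)
    (f₂ : (Fin b → F) → (Fin b → F) → F)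
    (h₁ : Cfsg.Geo.IsUnitaryFormPow 2 f₁) (h₂ : Cfsg.Geo.IsUnitaryFormPow 2 f₂)
    (u u' : Fin a → F) (v v' : Fin b → F) :
    Cfsg.Geo.formOfGram (fun x : F => x ^ 2)
      (Cfsg.Geo.gramMatrix f₁ ⊗ₖ Cfsg.Geo.gramMatrix f₂) (pt u v) (pt u' v')
      = f₁ u u' * f₂ v v' := by
  rw [fog_eq2]
  have h : (fun x : Fin a × Fin b => (pt u' v' x) ^ 2)
      = pt (fun i => (u' i) ^ 2) (fun j => (v' j) ^ 2) := by
    funext x
    simp only [pt]
    ring
  rw [h, kron_mulVec_pt, pt_dot, ← u_gram_repr hF f₁ h₁, ← u_gram_repr hF f₂ h₂]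

theorem herm_unitary (hF : Fintype.card F = 4) (n : ℕ) :
    Cfsg.Geo.IsUnitaryFormPow 2 (Cfsg.hermForm n F 2) := by
  refine ⟨?_, ?_, ?_, ?_⟩
  · intro x y v
    unfold Cfsg.hermForm
    rw [← Finset.sum_add_distrib]
    apply Finset.sum_congr rfl
    intro i _
    simp only [Pi.add_apply]
    ring
  · intro c x v
    unfold Cfsg.hermForm
    rw [Finset.mul_sum]
    apply Finset.sum_congr rfl
    intro i _
    simp only [Pi.smul_apply, smul_eq_mul]
    ring
  · intro v w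
    unfold Cfsg.hermForm
    rw [f4_sum_sq hF]
    apply Finset.sum_congr rfl
    intro i _
    have h4 : (v i) ^ 4 = v i := by
      have h := FiniteField.pow_card (v i)
      rw [hF] at h
      exact h
    calc v i * w i ^ 2 = w i ^ 2 * v i := by ring
      _ = w i ^ 2 * (v i) ^ 4 := by rw [h4]
      _ = (w i * v i ^ 2) ^ 2 := by ring
  · intro v hv
    have hj : ∃ j, v j ≠ 0 := by
      by_contra hcon
      apply hv
      funext j
      by_contra h
      exact hcon ⟨j, h⟩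
    obtain ⟨j, hj⟩ := hj
    refine ⟨⟨Pi.single j 1, ?_⟩, ⟨Pi.single j 1, ?_⟩⟩
    · unfold Cfsg.hermForm
      rw [Finset.sum_eq_single j]
      · rw [Pi.single_eq_same, one_mul]
        exact pow_ne_zero 2 hj
      · intro i _ hi
        rw [Pi.single_eq_of_ne hi, zero_mul]
      · intro h
        exact absurd (Finset.mem_univ j) h
    · unfold Cfsg.hermForm
      rw [Finset.sum_eq_single j]
      · rw [Pi.single_eq_same, one_pow, mul_one]
        exact hj
      · intro i _ hi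
        rw [Pi.single_eq_of_ne hi]
        ring
      · intro h
        exact absurd (Finset.mem_univ j) h

theorem norm_one_exists (hF : Fintype.card F = 4) (f : (κ → F) → (κ → F) → F)
    (hf : Cfsg.Geo.IsUnitaryFormPow 2 f) (x z : κ → F) (hxz : f z x ≠ 0) :
    ∃ α β : F, f (α • x + β • z) (α • x + β • z) = 1 := by
  rcases u_self hF f hf x with hx | hx
  · rcases u_self hF f hf z with hz | hz
    · obtain ⟨ω, hω⟩ := f4_omega hF
      refine ⟨1, ω * (f z x)⁻¹, ?_⟩
      rcases u_self hF f hf ((1 : F) • x + (ω * (f z x)⁻¹) • z) with h | h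
      · exfalso
        apply hω
        rw [hf.add_left, hf.smul_left, hf.smul_left, u_add_right hF f hf, u_add_right hF f hf,
          u_smul_right f hf, u_smul_right f hf, u_smul_right f hf, u_smul_right f hf, hx, hz,
          hf.herm x z] at h
        have h5 : (f z x)⁻¹ * f z x = 1 := inv_mul_cancel₀ hxz
        linear_combination h + (-ω - ω ^ 2 * (f z x)⁻¹ * f z x - ω ^ 2) * h5
      · exact h
    · refine ⟨0, 1, ?_⟩
      rw [zero_smul, one_smul, zero_add]
      exact hz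
  · refine ⟨1, 0, ?_⟩
    rw [zero_smul, one_smul, add_zero]
    exact hx

end unitary

section unitary2
variable {F : Type*} [Field F] [Fintype F]

theorem orthonormal_pair (hF : Fintype.card F = 4) {k : ℕ} (hk : 2 ≤ k)
    (f : (Fin k → F) → (Fin k → F) → F) (hf : Cfsg.Geo.IsUnitaryFormPow 2 f) :
    ∃ v₁ v₂ : Fin k → F, f v₁ v₁ = 1 ∧ f v₂ v₂ = 1 ∧ f v₂ v₁ = 0 ∧ f v₁ v₂ = 0 := by
  classical
  have h0 : 0 < k := by omega
  have h1 : 1 < k := by omega
  obtain ⟨x, hx⟩ : ∃ x : Fin k → F, x = Pi.single ⟨0, h0⟩ 1 := ⟨_, rfl⟩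
  have hx0 : x ≠ 0 := by
    intro h
    have h1 := congrFun h ⟨0, h0⟩
    rw [hx] at h1
    simp at h1
  obtain ⟨⟨z, hz⟩, -⟩ := hf.nondegenerate x hx0
  obtain ⟨α, β, hv₁⟩ := norm_one_exists hF f hf x z hz
  obtain ⟨v₁, hv₁d⟩ : ∃ v₁ : Fin k → F, v₁ = α • x + β • z := ⟨_, rfl⟩
  rw [← hv₁d] at hv₁
  have hp : ∀ y : Fin k → F, f (y - f y v₁ • v₁) v₁ = 0 := by
    intro y
    have h := hf.add_left (y - f y v₁ • v₁) (f y v₁ • v₁) v₁
    rw [sub_add_cancel, hf.smul_left, hv₁, mul_one] at h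
    linear_combination -h
  obtain ⟨y₀, hy₀⟩ : ∃ y₀ : Fin k → F, y₀ - f y₀ v₁ • v₁ ≠ 0 := by
    by_contra hcon
    have hall : ∀ y : Fin k → F, y = f y v₁ • v₁ := by
      intro y
      by_contra h
      exact hcon ⟨y, fun h' => h (sub_eq_zero.mp h')⟩
    have e0 := hall (Pi.single ⟨0, h0⟩ 1)
    have e1 := hall (Pi.single ⟨1, h1⟩ 1)
    have a0 := congrFun e0 ⟨0, h0⟩
    have a1 := congrFun e0 ⟨1, h1⟩
    have b1 := congrFun e1 ⟨1, h1⟩
    have hne : (⟨1, h1⟩ : Fin k) ≠ ⟨0, h0⟩ := by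
      intro h
      have := congrArg Fin.val h
      simp at this
    rw [Pi.smul_apply, smul_eq_mul, Pi.single_eq_same] at a0 b1
    rw [Pi.smul_apply, smul_eq_mul, Pi.single_eq_of_ne hne] at a1
    rcases mul_eq_zero.mp a1.symm with h | h
    · rw [h, zero_mul] at a0
      exact one_ne_zero a0
    · rw [h, mul_zero] at b1
      exact one_ne_zero b1
  obtain ⟨x₀, hx₀⟩ : ∃ x₀ : Fin k → F, x₀ = y₀ - f y₀ v₁ • v₁ := ⟨_, rfl⟩
  rw [← hx₀] at hy₀
  have hx₀v : f x₀ v₁ = 0 := by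
    rw [hx₀]
    exact hp y₀
  have hvx₀ : f v₁ x₀ = 0 := by
    rw [hf.herm, hx₀v]
    ring
  obtain ⟨⟨z', hz'⟩, -⟩ := hf.nondegenerate x₀ hy₀
  obtain ⟨z₀, hz₀⟩ : ∃ z₀ : Fin k → F, z₀ = z' - f z' v₁ • v₁ := ⟨_, rfl⟩
  have hz₀v : f z₀ v₁ = 0 := by
    rw [hz₀]
    exact hp z'
  have hz₀x : f z₀ x₀ ≠ 0 := by
    have h := hf.add_left (z' - f z' v₁ • v₁) (f z' v₁ • v₁) x₀
    rw [sub_add_cancel, hf.smul_left, hvx₀, mul_zero, add_zero] at h
    rw [hz₀, ← h]
    exact hz'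
  obtain ⟨α', β', hv₂⟩ := norm_one_exists hF f hf x₀ z₀ hz₀x
  have h21 : f (α' • x₀ + β' • z₀) v₁ = 0 := by
    rw [hf.add_left, hf.smul_left, hf.smul_left, hx₀v, hz₀v]
    ring
  refine ⟨v₁, α' • x₀ + β' • z₀, hv₁, hv₂, h21, ?_⟩
  rw [hf.herm, h21]
  ring

end unitary2

section transv
variable {F : Type*} [Field F] [Fintype F] {n : ℕ}

/-- the linear functional `x ↦ hermForm x a` -/
noncomputable def hL (a : Fin n → F) : Module.Dual F (Fin n → F) where
  toFun x := Cfsg.hermForm n F 2 x a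
  map_add' := fun x y => by
    unfold Cfsg.hermForm
    rw [← Finset.sum_add_distrib]
    apply Finset.sum_congr rfl
    intro i _
    simp only [Pi.add_apply]
    ring
  map_smul' := fun c x => by
    unfold Cfsg.hermForm
    rw [RingHom.id_apply, smul_eq_mul, Finset.mul_sum]
    apply Finset.sum_congr rfl
    intro i _
    simp only [Pi.smul_apply, smul_eq_mul]
    ring

/-- the unitary transvection along an isotropic vector -/
noncomputable def uT (a : Fin n → F) (ha : Cfsg.hermForm n F 2 a a = 0) :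
    Matrix.GeneralLinearGroup (Fin n) F :=
  tvG (hL a) a (by
    show 1 + Cfsg.hermForm n F 2 a a ≠ 0
    rw [ha, add_zero]
    exact one_ne_zero)

theorem uT_mulVec (a : Fin n → F) (ha : Cfsg.hermForm n F 2 a a = 0) (x : Fin n → F) :
    ((uT a ha : Matrix.GeneralLinearGroup (Fin n) F) : Matrix (Fin n) (Fin n) F) *ᵥ x
      = x + Cfsg.hermForm n F 2 x a • a := by
  rw [uT, tvG_mulVec]
  rfl

theorem uT_GU (hF : Fintype.card F = 4) (a : Fin n → F)
    (ha : Cfsg.hermForm n F 2 a a = 0) : uT a ha ∈ Cfsg.GU n F 2 := by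
  have hh := herm_unitary hF n
  intro u v
  show Cfsg.hermForm n F 2 (((uT a ha : Matrix.GeneralLinearGroup (Fin n) F)
      : Matrix (Fin n) (Fin n) F) *ᵥ u)
    (((uT a ha : Matrix.GeneralLinearGroup (Fin n) F)
      : Matrix (Fin n) (Fin n) F) *ᵥ v) = Cfsg.hermForm n F 2 u v
  rw [uT_mulVec, uT_mulVec, hh.add_left, hh.smul_left,
    u_add_right hF (Cfsg.hermForm n F 2) hh, u_add_right hF (Cfsg.hermForm n F 2) hh,
    u_smul_right (Cfsg.hermForm n F 2) hh, u_smul_right (Cfsg.hermForm n F 2) hh, ha,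
    hh.herm a v]
  linear_combination (Cfsg.hermForm n F 2 u a * (Cfsg.hermForm n F 2 v a) ^ 2) * f4_two hF

theorem uT_SL (a : Fin n → F) (ha : Cfsg.hermForm n F 2 a a = 0) :
    uT a ha ∈ Cfsg.Geo.specialLinear (Fin n) F := by
  rw [mem_sl_iff, uT, tvG_det]
  show 1 + Cfsg.hermForm n F 2 a a = 1
  rw [ha, add_zero]

end transv

/-- Let F be the field with 4 elements (q = 2) and n = 2 n₂ ≥ 13. Suppose the standard unitary form Σ u_i v_i² on F^n is similar, through P and e, to the tensor product of non-degenerate unitary forms f₁ on F^2 and f₂ on F^(n₂). Then the elements of SU_n(2) in the stabiliser of this tensor decomposition form a subgroup that is not maximal: some subgroup lies strictly between it and SU_n(2). -/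
theorem result {F : Type*} [Field F] [Fintype F] (n : ℕ) (hF : Fintype.card F = 4) (hn : 13 ≤ n) (n₂ : ℕ) (e : Fin n ≃ Fin 2 × Fin n₂) (P : Matrix.GeneralLinearGroup (Fin n) F) (f₁ : (Fin 2 → F) → (Fin 2 → F) → F) (f₂ : (Fin n₂ → F) → (Fin n₂ → F) → F) (hf₁ : Cfsg.Geo.IsUnitaryFormPow 2 f₁) (hf₂ : Cfsg.Geo.IsUnitaryFormPow 2 f₂) (hT : Cfsg.Geo.IsTensorFormStructure (fun x : F => x ^ 2) (Cfsg.hermForm n F 2) f₁ f₂ e P) : ∃ K : Subgroup (Matrix.GeneralLinearGroup (Fin n) F), Cfsg.Geo.tensorProductSubgroup 2 n₂ e P ⊓ (Cfsg.GU n F 2 ⊓ Cfsg.Geo.specialLinear (Fin n) F) < K ∧ K < (Cfsg.GU n F 2 ⊓ Cfsg.Geo.specialLinear (Fin n) F) := by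
  classical
  have h2 := f4_two hF
  obtain ⟨c, hc, hT'⟩ := hT
  have hh := herm_unitary hF n
  have tp : ∀ (u u' : Fin 2 → F) (v v' : Fin n₂ → F),
      Cfsg.hermForm n F 2 (tau e P u v) (tau e P u' v') = c * (f₁ u u' * f₂ v v') := by
    intro u u' v v'
    unfold tau
    rw [hT', fog_pt2 hF f₁ f₂ hf₁ hf₂]
  have hn₂ : 2 ≤ n₂ := by
    have h1 := Fintype.card_congr e
    simp only [Fintype.card_fin, Fintype.card_prod] at h1
    omega
  obtain ⟨ε₀, ε₁, e00, e11, e10, e01⟩ := orthonormal_pair hF (le_refl 2) f₁ hf₁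
  obtain ⟨v₁, v₂, n11, n22, n21, n12⟩ := orthonormal_pair hF hn₂ f₂ hf₂
  have hc1 : c = 1 := by
    have h1 := tp ε₀ ε₀ v₁ v₁
    rw [e00, n11, mul_one, mul_one] at h1
    rcases u_self hF _ hh (tau e P ε₀ v₁) with h | h
    · rw [h] at h1
      exact absurd h1.symm hc
    · rw [h] at h1
      exact h1.symm
  have tp' : ∀ (u u' : Fin 2 → F) (v v' : Fin n₂ → F),
      Cfsg.hermForm n F 2 (tau e P u v) (tau e P u' v') = f₁ u u' * f₂ v v' := by
    intro u u' v v'
    rw [tp, hc1, one_mul]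
  obtain ⟨E, hE⟩ : ∃ E : Fin 2 → (Fin 2 → F), E = ![ε₀, ε₁] := ⟨_, rfl⟩
  have hE0 : E 0 = ε₀ := by
    rw [hE]
    rfl
  have hE1 : E 1 = ε₁ := by
    rw [hE]
    rfl
  have hbn : ∀ l, f₁ (E l) (E l) = 1 := by
    intro l
    fin_cases l
    · show f₁ (E 0) (E 0) = 1
      rw [hE0]
      exact e00
    · show f₁ (E 1) (E 1) = 1
      rw [hE1]
      exact e11
  have hbo : ∀ l l', l ≠ l' → f₁ (E l) (E l') = 0 := by
    intro l l' hne
    fin_cases l <;> fin_cases l'
    · exact absurd rfl hne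
    · show f₁ (E 0) (E 1) = 0
      rw [hE0, hE1]
      exact e01
    · show f₁ (E 1) (E 0) = 0
      rw [hE0, hE1]
      exact e10
    · exact absurd rfl hne
  have hli : LinearIndependent F E := by
    rw [Fintype.linearIndependent_iff]
    intro g hg i
    have h1 : f₁ (∑ j, g j • E j) (E i) = 0 := by
      rw [hg]
      exact u_zero_left f₁ hf₁ _
    rw [u_sum_left f₁ hf₁, Finset.sum_eq_single i] at h1
    · rw [hbn, mul_one] at h1
      exact h1
    · intro j _ hj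
      rw [hbo j i hj, mul_zero]
    · intro h
      exact absurd (Finset.mem_univ i) h
  have hsp : ∀ u : Fin 2 → F, ∃ c₀ c₁ : F, u = c₀ • E 0 + c₁ • E 1 := by
    intro u
    have hcard : Fintype.card (Fin 2) = Module.finrank F (Fin 2 → F) := by
      rw [Module.finrank_fintype_fun_eq_card]
    refine ⟨(basisOfLinearIndependentOfCardEqFinrank hli hcard).repr u 0,
      (basisOfLinearIndependentOfCardEqFinrank hli hcard).repr u 1, ?_⟩
    have h := (basisOfLinearIndependentOfCardEqFinrank hli hcard).sum_repr u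
    rw [Fin.sum_univ_two, coe_basisOfLinearIndependentOfCardEqFinrank] at h
    exact h.symm
  obtain ⟨D', hD'⟩ : ∃ D' : Fin 2 → Submodule F (Fin n → F),
      D' = fun l => LinearMap.range (tauL e P (E l)) := ⟨_, rfl⟩
  have hmem : ∀ l x, x ∈ D' l ↔ ∃ v, tau e P (E l) v = x := by
    intro l x
    rw [hD']
    exact LinearMap.mem_range
  have mt : ∀ l v, tau e P (E l) v ∈ D' l := fun l v => (hmem l _).mpr ⟨v, rfl⟩
  have orthD : ∀ l l', l ≠ l' → ∀ x ∈ D' l, ∀ z ∈ D' l', Cfsg.hermForm n F 2 x z = 0 := by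
    intro l l' hne x hx z hz
    obtain ⟨v, rfl⟩ := (hmem l x).mp hx
    obtain ⟨v', rfl⟩ := (hmem l' z).mp hz
    rw [tp', hbo l l' hne]
    ring
  have uT_D : ∀ (a : Fin n → F) (ha : Cfsg.hermForm n F 2 a a = 0) (l₀ : Fin 2), a ∈ D' l₀ →
      ∀ l, ∀ x ∈ D' l, ((uT a ha : Matrix.GeneralLinearGroup (Fin n) F)
        : Matrix (Fin n) (Fin n) F) *ᵥ x ∈ D' l := by
    intro a ha l₀ haD l x hx
    rw [uT_mulVec]
    by_cases hl : l = l₀
    · rw [hl] at hx ⊢
      exact (D' l₀).add_mem hx ((D' l₀).smul_mem _ haD)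
    · rw [orthD l l₀ hl x hx a haD, zero_smul, add_zero]
      exact hx
  have hdbl : ∀ x : Fin n → F, x + x = 0 := by
    intro x
    rw [← two_smul F, h2, zero_smul]
  obtain ⟨a₁, ha₁⟩ : ∃ a₁, a₁ = tau e P (E 0) (v₁ + v₂) := ⟨_, rfl⟩
  have ha₁0 : Cfsg.hermForm n F 2 a₁ a₁ = 0 := by
    rw [ha₁, tp', hbn, hf₂.add_left, u_add_right hF f₂ hf₂, u_add_right hF f₂ hf₂, n11, n22,
      n21, n12]
    linear_combination h2
  have ha₁D : a₁ ∈ D' 0 := by
    rw [ha₁]
    exact mt 0 _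
  have g₁D : uT a₁ ha₁0 ∈ Cfsg.Geo.decompositionStabilizer D' := by
    show ∃ σ : Equiv.Perm (Fin 2), ∀ i, (D' i).map (Matrix.toLin'
      ((uT a₁ ha₁0 : Matrix.GeneralLinearGroup (Fin n) F)
        : Matrix (Fin n) (Fin n) F)) = D' (σ i)
    refine ⟨1, fun l => ?_⟩
    exact img_of_stab (D' l) (uT a₁ ha₁0)
      (stab_of_maps (D' l) (uT a₁ ha₁0) (uT_D a₁ ha₁0 0 ha₁D l))
  refine ⟨Cfsg.Geo.decompositionStabilizer D' ⊓
    (Cfsg.GU n F 2 ⊓ Cfsg.Geo.specialLinear (Fin n) F), ?_, ?_⟩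
  · apply SetLike.lt_iff_le_and_exists.mpr
    refine ⟨?_, uT a₁ ha₁0, ⟨g₁D, uT_GU hF a₁ ha₁0, uT_SL a₁ ha₁0⟩, ?_⟩
    · rintro g ⟨hten, hgS⟩
      refine ⟨?_, hgS⟩
      obtain ⟨A, B, hAB⟩ := tensor_act e P g hten
      have hiso : ∀ x y, Cfsg.hermForm n F 2
          ((g : Matrix (Fin n) (Fin n) F) *ᵥ x) ((g : Matrix (Fin n) (Fin n) F) *ᵥ y)
          = Cfsg.hermForm n F 2 x y := hgS.1
      have key : ∀ (u u' : Fin 2 → F) (v v' : Fin n₂ → F),
          f₁ ((A : Matrix (Fin 2) (Fin 2) F) *ᵥ u) ((A : Matrix (Fin 2) (Fin 2) F) *ᵥ u')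
            * f₂ ((B : Matrix (Fin n₂) (Fin n₂) F) *ᵥ v)
              ((B : Matrix (Fin n₂) (Fin n₂) F) *ᵥ v')
            = f₁ u u' * f₂ v v' := by
        intro u u' v v'
        have h1 := hiso (tau e P u v) (tau e P u' v')
        rw [hAB, hAB, tp', tp'] at h1
        exact h1
      have hμ : f₂ ((B : Matrix (Fin n₂) (Fin n₂) F) *ᵥ v₁)
          ((B : Matrix (Fin n₂) (Fin n₂) F) *ᵥ v₁) = 1 := by
        rcases u_self hF f₂ hf₂ ((B : Matrix (Fin n₂) (Fin n₂) F) *ᵥ v₁) with h | h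
        · exfalso
          have h1 := key ε₀ ε₀ v₁ v₁
          rw [h, mul_zero, e00, n11, mul_one] at h1
          exact zero_ne_one h1
        · exact h
      have hA : ∀ u u', f₁ ((A : Matrix (Fin 2) (Fin 2) F) *ᵥ u)
          ((A : Matrix (Fin 2) (Fin 2) F) *ᵥ u') = f₁ u u' := by
        intro u u'
        have h1 := key u u' v₁ v₁
        rw [hμ, n11, mul_one, mul_one] at h1
        exact h1
      have hsim : ∀ l, ∃ l' : Fin 2, ∃ s : F, s ≠ 0 ∧
          (A : Matrix (Fin 2) (Fin 2) F) *ᵥ E l = s • E l' := by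
        intro l
        obtain ⟨c₀, c₁, hcc⟩ := hsp ((A : Matrix (Fin 2) (Fin 2) F) *ᵥ E l)
        have h1 := hA (E l) (E l)
        rw [hbn, hcc, hf₁.add_left, hf₁.smul_left, hf₁.smul_left, u_add_right hF f₁ hf₁,
          u_add_right hF f₁ hf₁, u_smul_right f₁ hf₁, u_smul_right f₁ hf₁,
          u_smul_right f₁ hf₁, u_smul_right f₁ hf₁, hbn, hbn, hbo 0 1 (by decide),
          hbo 1 0 (by decide)] at h1
        by_cases h0 : c₀ = 0
        · refine ⟨1, c₁, ?_, ?_⟩
          · intro h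
            rw [h0, h] at h1
            norm_num at h1
          · rw [hcc, h0, zero_smul, zero_add]
        · by_cases h1' : c₁ = 0
          · refine ⟨0, c₀, h0, ?_⟩
            rw [hcc, h1', zero_smul, add_zero]
          · exfalso
            have hc0 := f4_cube hF c₀ h0
            have hc1' := f4_cube hF c₁ h1'
            have h10 : (1 : F) = 0 := by linear_combination h1 - hc0 - hc1'
            exact one_ne_zero h10
      choose π s hs hAπ using hsim
      have hinj : Function.Injective π := by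
        intro l l' hll
        by_contra hne
        have h1 := hA (E l) (E l')
        rw [hAπ l, hAπ l', hll, hf₁.smul_left, u_smul_right f₁ hf₁, hbn, hbo l l' hne] at h1
        exact mul_ne_zero (hs l) (mul_ne_zero (pow_ne_zero 2 (hs l')) one_ne_zero) h1
      show ∃ σ : Equiv.Perm (Fin 2), ∀ i, (D' i).map (Matrix.toLin'
        (g : Matrix (Fin n) (Fin n) F)) = D' (σ i)
      refine ⟨Equiv.ofBijective π ⟨hinj, Finite.surjective_of_injective hinj⟩, fun l => ?_⟩
      show (D' l).map (Matrix.toLin' (g : Matrix (Fin n) (Fin n) F)) = D' (π l)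
      ext x
      rw [Submodule.mem_map]
      constructor
      · rintro ⟨y, hy, rfl⟩
        obtain ⟨v, rfl⟩ := (hmem l y).mp hy
        rw [Matrix.toLin'_apply, hAB, hAπ l, tau_smul_left, ← tau_smul_right]
        exact mt _ _
      · intro hx
        obtain ⟨w, rfl⟩ := (hmem _ x).mp hx
        refine ⟨tau e P (E l) (((B⁻¹ : Matrix.GeneralLinearGroup (Fin n₂) F)
          : Matrix (Fin n₂) (Fin n₂) F) *ᵥ ((s l)⁻¹ • w)), mt _ _, ?_⟩
        rw [Matrix.toLin'_apply, hAB, hAπ l, tau_smul_left, ← tau_smul_right,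
          Matrix.mulVec_mulVec, ← Units.val_mul, mul_inv_cancel, Units.val_one,
          Matrix.one_mulVec, smul_smul, mul_inv_cancel₀ (hs l), one_smul]
    · rintro ⟨hten, -⟩
      obtain ⟨A, B, hAB⟩ := tensor_act e P (uT a₁ ha₁0) hten
      have fx : ((uT a₁ ha₁0 : Matrix.GeneralLinearGroup (Fin n) F)
          : Matrix (Fin n) (Fin n) F) *ᵥ tau e P (E 1) v₁ = tau e P (E 1) v₁ := by
        rw [uT_mulVec, ha₁, tp', hbo 1 0 (by decide), zero_mul, zero_smul, add_zero]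
      have mv : ((uT a₁ ha₁0 : Matrix.GeneralLinearGroup (Fin n) F)
          : Matrix (Fin n) (Fin n) F) *ᵥ tau e P (E 0) v₁ = tau e P (E 0) v₂ := by
        rw [uT_mulVec, ha₁, tp', hbn, u_add_right hF f₂ hf₂, n11, n12, one_mul, add_zero,
          one_smul, tau_add_right, ← add_assoc, hdbl, zero_add]
      rw [hAB] at fx mv
      have t1 := tau_inj e P _ _ _ _ fx
      have t2 := tau_inj e P _ _ _ _ mv
      have hE1ne : E 1 ≠ 0 := by
        intro h
        have h1 := hbn 1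
        rw [h, u_zero_left f₁ hf₁] at h1
        exact zero_ne_one h1
      have hE0ne : E 0 ≠ 0 := by
        intro h
        have h1 := hbn 0
        rw [h, u_zero_left f₁ hf₁] at h1
        exact zero_ne_one h1
      obtain ⟨i₀, hi₀⟩ : ∃ i, E 1 i ≠ 0 := Function.ne_iff.mp hE1ne
      obtain ⟨i₁, hi₁⟩ : ∃ i, E 0 i ≠ 0 := Function.ne_iff.mp hE0ne
      obtain ⟨w, hw⟩ : ∃ w, w = (B : Matrix (Fin n₂) (Fin n₂) F) *ᵥ v₁ := ⟨_, rfl⟩
      rw [← hw] at t1 t2
      have hv1 : v₁ = (((A : Matrix (Fin 2) (Fin 2) F) *ᵥ E 1) i₀ * (E 1 i₀)⁻¹) • w := by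
        funext j
        have h5 := congrFun t1 (i₀, j)
        simp only [pt] at h5
        have h6 : v₁ j = (E 1 i₀)⁻¹ * (E 1 i₀ * v₁ j) := by
          rw [← mul_assoc, inv_mul_cancel₀ hi₀, one_mul]
        rw [Pi.smul_apply, smul_eq_mul, h6, ← h5]
        ring
      have hv2 : v₂ = (((A : Matrix (Fin 2) (Fin 2) F) *ᵥ E 0) i₁ * (E 0 i₁)⁻¹) • w := by
        funext j
        have h5 := congrFun t2 (i₁, j)
        simp only [pt] at h5
        have h6 : v₂ j = (E 0 i₁)⁻¹ * (E 0 i₁ * v₂ j) := by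
          rw [← mul_assoc, inv_mul_cancel₀ hi₁, one_mul]
        rw [Pi.smul_apply, smul_eq_mul, h6, ← h5]
        ring
      obtain ⟨γ, hγ⟩ : ∃ γ : F, v₁ = γ • w := ⟨_, hv1⟩
      obtain ⟨γ', hγ'⟩ : ∃ γ' : F, v₂ = γ' • w := ⟨_, hv2⟩
      have k21 := n21
      have k1 := n11
      have k2 := n22
      rw [hγ', hγ, hf₂.smul_left, u_smul_right f₂ hf₂] at k21
      rw [hγ, hf₂.smul_left, u_smul_right f₂ hf₂] at k1
      rw [hγ', hf₂.smul_left, u_smul_right f₂ hf₂] at k2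
      have h10 : (1 : F) = 0 := by
        linear_combination (-(γ' * (γ' ^ 2 * f₂ w w))) * k1 - k2
          + (γ * γ' ^ 2 * f₂ w w) * k21
      exact one_ne_zero h10
  · apply SetLike.lt_iff_le_and_exists.mpr
    obtain ⟨a₂, ha₂⟩ : ∃ a₂, a₂ = tau e P (E 0) v₁ + tau e P (E 1) v₁ := ⟨_, rfl⟩
    have ha₂0 : Cfsg.hermForm n F 2 a₂ a₂ = 0 := by
      rw [ha₂, hh.add_left, u_add_right hF (Cfsg.hermForm n F 2) hh,
        u_add_right hF (Cfsg.hermForm n F 2) hh, tp', tp', tp', tp', hbn, hbn,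
        hbo 0 1 (by decide), hbo 1 0 (by decide), n11]
      linear_combination h2
    refine ⟨inf_le_right, uT a₂ ha₂0, ⟨uT_GU hF a₂ ha₂0, uT_SL a₂ ha₂0⟩, ?_⟩
    rintro ⟨⟨σ, hσ⟩, -⟩
    have ev1 : ((uT a₂ ha₂0 : Matrix.GeneralLinearGroup (Fin n) F)
        : Matrix (Fin n) (Fin n) F) *ᵥ tau e P (E 0) v₁ = tau e P (E 1) v₁ := by
      rw [uT_mulVec, ha₂, u_add_right hF (Cfsg.hermForm n F 2) hh, tp', tp', hbn,
        hbo 0 1 (by decide), n11, zero_mul, add_zero, one_mul, one_smul, ← add_assoc, hdbl,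
        zero_add]
    have ev2 : ((uT a₂ ha₂0 : Matrix.GeneralLinearGroup (Fin n) F)
        : Matrix (Fin n) (Fin n) F) *ᵥ tau e P (E 0) v₂ = tau e P (E 0) v₂ := by
      rw [uT_mulVec, ha₂, u_add_right hF (Cfsg.hermForm n F 2) hh, tp', tp', n21, mul_zero,
        mul_zero, add_zero, zero_smul, add_zero]
    have i1 : tau e P (E 1) v₁ ∈ D' (σ 0) := by
      rw [← ev1, ← hσ 0]
      exact Submodule.mem_map.mpr ⟨_, mt 0 v₁, Matrix.toLin'_apply _ _⟩
    have i2 : tau e P (E 0) v₂ ∈ D' (σ 0) := by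
      rw [← ev2, ← hσ 0]
      exact Submodule.mem_map.mpr ⟨_, mt 0 v₂, Matrix.toLin'_apply _ _⟩
    have nn1 : Cfsg.hermForm n F 2 (tau e P (E 1) v₁) (tau e P (E 1) v₁) = 1 := by
      rw [tp', hbn, n11, mul_one]
    have nn2 : Cfsg.hermForm n F 2 (tau e P (E 0) v₂) (tau e P (E 0) v₂) = 1 := by
      rw [tp', hbn, n22, mul_one]
    by_cases hσ0 : σ 0 = 1
    · rw [hσ0] at i2
      have h5 := orthD 0 1 (by decide) _ (mt 0 v₂) _ i2
      rw [nn2] at h5
      exact one_ne_zero h5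
    · have h5 := orthD (σ 0) 1 hσ0 _ i1 _ (mt 1 v₁)
      rw [nn1] at h5
      exact one_ne_zero h5

end Cfsg.Agent.S5671
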