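import Cfsg.Statements.S5676
import Mathlib
import Cfsg.Agent.Lib.Helper9.Refl

set_option autoImplicit false
open Cfsg

namespace Cfsg.Agent.S5676

open Cfsg.Agent.Lib.Helper9.Frame3
open Cfsg.Agent.Lib.Helper9.Refl

section qodd
variable {F : Type*} [Field F] (m : ℕ)

theorem qodd_smul (c : F) (v : Unit ⊕ (Fin m ⊕ Fin m) → F) :
    Cfsg.quadFormOdd m F (c • v) = c ^ 2 * Cfsg.quadFormOdd m F v := by
  unfold Cfsg.quadFormOdd
  simp only [Pi.smul_apply, smul_eq_mul, mul_add, Finset.mul_sum]
  congr 1
  · ring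
  · apply Finset.sum_congr rfl
    intro i _
    ring

theorem qodd_polar (x y : Unit ⊕ (Fin m ⊕ Fin m) → F) :
    QuadraticMap.polar (Cfsg.quadFormOdd m F) x y
      = 2 * x (.inl ()) * y (.inl ())
        + ∑ i : Fin m, (x (.inr (.inl i)) * y (.inr (.inr i))
          + y (.inr (.inl i)) * x (.inr (.inr i))) := by
  unfold QuadraticMap.polar Cfsg.quadFormOdd
  simp only [Pi.add_apply]
  have e : ∀ i : Fin m, (x (.inr (.inl i)) + y (.inr (.inl i)))
      * (x (.inr (.inr i)) + y (.inr (.inr i)))
      = x (.inr (.inl i)) * x (.inr (.inr i)) + y (.inr (.inl i)) * y (.inr (.inr i))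
        + (x (.inr (.inl i)) * y (.inr (.inr i)) + y (.inr (.inl i)) * x (.inr (.inr i))) := by
    intro i
    ring
  simp only [e, Finset.sum_add_distrib]
  ring

theorem qodd_bil : Cfsg.Geo.IsBilinearForm (QuadraticMap.polar (Cfsg.quadFormOdd m F)) := by
  refine ⟨?_, ?_, ?_, ?_⟩
  · intro x y v
    simp only [qodd_polar, Pi.add_apply]
    rw [add_add_add_comm, ← Finset.sum_add_distrib]
    congr 1
    · ring
    · apply Finset.sum_congr rfl
      intro i _
      ring
  · intro c x v
    simp only [qodd_polar, Pi.smul_apply, smul_eq_mul]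
    rw [mul_add, Finset.mul_sum]
    congr 1
    · ring
    · apply Finset.sum_congr rfl
      intro i _
      ring
  · intro v x y
    simp only [qodd_polar, Pi.add_apply]
    rw [add_add_add_comm, ← Finset.sum_add_distrib]
    congr 1
    · ring
    · apply Finset.sum_congr rfl
      intro i _
      ring
  · intro c v x
    simp only [qodd_polar, Pi.smul_apply, smul_eq_mul]
    rw [mul_add, Finset.mul_sum]
    congr 1
    · ring
    · apply Finset.sum_congr rfl
      intro i _
      ring

theorem qodd_nondeg (h2 : (2 : F) ≠ 0) :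
    Cfsg.Geo.IsNondegenerateForm (QuadraticMap.polar (Cfsg.quadFormOdd m F)) := by
  have key : ∀ v : Unit ⊕ (Fin m ⊕ Fin m) → F, v ≠ 0 →
      ∃ x, QuadraticMap.polar (Cfsg.quadFormOdd m F) x v ≠ 0 := by
    intro v hv
    have hj : ∃ j, v j ≠ 0 := by
      by_contra hcon
      push_neg at hcon
      exact hv (funext hcon)
    obtain ⟨j, hj⟩ := hj
    rcases j with ⟨⟩ | i | i
    · refine ⟨Pi.single (Sum.inl ()) 1, ?_⟩
      rw [qodd_polar]
      simp only [Pi.single_apply, reduceCtorEq, if_false, zero_mul, mul_zero, add_zero,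
        Finset.sum_const_zero, if_true, mul_one]
      exact mul_ne_zero h2 hj
    · refine ⟨Pi.single (Sum.inr (Sum.inr i)) 1, ?_⟩
      rw [qodd_polar]
      simp only [Pi.single_apply, reduceCtorEq, if_false, zero_mul, mul_zero, zero_add,
        Sum.inr.injEq, mul_ite, mul_one, Finset.sum_ite_eq', Finset.mem_univ, if_true]
      exact hj
    · refine ⟨Pi.single (Sum.inr (Sum.inl i)) 1, ?_⟩
      rw [qodd_polar]
      simp only [Pi.single_apply, reduceCtorEq, if_false, zero_mul, mul_zero, zero_add, add_zero,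
        Sum.inr.injEq, Sum.inl.injEq, ite_mul, one_mul, Finset.sum_ite_eq', Finset.mem_univ,
        if_true]
      exact hj
  intro v hv
  obtain ⟨x, hx⟩ := key v hv
  refine ⟨⟨x, hx⟩, ⟨x, ?_⟩⟩
  rw [QuadraticMap.polar_comm]
  exact hx

end qodd

/-- Let F be the field with 3 elements, m ≥ 6, Q the standard quadratic form on F^(2m+1) and Ω the commutator subgroup of its isometry group. Let W be a 2-dimensional subspace on which the polar form is non-degenerate and which contains a line on which Q vanishes. Then the elements of Ω stabilising W form a subgroup that is not maximal: some subgroup lies strictly between it and Ω. -/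
theorem result {F : Type*} [Field F] [Fintype F] (hq : Fintype.card F = 3) (m : ℕ) (hm : 6 ≤ m) (W : Submodule F (Unit ⊕ (Fin m ⊕ Fin m) → F)) (hdim : Module.finrank F W = 2) (hW : Cfsg.Geo.IsNondegenerateOn (QuadraticMap.polar (Cfsg.quadFormOdd m F)) W) (hplus : Cfsg.Geo.IsPlusTypeOn (Cfsg.quadFormOdd m F) W) : ∃ K : Subgroup (Matrix.GeneralLinearGroup (Unit ⊕ (Fin m ⊕ Fin m)) F), Cfsg.Geo.subspaceStabilizer W ⊓ Cfsg.Geo.omegaGL (Cfsg.quadFormOdd m F) < K ∧ K < Cfsg.Geo.omegaGL (Cfsg.quadFormOdd m F) := by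
  have h8 : 8 ≤ Fintype.card (Unit ⊕ (Fin m ⊕ Fin m)) := by
    simp only [Fintype.card_sum, Fintype.card_unit, Fintype.card_fin]
    omega
  exact plane3_core (Cfsg.quadFormOdd m F) hq (qodd_smul m) (qodd_bil m)
    (qodd_nondeg m (f3_two_ne hq)) h8 W hdim hW hplus

end Cfsg.Agent.S5676
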