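import Cfsg.Statements.S5678
import Mathlib
import Cfsg.Agent.Lib.Helper9.Frame3

set_option autoImplicit false
open Cfsg

namespace Cfsg.Agent.S5678

open Cfsg.Agent.Lib.Helper9.Frame3

section qodd
variable {F : Type*} [Field F] (m : ℕ)

theorem qodd_smul (c : F) (v : Unit ⊕ (Fin m ⊕ Fin m) → F) :
    Cfsg.quadFormOdd m F (c • v) = c ^ 2 * Cfsg.quadFormOdd m F v := by
  unfold Cfsg.quadFormOdd
  simp only [Pi.smul_apply, smul_eq_mul, mul_add, Finset.mul_sum]
  congr 1
  · ring
  · apply Finset.sum_congr rfl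
    intro i _
    ring

theorem qodd_polar (x y : Unit ⊕ (Fin m ⊕ Fin m) → F) :
    QuadraticMap.polar (Cfsg.quadFormOdd m F) x y
      = 2 * x (.inl ()) * y (.inl ())
        + ∑ i : Fin m, (x (.inr (.inl i)) * y (.inr (.inr i))
          + y (.inr (.inl i)) * x (.inr (.inr i))) := by
  unfold QuadraticMap.polar Cfsg.quadFormOdd
  simp only [Pi.add_apply]
  have e : ∀ i : Fin m, (x (.inr (.inl i)) + y (.inr (.inl i)))
      * (x (.inr (.inr i)) + y (.inr (.inr i)))
      = x (.inr (.inl i)) * x (.inr (.inr i)) + y (.inr (.inl i)) * y (.inr (.inr i))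
        + (x (.inr (.inl i)) * y (.inr (.inr i)) + y (.inr (.inl i)) * x (.inr (.inr i))) := by
    intro i
    ring
  simp only [e, Finset.sum_add_distrib]
  ring

theorem qodd_bil : Cfsg.Geo.IsBilinearForm (QuadraticMap.polar (Cfsg.quadFormOdd m F)) := by
  refine ⟨?_, ?_, ?_, ?_⟩
  · intro x y v
    simp only [qodd_polar, Pi.add_apply]
    rw [add_add_add_comm, ← Finset.sum_add_distrib]
    congr 1
    · ring
    · apply Finset.sum_congr rfl
      intro i _
      ring
  · intro c x v
    simp only [qodd_polar, Pi.smul_apply, smul_eq_mul]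
    rw [mul_add, Finset.mul_sum]
    congr 1
    · ring
    · apply Finset.sum_congr rfl
      intro i _
      ring
  · intro v x y
    simp only [qodd_polar, Pi.add_apply]
    rw [add_add_add_comm, ← Finset.sum_add_distrib]
    congr 1
    · ring
    · apply Finset.sum_congr rfl
      intro i _
      ring
  · intro c v x
    simp only [qodd_polar, Pi.smul_apply, smul_eq_mul]
    rw [mul_add, Finset.mul_sum]
    congr 1
    · ring
    · apply Finset.sum_congr rfl
      intro i _
      ring

end qodd

/-- Let F be the field with 3 elements, m ≥ 6, Q the standard quadratic form on F^(2m+1) and Ω the commutator subgroup of its isometry group. Let D be a decomposition of F^(2m+1) into t pairwise orthogonal, pairwise Q-isometric 3-dimensional subspaces on which the polar form is non-degenerate. Then the elements of Ω permuting the members of D form a subgroup that is not maximal: some subgroup lies strictly between it and Ω. -/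
theorem result {F : Type*} [Field F] [Fintype F] (hq : Fintype.card F = 3) (m : ℕ) (hm : 6 ≤ m) {t : ℕ} (D : Fin t → Submodule F (Unit ⊕ (Fin m ⊕ Fin m) → F)) (hD : Cfsg.Geo.IsOrthogonalMDecomposition (Cfsg.quadFormOdd m F) 3 D) : ∃ K : Subgroup (Matrix.GeneralLinearGroup (Unit ⊕ (Fin m ⊕ Fin m)) F), Cfsg.Geo.decompositionStabilizer D ⊓ Cfsg.Geo.omegaGL (Cfsg.quadFormOdd m F) < K ∧ K < Cfsg.Geo.omegaGL (Cfsg.quadFormOdd m F) := by
  have hsm : ∀ (c : F) (v : Unit ⊕ (Fin m ⊕ Fin m) → F),
      Cfsg.quadFormOdd m F (c • v) = c ^ 2 * Cfsg.quadFormOdd m F v := qodd_smul m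
  have hbil : Cfsg.Geo.IsBilinearForm (QuadraticMap.polar (Cfsg.quadFormOdd m F)) := qodd_bil m
  have h2 : 2 ≤ t := hD.decomp.decomp.two_le
  obtain ⟨ε, hε0, hfr⟩ := frame3 _ hq hsm hbil (D ⟨0, by omega⟩)
    (hD.decomp.decomp.finrank_eq _) (hD.decomp.nondegenerate _)
  have hcard : 13 ≤ Fintype.card (Unit ⊕ (Fin m ⊕ Fin m)) := by
    simp only [Fintype.card_sum, Fintype.card_unit, Fintype.card_fin]
    omega
  exact frame_main _ hq hsm hbil (by norm_num) (by norm_num) hcard D hD ε hε0 ⟨_, hfr⟩

end Cfsg.Agent.S5678
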