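import Cfsg.Statements.S5686
import Mathlib
import Cfsg.Agent.Lib.Helper9.Family

set_option autoImplicit false
open Cfsg

namespace Cfsg.Agent.S5686

open Cfsg.Agent.Lib.Helper9.Frame3
open Cfsg.Agent.Lib.Helper9.Refl
open Cfsg.Agent.Lib.Helper9.Family
open scoped Matrix

/-- Let F be a finite field with q elements, n ≥ 13 even, Q a non-degenerate quadratic form on F^n of plus type (some subspace of dimension n/2 is totally singular), and Ω the commutator subgroup of the isometry group of Q, viewed inside GL_n(F). The elements of Ω stabilising a subspace of dimension n/2 − 1 on which Q vanishes form a subgroup that is not maximal: some subgroup lies strictly between it and Ω. -/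
theorem result {F : Type*} [Field F] [Fintype F] {n : ℕ} (hn : 13 ≤ n) (heven : Even n) (Q : (Fin n → F) → F) (hQ : Cfsg.Geo.IsNondegenerateQuadraticForm Q) (hplus : Cfsg.Geo.IsPlusTypeOn Q ⊤) (W : Submodule F (Fin n → F)) (hW : Cfsg.Geo.IsTotallySingularQuad Q W) (hdim : 2 * (Module.finrank F W + 1) = n) : ∃ K : Subgroup (Matrix.GeneralLinearGroup (Fin n) F), Cfsg.Geo.subspaceStabilizer W ⊓ Cfsg.Geo.omegaGL Q < K ∧ K < Cfsg.Geo.omegaGL Q := by
  have hsm := hQ.smul
  have hbil := hQ.polar_bilinear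
  have hnd := hQ.nondegenerate
  obtain ⟨m, hmdef⟩ : ∃ m, m = Module.finrank F W + 1 := ⟨_, rfl⟩
  have hWd : Module.finrank F W + 1 = m := hmdef.symm
  have hm : Fintype.card (Fin n) = 2 * m := by
    rw [Fintype.card_fin]
    omega
  obtain ⟨U₀, -, hU₀, hU₀d⟩ := hplus
  have hU₀d' : Module.finrank F U₀ = m := by
    rw [finrank_top, Module.finrank_fintype_fun_eq_card, Fintype.card_fin] at hU₀d
    omega
  have hf := finrank_inf_perp Q hbil hnd U₀ W
  rw [mts_perp Q hbil hnd U₀ hU₀ (by omega)] at hf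
  have hlt : U₀ ⊓ W < U₀ ⊓ perp Q hbil W := by
    apply lt_of_le_of_ne (inf_le_inf_left U₀ (ts_le_perp Q hbil W hW))
    intro h
    rw [h] at hf
    omega
  obtain ⟨u, hu, huW⟩ := SetLike.exists_of_lt hlt
  have huW' : u ∉ W := fun h => huW ⟨hu.1, h⟩
  have hWu : ∀ w ∈ W, QuadraticMap.polar Q w u = 0 :=
    fun w hw => (mem_perp Q hbil W u).mp hu.2 w hw
  have qu : Q u = 0 := hU₀ u hu.1
  obtain ⟨U₁, hU₁def⟩ : ∃ U₁, U₁ = W ⊔ Submodule.span F {u} := ⟨_, rfl⟩
  have hWU₁ : W ≤ U₁ := by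
    rw [hU₁def]
    exact le_sup_left
  have huU₁ : u ∈ U₁ := by
    rw [hU₁def]
    exact Submodule.mem_sup_right (Submodule.mem_span_singleton_self u)
  have hU₁ : Cfsg.Geo.IsTotallySingularQuad Q U₁ := by
    intro y hy
    rw [hU₁def] at hy
    obtain ⟨w, hw, x', hx', rfl⟩ := Submodule.mem_sup.mp hy
    obtain ⟨c, rfl⟩ := Submodule.mem_span_singleton.mp hx'
    rw [Q_add Q, hW w hw, hsm, qu, hbil.smul_right, hWu w hw]
    ring
  have hU₁d : Module.finrank F U₁ = m := by
    have hlt' : W < U₁ := by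
      apply lt_of_le_of_ne hWU₁
      intro h
      apply huW'
      rw [h]
      exact huU₁
    have h1 := Submodule.finrank_lt_finrank_of_lt hlt'
    have h2 := ts_finrank_le Q hbil hnd U₁ hU₁
    omega
  have hWd2 : 2 ≤ Module.finrank F W := by omega
  have hli2 : LinearIndependent F
      (fun i : Fin 2 => ((Module.finBasis F W) (Fin.castLE hWd2 i) : Fin n → F)) :=
    ((Module.finBasis F W).linearIndependent.comp _ (Fin.castLE_injective hWd2)).map'
      W.subtype (Submodule.ker_subtype W)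
  obtain ⟨E, hE⟩ : ∃ E : Fin 3 → Fin n → F, E = Fin.cons u
      (fun i : Fin 2 => ((Module.finBasis F W) (Fin.castLE hWd2 i) : Fin n → F)) := ⟨_, rfl⟩
  have hli3 : LinearIndependent F E := by
    rw [hE]
    apply hli2.fin_cons
    intro h
    apply huW'
    refine (Submodule.span_le.mpr ?_) h
    rintro _ ⟨i, rfl⟩
    exact ((Module.finBasis F W) _).2
  have hE0 : E 0 = u := by
    rw [hE]
    rfl
  have hE1 : E 1 ∈ W := by
    rw [hE]
    exact ((Module.finBasis F W) (Fin.castLE hWd2 0)).2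
  have hE2 : E 2 ∈ W := by
    rw [hE]
    exact ((Module.finBasis F W) (Fin.castLE hWd2 1)).2
  have hEU : ∀ j, E j ∈ U₁ := by
    intro j
    fin_cases j
    · show E 0 ∈ U₁
      rw [hE0]
      exact huU₁
    · exact hWU₁ hE1
    · exact hWU₁ hE2
  obtain ⟨f₁', h1a, h1b⟩ := dual_exists Q hbil hnd E hli3 1
  obtain ⟨f₂', h2a, h2b⟩ := dual_exists Q hbil hnd E hli3 2
  have adj : ∀ (i j : Fin 3) (f : Fin n → F),
      QuadraticMap.polar Q (E j) (f - Q f • E i) = QuadraticMap.polar Q (E j) f := by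
    intro i j f
    rw [polar_sub_right Q hbil, hbil.smul_right, ts_polar Q U₁ hU₁ _ _ (hEU j) (hEU i),
      mul_zero, sub_zero]
  obtain ⟨⟨g₁, hg₁Ω, hg₁S, hg₁e⟩, -, ⟨g₂, hg₂Ω, hg₂S⟩⟩ := fam_core Q hsm hbil U₁ hU₁
    (E 1) (E 2) (E 0) (f₁' - Q f₁' • E 1) (f₂' - Q f₂' • E 2) (hEU 1) (hEU 2) (hEU 0)
    (singularize Q hsm hbil (E 1) f₁' (hU₁ _ (hEU 1)) h1a)
    (singularize Q hsm hbil (E 2) f₂' (hU₁ _ (hEU 2)) h2a)
    (by rw [adj]; exact h1a) (by rw [adj]; exact h1b 2 (by decide))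
    (by rw [adj]; exact h1b 0 (by decide)) (by rw [adj]; exact h2b 1 (by decide))
    (by rw [adj]; exact h2a) (by rw [adj]; exact h2b 0 (by decide))
  refine ⟨Cfsg.Geo.subspaceStabilizer U₁ ⊓ Cfsg.Geo.omegaGL Q, ?_, ?_⟩
  · apply SetLike.lt_iff_le_and_exists.mpr
    refine ⟨?_, g₁, ⟨hg₁S, hg₁Ω⟩, ?_⟩
    · rintro g ⟨hgW, hgΩ⟩
      refine ⟨?_, hgΩ⟩
      have hiW : img g W = W := img_of_stab W g hgW
      have hgi := omega_mem_isom Q g hgΩ
      have hfd := img_finrank g U₁
      have hWle : W ≤ img g U₁ := by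
        rw [← hiW]
        exact img_mono g hWU₁
      have hpar := omega_parity Q hbil hsm hnd m hm U₁ hU₁ hU₁d g hgΩ
      by_cases heq : img g U₁ = U₁
      · exact stab_of_img U₁ g heq
      · exfalso
        have hinf := mts_inf m W U₁ (img g U₁) hWd hU₁d (by rw [hfd]; exact hU₁d) hWU₁ hWle
          (Ne.symm heq)
        rw [hinf] at hpar
        omega
    · rintro ⟨hgW, -⟩
      have h5 := (stab_maps W g₁ hgW (E 1)).mp hE1
      rw [hg₁e, hE0] at h5
      apply huW'
      have h6 : u = E 1 - (E 1 - u) := by abel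
      rw [h6]
      exact W.sub_mem hE1 h5
  · apply SetLike.lt_iff_le_and_exists.mpr
    exact ⟨inf_le_right, g₂, hg₂Ω, fun h => hg₂S h.1⟩

end Cfsg.Agent.S5686
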