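import Cfsg.Statements.S5698
import Mathlib
import Cfsg.Agent.Lib.Helper9.Family

set_option autoImplicit false
open Cfsg

namespace Cfsg.Agent.S5698

open Cfsg.Agent.Lib.Helper9.Frame3
open Cfsg.Agent.Lib.Helper9.Refl
open Cfsg.Agent.Lib.Helper9.Family
open scoped Matrix

/-- Let F be a finite field with q elements, n ≥ 13 even, Q a non-degenerate quadratic form on F^n of plus type (some subspace of dimension n/2 is totally singular), and Ω the commutator subgroup of the isometry group of Q, viewed inside GL_n(F). Suppose n/2 is odd and let D be a decomposition of F^n into two complementary subspaces of dimension n/2 on each of which Q vanishes. Then the elements of Ω preserving or interchanging the two subspaces form a subgroup that is not maximal: some subgroup lies strictly between it and Ω. -/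
theorem result {F : Type*} [Field F] [Fintype F] {n : ℕ} (hn : 13 ≤ n) (heven : Even n) (Q : (Fin n → F) → F) (hQ : Cfsg.Geo.IsNondegenerateQuadraticForm Q) (hplus : Cfsg.Geo.IsPlusTypeOn Q ⊤) (k : ℕ) (hk : 2 * k = n) (hko : Odd k) (D : Fin 2 → Submodule F (Fin n → F)) (hD : Cfsg.Geo.IsMDecomposition k D) (hts : ∀ i, Cfsg.Geo.IsTotallySingularQuad Q (D i)) : ∃ K : Subgroup (Matrix.GeneralLinearGroup (Fin n) F), Cfsg.Geo.decompositionStabilizer D ⊓ Cfsg.Geo.omegaGL Q < K ∧ K < Cfsg.Geo.omegaGL Q := by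
  have hsm := hQ.smul
  have hbil := hQ.polar_bilinear
  have hnd := hQ.nondegenerate
  have hm : Fintype.card (Fin n) = 2 * k := by
    rw [Fintype.card_fin]
    omega
  have hd0 := hD.finrank_eq 0
  have hd1 := hD.finrank_eq 1
  have hdisj : D 0 ⊓ D 1 = ⊥ :=
    disjoint_iff.mp (hD.indep.pairwiseDisjoint (by decide : (0 : Fin 2) ≠ 1))
  have htop : D 0 ⊔ D 1 = ⊤ := by
    rw [← hD.iSup_eq_top]
    apply le_antisymm
    · exact sup_le (le_iSup D 0) (le_iSup D 1)
    · apply iSup_le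
      intro i
      fin_cases i
      · exact le_sup_left
      · exact le_sup_right
  have h3 : 3 ≤ Module.finrank F (D 0) := by omega
  obtain ⟨E, hE⟩ : ∃ E : Fin 3 → Fin n → F, E =
      (fun i : Fin 3 => ((Module.finBasis F (D 0)) (Fin.castLE h3 i) : Fin n → F)) := ⟨_, rfl⟩
  have hli3 : LinearIndependent F E := by
    rw [hE]
    exact ((Module.finBasis F (D 0)).linearIndependent.comp _ (Fin.castLE_injective h3)).map'
      (D 0).subtype (Submodule.ker_subtype (D 0))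
  have hEU : ∀ j, E j ∈ D 0 := by
    intro j
    rw [hE]
    exact ((Module.finBasis F (D 0)) (Fin.castLE h3 j)).2
  have proj : ∀ f : Fin n → F, ∃ d ∈ D 1, ∀ j, QuadraticMap.polar Q (E j) d
      = QuadraticMap.polar Q (E j) f := by
    intro f
    have hf : f ∈ D 0 ⊔ D 1 := by
      rw [htop]
      exact Submodule.mem_top
    obtain ⟨d₀, hd₀, d₁, hd₁, rfl⟩ := Submodule.mem_sup.mp hf
    refine ⟨d₁, hd₁, fun j => ?_⟩
    rw [hbil.add_right, ts_polar Q (D 0) (hts 0) _ _ (hEU j) hd₀, zero_add]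
  obtain ⟨f₁', h1a, h1b⟩ := dual_exists Q hbil hnd E hli3 0
  obtain ⟨f₂', h2a, h2b⟩ := dual_exists Q hbil hnd E hli3 1
  obtain ⟨f₁, hf₁, hp1⟩ := proj f₁'
  obtain ⟨f₂, hf₂, hp2⟩ := proj f₂'
  have h22 : QuadraticMap.polar Q (E 1) f₂ = 1 := by rw [hp2]; exact h2a
  obtain ⟨-, ⟨g₁, hg₁Ω, hg₁S, hg₁f⟩, ⟨g₂, hg₂Ω, hg₂S⟩⟩ := fam_core Q hsm hbil (D 0) (hts 0)
    (E 0) (E 1) (E 2) f₁ f₂ (hEU 0) (hEU 1) (hEU 2) (hts 1 f₁ hf₁) (hts 1 f₂ hf₂)
    (by rw [hp1]; exact h1a) (by rw [hp1]; exact h1b 1 (by decide))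
    (by rw [hp1]; exact h1b 2 (by decide)) (by rw [hp2]; exact h2b 0 (by decide))
    h22 (by rw [hp2]; exact h2b 2 (by decide))
  refine ⟨Cfsg.Geo.subspaceStabilizer (D 0) ⊓ Cfsg.Geo.omegaGL Q, ?_, ?_⟩
  · apply SetLike.lt_iff_le_and_exists.mpr
    refine ⟨?_, g₁, ⟨hg₁S, hg₁Ω⟩, ?_⟩
    · rintro g ⟨⟨σ, hσ⟩, hgΩ⟩
      refine ⟨?_, hgΩ⟩
      have hpar := omega_parity Q hbil hsm hnd k hm (D 0) (hts 0) hd0 g hgΩ
      have h0 : img g (D 0) = D (σ 0) := hσ 0
      generalize σ 0 = j at h0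
      fin_cases j
      · exact stab_of_img (D 0) g h0
      · exfalso
        have h0' : img g (D 0) = D 1 := h0
        rw [h0', hdisj, finrank_bot, add_zero] at hpar
        have hko' := Nat.odd_iff.mp hko
        omega
    · rintro ⟨⟨σ, hσ⟩, -⟩
      have h1 : img g₁ (D 1) = D (σ 1) := hσ 1
      have hmem : (g₁ : Matrix (Fin n) (Fin n) F) *ᵥ f₂ ∈ img g₁ (D 1) :=
        (mem_img g₁ (D 1) _).mpr ⟨f₂, hf₂, rfl⟩
      rw [hg₁f, h1] at hmem
      generalize σ 1 = j at hmem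
      fin_cases j
      · have hmem' : f₂ + E 2 ∈ D 0 := hmem
        have hf₂0 : f₂ ∈ D 0 := by
          have h6 : f₂ = (f₂ + E 2) - E 2 := by abel
          rw [h6]
          exact (D 0).sub_mem hmem' (hEU 2)
        have hbot : f₂ ∈ D 0 ⊓ D 1 := ⟨hf₂0, hf₂⟩
        rw [hdisj, Submodule.mem_bot] at hbot
        rw [hbot, polar_zero_right Q hbil] at h22
        exact zero_ne_one h22
      · have hmem' : f₂ + E 2 ∈ D 1 := hmem
        have hE21 : E 2 ∈ D 1 := by
          have h6 : E 2 = (f₂ + E 2) - f₂ := by abel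
          rw [h6]
          exact (D 1).sub_mem hmem' hf₂
        have hbot : E 2 ∈ D 0 ⊓ D 1 := ⟨hEU 2, hE21⟩
        rw [hdisj, Submodule.mem_bot] at hbot
        exact hli3.ne_zero 2 hbot
  · apply SetLike.lt_iff_le_and_exists.mpr
    exact ⟨inf_le_right, g₂, hg₂Ω, fun h => hg₂S h.1⟩

end Cfsg.Agent.S5698
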