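import Cfsg.Statements.S5944
import Mathlib

set_option autoImplicit false
open Cfsg

namespace Cfsg.Agent.S5944

/-- For n ≠ 4, every proper subgroup of the symmetric group S_n other than the alternating group A_n has index at least n. -/
theorem result (n : ℕ) (hn : n ≠ 4) (H : Subgroup (Equiv.Perm (Fin n))) (hH : H ≠ ⊤) (hA : H ≠ alternatingGroup (Fin n)) : n ≤ H.index := by
  have h1 : H.index ≠ 1 := fun h => hH (Subgroup.index_eq_one.mp h)
  have h2 : H.index ≠ 2 := fun h => hA (Equiv.Perm.eq_alternatingGroup_of_index_eq_two h)
  have h0 : H.index ≠ 0 := Subgroup.index_ne_zero_of_finite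
  by_contra hlt
  push Not at hlt
  have hn5 : 5 ≤ n := by omega
  -- the normal core
  have hdvd : H.normalCore.index ∣ H.index.factorial := by
    rw [Subgroup.normalCore_eq_ker, Subgroup.index_ker, Subgroup.index_eq_card, ← Nat.card_perm]
    exact Subgroup.card_subgroup_dvd_card (MulAction.toPermHom _ (_ ⧸ H)).range
  have hcore : Nontrivial H.normalCore := by
    by_contra hnt
    rw [not_nontrivial_iff_subsingleton] at hnt
    have hnt := H.normalCore.eq_bot_of_subsingleton
    rw [hnt, Subgroup.index_bot, Nat.card_perm, Nat.card_eq_fintype_card, Fintype.card_fin] at hdvd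
    have hle := Nat.le_of_dvd (Nat.factorial_pos _) hdvd
    have : H.index.factorial < n.factorial := Nat.factorial_lt_of_lt (by omega) hlt
    omega
  have hAle : alternatingGroup (Fin n) ≤ H :=
    (Equiv.Perm.alternatingGroup_le_of_normal (by simpa using hn5) hcore).trans H.normalCore_le
  have : Nontrivial (Fin n) := Fin.nontrivial_iff_two_le.mpr (by omega)
  have hd : H.index ∣ 2 := by
    have := Subgroup.index_dvd_of_le hAle
    rwa [alternatingGroup.index_eq_two] at this
  have : H.index ≤ 2 := Nat.le_of_dvd (by norm_num) hd
  omega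

end Cfsg.Agent.S5944
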