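import Cfsg.Statements.S5952
import Mathlib

set_option autoImplicit false
open Cfsg

namespace Cfsg.Agent.S5952

variable {F V : Type*} [Field F] [AddCommGroup V] [Module F V]

/-- sup of the blocks over a finset -/
def blk {s : ℕ} (U : Fin s → Submodule F V) (J : Finset (Fin s)) : Submodule F V :=
  ⨆ j ∈ J, U j

theorem blk_empty {s : ℕ} (U : Fin s → Submodule F V) : blk U ∅ = ⊥ := by
  unfold blk
  simp

theorem blk_insert {s : ℕ} (U : Fin s → Submodule F V) (j : Fin s) (J : Finset (Fin s)) :
    blk U (insert j J) = U j ⊔ blk U J := by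
  unfold blk
  exact Finset.iSup_insert j J U

theorem blk_inv {s : ℕ} (U : Fin s → Submodule F V) (f : V →ₗ[F] V)
    (hUinv : ∀ j, (U j).map f ≤ U j) (J : Finset (Fin s)) : (blk U J).map f ≤ blk U J := by
  unfold blk
  rw [Submodule.map_iSup]
  refine iSup_le fun j => ?_
  rw [Submodule.map_iSup]
  exact iSup_le fun hj => le_iSup₂_of_le j hj (hUinv j)

theorem blk_dim [FiniteDimensional F V] {s a : ℕ} (U : Fin s → Submodule F V)
    (hUdim : ∀ j, Module.finrank F ↥(U j) = a)
    (hind : ∀ (J : Finset (Fin s)) (j : Fin s), j ∉ J → Disjoint (U j) (blk U J))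
    (J : Finset (Fin s)) : Module.finrank F ↥(blk U J) = J.card * a := by
  induction J using Finset.induction_on with
  | empty =>
    rw [blk_empty, finrank_bot]
    simp
  | insert j J hj ih =>
    rw [blk_insert, Finset.card_insert_of_notMem hj]
    have h1 := Submodule.finrank_sup_add_finrank_inf_eq (U j) (blk U J)
    rw [(hind J j hj).eq_bot, finrank_bot, hUdim, ih, add_zero] at h1
    rw [h1]
    ring

theorem blk_dvd [FiniteDimensional F V] {s a : ℕ} (U : Fin s → Submodule F V) (f : V →ₗ[F] V)
    (hUinv : ∀ j, (U j).map f ≤ U j) (hUdim : ∀ j, Module.finrank F ↥(U j) = a)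
    (hUirr : ∀ j, ∀ W : Submodule F V, W ≤ U j → W.map f ≤ W → W = ⊥ ∨ W = U j)
    (hind : ∀ (J : Finset (Fin s)) (j : Fin s), j ∉ J → Disjoint (U j) (blk U J))
    (J : Finset (Fin s)) :
    ∀ W : Submodule F V, W ≤ blk U J → W.map f ≤ W → a ∣ Module.finrank F ↥W := by
  induction J using Finset.induction_on with
  | empty =>
    intro W hW _
    rw [blk_empty] at hW
    rw [le_bot_iff.mp hW, finrank_bot]
    exact dvd_zero a
  | insert j J hj ih =>
    intro W hW hWf
    rw [blk_insert] at hW
    have hXf := blk_inv U f hUinv J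
    have h1 : a ∣ Module.finrank F ↥(W ⊓ blk U J) :=
      ih (W ⊓ blk U J) inf_le_right
        ((Submodule.map_inf_le f).trans (inf_le_inf hWf hXf))
    have hYf : ((W ⊔ blk U J) ⊓ U j).map f ≤ (W ⊔ blk U J) ⊓ U j := by
      refine (Submodule.map_inf_le f).trans (inf_le_inf ?_ (hUinv j))
      rw [Submodule.map_sup]
      exact sup_le_sup hWf hXf
    have hY := hUirr j ((W ⊔ blk U J) ⊓ U j) inf_le_right hYf
    have hmod : W ⊔ blk U J = blk U J ⊔ (W ⊔ blk U J) ⊓ U j := by
      have h2 : W ⊔ blk U J ≤ blk U J ⊔ U j :=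
        sup_le (hW.trans (le_of_eq (sup_comm _ _))) le_sup_left
      have h3 := sup_inf_assoc_of_le (U j) (le_sup_right : blk U J ≤ W ⊔ blk U J)
      rw [inf_comm (W ⊔ blk U J) (U j), ← h3]
      exact (inf_eq_right.mpr h2).symm
    have hd1 := Submodule.finrank_sup_add_finrank_inf_eq W (blk U J)
    have hd2 := Submodule.finrank_sup_add_finrank_inf_eq (blk U J) ((W ⊔ blk U J) ⊓ U j)
    have hbot : blk U J ⊓ ((W ⊔ blk U J) ⊓ U j) = ⊥ := by
      refine le_bot_iff.mp ?_
      calc blk U J ⊓ ((W ⊔ blk U J) ⊓ U j) ≤ U j ⊓ blk U J :=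
            le_inf (inf_le_right.trans inf_le_right) inf_le_left
        _ = ⊥ := (hind J j hj).eq_bot
    rw [← hmod, hbot, finrank_bot, add_zero] at hd2
    have hW' : Module.finrank F ↥W = Module.finrank F ↥((W ⊔ blk U J) ⊓ U j)
        + Module.finrank F ↥(W ⊓ blk U J) := by omega
    rw [hW']
    rcases hY with hY | hY
    · rw [hY, finrank_bot, zero_add]
      exact h1
    · rw [hY, hUdim j]
      exact dvd_add (dvd_refl a) h1

theorem sub_of_dim [FiniteDimensional F V] (E : Submodule F V) (c : ℕ)
    (hc : c ≤ Module.finrank F ↥E) :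
    ∃ E' : Submodule F V, E' ≤ E ∧ Module.finrank F ↥E' = c := by
  induction c with
  | zero => exact ⟨⊥, bot_le, finrank_bot F V⟩
  | succ c ih =>
    obtain ⟨E', hle, hdim⟩ := ih (by omega)
    have hlt : E' < E := by
      refine lt_of_le_of_ne hle (fun h => ?_)
      rw [h] at hdim
      omega
    obtain ⟨v, hvE, hvE'⟩ := SetLike.exists_of_lt hlt
    have hv0 : v ≠ 0 := fun h => hvE' (by rw [h]; exact E'.zero_mem)
    refine ⟨E' ⊔ Submodule.span F {v},
      sup_le hle ((Submodule.span_singleton_le_iff_mem v E).mpr hvE), ?_⟩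
    have h1 := Submodule.finrank_sup_add_finrank_inf_eq E' (Submodule.span F {v})
    have hbot : E' ⊓ Submodule.span F {v} = ⊥ :=
      ((Submodule.disjoint_span_singleton' hv0).mpr hvE').eq_bot
    rw [hbot, finrank_bot, add_zero, hdim, finrank_span_singleton hv0] at h1
    exact h1

/-- Which dimensions of invariant subspaces a semisimple linear map has. Let `V` be a finite-dimensional vector space over a field `F` and `f` an invertible semisimple linear map of `V`. Suppose `V` is the internal direct sum of the fixed space `C_V(f)` (the eigenspace for 1) and subspaces `U_1, …, U_s`, each `f`-invariant of dimension `a ≥ 1` on which `f` acts irreducibly (no `f`-invariant subspaces other than 0 and `U_j`). Let `0 < m < dim V` and `ℓ = m mod a`. Then `f` leaves some `m`-dimensional subspace invariant if and only if `dim C_V(f) ≥ m`, or `a ≤ m` and `dim C_V(f) ≥ ℓ`. -/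
theorem result {F V : Type*} [Field F] [AddCommGroup V] [Module F V]
    [FiniteDimensional F V] (f : V →ₗ[F] V) (hf : Function.Bijective f) (hss : Module.End.IsSemisimple f)
    {s a : ℕ} (ha : 1 ≤ a) (U : Fin s → Submodule F V)
    (hUinv : ∀ j, (U j).map f ≤ U j) (hUdim : ∀ j, Module.finrank F ↥(U j) = a)
    (hUirr : ∀ j, ∀ W : Submodule F V, W ≤ U j → W.map f ≤ W → W = ⊥ ∨ W = U j)
    (hdec : DirectSum.IsInternal (fun o : Option (Fin s) => o.elim (Module.End.eigenspace f 1) U))
    (m : ℕ) (hm : 0 < m) (hmV : m < Module.finrank F V) :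
    (∃ W : Submodule F V, Module.finrank F ↥W = m ∧ W.map f ≤ W) ↔
    (m ≤ Module.finrank F ↥(Module.End.eigenspace f 1) ∨
      (a ≤ m ∧ m % a ≤ Module.finrank F ↥(Module.End.eigenspace f 1))) := by
  classical
  have hI := hdec.submodule_iSupIndep
  have hT := hdec.submodule_iSup_eq_top
  have hind : ∀ (J : Finset (Fin s)) (j : Fin s), j ∉ J → Disjoint (U j) (blk U J) := by
    intro J j hj
    have h1 := hI (some j)
    refine h1.mono_right ?_
    unfold blk
    exact iSup₂_le fun i hi => le_iSup₂_of_le (some i)
      (fun h => hj (by rw [← Option.some.inj h]; exact hi)) le_rfl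
  have hdisj : Disjoint (Module.End.eigenspace f 1) (blk U Finset.univ) := by
    have h1 := hI none
    refine h1.mono_right ?_
    unfold blk
    exact iSup₂_le fun i _ => le_iSup₂_of_le (some i) (Option.some_ne_none i) le_rfl
  have htop : Module.End.eigenspace f 1 ⊔ blk U Finset.univ = ⊤ := by
    rw [← hT, iSup_option]
    unfold blk
    simp
  have hfix : ∀ x ∈ Module.End.eigenspace f 1, f x = x := by
    intro x hx
    have h1 := Module.End.mem_eigenspace_iff.mp hx
    rwa [one_smul] at h1
  constructor
  · rintro ⟨W, hWm, hWf⟩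
    have hker : LinearMap.ker (f - LinearMap.id) = Module.End.eigenspace f 1 := by
      ext x
      rw [LinearMap.mem_ker, Module.End.mem_eigenspace_iff, LinearMap.sub_apply,
        LinearMap.id_apply, one_smul, sub_eq_zero]
    have hblkf := blk_inv U f hUinv Finset.univ
    have hW'le : W.map (f - LinearMap.id) ≤ blk U Finset.univ := by
      rintro _ ⟨w, hw, rfl⟩
      have hwt : w ∈ Module.End.eigenspace f 1 ⊔ blk U Finset.univ := by
        rw [htop]
        exact Submodule.mem_top
      obtain ⟨x, hx, u, hu, rfl⟩ := Submodule.mem_sup.mp hwt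
      have hfu : f u ∈ blk U Finset.univ := hblkf (Submodule.mem_map_of_mem hu)
      have h2 : (f - LinearMap.id : V →ₗ[F] V) (x + u) = f u - u := by
        rw [LinearMap.sub_apply, LinearMap.id_apply, map_add, hfix x hx]
        abel
      rw [h2]
      exact Submodule.sub_mem _ hfu hu
    have hW'f : (W.map (f - LinearMap.id)).map f ≤ W.map (f - LinearMap.id) := by
      rintro _ ⟨_, ⟨w, hw, rfl⟩, rfl⟩
      refine ⟨f w, hWf (Submodule.mem_map_of_mem hw), ?_⟩
      rw [LinearMap.sub_apply, LinearMap.sub_apply, LinearMap.id_apply, LinearMap.id_apply,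
        map_sub]
    have hdvd := blk_dvd U f hUinv hUdim hUirr hind Finset.univ (W.map (f - LinearMap.id))
      hW'le hW'f
    have hrn := LinearMap.finrank_range_add_finrank_ker ((f - LinearMap.id).comp W.subtype)
    rw [LinearMap.range_comp, Submodule.range_subtype, LinearMap.ker_comp, hker] at hrn
    have hc : Module.finrank F ↥(Submodule.comap W.subtype (Module.End.eigenspace f 1))
        ≤ Module.finrank F ↥(Module.End.eigenspace f 1) := by
      have h1 : Module.finrank F
          ↥((Submodule.comap W.subtype (Module.End.eigenspace f 1)).map W.subtype)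
          = Module.finrank F ↥(Submodule.comap W.subtype (Module.End.eigenspace f 1)) :=
        Submodule.finrank_map_subtype_eq W _
      rw [← h1, Submodule.map_comap_subtype]
      exact Submodule.finrank_mono inf_le_right
    obtain ⟨r, hr⟩ := hdvd
    rw [hWm, hr] at hrn
    rcases Nat.eq_zero_or_pos r with h0 | hpos
    · left
      rw [h0, mul_zero, zero_add] at hrn
      omega
    · right
      constructor
      · have h3 : a ≤ a * r := Nat.le_mul_of_pos_right a hpos
        omega
      · have h3 : m % a ≤ Module.finrank F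
            ↥(Submodule.comap W.subtype (Module.End.eigenspace f 1)) := by
          rw [← hrn, Nat.mul_add_mod]
          exact Nat.mod_le _ _
        exact h3.trans hc
  · intro h
    have hVdim : Module.finrank F V = Module.finrank F ↥(Module.End.eigenspace f 1) + s * a := by
      have h1 := Submodule.finrank_sup_add_finrank_inf_eq (Module.End.eigenspace f 1)
        (blk U Finset.univ)
      rw [htop, hdisj.eq_bot, finrank_bot, finrank_top, blk_dim U hUdim hind, Finset.card_univ,
        Fintype.card_fin, add_zero] at h1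
      exact h1
    obtain ⟨t, c, ht, hc, hmtc⟩ : ∃ t c : ℕ, t ≤ s ∧
        c ≤ Module.finrank F ↥(Module.End.eigenspace f 1) ∧ m = t * a + c := by
      rcases h with h | ⟨h1, h2⟩
      · exact ⟨0, m, Nat.zero_le s, h, by rw [zero_mul, zero_add]⟩
      · by_cases hts : m / a ≤ s
        · exact ⟨m / a, m % a, hts, h2, by rw [mul_comm]; exact (Nat.div_add_mod m a).symm⟩
        · have h3 : s < m / a := by omega
          have h4 : (m / a) * a ≤ m := Nat.div_mul_le_self m a
          have h5 : s * a ≤ (m / a) * a := Nat.mul_le_mul_right a h3.le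
          refine ⟨s, m - s * a, le_rfl, ?_, ?_⟩
          · omega
          · omega
    obtain ⟨J, -, hJc⟩ := Finset.exists_subset_card_eq (s := (Finset.univ : Finset (Fin s)))
      (n := t) (by rw [Finset.card_univ, Fintype.card_fin]; exact ht)
    obtain ⟨E', hE'le, hE'dim⟩ := sub_of_dim (Module.End.eigenspace f 1) c hc
    refine ⟨E' ⊔ blk U J, ?_, ?_⟩
    · have h1 := Submodule.finrank_sup_add_finrank_inf_eq E' (blk U J)
      have hbot : E' ⊓ blk U J = ⊥ := by
        refine le_bot_iff.mp ?_
        calc E' ⊓ blk U J ≤ Module.End.eigenspace f 1 ⊓ blk U Finset.univ :=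
              inf_le_inf hE'le (by
                unfold blk
                exact biSup_mono (fun j _ => Finset.mem_univ j))
          _ = ⊥ := hdisj.eq_bot
      rw [hbot, finrank_bot, add_zero, hE'dim, blk_dim U hUdim hind, hJc] at h1
      rw [h1, hmtc]
      ring
    · rw [Submodule.map_sup]
      refine sup_le_sup ?_ (blk_inv U f hUinv J)
      rintro _ ⟨x, hx, rfl⟩
      rw [hfix x (hE'le hx)]
      exact hx

end Cfsg.Agent.S5952
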