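import Cfsg.Statements.S5957
import Mathlib

set_option autoImplicit false
open scoped MatrixGroups
open Cfsg

namespace Cfsg.Agent.S5957

universe u

section comb
variable {ι : Type} [DecidableEq ι] (π : ι → ι)

theorem pair_erase (hπ : ∀ i, π (π i) = i) (S : Finset ι) (hS : ∀ i ∈ S, π i ∈ S) (i₀ : ι)
    (hi₀S : i₀ ∈ S) (hi₀ : π i₀ ≠ i₀) :
    ∃ S' : Finset ι, (∀ i, i ∈ S' ↔ i ∈ S ∧ i ≠ i₀ ∧ i ≠ π i₀) ∧ (∀ i ∈ S', π i ∈ S') ∧
      S'.card + 2 = S.card := by
  have hmem : ∀ i, i ∈ (S.erase i₀).erase (π i₀) ↔ i ∈ S ∧ i ≠ i₀ ∧ i ≠ π i₀ := by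
    intro i
    rw [Finset.mem_erase, Finset.mem_erase]
    tauto
  refine ⟨(S.erase i₀).erase (π i₀), hmem, ?_, ?_⟩
  · intro i hi
    rw [hmem] at hi ⊢
    refine ⟨hS i hi.1, ?_, ?_⟩
    · intro h
      apply hi.2.2
      rw [← h, hπ]
    · intro h
      apply hi.2.1
      have h2 := congrArg π h
      rw [hπ, hπ] at h2
      exact h2
  · have h1 : π i₀ ∈ S.erase i₀ := Finset.mem_erase.mpr ⟨hi₀, hS i₀ hi₀S⟩
    have h2 : 0 < (S.erase i₀).card := Finset.card_pos.mpr ⟨_, h1⟩
    rw [Finset.card_erase_of_mem h1]
    rw [Finset.card_erase_of_mem hi₀S] at h2 ⊢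
    omega

theorem inv_subset (hπ : ∀ i, π (π i) = i) : ∀ (k : ℕ) (S : Finset ι), (∀ i ∈ S, π i ∈ S) →
    k ≤ S.card → (Even k ∨ ∃ i ∈ S, π i = i) →
    ∃ B : Finset ι, B ⊆ S ∧ B.card = k ∧ ∀ i ∈ B, π i ∈ B := by
  intro k
  induction k using Nat.strong_induction_on with
  | _ k ih =>
    intro S hS hk hpar
    by_cases hall : ∀ i ∈ S, π i = i
    · obtain ⟨B, hBS, hBc⟩ := Finset.exists_subset_card_eq hk
      refine ⟨B, hBS, hBc, fun i hi => ?_⟩
      rw [hall i (hBS hi)]
      exact hi
    · push_neg at hall
      obtain ⟨i₀, hi₀S, hi₀⟩ := hall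
      rcases Nat.lt_or_ge k 2 with hk2 | hk2
      · rcases Nat.lt_or_ge k 1 with hk1 | hk1
        · have hk0 : k = 0 := by omega
          subst hk0
          exact ⟨∅, Finset.empty_subset _, rfl, fun i hi => absurd hi (Finset.notMem_empty i)⟩
        · have hk1' : k = 1 := by omega
          subst hk1'
          rcases hpar with he | ⟨i, hiS, hi⟩
          · exact absurd he (by decide)
          · refine ⟨{i}, Finset.singleton_subset_iff.mpr hiS, Finset.card_singleton i,
              fun j hj => ?_⟩
            rw [Finset.mem_singleton] at hj ⊢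
            rw [hj, hi]
      · obtain ⟨S', hmem, hS'inv, hcard⟩ := pair_erase π hπ S hS i₀ hi₀S hi₀
        have hpar' : Even (k - 2) ∨ ∃ i ∈ S', π i = i := by
          rcases hpar with he | ⟨i, hiS, hi⟩
          · left
            obtain ⟨r, hr⟩ := he
            exact ⟨r - 1, by omega⟩
          · right
            refine ⟨i, (hmem i).mpr ⟨hiS, ?_, ?_⟩, hi⟩
            · intro h
              rw [h] at hi
              exact hi₀ hi
            · intro h
              have h2 : π i = i₀ := by rw [h, hπ]
              rw [hi] at h2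
              rw [h2] at hi
              exact hi₀ hi
        obtain ⟨B', hB'S, hB'c, hB'inv⟩ := ih (k - 2) (by omega) S' hS'inv (by omega) hpar'
        have h1 : π i₀ ∉ B' := fun h => ((hmem _).mp (hB'S h)).2.2 rfl
        have h2 : i₀ ∉ insert (π i₀) B' := by
          intro h
          rcases Finset.mem_insert.mp h with h | h
          · exact hi₀ h.symm
          · exact ((hmem _).mp (hB'S h)).2.1 rfl
        refine ⟨insert i₀ (insert (π i₀) B'), ?_, ?_, ?_⟩
        · intro i hi
          rcases Finset.mem_insert.mp hi with h | h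
          · rw [h]
            exact hi₀S
          · rcases Finset.mem_insert.mp h with h | h
            · rw [h]
              exact hS i₀ hi₀S
            · exact ((hmem i).mp (hB'S h)).1
        · rw [Finset.card_insert_of_notMem h2, Finset.card_insert_of_notMem h1, hB'c]
          omega
        · intro i hi
          rcases Finset.mem_insert.mp hi with h | h
          · rw [h]
            exact Finset.mem_insert_of_mem (Finset.mem_insert_self _ _)
          · rcases Finset.mem_insert.mp h with h | h
            · rw [h, hπ]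
              exact Finset.mem_insert_self _ _
            · exact Finset.mem_insert_of_mem (Finset.mem_insert_of_mem (hB'inv i h))

theorem even_card_of_no_fix (hπ : ∀ i, π (π i) = i) : ∀ (k : ℕ) (S : Finset ι), S.card = k →
    (∀ i ∈ S, π i ∈ S) → (∀ i ∈ S, π i ≠ i) → Even k := by
  intro k
  induction k using Nat.strong_induction_on with
  | _ k ih =>
    intro S hk hS hnf
    by_cases hne : S.Nonempty
    · obtain ⟨i₀, hi₀S⟩ := hne
      obtain ⟨S', hmem, hS'inv, hcard⟩ := pair_erase π hπ S hS i₀ hi₀S (hnf i₀ hi₀S)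
      have h1 := ih (k - 2) (by omega) S' (by omega) hS'inv
        (fun i hi => hnf i ((hmem i).mp hi).1)
      obtain ⟨r, hr⟩ := h1
      exact ⟨r + 1, by omega⟩
    · rw [Finset.not_nonempty_iff_eq_empty] at hne
      rw [hne, Finset.card_empty] at hk
      rw [← hk]
      exact ⟨0, rfl⟩

theorem half_subset (hπ : ∀ i, π (π i) = i) : ∀ (k : ℕ) (S : Finset ι), (∀ i ∈ S, π i ∈ S) →
    (∀ i ∈ S, π i ≠ i) → 2 * k ≤ S.card →
    ∃ B : Finset ι, B ⊆ S ∧ B.card = k ∧ ∀ i ∈ B, π i ∉ B := by
  intro k
  induction k with
  | zero =>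
    intro S _ _ _
    exact ⟨∅, Finset.empty_subset _, rfl, fun i hi => absurd hi (Finset.notMem_empty i)⟩
  | succ k ih =>
    intro S hS hnf hk
    have hne : S.Nonempty := Finset.card_pos.mp (by omega)
    obtain ⟨i₀, hi₀S⟩ := hne
    obtain ⟨S', hmem, hS'inv, hcard⟩ := pair_erase π hπ S hS i₀ hi₀S (hnf i₀ hi₀S)
    obtain ⟨B', hB'S, hB'c, hB'⟩ := ih S' hS'inv (fun i hi => hnf i ((hmem i).mp hi).1)
      (by omega)
    have h1 : i₀ ∉ B' := fun h => ((hmem _).mp (hB'S h)).2.1 rfl
    refine ⟨insert i₀ B', ?_, ?_, ?_⟩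
    · intro i hi
      rcases Finset.mem_insert.mp hi with h | h
      · rw [h]
        exact hi₀S
      · exact ((hmem i).mp (hB'S h)).1
    · rw [Finset.card_insert_of_notMem h1, hB'c]
    · intro i hi hi2
      rcases Finset.mem_insert.mp hi with h | h
      · rw [h] at hi2
        rcases Finset.mem_insert.mp hi2 with h' | h'
        · exact hnf i₀ hi₀S h'
        · exact ((hmem _).mp (hB'S h')).2.2 rfl
      · rcases Finset.mem_insert.mp hi2 with h' | h'
        · apply ((hmem i).mp (hB'S h)).2.2
          rw [← h', hπ]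
        · exact hB' i h h'

theorem partition_exists (hπ : ∀ i, π (π i) = i) (a : ℕ) (ha : 1 ≤ a) :
    ∀ (t : ℕ) (S : Finset ι), (∀ i ∈ S, π i ∈ S) → S.card = a * t →
    ∃ P : Finset (Finset ι), P.card = t ∧
      (∀ B ∈ P, B.card = a ∧ B ⊆ S ∧ B.image π ∈ P) ∧
      (∀ B ∈ P, ∀ B' ∈ P, ∀ i, i ∈ B → i ∈ B' → B = B') ∧ (∀ i ∈ S, ∃ B ∈ P, i ∈ B) := by
  have hinj : Function.Injective π := fun i j h => by
    have h2 := congrArg π h
    rw [hπ, hπ] at h2
    exact h2
  intro t
  induction t using Nat.strong_induction_on with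
  | _ t ih =>
    intro S hS hcard
    rcases Nat.eq_zero_or_pos t with ht0 | htpos
    · subst ht0
      rw [Nat.mul_zero, Finset.card_eq_zero] at hcard
      subst hcard
      exact ⟨∅, rfl, fun B hB => absurd hB (Finset.notMem_empty B),
        fun B hB => absurd hB (Finset.notMem_empty B),
        fun i hi => absurd hi (Finset.notMem_empty i)⟩
    · by_cases hpar : Even a ∨ ∃ i ∈ S, π i = i
      · obtain ⟨B, hBS, hBc, hBinv⟩ := inv_subset π hπ a S hS (by
          rw [hcard]
          exact Nat.le_mul_of_pos_right a htpos) hpar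
        have hBne : B.Nonempty := Finset.card_pos.mp (by omega)
        have hBimg : B.image π = B := by
          apply Finset.eq_of_subset_of_card_le
          · intro i hi
            obtain ⟨j, hj, rfl⟩ := Finset.mem_image.mp hi
            exact hBinv j hj
          · rw [Finset.card_image_of_injective B hinj]
        have hS'inv : ∀ i ∈ S \ B, π i ∈ S \ B := by
          intro i hi
          rw [Finset.mem_sdiff] at hi ⊢
          refine ⟨hS i hi.1, fun h => hi.2 ?_⟩
          have h2 := hBinv _ h
          rw [hπ] at h2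
          exact h2
        have hS'card : (S \ B).card = a * (t - 1) := by
          rw [Finset.card_sdiff_of_subset hBS, hcard, hBc, Nat.mul_sub, Nat.mul_one]
        obtain ⟨P', hc', hprop', hdisj', hcov'⟩ := ih (t - 1) (by omega) (S \ B) hS'inv hS'card
        have hBnot : B ∉ P' := by
          intro h
          obtain ⟨i, hi⟩ := hBne
          have h2 := (hprop' B h).2.1 hi
          exact (Finset.mem_sdiff.mp h2).2 hi
        refine ⟨insert B P', ?_, ?_, ?_, ?_⟩
        · rw [Finset.card_insert_of_notMem hBnot, hc']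
          omega
        · intro B₁ hB₁
          rcases Finset.mem_insert.mp hB₁ with h | h
          · rw [h]
            refine ⟨hBc, hBS, ?_⟩
            rw [hBimg]
            exact Finset.mem_insert_self _ _
          · exact ⟨(hprop' B₁ h).1,
              fun i hi => (Finset.mem_sdiff.mp ((hprop' B₁ h).2.1 hi)).1,
              Finset.mem_insert_of_mem (hprop' B₁ h).2.2⟩
        · intro B₁ hB₁ B₃ hB₃ i hi1 hi3
          rcases Finset.mem_insert.mp hB₁ with h1 | h1 <;>
            rcases Finset.mem_insert.mp hB₃ with h3 | h3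
          · rw [h1, h3]
          · exfalso
            rw [h1] at hi1
            exact (Finset.mem_sdiff.mp ((hprop' B₃ h3).2.1 hi3)).2 hi1
          · exfalso
            rw [h3] at hi3
            exact (Finset.mem_sdiff.mp ((hprop' B₁ h1).2.1 hi1)).2 hi3
          · exact hdisj' B₁ h1 B₃ h3 i hi1 hi3
        · intro i hi
          by_cases hiB : i ∈ B
          · exact ⟨B, Finset.mem_insert_self _ _, hiB⟩
          · obtain ⟨B₁, hB₁, hi1⟩ := hcov' i (Finset.mem_sdiff.mpr ⟨hi, hiB⟩)
            exact ⟨B₁, Finset.mem_insert_of_mem hB₁, hi1⟩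
      · push_neg at hpar
        obtain ⟨hodd, hnf⟩ := hpar
        have hev := even_card_of_no_fix π hπ _ S rfl hS hnf
        rw [hcard, Nat.even_mul] at hev
        have hevt : Even t := by
          rcases hev with h | h
          · exact absurd h hodd
          · exact h
        have ht2 : 2 ≤ t := by
          obtain ⟨r, hr⟩ := hevt
          omega
        obtain ⟨B, hBS, hBc, hBd⟩ := half_subset π hπ a S hS hnf (by
          rw [hcard, Nat.mul_comm 2 a]
          exact Nat.mul_le_mul_left a ht2)
        obtain ⟨B₂, hB₂def⟩ : ∃ B₂, B₂ = B.image π := ⟨_, rfl⟩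
        have hBne : B.Nonempty := Finset.card_pos.mp (by omega)
        have hB₂c : B₂.card = a := by
          rw [hB₂def, Finset.card_image_of_injective B hinj, hBc]
        have hB₂ne : B₂.Nonempty := Finset.card_pos.mp (by omega)
        have hB₂S : B₂ ⊆ S := by
          intro i hi
          rw [hB₂def] at hi
          obtain ⟨j, hj, rfl⟩ := Finset.mem_image.mp hi
          exact hS j (hBS hj)
        have hmemB₂ : ∀ i, i ∈ B₂ ↔ π i ∈ B := by
          intro i
          rw [hB₂def, Finset.mem_image]
          constructor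
          · rintro ⟨j, hj, rfl⟩
            rw [hπ]
            exact hj
          · intro h
            exact ⟨π i, h, hπ i⟩
        have hBB₂ : ∀ i, i ∈ B → i ∉ B₂ := by
          intro i hi h
          exact hBd i hi ((hmemB₂ i).mp h)
        have hB₂img : B₂.image π = B := by
          rw [hB₂def, Finset.image_image]
          have h2 : π ∘ π = id := funext hπ
          rw [h2, Finset.image_id]
        obtain ⟨S', hS'def⟩ : ∃ S' : Finset ι, S' = S \ (B ∪ B₂) := ⟨_, rfl⟩
        have hmemS' : ∀ i, i ∈ S' ↔ i ∈ S ∧ i ∉ B ∧ i ∉ B₂ := by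
          intro i
          rw [hS'def, Finset.mem_sdiff, Finset.mem_union]
          tauto
        have hS'inv : ∀ i ∈ S', π i ∈ S' := by
          intro i hi
          rw [hmemS'] at hi ⊢
          refine ⟨hS i hi.1, fun h => hi.2.2 ((hmemB₂ i).mpr h), fun h => hi.2.1 ?_⟩
          have h2 := (hmemB₂ _).mp h
          rw [hπ] at h2
          exact h2
        have hS'card : S'.card = a * (t - 2) := by
          have hdj : Disjoint B B₂ := Finset.disjoint_left.mpr hBB₂
          have hsub : B ∪ B₂ ⊆ S := Finset.union_subset hBS hB₂S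
          rw [hS'def, Finset.card_sdiff_of_subset hsub, Finset.card_union_of_disjoint hdj,
            hcard, hBc, hB₂c, Nat.mul_sub]
          omega
        obtain ⟨P', hc', hprop', hdisj', hcov'⟩ := ih (t - 2) (by omega) S' hS'inv hS'card
        have hB₂not : B₂ ∉ P' := by
          intro h
          obtain ⟨i, hi⟩ := hB₂ne
          exact ((hmemS' i).mp ((hprop' B₂ h).2.1 hi)).2.2 hi
        have hBnot : B ∉ insert B₂ P' := by
          intro h
          obtain ⟨i, hi⟩ := hBne
          rcases Finset.mem_insert.mp h with h | h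
          · exact hBB₂ i hi (h ▸ hi)
          · exact ((hmemS' i).mp ((hprop' B h).2.1 hi)).2.1 hi
        have key : ∀ B₁ ∈ insert B (insert B₂ P'), B₁ = B ∨ B₁ = B₂ ∨ B₁ ∈ P' := by
          intro B₁ hB₁
          rcases Finset.mem_insert.mp hB₁ with h | h
          · exact Or.inl h
          · rcases Finset.mem_insert.mp h with h | h
            · exact Or.inr (Or.inl h)
            · exact Or.inr (Or.inr h)
        refine ⟨insert B (insert B₂ P'), ?_, ?_, ?_, ?_⟩
        · rw [Finset.card_insert_of_notMem hBnot, Finset.card_insert_of_notMem hB₂not, hc']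
          omega
        · intro B₁ hB₁
          rcases key B₁ hB₁ with h | h | h
          · rw [h]
            refine ⟨hBc, hBS, ?_⟩
            rw [← hB₂def]
            exact Finset.mem_insert_of_mem (Finset.mem_insert_self _ _)
          · rw [h]
            refine ⟨hB₂c, hB₂S, ?_⟩
            rw [hB₂img]
            exact Finset.mem_insert_self _ _
          · exact ⟨(hprop' B₁ h).1, fun i hi => ((hmemS' i).mp ((hprop' B₁ h).2.1 hi)).1,
              Finset.mem_insert_of_mem (Finset.mem_insert_of_mem (hprop' B₁ h).2.2)⟩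
        · intro B₁ hB₁ B₃ hB₃ i hi1 hi3
          rcases key B₁ hB₁ with h1 | h1 | h1 <;> rcases key B₃ hB₃ with h3 | h3 | h3
          · rw [h1, h3]
          · exfalso
            rw [h1] at hi1
            rw [h3] at hi3
            exact hBB₂ i hi1 hi3
          · exfalso
            rw [h1] at hi1
            exact ((hmemS' i).mp ((hprop' B₃ h3).2.1 hi3)).2.1 hi1
          · exfalso
            rw [h1] at hi1
            rw [h3] at hi3
            exact hBB₂ i hi3 hi1
          · rw [h1, h3]
          · exfalso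
            rw [h1] at hi1
            exact ((hmemS' i).mp ((hprop' B₃ h3).2.1 hi3)).2.2 hi1
          · exfalso
            rw [h3] at hi3
            exact ((hmemS' i).mp ((hprop' B₁ h1).2.1 hi1)).2.1 hi3
          · exfalso
            rw [h3] at hi3
            exact ((hmemS' i).mp ((hprop' B₁ h1).2.1 hi1)).2.2 hi3
          · exact hdisj' B₁ h1 B₃ h3 i hi1 hi3
        · intro i hi
          by_cases hiB : i ∈ B
          · exact ⟨B, Finset.mem_insert_self _ _, hiB⟩
          · by_cases hiB₂ : i ∈ B₂
            · exact ⟨B₂, Finset.mem_insert_of_mem (Finset.mem_insert_self _ _), hiB₂⟩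
            · obtain ⟨B₁, hB₁, hi1⟩ := hcov' i ((hmemS' i).mpr ⟨hi, hiB, hiB₂⟩)
              exact ⟨B₁, Finset.mem_insert_of_mem (Finset.mem_insert_of_mem hB₁), hi1⟩

end comb

theorem monomial_family {F : Type*} [Field F] (z : F) :
    ∀ (k : ℕ) (V : Type u) [AddCommGroup V] [Module F V] [FiniteDimensional F V]
      (X : V →ₗ[F] V), Module.finrank F V = k → (∀ v, X (X v) = z • v) →
      ∃ (ι : Type) (_ : Fintype ι) (v : ι → V) (π : ι → ι) (c : ι → F),
        LinearIndependent F v ∧ Submodule.span F (Set.range v) = ⊤ ∧ (∀ i, π (π i) = i) ∧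
          ∀ i, X (v i) = c i • v (π i) := by
  intro k
  induction k using Nat.strong_induction_on with
  | _ k ih =>
    intro V _ _ _ X hk hX
    by_cases hex : ∃ u, LinearIndependent F ![u, X u]
    · obtain ⟨u, hu⟩ := hex
      have hu' := LinearIndependent.pair_iff.mp hu
      have hXu : X u ∉ Submodule.span F {u} := by
        intro hmem
        obtain ⟨α, hα⟩ := Submodule.mem_span_singleton.mp hmem
        have h1 := hu' α (-1) (by
          rw [hα, neg_one_smul, add_neg_cancel])
        exact neg_ne_zero.mpr one_ne_zero h1.2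
      obtain ⟨f, hf, hf'⟩ := Submodule.exists_dual_map_eq_bot_of_notMem hXu inferInstance
      have hfu : f u = 0 := by
        have h1 : f u ∈ (Submodule.span F {u}).map f :=
          Submodule.mem_map_of_mem (Submodule.mem_span_singleton_self u)
        rw [hf'] at h1
        exact (Submodule.mem_bot F).mp h1
      obtain ⟨φ, hφ⟩ : ∃ φ : Module.Dual F V, φ = (f (X u))⁻¹ • f := ⟨_, rfl⟩
      have hφu : φ u = 0 := by
        rw [hφ, LinearMap.smul_apply, hfu, smul_zero]
      have hφXu : φ (X u) = 1 := by
        rw [hφ, LinearMap.smul_apply, smul_eq_mul, inv_mul_cancel₀ hf]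
      obtain ⟨V', hV'⟩ : ∃ V' : Submodule F V,
          V' = LinearMap.ker φ ⊓ LinearMap.ker (φ.comp X) := ⟨_, rfl⟩
      have hmem : ∀ w, w ∈ V' ↔ φ w = 0 ∧ φ (X w) = 0 := by
        intro w
        rw [hV', Submodule.mem_inf, LinearMap.mem_ker, LinearMap.mem_ker, LinearMap.comp_apply]
      have hinv : ∀ w ∈ V', X w ∈ V' := by
        intro w hw
        rw [hmem] at hw ⊢
        refine ⟨hw.2, ?_⟩
        rw [hX, map_smul, hw.1, smul_zero]
      have hlt : Module.finrank F V' < k := by
        rw [← hk]
        apply Submodule.finrank_lt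
        intro htop
        have h1 : u ∈ V' := by
          rw [htop]
          exact Submodule.mem_top
        rw [hmem, hφXu] at h1
        exact one_ne_zero h1.2
      obtain ⟨ι', hfin, v', π', c', hli', hsp', hπ', hX'⟩ :=
        ih _ hlt V' (X.restrict hinv) rfl (by
          intro w
          apply Subtype.ext
          rw [LinearMap.restrict_coe_apply, LinearMap.restrict_coe_apply, hX]
          rfl)
      haveI : Fintype ι' := hfin
      have h2 : Submodule.span F (Set.range (V'.subtype ∘ v')) = V' := by
        rw [Set.range_comp, Submodule.span_image, hsp', Submodule.map_subtype_top]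
      have hdisj : Disjoint (Submodule.span F (Set.range ![u, X u]))
          (Submodule.span F (Set.range (V'.subtype ∘ v'))) := by
        rw [h2, Submodule.disjoint_def]
        intro w hw1 hw2
        obtain ⟨cc, hcc⟩ := (Submodule.mem_span_range_iff_exists_fun F).mp hw1
        rw [Fin.sum_univ_two] at hcc
        simp only [Matrix.cons_val_zero, Matrix.cons_val_one] at hcc
        rw [hmem] at hw2
        rw [← hcc] at hw2 ⊢
        simp only [map_add, map_smul, hX, hφu, hφXu, smul_eq_mul, mul_zero, mul_one, zero_add,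
          add_zero] at hw2
        rw [hw2.1, hw2.2, zero_smul, zero_smul, add_zero]
      refine ⟨Fin 2 ⊕ ι', inferInstance, Sum.elim ![u, X u] (V'.subtype ∘ v'),
        Sum.elim (fun j => Sum.inl (j + 1)) (fun i => Sum.inr (π' i)), Sum.elim ![1, z] c',
        ?_, ?_, ?_, ?_⟩
      · exact LinearIndependent.sum_type hu (hli'.map' V'.subtype (Submodule.ker_subtype V'))
          hdisj
      · rw [Set.Sum.elim_range, Submodule.span_union, h2, eq_top_iff]
        intro w _
        have hw : w = (φ (X w) • u + φ w • X u) + (w - (φ (X w) • u + φ w • X u)) := by abel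
        rw [hw]
        apply Submodule.add_mem_sup
        · apply Submodule.add_mem
          · exact Submodule.smul_mem _ _ (Submodule.subset_span ⟨0, rfl⟩)
          · exact Submodule.smul_mem _ _ (Submodule.subset_span ⟨1, rfl⟩)
        · rw [hmem]
          constructor
          · simp only [map_sub, map_add, map_smul, hX, hφu, hφXu, smul_eq_mul, mul_zero,
              mul_one, zero_add, add_zero, sub_self]
          · simp only [map_sub, map_add, map_smul, hX, hφu, hφXu, smul_eq_mul, mul_zero,
              mul_one, zero_add, add_zero, sub_self]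
      · rintro (j | i)
        · show (Sum.inl (j + 1 + 1) : Fin 2 ⊕ ι') = Sum.inl j
          congr 1
          fin_cases j <;> rfl
        · show (Sum.inr (π' (π' i)) : Fin 2 ⊕ ι') = Sum.inr i
          rw [hπ']
      · rintro (j | i)
        · fin_cases j
          · show X u = (1 : F) • X u
            rw [one_smul]
          · show X (X u) = z • u
            exact hX u
        · show X (v' i : V) = c' i • (v' (π' i) : V)
          have h3 := congrArg Subtype.val (hX' i)
          rw [LinearMap.restrict_coe_apply] at h3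
          exact h3
    · push_neg at hex
      have hev : ∀ u : V, ∃ cu : F, X u = cu • u := by
        intro u
        by_cases hu0 : u = 0
        · exact ⟨0, by rw [hu0, map_zero, smul_zero]⟩
        · have h1 := hex u
          rw [LinearIndependent.pair_iff] at h1
          push_neg at h1
          obtain ⟨s, t, hst, hne⟩ := h1
          have ht : t ≠ 0 := by
            intro ht
            rw [ht, zero_smul, add_zero] at hst
            rcases smul_eq_zero.mp hst with h | h
            · exact hne h ht
            · exact hu0 h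
          refine ⟨-(t⁻¹ * s), ?_⟩
          have h3 : t • X u = -(s • u) := by
            rw [eq_neg_iff_add_eq_zero, add_comm]
            exact hst
          calc X u = t⁻¹ • (t • X u) := by rw [smul_smul, inv_mul_cancel₀ ht, one_smul]
            _ = -(t⁻¹ * s) • u := by rw [h3, smul_neg, smul_smul, neg_smul]
      choose cu hcu using hev
      exact ⟨Fin (Module.finrank F V), inferInstance, Module.finBasis F V, id,
        fun i => cu (Module.finBasis F V i), (Module.finBasis F V).linearIndependent,
        (Module.finBasis F V).span_eq, fun i => rfl, fun i => hcu _⟩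

theorem decomp_of_family {F : Type*} [Field F] {V : Type*} [AddCommGroup V] [Module F V]
    {ι : Type} [Fintype ι] (v : ι → V) (π : ι → ι) (c : ι → F) (X : V →ₗ[F] V)
    (hli : LinearIndependent F v) (hsp : Submodule.span F (Set.range v) = ⊤)
    (hπ : ∀ i, π (π i) = i) (hc : ∀ i, c i ≠ 0) (hX : ∀ i, X (v i) = c i • v (π i))
    (a t : ℕ) (ha : 1 ≤ a) (hcard : Fintype.card ι = a * t) :
    ∃ D : Fin t → Submodule F V, (∀ j, Module.finrank F (D j) = a) ∧ iSupIndep D ∧
      iSup D = ⊤ ∧ ∃ σ : Equiv.Perm (Fin t), ∀ j, (D j).map X = D (σ j) := by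
  classical
  obtain ⟨P, hPc, hprop, hdisj, hcov⟩ := partition_exists π hπ a ha t Finset.univ
    (fun i _ => Finset.mem_univ _) (by rw [Finset.card_univ, hcard])
  obtain ⟨e⟩ : Nonempty (Fin t ≃ P) :=
    ⟨(Fintype.equivFinOfCardEq (by rw [Fintype.card_coe]; exact hPc)).symm⟩
  obtain ⟨Bj, hBj⟩ : ∃ Bj : Fin t → Finset ι, Bj = fun j => (e j : Finset ι) := ⟨_, rfl⟩
  have hBmem : ∀ j, Bj j ∈ P := by
    intro j
    rw [hBj]
    exact (e j).2
  have hBinj : ∀ j j', Bj j = Bj j' → j = j' := by
    intro j j' h
    rw [hBj] at h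
    exact e.injective (Subtype.ext h)
  have hBsurj : ∀ B ∈ P, ∃ j, Bj j = B := by
    intro B hB
    refine ⟨e.symm ⟨B, hB⟩, ?_⟩
    rw [hBj]
    simp
  have hBdisj : ∀ j j', j ≠ j' → Disjoint (Bj j : Set ι) (Bj j' : Set ι) := by
    intro j j' hne
    rw [Set.disjoint_left]
    intro i hi hi'
    exact hne (hBinj j j' (hdisj _ (hBmem j) _ (hBmem j') i hi hi'))
  have hτ : ∀ j, ∃ j', Bj j' = (Bj j).image π := fun j => hBsurj _ (hprop _ (hBmem j)).2.2
  choose τ hτ' using hτ
  have hτinj : Function.Injective τ := by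
    intro j j' h
    apply hBinj
    have h1 : (Bj j).image π = (Bj j').image π := by rw [← hτ' j, ← hτ' j', h]
    have h2 := congrArg (Finset.image π) h1
    have h3 : π ∘ π = id := funext hπ
    rw [Finset.image_image, Finset.image_image, h3, Finset.image_id, Finset.image_id] at h2
    exact h2
  obtain ⟨D, hD⟩ : ∃ D : Fin t → Submodule F V,
      D = fun j => Submodule.span F (v '' (Bj j : Set ι)) := ⟨_, rfl⟩
  have hDj : ∀ j, D j = Submodule.span F (v '' (Bj j : Set ι)) := fun j => by rw [hD]
  refine ⟨D, ?_, ?_, ?_, Equiv.ofBijective τ ⟨hτinj, Finite.surjective_of_injective hτinj⟩,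
    ?_⟩
  · intro j
    rw [hDj]
    have h1 : LinearIndependent F (fun i : (Bj j) => v i) :=
      hli.comp _ Subtype.val_injective
    have h2 := finrank_span_eq_card h1
    have h3 : Set.range (fun i : (Bj j) => v i) = v '' (Bj j : Set ι) := by
      ext y
      simp
    rw [h3] at h2
    rw [h2, Fintype.card_coe]
    exact (hprop _ (hBmem j)).1
  · intro j
    have hle : (⨆ j', ⨆ (_ : j' ≠ j), D j')
        ≤ Submodule.span F (v '' (⋃ j', ⋃ (_ : j' ≠ j), (Bj j' : Set ι))) := by
      apply iSup₂_le
      intro j' hj'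
      rw [hDj]
      apply Submodule.span_mono
      apply Set.image_mono
      exact Set.subset_iUnion₂ (s := fun j' (_ : j' ≠ j) => (Bj j' : Set ι)) j' hj'
    have hd : Disjoint (Bj j : Set ι) (⋃ j', ⋃ (_ : j' ≠ j), (Bj j' : Set ι)) := by
      rw [Set.disjoint_left]
      intro i hi hi'
      obtain ⟨j', hj', hi''⟩ := Set.mem_iUnion₂.mp hi'
      exact Set.disjoint_left.mp (hBdisj j j' (Ne.symm hj')) hi hi''
    rw [hDj]
    exact (hli.disjoint_span_image hd).mono_right hle
  · rw [eq_top_iff, ← hsp]
    apply Submodule.span_le.mpr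
    rintro _ ⟨i, rfl⟩
    obtain ⟨B, hB, hi⟩ := hcov i (Finset.mem_univ i)
    obtain ⟨j, rfl⟩ := hBsurj B hB
    apply (le_iSup D j)
    rw [hDj]
    exact Submodule.subset_span ⟨i, hi, rfl⟩
  · intro j
    show (D j).map X = D (τ j)
    rw [hDj, hDj, Submodule.map_span, hτ' j]
    apply le_antisymm
    · apply Submodule.span_le.mpr
      rintro _ ⟨_, ⟨i, hi, rfl⟩, rfl⟩
      rw [hX]
      apply Submodule.smul_mem
      apply Submodule.subset_span
      exact ⟨π i, Finset.mem_coe.mpr (Finset.mem_image_of_mem π (Finset.mem_coe.mp hi)), rfl⟩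
    · apply Submodule.span_le.mpr
      rintro _ ⟨i', hi', rfl⟩
      obtain ⟨i, hi, rfl⟩ := Finset.mem_image.mp (Finset.mem_coe.mp hi')
      have h1 : v (π i) = (c i)⁻¹ • X (v i) := by
        rw [hX, smul_smul, inv_mul_cancel₀ (hc i), one_smul]
      rw [h1]
      apply Submodule.smul_mem
      apply Submodule.subset_span
      exact ⟨v i, ⟨i, Finset.mem_coe.mpr hi, rfl⟩, rfl⟩

/-- Involutions of PSL_n(q) and imprimitive subgroups. Here `T = PSL_n(F)` for a field `F` with `q = p^f` elements (`n ≥ 2`, `(n, q) ≠ (2, 2), (2, 3)`), `n = a·t` with `t ≥ 2`, and Ω is the set of direct-sum decompositions of `F^n` into `t` subspaces of dimension `a` (unordered; their number is the number of ordered ones divided by `t!`), whose stabilizers are the imprimitive subgroups of type GL_a(q) ≀ S_t (maximal except in some small cases; maximality is not assumed); an element of `T` of prime order `r` (a matrix `x` of determinant 1 with `x^r` scalar, `x` not scalar) fixes a point of Ω when it permutes the summands of some such decomposition. If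 the number of such decompositions is even, then every involution of `T` stabilizes one of them (the action is 2-elusive). -/
theorem result {F : Type*} [Field F] [Fintype F] {p : ℕ} [Fact p.Prime] [CharP F p] {q : ℕ} (hq : Fintype.card F = q)
    (n a t : ℕ) (hn : 2 ≤ n) (hT : (n, q) ≠ (2, 2) ∧ (n, q) ≠ (2, 3)) (hat : n = a * t) (ha : 1 ≤ a) (ht : 2 ≤ t)
    (hΩ : 2 ∣ Nat.card {D : Fin t → Submodule F (Fin n → F) // Cfsg.Geo.IsMDecomposition a D} / Nat.factorial t)
    (x : Matrix.SpecialLinearGroup (Fin n) F)
    (hx1 : ∃ z : F, ((x ^ 2 : Matrix.SpecialLinearGroup (Fin n) F) : Matrix (Fin n) (Fin n) F) = z • (1 : Matrix (Fin n) (Fin n) F))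
    (hx2 : ∀ z : F, (x : Matrix (Fin n) (Fin n) F) ≠ z • (1 : Matrix (Fin n) (Fin n) F)) :
    ∃ D : Fin t → Submodule F (Fin n → F), Cfsg.Geo.IsMDecomposition a D ∧
        ∃ σ : Equiv.Perm (Fin t), ∀ j, (D j).map (Matrix.toLin' (x : Matrix (Fin n) (Fin n) F)) = D (σ j) := by
  classical
  obtain ⟨z, hz⟩ := hx1
  have hxx : (x : Matrix (Fin n) (Fin n) F) * (x : Matrix (Fin n) (Fin n) F)
      = z • (1 : Matrix (Fin n) (Fin n) F) := by
    rw [← hz, pow_two, Matrix.SpecialLinearGroup.coe_mul]
  obtain ⟨X, hXdef⟩ : ∃ X : (Fin n → F) →ₗ[F] (Fin n → F),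
      X = Matrix.toLin' (x : Matrix (Fin n) (Fin n) F) := ⟨_, rfl⟩
  have hXX : ∀ v, X (X v) = z • v := by
    intro v
    rw [hXdef, Matrix.toLin'_apply, Matrix.toLin'_apply, Matrix.mulVec_mulVec, hxx,
      Matrix.smul_mulVec, Matrix.one_mulVec]
  have hz0 : z ≠ 0 := by
    intro h0
    have h2 := congrArg Matrix.det hxx
    haveI : Nonempty (Fin n) := ⟨⟨0, by omega⟩⟩
    rw [Matrix.det_mul, x.det_coe, h0, zero_smul, Matrix.det_zero] at h2
    norm_num at h2
  obtain ⟨ι, hfin, v, π, c, hli, hsp, hπ, hXv⟩ :=
    monomial_family z n (Fin n → F) X (by simp) hXX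
  haveI : Fintype ι := hfin
  have hcard : Fintype.card ι = a * t := by
    have h1 := finrank_span_eq_card hli
    rw [hsp, finrank_top, Module.finrank_fintype_fun_eq_card, Fintype.card_fin] at h1
    rw [← h1, hat]
  have hc : ∀ i, c i ≠ 0 := by
    intro i h0
    have h1 := hXX (v i)
    rw [hXv i, h0, zero_smul, map_zero] at h1
    rcases smul_eq_zero.mp h1.symm with h | h
    · exact hz0 h
    · exact hli.ne_zero i h
  obtain ⟨D, hfr, hind, htop, σ, hσ⟩ :=
    decomp_of_family v π c X hli hsp hπ hc hXv a t ha hcard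
  refine ⟨D, ⟨ht, ha, hfr, hind, htop⟩, σ, fun j => ?_⟩
  rw [← hXdef]
  exact hσ j

end Cfsg.Agent.S5957
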