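import Cfsg.Statements.S5962
import Mathlib
import Cfsg.Agent.Lib.Helper9.Symp

set_option autoImplicit false
open scoped MatrixGroups
open Cfsg

namespace Cfsg.Agent.S5962

open Cfsg.Agent.S5648 (Bl Bl_apply Bl_self Bl_skew)
open Cfsg.Agent.Lib.Helper9.Symp

section modes
variable {F : Type*} [Field F] {V : Type*} [AddCommGroup V] [Module F V]
  (B : V →ₗ[F] V →ₗ[F] F)

/-- eigenvector mode: an adapted hyperbolic pair when `X² = 1` -/
theorem modeA_step (hB : ∀ v, B v v = 0) (h2 : (2 : F) ≠ 0) (X : V →ₗ[F] V)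
    (hiso : ∀ u v, B (X u) (X v) = B u v) (hX : ∀ v, X (X v) = v)
    (W : Submodule F V) (hW : W ≠ ⊥) (hinv : ∀ w ∈ W, X w ∈ W) (hnd : NondegOn B W) :
    ∃ e₀ f₀, e₀ ∈ W ∧ f₀ ∈ W ∧ B e₀ f₀ = 1 ∧ X e₀ ∈ Submodule.span F {e₀, f₀} ∧
      X f₀ ∈ Submodule.span F {e₀, f₀} ∧ ∃ α β : F, X e₀ = α • e₀ ∧ X f₀ = β • f₀ := by
  obtain ⟨w, hwW, hw0⟩ := Submodule.exists_mem_ne_zero_of_ne_bot hW
  obtain ⟨e, ε, heW, he0, hε, hXe⟩ :
      ∃ (e : V) (ε : F), e ∈ W ∧ e ≠ 0 ∧ ε * ε = 1 ∧ X e = ε • e := by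
    by_cases h : w + X w = 0
    · refine ⟨w - X w, -1, W.sub_mem hwW (hinv w hwW), ?_, by ring, ?_⟩
      · intro h'
        have h3 : (2 : F) • w = 0 := by
          have h4 : (2 : F) • w = (w + X w) + (w - X w) := by
            rw [two_smul]
            abel
          rw [h4, h, h', add_zero]
        rcases smul_eq_zero.mp h3 with h4 | h4
        · exact h2 h4
        · exact hw0 h4
      · rw [map_sub, hX, neg_one_smul]
        abel
    · refine ⟨w + X w, 1, W.add_mem hwW (hinv w hwW), h, by ring, ?_⟩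
      rw [map_add, hX, one_smul]
      abel
  obtain ⟨v, hvW, hv⟩ := hnd e heW he0
  obtain ⟨v', hv'⟩ : ∃ v' : V, v' = v + ε • X v := ⟨_, rfl⟩
  have hv'W : v' ∈ W := by
    rw [hv']
    exact W.add_mem hvW (W.smul_mem _ (hinv v hvW))
  have hXv' : X v' = ε • v' := by
    rw [hv', map_add, map_smul, hX, smul_add, smul_smul, hε, one_smul]
    abel
  have hBv' : B e v' = 2 * B e v := by
    have h1 := hiso e v
    rw [hXe, map_smul, LinearMap.smul_apply, smul_eq_mul] at h1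
    rw [hv', map_add, map_smul, smul_eq_mul, h1]
    ring
  have hne : B e v' ≠ 0 := by
    rw [hBv']
    exact mul_ne_zero h2 hv
  have hXf : X ((B e v')⁻¹ • v') = ε • ((B e v')⁻¹ • v') := by
    rw [map_smul, hXv', smul_comm]
  refine ⟨e, (B e v')⁻¹ • v', heW, W.smul_mem _ hv'W, ?_, ?_, ?_, ε, ε, hXe, hXf⟩
  · rw [map_smul, smul_eq_mul, inv_mul_cancel₀ hne]
  · rw [hXe]
    exact Submodule.smul_mem _ _ (Submodule.subset_span (Set.mem_insert _ _))
  · rw [hXf]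
    exact Submodule.smul_mem _ _ (Submodule.subset_span (Set.mem_insert_of_mem _ rfl))

/-- swapping mode: an adapted hyperbolic pair when `X² = -1` -/
theorem modeB_step (hB : ∀ v, B v v = 0) (h2 : (2 : F) ≠ 0) (X : V →ₗ[F] V)
    (hiso : ∀ u v, B (X u) (X v) = B u v) (hX : ∀ v, X (X v) = -v)
    (W : Submodule F V) (hW : W ≠ ⊥) (hinv : ∀ w ∈ W, X w ∈ W) (hnd : NondegOn B W) :
    ∃ e₀ f₀, e₀ ∈ W ∧ f₀ ∈ W ∧ B e₀ f₀ = 1 ∧ X e₀ ∈ Submodule.span F {e₀, f₀} ∧
      X f₀ ∈ Submodule.span F {e₀, f₀} ∧ ∃ α β : F, X e₀ = α • f₀ ∧ X f₀ = β • e₀ := by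
  obtain ⟨w, hwW, hw0⟩ := Submodule.exists_mem_ne_zero_of_ne_bot hW
  obtain ⟨v, hvW, hv⟩ := hnd w hwW hw0
  obtain ⟨u, huW, hu⟩ : ∃ u ∈ W, B u (X u) ≠ 0 := by
    by_contra hcon
    push_neg at hcon
    have h1 := hcon (w + X v) (W.add_mem hwW (hinv v hvW))
    have h3 := hcon w hwW
    have h4 := hcon (X v) (hinv v hvW)
    have h5 : B (X v) v = 0 := by
      rw [hX, map_neg, neg_eq_zero] at h4
      exact h4
    have h6 : B (X v) (X w) = - B w v := by rw [hiso, skew B hB]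
    simp only [map_add, map_neg, LinearMap.add_apply, hX] at h1
    rw [h3, h5, h6] at h1
    have h7 : (2 : F) * B w v = 0 := by linear_combination -h1
    rcases mul_eq_zero.mp h7 with h8 | h8
    · exact h2 h8
    · exact hv h8
  have hXe : X u = B u (X u) • ((B u (X u))⁻¹ • X u) := by
    rw [smul_smul, mul_inv_cancel₀ hu, one_smul]
  have hXf : X ((B u (X u))⁻¹ • X u) = (-(B u (X u))⁻¹) • u := by
    rw [map_smul, hX, smul_neg, neg_smul]
  refine ⟨u, (B u (X u))⁻¹ • X u, huW, W.smul_mem _ (hinv u huW), ?_, ?_, ?_,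
    B u (X u), -(B u (X u))⁻¹, hXe, hXf⟩
  · rw [map_smul, smul_eq_mul, inv_mul_cancel₀ hu]
  · have h9 : B u (X u) • ((B u (X u))⁻¹ • X u)
        ∈ Submodule.span F {u, (B u (X u))⁻¹ • X u} :=
      Submodule.smul_mem _ _ (Submodule.subset_span (Set.mem_insert_of_mem _ rfl))
    rw [← hXe] at h9
    exact h9
  · rw [hXf]
    exact Submodule.smul_mem _ _ (Submodule.subset_span (Set.mem_insert _ _))

end modes

theorem assemble {F : Type*} [Field F] {d : ℕ}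
    (X : (Fin d ⊕ Fin d → F) →ₗ[F] (Fin d ⊕ Fin d → F)) (z : F) (hz : z ≠ 0)
    (hX : ∀ v, X (X v) = z • v) {ι : Type} (e f : ι → (Fin d ⊕ Fin d → F))
    (hSF : SF (Bl d F) ⊤ e f)
    (hmode : (∀ i, ∃ α β : F, X (e i) = α • e i ∧ X (f i) = β • f i) ∨
      (∀ i, ∃ α β : F, X (e i) = α • f i ∧ X (f i) = β • e i)) :
    ∃ U W : Submodule F (Fin d ⊕ Fin d → F), IsCompl U W ∧
      (∀ u ∈ U, ∀ v ∈ U, Cfsg.sympForm d F u v = 0) ∧
      (∀ u ∈ W, ∀ v ∈ W, Cfsg.sympForm d F u v = 0) ∧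
      ((U.map X = U ∧ W.map X = W) ∨ (U.map X = W ∧ W.map X = U)) := by
  have hUU := span_orth (Bl d F) (Set.range e) (Set.range e) (by
    rintro _ ⟨i, rfl⟩ _ ⟨j, rfl⟩
    exact hSF.ee i j)
  have hWW := span_orth (Bl d F) (Set.range f) (Set.range f) (by
    rintro _ ⟨i, rfl⟩ _ ⟨j, rfl⟩
    exact hSF.ff i j)
  refine ⟨Submodule.span F (Set.range e), Submodule.span F (Set.range f), ⟨?_, ?_⟩, ?_, ?_, ?_⟩
  · rw [Submodule.disjoint_def]
    intro u hu1 hu2
    by_contra hu0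
    obtain ⟨v, hv⟩ := Bl_nd u hu0
    apply hv
    have hv' := hSF.span v Submodule.mem_top
    refine span_orth (Bl d F) {u} (Set.range e ∪ Set.range f) ?_ u
      (Submodule.subset_span rfl) v hv'
    intro a ha b hb
    rw [Set.mem_singleton_iff] at ha
    subst ha
    rcases hb with ⟨j, rfl⟩ | ⟨j, rfl⟩
    · exact hUU a hu1 _ (Submodule.subset_span ⟨j, rfl⟩)
    · exact hWW a hu2 _ (Submodule.subset_span ⟨j, rfl⟩)
  · rw [codisjoint_iff, ← Submodule.span_union, eq_top_iff]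
    intro w hw
    exact hSF.span w hw
  · intro u hu v hv
    rw [← Bl_apply]
    exact hUU u hu v hv
  · intro u hu v hv
    rw [← Bl_apply]
    exact hWW u hu v hv
  · rcases hmode with hA | hB
    · left
      constructor
      · apply map_eq_of_maps X z hz hX
        · apply span_maps
          rintro _ ⟨i, rfl⟩
          obtain ⟨α, β, h1, h2⟩ := hA i
          rw [h1]
          exact Submodule.smul_mem _ _ (Submodule.subset_span ⟨i, rfl⟩)
        · apply span_maps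
          rintro _ ⟨i, rfl⟩
          obtain ⟨α, β, h1, h2⟩ := hA i
          rw [h1]
          exact Submodule.smul_mem _ _ (Submodule.subset_span ⟨i, rfl⟩)
      · apply map_eq_of_maps X z hz hX
        · apply span_maps
          rintro _ ⟨i, rfl⟩
          obtain ⟨α, β, h1, h2⟩ := hA i
          rw [h2]
          exact Submodule.smul_mem _ _ (Submodule.subset_span ⟨i, rfl⟩)
        · apply span_maps
          rintro _ ⟨i, rfl⟩
          obtain ⟨α, β, h1, h2⟩ := hA i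
          rw [h2]
          exact Submodule.smul_mem _ _ (Submodule.subset_span ⟨i, rfl⟩)
    · right
      constructor
      · apply map_eq_of_maps X z hz hX
        · apply span_maps
          rintro _ ⟨i, rfl⟩
          obtain ⟨α, β, h1, h2⟩ := hB i
          rw [h1]
          exact Submodule.smul_mem _ _ (Submodule.subset_span ⟨i, rfl⟩)
        · apply span_maps
          rintro _ ⟨i, rfl⟩
          obtain ⟨α, β, h1, h2⟩ := hB i
          rw [h2]
          exact Submodule.smul_mem _ _ (Submodule.subset_span ⟨i, rfl⟩)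
      · apply map_eq_of_maps X z hz hX
        · apply span_maps
          rintro _ ⟨i, rfl⟩
          obtain ⟨α, β, h1, h2⟩ := hB i
          rw [h2]
          exact Submodule.smul_mem _ _ (Submodule.subset_span ⟨i, rfl⟩)
        · apply span_maps
          rintro _ ⟨i, rfl⟩
          obtain ⟨α, β, h1, h2⟩ := hB i
          rw [h1]
          exact Submodule.smul_mem _ _ (Submodule.subset_span ⟨i, rfl⟩)

/-- common facts about a symplectic matrix whose square is scalar -/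
theorem sp_setup {F : Type*} [Field F] {d : ℕ} (hd : 0 < d)
    (x : ↥(Matrix.symplecticGroup (Fin d) F)) (z : F)
    (hz : ((x ^ 2 : ↥(Matrix.symplecticGroup (Fin d) F))
      : Matrix (Fin d ⊕ Fin d) (Fin d ⊕ Fin d) F)
      = z • (1 : Matrix (Fin d ⊕ Fin d) (Fin d ⊕ Fin d) F)) :
    (∀ v, Matrix.toLin' (x : Matrix (Fin d ⊕ Fin d) (Fin d ⊕ Fin d) F)
        (Matrix.toLin' (x : Matrix (Fin d ⊕ Fin d) (Fin d ⊕ Fin d) F) v) = z • v) ∧
      (∀ u v, Bl d F (Matrix.toLin' (x : Matrix (Fin d ⊕ Fin d) (Fin d ⊕ Fin d) F) u)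
        (Matrix.toLin' (x : Matrix (Fin d ⊕ Fin d) (Fin d ⊕ Fin d) F) v) = Bl d F u v) ∧
      z * z = 1 ∧ NondegOn (Bl d F) ⊤ := by
  have hxx : (x : Matrix (Fin d ⊕ Fin d) (Fin d ⊕ Fin d) F)
      * (x : Matrix (Fin d ⊕ Fin d) (Fin d ⊕ Fin d) F)
      = z • (1 : Matrix (Fin d ⊕ Fin d) (Fin d ⊕ Fin d) F) := by
    rw [← hz, pow_two]
    rfl
  have hXX : ∀ v, Matrix.toLin' (x : Matrix (Fin d ⊕ Fin d) (Fin d ⊕ Fin d) F)
      (Matrix.toLin' (x : Matrix (Fin d ⊕ Fin d) (Fin d ⊕ Fin d) F) v) = z • v := by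
    intro v
    rw [Matrix.toLin'_apply, Matrix.toLin'_apply, Matrix.mulVec_mulVec, hxx,
      Matrix.smul_mulVec, Matrix.one_mulVec]
  have hiso : ∀ u v, Bl d F (Matrix.toLin' (x : Matrix (Fin d ⊕ Fin d) (Fin d ⊕ Fin d) F) u)
      (Matrix.toLin' (x : Matrix (Fin d ⊕ Fin d) (Fin d ⊕ Fin d) F) v) = Bl d F u v :=
    fun u v => Bl_iso _ x.2 u v
  refine ⟨hXX, hiso, ?_, ?_⟩
  · obtain ⟨u₀, hu₀⟩ : ∃ u₀ : Fin d ⊕ Fin d → F, u₀ ≠ 0 :=
      ⟨Pi.single (Sum.inl ⟨0, hd⟩) 1, by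
        intro h
        have h1 := congrFun h (Sum.inl ⟨0, hd⟩)
        simp at h1⟩
    obtain ⟨v₀, hv₀⟩ := Bl_nd u₀ hu₀
    have h1 := hiso (Matrix.toLin' (x : Matrix (Fin d ⊕ Fin d) (Fin d ⊕ Fin d) F) u₀)
      (Matrix.toLin' (x : Matrix (Fin d ⊕ Fin d) (Fin d ⊕ Fin d) F) v₀)
    rw [hXX, hXX, hiso, map_smul, map_smul, LinearMap.smul_apply, smul_eq_mul, smul_eq_mul]
      at h1
    have h3 : (z * z - 1) * Bl d F u₀ v₀ = 0 := by linear_combination h1
    rcases mul_eq_zero.mp h3 with h4 | h4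
    · linear_combination h4
    · exact absurd h4 hv₀
  · intro u _ hu
    obtain ⟨v, hv⟩ := Bl_nd u hu
    exact ⟨v, Submodule.mem_top, hv⟩

/-- Involutions of PSp_n(q), q odd, and the subgroups GL_{n/2}(q).2. Here `T = PSp_n(q)`, `n = 2d ≥ 4`, `q` odd, realised through the symplectic matrices over the field `F` with `q` elements; Ω is the set of unordered pairs `{U, W}` of complementary totally isotropic `d`-spaces (`F^n = U ⊕ W`), whose stabilizers are the subgroups of type GL_d(q).2 (maximal except in some small cases; maximality is not assumed); an element of `T` of prime order `r` (a symplectic matrix `x` with `x^r` scalar, `x` not scalar) fixes such a pair when it fixes or interchanges `U` and `W`. If the number of such pairs is even, every involution of `T` fixes one of them (the action is 2-elusive). -/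
theorem result {F : Type*} [Field F] [Fintype F] {p : ℕ} [Fact p.Prime] [CharP F p] {q : ℕ} (hq : Fintype.card F = q)
    (d : ℕ) (hd : 2 ≤ d) (hT : (d, q) ≠ (2, 2)) (hodd : Odd q)
    (hΩ : 2 ∣ Nat.card {P : Submodule F (Fin d ⊕ Fin d → F) × Submodule F (Fin d ⊕ Fin d → F) // IsCompl P.1 P.2 ∧ (∀ u ∈ P.1, ∀ v ∈ P.1, Cfsg.sympForm d F u v = 0) ∧ (∀ u ∈ P.2, ∀ v ∈ P.2, Cfsg.sympForm d F u v = 0)} / 2)
    (x : ↥(Matrix.symplecticGroup (Fin d) F))
    (hx1 : ∃ z : F, ((x ^ 2 : ↥(Matrix.symplecticGroup (Fin d) F)) : Matrix (Fin d ⊕ Fin d) (Fin d ⊕ Fin d) F) = z • (1 : Matrix (Fin d ⊕ Fin d) (Fin d ⊕ Fin d) F))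
    (hx2 : ∀ z : F, (x : Matrix (Fin d ⊕ Fin d) (Fin d ⊕ Fin d) F) ≠ z • (1 : Matrix (Fin d ⊕ Fin d) (Fin d ⊕ Fin d) F)) :
    ∃ U W : Submodule F (Fin d ⊕ Fin d → F), IsCompl U W ∧ (∀ u ∈ U, ∀ v ∈ U, Cfsg.sympForm d F u v = 0) ∧ (∀ u ∈ W, ∀ v ∈ W, Cfsg.sympForm d F u v = 0) ∧
        ((U.map (Matrix.toLin' (x : Matrix (Fin d ⊕ Fin d) (Fin d ⊕ Fin d) F)) = U ∧ W.map (Matrix.toLin' (x : Matrix (Fin d ⊕ Fin d) (Fin d ⊕ Fin d) F)) = W) ∨
         (U.map (Matrix.toLin' (x : Matrix (Fin d ⊕ Fin d) (Fin d ⊕ Fin d) F)) = W ∧ W.map (Matrix.toLin' (x : Matrix (Fin d ⊕ Fin d) (Fin d ⊕ Fin d) F)) = U)) := by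
  classical
  obtain ⟨z, hz⟩ := hx1
  obtain ⟨hXX', hiso', hzz, hnd⟩ := sp_setup (by omega : 0 < d) x z hz
  obtain ⟨X, hXdef⟩ : ∃ X : (Fin d ⊕ Fin d → F) →ₗ[F] (Fin d ⊕ Fin d → F),
      X = Matrix.toLin' (x : Matrix (Fin d ⊕ Fin d) (Fin d ⊕ Fin d) F) := ⟨_, rfl⟩
  rw [← hXdef] at hXX' hiso'
  have hB : ∀ v, Bl d F v v = 0 := Bl_self
  have hz0 : z ≠ 0 := by
    intro h0
    rw [h0, mul_zero] at hzz
    exact zero_ne_one hzz
  have h2 : (2 : F) ≠ 0 := by
    intro h2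
    obtain ⟨m, hm⟩ := hodd
    have h3 := Nat.cast_card_eq_zero F
    rw [hq, hm] at h3
    push_cast at h3
    rw [h2, zero_mul, zero_add] at h3
    exact one_ne_zero h3
  have hz1 : z = 1 ∨ z = -1 := by
    have h3 : (z - 1) * (z + 1) = 0 := by linear_combination hzz
    rcases mul_eq_zero.mp h3 with h4 | h4
    · left
      linear_combination h4
    · right
      linear_combination h4
  have key : ∀ (P : (Fin d ⊕ Fin d → F) → (Fin d ⊕ Fin d → F) → Prop),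
      (∀ W : Submodule F (Fin d ⊕ Fin d → F), W ≠ ⊥ → (∀ w ∈ W, X w ∈ W) →
        NondegOn (Bl d F) W → ∃ e₀ f₀, e₀ ∈ W ∧ f₀ ∈ W ∧ Bl d F e₀ f₀ = 1 ∧
          X e₀ ∈ Submodule.span F {e₀, f₀} ∧ X f₀ ∈ Submodule.span F {e₀, f₀} ∧ P e₀ f₀) →
      ∃ (ι : Type) (e f : ι → (Fin d ⊕ Fin d → F)), SF (Bl d F) ⊤ e f ∧
        ∀ i, P (e i) (f i) := by
    intro P hstep
    obtain ⟨ι, hfin, e, f, π, hSF, hπ, hXs, hP, hQ⟩ := gi (Bl d F) hB X hiso' z hz0 hXX' P
      (fun _ _ => False) (fun W hW hinv hndW => Or.inl (hstep W hW hinv hndW)) _ ⊤ rfl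
      (fun w _ => Submodule.mem_top) hnd
    refine ⟨ι, e, f, hSF, fun i => hP i ?_⟩
    by_contra h
    exact hQ i h
  rcases hz1 with h1 | h1
  · obtain ⟨ι, e, f, hSF, hP⟩ := key (fun e₀ f₀ => ∃ α β : F, X e₀ = α • e₀ ∧ X f₀ = β • f₀)
      (fun W hW hinv hndW => modeA_step (Bl d F) hB h2 X hiso' (by
        intro v
        rw [hXX', h1, one_smul]) W hW hinv hndW)
    have hfin := assemble X z hz0 hXX' e f hSF (Or.inl hP)
    rw [hXdef] at hfin
    exact hfin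
  · obtain ⟨ι, e, f, hSF, hP⟩ := key (fun e₀ f₀ => ∃ α β : F, X e₀ = α • f₀ ∧ X f₀ = β • e₀)
      (fun W hW hinv hndW => modeB_step (Bl d F) hB h2 X hiso' (by
        intro v
        rw [hXX', h1, neg_one_smul]) W hW hinv hndW)
    have hfin := assemble X z hz0 hXX' e f hSF (Or.inr hP)
    rw [hXdef] at hfin
    exact hfin

end Cfsg.Agent.S5962
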