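import Cfsg.Statements.S5960
import Mathlib
import Cfsg.Agent.Lib.Helper9.Symp
import Cfsg.Agent.S5957
import Cfsg.Agent.S5962

set_option autoImplicit false
open scoped MatrixGroups
open Cfsg

namespace Cfsg.Agent.S5960

open Cfsg.Agent.S5648 (Bl Bl_apply Bl_self Bl_skew)
open Cfsg.Agent.Lib.Helper9.Symp
open Cfsg.Agent.S5957 (partition_exists)
open Cfsg.Agent.S5962 (modeA_step modeB_step sp_setup)

theorem blocks_decomp {F : Type*} [Field F] {V : Type*} [AddCommGroup V] [Module F V]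
    {κ : Type} [Fintype κ] (w : κ → V) (hli : LinearIndependent F w)
    (hsp : Submodule.span F (Set.range w) = ⊤) {t : ℕ} (T : Fin t → Finset κ) (a : ℕ)
    (hcard : ∀ j, (T j).card = a)
    (hdisj : ∀ j j', j ≠ j' → Disjoint (T j : Set κ) (T j' : Set κ))
    (hcov : ∀ s, ∃ j, s ∈ T j) :
    (∀ j, Module.finrank F (Submodule.span F (w '' (T j : Set κ))) = a) ∧
      iSupIndep (fun j => Submodule.span F (w '' (T j : Set κ))) ∧
      iSup (fun j => Submodule.span F (w '' (T j : Set κ))) = ⊤ := by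
  classical
  refine ⟨?_, ?_, ?_⟩
  · intro j
    have h1 : LinearIndependent F (fun i : (T j) => w i) := hli.comp _ Subtype.val_injective
    have h2 := finrank_span_eq_card h1
    have h3 : Set.range (fun i : (T j) => w i) = w '' (T j : Set κ) := by
      ext y
      simp
    rw [h3] at h2
    rw [h2, Fintype.card_coe]
    exact hcard j
  · intro j
    have hle : (⨆ j', ⨆ (_ : j' ≠ j), Submodule.span F (w '' (T j' : Set κ)))
        ≤ Submodule.span F (w '' (⋃ j', ⋃ (_ : j' ≠ j), (T j' : Set κ))) := by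
      apply iSup₂_le
      intro j' hj'
      apply Submodule.span_mono
      apply Set.image_mono
      exact Set.subset_iUnion₂ (s := fun j' (_ : j' ≠ j) => (T j' : Set κ)) j' hj'
    have hd : Disjoint (T j : Set κ) (⋃ j', ⋃ (_ : j' ≠ j), (T j' : Set κ)) := by
      rw [Set.disjoint_left]
      intro i hi hi'
      obtain ⟨j', hj', hi''⟩ := Set.mem_iUnion₂.mp hi'
      exact Set.disjoint_left.mp (hdisj j j' (Ne.symm hj')) hi hi''
    exact (hli.disjoint_span_image hd).mono_right hle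
  · rw [eq_top_iff, ← hsp]
    apply Submodule.span_le.mpr
    rintro _ ⟨i, rfl⟩
    obtain ⟨j, hj⟩ := hcov i
    apply (le_iSup (fun j => Submodule.span F (w '' (T j : Set κ))) j)
    exact Submodule.subset_span ⟨i, hj, rfl⟩

theorem char2_step {F : Type*} [Field F] {V : Type*} [AddCommGroup V] [Module F V]
    (B : V →ₗ[F] V →ₗ[F] F) (hB : ∀ v, B v v = 0) (h2 : (2 : F) = 0) (X : V →ₗ[F] V)
    (hiso : ∀ u v, B (X u) (X v) = B u v) (hX : ∀ v, X (X v) = v)
    (W : Submodule F V) (hW : W ≠ ⊥) (hinv : ∀ w ∈ W, X w ∈ W) (hnd : NondegOn B W) :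
    (∃ e₀ f₀, e₀ ∈ W ∧ f₀ ∈ W ∧ B e₀ f₀ = 1 ∧ X e₀ ∈ Submodule.span F {e₀, f₀} ∧
      X f₀ ∈ Submodule.span F {e₀, f₀} ∧ True) ∨
    (∃ e₀ f₀, e₀ ∈ W ∧ f₀ ∈ W ∧ B e₀ f₀ = 1 ∧ B e₀ (X e₀) = 0 ∧ B e₀ (X f₀) = 0 ∧
      B f₀ (X e₀) = 0 ∧ B f₀ (X f₀) = 0 ∧ True ∧ True) := by
  by_cases h1 : ∃ u ∈ W, B u (X u) ≠ 0
  · left
    obtain ⟨u, huW, hu⟩ := h1
    have hXe : X u = B u (X u) • ((B u (X u))⁻¹ • X u) := by
      rw [smul_smul, mul_inv_cancel₀ hu, one_smul]
    have hXf : X ((B u (X u))⁻¹ • X u) = (B u (X u))⁻¹ • u := by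
      rw [map_smul, hX]
    refine ⟨u, (B u (X u))⁻¹ • X u, huW, W.smul_mem _ (hinv u huW), ?_, ?_, ?_, trivial⟩
    · rw [map_smul, smul_eq_mul, inv_mul_cancel₀ hu]
    · have h9 : B u (X u) • ((B u (X u))⁻¹ • X u)
          ∈ Submodule.span F {u, (B u (X u))⁻¹ • X u} :=
        Submodule.smul_mem _ _ (Submodule.subset_span (Set.mem_insert_of_mem _ rfl))
      rw [← hXe] at h9
      exact h9
    · rw [hXf]
      exact Submodule.smul_mem _ _ (Submodule.subset_span (Set.mem_insert _ _))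
  · push_neg at h1
    by_cases h3 : ∀ w ∈ W, X w = w
    · left
      obtain ⟨w, hwW, hw0⟩ := Submodule.exists_mem_ne_zero_of_ne_bot hW
      obtain ⟨v, hvW, hv⟩ := hnd w hwW hw0
      refine ⟨w, (B w v)⁻¹ • v, hwW, W.smul_mem _ hvW, ?_, ?_, ?_, trivial⟩
      · rw [map_smul, smul_eq_mul, inv_mul_cancel₀ hv]
      · rw [h3 w hwW]
        exact Submodule.subset_span (Set.mem_insert _ _)
      · rw [h3 _ (W.smul_mem _ hvW)]
        exact Submodule.subset_span (Set.mem_insert_of_mem _ rfl)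
    · right
      push_neg at h3
      obtain ⟨v, hvW, hv⟩ := h3
      have hv0 : v - X v ≠ 0 := fun h => hv (sub_eq_zero.mp h).symm
      obtain ⟨w, hwW, hw⟩ := hnd (v - X v) (W.sub_mem hvW (hinv v hvW)) hv0
      have hβ : B (X v) w = B v (X w) := by
        have h4 := hiso (X v) w
        rw [hX] at h4
        exact h4.symm
      rw [map_sub, LinearMap.sub_apply, hβ] at hw
      obtain ⟨w', hw'W, hw'1, hw'2⟩ : ∃ w' ∈ W, B v w' ≠ 0 ∧ B v (X w') = 0 := by
        by_cases hα : B v w = 0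
        · refine ⟨X w, hinv w hwW, ?_, ?_⟩
          · intro h
            apply hw
            rw [hα, h, sub_zero]
          · rw [hX]
            exact hα
        · have h6 : (B v w)⁻¹ * B v w = 1 := inv_mul_cancel₀ hα
          refine ⟨w + (B v (X w) * (B v w)⁻¹) • X w,
            W.add_mem hwW (W.smul_mem _ (hinv w hwW)), ?_, ?_⟩
          · rw [map_add, map_smul, smul_eq_mul]
            intro h
            apply hw
            have h5 : B v w * B v w + B v (X w) * B v (X w) = 0 := by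
              linear_combination B v w * h - B v (X w) * B v (X w) * h6
            have h7 : (B v w - B v (X w)) * (B v w - B v (X w)) = 0 := by
              linear_combination h5 - B v w * B v (X w) * h2
            exact mul_self_eq_zero.mp h7
          · simp only [map_add, map_smul, hX, smul_eq_mul]
            linear_combination B v (X w) * h2 + B v (X w) * h6
      have h8 : B w' (X v) = 0 := by
        have h9 := hiso w' (X v)
        rw [hX] at h9
        rw [← h9, skew B hB, hw'2, neg_zero]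
      refine ⟨v, (B v w')⁻¹ • w', hvW, W.smul_mem _ hw'W, ?_, ?_, ?_, ?_, ?_, trivial, trivial⟩
      · rw [map_smul, smul_eq_mul, inv_mul_cancel₀ hw'1]
      · exact h1 v hvW
      · simp only [map_smul, smul_eq_mul, hw'2, mul_zero]
      · simp only [map_smul, LinearMap.smul_apply, smul_eq_mul, h8, mul_zero]
      · simp only [map_smul, LinearMap.smul_apply, smul_eq_mul, h1 w' hw'W, mul_zero]

theorem assemble2 {F : Type*} [Field F] {d : ℕ}
    (X : (Fin d ⊕ Fin d → F) →ₗ[F] (Fin d ⊕ Fin d → F)) (z : F) (hz : z ≠ 0)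
    (hX : ∀ v, X (X v) = z • v) {ι : Type} [Fintype ι] (e f : ι → (Fin d ⊕ Fin d → F))
    (π : ι → ι) (hSF : SF (Bl d F) ⊤ e f) (hπ : ∀ i, π (π i) = i)
    (hXs : ∀ i, X (e i) ∈ Submodule.span F {e (π i), f (π i)} ∧
      X (f i) ∈ Submodule.span F {e (π i), f (π i)})
    (a' t : ℕ) (ha' : 1 ≤ a') (ht : 2 ≤ t) (hdt : d = a' * t) :
    ∃ D : Fin t → Submodule F (Fin d ⊕ Fin d → F),
      (Cfsg.Geo.IsMDecomposition (a' + a') D ∧
        (∀ j, ∀ u ∈ D j, u ≠ 0 → ∃ v ∈ D j, Cfsg.sympForm d F u v ≠ 0) ∧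
        (∀ j j', j ≠ j' → ∀ u ∈ D j, ∀ v ∈ D j', Cfsg.sympForm d F u v = 0)) ∧
      ∃ σ : Equiv.Perm (Fin t), ∀ j, (D j).map X = D (σ j) := by
  classical
  have hB : ∀ v, Bl d F v v = 0 := Bl_self
  have hli := sf_li (Bl d F) hB ⊤ e f hSF
  have hsp : Submodule.span F (Set.range (Sum.elim e f)) = ⊤ := by
    rw [Set.Sum.elim_range, eq_top_iff]
    intro w hw
    exact hSF.span w hw
  have hcard : Fintype.card ι = a' * t := by
    have h1 := finrank_span_eq_card hli
    rw [hsp, finrank_top, Module.finrank_fintype_fun_eq_card, Fintype.card_sum,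
      Fintype.card_sum, Fintype.card_fin] at h1
    omega
  obtain ⟨P, hPc, hprop, hdisj, hcov⟩ := partition_exists π hπ a' ha' t Finset.univ
    (fun i _ => Finset.mem_univ _) (by rw [Finset.card_univ, hcard])
  obtain ⟨eq⟩ : Nonempty (Fin t ≃ P) :=
    ⟨(Fintype.equivFinOfCardEq (by rw [Fintype.card_coe]; exact hPc)).symm⟩
  obtain ⟨Bj, hBj⟩ : ∃ Bj : Fin t → Finset ι, Bj = fun j => (eq j : Finset ι) := ⟨_, rfl⟩
  have hBmem : ∀ j, Bj j ∈ P := by
    intro j
    rw [hBj]
    exact (eq j).2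
  have hBinj : ∀ j j', Bj j = Bj j' → j = j' := by
    intro j j' h
    rw [hBj] at h
    exact eq.injective (Subtype.ext h)
  have hBsurj : ∀ B ∈ P, ∃ j, Bj j = B := by
    intro B hB
    refine ⟨eq.symm ⟨B, hB⟩, ?_⟩
    rw [hBj]
    simp
  have hBdisj' : ∀ j j' i, i ∈ Bj j → i ∈ Bj j' → j = j' := fun j j' i hi hi' =>
    hBinj j j' (hdisj _ (hBmem j) _ (hBmem j') i hi hi')
  have hBcov : ∀ i, ∃ j, i ∈ Bj j := by
    intro i
    obtain ⟨B, hB, hi⟩ := hcov i (Finset.mem_univ i)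
    obtain ⟨j, rfl⟩ := hBsurj B hB
    exact ⟨j, hi⟩
  have hτ : ∀ j, ∃ j', Bj j' = (Bj j).image π := fun j => hBsurj _ (hprop _ (hBmem j)).2.2
  choose τ hτ' using hτ
  have hτinj : Function.Injective τ := by
    intro j j' h
    apply hBinj
    have h1 : (Bj j).image π = (Bj j').image π := by rw [← hτ' j, ← hτ' j', h]
    have h2 := congrArg (Finset.image π) h1
    have h3 : π ∘ π = id := funext hπ
    rw [Finset.image_image, Finset.image_image, h3, Finset.image_id, Finset.image_id] at h2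
    exact h2
  obtain ⟨T, hT⟩ : ∃ T : Fin t → Finset (ι ⊕ ι), T = fun j => (Bj j).disjSum (Bj j) :=
    ⟨_, rfl⟩
  have hTl : ∀ j i, Sum.inl i ∈ T j ↔ i ∈ Bj j := by
    intro j i
    rw [hT]
    exact Finset.inl_mem_disjSum
  have hTr : ∀ j i, Sum.inr i ∈ T j ↔ i ∈ Bj j := by
    intro j i
    rw [hT]
    exact Finset.inr_mem_disjSum
  have hTcard : ∀ j, (T j).card = a' + a' := by
    intro j
    rw [hT]
    show ((Bj j).disjSum (Bj j)).card = a' + a'
    rw [Finset.card_disjSum, (hprop _ (hBmem j)).1]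
  have hTdisj : ∀ j j', j ≠ j' → Disjoint (T j : Set (ι ⊕ ι)) (T j' : Set (ι ⊕ ι)) := by
    intro j j' hne
    rw [Set.disjoint_left]
    rintro (i | i) hi hi'
    · exact hne (hBdisj' j j' i ((hTl j i).mp hi) ((hTl j' i).mp hi'))
    · exact hne (hBdisj' j j' i ((hTr j i).mp hi) ((hTr j' i).mp hi'))
  have hTcov : ∀ s, ∃ j, s ∈ T j := by
    rintro (i | i)
    · obtain ⟨j, hj⟩ := hBcov i
      exact ⟨j, (hTl j i).mpr hj⟩
    · obtain ⟨j, hj⟩ := hBcov i
      exact ⟨j, (hTr j i).mpr hj⟩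
  obtain ⟨hfr, hind, htop⟩ :=
    blocks_decomp (Sum.elim e f) hli hsp T (a' + a') hTcard hTdisj hTcov
  obtain ⟨D, hD⟩ : ∃ D : Fin t → Submodule F (Fin d ⊕ Fin d → F),
      D = fun j => Submodule.span F (Sum.elim e f '' (T j : Set (ι ⊕ ι))) := ⟨_, rfl⟩
  have hDj : ∀ j, D j = Submodule.span F (Sum.elim e f '' (T j : Set (ι ⊕ ι))) :=
    fun j => by rw [hD]
  have heD : ∀ j i, i ∈ Bj j → e i ∈ D j := by
    intro j i hi
    rw [hDj]
    exact Submodule.subset_span ⟨Sum.inl i, Finset.mem_coe.mpr ((hTl j i).mpr hi), rfl⟩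
  have hfD : ∀ j i, i ∈ Bj j → f i ∈ D j := by
    intro j i hi
    rw [hDj]
    exact Submodule.subset_span ⟨Sum.inr i, Finset.mem_coe.mpr ((hTr j i).mpr hi), rfl⟩
  have hgen : ∀ j, ∀ y ∈ Sum.elim e f '' (T j : Set (ι ⊕ ι)),
      ∃ i ∈ Bj j, y = e i ∨ y = f i := by
    rintro j _ ⟨s, hs, rfl⟩
    rcases s with i | i
    · exact ⟨i, (hTl j i).mp (Finset.mem_coe.mp hs), Or.inl rfl⟩
    · exact ⟨i, (hTr j i).mp (Finset.mem_coe.mp hs), Or.inr rfl⟩
  have horth : ∀ j j', j ≠ j' → ∀ u ∈ D j, ∀ v ∈ D j', Bl d F u v = 0 := by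
    intro j j' hne u hu v hv
    rw [hDj] at hu hv
    refine span_orth (Bl d F) _ _ ?_ u hu v hv
    intro y hy y' hy'
    obtain ⟨i, hi, hy⟩ := hgen j y hy
    obtain ⟨i', hi', hy'⟩ := hgen j' y' hy'
    have hii : i ≠ i' := by
      intro h
      rw [h] at hi
      exact hne (hBdisj' j j' i' hi hi')
    rcases hy with rfl | rfl <;> rcases hy' with rfl | rfl
    · exact hSF.ee i i'
    · exact hSF.ef_ne i i' hii
    · exact sf_fe_ne (Bl d F) hB ⊤ e f hSF i i' hii
    · exact hSF.ff i i'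
  have hndD : ∀ j, ∀ u ∈ D j, u ≠ 0 → ∃ v ∈ D j, Bl d F u v ≠ 0 := by
    intro j u hu hu0
    by_contra hcon
    push_neg at hcon
    obtain ⟨v, hv⟩ := Bl_nd u hu0
    apply hv
    refine span_orth (Bl d F) {u} (Set.range e ∪ Set.range f) ?_ u
      (Submodule.subset_span rfl) v (hSF.span v Submodule.mem_top)
    intro a ha b hb
    rw [Set.mem_singleton_iff] at ha
    subst ha
    rcases hb with ⟨i, rfl⟩ | ⟨i, rfl⟩
    · obtain ⟨j', hj'⟩ := hBcov i
      by_cases hjj : j = j'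
      · subst hjj
        exact hcon _ (heD j i hj')
      · exact horth j j' hjj a hu _ (heD j' i hj')
    · obtain ⟨j', hj'⟩ := hBcov i
      by_cases hjj : j = j'
      · subst hjj
        exact hcon _ (hfD j i hj')
      · exact horth j j' hjj a hu _ (hfD j' i hj')
  refine ⟨D, ⟨⟨ht, by omega, ?_, ?_, ?_⟩, ?_, ?_⟩,
    Equiv.ofBijective τ ⟨hτinj, Finite.surjective_of_injective hτinj⟩, ?_⟩
  · intro j
    rw [hDj]
    exact hfr j
  · rw [hD]
    exact hind
  · rw [hD]
    exact htop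
  · intro j u hu hu0
    obtain ⟨v, hv, hne⟩ := hndD j u hu hu0
    refine ⟨v, hv, ?_⟩
    rw [← Bl_apply]
    exact hne
  · intro j j' hne u hu v hv
    rw [← Bl_apply]
    exact horth j j' hne u hu v hv
  · intro j
    show (D j).map X = D (τ j)
    apply map_eq_of_maps X z hz hX
    · rw [hDj]
      apply span_maps
      intro y hy
      obtain ⟨i, hi, hy⟩ := hgen j y hy
      have hπi : π i ∈ Bj (τ j) := by
        rw [hτ' j]
        exact Finset.mem_image_of_mem π hi
      have hle : Submodule.span F {e (π i), f (π i)} ≤ D (τ j) := by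
        apply Submodule.span_le.mpr
        intro y' hy'
        rcases hy' with rfl | hy'
        · exact heD _ _ hπi
        · rw [Set.mem_singleton_iff] at hy'
          rw [hy']
          exact hfD _ _ hπi
      rcases hy with rfl | rfl
      · exact hle (hXs i).1
      · exact hle (hXs i).2
    · rw [hDj (τ j)]
      apply span_maps
      intro y hy
      obtain ⟨i', hi', hy⟩ := hgen (τ j) y hy
      rw [hτ' j] at hi'
      obtain ⟨i, hi, rfl⟩ := Finset.mem_image.mp hi'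
      have hle : Submodule.span F {e (π (π i)), f (π (π i))} ≤ D j := by
        rw [hπ]
        apply Submodule.span_le.mpr
        intro y' hy'
        rcases hy' with rfl | hy'
        · exact heD _ _ hi
        · rw [Set.mem_singleton_iff] at hy'
          rw [hy']
          exact hfD _ _ hi
      rcases hy with rfl | rfl
      · exact hle (hXs (π i)).1
      · exact hle (hXs (π i)).2

/-- Involutions of PSp_n(q) and imprimitive subgroups. Here `T = PSp_n(q)`, `n = 2d ≥ 4`, `(n, q) ≠ (4, 2)`, realised through the symplectic matrices over the field `F` with `q` elements and the standard alternating form; `n = a·t` with `a` even and `t ≥ 2`, and Ω is the (nonempty) set of orthogonal decompositions of `F^n` into `t` nondegenerate subspaces of dimension `a` (unordered; counted as ordered ones divided by `t!`), whose stabilizers are the imprimitive subgroups of type Sp_a(q) ≀ S_t (maximality is not assumed); an element of `T` of prime order `r`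 (a symplectic matrix `x` with `x^r` scalar, `x` not scalar) fixes a point of Ω when it permutes the summands of some such decomposition. If the number of such decompositions is even, then every involution of `T` stabilizes one of them (the action is 2-elusive). -/
theorem result {F : Type*} [Field F] [Fintype F] {p : ℕ} [Fact p.Prime] [CharP F p] {q : ℕ} (hq : Fintype.card F = q)
    (d : ℕ) (hd : 2 ≤ d) (hT : (d, q) ≠ (2, 2))
    (a t : ℕ) (hat : 2 * d = a * t) (ha : 2 ≤ a) (hae : Even a) (ht : 2 ≤ t) (hΩ : 2 ∣ Nat.card {D : Fin t → Submodule F (Fin d ⊕ Fin d → F) // (Cfsg.Geo.IsMDecomposition a D ∧ (∀ j, ∀ u ∈ D j, u ≠ 0 → ∃ v ∈ D j, Cfsg.sympForm d F u v ≠ 0) ∧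
          (∀ j j', j ≠ j' → ∀ u ∈ D j, ∀ v ∈ D j', Cfsg.sympForm d F u v = 0))} / Nat.factorial t)
    (x : ↥(Matrix.symplecticGroup (Fin d) F))
    (hx1 : ∃ z : F, ((x ^ 2 : ↥(Matrix.symplecticGroup (Fin d) F)) : Matrix (Fin d ⊕ Fin d) (Fin d ⊕ Fin d) F) = z • (1 : Matrix (Fin d ⊕ Fin d) (Fin d ⊕ Fin d) F))
    (hx2 : ∀ z : F, (x : Matrix (Fin d ⊕ Fin d) (Fin d ⊕ Fin d) F) ≠ z • (1 : Matrix (Fin d ⊕ Fin d) (Fin d ⊕ Fin d) F)) :
    ∃ D : Fin t → Submodule F (Fin d ⊕ Fin d → F), (Cfsg.Geo.IsMDecomposition a D ∧ (∀ j, ∀ u ∈ D j, u ≠ 0 → ∃ v ∈ D j, Cfsg.sympForm d F u v ≠ 0) ∧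
          (∀ j j', j ≠ j' → ∀ u ∈ D j, ∀ v ∈ D j', Cfsg.sympForm d F u v = 0)) ∧
        ∃ σ : Equiv.Perm (Fin t), ∀ j, (D j).map (Matrix.toLin' (x : Matrix (Fin d ⊕ Fin d) (Fin d ⊕ Fin d) F)) = D (σ j) := by
  classical
  obtain ⟨z, hz⟩ := hx1
  obtain ⟨hXX', hiso', hzz, hnd⟩ := sp_setup (by omega : 0 < d) x z hz
  obtain ⟨X, hXdef⟩ : ∃ X : (Fin d ⊕ Fin d → F) →ₗ[F] (Fin d ⊕ Fin d → F),
      X = Matrix.toLin' (x : Matrix (Fin d ⊕ Fin d) (Fin d ⊕ Fin d) F) := ⟨_, rfl⟩
  rw [← hXdef] at hXX' hiso'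
  have hB : ∀ v, Bl d F v v = 0 := Bl_self
  have hz0 : z ≠ 0 := by
    intro h0
    rw [h0, mul_zero] at hzz
    exact zero_ne_one hzz
  have hstep : ∀ W : Submodule F (Fin d ⊕ Fin d → F), W ≠ ⊥ → (∀ w ∈ W, X w ∈ W) →
      NondegOn (Bl d F) W →
      (∃ e₀ f₀, e₀ ∈ W ∧ f₀ ∈ W ∧ Bl d F e₀ f₀ = 1 ∧ X e₀ ∈ Submodule.span F {e₀, f₀} ∧
        X f₀ ∈ Submodule.span F {e₀, f₀} ∧ True) ∨
      (∃ e₀ f₀, e₀ ∈ W ∧ f₀ ∈ W ∧ Bl d F e₀ f₀ = 1 ∧ Bl d F e₀ (X e₀) = 0 ∧
        Bl d F e₀ (X f₀) = 0 ∧ Bl d F f₀ (X e₀) = 0 ∧ Bl d F f₀ (X f₀) = 0 ∧ True ∧ True) := by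
    intro W hW hinv hndW
    by_cases h2 : (2 : F) = 0
    · have hz1 : z = 1 := by
        have h3 : (z - 1) * (z - 1) = 0 := by linear_combination hzz + (1 - z) * h2
        linear_combination mul_self_eq_zero.mp h3
      exact char2_step (Bl d F) hB h2 X hiso' (by
        intro v
        rw [hXX', hz1, one_smul]) W hW hinv hndW
    · left
      have hz1 : z = 1 ∨ z = -1 := by
        have h3 : (z - 1) * (z + 1) = 0 := by linear_combination hzz
        rcases mul_eq_zero.mp h3 with h4 | h4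
        · left
          linear_combination h4
        · right
          linear_combination h4
      rcases hz1 with h1 | h1
      · obtain ⟨e₀, f₀, h1', h2', h3', h4', h5', -⟩ := modeA_step (Bl d F) hB h2 X hiso' (by
          intro v
          rw [hXX', h1, one_smul]) W hW hinv hndW
        exact ⟨e₀, f₀, h1', h2', h3', h4', h5', trivial⟩
      · obtain ⟨e₀, f₀, h1', h2', h3', h4', h5', -⟩ := modeB_step (Bl d F) hB h2 X hiso' (by
          intro v
          rw [hXX', h1, neg_one_smul]) W hW hinv hndW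
        exact ⟨e₀, f₀, h1', h2', h3', h4', h5', trivial⟩
  obtain ⟨ι, hfin, e, f, π, hSF, hπ, hXs, -, -⟩ := gi (Bl d F) hB X hiso' z hz0 hXX'
    (fun _ _ => True) (fun _ _ => True) hstep _ ⊤ rfl (fun w _ => Submodule.mem_top) hnd
  haveI : Fintype ι := hfin
  obtain ⟨a', ha'⟩ := hae
  have hdt : d = a' * t := by
    have h1 : 2 * d = 2 * (a' * t) := by
      rw [hat, ha']
      ring
    omega
  have hres := assemble2 X z hz0 hXX' e f π hSF hπ hXs a' t (by omega) ht hdt
  rw [hXdef, ← ha'] at hres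
  exact hres

end Cfsg.Agent.S5960
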